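import Cfsg.Statements.S0043
import Mathlib

set_option autoImplicit false
open Cfsg

namespace Cfsg.Agent.S0043

/-- A minimal normal subgroup of a finite solvable group is abelian, and for some prime p all of its elements have order dividing p. -/
theorem result {G : Type*} [Group G] [Finite G] [Group.IsSolvable G]
    (N : Subgroup G) [N.Normal] (hN : N ≠ ⊥) (hmin : ∀ M : Subgroup G, M.Normal → M ≤ N → M = ⊥ ∨ M = N) :
    IsMulCommutative N ∧ ∃ p : ℕ, p.Prime ∧ ∀ x ∈ N, x ^ p = 1 := by
  haveI : Nontrivial N := (Subgroup.nontrivial_iff_ne_bot N).mpr hN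
  have hcomm : IsMulCommutative N := by
    rw [← Subgroup.commutator_self_eq_bot_iff]
    by_contra hne
    have heq : ⁅N, N⁆ = N :=
      (hmin _ inferInstance (Subgroup.commutator_le_left N N)).resolve_left hne
    rw [← Subgroup.map_subtype_commutator] at heq
    have htop : commutator N = ⊤ := by
      apply Subgroup.map_injective N.subtype_injective
      rw [heq, ← MonoidHom.range_eq_map, Subgroup.range_subtype]
    exact (ne_of_lt (Group.IsSolvable.commutator_lt_top_of_nontrivial N)) htop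
  refine ⟨hcomm, ?_⟩
  have hcard : Nat.card N ≠ 1 := by
    intro h
    exact hN ((Subgroup.card_eq_one).mp h)
  obtain ⟨p, hp, hpd⟩ := Nat.exists_prime_and_dvd hcard
  refine ⟨p, hp, ?_⟩
  haveI : Fact p.Prime := ⟨hp⟩
  obtain ⟨x, hx⟩ := exists_prime_orderOf_dvd_card' p hpd
  have hc : ∀ a ∈ N, ∀ b ∈ N, a * b = b * a := fun a ha b hb =>
    congrArg Subtype.val (mul_comm' (⟨a, ha⟩ : N) ⟨b, hb⟩)
  let Ω : Subgroup G :=
    { carrier := {y | y ∈ N ∧ y ^ p = 1}
      one_mem' := ⟨N.one_mem, one_pow p⟩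
      mul_mem' := by
        rintro a b ⟨ha, ha'⟩ ⟨hb, hb'⟩
        refine ⟨N.mul_mem ha hb, ?_⟩
        have : Commute a b := hc a ha b hb
        rw [this.mul_pow, ha', hb', one_mul]
      inv_mem' := by
        rintro a ⟨ha, ha'⟩
        exact ⟨N.inv_mem ha, by rw [inv_pow, ha', inv_one]⟩ }
  have hΩn : Ω.Normal := by
    constructor
    rintro n ⟨hn, hn'⟩ g
    refine ⟨Subgroup.Normal.conj_mem inferInstance n hn g, ?_⟩
    rw [conj_pow, hn', mul_one, mul_inv_cancel]
  have hΩle : Ω ≤ N := fun y hy => hy.1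
  have hΩne : Ω ≠ ⊥ := by
    intro h
    have hx1 : (x : G) ∈ Ω := by
      refine ⟨x.2, ?_⟩
      have : x ^ p = 1 := by rw [← hx]; exact pow_orderOf_eq_one x
      have := congrArg Subtype.val this
      simpa using this
    rw [h, Subgroup.mem_bot] at hx1
    have : x = 1 := Subtype.ext hx1
    rw [this, orderOf_one] at hx
    exact hp.one_lt.ne hx
  have hΩ : Ω = N := (hmin Ω hΩn hΩle).resolve_left hΩne
  intro y hy
  rw [← hΩ] at hy
  exact hy.2

end Cfsg.Agent.S0043
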