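import Cfsg.Statements.S1453

import Cfsg.Agent.Lib.helper8.PGroupEA
set_option autoImplicit false
open Cfsg

namespace Cfsg.Agent.S1453

open Cfsg.Agent.Lib.helper8

/-- Let p be an odd prime and R a finite p-group with an elementary abelian subgroup of order p ^ 3 and an elementary abelian subgroup E of order p ^ 2 contained in no larger elementary abelian subgroup. Let Z₂ be the second centre of R, W the subgroup generated by the elements of Z₂ of order dividing p, and T = C_R(W). Then E is not contained in T; the elements of order dividing p of the centre of R generate a group of order p; W is elementary abelian of order p ^ 2; and T is characteristic in R of index p. -/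
theorem result {R : Type*} [Group R] [Finite R] (p : ℕ) [Fact p.Prime] (hp : p ≠ 2) (hR : IsPGroup p R) (hr : ¬ Cfsg.PRankLE p 2 R)
    (E : Subgroup R) (hE : Cfsg.IsElementaryAbelian p E) (hE2 : Nat.card E = p ^ 2)
    (hEmax : ∀ B : Subgroup R, Cfsg.IsElementaryAbelian p B → E ≤ B → B = E) :
    ¬ E ≤ Subgroup.centralizer ((Subgroup.closure {x : R | x ∈ Subgroup.upperCentralSeries R 2 ∧ x ^ p = 1} : Subgroup R) : Set R) ∧
      Nat.card ↥(Subgroup.closure {x : R | x ∈ Subgroup.center R ∧ x ^ p = 1}) = p ∧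
      (Cfsg.IsElementaryAbelian p (Subgroup.closure {x : R | x ∈ Subgroup.upperCentralSeries R 2 ∧ x ^ p = 1}) ∧
        Nat.card ↥(Subgroup.closure {x : R | x ∈ Subgroup.upperCentralSeries R 2 ∧ x ^ p = 1}) = p ^ 2) ∧
      (Subgroup.centralizer ((Subgroup.closure {x : R | x ∈ Subgroup.upperCentralSeries R 2 ∧ x ^ p = 1} : Subgroup R) : Set R)).Characteristic ∧
      (Subgroup.centralizer ((Subgroup.closure {x : R | x ∈ Subgroup.upperCentralSeries R 2 ∧ x ^ p = 1} : Subgroup R) : Set R)).index = p := by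

  have hp' : p.Prime := Fact.out
  have hp3 : 2 < p := lt_of_le_of_ne hp'.two_le (Ne.symm hp)
  have hpp : p < p ^ 2 := by nlinarith [hp'.one_lt]
  have hOm : ∀ x : R, x ∈ Subgroup.centralizer (E : Set R) → x ^ p = 1 → x ∈ E := by
    intro x hxC hxp
    have h1 := hEmax _ (isElementaryAbelian_sup_zpowers p E hE x hxC hxp) le_sup_left
    rw [← h1]; exact Subgroup.mem_sup_right (Subgroup.mem_zpowers x)
  obtain ⟨Z₀, hZ₀⟩ : ∃ Z₀ : Subgroup R,
      Z₀ = Subgroup.closure {x : R | x ∈ Subgroup.center R ∧ x ^ p = 1} := ⟨_, rfl⟩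
  have hZ₀mem : ∀ x ∈ Z₀, x ∈ Subgroup.center R ∧ x ^ p = 1 := by
    intro x hx
    rw [hZ₀] at hx
    induction hx using Subgroup.closure_induction with
    | mem x hx => exact hx
    | one => exact ⟨one_mem _, one_pow p⟩
    | mul x y _ _ ihx ihy =>
      refine ⟨mul_mem ihx.1 ihy.1, ?_⟩
      have hc : Commute x y := (Subgroup.mem_center_iff.mp ihy.1 x)
      rw [hc.mul_pow, ihx.2, ihy.2, one_mul]
    | inv x _ ih => exact ⟨inv_mem ih.1, by rw [inv_pow, ih.2, inv_one]⟩
  have hcenE : ∀ x ∈ Subgroup.center R, x ∈ Subgroup.centralizer (E : Set R) := by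
    intro x hx
    rw [Subgroup.mem_centralizer_iff]
    intro y _
    exact Subgroup.mem_center_iff.mp hx y
  have hZ₀E : Z₀ ≤ E := fun x hx => hOm x (hcenE x (hZ₀mem x hx).1) (hZ₀mem x hx).2
  have hr' := hr
  unfold Cfsg.PRankLE at hr'
  push_neg at hr'
  obtain ⟨B, hBc, hBp, hBcard⟩ := hr'
  haveI : Nontrivial R := by
    rw [← Finite.one_lt_card_iff_nontrivial]
    have h1 : Nat.card E ≤ Nat.card R := Subgroup.card_le_card_group E
    rw [hE2] at h1
    have := hp'.one_lt
    omega
  obtain ⟨z, hz1, hzp, hzc⟩ := exists_central_order_p p hR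
  have hzcen : z ∈ Subgroup.center R := Subgroup.mem_center_iff.mpr hzc
  have hzZ₀ : z ∈ Z₀ := by rw [hZ₀]; exact Subgroup.subset_closure ⟨hzcen, hzp⟩
  have hZcard : Nat.card (Subgroup.zpowers z) = p := by
    rw [Nat.card_zpowers]; exact orderOf_eq_prime hzp hz1
  have hZle : Subgroup.zpowers z ≤ Z₀ := by rw [Subgroup.zpowers_le]; exact hzZ₀
  have hZ₀eq : Z₀ = Subgroup.zpowers z := by
    by_contra hne
    have hlt : Subgroup.zpowers z < Z₀ := lt_of_le_of_ne hZle (Ne.symm hne)
    have h1 := eq_of_lt_of_card_sq hp' hlt hZ₀E hZcard hE2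
    have hBE : B ≤ E := by
      intro b hb
      apply hOm b _ (hBp b hb)
      rw [Subgroup.mem_centralizer_iff]
      intro y hy
      rw [← h1] at hy
      exact (Subgroup.mem_center_iff.mp (hZ₀mem y hy).1 b).symm
    have := Subgroup.card_le_of_le hBE
    omega
  have hZ₀card : Nat.card Z₀ = p := by rw [hZ₀eq]; exact hZcard
  have hZc : Subgroup.zpowers z ≤ Subgroup.center R := by rw [Subgroup.zpowers_le]; exact hzcen
  haveI hZn : (Subgroup.zpowers z).Normal := by
    refine ⟨fun n hn g => ?_⟩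
    have h1 := Subgroup.mem_center_iff.mp (hZc hn) g
    have h2 : g * n * g⁻¹ = n := by rw [h1]; group
    rw [h2]; exact hn
  obtain ⟨e₀, he₀E, he₀Z⟩ : ∃ e₀ ∈ E, e₀ ∉ Subgroup.zpowers z := by
    by_contra hcon
    push_neg at hcon
    have := Subgroup.card_le_of_le (show E ≤ Subgroup.zpowers z from hcon)
    rw [hE2, hZcard] at this
    omega
  have he₀p : e₀ ^ p = 1 := hE.2 e₀ he₀E
  have hCtop : ∀ x : R, x ∈ Subgroup.centralizer ((Subgroup.zpowers z : Subgroup R) : Set R) := by
    intro x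
    rw [Subgroup.mem_centralizer_iff]
    intro y hy
    exact (Subgroup.mem_center_iff.mp (hZc hy) x).symm
  have hZexp : ∀ d ∈ Subgroup.zpowers z, d ^ p = 1 := by
    intro d hd
    obtain ⟨k, rfl⟩ := Subgroup.mem_zpowers_iff.mp hd
    rw [← zpow_natCast, ← zpow_mul, mul_comm, zpow_mul, zpow_natCast, hzp, one_zpow]
  obtain ⟨w, -, hwp, hwZ, hwcomm⟩ := nea_exists p hp hR (Subgroup.zpowers z) hZexp e₀ (hCtop e₀)
    he₀p he₀Z
  have hZ2mem : ∀ x : R, x ∈ Subgroup.upperCentralSeries R 2 ↔
      ∀ y : R, x * y * x⁻¹ * y⁻¹ ∈ Subgroup.center R := by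
    intro x
    change x ∈ Subgroup.upperCentralSeries R (1 + 1) ↔ _
    rw [Subgroup.mem_upperCentralSeries_succ_iff, Subgroup.upperCentralSeries_one]
    exact Iff.rfl
  have hwZ2 : w ∈ Subgroup.upperCentralSeries R 2 := by
    rw [hZ2mem]
    intro y
    have h2 : w * y * w⁻¹ * y⁻¹ = (y * w * y⁻¹ * w⁻¹)⁻¹ := by group
    rw [h2]
    exact inv_mem (hZc (hwcomm y))
  obtain ⟨W, hW⟩ : ∃ W : Subgroup R,
      W = Subgroup.closure {x : R | x ∈ Subgroup.upperCentralSeries R 2 ∧ x ^ p = 1} := ⟨_, rfl⟩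
  have hWmem : ∀ x ∈ W, x ∈ Subgroup.upperCentralSeries R 2 ∧ x ^ p = 1 := by
    intro x hx
    rw [hW] at hx
    induction hx using Subgroup.closure_induction with
    | mem x hx => exact hx
    | one => exact ⟨one_mem _, one_pow p⟩
    | mul x y _ _ ihx ihy =>
      refine ⟨mul_mem ihx.1 ihy.1, ?_⟩
      have hc : y * x * y⁻¹ * x⁻¹ ∈ Subgroup.center R := (hZ2mem y).mp ihy.1 x
      have hcx : Commute (y * x * y⁻¹ * x⁻¹) x := (Subgroup.mem_center_iff.mp hc x).symm
      have hcy : Commute (y * x * y⁻¹ * x⁻¹) y := (Subgroup.mem_center_iff.mp hc y).symm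
      have he : y * x = (y * x * y⁻¹ * x⁻¹) * (x * y) := by group
      have h1 := Cfsg.Agent.Lib.helper15.mul_pow_aux x y _ he hcx hcy p
      have hcp : (y * x * y⁻¹ * x⁻¹) ^ p = 1 := comm_pow_eq_one y x p ihx.2 hcx
      obtain ⟨m, hm⟩ := hp'.dvd_choose_self (by norm_num : (2 : ℕ) ≠ 0) hp3
      rw [h1, ihx.2, ihy.2, hm, pow_mul, hcp, one_pow, one_mul, one_mul]
    | inv x _ ih => exact ⟨inv_mem ih.1, by rw [inv_pow, ih.2, inv_one]⟩
  have hmemW : ∀ x : R, x ∈ Subgroup.upperCentralSeries R 2 → x ^ p = 1 → x ∈ W := by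
    intro x h1 h2; rw [hW]; exact Subgroup.subset_closure ⟨h1, h2⟩
  have hcenZ2 : Subgroup.center R ≤ Subgroup.upperCentralSeries R 2 := by
    intro x hx
    rw [hZ2mem]
    intro y
    have h1 : x * y * x⁻¹ * y⁻¹ = 1 := by
      rw [← Subgroup.mem_center_iff.mp hx y]; group
    rw [h1]; exact one_mem _
  have hzW : z ∈ W := hmemW z (hcenZ2 hzcen) hzp
  have hwW : w ∈ W := hmemW w hwZ2 hwp
  have hsupE : Subgroup.zpowers z ⊔ Subgroup.zpowers e₀ = E := by
    apply eq_of_lt_of_card_sq hp' _ (sup_le (hZ₀eq ▸ hZ₀E)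
      (by rw [Subgroup.zpowers_le]; exact he₀E)) hZcard hE2
    apply lt_of_le_of_ne le_sup_left
    intro h
    apply he₀Z
    rw [h]
    exact Subgroup.mem_sup_right (Subgroup.mem_zpowers e₀)
  have hcentE : ∀ g : R, g * e₀ = e₀ * g → g ∈ Subgroup.centralizer (E : Set R) := by
    intro g hg
    rw [Subgroup.mem_centralizer_iff]
    intro y hy
    have hy' : y ∈ Subgroup.zpowers z ⊔ Subgroup.zpowers e₀ := by rw [hsupE]; exact hy
    have hle : Subgroup.zpowers z ⊔ Subgroup.zpowers e₀ ≤
        Subgroup.centralizer ({g} : Set R) := by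
      apply sup_le
      · rw [Subgroup.zpowers_le, Subgroup.mem_centralizer_iff]
        intro v hv
        rw [Set.mem_singleton_iff] at hv
        rw [hv]; exact hzc g
      · rw [Subgroup.zpowers_le, Subgroup.mem_centralizer_iff]
        intro v hv
        rw [Set.mem_singleton_iff] at hv
        rw [hv]; exact hg
    exact (Subgroup.mem_centralizer_iff.mp (hle hy') g (Set.mem_singleton g)).symm
  have hNN : ¬ E ≤ Subgroup.upperCentralSeries R 2 := by
    intro hEZ2
    haveI hEn : E.Normal := by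
      refine ⟨fun x hx g => ?_⟩
      have hc : g * x * g⁻¹ * x⁻¹ ∈ Subgroup.center R := by
        have h1 := (hZ2mem x).mp (hEZ2 hx) g
        have h2 : g * x * g⁻¹ * x⁻¹ = (x * g * x⁻¹ * g⁻¹)⁻¹ := by group
        rw [h2]; exact inv_mem h1
      have hcp : (g * x * g⁻¹ * x⁻¹) ^ p = 1 :=
        comm_pow_eq_one g x p (hE.2 x hx) ((Subgroup.mem_center_iff.mp hc x).symm)
      have hcE : g * x * g⁻¹ * x⁻¹ ∈ E := hOm _ (hcenE _ hc) hcp
      have h3 : g * x * g⁻¹ = (g * x * g⁻¹ * x⁻¹) * x := by group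
      rw [h3]; exact mul_mem hcE hx
    obtain ⟨x, hxC, hxp, hxE⟩ := ce_exists p hR hr E hE hE2
    exact hxE (hOm x hxC hxp)
  have hWe₀ : ∀ g ∈ W, g * e₀ * g⁻¹ * e₀⁻¹ ∈ Subgroup.zpowers z := by
    intro g hg
    have hc : g * e₀ * g⁻¹ * e₀⁻¹ ∈ Subgroup.center R := (hZ2mem g).mp (hWmem g hg).1 e₀
    have hcp : (g * e₀ * g⁻¹ * e₀⁻¹) ^ p = 1 :=
      comm_pow_eq_one g e₀ p he₀p ((Subgroup.mem_center_iff.mp hc e₀).symm)
    rw [← hZ₀eq, hZ₀]
    exact Subgroup.subset_closure ⟨hc, hcp⟩
  have hIDX := card_le_card_mul_centralizer W (Subgroup.zpowers z) e₀ hZc hWe₀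
  rw [hZcard] at hIDX
  have hKE : W ⊓ Subgroup.centralizer ({e₀} : Set R) ≤ E := by
    intro y hy
    have h1 : e₀ * y = y * e₀ := Subgroup.mem_centralizer_iff.mp hy.2 e₀ (Set.mem_singleton e₀)
    exact hOm y (hcentE y h1.symm) (hWmem y hy.1).2
  have hKne : W ⊓ Subgroup.centralizer ({e₀} : Set R) ≠ E := by
    intro hKeq
    apply hNN
    intro y hy
    rw [← hKeq] at hy
    exact (hWmem y hy.1).1
  have hKcard := card_le_of_lt_of_card_sq hp' (lt_of_le_of_ne hKE hKne) hE2
  have hWle : Nat.card W ≤ p ^ 2 := by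
    have h2 : p * Nat.card (W ⊓ Subgroup.centralizer ({e₀} : Set R) : Subgroup R) ≤ p * p :=
      Nat.mul_le_mul_left p hKcard
    rw [sq]; exact hIDX.trans h2
  have hsupW : Subgroup.zpowers z ⊔ Subgroup.zpowers w ≤ W :=
    sup_le (by rw [Subgroup.zpowers_le]; exact hzW) (by rw [Subgroup.zpowers_le]; exact hwW)
  have hlt : Subgroup.zpowers z < Subgroup.zpowers z ⊔ Subgroup.zpowers w := by
    apply lt_of_le_of_ne le_sup_left
    intro h
    apply hwZ
    rw [h]
    exact Subgroup.mem_sup_right (Subgroup.mem_zpowers w)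
  have hWcard : Nat.card W = p ^ 2 := by
    obtain ⟨k, hk⟩ := (IsPGroup.iff_card.mp (hR.to_subgroup W))
    have hgt : p < Nat.card W := by
      by_contra hle
      push_neg at hle
      have h1 := Subgroup.eq_of_le_of_card_ge (le_sup_left.trans hsupW : Subgroup.zpowers z ≤ W)
        (hle.trans_eq hZcard.symm)
      exact hwZ (h1 ▸ hwW)
    rw [hk] at hgt hWle ⊢
    have h2 : 1 < k := by
      by_contra h3
      push_neg at h3
      have h4 : p ^ k ≤ p ^ 1 := Nat.pow_le_pow_right hp'.pos h3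
      rw [pow_one] at h4
      omega
    have h5 : k ≤ 2 := (Nat.pow_le_pow_iff_right hp'.one_lt).mp hWle
    have h6 : k = 2 := by omega
    rw [h6]
  have hWeq : Subgroup.zpowers z ⊔ Subgroup.zpowers w = W :=
    eq_of_lt_of_card_sq hp' hlt hsupW hZcard hWcard
  have hWcomm : IsMulCommutative W := ⟨⟨IsPGroup.commutative_of_card_eq_prime_sq hWcard⟩⟩
  have h1 : ¬ E ≤ Subgroup.centralizer (W : Set R) := by
    intro hET
    have hWE : W ≤ E := by
      intro u hu
      apply hOm u _ (hWmem u hu).2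
      rw [Subgroup.mem_centralizer_iff]
      intro y hy
      exact (Subgroup.mem_centralizer_iff.mp (hET hy) u hu).symm
    have hWeqE : W = E := Subgroup.eq_of_le_of_card_ge hWE (by rw [hE2, hWcard])
    apply hNN
    intro y hy
    rw [← hWeqE] at hy
    exact (hWmem y hy).1
  have hTeq : Subgroup.centralizer (W : Set R) = Subgroup.centralizer ({w} : Set R) := by
    apply le_antisymm
    · exact Subgroup.centralizer_le (Set.singleton_subset_iff.mpr hwW)
    · intro g hg
      rw [Subgroup.mem_centralizer_iff]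
      intro y hy
      have hy' : y ∈ Subgroup.zpowers z ⊔ Subgroup.zpowers w := by rw [hWeq]; exact hy
      have hgw : w * g = g * w := Subgroup.mem_centralizer_iff.mp hg w (Set.mem_singleton w)
      have hle : Subgroup.zpowers z ⊔ Subgroup.zpowers w ≤
          Subgroup.centralizer ({g} : Set R) := by
        apply sup_le
        · rw [Subgroup.zpowers_le, Subgroup.mem_centralizer_iff]
          intro v hv
          rw [Set.mem_singleton_iff] at hv
          rw [hv]; exact hzc g
        · rw [Subgroup.zpowers_le, Subgroup.mem_centralizer_iff]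
          intro v hv
          rw [Set.mem_singleton_iff] at hv
          rw [hv]; exact hgw.symm
      exact (Subgroup.mem_centralizer_iff.mp (hle hy') g (Set.mem_singleton g)).symm
  have hidx : (Subgroup.centralizer (W : Set R)).index = p := by
    have hI := card_le_card_mul_centralizer (⊤ : Subgroup R) (Subgroup.zpowers z) w hZc
      (fun g _ => hwcomm g)
    rw [hZcard, top_inf_eq, Subgroup.card_top, ← hTeq] at hI
    have h2 := Subgroup.card_mul_index (Subgroup.centralizer (W : Set R))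
    have hTpos : 0 < Nat.card (Subgroup.centralizer (W : Set R)) := Nat.card_pos
    have hle : (Subgroup.centralizer (W : Set R)).index ≤ p := by
      rw [← h2, mul_comm p] at hI
      exact Nat.le_of_mul_le_mul_left hI hTpos
    have hne1 : (Subgroup.centralizer (W : Set R)).index ≠ 1 := by
      intro h
      rw [Subgroup.index_eq_one] at h
      apply h1
      rw [h]; exact le_top
    obtain ⟨n, hn⟩ := IsPGroup.iff_card.mp hR
    have hdvd : (Subgroup.centralizer (W : Set R)).index ∣ p ^ n :=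
      hn ▸ Subgroup.index_dvd_card _
    obtain ⟨k, _, hk⟩ := (Nat.dvd_prime_pow hp').mp hdvd
    rw [hk] at hle hne1 ⊢
    rcases Nat.eq_zero_or_pos k with h0 | h0
    · rw [h0, pow_zero] at hne1; exact absurd rfl hne1
    · have h5 : k ≤ 1 := by
        by_contra h6
        push_neg at h6
        have : p ^ 2 ≤ p ^ k := Nat.pow_le_pow_right hp'.pos h6
        omega
      have h7 : k = 1 := by omega
      rw [h7, pow_one]
  have hWchar : W.Characteristic := by
    rw [Subgroup.characteristic_iff_map_le]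
    intro φ
    rw [hW, MonoidHom.map_closure]
    apply Subgroup.closure_mono
    rintro _ ⟨x, ⟨hx2, hxp⟩, rfl⟩
    refine ⟨?_, ?_⟩
    · have hchar : (Subgroup.upperCentralSeries R 2).Characteristic := inferInstance
      have h3 := Subgroup.characteristic_iff_map_le.mp hchar φ
      exact h3 ⟨x, hx2, rfl⟩
    · change (φ x) ^ p = 1
      rw [← map_pow, hxp, map_one]
  haveI := hWchar
  have hTchar : (Subgroup.centralizer (W : Set R)).Characteristic := inferInstance
  subst hW
  subst hZ₀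
  exact ⟨h1, hZ₀card, ⟨⟨hWcomm, fun a ha => (hWmem a ha).2⟩, hWcard⟩, hTchar, hidx⟩

end Cfsg.Agent.S1453
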