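import Cfsg.Statements.S1032
import Cfsg.Agent.Lib.helper11.ChevTPOK
import Cfsg.Agent.S2157
import Cfsg.Agent.S1033

set_option autoImplicit false
open Cfsg

namespace Cfsg.Agent.S1032
open Cfsg.Lie Cfsg.Agent.Lib.helper11

theorem main {F : Type*} [Field F] (D : ChevalleyDatum)
    (hD : D ∈ [chevG2, chevB2, chevD4, chevF4, chevE6, chevE7, chevE8])
    (htp : ∀ r < D.nroots, tpRow D r = true)
    (i s : ℕ) (hi : i < D.rank) (hs : s < D.nroots) (c : F) (hc : c ≠ 0) (t : F) :
    D.hMat F (D.simple i) c * D.x F s t =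
      D.x F s (c ^ (D.cartan i s) * t) * D.hMat F (D.simple i) c := by
  have hχ := carChar_isRootCharacter (F := F) D htp i hi (Units.mk0 c hc)
  have hval : ∀ x, ((carChar D i (Units.mk0 c hc) x : Fˣ) : F) = c ^ (D.cartan i x) := by
    intro x
    simp [carChar]
  have h1 : D.hMat F (D.simple i) c = D.charDiag F (carChar D i (Units.mk0 c hc)) := by
    rw [Cfsg.Agent.S1033.result D hD i hi c hc]
    unfold ChevalleyDatum.charDiag
    congr 1
    funext j
    rcases j with j | j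
    · rfl
    · simp only [Sum.elim_inr]
      rw [hval]
  have h2 := Cfsg.Agent.S2157.result D hD (carChar D i (Units.mk0 c hc)) hχ s hs t
  have h3 : D.charDiag F (fun x => (carChar D i (Units.mk0 c hc) x)⁻¹) *
      D.charDiag F (carChar D i (Units.mk0 c hc)) = 1 := by
    unfold ChevalleyDatum.charDiag
    rw [Matrix.diagonal_mul_diagonal, ← Matrix.diagonal_one]
    congr 1
    funext j
    rcases j with j | j
    · simp
    · simp
  rw [h1, ← hval s, ← h2, Matrix.mul_assoc, h3, Matrix.mul_one]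


/-- For a fundamental root `p`, a root `s` and `c ≠ 0`: `h_p(c) x_s(t) h_p(c)⁻¹ = x_s(c^{A_{p,s}} t)`, stated as `h_p(c) x_s(t) = x_s(c^{A_{p,s}} t) h_p(c)`. -/
theorem result {F : Type*} [Field F] (D : Cfsg.Lie.ChevalleyDatum) (hD : D ∈ [Cfsg.Lie.chevG2, Cfsg.Lie.chevB2, Cfsg.Lie.chevD4, Cfsg.Lie.chevF4, Cfsg.Lie.chevE6, Cfsg.Lie.chevE7, Cfsg.Lie.chevE8]) (i s : ℕ) (hi : i < D.rank) (hs : s < D.nroots) (c : F) (hc : c ≠ 0) (t : F) :
    D.hMat F (D.simple i) c * D.x F s t = D.x F s (c ^ (D.cartan i s) * t) * D.hMat F (D.simple i) c := by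
  exact main D hD (fun r hr => Cfsg.Agent.Lib.helper11.tp_of_mem D hD r hr) i s hi hs c hc t

end Cfsg.Agent.S1032
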