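import Cfsg.Statements.S2160
import Cfsg.Agent.Lib.helper11c.Gen1
import Cfsg.Agent.Lib.helper11.ChevHAll
import Cfsg.Agent.Lib.helper11.ChevHOK

set_option autoImplicit false
open Cfsg

namespace Cfsg.Agent.S2160
open Cfsg Cfsg.Lie Cfsg.Agent.Lib.helper11

theorem main {F : Type*} [Field F] (D : ChevalleyDatum)
    (hD : D ∈ [chevG2, chevB2, chevD4, chevF4, chevE6, chevE7, chevE8])
    (f g : ↥(D.group F) ≃* ↥(D.group F))
    (hf : D.IsFieldAut f) (hg : D.IsGraphAut g) (y : ↥(D.group F)) : f (g y) = g (f y) := by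
  have hnx := nxAll_of_mem D hD
  have hc := hcert_of_mem D hD
  obtain ⟨σ, hσ⟩ := hf
  obtain ⟨π, -, hgπ⟩ := hg
  have key := hom_ext_simple D hD hnx hc (f.toMonoidHom.comp g.toMonoidHom)
    (g.toMonoidHom.comp f.toMonoidHom) ?_ y
  · exact key
  · intro y i t hi hy
    show f (g y) = g (f y)
    have hlt := simple_lt D hc i hi
    have hlt' := simple_lt D hc (π ⟨i, hi⟩) (π ⟨i, hi⟩).2
    apply Subtype.ext
    apply Units.ext
    rcases hy with hy | hy
    · have h1 := (hgπ y ⟨i, hi⟩ t).1 hy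
      have h2 := hσ (g y) _ _ hlt' h1
      have h3 := hσ y _ t hlt hy
      have h4 := (hgπ (f y) ⟨i, hi⟩ (σ t)).1 h3
      rw [h2, h4, map_pow]
    · have h1 := (hgπ y ⟨i, hi⟩ t).2 hy
      have h2 := hσ (g y) _ _ (neg_lt' D hD hnx _ hlt') h1
      have h3 := hσ y _ t (neg_lt' D hD hnx _ hlt) hy
      have h4 := (hgπ (f y) ⟨i, hi⟩ (σ t)).2 h3
      rw [h2, h4, map_pow]


/-- In a Chevalley group of type G₂, B₂, D₄, F₄, E₆, E₇ or E₈ over a finite field, every field automorphism commutes with every graph automorphism. -/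
theorem result {F : Type*} [Field F] [Finite F] (D : Cfsg.Lie.ChevalleyDatum) (hD : D ∈ [Cfsg.Lie.chevG2, Cfsg.Lie.chevB2, Cfsg.Lie.chevD4, Cfsg.Lie.chevF4, Cfsg.Lie.chevE6, Cfsg.Lie.chevE7, Cfsg.Lie.chevE8]) (f g : ↥(D.group F) ≃* ↥(D.group F))
    (hf : D.IsFieldAut f) (hg : D.IsGraphAut g) (y : ↥(D.group F)) : f (g y) = g (f y) := by
  exact main D hD f g hf hg y

end Cfsg.Agent.S2160
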