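import Cfsg.Statements.S1051
import Cfsg.Agent.Lib.helper11.ChevCore
import Cfsg.Agent.Lib.helper11.ChevW0OK
import Cfsg.Agent.Lib.helper11.ChevHAll
import Cfsg.Agent.Lib.helper11.ChevTriOK

set_option autoImplicit false
open Cfsg

namespace Cfsg.Agent.S1051
open Cfsg Cfsg.Lie Cfsg.Agent.Lib.helper11

theorem w0_exists {F : Type*} [Field F] (D : ChevalleyDatum)
    (hD : D ∈ [chevG2, chevB2, chevD4, chevF4, chevE6, chevE7, chevE8]) :
    ∃ n ∈ D.monomialSubgroup F,
      (D.posUnipotent F).map (MulAut.conj n).toMonoidHom = D.negUnipotent F := by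
  obtain ⟨l, hl, hrow⟩ := w0_of_mem D hD
  exact w0_of_rows D hD (nxAll_of_mem D hD) (hcert_of_mem D hD) l hl hrow

theorem main {F : Type*} [Field F] (D : ChevalleyDatum)
    (hD : D ∈ [chevG2, chevB2, chevD4, chevF4, chevE6, chevE7, chevE8]) :
    ((D.borelSubgroup F).subgroupOf (D.group F)).normalCore = ⊥ :=
  core_trivial D hD (nxAll_of_mem D hD) (hcert_of_mem D hD) (tri_of_mem D hD) (w0_exists D hD)


/-- `⋂_g g B g⁻¹ = 1`: the normal core of `B` in the Chevalley group is trivial. -/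
theorem result {F : Type*} [Field F] (D : Cfsg.Lie.ChevalleyDatum) (hD : D ∈ [Cfsg.Lie.chevG2, Cfsg.Lie.chevB2, Cfsg.Lie.chevD4, Cfsg.Lie.chevF4, Cfsg.Lie.chevE6, Cfsg.Lie.chevE7, Cfsg.Lie.chevE8]) : ((D.borelSubgroup F).subgroupOf (D.group F)).normalCore = ⊥ := by
  exact main D hD

end Cfsg.Agent.S1051
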