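import Cfsg.Statements.S2327
import Cfsg.Agent.Lib.helper11d.Stb5

set_option autoImplicit false
open Cfsg

namespace Cfsg.Agent.S2327
open Cfsg Cfsg.Lie Cfsg.Agent.Lib.helper11

/-- In a Chevalley group of type G₂, B₂, D₄, F₄, E₆, E₇ or E₈ over a finite field with q elements, the Steinberg character (the alternating sum of the permutation characters on the standard parabolic subgroups) has degree q^N, N the number of positive roots; this is the order of U and the largest power of the characteristic dividing the group order. -/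
theorem result {F : Type*} [Field F] [Fintype F] (D : Cfsg.Lie.ChevalleyDatum) (hD : D ∈ [Cfsg.Lie.chevG2, Cfsg.Lie.chevB2, Cfsg.Lie.chevD4, Cfsg.Lie.chevF4, Cfsg.Lie.chevE6, Cfsg.Lie.chevE7, Cfsg.Lie.chevE8]) :
    D.steinbergCharacter F 1 = (Fintype.card F : ℂ) ^ (D.nroots / 2) := by
  classical
  have hnx := nxAll_of_mem D hD
  have hc := hcert_of_mem D hD
  obtain ⟨hBG, -, -⟩ := Cfsg.Agent.S1043.main0 (F := F) D hD hnx hc
  have hHB : D.diagonalSubgroup F ≤ D.borelSubgroup F := le_sup_right
  have h := stb_restrict D hD (1 : ↥((D.borelSubgroup F).subgroupOf (D.group F)))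
  rw [map_one] at h
  rw [h]
  unfold Cfsg.fixedPointCharacter
  have e1 : Nat.card (MulAction.fixedBy (↥((D.borelSubgroup F).subgroupOf (D.group F)) ⧸
      (((D.diagonalSubgroup F).subgroupOf (D.group F)).subgroupOf
        ((D.borelSubgroup F).subgroupOf (D.group F))))
      (1 : ↥((D.borelSubgroup F).subgroupOf (D.group F)))) =
      Nat.card (↥((D.borelSubgroup F).subgroupOf (D.group F)) ⧸
      (((D.diagonalSubgroup F).subgroupOf (D.group F)).subgroupOf
        ((D.borelSubgroup F).subgroupOf (D.group F)))) := by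
    rw [MulAction.fixedBy_one_eq_univ]
    exact Nat.card_congr (Equiv.Set.univ _)
  rw [e1]
  have e2 := Subgroup.card_eq_card_quotient_mul_card_subgroup
    (((D.diagonalSubgroup F).subgroupOf (D.group F)).subgroupOf
      ((D.borelSubgroup F).subgroupOf (D.group F)))
  have e3 : Nat.card ↥((D.borelSubgroup F).subgroupOf (D.group F)) =
      Nat.card ↥(D.borelSubgroup F) :=
    Nat.card_congr (Subgroup.subgroupOfEquivOfLe hBG).toEquiv
  have hle : (D.diagonalSubgroup F).subgroupOf (D.group F) ≤
      (D.borelSubgroup F).subgroupOf (D.group F) := fun x hx => hHB hx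
  have e4 : Nat.card ↥(((D.diagonalSubgroup F).subgroupOf (D.group F)).subgroupOf
      ((D.borelSubgroup F).subgroupOf (D.group F))) = Nat.card ↥(D.diagonalSubgroup F) := by
    rw [Nat.card_congr (Subgroup.subgroupOfEquivOfLe hle).toEquiv,
      Nat.card_congr (Subgroup.subgroupOfEquivOfLe (hHB.trans hBG)).toEquiv]
  rw [e3, e4, card_borel D hD, card_pos D hD] at e2
  have hpos : 0 < Nat.card ↥(D.diagonalSubgroup F) := Nat.card_pos
  have e5 := Nat.eq_of_mul_eq_mul_right hpos e2
  rw [← e5, Nat.card_eq_fintype_card]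
  push_cast
  rfl

end Cfsg.Agent.S2327
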