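import Cfsg.Statements.S2613
import Mathlib
import Cfsg.Agent.Lib.helper13.Spinor
import Cfsg.Agent.S2562

set_option autoImplicit false
open Cfsg

open Cfsg.Agent.Lib.helper13

namespace Cfsg.Agent.S2613

section Helpers

variable {F : Type*} [Field F]

lemma qP_pair (m : ℕ) (j : Fin m) (x : Fin m ⊕ Fin m → F) (s t : F) :
    Cfsg.Agent.S2562.qP F m (x + s • Pi.single (Sum.inl j) 1 + t • Pi.single (Sum.inr j) 1)
      = Cfsg.Agent.S2562.qP F m x + s * x (Sum.inr j) + t * x (Sum.inl j) + s * t := by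
  classical
  rw [Cfsg.Agent.S2562.qP_apply, Cfsg.Agent.S2562.qP_apply]
  unfold Cfsg.quadFormPlus
  simp only [Pi.add_apply, Pi.smul_apply, smul_eq_mul, Pi.single_apply, Sum.inl.injEq,
    reduceCtorEq, if_false, mul_zero, add_zero, mul_ite, mul_one, add_mul, mul_add, ite_mul,
    zero_mul, Finset.sum_add_distrib, Finset.sum_ite_eq', Finset.mem_univ, if_true,
    Sum.inr.injEq]
  ring

end Helpers

/-- For the hyperbolic form Σ x_j y_j on F^(2m), F finite with q elements, q odd, and 1 ≤ i ≤ m: the involution negating the first i hyperbolic pairs (x_j, y_j ↦ −x_j, −y_j for j < i) and fixing the rest lies in Ω⁺_2m(q) (commutator subgroup of the orthogonal group) if and only if q^i ≡ 1 (mod 4); its (−1)-eigenspace is a hyperbolic 2i-space. -/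
theorem result {F : Type*} [Field F] [Fintype F] {q : ℕ} (hF : Fintype.card F = q) (hq : Odd q) {m : ℕ} (i : ℕ) (hi : 1 ≤ i) (him : i ≤ m) : (∃ g : ↥(Cfsg.isometryGroup F (Cfsg.quadFormPlus m F)), g ∈ Cfsg.Omega F (Cfsg.quadFormPlus m F) ∧ ((g : Matrix.GeneralLinearGroup (Fin m ⊕ Fin m) F) : Matrix (Fin m ⊕ Fin m) (Fin m ⊕ Fin m) F) = Matrix.diagonal (fun k : Fin m ⊕ Fin m => if (Sum.elim (fun j : Fin m => (j : ℕ)) (fun j : Fin m => (j : ℕ)) k) < i then (-1 : F) else 1)) ↔ q ^ i % 4 = 1 := by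
  classical
  have hm : 0 < m := by omega
  have h2 : (2 : F) ≠ 0 := two_ne_zero_of_odd_card hF hq
  let pa : ℕ → Fin m ⊕ Fin m := fun j => if h : j < m then Sum.inl ⟨j, h⟩ else Sum.inl ⟨0, hm⟩
  let pb : ℕ → Fin m ⊕ Fin m := fun j => if h : j < m then Sum.inr ⟨j, h⟩ else Sum.inr ⟨0, hm⟩
  obtain ⟨vs, hvs, hlen, hprod, hmat⟩ := hyp_list (Cfsg.Agent.S2562.qP F m) pa pb i (by
    intro j hj
    have hjm : j < m := by omega
    simp only [pa, pb, dif_pos hjm]
    exact ⟨by simp, fun x s t => qP_pair m ⟨j, hjm⟩ x s t⟩)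
  have hdiag : Matrix.diagonal (fun k : Fin m ⊕ Fin m => if (Sum.elim (fun j : Fin m => (j : ℕ)) (fun j : Fin m => (j : ℕ)) k) < i then (-1 : F) else 1) = (vs.map (fun v => Cfsg.reflectionMatrix (⇑(Cfsg.Agent.S2562.qP F m)) v)).prod := by
    rw [hmat]
    congr 1
    funext k
    symm
    rcases k with l | l
    · have h1 : ∀ j ∈ Finset.range i, (if (Sum.inl l : Fin m ⊕ Fin m) = pa j ∨ Sum.inl l = pb j then (-1 : F) else 1) = if (l : ℕ) = j then (-1 : F) else 1 := by
        intro j hj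
        have hjm : j < m := by have := Finset.mem_range.mp hj; omega
        simp only [pa, pb, dif_pos hjm]
        simp [Fin.ext_iff]
      rw [Finset.prod_congr rfl h1, Finset.prod_ite_eq]
      by_cases hl : (l : ℕ) < i
      · have hl' : Sum.elim (fun j : Fin m => (j : ℕ)) (fun j : Fin m => (j : ℕ)) (Sum.inl l) < i := hl
        rw [if_pos (Finset.mem_range.mpr hl), if_pos hl']
      · have hl' : ¬ Sum.elim (fun j : Fin m => (j : ℕ)) (fun j : Fin m => (j : ℕ)) (Sum.inl l) < i := hl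
        rw [if_neg (fun h => hl (Finset.mem_range.mp h)), if_neg hl']
    · have h1 : ∀ j ∈ Finset.range i, (if (Sum.inr l : Fin m ⊕ Fin m) = pa j ∨ Sum.inr l = pb j then (-1 : F) else 1) = if (l : ℕ) = j then (-1 : F) else 1 := by
        intro j hj
        have hjm : j < m := by have := Finset.mem_range.mp hj; omega
        simp only [pa, pb, dif_pos hjm]
        simp [Fin.ext_iff]
      rw [Finset.prod_congr rfl h1, Finset.prod_ite_eq]
      by_cases hl : (l : ℕ) < i
      · have hl' : Sum.elim (fun j : Fin m => (j : ℕ)) (fun j : Fin m => (j : ℕ)) (Sum.inr l) < i := hl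
        rw [if_pos (Finset.mem_range.mpr hl), if_pos hl']
      · have hl' : ¬ Sum.elim (fun j : Fin m => (j : ℕ)) (fun j : Fin m => (j : ℕ)) (Sum.inr l) < i := hl
        rw [if_neg (fun h => hl (Finset.mem_range.mp h)), if_neg hl']
  rw [exists_mem_omega_iff h2 (Cfsg.Agent.S2562.qP F m) (Cfsg.quadFormPlus m F) (funext (fun v => (Cfsg.Agent.S2562.qP_apply m v).symm)) _ vs hvs hdiag]
  rw [hlen, hprod, isSquare_neg_one_pow hF hq]
  constructor
  · exact fun h => h.2
  · exact fun h => ⟨⟨i, by ring⟩, h⟩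

end Cfsg.Agent.S2613
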