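import Cfsg.Statements.S2726
import Mathlib
import Cfsg.Agent.Lib.helper13.OrthAut3
import Cfsg.Agent.Lib.helper13.GraphForm
import Cfsg.Agent.Lib.helper4.OrthForms

set_option autoImplicit false
open Cfsg

open Cfsg.Agent.Lib.helper13 Matrix

namespace Cfsg.Agent.S2726

section Helpers

/-- an explicit similarity of the minus-type form with multiplier `x ^ 2 - (a ^ 2 - 4 * b)` -/
theorem minus_sim {F : Type*} [Field F] (m : ℕ) (a b x : F) :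
    ∃ M : Matrix ((Fin m ⊕ Fin m) ⊕ Fin 2) ((Fin m ⊕ Fin m) ⊕ Fin 2) F,
      ∀ v, Cfsg.Agent.S2679.qMg F m a b (M *ᵥ v) =
        (x ^ 2 - (a ^ 2 - 4 * b)) * Cfsg.Agent.S2679.qMg F m a b v := by
  classical
  obtain ⟨c, hcdef⟩ : ∃ c : F, c = x ^ 2 - (a ^ 2 - 4 * b) := ⟨_, rfl⟩
  rw [← hcdef]
  obtain ⟨M, hM⟩ : ∃ M : Matrix ((Fin m ⊕ Fin m) ⊕ Fin 2) ((Fin m ⊕ Fin m) ⊕ Fin 2) F,
      M = Matrix.fromBlocks (Matrix.diagonal (Sum.elim (fun _ => c) (fun _ => 1)) : Matrix (Fin m ⊕ Fin m) (Fin m ⊕ Fin m) F) (0 : Matrix (Fin m ⊕ Fin m) (Fin 2) F) (0 : Matrix (Fin 2) (Fin m ⊕ Fin m) F)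
        (!![x - a, -(b * 2); 2, x + a] : Matrix (Fin 2) (Fin 2) F) := ⟨_, rfl⟩
  refine ⟨M, ?_⟩
  intro v
  rw [Cfsg.Agent.S2679.qMg_apply, Cfsg.Agent.S2679.qMg_apply]
  unfold Cfsg.quadFormMinus
  have e1 : ∀ i : Fin m, (M *ᵥ v) (Sum.inl (Sum.inl i)) = c * v (Sum.inl (Sum.inl i)) := by
    intro i
    rw [hM]
    simp [Matrix.mulVec, dotProduct, Fintype.sum_sum_type, Matrix.diagonal_apply]
  have e2 : ∀ i : Fin m, (M *ᵥ v) (Sum.inl (Sum.inr i)) = v (Sum.inl (Sum.inr i)) := by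
    intro i
    rw [hM]
    simp [Matrix.mulVec, dotProduct, Fintype.sum_sum_type, Matrix.diagonal_apply]
  have e3 : (M *ᵥ v) (Sum.inr 0) = (x - a) * v (Sum.inr 0) - b * 2 * v (Sum.inr 1) := by
    rw [hM]
    simp [Matrix.mulVec, dotProduct, Fintype.sum_sum_type, Fin.sum_univ_two]
    ring
  have e4 : (M *ᵥ v) (Sum.inr 1) = 2 * v (Sum.inr 0) + (x + a) * v (Sum.inr 1) := by
    rw [hM]
    simp [Matrix.mulVec, dotProduct, Fintype.sum_sum_type, Fin.sum_univ_two]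
  have hsum : ∑ i : Fin m, (M *ᵥ v) (Sum.inl (Sum.inl i)) * (M *ᵥ v) (Sum.inl (Sum.inr i)) =
      c * ∑ i : Fin m, v (Sum.inl (Sum.inl i)) * v (Sum.inl (Sum.inr i)) := by
    rw [Finset.mul_sum]
    apply Finset.sum_congr rfl
    intro i _
    rw [e1, e2]
    ring
  rw [e3, e4, hsum, hcdef]
  ring

/-- a similarity of the minus-type form with non-square multiplier -/
theorem minus_data {F : Type*} [Field F] [Fintype F] (hodd : Odd (Fintype.card F)) (m : ℕ)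
    (a b : F) (hab : (∀ z₁ z₂ : F, z₁ ^ 2 + a * z₁ * z₂ + b * z₂ ^ 2 = 0 → z₁ = 0 ∧ z₂ = 0)) :
    ∃ (g₀ : GL ((Fin m ⊕ Fin m) ⊕ Fin 2) F) (c₀ : Fˣ),
      (∀ v, Cfsg.Agent.S2679.qMg F m a b
        ((g₀ : Matrix ((Fin m ⊕ Fin m) ⊕ Fin 2) ((Fin m ⊕ Fin m) ⊕ Fin 2) F) *ᵥ v) =
          (c₀ : F) * Cfsg.Agent.S2679.qMg F m a b v) ∧ ¬ IsSquare (c₀ : F) := by
  classical
  have h2 : (2 : F) ≠ 0 := GF.two_ne_zero_of_odd hodd
  have hD := Cfsg.Agent.S2621.not_isSquare_disc h2 a b hab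
  obtain ⟨x, hx⟩ := OA.exists_nonsq_shift _ hD
  obtain ⟨M, hsim⟩ := minus_sim m a b x
  obtain ⟨c, hcdef⟩ : ∃ c : F, c = x ^ 2 - (a ^ 2 - 4 * b) := ⟨_, rfl⟩
  rw [← hcdef] at hx hsim
  have hc0 : c ≠ 0 := by
    rintro rfl
    exact hx ⟨0, by simp⟩
  obtain ⟨g₀, hg₀⟩ := OA.exists_GL_of_sim (Cfsg.Agent.S2679.qMg F m a b)
    (Cfsg.Agent.Lib.helper4.nondeg_qMg m a b hab) M c hc0 hsim
  refine ⟨g₀, Units.mk0 c hc0, ?_, ?_⟩
  · intro v
    rw [hg₀, Units.val_mk0]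
    exact hsim v
  · rw [Units.val_mk0]
    exact hx

end Helpers

/-- Let T = PΩ⁻_{2m+2}(F) with m ≥ 3 and |F| = q odd (form with anisotropic binary part). Inside Aut(T), the image G̃ of the conformal orthogonal group of the form modulo the image of the special orthogonal group is elementary abelian of order 4. -/
theorem result {F : Type*} [Field F] [Fintype F] (hodd : Odd (Fintype.card F)) {m : ℕ} (hm : 3 ≤ m) (a b : F) (hab : (∀ z₁ z₂ : F, z₁ ^ 2 + a * z₁ * z₂ + b * z₂ ^ 2 = 0 → z₁ = 0 ∧ z₂ = 0)) :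
    (∃ φ : ↥(Cfsg.pgoAut F (Cfsg.quadFormMinus m F a b)) →* Multiplicative (ZMod 2 × ZMod 2), Function.Surjective φ ∧ φ.ker = (Cfsg.psoAut F (Cfsg.quadFormMinus m F a b)).subgroupOf (Cfsg.pgoAut F (Cfsg.quadFormMinus m F a b))) := by
  classical
  have h2 : (2 : F) ≠ 0 := GF.two_ne_zero_of_odd hodd
  have hcoe : Cfsg.quadFormMinus m F a b = ⇑(Cfsg.Agent.S2679.qMg F m a b) :=
    funext (fun v => (Cfsg.Agent.S2679.qMg_apply m a b v).symm)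
  rw [hcoe]
  have hcard : Fintype.card ((Fin m ⊕ Fin m) ⊕ Fin 2) = 2 * (m + 1) := by
    rw [Fintype.card_sum, Fintype.card_sum, Fintype.card_fin, Fintype.card_fin]
    ring
  have hcard6 : 6 ≤ Fintype.card ((Fin m ⊕ Fin m) ⊕ Fin 2) := by
    rw [hcard]
    omega
  have hdata := minus_data hodd m a b hab
  exact OA.pgo_mod_pso h2 (m + 1) hcard hcard6 (Cfsg.Agent.S2679.qMg F m a b)
    (Cfsg.Agent.Lib.helper4.nondeg_qMg m a b hab) hdata.choose hdata.choose_spec.choose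
    hdata.choose_spec.choose_spec.1 hdata.choose_spec.choose_spec.2

end Cfsg.Agent.S2726
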