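import Cfsg.Statements.S0606
import Mathlib
import Cfsg.Agent.Lib.helper3.Thompson

set_option autoImplicit false
open Cfsg

namespace Cfsg.Agent.S0606

open Cfsg.Agent.Lib.helper3

/-- Elementary abelian p-subgroups of maximal order are best offenders on any normal elementary abelian p-subgroup. -/
theorem result {G : Type*} [Group G] [Finite G] {p : ℕ} [Fact p.Prime] (V : Subgroup G) [V.Normal] (hV : Cfsg.IsElementaryAbelian p V) (A : Subgroup G) (hA : A ∈ Cfsg.maxElementaryAbelianSubgroups p G) : Cfsg.IsBestOffenderOn p V A := by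
  have hAc : ∀ a ∈ A, ∀ b ∈ A, a * b = b * a := ((isEA_iff p A).mp hA.1).1
  refine ⟨fun B hBA => ?_, ?_, ?_⟩
  · have hB : Cfsg.IsElementaryAbelian p B := isEA_of_le p hBA hA.1
    have hW : Cfsg.IsElementaryAbelian p (V ⊓ Subgroup.centralizer (B : Set G)) :=
      isEA_of_le p inf_le_left hV
    have hBW : Cfsg.IsElementaryAbelian p (B ⊔ (V ⊓ Subgroup.centralizer (B : Set G))) := by
      apply isEA_sup p hB hW
      intro b hb w hw
      exact Subgroup.mem_centralizer_iff.mp hw.2 b hb
    have h1 : Nat.card (B ⊔ (V ⊓ Subgroup.centralizer (B : Set G)) : Subgroup G) ≤ Nat.card A :=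
      hA.2 _ hBW
    have h2 : B ⊓ (V ⊓ Subgroup.centralizer (B : Set G)) ≤ V ⊓ Subgroup.centralizer (A : Set G) := by
      intro x hx
      have hxc : x ∈ Subgroup.centralizer (A : Set G) := by
        rw [Subgroup.mem_centralizer_iff]
        intro a ha
        exact hAc a ha x (hBA hx.1)
      exact ⟨hx.2.1, hxc⟩
    have h3 : Nat.card (B ⊓ (V ⊓ Subgroup.centralizer (B : Set G)) : Subgroup G) ≤
        Nat.card (V ⊓ Subgroup.centralizer (A : Set G) : Subgroup G) :=
      Subgroup.card_le_of_le h2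
    calc Nat.card B * Nat.card ↥(V ⊓ Subgroup.centralizer (B : Set G))
        ≤ Nat.card (B ⊔ (V ⊓ Subgroup.centralizer (B : Set G)) : Subgroup G) *
          Nat.card (B ⊓ (V ⊓ Subgroup.centralizer (B : Set G)) : Subgroup G) :=
          card_mul_card_le B _
      _ ≤ Nat.card A * Nat.card ↥(V ⊓ Subgroup.centralizer (A : Set G)) :=
          Nat.mul_le_mul h1 h3
  · have : ⁅A, A⁆ = ⊥ := by
      rw [Subgroup.commutator_self_eq_bot_iff]; exact hA.1.1
    rw [this]; exact bot_le
  · intro a ha
    rw [hA.1.2 a ha]; exact Subgroup.one_mem _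

end Cfsg.Agent.S0606
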