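import Cfsg.Statements.S2420
-- import your own Cfsg.Agent.* helpers here
import Mathlib

set_option autoImplicit false
open scoped MatrixGroups
open Cfsg

namespace Cfsg.Agent.S2420


open Cfsg

section BT
variable {F : Type*} [Field F] {ι κ : Type*} [Fintype ι] [DecidableEq ι] [Fintype κ]
  [LinearOrder κ]

/-- matrix assembled from diagonal blocks and strictly-upper entries -/
def asm (b : ι → κ) (D : ∀ a : κ, GL {i // b i = a} F) (U : {p : ι × ι // b p.1 < b p.2} → F) :
    Matrix ι ι F :=
  fun i j => if h : b i = b j then ((D (b i) : GL {i' // b i' = b i} F) :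
      Matrix {i' // b i' = b i} {i' // b i' = b i} F) ⟨i, rfl⟩ ⟨j, h.symm⟩
    else if h' : b i < b j then U ⟨(i, j), h'⟩ else 0

theorem asm_bt (b : ι → κ) (D : ∀ a : κ, GL {i // b i = a} F)
    (U : {p : ι × ι // b p.1 < b p.2} → F) : (asm b D U).BlockTriangular b := by
  intro i j hij
  unfold asm
  rw [dif_neg (ne_of_gt hij), dif_neg (not_lt.mpr hij.le)]

theorem asm_block (b : ι → κ) (D : ∀ a : κ, GL {i // b i = a} F)
    (U : {p : ι × ι // b p.1 < b p.2} → F) (a : κ) :
    (asm b D U).toSquareBlock b a = (D a : Matrix {i // b i = a} {i // b i = a} F) := by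
  ext ⟨i, hi⟩ ⟨j, hj⟩
  subst hi
  rw [Matrix.toSquareBlock_def]
  show asm b D U i j = _
  unfold asm
  rw [dif_pos hj.symm]

theorem det_block_ne_zero (b : ι → κ) (M : Matrix ι ι F) (hM : M.BlockTriangular b)
    (hdet : M.det ≠ 0) (a : κ) : (M.toSquareBlock b a).det ≠ 0 := by
  classical
  by_cases ha : a ∈ Finset.image b Finset.univ
  · rw [hM.det] at hdet
    exact (Finset.prod_ne_zero_iff.mp hdet) a ha
  · haveI : IsEmpty {i // b i = a} := by
      constructor
      rintro ⟨i, hi⟩
      exact ha (Finset.mem_image.mpr ⟨i, Finset.mem_univ _, hi⟩)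
    rw [Matrix.det_isEmpty]
    exact one_ne_zero

theorem asm_det_ne_zero (b : ι → κ) (D : ∀ a : κ, GL {i // b i = a} F)
    (U : {p : ι × ι // b p.1 < b p.2} → F) : (asm b D U).det ≠ 0 := by
  classical
  rw [(asm_bt b D U).det]
  refine Finset.prod_ne_zero_iff.mpr (fun a _ => ?_)
  rw [asm_block]
  exact ((Matrix.isUnit_iff_isUnit_det _).mp (D a).isUnit).ne_zero

theorem gl_det_ne_zero {ν : Type*} [Fintype ν] [DecidableEq ν] (g : GL ν F) :
    (g : Matrix ν ν F).det ≠ 0 :=
  ((Matrix.isUnit_iff_isUnit_det _).mp g.isUnit).ne_zero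

noncomputable def btEquiv (b : ι → κ) :
    {g : GL ι F // (g : Matrix ι ι F).BlockTriangular b} ≃
      (∀ a : κ, GL {i // b i = a} F) × ({p : ι × ι // b p.1 < b p.2} → F) where
  toFun g := (fun a => Matrix.GeneralLinearGroup.mkOfDetNeZero
      ((g.1 : Matrix ι ι F).toSquareBlock b a)
      (det_block_ne_zero b _ g.2 (gl_det_ne_zero g.1) a),
    fun p => (g.1 : Matrix ι ι F) p.1.1 p.1.2)
  invFun x := ⟨Matrix.GeneralLinearGroup.mkOfDetNeZero (asm b x.1 x.2) (asm_det_ne_zero b x.1 x.2),
    asm_bt b x.1 x.2⟩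
  left_inv := by
    rintro ⟨g, hg⟩
    apply Subtype.ext
    apply Units.ext
    ext i j
    show asm b _ _ i j = (g : Matrix ι ι F) i j
    unfold asm
    by_cases h : b i = b j
    · rw [dif_pos h]
      rfl
    · rw [dif_neg h]
      by_cases h' : b i < b j
      · rw [dif_pos h']
      · rw [dif_neg h']
        have h'' : b j < b i := lt_of_le_of_ne (not_lt.mp h') (Ne.symm h)
        exact (hg h'').symm
  right_inv := by
    rintro ⟨D, U⟩
    refine Prod.ext ?_ ?_
    · funext a
      apply Units.ext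
      show (asm b D U).toSquareBlock b a = _
      rw [asm_block]
    · funext p
      show asm b D U p.1.1 p.1.2 = U p
      unfold asm
      rw [dif_neg (ne_of_lt p.2), dif_pos p.2]

theorem card_bt [Fintype F] (b : ι → κ) :
    Nat.card {g : GL ι F // (g : Matrix ι ι F).BlockTriangular b} =
      (∏ a : κ, Nat.card (GL {i // b i = a} F)) *
        Fintype.card F ^ Nat.card {p : ι × ι // b p.1 < b p.2} := by
  classical
  rw [Nat.card_congr (btEquiv b), Nat.card_prod, Nat.card_pi, Nat.card_fun,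
    Nat.card_eq_fintype_card (α := F)]

end BT


section Label
variable {n : ℕ} (μ : Fin n → ℕ)

/-- partial sums -/
def sg (t : ℕ) : ℕ := ∑ k : Fin n, if (k : ℕ) < t then μ k else 0

theorem sg_zero : sg μ 0 = 0 := by simp [sg]

theorem sg_mono {s t : ℕ} (h : s ≤ t) : sg μ s ≤ sg μ t := by
  unfold sg
  apply Finset.sum_le_sum
  intro k _
  by_cases hk : (k : ℕ) < s
  · rw [if_pos hk, if_pos (lt_of_lt_of_le hk h)]
  · rw [if_neg hk]; exact Nat.zero_le _

theorem sg_succ (a : Fin n) : sg μ ((a : ℕ) + 1) = sg μ a + μ a := by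
  unfold sg
  have h1 : ∀ k : Fin n, (if (k : ℕ) < (a : ℕ) + 1 then μ k else 0) =
      (if (k : ℕ) < a then μ k else 0) + (if k = a then μ k else 0) := by
    intro k
    by_cases h : (k : ℕ) < a
    · have h2 : k ≠ a := fun e => by rw [e] at h; exact lt_irrefl _ h
      rw [if_pos h, if_pos (by omega), if_neg h2, add_zero]
    · rw [if_neg h]
      by_cases h2 : k = a
      · rw [if_pos h2, if_pos (by rw [h2]; omega), zero_add]
      · have h3 : (k : ℕ) ≠ a := fun e => h2 (Fin.ext e)
        rw [if_neg h2, if_neg (by omega)]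
  rw [Finset.sum_congr rfl (fun k _ => h1 k), Finset.sum_add_distrib, Finset.sum_ite_eq']
  simp

theorem sg_top (h : ∑ i, μ i = n) : sg μ n = n := by
  unfold sg
  rw [Finset.sum_congr rfl (fun k _ => if_pos k.2), h]

theorem comp_S (j : Fin n) :
    ∑ k ∈ Finset.univ.filter (fun k : Fin n => k ≤ j), μ k = sg μ ((j : ℕ) + 1) := by
  unfold sg
  rw [Finset.sum_filter]
  apply Finset.sum_congr rfl
  intro k _
  by_cases h : k ≤ j
  · rw [if_pos h, if_pos (Nat.lt_succ_of_le h)]
  · rw [if_neg h, if_neg (fun h' => h (Nat.lt_succ_iff.mp h'))]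

theorem label_spec (h : ∑ i, μ i = n) (i : Fin n) :
    sg μ (compLabel μ i) ≤ i ∧ (i : ℕ) < sg μ (compLabel μ i + 1) ∧ compLabel μ i < n := by
  classical
  have hn : 1 ≤ n := by have := i.2; omega
  have hex : ∃ t, (i : ℕ) < sg μ (t + 1) :=
    ⟨n - 1, by rw [Nat.sub_add_cancel hn, sg_top μ h]; exact i.2⟩
  have h1 : (i : ℕ) < sg μ (Nat.find hex + 1) := Nat.find_spec hex
  have h2 : sg μ (Nat.find hex) ≤ i := by
    rcases Nat.eq_zero_or_pos (Nat.find hex) with h0 | hpos
    · rw [h0, sg_zero]; exact Nat.zero_le _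
    · have h3 := Nat.find_min hex (m := Nat.find hex - 1) (by omega)
      rw [Nat.sub_add_cancel hpos] at h3
      exact not_lt.mp h3
  have h3 : Nat.find hex < n := by
    have h4 : Nat.find hex ≤ n - 1 :=
      Nat.find_le (by rw [Nat.sub_add_cancel hn, sg_top μ h]; exact i.2)
    omega
  have h5 : compLabel μ i = Nat.find hex := by
    unfold compLabel
    have h6 : (Finset.univ.filter fun j : Fin n =>
        (∑ k ∈ Finset.univ.filter (fun k : Fin n => k ≤ j), μ k) ≤ i.val) =
        Finset.univ.filter (fun j : Fin n => (j : ℕ) < Nat.find hex) := by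
      apply Finset.filter_congr
      intro j _
      rw [comp_S]
      constructor
      · intro h7
        by_contra h8
        have h9 := sg_mono μ (show Nat.find hex + 1 ≤ (j : ℕ) + 1 by omega)
        omega
      · intro h7
        have h9 := sg_mono μ (show (j : ℕ) + 1 ≤ Nat.find hex by omega)
        omega
    rw [h6, Fin.card_filter_val_lt]
    omega
  rw [h5]
  exact ⟨h2, h1, h3⟩

theorem label_unique (h : ∑ i, μ i = n) (i : Fin n) (a : ℕ) (h1 : sg μ a ≤ i)
    (h2 : (i : ℕ) < sg μ (a + 1)) : compLabel μ i = a := by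
  obtain ⟨h3, h4, -⟩ := label_spec μ h i
  rcases lt_trichotomy (compLabel μ i) a with h5 | h5 | h5
  · have := sg_mono μ (show compLabel μ i + 1 ≤ a by omega)
    omega
  · exact h5
  · have := sg_mono μ (show a + 1 ≤ compLabel μ i by omega)
    omega

theorem label_iff (h : ∑ i, μ i = n) (i : Fin n) (a : ℕ) :
    compLabel μ i = a ↔ sg μ a ≤ i ∧ (i : ℕ) < sg μ (a + 1) := by
  constructor
  · rintro rfl
    exact ⟨(label_spec μ h i).1, (label_spec μ h i).2.1⟩
  · rintro ⟨h1, h2⟩
    exact label_unique μ h i a h1 h2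

theorem label_lt_iff (h : ∑ i, μ i = n) (i j : Fin n) :
    compLabel μ i < compLabel μ j ↔ (i : ℕ) < sg μ (compLabel μ j) := by
  obtain ⟨h3, h4, -⟩ := label_spec μ h i
  constructor
  · intro h5
    have := sg_mono μ (show compLabel μ i + 1 ≤ compLabel μ j by omega)
    omega
  · intro h5
    by_contra h6
    have := sg_mono μ (show compLabel μ j ≤ compLabel μ i by omega)
    omega

theorem blk_map (h : ∑ i, μ i = n) (a : Fin n) :
    (Finset.univ.filter (fun j : Fin n => compLabel μ j = a)).map Fin.valEmbedding =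
      Finset.Ico (sg μ a) (sg μ ((a : ℕ) + 1)) := by
  ext x
  simp only [Finset.mem_map, Finset.mem_filter, Finset.mem_univ, true_and,
    Fin.valEmbedding_apply, Finset.mem_Ico]
  constructor
  · rintro ⟨j, hj, rfl⟩
    exact (label_iff μ h j a).mp hj
  · rintro ⟨h1, h2⟩
    have hx : x < n := by
      have h3 := sg_mono μ (show (a : ℕ) + 1 ≤ n from a.2)
      rw [sg_top μ h] at h3
      omega
    exact ⟨⟨x, hx⟩, (label_iff μ h ⟨x, hx⟩ a).mpr ⟨h1, h2⟩, rfl⟩

theorem card_blk (h : ∑ i, μ i = n) (a : Fin n) :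
    (Finset.univ.filter (fun j : Fin n => compLabel μ j = a)).card = μ a := by
  rw [← Finset.card_map Fin.valEmbedding, blk_map μ h, Nat.card_Ico, sg_succ,
    Nat.add_sub_cancel_left]

theorem prod_blk (h : ∑ i, μ i = n) (a : Fin n) (hh : ℕ → ℕ) :
    ∏ j ∈ Finset.univ.filter (fun j : Fin n => compLabel μ j = a),
        hh ((j : ℕ) - sg μ (compLabel μ j)) = ∏ t ∈ Finset.range (μ a), hh t := by
  have h1 : ∏ j ∈ Finset.univ.filter (fun j : Fin n => compLabel μ j = a),
        hh ((j : ℕ) - sg μ (compLabel μ j)) =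
      ∏ j ∈ Finset.univ.filter (fun j : Fin n => compLabel μ j = a),
        hh ((j : ℕ) - sg μ a) := by
    apply Finset.prod_congr rfl
    intro j hj
    rw [(Finset.mem_filter.mp hj).2]
  have h2 := Finset.prod_map (Finset.univ.filter (fun j : Fin n => compLabel μ j = a))
    Fin.valEmbedding (fun x => hh (x - sg μ a))
  simp only [Fin.valEmbedding_apply] at h2
  rw [h1, ← h2, blk_map μ h, Finset.prod_Ico_eq_prod_range, sg_succ, Nat.add_sub_cancel_left]
  apply Finset.prod_congr rfl
  intro t _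
  rw [Nat.add_sub_cancel_left]

theorem prod_all (h : ∑ i, μ i = n) (hh : ℕ → ℕ) :
    ∏ a : Fin n, ∏ t ∈ Finset.range (μ a), hh t =
      ∏ j : Fin n, hh ((j : ℕ) - sg μ (compLabel μ j)) := by
  classical
  rw [← Finset.prod_fiberwise Finset.univ
    (fun i : Fin n => (⟨compLabel μ i, (label_spec μ h i).2.2⟩ : Fin n))
    (fun j : Fin n => hh ((j : ℕ) - sg μ (compLabel μ j)))]
  apply Finset.prod_congr rfl
  intro a _
  rw [← prod_blk μ h a hh]
  apply Finset.prod_congr
  · apply Finset.filter_congr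
    intro j _
    exact ⟨fun h' => Fin.ext h', fun h' => congrArg Fin.val h'⟩
  · intro j _
    rfl

theorem card_pairs (h : ∑ i, μ i = n) :
    Nat.card {p : Fin n × Fin n // compLabel μ p.1 < compLabel μ p.2} =
      ∑ j : Fin n, sg μ (compLabel μ j) := by
  classical
  let e : {p : Fin n × Fin n // compLabel μ p.1 < compLabel μ p.2} ≃
      Σ j : Fin n, {i : Fin n // compLabel μ i < compLabel μ j} :=
    { toFun := fun p => ⟨p.1.2, ⟨p.1.1, p.2⟩⟩
      invFun := fun s => ⟨(s.2.1, s.1), s.2.2⟩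
      left_inv := fun p => rfl
      right_inv := fun s => rfl }
  rw [Nat.card_congr e, Nat.card_sigma]
  apply Finset.sum_congr rfl
  intro j _
  rw [Nat.card_eq_fintype_card, Fintype.card_subtype]
  have h1 : (Finset.univ.filter fun i : Fin n => compLabel μ i < compLabel μ j) =
      Finset.univ.filter (fun i : Fin n => (i : ℕ) < sg μ (compLabel μ j)) := by
    apply Finset.filter_congr
    intro i _
    exact label_lt_iff μ h i j
  rw [h1, Fin.card_filter_val_lt]
  have := (label_spec μ h j).1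
  have := j.2
  omega

end Label


section Final
variable {F : Type*} [Field F] [Fintype F]

theorem geom_id (q : ℕ) (hq : 1 ≤ q) (k : ℕ) :
    (q - 1) * ∑ l ∈ Finset.range k, q ^ l + 1 = q ^ k := by
  obtain ⟨r, rfl⟩ : ∃ r, q = r + 1 := ⟨q - 1, by omega⟩
  induction k with
  | zero => simp
  | succ k ih =>
    rw [Finset.sum_range_succ, Nat.mul_add, pow_succ]
    simp only [Nat.add_sub_cancel] at ih ⊢
    nlinarith [ih]

theorem card_GL_fin (m : ℕ) :
    Nat.card (GL (Fin m) F) = ∏ t ∈ Finset.range m,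
      (Fintype.card F ^ t * ((Fintype.card F - 1) * ∑ l ∈ Finset.range (t + 1), Fintype.card F ^ l)) := by
  have hq : 1 ≤ Fintype.card F := Fintype.card_pos
  rw [Matrix.card_GL_field]
  induction m with
  | zero => simp
  | succ m ih =>
    rw [Finset.prod_range_succ, ← ih, Fin.prod_univ_succ]
    have h1 : ∀ i : Fin m, Fintype.card F ^ (m + 1) - Fintype.card F ^ ((i.succ : Fin (m + 1)) : ℕ) =
        Fintype.card F * (Fintype.card F ^ m - Fintype.card F ^ (i : ℕ)) := by
      intro i
      rw [Nat.mul_sub, Fin.val_succ, pow_succ', pow_succ']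
    rw [Finset.prod_congr rfl (fun i _ => h1 i), Finset.prod_mul_distrib, Finset.prod_const,
      Finset.card_univ, Fintype.card_fin]
    simp only [Fin.val_zero, pow_zero]
    have h2 := geom_id (Fintype.card F) hq (m + 1)
    have h3 : Fintype.card F ^ (m + 1) - 1 =
        (Fintype.card F - 1) * ∑ l ∈ Finset.range (m + 1), Fintype.card F ^ l := by omega
    rw [h3]
    ring

theorem card_GL_of_card {ν : Type*} [Fintype ν] [DecidableEq ν] (m : ℕ)
    (h : Fintype.card ν = m) : Nat.card (GL ν F) = Nat.card (GL (Fin m) F) :=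
  Nat.card_congr (Units.mapEquiv
    (Matrix.reindexAlgEquiv F F (Fintype.equivFinOfCardEq h)).toMulEquiv).toEquiv

theorem main {q : ℕ} (hq : Fintype.card F = q) {n : ℕ} (μ : Fin n → ℕ) (hμ : ∑ i, μ i = n) :
    Nat.card (GL (Fin n) F ⧸ Cfsg.parabolicGL n F μ) *
        ∏ i : Fin n, ∏ j ∈ Finset.range (μ i), ∑ l ∈ Finset.range (j + 1), q ^ l =
      ∏ j ∈ Finset.range n, ∑ l ∈ Finset.range (j + 1), q ^ l := by
  classical
  subst hq
  have hq2 : 2 ≤ Fintype.card F := Fintype.one_lt_card
  have hP : Nat.card (Cfsg.parabolicGL n F μ) =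
      Nat.card {g : GL (Fin n) F // (g : Matrix (Fin n) (Fin n) F).BlockTriangular
        (fun i : Fin n => (⟨compLabel μ i, (label_spec μ hμ i).2.2⟩ : Fin n))} :=
    Nat.card_congr (Equiv.subtypeEquivRight (fun g => Iff.rfl))
  have hblk : ∀ a : Fin n, Nat.card (GL {i : Fin n //
      (⟨compLabel μ i, (label_spec μ hμ i).2.2⟩ : Fin n) = a} F) =
      ∏ t ∈ Finset.range (μ a), (Fintype.card F ^ t *
        ((Fintype.card F - 1) * ∑ l ∈ Finset.range (t + 1), Fintype.card F ^ l)) := by
    intro a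
    rw [card_GL_of_card (μ a), card_GL_fin]
    rw [Fintype.card_subtype, ← card_blk μ hμ a]
    congr 1
    apply Finset.filter_congr
    intro j _
    exact Fin.ext_iff
  have hN : Nat.card {p : Fin n × Fin n //
      (⟨compLabel μ p.1, (label_spec μ hμ p.1).2.2⟩ : Fin n) <
        (⟨compLabel μ p.2, (label_spec μ hμ p.2).2.2⟩ : Fin n)} =
      ∑ j : Fin n, sg μ (compLabel μ j) := card_pairs μ hμ
  have hPc : Nat.card (Cfsg.parabolicGL n F μ) =
      (∏ j : Fin n, (Fintype.card F ^ (j : ℕ) * (Fintype.card F - 1))) *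
        ∏ a : Fin n, ∏ t ∈ Finset.range (μ a), ∑ l ∈ Finset.range (t + 1), Fintype.card F ^ l := by
    rw [hP, card_bt, hN, Finset.prod_congr rfl (fun a _ => hblk a), prod_all μ hμ,
      prod_all μ hμ, ← Finset.prod_pow_eq_pow_sum, ← Finset.prod_mul_distrib,
      ← Finset.prod_mul_distrib]
    apply Finset.prod_congr rfl
    intro j _
    have h1 := (label_spec μ hμ j).1
    have h2 : Fintype.card F ^ (j : ℕ) =
        Fintype.card F ^ ((j : ℕ) - sg μ (compLabel μ j)) * Fintype.card F ^ sg μ (compLabel μ j) := by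
      rw [← pow_add, Nat.sub_add_cancel h1]
    rw [h2]
    ring
  have hG : Nat.card (GL (Fin n) F) =
      (∏ j : Fin n, (Fintype.card F ^ (j : ℕ) * (Fintype.card F - 1))) *
        ∏ j ∈ Finset.range n, ∑ l ∈ Finset.range (j + 1), Fintype.card F ^ l := by
    rw [card_GL_fin, Fin.prod_univ_eq_prod_range (fun j => Fintype.card F ^ j * (Fintype.card F - 1)),
      ← Finset.prod_mul_distrib]
    apply Finset.prod_congr rfl
    intro j _
    ring
  have hL := Subgroup.card_eq_card_quotient_mul_card_subgroup (Cfsg.parabolicGL n F μ)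
  rw [hG, hPc] at hL
  have hC : 0 < ∏ j : Fin n, (Fintype.card F ^ (j : ℕ) * (Fintype.card F - 1)) := by
    apply Finset.prod_pos
    intro j _
    have : 0 < Fintype.card F ^ (j : ℕ) := pow_pos (by omega) _
    have : 0 < Fintype.card F - 1 := by omega
    positivity
  apply Nat.eq_of_mul_eq_mul_left hC
  rw [hL]
  ring

end Final



/-- The number of partial flags of a given type: for a composition `μ` of `n` (with `n` parts, zeros allowed) and a field with `q` elements, the index of the standard parabolic subgroup `P_μ` in `GL_n(q)` times `∏_i {μ_i}` equals `{n}`, where `{r}` denotes the product over `k = 1, …, r` of the q-integers `1 + q + ⋯ + q^(k−1)`. -/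
theorem result {F : Type*} [Field F] [Fintype F] {q : ℕ} (hq : Fintype.card F = q) {n : ℕ} (μ : Fin n → ℕ) (hμ : ∑ i, μ i = n) :
    Nat.card (GL (Fin n) F ⧸ Cfsg.parabolicGL n F μ) * ∏ i : Fin n, ∏ j ∈ Finset.range (μ i), ∑ l ∈ Finset.range (j + 1), q ^ l =
      ∏ j ∈ Finset.range n, ∑ l ∈ Finset.range (j + 1), q ^ l := by
  exact main hq μ hμ

end Cfsg.Agent.S2420
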