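import Cfsg.Statements.S5957
import Mathlib

set_option autoImplicit false
open scoped MatrixGroups
open Cfsg

namespace Cfsg.Agent.S5957

open Module

theorem T_inj {F : Type*} [Field F] {V : Type*} [AddCommGroup V] [Module F V]
    (T : V →ₗ[F] V) (z : F) (hz : z ≠ 0) (hT : ∀ v, T (T v) = z • v) : Function.Injective T := by
  intro v w h
  have h1 : z • v = z • w := by rw [← hT v, ← hT w, h]
  exact smul_right_injective V hz h1

theorem exists_max_card {α : Type*} (Φ : Finset α → Prop) (N : ℕ) (h0 : ∃ P, Φ P)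
    (hb : ∀ P, Φ P → P.card ≤ N) : ∃ P, Φ P ∧ ∀ P', Φ P' → P'.card ≤ P.card := by
  classical
  by_contra hcon
  push Not at hcon
  have key : ∀ k, ∃ P, Φ P ∧ k ≤ P.card := by
    intro k
    induction k with
    | zero =>
      obtain ⟨P, hP⟩ := h0
      exact ⟨P, hP, Nat.zero_le _⟩
    | succ k ih =>
      obtain ⟨P, hP, hk⟩ := ih
      obtain ⟨P', hP', hlt⟩ := hcon P hP
      exact ⟨P', hP', by omega⟩
  obtain ⟨P, hP, hk⟩ := key (N + 1)
  have := hb P hP
  omega

theorem lift_eig {F : Type*} [Field F] {V : Type*} [AddCommGroup V] [Module F V]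
    (T : V →ₗ[F] V) (z : F) (hz : z ≠ 0) (hT : ∀ v, T (T v) = z • v) (S : Submodule F V)
    (hdisj : Disjoint S (S.map T)) (v : V) (μ : F) (w : V) (hTv : T v = μ • v + w)
    (hw : w ∈ S ⊔ S.map T) :
    v ∈ S ⊔ S.map T ∨ ∃ p' ∈ S, T (v - p') = μ • (v - p') := by
  have hinj := T_inj T z hz hT
  have hinv : ∀ y ∈ S ⊔ S.map T, T y ∈ S ⊔ S.map T := by
    intro y hy
    obtain ⟨p, hp, q, hq, rfl⟩ := Submodule.mem_sup.mp hy
    obtain ⟨p', hp', rfl⟩ := Submodule.mem_map.mp hq
    rw [map_add, hT]
    exact add_mem (Submodule.mem_sup_right (Submodule.mem_map_of_mem hp))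
      (Submodule.mem_sup_left (S.smul_mem z hp'))
  have hw' : w = T v - μ • v := by rw [hTv]; abel
  have key : T w + μ • w = (z - μ * μ) • v := by
    rw [hw', map_sub, hT, map_smul, smul_sub, sub_smul, mul_smul]; abel
  by_cases hzm : z - μ * μ = 0
  · right
    obtain ⟨p, hp, q, hq, hpq⟩ := Submodule.mem_sup.mp hw
    obtain ⟨p', hp', rfl⟩ := Submodule.mem_map.mp hq
    rw [hzm, zero_smul, ← hpq, map_add, hT, smul_add] at key
    have h1 : T (p + μ • p') = -(z • p' + μ • p) := by
      rw [map_add, map_smul]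
      have : T p + μ • T p' + (z • p' + μ • p) = 0 := by rw [← key]; abel
      exact eq_neg_of_add_eq_zero_left this
    have h2 : T (p + μ • p') ∈ S.map T :=
      Submodule.mem_map_of_mem (S.add_mem hp (S.smul_mem μ hp'))
    have h3 : T (p + μ • p') ∈ S := by
      rw [h1]; exact S.neg_mem (S.add_mem (S.smul_mem z hp') (S.smul_mem μ hp))
    have h4 : T (p + μ • p') = 0 := Submodule.disjoint_def.mp hdisj _ h3 h2
    have h5 : p + μ • p' = 0 := by
      apply hinj; rw [h4, map_zero]
    refine ⟨p', hp', ?_⟩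
    rw [map_sub, hTv, ← hpq, smul_sub]
    have h6 : p = -(μ • p') := eq_neg_of_add_eq_zero_left h5
    rw [h6]; abel
  · left
    have : v = (z - μ * μ)⁻¹ • (T w + μ • w) := by
      rw [key, smul_smul, inv_mul_cancel₀ hzm, one_smul]
    rw [this]
    exact Submodule.smul_mem _ _ (add_mem (hinv w hw) (Submodule.smul_mem _ _ hw))

theorem span_pairs {F : Type*} [Field F] {V : Type*} [AddCommGroup V] [Module F V] [DecidableEq V]
    (T : V →ₗ[F] V) (P : Finset V) :
    Submodule.span F ((P ∪ P.image T : Finset V) : Set V) =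
      Submodule.span F (P : Set V) ⊔ (Submodule.span F (P : Set V)).map T := by
  rw [Finset.coe_union, Finset.coe_image, Submodule.span_union, Submodule.map_span]

theorem stage1 {F : Type*} [Field F] {V : Type*} [AddCommGroup V] [Module F V]
    [FiniteDimensional F V] [DecidableEq V]
    (T : V →ₗ[F] V) (z : F) (hz : z ≠ 0) (hT : ∀ v, T (T v) = z • v) :
    ∃ P : Finset V, Disjoint P (P.image T) ∧
      LinearIndepOn F id ((P ∪ P.image T : Finset V) : Set V) ∧
      ∀ v, ∃ w₁ ∈ Submodule.span F ((P ∪ P.image T : Finset V) : Set V), ∃ e,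
        (∃ μ : F, T e = μ • e) ∧ v = w₁ + e := by
  have hinj := T_inj T z hz hT
  obtain ⟨P, ⟨hPT, hPind⟩, hmax⟩ := exists_max_card
    (fun P : Finset V => Disjoint P (P.image T) ∧
      LinearIndepOn F id ((P ∪ P.image T : Finset V) : Set V)) (Module.finrank F V)
    ⟨∅, by simp⟩ (by
      rintro P ⟨h1, h2⟩
      have h3 := finrank_span_finset_eq_card h2
      have h4 : (P ∪ P.image T).card = 2 * P.card := by
        rw [Finset.card_union_of_disjoint h1, Finset.card_image_of_injective _ hinj]; ring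
      have h5 := Submodule.finrank_le (Submodule.span F ((P ∪ P.image T : Finset V) : Set V))
      omega)
  refine ⟨P, hPT, hPind, fun v => ?_⟩
  have hW := span_pairs T P
  by_cases hv : v ∈ Submodule.span F ((P ∪ P.image T : Finset V) : Set V)
  · exact ⟨v, hv, 0, ⟨0, by simp⟩, by simp⟩
  · have hTv : T v ∈ Submodule.span F (insert v ((P ∪ P.image T : Finset V) : Set V)) := by
      by_contra hTv
      have hvP : v ∉ P := fun h => hv (Submodule.subset_span (by simp [h]))
      have hΦ : Disjoint (insert v P) ((insert v P).image T) ∧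
          LinearIndepOn F id ((insert v P ∪ (insert v P).image T : Finset V) : Set V) := by
        constructor
        · rw [Finset.disjoint_left]
          intro x hx hx'
          rw [Finset.mem_insert] at hx
          rw [Finset.mem_image] at hx'
          obtain ⟨y, hy, rfl⟩ := hx'
          rw [Finset.mem_insert] at hy
          rcases hx with hx | hx <;> rcases hy with hy | hy
          · subst hy
            apply hTv; rw [hx]; exact Submodule.subset_span (Set.mem_insert _ _)
          · apply hv; rw [← hx]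
            exact Submodule.subset_span (by
              rw [Finset.mem_coe, Finset.mem_union]; right; exact Finset.mem_image_of_mem _ hy)
          · subst hy
            apply hTv
            exact Submodule.subset_span (Set.mem_insert_of_mem _ (by
              rw [Finset.mem_coe, Finset.mem_union]; left; exact hx))
          · exact (Finset.disjoint_left.mp hPT hx) (Finset.mem_image_of_mem _ hy)
        · have hset : ((insert v P ∪ (insert v P).image T : Finset V) : Set V) =
              insert (T v) (insert v ((P ∪ P.image T : Finset V) : Set V)) := by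
            ext x
            simp only [Finset.image_insert, Finset.coe_union, Finset.coe_insert, Finset.coe_image,
              Set.mem_union, Set.mem_insert_iff, Set.mem_image, Finset.mem_coe]
            tauto
          rw [hset]
          exact (hPind.id_insert hv).id_insert hTv
      have := hmax (insert v P) hΦ
      rw [Finset.card_insert_of_notMem hvP] at this
      omega
    rw [Submodule.mem_span_insert] at hTv
    obtain ⟨μ, w, hw, hTvw⟩ := hTv
    rw [hW] at hw hv ⊢
    have hdisj : Disjoint (Submodule.span F (P : Set V)) ((Submodule.span F (P : Set V)).map T) := by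
      rw [Submodule.map_span]
      have hd : Disjoint (P : Set V) (T '' (P : Set V)) := by
        rw [← Finset.coe_image, Finset.disjoint_coe]; exact hPT
      have hind : LinearIndepOn F id ((P : Set V) ∪ T '' (P : Set V)) := by
        rw [← Finset.coe_image, ← Finset.coe_union]; exact hPind
      exact ((linearIndepOn_id_union_iff hd).mp hind).2.2
    rcases lift_eig T z hz hT _ hdisj v μ w hTvw hw with h | ⟨p', hp', heig⟩
    · exact absurd h hv
    · exact ⟨p', Submodule.mem_sup_left hp', v - p', ⟨μ, heig⟩, by abel⟩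

theorem stage2 {F : Type*} [Field F] {V : Type*} [AddCommGroup V] [Module F V]
    [FiniteDimensional F V] [DecidableEq V]
    (T : V →ₗ[F] V) (P : Finset V)
    (hPind : LinearIndepOn F id ((P ∪ P.image T : Finset V) : Set V)) :
    ∃ Q : Finset V, (∀ e ∈ Q, ∃ μ : F, T e = μ • e) ∧ Disjoint (P ∪ P.image T) Q ∧
      LinearIndepOn F id ((P ∪ P.image T ∪ Q : Finset V) : Set V) ∧
      ∀ e, (∃ μ : F, T e = μ • e) → e ∈ Submodule.span F ((P ∪ P.image T ∪ Q : Finset V) : Set V) := by
  obtain ⟨Q, ⟨hQe, hPQ, hBind⟩, hmax⟩ := exists_max_card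
    (fun Q : Finset V => (∀ e ∈ Q, ∃ μ : F, T e = μ • e) ∧ Disjoint (P ∪ P.image T) Q ∧
      LinearIndepOn F id ((P ∪ P.image T ∪ Q : Finset V) : Set V)) (Module.finrank F V)
    ⟨∅, by simp, by simp, by rw [Finset.union_empty]; exact hPind⟩ (by
      rintro Q ⟨_, _, h2⟩
      have h3 := finrank_span_finset_eq_card h2
      have h4 : Q.card ≤ (P ∪ P.image T ∪ Q).card := Finset.card_le_card Finset.subset_union_right
      have h5 := Submodule.finrank_le (Submodule.span F ((P ∪ P.image T ∪ Q : Finset V) : Set V))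
      omega)
  refine ⟨Q, hQe, hPQ, hBind, fun e he => ?_⟩
  by_contra hcon
  have heB : e ∉ P ∪ P.image T ∪ Q := fun h => hcon (Submodule.subset_span h)
  have heQ : e ∉ Q := fun h => heB (Finset.mem_union_right _ h)
  have hΨ : (∀ e' ∈ insert e Q, ∃ μ : F, T e' = μ • e') ∧ Disjoint (P ∪ P.image T) (insert e Q) ∧
      LinearIndepOn F id ((P ∪ P.image T ∪ insert e Q : Finset V) : Set V) := by
    refine ⟨?_, ?_, ?_⟩
    · intro e' he'
      rw [Finset.mem_insert] at he'
      rcases he' with rfl | he'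
      · exact he
      · exact hQe e' he'
    · rw [Finset.disjoint_insert_right]
      exact ⟨fun h => heB (Finset.mem_union_left _ h), hPQ⟩
    · have hset : ((P ∪ P.image T ∪ insert e Q : Finset V) : Set V) =
          insert e ((P ∪ P.image T ∪ Q : Finset V) : Set V) := by
        rw [Finset.union_insert, Finset.coe_insert]
      rw [hset]
      exact hBind.id_insert hcon
  have := hmax (insert e Q) hΨ
  rw [Finset.card_insert_of_notMem heQ] at this
  omega

theorem sdiff_mem {V : Type*} [DecidableEq V] (T : V → V) (hinj : Function.Injective T)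
    (P Q P₁ Q₁ : Finset V) (hPT : Disjoint P (P.image T)) (hPQ : Disjoint (P ∪ P.image T) Q)
    (hP₁ : P₁ ⊆ P) (hQ₁ : Q₁ ⊆ Q) (b : V) :
    b ∈ (P \ P₁) ∪ (P \ P₁).image T ∪ (Q \ Q₁) ↔
      (b ∈ P ∪ P.image T ∪ Q ∧ b ∉ P₁ ∪ P₁.image T ∪ Q₁) := by
  have hP_TP : ∀ x ∈ P, x ∉ P.image T := fun x hx => Finset.disjoint_left.mp hPT hx
  have hQ_P : ∀ x ∈ Q, x ∉ P ∧ x ∉ P.image T := by
    intro x hx
    have := Finset.disjoint_right.mp hPQ hx
    rw [Finset.mem_union] at this
    exact ⟨fun h => this (Or.inl h), fun h => this (Or.inr h)⟩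
  simp only [Finset.mem_union, Finset.mem_sdiff, Finset.mem_image]
  constructor
  · rintro ((⟨hbP, hbP₁⟩ | ⟨p, ⟨hpP, hpP₁⟩, rfl⟩) | ⟨hbQ, hbQ₁⟩)
    · refine ⟨Or.inl (Or.inl hbP), ?_⟩
      rintro ((h | ⟨p₁, hp₁, rfl⟩) | h)
      · exact hbP₁ h
      · exact hP_TP _ hbP (Finset.mem_image_of_mem _ (hP₁ hp₁))
      · exact (hQ_P b (hQ₁ h)).1 hbP
    · refine ⟨Or.inl (Or.inr ⟨p, hpP, rfl⟩), ?_⟩
      rintro ((h | ⟨p₁, hp₁, heq⟩) | h)
      · exact hP_TP _ (hP₁ h) (Finset.mem_image_of_mem _ hpP)
      · exact hpP₁ (hinj heq ▸ hp₁)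
      · exact (hQ_P _ (hQ₁ h)).2 (Finset.mem_image_of_mem _ hpP)
    · refine ⟨Or.inr hbQ, ?_⟩
      rintro ((h | ⟨p₁, hp₁, rfl⟩) | h)
      · exact (hQ_P b hbQ).1 (hP₁ h)
      · exact (hQ_P _ hbQ).2 (Finset.mem_image_of_mem _ (hP₁ hp₁))
      · exact hbQ₁ h
  · rintro ⟨(hb | ⟨p, hp, rfl⟩) | hb, hb₁⟩
    · exact Or.inl (Or.inl ⟨hb, fun h => hb₁ (Or.inl (Or.inl h))⟩)
    · exact Or.inl (Or.inr ⟨p, ⟨hp, fun h => hb₁ (Or.inl (Or.inr ⟨p, h, rfl⟩))⟩, rfl⟩)
    · exact Or.inr ⟨hb, fun h => hb₁ (Or.inr h)⟩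

theorem card_B {V : Type*} [DecidableEq V] (T : V → V) (hinj : Function.Injective T)
    (P Q : Finset V) (hPT : Disjoint P (P.image T)) (hPQ : Disjoint (P ∪ P.image T) Q) :
    (P ∪ P.image T ∪ Q).card = 2 * P.card + Q.card := by
  rw [Finset.card_union_of_disjoint hPQ, Finset.card_union_of_disjoint hPT,
    Finset.card_image_of_injective _ hinj]
  ring

theorem coloring {V : Type*} [DecidableEq V] (T : V → V) (hinj : Function.Injective T)
    (a : ℕ) (ha : 1 ≤ a) :
    ∀ (t : ℕ) (P Q : Finset V), Disjoint P (P.image T) → Disjoint (P ∪ P.image T) Q →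
      2 * P.card + Q.card = a * t →
      ∃ (c : V → ℕ) (σ : ℕ → ℕ),
        (∀ b ∈ P ∪ P.image T ∪ Q, c b < t) ∧
        (∀ j < t, ((P ∪ P.image T ∪ Q).filter (fun b => c b = j)).card = a) ∧
        (∀ j < t, σ j < t ∧ σ (σ j) = j) ∧
        (∀ p ∈ P, c (T p) = σ (c p) ∧ c p = σ (c (T p))) ∧
        (∀ e ∈ Q, σ (c e) = c e) := by
  intro t
  induction t using Nat.strong_induction_on with
  | _ t ih =>
  intro P Q hPT hPQ hcard
  rcases Nat.eq_zero_or_pos t with rfl | htpos
  · have hP : P = ∅ := by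
      rw [← Finset.card_eq_zero]; rw [Nat.mul_zero] at hcard; omega
    have hQ : Q = ∅ := by
      rw [← Finset.card_eq_zero]; rw [Nat.mul_zero] at hcard; omega
    subst hP; subst hQ
    refine ⟨fun _ => 0, fun j => j, ?_, ?_, ?_, ?_, ?_⟩
    · intro b hb; simp at hb
    · intro j hj; omega
    · intro j hj; omega
    · intro p hp; simp at hp
    · intro e he; simp at he
  · obtain ⟨t', rfl⟩ : ∃ t', t = t' + 1 := ⟨t - 1, by omega⟩
    rw [mul_add_one] at hcard
    have hsub : ∀ P₁ Q₁ : Finset V, P₁ ⊆ P → Q₁ ⊆ Q →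
        Disjoint P₁ (P₁.image T) ∧ Disjoint (P₁ ∪ P₁.image T) Q₁ ∧
        Disjoint (P \ P₁) ((P \ P₁).image T) ∧
        Disjoint ((P \ P₁) ∪ (P \ P₁).image T) (Q \ Q₁) := by
      intro P₁ Q₁ hP₁ hQ₁
      refine ⟨?_, ?_, ?_, ?_⟩
      · exact Finset.disjoint_of_subset_left hP₁
          (Finset.disjoint_of_subset_right (Finset.image_subset_image hP₁) hPT)
      · exact Finset.disjoint_of_subset_left
          (Finset.union_subset_union hP₁ (Finset.image_subset_image hP₁))
          (Finset.disjoint_of_subset_right hQ₁ hPQ)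
      · exact Finset.disjoint_of_subset_left Finset.sdiff_subset
          (Finset.disjoint_of_subset_right (Finset.image_subset_image Finset.sdiff_subset) hPT)
      · exact Finset.disjoint_of_subset_left
          (Finset.union_subset_union Finset.sdiff_subset
            (Finset.image_subset_image Finset.sdiff_subset))
          (Finset.disjoint_of_subset_right Finset.sdiff_subset hPQ)
    by_cases hα : ∃ s₁ u₁, s₁ ≤ P.card ∧ u₁ ≤ Q.card ∧ 2 * s₁ + u₁ = a
    · obtain ⟨s₁, u₁, hs₁, hu₁, hsu⟩ := hα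
      obtain ⟨P₁, hP₁, hP₁c⟩ := Finset.exists_subset_card_eq hs₁
      obtain ⟨Q₁, hQ₁, hQ₁c⟩ := Finset.exists_subset_card_eq hu₁
      obtain ⟨hPT₁, hPQ₁, hPT', hPQ'⟩ := hsub P₁ Q₁ hP₁ hQ₁
      have hmem := sdiff_mem T hinj P Q P₁ Q₁ hPT hPQ hP₁ hQ₁
      have hB₁card := card_B T hinj P₁ Q₁ hPT₁ hPQ₁
      have hB₁sub : P₁ ∪ P₁.image T ∪ Q₁ ⊆ P ∪ P.image T ∪ Q :=
        Finset.union_subset_union
          (Finset.union_subset_union hP₁ (Finset.image_subset_image hP₁)) hQ₁
      have hcard' : 2 * (P \ P₁).card + (Q \ Q₁).card = a * t' := by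
        rw [Finset.card_sdiff_of_subset hP₁, Finset.card_sdiff_of_subset hQ₁]
        have := Finset.card_le_card hP₁
        have := Finset.card_le_card hQ₁
        omega
      obtain ⟨c', σ', h1, h2, h3, h4, h5⟩ :=
        ih t' (Nat.lt_succ_self _) (P \ P₁) (Q \ Q₁) hPT' hPQ' hcard'
      obtain ⟨c, hc⟩ : ∃ c : V → ℕ, ∀ b, c b = if b ∈ P₁ ∪ P₁.image T ∪ Q₁ then t' else c' b :=
        ⟨_, fun _ => rfl⟩
      obtain ⟨σ, hσ⟩ : ∃ σ : ℕ → ℕ, ∀ j, σ j = if j < t' then σ' j else j := ⟨_, fun _ => rfl⟩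
      have hc1 : ∀ b ∈ P₁ ∪ P₁.image T ∪ Q₁, c b = t' := fun b hb => by rw [hc, if_pos hb]
      have hc2 : ∀ b, b ∉ P₁ ∪ P₁.image T ∪ Q₁ → c b = c' b := fun b hb => by rw [hc, if_neg hb]
      have hσ1 : ∀ j, j < t' → σ j = σ' j := fun j hj => by rw [hσ, if_pos hj]
      have hσ2 : σ t' = t' := by rw [hσ, if_neg (lt_irrefl _)]
      refine ⟨c, σ, ?_, ?_, ?_, ?_, ?_⟩
      · intro b hb
        by_cases hb₁ : b ∈ P₁ ∪ P₁.image T ∪ Q₁
        · rw [hc1 b hb₁]; omega
        · rw [hc2 b hb₁]
          have := h1 b ((hmem b).mpr ⟨hb, hb₁⟩)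
          omega
      · intro j hj
        rcases Nat.lt_or_ge j t' with hj' | hj'
        · rw [← h2 j hj']
          congr 1
          ext b
          simp only [Finset.mem_filter]
          rw [hmem b]
          constructor
          · rintro ⟨hb, hcb⟩
            have hb₁ : b ∉ P₁ ∪ P₁.image T ∪ Q₁ := by
              intro hb₁
              rw [hc1 b hb₁] at hcb
              omega
            exact ⟨⟨hb, hb₁⟩, by rw [← hc2 b hb₁]; exact hcb⟩
          · rintro ⟨⟨hb, hb₁⟩, hcb⟩
            exact ⟨hb, by rw [hc2 b hb₁]; exact hcb⟩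
        · have hjt : j = t' := by omega
          have hfil : (P ∪ P.image T ∪ Q).filter (fun b => c b = j) = P₁ ∪ P₁.image T ∪ Q₁ := by
            ext b
            simp only [Finset.mem_filter]
            constructor
            · rintro ⟨hb, hcb⟩
              by_contra hb₁
              have := h1 b ((hmem b).mpr ⟨hb, hb₁⟩)
              rw [hc2 b hb₁] at hcb
              omega
            · intro hb₁
              exact ⟨hB₁sub hb₁, by rw [hc1 b hb₁, hjt]⟩
          rw [hfil, hB₁card, hP₁c, hQ₁c]; exact hsu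
      · intro j hj
        rcases Nat.lt_or_ge j t' with hj' | hj'
        · obtain ⟨h3a, h3b⟩ := h3 j hj'
          rw [hσ1 j hj', hσ1 _ h3a]
          exact ⟨by omega, h3b⟩
        · have hjt : j = t' := by omega
          rw [hjt, hσ2, hσ2]
          exact ⟨by omega, rfl⟩
      · intro p hp
        by_cases hp₁ : p ∈ P₁
        · have hpB : p ∈ P₁ ∪ P₁.image T ∪ Q₁ :=
            Finset.mem_union_left _ (Finset.mem_union_left _ hp₁)
          have hTpB : T p ∈ P₁ ∪ P₁.image T ∪ Q₁ :=
            Finset.mem_union_left _ (Finset.mem_union_right _ (Finset.mem_image_of_mem _ hp₁))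
          rw [hc1 _ hpB, hc1 _ hTpB, hσ2]
          exact ⟨rfl, rfl⟩
        · have hp' : p ∈ P \ P₁ := Finset.mem_sdiff.mpr ⟨hp, hp₁⟩
          have hpB' : p ∈ (P \ P₁) ∪ (P \ P₁).image T ∪ (Q \ Q₁) :=
            Finset.mem_union_left _ (Finset.mem_union_left _ hp')
          have hTpB' : T p ∈ (P \ P₁) ∪ (P \ P₁).image T ∪ (Q \ Q₁) :=
            Finset.mem_union_left _ (Finset.mem_union_right _ (Finset.mem_image_of_mem _ hp'))
          have e1 := hc2 p ((hmem p).mp hpB').2
          have e2 := hc2 (T p) ((hmem (T p)).mp hTpB').2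
          obtain ⟨h4a, h4b⟩ := h4 p hp'
          rw [e1, e2, hσ1 _ (h1 p hpB'), hσ1 _ (h1 _ hTpB')]
          exact ⟨h4a, h4b⟩
      · intro e he
        by_cases he₁ : e ∈ Q₁
        · have heB : e ∈ P₁ ∪ P₁.image T ∪ Q₁ := Finset.mem_union_right _ he₁
          rw [hc1 _ heB, hσ2]
        · have he' : e ∈ Q \ Q₁ := Finset.mem_sdiff.mpr ⟨he, he₁⟩
          have heB' : e ∈ (P \ P₁) ∪ (P \ P₁).image T ∪ (Q \ Q₁) := Finset.mem_union_right _ he'
          have e1 := hc2 e ((hmem e).mp heB').2
          rw [e1, hσ1 _ (h1 e heB')]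
          exact h5 e he'
    · push Not at hα
      obtain ⟨m, hm⟩ : ∃ m, a * t' = m := ⟨_, rfl⟩
      rw [hm] at hcard
      have hQ0 : Q.card = 0 := by
        by_contra hQ0
        rcases Nat.even_or_odd' a with ⟨k, hk | hk⟩
        · rcases Nat.lt_or_ge P.card k with hlt | hge
          · exact hα P.card (a - 2 * P.card) le_rfl (by omega) (by omega)
          · exact hα k 0 hge (Nat.zero_le _) (by omega)
        · rcases Nat.lt_or_ge P.card k with hlt | hge
          · exact hα P.card (a - 2 * P.card) le_rfl (by omega) (by omega)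
          · exact hα k 1 hge (by omega) (by omega)
      have hodd : ∃ k, a = 2 * k + 1 := by
        rcases Nat.even_or_odd' a with ⟨k, hk | hk⟩
        · exfalso
          rcases Nat.lt_or_ge P.card k with hlt | hge
          · exact hα P.card (a - 2 * P.card) le_rfl (by omega) (by omega)
          · exact hα k 0 hge (Nat.zero_le _) (by omega)
        · exact ⟨k, hk⟩
      obtain ⟨k, hk⟩ := hodd
      have ht' : 1 ≤ t' := by
        rcases Nat.eq_zero_or_pos t' with h0 | h0
        · rw [h0, Nat.mul_zero] at hm; omega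
        · exact h0
      obtain ⟨t'', rfl⟩ : ∃ t'', t' = t'' + 1 := ⟨t' - 1, by omega⟩
      rw [mul_add_one] at hm
      obtain ⟨m', hm'⟩ : ∃ m', a * t'' = m' := ⟨_, rfl⟩
      rw [hm'] at hm
      have haP : a ≤ P.card := by omega
      obtain ⟨P₁, hP₁, hP₁c⟩ := Finset.exists_subset_card_eq haP
      obtain ⟨hPT₁, hPQ₁, hPT', hPQ'⟩ := hsub P₁ ∅ hP₁ (Finset.empty_subset _)
      have hmem := sdiff_mem T hinj P Q P₁ ∅ hPT hPQ hP₁ (Finset.empty_subset _)
      have hcard' : 2 * (P \ P₁).card + (Q \ ∅).card = a * t'' := by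
        rw [Finset.card_sdiff_of_subset hP₁, Finset.sdiff_empty, hm']
        omega
      obtain ⟨c', σ', h1, h2, h3, h4, h5⟩ :=
        ih t'' (by omega) (P \ P₁) (Q \ ∅) hPT' hPQ' hcard'
      obtain ⟨c, hc⟩ : ∃ c : V → ℕ, ∀ b, c b = if b ∈ P₁ then t'' else
          if b ∈ P₁.image T then t'' + 1 else c' b := ⟨_, fun _ => rfl⟩
      obtain ⟨σ, hσ⟩ : ∃ σ : ℕ → ℕ, ∀ j, σ j = if j < t'' then σ' j else
          if j = t'' then t'' + 1 else t'' := ⟨_, fun _ => rfl⟩
      have hdis : ∀ b, b ∈ P₁.image T → b ∉ P₁ := fun b hb hb' =>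
        Finset.disjoint_left.mp hPT₁ hb' hb
      have hc1 : ∀ b ∈ P₁, c b = t'' := fun b hb => by rw [hc, if_pos hb]
      have hc2 : ∀ b ∈ P₁.image T, c b = t'' + 1 := fun b hb => by
        rw [hc, if_neg (hdis b hb), if_pos hb]
      have hc3 : ∀ b, b ∉ P₁ ∪ P₁.image T ∪ ∅ → c b = c' b := fun b hb => by
        have hb1 : b ∉ P₁ := fun h => hb (Finset.mem_union_left _ (Finset.mem_union_left _ h))
        have hb2 : b ∉ P₁.image T := fun h =>
          hb (Finset.mem_union_left _ (Finset.mem_union_right _ h))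
        rw [hc, if_neg hb1, if_neg hb2]
      have hB₁ : ∀ b, b ∈ P₁ ∪ P₁.image T ∪ (∅ : Finset V) ↔ b ∈ P₁ ∨ b ∈ P₁.image T := by
        intro b; simp only [Finset.union_empty, Finset.mem_union]
      have hσ1 : ∀ j, j < t'' → σ j = σ' j := fun j hj => by rw [hσ, if_pos hj]
      have hσ2 : σ t'' = t'' + 1 := by rw [hσ, if_neg (lt_irrefl _), if_pos rfl]
      have hσ3 : σ (t'' + 1) = t'' := by
        rw [hσ, if_neg (by omega), if_neg (by omega)]
      refine ⟨c, σ, ?_, ?_, ?_, ?_, ?_⟩
      · intro b hb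
        by_cases hb₁ : b ∈ P₁
        · rw [hc1 b hb₁]; omega
        · by_cases hb₂ : b ∈ P₁.image T
          · rw [hc2 b hb₂]; omega
          · have hb₃ : b ∉ P₁ ∪ P₁.image T ∪ ∅ := by
              rw [hB₁]; tauto
            rw [hc3 b hb₃]
            have := h1 b ((hmem b).mpr ⟨hb, hb₃⟩)
            omega
      · intro j hj
        rcases Nat.lt_or_ge j t'' with hj' | hj'
        · rw [← h2 j hj']
          congr 1
          ext b
          simp only [Finset.mem_filter]
          rw [hmem b]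
          constructor
          · rintro ⟨hb, hcb⟩
            have hb₃ : b ∉ P₁ ∪ P₁.image T ∪ ∅ := by
              rw [hB₁]
              rintro (hb₁ | hb₂)
              · rw [hc1 b hb₁] at hcb; omega
              · rw [hc2 b hb₂] at hcb; omega
            exact ⟨⟨hb, hb₃⟩, by rw [← hc3 b hb₃]; exact hcb⟩
          · rintro ⟨⟨hb, hb₃⟩, hcb⟩
            exact ⟨hb, by rw [hc3 b hb₃]; exact hcb⟩
        · rcases Nat.lt_or_ge j (t'' + 1) with hj'' | hj''
          · have hjt : j = t'' := by omega
            have hfil : (P ∪ P.image T ∪ Q).filter (fun b => c b = j) = P₁ := by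
              ext b
              simp only [Finset.mem_filter]
              constructor
              · rintro ⟨hb, hcb⟩
                by_contra hb₁
                by_cases hb₂ : b ∈ P₁.image T
                · rw [hc2 b hb₂] at hcb; omega
                · have hb₃ : b ∉ P₁ ∪ P₁.image T ∪ ∅ := by rw [hB₁]; tauto
                  have := h1 b ((hmem b).mpr ⟨hb, hb₃⟩)
                  rw [hc3 b hb₃] at hcb
                  omega
              · intro hb₁
                exact ⟨Finset.mem_union_left _ (Finset.mem_union_left _ (hP₁ hb₁)),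
                  by rw [hc1 b hb₁, hjt]⟩
            rw [hfil, hP₁c]
          · have hjt : j = t'' + 1 := by omega
            have hfil : (P ∪ P.image T ∪ Q).filter (fun b => c b = j) = P₁.image T := by
              ext b
              simp only [Finset.mem_filter]
              constructor
              · rintro ⟨hb, hcb⟩
                by_contra hb₂
                by_cases hb₁ : b ∈ P₁
                · rw [hc1 b hb₁] at hcb; omega
                · have hb₃ : b ∉ P₁ ∪ P₁.image T ∪ ∅ := by rw [hB₁]; tauto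
                  have := h1 b ((hmem b).mpr ⟨hb, hb₃⟩)
                  rw [hc3 b hb₃] at hcb
                  omega
              · intro hb₂
                exact ⟨Finset.mem_union_left _ (Finset.mem_union_right _
                  (Finset.image_subset_image hP₁ hb₂)), by rw [hc2 b hb₂, hjt]⟩
            rw [hfil, Finset.card_image_of_injective _ hinj, hP₁c]
      · intro j hj
        rcases Nat.lt_or_ge j t'' with hj' | hj'
        · obtain ⟨h3a, h3b⟩ := h3 j hj'
          rw [hσ1 j hj', hσ1 _ h3a]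
          exact ⟨by omega, h3b⟩
        · rcases Nat.lt_or_ge j (t'' + 1) with hj'' | hj''
          · have hjt : j = t'' := by omega
            rw [hjt, hσ2, hσ3]
            exact ⟨by omega, rfl⟩
          · have hjt : j = t'' + 1 := by omega
            rw [hjt, hσ3, hσ2]
            exact ⟨by omega, rfl⟩
      · intro p hp
        by_cases hp₁ : p ∈ P₁
        · rw [hc1 p hp₁, hc2 (T p) (Finset.mem_image_of_mem _ hp₁), hσ2, hσ3]
          exact ⟨rfl, rfl⟩
        · have hp' : p ∈ P \ P₁ := Finset.mem_sdiff.mpr ⟨hp, hp₁⟩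
          have hpB' : p ∈ (P \ P₁) ∪ (P \ P₁).image T ∪ (Q \ ∅) :=
            Finset.mem_union_left _ (Finset.mem_union_left _ hp')
          have hTpB' : T p ∈ (P \ P₁) ∪ (P \ P₁).image T ∪ (Q \ ∅) :=
            Finset.mem_union_left _ (Finset.mem_union_right _ (Finset.mem_image_of_mem _ hp'))
          have e1 := hc3 p ((hmem p).mp hpB').2
          have e2 := hc3 (T p) ((hmem (T p)).mp hTpB').2
          obtain ⟨h4a, h4b⟩ := h4 p hp'
          rw [e1, e2, hσ1 _ (h1 p hpB'), hσ1 _ (h1 _ hTpB')]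
          exact ⟨h4a, h4b⟩
      · intro e he
        exfalso
        have hQe : Q = ∅ := Finset.card_eq_zero.mp hQ0
        rw [hQe] at he
        simp at he

theorem decomp {F : Type*} [Field F] {V : Type*} [AddCommGroup V] [Module F V]
    [FiniteDimensional F V]
    (T : V →ₗ[F] V) (z : F) (hz : z ≠ 0) (hT : ∀ v, T (T v) = z • v)
    (a t : ℕ) (ha : 1 ≤ a) (hdim : Module.finrank F V = a * t) :
    ∃ D : Fin t → Submodule F V, (∀ j, Module.finrank F (D j) = a) ∧ iSupIndep D ∧
      (⨆ j, D j) = ⊤ ∧ ∃ σ : Equiv.Perm (Fin t), ∀ j, (D j).map T = D (σ j) := by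
  classical
  have hinj := T_inj T z hz hT
  obtain ⟨P, hPT, hPind, hP⟩ := stage1 T z hz hT
  obtain ⟨Q, hQe, hPQ, hBind, hQ⟩ := stage2 T P hPind
  have hspan : Submodule.span F ((P ∪ P.image T ∪ Q : Finset V) : Set V) = ⊤ := by
    rw [eq_top_iff]
    intro v _
    obtain ⟨w₁, hw₁, e, he, rfl⟩ := hP v
    refine add_mem ?_ (hQ e he)
    refine Submodule.span_mono ?_ hw₁
    exact Finset.coe_subset.mpr Finset.subset_union_left
  have hBcard : (P ∪ P.image T ∪ Q).card = a * t := by
    rw [← hdim, ← finrank_span_finset_eq_card hBind, hspan, finrank_top]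
  have hcard : 2 * P.card + Q.card = a * t := by
    rw [← hBcard, card_B T hinj P Q hPT hPQ]
  obtain ⟨c, σ, h1, h2, h3, h4, h5⟩ := coloring T hinj a ha t P Q hPT hPQ hcard
  obtain ⟨D, hD⟩ : ∃ D : Fin t → Submodule F V, ∀ j, D j =
      Submodule.span F (((P ∪ P.image T ∪ Q).filter (fun b => c b = j.val) : Finset V) : Set V) :=
    ⟨_, fun _ => rfl⟩
  have hfin : ∀ j, Module.finrank F (D j) = a := by
    intro j
    rw [hD, finrank_span_finset_eq_card (hBind.mono
      (Finset.coe_subset.mpr (Finset.filter_subset _ _))), h2 j.val j.isLt]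
  have hinvol : Function.Involutive (fun j : Fin t => (⟨σ j.val, (h3 j.val j.isLt).1⟩ : Fin t)) := by
    intro j
    apply Fin.ext
    exact (h3 j.val j.isLt).2
  obtain ⟨σ', hσ'⟩ : ∃ σ' : Equiv.Perm (Fin t), ∀ j, (σ' j).val = σ j.val :=
    ⟨Function.Involutive.toPerm _ hinvol, fun j => rfl⟩
  refine ⟨D, hfin, ?_, ?_, σ', ?_⟩
  · intro i
    have hle : (⨆ j, ⨆ (_ : j ≠ i), D j) ≤ Submodule.span F
        (((P ∪ P.image T ∪ Q).filter (fun b => c b ≠ i.val) : Finset V) : Set V) := by
      refine iSup₂_le fun j hj => ?_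
      rw [hD]
      refine Submodule.span_mono (Finset.coe_subset.mpr ?_)
      intro b hb
      rw [Finset.mem_filter] at hb ⊢
      refine ⟨hb.1, ?_⟩
      rw [hb.2]
      exact fun h => hj (Fin.ext h)
    refine Disjoint.mono_right hle ?_
    rw [hD]
    have hd : Disjoint (((P ∪ P.image T ∪ Q).filter (fun b => c b = i.val) : Finset V) : Set V)
        (((P ∪ P.image T ∪ Q).filter (fun b => c b ≠ i.val) : Finset V) : Set V) := by
      rw [Finset.disjoint_coe, Finset.disjoint_left]
      intro b hb hb'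
      rw [Finset.mem_filter] at hb hb'
      exact hb'.2 hb.2
    have hind : LinearIndepOn F id
        ((((P ∪ P.image T ∪ Q).filter (fun b => c b = i.val) : Finset V) : Set V) ∪
        (((P ∪ P.image T ∪ Q).filter (fun b => c b ≠ i.val) : Finset V) : Set V)) := by
      refine hBind.mono ?_
      rw [← Finset.coe_union, Finset.coe_subset]
      exact Finset.union_subset (Finset.filter_subset _ _) (Finset.filter_subset _ _)
    exact ((linearIndepOn_id_union_iff hd).mp hind).2.2
  · rw [eq_top_iff, ← hspan, Submodule.span_le]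
    intro b hb
    have hb' : b ∈ P ∪ P.image T ∪ Q := hb
    have hbD : b ∈ D ⟨c b, h1 b hb'⟩ := by
      rw [hD]
      exact Submodule.subset_span (Finset.mem_coe.mpr (Finset.mem_filter.mpr ⟨hb', rfl⟩))
    exact Submodule.mem_iSup_of_mem _ hbD
  · intro j
    have hle : (D j).map T ≤ D (σ' j) := by
      rw [hD, hD, Submodule.map_span, Submodule.span_le]
      rintro _ ⟨b, hb, rfl⟩
      rw [Finset.mem_coe, Finset.mem_filter] at hb
      obtain ⟨hbB, hcb⟩ := hb
      rw [Finset.mem_union, Finset.mem_union] at hbB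
      rcases hbB with (hbP | hbTP) | hbQ
      · apply Submodule.subset_span
        rw [Finset.mem_coe, Finset.mem_filter]
        refine ⟨Finset.mem_union_left _ (Finset.mem_union_right _
          (Finset.mem_image_of_mem _ hbP)), ?_⟩
        rw [(h4 b hbP).1, hcb, hσ']
      · obtain ⟨p, hp, rfl⟩ := Finset.mem_image.mp hbTP
        rw [hT]
        apply Submodule.smul_mem
        apply Submodule.subset_span
        rw [Finset.mem_coe, Finset.mem_filter]
        refine ⟨Finset.mem_union_left _ (Finset.mem_union_left _ hp), ?_⟩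
        rw [(h4 p hp).2, hcb, hσ']
      · obtain ⟨μ, hμ⟩ := hQe b hbQ
        rw [hμ]
        apply Submodule.smul_mem
        apply Submodule.subset_span
        rw [Finset.mem_coe, Finset.mem_filter]
        refine ⟨Finset.mem_union_right _ hbQ, ?_⟩
        have := h5 b hbQ
        rw [hcb] at this
        rw [hcb, hσ', this]
    refine Submodule.eq_of_le_of_finrank_eq hle ?_
    rw [hfin (σ' j), ← hfin j]
    exact (LinearEquiv.finrank_eq (Submodule.equivMapOfInjective T hinj (D j))).symm


/-- Involutions of PSL_n(q) and imprimitive subgroups. Here `T = PSL_n(F)` for a field `F` with `q = p^f` elements (`n ≥ 2`, `(n, q) ≠ (2, 2), (2, 3)`), `n = a·t` with `t ≥ 2`, and Ω is the set of direct-sum decompositions of `F^n` into `t` subspaces of dimension `a` (unordered; their number is the number of ordered ones divided by `t!`), whose stabilizers are the imprimitive subgroups of type GL_a(q) ≀ S_t (maximal except in some small cases; maximality is not assumed); an element of `T` of prime order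 `r` (a matrix `x` of determinant 1 with `x^r` scalar, `x` not scalar) fixes a point of Ω when it permutes the summands of some such decomposition. If the number of such decompositions is even, then every involution of `T` stabilizes one of them (the action is 2-elusive). -/
theorem result {F : Type*} [Field F] [Fintype F] {p : ℕ} [Fact p.Prime] [CharP F p] {q : ℕ} (hq : Fintype.card F = q)
    (n a t : ℕ) (hn : 2 ≤ n) (hT : (n, q) ≠ (2, 2) ∧ (n, q) ≠ (2, 3)) (hat : n = a * t) (ha : 1 ≤ a) (ht : 2 ≤ t)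
    (hΩ : 2 ∣ Nat.card {D : Fin t → Submodule F (Fin n → F) // Cfsg.Geo.IsMDecomposition a D} / Nat.factorial t)
    (x : Matrix.SpecialLinearGroup (Fin n) F)
    (hx1 : ∃ z : F, ((x ^ 2 : Matrix.SpecialLinearGroup (Fin n) F) : Matrix (Fin n) (Fin n) F) = z • (1 : Matrix (Fin n) (Fin n) F))
    (hx2 : ∀ z : F, (x : Matrix (Fin n) (Fin n) F) ≠ z • (1 : Matrix (Fin n) (Fin n) F)) :
    ∃ D : Fin t → Submodule F (Fin n → F), Cfsg.Geo.IsMDecomposition a D ∧
        ∃ σ : Equiv.Perm (Fin t), ∀ j, (D j).map (Matrix.toLin' (x : Matrix (Fin n) (Fin n) F)) = D (σ j) := by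
  classical
  obtain ⟨z, hz⟩ := hx1
  have hxx : (x : Matrix (Fin n) (Fin n) F) * (x : Matrix (Fin n) (Fin n) F) = z • 1 := by
    rw [← hz, pow_two]; rfl
  have hz0 : z ≠ 0 := by
    rintro rfl
    have h1 : ((x : Matrix (Fin n) (Fin n) F) * (x : Matrix (Fin n) (Fin n) F)).det = 1 := by
      rw [Matrix.det_mul, x.det_coe]; ring
    haveI : Nonempty (Fin n) := ⟨⟨0, by omega⟩⟩
    rw [hxx, zero_smul, Matrix.det_zero] at h1
    exact zero_ne_one h1
  have hT' : ∀ v, Matrix.toLin' (x : Matrix (Fin n) (Fin n) F)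
      (Matrix.toLin' (x : Matrix (Fin n) (Fin n) F) v) = z • v := by
    intro v
    rw [← LinearMap.comp_apply, ← Matrix.toLin'_mul, hxx, Matrix.toLin'_apply,
      Matrix.smul_mulVec, Matrix.one_mulVec]
  have hdim : Module.finrank F (Fin n → F) = a * t := by
    rw [Module.finrank_fin_fun, hat]
  obtain ⟨D, hD1, hD2, hD3, σ, hσ⟩ := decomp _ z hz0 hT' a t ha hdim
  exact ⟨D, ⟨ht, ha, hD1, hD2, hD3⟩, σ, hσ⟩

end Cfsg.Agent.S5957
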