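import Cfsg.Statements.S1506

import Cfsg.Agent.Lib.helper24.CharNormal
set_option autoImplicit false
open Cfsg

namespace Cfsg.Agent.S1506

open Cfsg.Agent.Lib.helper24 in
theorem cyclic_ti_additive {G : Type*} [Group G] [Fintype G] (W₁ W₂ : Subgroup G)
    (χ : (↥(W₁ ⊔ W₂) →* ℂˣ) → (G → ℂ)) (hχ : Cfsg.IsCyclicTIFamily W₁ W₂ χ) (θ : G → ℂ)
    (hθ : Cfsg.IsClassFunction G θ)
    (hθV : ∀ w : ↥(W₁ ⊔ W₂), (w : G) ∉ W₁ → (w : G) ∉ W₂ → θ w = 0)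
    (φ ψ : ↥(W₁ ⊔ W₂) →* ℂˣ) (hφ₂ : ∀ w : ↥(W₁ ⊔ W₂), (w : G) ∈ W₂ → φ w = 1)
    (hψ₁ : ∀ w : ↥(W₁ ⊔ W₂), (w : G) ∈ W₁ → ψ w = 1) :
    Cfsg.classInner θ (χ (φ * ψ)) =
      Cfsg.classInner θ (χ φ) + Cfsg.classInner θ (χ ψ) - Cfsg.classInner θ (χ 1) := by
  classical
  have := Fintype.ofFinite ↥(W₁ ⊔ W₂)
  by_cases h1 : φ = 1
  · subst h1
    have e : (1 : ↥(W₁ ⊔ W₂) →* ℂˣ) * ψ = ψ := by
      ext w; simp
    rw [e]; ring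
  by_cases h2 : ψ = 1
  · subst h2
    have e : φ * (1 : ↥(W₁ ⊔ W₂) →* ℂˣ) = φ := by
      ext w; simp
    rw [e]; ring
  have hind := hχ.induced_eq φ ψ h1 h2 hφ₂ hψ₁
  have hfun : (fun g => 1 - χ φ g - χ ψ g + χ (φ * ψ) g) = χ 1 - χ φ - χ ψ + χ (φ * ψ) := by
    funext g
    simp [hχ.map_one]
  rw [hfun] at hind
  have hzero : Cfsg.classInner (Cfsg.indFun (W₁ ⊔ W₂)
      (fun w => 1 - (φ w : ℂ) - (ψ w : ℂ) + (φ w : ℂ) * (ψ w : ℂ))) θ = 0 := by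
    rw [frobenius_reciprocity _ _ hθ]
    unfold Cfsg.classInner
    apply mul_eq_zero_of_right
    apply Finset.sum_eq_zero
    intro w _
    beta_reduce
    by_cases hw1 : (w : G) ∈ W₁
    · rw [hψ₁ w hw1]; simp
    · by_cases hw2 : (w : G) ∈ W₂
      · rw [hφ₂ w hw2]; simp
      · rw [hθV w hw1 hw2]; simp
  rw [hind] at hzero
  have h3 : Cfsg.classInner θ (χ 1 - χ φ - χ ψ + χ (φ * ψ)) = 0 := by
    rw [classInner_conj_symm, hzero, map_zero]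
  rw [classInner_add_right, classInner_sub_right, classInner_sub_right] at h3
  linear_combination h3

/-- Let W₁, W₂ ≤ G form a self-normalising cyclic subgroup W = W₁ ⊔ W₂ and χ an orthonormal family of irreducible characters of G up to sign, indexed by the linear characters ω of W, with χ_1 = 1, χ_ω = ω on W outside W₁ ∪ W₂, and the induction identity for (1 − φ)(1 − ψ). Let θ be a class function of G vanishing at every element of W outside W₁ ∪ W₂. For linear characters φ, φ' of W trivial on W₂ and ψ, ψ' trivial on W₁, the inner products a(ω) = ⟨θ, χ ω⟩ satisfy a(φψ) + a(φ'ψ') = a(φψ') + a(φ'ψ). -/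
theorem result {G : Type*} [Group G] [Fintype G] (W₁ W₂ : Subgroup G) (hW : Cfsg.IsSelfNormalizingCyclic W₁ W₂) (χ : (↥(W₁ ⊔ W₂) →* ℂˣ) → (G → ℂ)) (hχ : Cfsg.IsCyclicTIFamily W₁ W₂ χ) (θ : G → ℂ) (hθ : Cfsg.IsClassFunction G θ) (hθV : ∀ w : ↥(W₁ ⊔ W₂), (w : G) ∉ W₁ → (w : G) ∉ W₂ → θ w = 0) (φ φ' ψ ψ' : ↥(W₁ ⊔ W₂) →* ℂˣ) (hφ₂ : ∀ w : ↥(W₁ ⊔ W₂), (w : G) ∈ W₂ → φ w = 1 ∧ φ' w = 1) (hψ₁ : ∀ w : ↥(W₁ ⊔ W₂), (w : G) ∈ W₁ → ψ w = 1 ∧ ψ' w = 1) : Cfsg.classInner θ (χ (φ * ψ)) + Cfsg.classInner θ (χ (φ' * ψ')) = Cfsg.classInner θ (χ (φ * ψ')) + Cfsg.classInner θ (χ (φ' * ψ)) := by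

    have e1 := cyclic_ti_additive W₁ W₂ χ hχ θ hθ hθV φ ψ (fun w hw => (hφ₂ w hw).1)
      (fun w hw => (hψ₁ w hw).1)
    have e2 := cyclic_ti_additive W₁ W₂ χ hχ θ hθ hθV φ' ψ' (fun w hw => (hφ₂ w hw).2)
      (fun w hw => (hψ₁ w hw).2)
    have e3 := cyclic_ti_additive W₁ W₂ χ hχ θ hθ hθV φ ψ' (fun w hw => (hφ₂ w hw).1)
      (fun w hw => (hψ₁ w hw).2)
    have e4 := cyclic_ti_additive W₁ W₂ χ hχ θ hθ hθV φ' ψ (fun w hw => (hφ₂ w hw).2)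
      (fun w hw => (hψ₁ w hw).1)
    rw [e1, e2, e3, e4]
    ring

end Cfsg.Agent.S1506
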