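import Cfsg.Statements.S0722
-- import your own Cfsg.Agent.* helpers here

set_option autoImplicit false
open Cfsg

namespace Cfsg.Agent.S0722

/-- In a primitive group `H`, with `N` a minimal normal subgroup and `K` a point stabiliser, `K ⊓ N` is maximal among proper `K`-invariant subgroups of `N`. -/
theorem result {α : Type*} [Finite α] (H : Subgroup (Equiv.Perm α)) [MulAction.IsPreprimitive H α] (N : Subgroup H) [N.Normal] (hN : N ≠ ⊥) (hmin : ∀ M : Subgroup H, M.Normal → M ≤ N → M = ⊥ ∨ M = N) (a : α) (X : Subgroup H) (hX : X ≤ N) (hKX : MulAction.stabilizer H a ⊓ N ≤ X) (hinv : MulAction.stabilizer H a ≤ Subgroup.normalizer (X : Set H)) : X = MulAction.stabilizer H a ⊓ N ∨ X = N := by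
  classical
  rcases subsingleton_or_nontrivial α with hα | hα
  · right
    have hH : Subsingleton H := ⟨fun x y => Subtype.ext (Subsingleton.elim _ _)⟩
    ext x
    have : x = 1 := Subsingleton.elim _ _
    subst this
    simp
  · have hco : IsCoatom (MulAction.stabilizer H a) :=
      (MulAction.isCoatom_stabilizer_iff_preprimitive (G := H) a).mpr inferInstance
    by_cases hKX' : X ≤ MulAction.stabilizer H a
    · left
      exact le_antisymm (le_inf hKX' hX) hKX
    · right
      have hlt : MulAction.stabilizer H a < MulAction.stabilizer H a ⊔ X := by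
        apply lt_of_le_of_ne le_sup_left
        intro h
        apply hKX'
        rw [h]
        exact le_sup_right
      have htop : MulAction.stabilizer H a ⊔ X = ⊤ := hco.2 _ hlt
      apply le_antisymm hX
      intro n hn
      have hmem : n ∈ ((MulAction.stabilizer H a ⊔ X : Subgroup H) : Set H) := by
        rw [htop]; exact Subgroup.mem_top n
      rw [Subgroup.coe_mul_of_left_le_normalizer_right _ _ hinv] at hmem
      obtain ⟨k, hk, x, hx, rfl⟩ := hmem
      have hkN : k ∈ N := by
        have := mul_mem hn (inv_mem (hX hx))
        simpa using this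
      exact mul_mem (hKX ⟨hk, hkN⟩) hx

end Cfsg.Agent.S0722
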