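import Cfsg.Statements.S5013
-- import your own Cfsg.Agent.* helpers here

set_option autoImplicit false
open Cfsg

namespace Cfsg.Agent.S5013

theorem conjBy_conjBy {G : Type*} [Group G] (A : Subgroup G) (g h : G) :
    Cfsg.conjBy (Cfsg.conjBy A g) h = Cfsg.conjBy A (h * g) := by
  unfold Cfsg.conjBy
  rw [Subgroup.map_map]
  congr 1
  ext x
  simp [mul_assoc]

theorem conjBy_one {G : Type*} [Group G] (A : Subgroup G) : Cfsg.conjBy A 1 = A := by
  unfold Cfsg.conjBy
  ext x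
  simp

theorem conjBy_of_mem {G : Type*} [Group G] (A : Subgroup G) {g : G} (hg : g ∈ A) :
    Cfsg.conjBy A g = A := by
  unfold Cfsg.conjBy
  ext x
  simp only [Subgroup.mem_map, MulEquiv.coe_toMonoidHom, MulAut.conj_apply]
  constructor
  · rintro ⟨y, hy, rfl⟩
    exact A.mul_mem (A.mul_mem hg hy) (A.inv_mem hg)
  · intro hx
    refine ⟨g⁻¹ * x * g, A.mul_mem (A.mul_mem (A.inv_mem hg) hx) hg, ?_⟩
    group

theorem conjBy_of_mem_normalizer {G : Type*} [Group G] (A : Subgroup G) {g : G}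
    (hg : g ∈ Subgroup.normalizer (A : Set G)) : Cfsg.conjBy A g = A := by
  unfold Cfsg.conjBy
  ext x
  simp only [Subgroup.mem_map, MulEquiv.coe_toMonoidHom, MulAut.conj_apply]
  constructor
  · rintro ⟨y, hy, rfl⟩
    exact (Subgroup.mem_normalizer_iff.mp hg y).mp hy
  · intro hx
    have hg' : g⁻¹ ∈ Subgroup.normalizer (A : Set G) := Subgroup.inv_mem _ hg
    refine ⟨g⁻¹ * x * g, ?_, ?_⟩
    · have := (Subgroup.mem_normalizer_iff.mp hg' x).mp hx
      simpa using this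
    · group

theorem mem_normalizer_of_conjBy {G : Type*} [Group G] (A : Subgroup G) {g : G}
    (hg : Cfsg.conjBy A g = A) : g ∈ Subgroup.normalizer (A : Set G) := by
  rw [Subgroup.mem_normalizer_iff]
  intro h
  constructor
  · intro hh
    rw [← hg]
    exact ⟨h, hh, by simp⟩
  · intro hh
    rw [← hg] at hh
    obtain ⟨y, hy, hyh⟩ := hh
    simp only [MulEquiv.coe_toMonoidHom, MulAut.conj_apply] at hyh
    have : y = h := mul_left_cancel (mul_right_cancel hyh)
    exact this ▸ hy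

theorem inf_normalizer_eq_bot {G : Type*} [Group G] {A B : Subgroup G} (h : Cfsg.IsRankOnePair A B) :
    A ⊓ Subgroup.normalizer (B : Set G) = ⊥ := by
  rw [eq_bot_iff]
  intro a ha
  rw [Subgroup.mem_bot]
  by_contra ha1
  obtain ⟨haA, haN⟩ := ha
  obtain ⟨b, hb, hb1, hconj⟩ := h.cond_left a haA ha1
  have h1 : Cfsg.conjBy B a⁻¹ = B := conjBy_of_mem_normalizer B (Subgroup.inv_mem _ haN)
  rw [h1] at hconj
  have h2 : Cfsg.conjBy (Cfsg.conjBy A b⁻¹) b = Cfsg.conjBy B b := by rw [hconj]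
  rw [conjBy_conjBy, mul_inv_cancel, conjBy_one, conjBy_of_mem B hb] at h2
  exact h.ne h2

theorem eq_of_conjBy_eq {G : Type*} [Group G] {A B : Subgroup G} (hN : B ⊓ Subgroup.normalizer (A : Set G) = ⊥)
    {b b' : G} (hb : b ∈ B) (hb' : b' ∈ B) (h : Cfsg.conjBy A b⁻¹ = Cfsg.conjBy A b'⁻¹) : b = b' := by
  have h2 : Cfsg.conjBy (Cfsg.conjBy A b⁻¹) b' = Cfsg.conjBy (Cfsg.conjBy A b'⁻¹) b' := by rw [h]
  rw [conjBy_conjBy, conjBy_conjBy, mul_inv_cancel, conjBy_one] at h2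
  have h3 : b' * b⁻¹ ∈ B ⊓ Subgroup.normalizer (A : Set G) :=
    ⟨B.mul_mem hb' (B.inv_mem hb), mem_normalizer_of_conjBy A h2⟩
  rw [hN, Subgroup.mem_bot] at h3
  have : b' = b := by
    have := congrArg (fun t => t * b) h3
    simpa using this
  exact this.symm

/-- In a rank one group with unipotent subgroups A and B (conjugation written g H g⁻¹), for every non-identity a in A the non-identity b in B with b⁻¹ A b = a⁻¹ B a is unique, every non-identity b in B arises in this way from exactly one such a (so a ↦ b(a) is a bijection between the non-identity elements of A and of B), and no non-identity element of A normalizes B (and vice versa). -/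
theorem result {G : Type*} [Group G] {A B : Subgroup G} (h : Cfsg.IsRankOnePair A B) :
    (∀ a ∈ A, a ≠ 1 → ∃! b : G, b ∈ B ∧ b ≠ 1 ∧ Cfsg.conjBy A b⁻¹ = Cfsg.conjBy B a⁻¹) ∧
    (∀ b ∈ B, b ≠ 1 → ∃! a : G, a ∈ A ∧ a ≠ 1 ∧ Cfsg.conjBy A b⁻¹ = Cfsg.conjBy B a⁻¹) ∧
    A ⊓ Subgroup.normalizer (B : Set G) = ⊥ ∧ B ⊓ Subgroup.normalizer (A : Set G) = ⊥ := by
  have hAB := inf_normalizer_eq_bot h
  have hBA := inf_normalizer_eq_bot (Cfsg.RankOnePair_symm h)
  refine ⟨?_, ?_, hAB, hBA⟩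
  · intro a ha ha1
    obtain ⟨b, hb, hb1, hconj⟩ := h.cond_left a ha ha1
    refine ⟨b, ⟨hb, hb1, hconj⟩, ?_⟩
    rintro b' ⟨hb', -, hconj'⟩
    exact eq_of_conjBy_eq hBA hb' hb (hconj'.trans hconj.symm)
  · intro b hb hb1
    obtain ⟨a, ha, ha1, hconj⟩ := h.cond_right b hb hb1
    refine ⟨a, ⟨ha, ha1, hconj.symm⟩, ?_⟩
    rintro a' ⟨ha', -, hconj'⟩
    exact eq_of_conjBy_eq hAB ha' ha (hconj'.symm.trans hconj.symm)

end Cfsg.Agent.S5013
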