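import Cfsg.Statements.S0432
import Mathlib

set_option autoImplicit false
open Cfsg

namespace Cfsg.Agent.S0432

open scoped Pointwise

theorem mem_leechSet_comp (σ : Equiv.Perm Cfsg.GolayPt) (hσ : σ ∈ Cfsg.M24) (x : Cfsg.GolayPt → ℤ)
    (hx : x ∈ Cfsg.leechSet) : (fun i => x (σ i)) ∈ Cfsg.leechSet := by
  obtain ⟨m, h1, h2, h3⟩ := hx
  refine ⟨m, fun i => h1 (σ i), ?_, fun k => ?_⟩
  · rw [Equiv.sum_comp σ x]; exact h2
  · have hinv : σ⁻¹ ∈ Cfsg.M24 := inv_mem hσ
    have hst : σ⁻¹ • (Cfsg.supports (Cfsg.golayCode : Set (Cfsg.GolayPt → ZMod 2))) =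
        Cfsg.supports (Cfsg.golayCode : Set (Cfsg.GolayPt → ZMod 2)) :=
      MulAction.mem_stabilizer_iff.mp hinv
    have hk := h3 k
    have hmem : σ⁻¹ • (Finset.univ.filter fun i => x i ≡ k [ZMOD 4]) ∈
        σ⁻¹ • (Cfsg.supports (Cfsg.golayCode : Set (Cfsg.GolayPt → ZMod 2))) :=
      Set.smul_mem_smul_set hk
    rw [hst] at hmem
    have heq : σ⁻¹ • (Finset.univ.filter fun i => x i ≡ k [ZMOD 4]) =
        (Finset.univ.filter fun i => x (σ i) ≡ k [ZMOD 4]) := by
      ext j
      simp only [Finset.mem_smul_finset, Finset.mem_filter, Finset.mem_univ, true_and,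
        Equiv.Perm.smul_def]
      constructor
      · rintro ⟨y, hy, rfl⟩
        simpa using hy
      · intro hj
        exact ⟨σ j, hj, by simp⟩
    rw [heq] at hmem
    exact hmem

/-- Coordinate permutations from the code's group preserve the lattice. -/
theorem result (σ : Equiv.Perm Cfsg.GolayPt) (hσ : σ ∈ Cfsg.M24) (x : Cfsg.GolayPt → ℤ) (hx : x ∈ Cfsg.leechLattice) : (fun i => x (σ i)) ∈ Cfsg.leechLattice := by
  unfold Cfsg.leechLattice at hx ⊢
  induction hx using AddSubgroup.closure_induction with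
  | mem y hy => exact AddSubgroup.subset_closure (mem_leechSet_comp σ hσ y hy)
  | zero => exact zero_mem _
  | add y z _ _ hy hz => exact add_mem hy hz
  | neg y _ hy => exact neg_mem hy

end Cfsg.Agent.S0432
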