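import Cfsg.Statements.S0358
import Cfsg.Agent.Lib.helper28.GolayWeights

set_option autoImplicit false
open Cfsg

namespace Cfsg.Agent.S0358

open Cfsg.Agent.Lib.helper28 in
theorem card_code : Nat.card (golayCode : Submodule (ZMod 2) (GolayPt → ZMod 2)) = 4096 := by
  have hinj : Function.Injective maskW := by
    intro v w h
    rw [← wordOf_maskW v, ← wordOf_maskW w, h]
  have himg : maskW '' (golayCode : Set (GolayPt → ZMod 2)) = ((Finset.range 4096).image cw : Finset ℕ) := by
    ext m
    simp only [Set.mem_image, SetLike.mem_coe, Finset.coe_image, Finset.coe_range, Set.mem_Iio]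
    constructor
    · rintro ⟨w, hw, rfl⟩
      obtain ⟨n, hn, h⟩ := exists_cw_of_mem hw
      exact ⟨n, hn, h.symm⟩
    · rintro ⟨n, hn, rfl⟩
      exact ⟨wordOf (cw n), wordOf_cw_mem n, maskW_wordOf (cw_lt hn)⟩
  have h1 : Nat.card (golayCode : Submodule (ZMod 2) (GolayPt → ZMod 2)) =
      (golayCode : Set (GolayPt → ZMod 2)).ncard := rfl
  rw [h1, ← Set.ncard_image_of_injective _ hinj, himg, Set.ncard_coe_finset,
    Finset.card_image_of_injOn, Finset.card_range]
  intro a ha b hb h
  simp only [Finset.coe_range, Set.mem_Iio] at ha hb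
  rw [← cw_shift ha, ← cw_shift hb, h]

/-- The length-24 code built from the squares modulo 23 has dimension 12 over the field with two elements. -/
theorem result : Module.finrank (ZMod 2) Cfsg.golayCode = 12 := by
  have hcard : Nat.card (golayCode : Submodule (ZMod 2) (GolayPt → ZMod 2)) = 4096 := card_code
  have h2 := Module.natCard_eq_pow_finrank (K := ZMod 2) (V := (golayCode : Submodule (ZMod 2) (GolayPt → ZMod 2)))
  rw [hcard, Nat.card_zmod] at h2
  have h3 : (2 : ℕ) ^ 12 = 2 ^ Module.finrank (ZMod 2) golayCode := by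
    rw [← h2]; norm_num
  exact (Nat.pow_right_injective (le_refl 2) h3).symm

end Cfsg.Agent.S0358
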