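import Cfsg.Statements.S1567
import Cfsg.Agent.Lib.helper27.Leech2
import Cfsg.Prelude.Def_Spor_Conway

set_option autoImplicit false
open Cfsg

namespace Cfsg.Agent.S1567

open Cfsg.Agent.Lib.helper27
open Cfsg.Agent.Lib.helper28

/-- the subgroup generated by the minimal vectors -/
def minSub : AddSubgroup (GolayPt → ℤ) :=
  AddSubgroup.closure {x : GolayPt → ℤ | x ∈ leechLattice ∧ sqNorm x = 32}

theorem mem_minSub_of {x : GolayPt → ℤ} (hx : x ∈ leechSet) (hn : sqNorm x = 32) : x ∈ minSub :=
  AddSubgroup.subset_closure ⟨(mem_leechLattice_iff x).mpr hx, hn⟩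

/-- (−3, 1²³) -/
def v0 : GolayPt → ℤ := fun p => if p = none then -3 else 1

theorem v0_mem : v0 ∈ leechSet :=
  Spor.mem_leechSet_of_const_mod_four v0 1 1 (by decide) (by decide) (by decide)

theorem v0_norm : sqNorm v0 = 32 := by decide

/-- 4 e_r − 4 e_∞ -/
def aVec (r : ZMod 23) : GolayPt → ℤ := fun p => if p = some r then 4 else if p = none then -4 else 0

theorem aVec_mem : ∀ r : ZMod 23, aVec r ∈ leechSet := by
  intro r
  refine Spor.mem_leechSet_of_const_mod_four (aVec r) 0 0 (by decide) ?_ ?_
  · intro i
    show (if i = some r then (4 : ℤ) else if i = none then -4 else 0) ≡ 0 [ZMOD 4]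
    split_ifs <;> decide
  · revert r; decide

theorem aVec_norm : ∀ r : ZMod 23, sqNorm (aVec r) = 32 := by decide

theorem vecU_norm : sqNorm Spor.vecU = 32 := by decide

/-- 8 e_∞ -/
theorem eight_mem : (fun p : GolayPt => if p = none then (8 : ℤ) else 0) ∈ minSub := by
  have h1 : Spor.vecU ∈ minSub := mem_minSub_of Spor.vecU_mem_leechSet vecU_norm
  have h2 : aVec 0 ∈ minSub := mem_minSub_of (aVec_mem 0) (aVec_norm 0)
  have he : (fun p : GolayPt => if p = none then (8 : ℤ) else 0) = Spor.vecU - aVec 0 := by
    funext p
    revert p
    decide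
  rw [he]
  exact sub_mem h1 h2

/-- vectors with coordinates divisible by 4 and coordinate sum divisible by 8 -/
theorem four_mem (z : GolayPt → ℤ) (h4 : ∀ i, z i % 4 = 0) (h8 : (∑ i, z i) % 8 = 0) :
    z ∈ minSub := by
  -- z = Σ_r (z (some r) / 4) • aVec r + ((Σ z) / 8) • 8e_∞
  have he : z = ∑ r : ZMod 23, (z (some r) / 4) • aVec r +
      ((∑ i, z i) / 8) • (fun p : GolayPt => if p = none then (8 : ℤ) else 0) := by
    funext p
    rw [Pi.add_apply, Finset.sum_apply]
    simp only [Pi.smul_apply, smul_eq_mul]
    cases p with
    | none =>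
      have h1 : ∀ r : ZMod 23, z (some r) / 4 * aVec r none = - z (some r) := by
        intro r
        have : aVec r none = -4 := by
          show (if (none : GolayPt) = some r then (4 : ℤ) else if (none : GolayPt) = none then -4 else 0) = -4
          simp
        rw [this]
        have := h4 (some r)
        omega
      rw [Finset.sum_congr rfl (fun r _ => h1 r), Finset.sum_neg_distrib]
      have hs : ∑ i, z i = z none + ∑ r : ZMod 23, z (some r) := Fintype.sum_option z
      rw [if_pos rfl]
      have := h4 none
      omega
    | some t =>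
      have h1 : ∀ r : ZMod 23, z (some r) / 4 * aVec r (some t) = if r = t then z (some t) else 0 := by
        intro r
        have : aVec r (some t) = if r = t then 4 else 0 := by
          show (if (some t : GolayPt) = some r then (4 : ℤ) else if (some t : GolayPt) = none then -4 else 0) = _
          by_cases hrt : r = t
          · subst hrt; simp
          · have : ¬ (some t : GolayPt) = some r := fun h => hrt (Option.some.inj h).symm
            rw [if_neg this, if_neg hrt]
            simp
        rw [this]
        split_ifs with hrt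
        · subst hrt
          have := h4 (some r)
          omega
        · simp
      rw [Finset.sum_congr rfl (fun r _ => h1 r), Finset.sum_ite_eq' Finset.univ t]
      simp
  rw [he]
  refine add_mem (sum_mem fun r _ => ?_) (zsmul_mem eight_mem _)
  exact zsmul_mem (mem_minSub_of (aVec_mem r) (aVec_norm r)) _

/-- the difference of `v0` and its sign change on a code word -/
theorem diff_mem {c : Finset GolayPt} (hc : c ∈ GC) :
    (fun i => if i ∈ c then 2 * v0 i else 0) ∈ minSub := by
  have h1 : v0 ∈ minSub := mem_minSub_of v0_mem v0_norm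
  have h2 : (fun i => if i ∈ c then -v0 i else v0 i) ∈ minSub := by
    refine mem_minSub_of (signChange_mem_leechSet v0_mem hc) ?_
    rw [← v0_norm]
    unfold sqNorm
    apply Finset.sum_congr rfl
    intro i _
    show (if i ∈ c then -v0 i else v0 i) ^ 2 = v0 i ^ 2
    split_ifs <;> ring
  have he : (fun i => if i ∈ c then 2 * v0 i else 0) = v0 - (fun i => if i ∈ c then -v0 i else v0 i) := by
    funext i
    show (if i ∈ c then 2 * v0 i else 0) = v0 i - (if i ∈ c then -v0 i else v0 i)
    split_ifs <;> ring
  rw [he]
  exact sub_mem h1 h2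

theorem diff_mem_leechSet {c : Finset GolayPt} (hc : c ∈ GC) :
    (fun i => if i ∈ c then 2 * v0 i else 0) ∈ leechSet := by
  have he : (fun i => if i ∈ c then 2 * v0 i else 0) = v0 + -(fun i => if i ∈ c then -v0 i else v0 i) := by
    funext i
    show (if i ∈ c then 2 * v0 i else 0) = v0 i + -(if i ∈ c then -v0 i else v0 i)
    split_ifs <;> ring
  rw [he]
  exact add_mem_leechSet v0_mem (neg_mem_leechSet (signChange_mem_leechSet v0_mem hc))

theorem v0_mod (i : GolayPt) : v0 i % 4 = 1 := by
  revert i; decide

theorem even_mem {x : GolayPt → ℤ} (hx : x ∈ leechSet) (he : ∀ i, x i % 2 = 0) : x ∈ minSub := by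
  rcases leechSet_cases hx with ⟨h1, h2, h3⟩ | ⟨h1, _, _⟩
  · have hy := diff_mem h3
    have hyL := diff_mem_leechSet h3
    have hz : x - (fun i => if i ∈ resSet x 2 then 2 * v0 i else 0) ∈ minSub := by
      apply four_mem
      · intro i
        show (x i - (if i ∈ resSet x 2 then 2 * v0 i else 0)) % 4 = 0
        have hv := v0_mod i
        have hi := mem_resSet x 2 i
        have := h1 i
        split_ifs with hmem
        · have := hi.mp hmem
          omega
        · have : ¬ x i % 4 = 2 % 4 := fun h => hmem (hi.mpr h)
          omega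
      · have hs : ∑ i, (x - (fun i => if i ∈ resSet x 2 then 2 * v0 i else 0)) i =
            ∑ i, x i - ∑ i, (if i ∈ resSet x 2 then 2 * v0 i else 0) := by
          rw [← Finset.sum_sub_distrib]
          rfl
        rw [hs]
        rcases leechSet_cases hyL with ⟨_, h2', _⟩ | ⟨h1', _, _⟩
        · omega
        · exfalso
          have h := h1' none
          have hv := v0_mod none
          have h' : (if (none : GolayPt) ∈ resSet x 2 then 2 * v0 none else 0) % 2 = 1 := h
          split_ifs at h' <;> omega
    have : x = (x - (fun i => if i ∈ resSet x 2 then 2 * v0 i else 0)) +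
        (fun i => if i ∈ resSet x 2 then 2 * v0 i else 0) := by abel
    rw [this]
    exact add_mem hz hy
  · exfalso
    have := h1 none
    have := he none
    omega

/-- The rank-24 lattice is the additive subgroup generated by its 196560 minimal vectors. -/
theorem result : AddSubgroup.closure {x : Cfsg.GolayPt → ℤ | x ∈ Cfsg.leechLattice ∧ Cfsg.sqNorm x = 32} = Cfsg.leechLattice := by
  apply le_antisymm
  · rw [AddSubgroup.closure_le]
    intro x hx
    exact hx.1
  · intro x hx
    rw [mem_leechLattice_iff] at hx
    show x ∈ minSub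
    rcases leechSet_cases hx with ⟨h1, _, _⟩ | ⟨h1, _, _⟩
    · exact even_mem hx h1
    · have h0 : v0 ∈ minSub := mem_minSub_of v0_mem v0_norm
      have hd : x + -v0 ∈ minSub := by
        apply even_mem (add_mem_leechSet hx (neg_mem_leechSet v0_mem))
        intro i
        have := h1 i
        have := v0_mod i
        show (x i + -v0 i) % 2 = 0
        omega
      have : x = (x + -v0) + v0 := by abel
      rw [this]
      exact add_mem hd h0

end Cfsg.Agent.S1567
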