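import Cfsg.Statements.S5592
import Cfsg.Agent.Lib.helper27.Leech

set_option autoImplicit false
open Cfsg

namespace Cfsg.Agent.S5592

/-- In the Leech lattice (integer coordinates, sum of squares equal to 8 times the customary norm, so the shortest non-zero vectors have sum of squares 32): if two distinct vectors of sum of squares at most 64 are congruent modulo twice the lattice, then either they are negatives of each other, or both have sum of squares 64 and they are orthogonal. -/
theorem result (x y : Cfsg.GolayPt → ℤ) (hx : x ∈ Cfsg.leechLattice) (hy : y ∈ Cfsg.leechLattice) (hxy : x ≠ y) (hxn : Cfsg.sqNorm x ≤ 64) (hyn : Cfsg.sqNorm y ≤ 64) (hc : (∃ z ∈ Cfsg.leechLattice, x - y = 2 • z)) :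
    x = -y ∨ (Cfsg.sqNorm x = 64 ∧ Cfsg.sqNorm y = 64 ∧ Cfsg.dotInt x y = 0) := by
  obtain ⟨z, hz, hvw⟩ := hc
  have hx_eq : x = y + 2 • z := by rw [← hvw]; abel
  have hz0 : z ≠ 0 := by
    intro hz0
    apply hxy
    rw [hx_eq, hz0, smul_zero, add_zero]
  by_cases hz0' : z + y = 0
  · left
    have hzw : z = -y := eq_neg_of_add_eq_zero_left hz0'
    rw [hx_eq, hzw]
    funext i
    simp only [Pi.add_apply, Pi.smul_apply, Pi.neg_apply]
    ring
  right
  have h1 := Cfsg.Agent.Lib.helper27.leechLattice_le_sqNorm hz hz0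
  have h2 := Cfsg.Agent.Lib.helper27.leechLattice_le_sqNorm (add_mem hz hy) hz0'
  have key : 4 * Cfsg.sqNorm z + 4 * Cfsg.sqNorm (z + y) = 2 * Cfsg.sqNorm x + 2 * Cfsg.sqNorm y := by
    rw [hx_eq]
    unfold Cfsg.sqNorm
    rw [Finset.mul_sum, Finset.mul_sum, Finset.mul_sum, Finset.mul_sum, ← Finset.sum_add_distrib,
      ← Finset.sum_add_distrib]
    apply Finset.sum_congr rfl
    intro i _
    simp only [Pi.add_apply, Pi.smul_apply]
    ring
  have key2 : 4 * Cfsg.sqNorm z = Cfsg.sqNorm x + Cfsg.sqNorm y - 2 * Cfsg.dotInt x y := by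
    rw [hx_eq]
    unfold Cfsg.sqNorm Cfsg.dotInt
    rw [Finset.mul_sum, Finset.mul_sum, ← Finset.sum_add_distrib, ← Finset.sum_sub_distrib]
    apply Finset.sum_congr rfl
    intro i _
    simp only [Pi.add_apply, Pi.smul_apply]
    ring
  refine ⟨by omega, by omega, by omega⟩

end Cfsg.Agent.S5592
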