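import Cfsg.Statements.S5627
import Cfsg.Agent.Lib.helper28.Plane4
import Cfsg.Agent.Lib.lead.Plane4A

set_option autoImplicit false
open Cfsg

namespace Cfsg.Agent.S5627

/-- In a projective plane of order 4 (a Steiner system S(2, 5, 21)), call a set of points independent when no line meets it in more than two points. There are exactly 2520 independent 4-sets and exactly 168 independent 6-sets (hyperovals), and every independent 4-set lies in exactly one hyperoval. -/
theorem result {α : Type*} [Fintype α] [DecidableEq α] (hα : Fintype.card α = 21) (L : Set (Finset α)) (hL : Cfsg.IsSteinerSystem 2 5 L) : {S : Finset α | (S.card = 4 ∧ ∀ l ∈ L, (l ∩ S).card ≤ 2)}.ncard = 2520 ∧ {H : Finset α | (H.card = 6 ∧ ∀ l ∈ L, (l ∩ H).card ≤ 2)}.ncard = 168 ∧ ∀ S : Finset α, (S.card = 4 ∧ ∀ l ∈ L, (l ∩ S).card ≤ 2) → ∃! H : Finset α, (H.card = 6 ∧ ∀ l ∈ L, (l ∩ H).card ≤ 2) ∧ S ⊆ H := by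
  have hC := fun S hS => Cfsg.Agent.Lib.helper28.Plane4.hyperoval_unique hα hL S hS
  have h4 := Cfsg.Agent.Lib.helper28.Plane4.ind4_count hα hL
    (Cfsg.Agent.Lib.lead.Plane4A.ind3_count hα L hL)
  exact ⟨h4, Cfsg.Agent.Lib.helper28.Plane4.hyperoval_count L h4 hC, hC⟩

end Cfsg.Agent.S5627
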