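import Cfsg.Statements.S0529
import Mathlib
import Cfsg.Agent.Lib.helper3.SupersolvablePrime

set_option autoImplicit false
open Cfsg

namespace Cfsg.Agent.S0529

open Cfsg.Agent.Lib.helper3

universe u

theorem key : ∀ (k : ℕ) (G : Type u) [Group G] [Finite G], Nat.card G = k →
    Cfsg.IsSupersolvable G →
    ∃ (n : ℕ) (H : Fin (n + 1) → Subgroup G), H 0 = ⊥ ∧ H (Fin.last n) = ⊤ ∧ (∀ i, (H i).Normal) ∧ (∀ i : Fin n, H i.castSucc ≤ H i.succ ∧ ((H i.castSucc).relIndex (H i.succ)).Prime) ∧ ∀ i j : Fin n, i ≤ j → (H j.castSucc).relIndex (H j.succ) ≤ (H i.castSucc).relIndex (H i.succ) := by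
  intro k
  induction k using Nat.strong_induction_on with
  | _ k ih =>
    intro G _ _ hk hG
    rcases subsingleton_or_nontrivial G with hs | hnt
    · refine ⟨0, fun _ => ⊥, rfl, Subsingleton.elim _ _, fun _ => Subgroup.normal_bot,
        fun i => i.elim0, fun i => i.elim0⟩
    · have h1 : 1 < Nat.card G := Finite.one_lt_card
      obtain ⟨p, hp, hpd, hmax⟩ := exists_maximal_prime h1
      obtain ⟨N, hNn, hNc⟩ := exists_normal_card_eq_of_maximal_prime (Nat.card G) G rfl hG p hp hpd hmax
      have hNbot : N ≠ ⊥ := by
        intro h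
        rw [h, Subgroup.card_bot] at hNc
        rw [← hNc] at hp
        exact Nat.not_prime_one hp
      have hlt := card_quotient_lt N hNbot
      have hQ : Cfsg.IsSupersolvable (G ⧸ N) :=
        isSupersolvable_of_surjective (QuotientGroup.mk' N) (QuotientGroup.mk'_surjective N) hG
      obtain ⟨m, F, hF0, hFl, hFn, hFs, hFm⟩ := ih (Nat.card (G ⧸ N)) (hk ▸ hlt) (G ⧸ N) rfl hQ
      set π := QuotientGroup.mk' N with hπ
      have hπs : Function.Surjective π := QuotientGroup.mk'_surjective N
      let H : Fin (m + 1 + 1) → Subgroup G :=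
        Fin.cons (α := fun _ => Subgroup G) ⊥ (fun i => (F i).comap π)
      have hH0 : H 0 = ⊥ := rfl
      have hHs : ∀ i : Fin (m + 1), H i.succ = (F i).comap π := fun i => rfl
      have hr0 : (H (0 : Fin (m + 1)).castSucc).relIndex (H (0 : Fin (m + 1)).succ) = p := by
        rw [Fin.castSucc_zero, hH0, hHs, hF0, MonoidHom.comap_bot, hπ, QuotientGroup.ker_mk',
          Subgroup.relIndex_bot_left, hNc]
      have hrs : ∀ j : Fin m, (H j.succ.castSucc).relIndex (H j.succ.succ) =
          (F j.castSucc).relIndex (F j.succ) := by
        intro j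
        rw [← Fin.succ_castSucc, hHs, hHs, Subgroup.relIndex_comap,
          Subgroup.map_comap_eq_self_of_surjective hπs]
      have hcard := Subgroup.card_eq_card_quotient_mul_card_subgroup N
      have hle : ∀ j : Fin m, (F j.castSucc).relIndex (F j.succ) ≤ p := by
        intro j
        apply hmax _ (hFs j).2
        rw [hcard]
        apply Dvd.dvd.mul_right
        exact (Subgroup.relIndex_dvd_card _ _).trans (Subgroup.card_subgroup_dvd_card _)
      refine ⟨m + 1, H, hH0, ?_, ?_, ?_, ?_⟩
      · rw [← Fin.succ_last, hHs, hFl, Subgroup.comap_top]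
      · intro i
        cases i using Fin.cases with
        | zero => rw [hH0]; exact Subgroup.normal_bot
        | succ i => rw [hHs]; exact (hFn i).comap π
      · intro i
        cases i using Fin.cases with
        | zero =>
          refine ⟨?_, ?_⟩
          · rw [Fin.castSucc_zero, hH0]; exact bot_le
          · rw [hr0]; exact hp
        | succ j =>
          refine ⟨?_, ?_⟩
          · rw [← Fin.succ_castSucc, hHs, hHs]
            exact Subgroup.comap_mono (hFs j).1
          · rw [hrs]; exact (hFs j).2
      · intro i j hij
        cases i using Fin.cases with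
        | zero =>
          cases j using Fin.cases with
          | zero => exact le_rfl
          | succ j => rw [hr0, hrs]; exact hle j
        | succ i =>
          cases j using Fin.cases with
          | zero => exact absurd hij (by simp [Fin.le_def])
          | succ j =>
            rw [hrs, hrs]
            exact hFm i j (Fin.succ_le_succ_iff.mp hij)

/-- A finite supersolvable group has a chain of normal subgroups, from the trivial subgroup to the whole group, in which every step has prime index and the primes occurring are non-increasing as one goes up the chain. -/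
theorem result {G : Type*} [Group G] [Finite G] (hG : Cfsg.IsSupersolvable G) : ∃ (n : ℕ) (H : Fin (n + 1) → Subgroup G), H 0 = ⊥ ∧ H (Fin.last n) = ⊤ ∧ (∀ i, (H i).Normal) ∧ (∀ i : Fin n, H i.castSucc ≤ H i.succ ∧ ((H i.castSucc).relIndex (H i.succ)).Prime) ∧ ∀ i j : Fin n, i ≤ j → (H j.castSucc).relIndex (H j.succ) ≤ (H i.castSucc).relIndex (H i.succ) := by
  exact key (Nat.card G) G rfl hG

end Cfsg.Agent.S0529
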