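import Mathlib
import Cfsg.Statements.S0532

set_option autoImplicit false
set_option linter.style.haveILetI false
open Cfsg

namespace Cfsg.Agent.S0532

universe u

theorem hasSub_of_equiv {A B : Type u} [Group A] [Group B] (e : A ≃* B)
    (hB : Cfsg.HasSubgroupOfEveryOrder B) : Cfsg.HasSubgroupOfEveryOrder A := by
  intro d hd
  have hd' : d ∣ Nat.card B := by rwa [← Nat.card_congr e.toEquiv]
  obtain ⟨K, hK⟩ := hB d hd'
  exact ⟨K.map e.symm.toMonoidHom, by
    rw [Subgroup.card_map_of_injective (f := e.symm.toMonoidHom) e.symm.injective, hK]⟩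

theorem aux : ∀ (m : ℕ) (G : Type u) [Group G] [Finite G], Nat.card G = m →
    (∀ H : Subgroup G, Cfsg.HasSubgroupOfEveryOrder H) → ∀ (p : ℕ) [Fact p.Prime],
    (∀ q : ℕ, q.Prime → q ∣ Nat.card G → q ≤ p) → ∀ P : Sylow p G, (P : Subgroup G).Normal := by
  intro m
  induction m using Nat.strong_induction_on with
  | _ m ih =>
    intro G _ _ hm h p _ hmax P
    have hp : p.Prime := Fact.out
    by_cases hall : ∀ d : ℕ, d.Prime → d ∣ Nat.card G → d = p
    · have hcard : Nat.card G = p ^ (Nat.card G).primeFactorsList.length :=
        Nat.eq_prime_pow_of_unique_prime_dvd Nat.card_pos.ne' (fun {d} hd hdvd => hall d hd hdvd)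
      have hpg : IsPGroup p G := IsPGroup.of_card hcard
      have : (⊤ : Subgroup G) = P := P.is_maximal' (hpg.to_subgroup ⊤) le_top
      rw [← this]; infer_instance
    · push Not at hall
      obtain ⟨d, hd, hdvd, hdp⟩ := hall
      set q := (Nat.card G).minFac with hq
      have hcard1 : Nat.card G ≠ 1 := by
        intro h1; rw [h1] at hdvd; exact hd.one_lt.ne' (Nat.dvd_one.mp hdvd)
      have hqprime : q.Prime := Nat.minFac_prime hcard1
      have hqdvd : q ∣ Nat.card G := Nat.minFac_dvd _
      have hqp : q ≠ p := by
        have h1 : q ≤ d := Nat.minFac_le_of_dvd hd.two_le hdvd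
        have h2 : d ≤ p := hmax d hd hdvd
        have h3 : d < p := lt_of_le_of_ne h2 hdp
        omega
      obtain ⟨M0, hM0⟩ := h ⊤ (Nat.card G / q)
        (by rw [Subgroup.card_top]; exact Nat.div_dvd_of_dvd hqdvd)
      set M : Subgroup G := M0.map (⊤ : Subgroup G).subtype with hMdef
      have hM : Nat.card M = Nat.card G / q := by
        rw [hMdef, Subgroup.card_map_of_injective (Subgroup.subtype_injective _), hM0]
      have hMq : Nat.card M * q = Nat.card G := by rw [hM]; exact Nat.div_mul_cancel hqdvd
      have hidx : M.index = q := by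
        have := M.card_mul_index
        rw [← hMq] at this
        exact Nat.eq_of_mul_eq_mul_left Nat.card_pos this
      haveI hMn : M.Normal := Subgroup.normal_of_index_eq_minFac_card hidx
      have hMlt : Nat.card M < m := by
        rw [← hm, ← hMq]; have := hqprime.one_lt; have := Nat.card_pos (α := M); nlinarith
      have hMh : ∀ H : Subgroup M, Cfsg.HasSubgroupOfEveryOrder H := fun H =>
        hasSub_of_equiv (Subgroup.equivMapOfInjective H M.subtype M.subtype_injective) (h _)
      have hMmax : ∀ q' : ℕ, q'.Prime → q' ∣ Nat.card M → q' ≤ p := fun q' hq' hdvd' =>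
        hmax q' hq' (hdvd'.trans (Dvd.intro _ hMq))
      obtain ⟨Q⟩ : Nonempty (Sylow p M) := inferInstance
      haveI hQn : (Q : Subgroup M).Normal := ih _ hMlt M rfl hMh p hMmax Q
      haveI hQc : (Q : Subgroup M).Characteristic := Sylow.characteristic_of_normal Q hQn
      have hQ'n : ((Q : Subgroup M).map M.subtype).Normal := inferInstance
      have hQ'p : IsPGroup p ((Q : Subgroup M).map M.subtype) := Q.isPGroup'.map M.subtype
      have hQ'card : Nat.card ((Q : Subgroup M).map M.subtype) = Nat.card P := by
        rw [Subgroup.card_map_of_injective M.subtype_injective, Sylow.card_eq_multiplicity,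
          Sylow.card_eq_multiplicity, ← hMq]
        congr 1
        rw [Nat.factorization_mul (Nat.card_pos.ne') hqprime.ne_zero]
        simp [Nat.Prime.factorization hqprime, hqp]
      obtain ⟨S, hS⟩ := hQ'p.exists_le_sylow
      have hSeq : ((Q : Subgroup M).map M.subtype) = S := by
        apply Subgroup.eq_of_le_of_card_ge hS
        rw [hQ'card, Sylow.card_eq_multiplicity, Sylow.card_eq_multiplicity]
      have hSn : (S : Subgroup G).Normal := hSeq ▸ hQ'n
      haveI := Sylow.unique_of_normal S hSn
      have : P = S := Subsingleton.elim _ _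
      rw [this]; exact hSn

/-- If each subgroup of a finite group satisfies the converse of Lagrange's theorem, then a Sylow subgroup for the largest prime dividing the group order is normal. -/
theorem result {G : Type*} [Group G] [Finite G] (h : ∀ H : Subgroup G, Cfsg.HasSubgroupOfEveryOrder H) (p : ℕ) [Fact p.Prime] (hdvd : p ∣ Nat.card G) (hmax : ∀ q : ℕ, q.Prime → q ∣ Nat.card G → q ≤ p) (P : Sylow p G) : (P : Subgroup G).Normal := by
  exact aux _ G rfl h p hmax P

end Cfsg.Agent.S0532
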