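import Cfsg.Statements.S0007
import Mathlib

set_option autoImplicit false
open Pointwise
open Cfsg

namespace Cfsg.Agent.S0007

theorem index_inf_of_coprime {G : Type*} [Group G] [Finite G] (H K : Subgroup G)
    (h : H.index.Coprime K.index) : (H ⊓ K).index = H.index * K.index := by
  have h1 : H.index ∣ (H ⊓ K).index := Subgroup.index_dvd_of_le inf_le_left
  have h2 : K.index ∣ (H ⊓ K).index := Subgroup.index_dvd_of_le inf_le_right
  have h3 : H.index * K.index ∣ (H ⊓ K).index := Nat.Coprime.mul_dvd_of_dvd_of_dvd h h1 h2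
  have h4 : (H ⊓ K).index ≤ H.index * K.index := Subgroup.index_inf_le
  have h5 : (H ⊓ K).index ≠ 0 := Subgroup.index_ne_zero_of_finite
  exact le_antisymm h4 (Nat.le_of_dvd (Nat.pos_of_ne_zero h5) h3)

theorem exists_mul_of_coprime {G : Type*} [Group G] [Finite G] (H K : Subgroup G)
    (h : H.index.Coprime K.index) (g : G) : ∃ x ∈ H, ∃ y ∈ K, g = x * y := by
  have hidx := index_inf_of_coprime H K h
  have hK0 : K.index ≠ 0 := Subgroup.index_ne_zero_of_finite
  have hrel : H.relIndex K = H.index := by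
    have h1 : (H ⊓ K).relIndex K * K.index = (H ⊓ K).index :=
      Subgroup.relIndex_mul_index inf_le_right
    rw [hidx, Subgroup.inf_relIndex_right] at h1
    exact Nat.eq_of_mul_eq_mul_right (Nat.pos_of_ne_zero hK0) h1
  -- the map K ⧸ (H.subgroupOf K) → G ⧸ H is injective, hence surjective
  let f : K ⧸ H.subgroupOf K → G ⧸ H :=
    Quotient.map' (fun k : K => (k : G)) (by
      intro a b hab
      rw [QuotientGroup.leftRel_apply] at hab ⊢
      simpa [Subgroup.mem_subgroupOf] using hab)
  have hf : Function.Injective f := by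
    intro a b
    refine Quotient.inductionOn₂' a b ?_
    intro a b hab
    simp only [f, Quotient.map'_mk''] at hab
    rw [Quotient.eq''] at hab ⊢
    rw [QuotientGroup.leftRel_apply] at hab ⊢
    simpa [Subgroup.mem_subgroupOf] using hab
  have hcard : Nat.card (K ⧸ H.subgroupOf K) = Nat.card (G ⧸ H) := hrel
  have hsurj : Function.Surjective f := by
    have := (Nat.bijective_iff_injective_and_card f).mpr ⟨hf, hcard⟩
    exact this.2
  obtain ⟨q, hq⟩ := hsurj (QuotientGroup.mk g⁻¹)
  induction q using Quotient.inductionOn' with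
  | h k =>
    simp only [f, Quotient.map'_mk''] at hq
    have hq' : ((k : G) : G ⧸ H) = ((g⁻¹ : G) : G ⧸ H) := hq
    rw [QuotientGroup.eq] at hq'
    refine ⟨((k : G)⁻¹ * g⁻¹)⁻¹, H.inv_mem hq', (k : G)⁻¹, K.inv_mem k.2, ?_⟩
    group

theorem result {G : Type*} [Group G] [Finite G] (H K : Subgroup G)
    (h : H.index.Coprime K.index) :
    (H ⊓ K).index = H.index * K.index ∧ ∀ g : G, ∃ x ∈ H, ∃ y ∈ K, g = x * y := by
  exact ⟨index_inf_of_coprime H K h, exists_mul_of_coprime H K h⟩

end Cfsg.Agent.S0007
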