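import Cfsg.Statements.S0006
import Mathlib
import Cfsg.Agent.Lib.helper1.Factor
import Cfsg.Agent.Lib.helper23.BurnsidePQ
import Cfsg.Agent.S0007

set_option autoImplicit false
open Cfsg

namespace Cfsg.Agent.S0006

open Cfsg.Agent.Lib.helper1

universe u

theorem two_primes (n : ℕ) (hn : n ≠ 0) (hπ : n.primeFactors.card ≤ 2) :
    ∃ p q a b : ℕ, p.Prime ∧ q.Prime ∧ n = p ^ a * q ^ b := by
  classical
  have hprod : ∏ r ∈ n.primeFactors, r ^ n.factorization r = n := by
    have := Nat.prod_factorization_pow_eq_self hn
    rw [Finsupp.prod, Nat.support_factorization] at this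
    exact this
  have h3 : n.primeFactors.card = 0 ∨ n.primeFactors.card = 1 ∨ n.primeFactors.card = 2 := by
    omega
  rcases h3 with h0 | h1 | h2
  · rw [Finset.card_eq_zero, Nat.primeFactors_eq_empty] at h0
    rcases h0 with h0 | h0
    · exact absurd h0 hn
    · exact ⟨2, 3, 0, 0, Nat.prime_two, Nat.prime_three, by rw [h0]; rfl⟩
  · obtain ⟨p, hp⟩ := Finset.card_eq_one.mp h1
    have hpp : p.Prime := Nat.prime_of_mem_primeFactors (by rw [hp]; exact Finset.mem_singleton_self p)
    rw [hp, Finset.prod_singleton] at hprod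
    exact ⟨p, 2, n.factorization p, 0, hpp, Nat.prime_two, by rw [pow_zero, mul_one, hprod]⟩
  · obtain ⟨p, q, hpq, hp⟩ := Finset.card_eq_two.mp h2
    have hpp : p.Prime := Nat.prime_of_mem_primeFactors (by rw [hp]; simp)
    have hqp : q.Prime := Nat.prime_of_mem_primeFactors (by rw [hp]; simp)
    rw [hp, Finset.prod_pair hpq] at hprod
    exact ⟨p, q, n.factorization p, n.factorization q, hpp, hqp, hprod.symm⟩

theorem aux (n : ℕ) : ∀ {G : Type u} [Group G] [Finite G], Nat.card G = n →
    (∀ p : ℕ, p.Prime → ∃ H : Subgroup G, H.index = p ^ (Nat.card G).factorization p) →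
    Group.IsSolvable G := by
  induction n using Nat.strong_induction_on with
  | _ n ih =>
    intro G _ _ hcard h
    have hn0 : n ≠ 0 := by rw [← hcard]; exact Nat.card_pos.ne'
    rcases Nat.lt_or_ge 2 n.primeFactors.card with h3 | h2
    · obtain ⟨p, hp, q, hq, r, hr, hpq, hpr, hqr⟩ := Finset.two_lt_card.mp h3
      have hpp : p.Prime := Nat.prime_of_mem_primeFactors hp
      have hqp : q.Prime := Nat.prime_of_mem_primeFactors hq
      have hrp : r.Prime := Nat.prime_of_mem_primeFactors hr
      rw [hcard] at h
      -- a Hall complement is solvable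
      have hsolv : ∀ x : ℕ, x ∈ n.primeFactors → ∀ Hx : Subgroup G,
          Hx.index = x ^ n.factorization x → Group.IsSolvable Hx := by
        intro x hx Hx hHx
        have hxp : x.Prime := Nat.prime_of_mem_primeFactors hx
        have hcardHx : Nat.card Hx = n / x ^ n.factorization x := by
          have h1 : Nat.card Hx * Hx.index = n := by rw [← hcard]; exact Subgroup.card_mul_index Hx
          rw [hHx] at h1
          exact (Nat.div_eq_of_eq_mul_left (Nat.pow_pos hxp.pos) h1.symm).symm
        have hlt : Nat.card Hx < n := by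
          rw [hcardHx]
          apply Nat.div_lt_self (Nat.pos_of_ne_zero hn0)
          have hpos : 0 < n.factorization x :=
            hxp.factorization_pos_of_dvd hn0 (Nat.dvd_of_mem_primeFactors hx)
          exact Nat.one_lt_pow hpos.ne' hxp.one_lt
        apply ih _ hlt rfl
        intro s hs
        by_cases hsx : s = x
        · refine ⟨⊤, ?_⟩
          rw [Subgroup.index_top, hcardHx, Nat.factorization_ordCompl, hsx, Finsupp.erase_same,
            pow_zero]
        · obtain ⟨Hs, hHs⟩ := h s hs
          refine ⟨Hs.subgroupOf Hx, ?_⟩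
          rw [hcardHx, Nat.factorization_ordCompl, Finsupp.erase_ne hsx]
          have hcop : Hx.index.Coprime Hs.index := by
            rw [hHx, hHs]
            apply Nat.Coprime.pow
            exact (Nat.coprime_primes hxp hs).mpr (fun h => hsx h.symm)
          have h1 := Cfsg.Agent.S0007.index_inf_of_coprime Hx Hs hcop
          have h2 := Subgroup.relIndex_mul_index (inf_le_left : Hx ⊓ Hs ≤ Hx)
          rw [Subgroup.inf_relIndex_left, h1] at h2
          have hpos : 0 < Hx.index := Nat.pos_of_ne_zero Subgroup.index_ne_zero_of_finite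
          have h3 : Hs.relIndex Hx = Hs.index := by
            apply Nat.eq_of_mul_eq_mul_right hpos
            rw [h2, mul_comm]
          change Hs.relIndex Hx = _
          rw [h3, hHs]
      obtain ⟨Hp, hHp⟩ := h p hpp
      obtain ⟨Hq, hHq⟩ := h q hqp
      obtain ⟨Hr, hHr⟩ := h r hrp
      have hcpq : Hp.index.Coprime Hq.index := by
        rw [hHp, hHq]; exact Nat.Coprime.pow _ _ ((Nat.coprime_primes hpp hqp).mpr hpq)
      have hcpr : Hp.index.Coprime Hr.index := by
        rw [hHp, hHr]; exact Nat.Coprime.pow _ _ ((Nat.coprime_primes hpp hrp).mpr hpr)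
      have hcqr : Hq.index.Coprime Hr.index := by
        rw [hHq, hHr]; exact Nat.Coprime.pow _ _ ((Nat.coprime_primes hqp hrp).mpr hqr)
      exact wielandt_three Hp Hq Hr (hsolv p hp Hp hHp) (hsolv q hq Hq hHq) (hsolv r hr Hr hHr)
        (Cfsg.Agent.S0007.exists_mul_of_coprime Hp Hq hcpq)
        (Cfsg.Agent.S0007.exists_mul_of_coprime Hp Hr hcpr) hcqr
    · obtain ⟨p, q, a, b, hp, hq, hn⟩ := two_primes n hn0 h2
      exact Cfsg.Agent.Lib.helper23.burnside_paqb p q a b hp hq (by rw [hcard, hn])

/-- Converse of Hall's Theorem: if for every prime p a finite group has a subgroup of index equal to the p-part of the group order (a Hall p-complement), then the group is solvable. -/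
theorem result {G : Type*} [Group G] [Finite G]
    (h : ∀ p : ℕ, p.Prime → ∃ H : Subgroup G, H.index = p ^ (Nat.card G).factorization p) :
    Group.IsSolvable G :=
  aux _ rfl h

end Cfsg.Agent.S0006
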