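import Cfsg.Statements.S0713
import Mathlib

set_option autoImplicit false
open Cfsg

namespace Cfsg.Agent.S0713

open Equiv Equiv.Perm MulAction

section
variable {α : Type*} [Fintype α] [DecidableEq α]

def fixG (g : Perm α) : Subgroup (Perm α) where
  carrier := {h | ∀ z, g z = z → h z = z}
  mul_mem' := by
    intro a b ha hb z hz
    rw [Perm.mul_apply, hb z hz, ha z hz]
  one_mem' := fun z _ => rfl
  inv_mem' := by
    intro a ha z hz
    rw [Perm.inv_eq_iff_eq]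
    exact (ha z hz).symm

theorem mem_fixG (g h : Perm α) : h ∈ fixG g ↔ ∀ z, g z = z → h z = z := Iff.rfl

theorem fixG_supp (g h : Perm α) (hh : h ∈ fixG g) (z : α) :
    h z ∈ g.support ↔ z ∈ g.support := by
  rw [mem_support, mem_support, not_iff_not]
  constructor
  · intro h1
    have h2 := hh (h z) h1
    have h3 : h z = z := h.injective h2
    rw [h3] at h1
    exact h1
  · intro h1
    rw [hh z h1]
    exact h1

def rho (g : Perm α) (G : Subgroup (Perm α)) : ↥(G ⊓ fixG g) →* Perm {z // z ∈ g.support} where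
  toFun h := subtypePerm h.1 (fun z => fixG_supp g h.1 h.2.2 z)
  map_one' := by
    ext z
    rfl
  map_mul' a b := by
    ext z
    rfl

theorem rho_injective (g : Perm α) (G : Subgroup (Perm α)) : Function.Injective (rho g G) := by
  rw [injective_iff_map_eq_one]
  intro h hh
  apply Subtype.ext
  ext z
  by_cases hz : z ∈ g.support
  · have := congrArg (fun f : Perm {z // z ∈ g.support} => ((f ⟨z, hz⟩ : {z // z ∈ g.support}) : α)) hh
    exact this
  · exact h.2.2 z (notMem_support.mp hz)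

theorem card_H_dvd (g : Perm α) (G : Subgroup (Perm α)) {p : ℕ} (hgp : g.support.card = p) :
    Nat.card ↥(G ⊓ fixG g) ∣ p.factorial := by
  have h := Subgroup.card_dvd_of_injective (rho g G) (rho_injective g G)
  rw [Nat.card_perm, Nat.card_eq_fintype_card (α := {z // z ∈ g.support}), Fintype.card_coe,
    hgp] at h
  exact h

theorem factorization_H (g : Perm α) (G : Subgroup (Perm α)) {p : ℕ} (hp : p.Prime)
    (hgc : g.IsCycle) (hgp : g.support.card = p) (hg : g ∈ G) :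
    (Nat.card ↥(G ⊓ fixG g)).factorization p = 1 := by
  have hgH : g ∈ G ⊓ fixG g := ⟨hg, fun z hz => hz⟩
  have h1 : p ∣ Nat.card ↥(G ⊓ fixG g) := by
    have h2 : orderOf (⟨g, hgH⟩ : ↥(G ⊓ fixG g)) = p := by
      rw [Subgroup.orderOf_mk, hgc.orderOf, hgp]
    rw [← h2]
    exact orderOf_dvd_natCard _
  have h3 : ¬ p ^ 2 ∣ Nat.card ↥(G ⊓ fixG g) := by
    intro h4
    have h5 := h4.trans (card_H_dvd g G hgp)
    obtain ⟨m, rfl⟩ : ∃ m, p = m + 1 := ⟨p - 1, by have := hp.pos; omega⟩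
    rw [Nat.factorial_succ, pow_two] at h5
    have h6 : m + 1 ∣ m.factorial := (Nat.mul_dvd_mul_iff_left (Nat.succ_pos m)).mp h5
    have h7 := (Nat.Prime.dvd_factorial hp).mp h6
    omega
  have hne : Nat.card ↥(G ⊓ fixG g) ≠ 0 := Nat.card_pos.ne'
  have h8 := hp.pow_dvd_iff_le_factorization (k := 1) hne
  have h9 := hp.pow_dvd_iff_le_factorization (k := 2) hne
  rw [pow_one] at h8
  have h10 := h8.mp h1
  have h11 : ¬ 2 ≤ (Nat.card ↥(G ⊓ fixG g)).factorization p := fun h => h3 (h9.mpr h)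
  omega

theorem witt (G : Subgroup (Perm α)) {p : ℕ} (hp : p.Prime) {g : Perm α} (hgc : g.IsCycle)
    (hgp : g.support.card = p) (hg : g ∈ G) (h : Perm α) (hh : h ∈ G)
    (hpres : ∀ z, g (h z) = h z ↔ g z = z) :
    ∃ a ∈ G, (∀ z, g z = z → a z = h z) ∧ ∃ j : ℤ, a * g * a⁻¹ = g ^ j := by
  haveI : Fact p.Prime := ⟨hp⟩
  have hgH : g ∈ G ⊓ fixG g := ⟨hg, fun z hz => hz⟩
  have hg2H : h * g * h⁻¹ ∈ G ⊓ fixG g := by
    refine ⟨G.mul_mem (G.mul_mem hh hg) (G.inv_mem hh), ?_⟩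
    intro z hz
    have h0 : h (h⁻¹ z) = z := by
      rw [Perm.inv_def, Equiv.apply_symm_apply]
    have h1 : g (h⁻¹ z) = h⁻¹ z := (hpres (h⁻¹ z)).mp (by
      rw [h0]
      exact hz)
    rw [Perm.mul_apply, Perm.mul_apply, h1, h0]
  have hfac := factorization_H g G hp hgc hgp hg
  have hc1 : Nat.card (Subgroup.zpowers (⟨g, hgH⟩ : ↥(G ⊓ fixG g))) =
      p ^ (Nat.card ↥(G ⊓ fixG g)).factorization p := by
    rw [Nat.card_zpowers, hfac, pow_one, Subgroup.orderOf_mk, hgc.orderOf, hgp]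
  have hc2 : Nat.card (Subgroup.zpowers (⟨h * g * h⁻¹, hg2H⟩ : ↥(G ⊓ fixG g))) =
      p ^ (Nat.card ↥(G ⊓ fixG g)).factorization p := by
    rw [Nat.card_zpowers, hfac, pow_one, Subgroup.orderOf_mk, (hgc.conj).orderOf,
      card_support_conj, hgp]
  obtain ⟨c, hc⟩ := MulAction.exists_smul_eq ↥(G ⊓ fixG g) (Sylow.ofCard _ hc1) (Sylow.ofCard _ hc2)
  have hmem : (⟨h * g * h⁻¹, hg2H⟩ : ↥(G ⊓ fixG g)) ∈
      ((c • (Sylow.ofCard _ hc1) : Sylow p ↥(G ⊓ fixG g)) : Subgroup ↥(G ⊓ fixG g)) := by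
    rw [hc]
    exact Subgroup.mem_zpowers _
  rw [Sylow.coe_subgroup_smul, Subgroup.mem_smul_pointwise_iff_exists] at hmem
  obtain ⟨s, hs, hs2⟩ := hmem
  obtain ⟨j, rfl⟩ := Subgroup.mem_zpowers_iff.mp hs
  have hs3 : (c : Perm α) * g ^ j * (c : Perm α)⁻¹ = h * g * h⁻¹ := by
    have := congrArg (fun x : ↥(G ⊓ fixG g) => (x : Perm α)) hs2
    simpa [MulAut.smul_def] using this
  refine ⟨(c : Perm α)⁻¹ * h, G.mul_mem (G.inv_mem c.2.1) hh, ?_, j, ?_⟩
  · intro z hz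
    rw [Perm.mul_apply]
    have h1 : g (h z) = h z := (hpres z).mpr hz
    exact (fixG g).inv_mem c.2.2 (h z) h1
  · have h2 : (c : Perm α)⁻¹ * h * g * ((c : Perm α)⁻¹ * h)⁻¹ =
        (c : Perm α)⁻¹ * (h * g * h⁻¹) * (c : Perm α) := by group
    rw [h2, ← hs3]
    group

theorem exists_mem_restrict (G : Subgroup (Perm α)) (s : Finset α) (k : ℕ) (hk : s.card = k)
    (hmt : IsMultiplyPretransitive G α k) (σ : Perm α) :
    ∃ h ∈ G, ∀ z ∈ s, h z = σ z := by
  obtain ⟨h, hh⟩ := (isMultiplyPretransitive_iff.mp hmt)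
    ((s.equivFinOfCardEq hk).symm.toEmbedding.trans (Function.Embedding.subtype _))
    (((s.equivFinOfCardEq hk).symm.toEmbedding.trans (Function.Embedding.subtype _)).trans
      σ.toEmbedding)
  refine ⟨h.1, h.2, ?_⟩
  intro z hz
  have h1 := congrArg (fun f : Fin k ↪ α => f ((s.equivFinOfCardEq hk) ⟨z, hz⟩)) hh
  have h2 : h • z = σ z := by simpa using h1
  exact h2

theorem swap_fix (g : Perm α) (a b : α) (ha : g a = a) (hb : g b = b) (z : α) (hz : g z = z) :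
    g (swap a b z) = swap a b z := by
  by_cases hza : z = a
  · rw [hza, swap_apply_left]
    exact hb
  · by_cases hzb : z = b
    · rw [hzb, swap_apply_right]
      exact ha
    · rw [swap_apply_of_ne_of_ne hza hzb]
      exact hz

end


/-- Jordan's Theorem: a primitive permutation group of degree `n ≥ 5` containing a `p`-cycle for a prime `p ≤ n - 3` contains the alternating group. -/
theorem result {α : Type*} [Fintype α] [DecidableEq α] (G : Subgroup (Equiv.Perm α)) (hG : MulAction.IsPreprimitive G α) {p : ℕ} (hp : p.Prime) (hn : 5 ≤ Fintype.card α) (hpn : p + 3 ≤ Fintype.card α) {g : Equiv.Perm α} (hgc : g.IsCycle) (hgp : g.support.card = p) (hg : g ∈ G) : alternatingGroup α ≤ G := by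
  classical
  obtain ⟨m, hm⟩ : ∃ m, Fintype.card α = p + (m + 1) := ⟨Fintype.card α - p - 1, by omega⟩
  have hp2 := hp.two_le
  have hcardΓ : (g.supportᶜ : Finset α).card = m + 1 := by
    rw [Finset.card_compl, hgp, hm]
    omega
  have hmp : IsMultiplyPreprimitive G α (m + 2) := by
    apply hG.isMultiplyPreprimitive (s := (g.supportᶜ : Set α))
    · have h1 := Set.ncard_add_ncard_compl (g.support : Set α)
      rw [Set.ncard_coe_finset, hgp, Nat.card_eq_fintype_card, hm] at h1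
      omega
    · rw [Nat.card_eq_fintype_card, hm]
      omega
    · have := Equiv.Perm.isPretransitive_of_isCycle_mem hgc hg
      apply IsPreprimitive.of_prime_card
      convert hp
      rw [Nat.card_eq_fintype_card, Fintype.card_subtype, ← hgp]
      apply congr_arg
      ext x
      simp [SubMulAction.mem_ofFixingSubgroup_iff]
  have hmt2 : IsMultiplyPretransitive G α (m + 2) :=
    IsMultiplyPreprimitive.isMultiplyPretransitive ..
  have hmt : IsMultiplyPretransitive G α (m + 1) :=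
    isMultiplyPretransitive_of_le (n := m + 2) (by omega)
      (by rw [Nat.card_eq_fintype_card, hm]; omega)
  have hΓ : ∀ z, z ∈ (g.supportᶜ : Finset α) ↔ g z = z := by
    intro z
    rw [Finset.mem_compl, notMem_support]
  have key : ∀ a b : α, g a = a → g b = b → ∃ t ∈ G, (∀ z, g z = z → t z = swap a b z) ∧
      (∀ z, g z = z → t⁻¹ z = swap a b z) ∧ ∃ j : ℤ, t * g * t⁻¹ = g ^ j := by
    intro a b ha hb
    obtain ⟨h, hhG, hh⟩ := exists_mem_restrict G (g.supportᶜ) (m + 1) hcardΓ hmt (swap a b)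
    have hpres : ∀ z, g (h z) = h z ↔ g z = z := by
      intro z
      constructor
      · intro hz
        have hw : g (swap a b (h z)) = swap a b (h z) := swap_fix g a b ha hb _ hz
        have h5 : h (swap a b (h z)) = swap a b (swap a b (h z)) := hh _ ((hΓ _).mpr hw)
        rw [swap_apply_self] at h5
        have h6 : swap a b (h z) = z := h.injective h5
        rw [← h6]
        exact hw
      · intro hz
        rw [hh z ((hΓ z).mpr hz)]
        exact swap_fix g a b ha hb z hz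
    obtain ⟨t, htG, ht1, j, htj⟩ := witt G hp hgc hgp hg h hhG hpres
    refine ⟨t, htG, ?_, ?_, j, htj⟩
    · intro z hz
      rw [ht1 z hz, hh z ((hΓ z).mpr hz)]
    · intro z hz
      rw [Perm.inv_eq_iff_eq]
      have h7 := ht1 (swap a b z) (swap_fix g a b ha hb z hz)
      rw [hh _ ((hΓ _).mpr (swap_fix g a b ha hb z hz)), swap_apply_self] at h7
      exact h7.symm
  obtain ⟨γ₁, h1, γ₂, h2, γ₃, h3, h12, h13, h23⟩ :=
    Finset.two_lt_card.mp (by rw [hcardΓ]; omega : 2 < (g.supportᶜ : Finset α).card)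
  rw [hΓ] at h1 h2 h3
  obtain ⟨a₁, ha₁G, ha₁, ha₁', j₁, hj₁⟩ := key γ₁ γ₂ h1 h2
  obtain ⟨a₂, ha₂G, ha₂, ha₂', j₂, hj₂⟩ := key γ₂ γ₃ h2 h3
  obtain ⟨x, hxdef⟩ : ∃ x : Perm α, x = a₁⁻¹ * a₂⁻¹ * a₁ * a₂ := ⟨_, rfl⟩
  have hxG : x ∈ G := by
    rw [hxdef]
    exact G.mul_mem (G.mul_mem (G.mul_mem (G.inv_mem ha₁G) (G.inv_mem ha₂G)) ha₁G) ha₂G
  have hxg : Commute x g := by
    have e1 : a₁ * a₂ * g * (a₁ * a₂)⁻¹ = g ^ (j₁ * j₂) := by
      have e : a₁ * a₂ * g * (a₁ * a₂)⁻¹ = a₁ * (a₂ * g * a₂⁻¹) * a₁⁻¹ := by group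
      rw [e, hj₂, ← conj_zpow, hj₁, ← zpow_mul]
    have e2 : a₂ * a₁ * g * (a₂ * a₁)⁻¹ = g ^ (j₁ * j₂) := by
      have e : a₂ * a₁ * g * (a₂ * a₁)⁻¹ = a₂ * (a₁ * g * a₁⁻¹) * a₂⁻¹ := by group
      rw [e, hj₁, ← conj_zpow, hj₂, ← zpow_mul, mul_comm]
    have e3 : x * g * x⁻¹ = (a₂ * a₁)⁻¹ * (a₁ * a₂ * g * (a₁ * a₂)⁻¹) * (a₂ * a₁) := by
      rw [hxdef]
      group
    rw [e1, ← e2] at e3
    have e4 : x * g * x⁻¹ = g := by
      rw [e3]
      group
    change x * g = g * x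
    calc x * g = (x * g * x⁻¹) * x := by group
      _ = g * x := by rw [e4]
  have hxΓ : ∀ z, g z = z → x z =
      swap γ₁ γ₂ (swap γ₂ γ₃ (swap γ₁ γ₂ (swap γ₂ γ₃ z))) := by
    intro z hz
    have hz1 := swap_fix g γ₂ γ₃ h2 h3 z hz
    have hz2 := swap_fix g γ₁ γ₂ h1 h2 _ hz1
    have hz3 := swap_fix g γ₂ γ₃ h2 h3 _ hz2
    rw [hxdef, Perm.mul_apply, Perm.mul_apply, Perm.mul_apply, ha₂ z hz, ha₁ _ hz1, ha₂' _ hz2,
      ha₁' _ hz3]
  have hxΓ' : ∀ z, g z = z → g (x z) = x z := by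
    intro z hz
    rw [hxΓ z hz]
    exact swap_fix g γ₁ γ₂ h1 h2 _ (swap_fix g γ₂ γ₃ h2 h3 _
      (swap_fix g γ₁ γ₂ h1 h2 _ (swap_fix g γ₂ γ₃ h2 h3 z hz)))
  obtain ⟨δ₀, hδ₀⟩ : g.support.Nonempty := Finset.card_pos.mp (by rw [hgp]; exact hp.pos)
  rw [mem_support] at hδ₀
  have hxδ : g (x δ₀) ≠ x δ₀ := by
    intro h
    have e : (g * x) δ₀ = (x * g) δ₀ := by
      rw [hxg.eq]
    rw [Perm.mul_apply, Perm.mul_apply, h] at e
    exact hδ₀ (x.injective e.symm)
  obtain ⟨i, hi⟩ := hgc.exists_zpow_eq hδ₀ hxδ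
  obtain ⟨y, hydef⟩ : ∃ y : Perm α, y = (g ^ i)⁻¹ * x := ⟨_, rfl⟩
  have hyG : y ∈ G := by
    rw [hydef]
    exact G.mul_mem (G.inv_mem (G.zpow_mem hg i)) hxG
  have hyg : Commute y g := by
    rw [hydef]
    exact (((Commute.refl g).zpow_left i).inv_left).mul_left hxg
  have hyδ : y δ₀ = δ₀ := by
    rw [hydef, Perm.mul_apply, ← hi, Perm.inv_def, Equiv.symm_apply_apply]
  have hyΔ : ∀ z, g z ≠ z → y z = z := by
    intro z hz
    obtain ⟨n, hn'⟩ := hgc.exists_zpow_eq hδ₀ hz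
    have e := (hyg.zpow_right n).eq
    have e' := congrArg (fun f : Perm α => f δ₀) e
    simp only [Perm.mul_apply] at e'
    rw [hn', hyδ, hn'] at e'
    exact e'
  have hyΓ : ∀ z, g z = z → y z =
      swap γ₁ γ₂ (swap γ₂ γ₃ (swap γ₁ γ₂ (swap γ₂ γ₃ z))) := by
    intro z hz
    rw [hydef, Perm.mul_apply, Perm.inv_eq_iff_eq, ← hxΓ z hz]
    exact (zpow_apply_eq_self_of_apply_eq_self (hxΓ' z hz) i).symm
  have hy : y = (swap γ₂ γ₁ * swap γ₂ γ₃) * (swap γ₂ γ₁ * swap γ₂ γ₃) := by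
    ext z
    by_cases hz : g z = z
    · rw [hyΓ z hz]
      simp only [Perm.mul_apply, swap_comm γ₂ γ₁]
    · rw [hyΔ z hz]
      have hz1 : z ≠ γ₁ := fun h => hz (by rw [h]; exact h1)
      have hz2 : z ≠ γ₂ := fun h => hz (by rw [h]; exact h2)
      have hz3 : z ≠ γ₃ := fun h => hz (by rw [h]; exact h3)
      simp only [Perm.mul_apply, swap_apply_of_ne_of_ne hz2 hz3, swap_apply_of_ne_of_ne hz2 hz1]
  have h3c : IsThreeCycle y := by
    rw [hy]
    exact (isThreeCycle_swap_mul_swap_same h12.symm h23 h13).isThreeCycle_sq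
  exact Equiv.Perm.alternatingGroup_le_of_isPreprimitive_of_isThreeCycle_mem hG h3c hyG

end Cfsg.Agent.S0713
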