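import Mathlib
import Cfsg.Statements.S0572
import Cfsg.Agent.Lib.helper3.Normalizer

set_option autoImplicit false
set_option linter.style.haveILetI false
open Cfsg

namespace Cfsg.Agent.S0572

open Cfsg.Agent.Lib.helper3
open scoped commutatorElement

universe u

theorem ito_conj {G : Type u} [Group G] (A B : Subgroup G)
    (hA : ∀ x ∈ A, ∀ y ∈ A, x * y = y * x) (hB : ∀ x ∈ B, ∀ y ∈ B, x * y = y * x)
    (hAB : ∀ g : G, ∃ a ∈ A, ∃ b ∈ B, g = a * b) {a b a₁ b₁ : G} (ha : a ∈ A) (hb : b ∈ B)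
    (ha₁ : a₁ ∈ A) (hb₁ : b₁ ∈ B) :
    a₁ * (b₁ * ⁅a, b⁆ * b₁⁻¹) * a₁⁻¹ = b₁ * (a₁ * ⁅a, b⁆ * a₁⁻¹) * b₁⁻¹ := by
  have hBA : ∀ g : G, ∃ b ∈ B, ∃ a ∈ A, g = b * a := by
    intro g
    obtain ⟨a, ha, b, hb, h⟩ := hAB g⁻¹
    exact ⟨b⁻¹, inv_mem hb, a⁻¹, inv_mem ha, by rw [← mul_inv_rev, ← h, inv_inv]⟩
  obtain ⟨a₃, ha₃, b₃, hb₃, h3⟩ := hAB (b₁ * a * b₁⁻¹)
  obtain ⟨b₂, hb₂, a₂, ha₂, h2⟩ := hBA (a₁ * b * a₁⁻¹)
  have conj : ∀ g x y : G, g * ⁅x, y⁆ * g⁻¹ = ⁅g * x * g⁻¹, g * y * g⁻¹⁆ := by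
    intro g x y; simp only [commutatorElement_def]; group
  have cA : ∀ g ∈ A, ∀ x ∈ A, g * x * g⁻¹ = x := by
    intro g hg x hx; rw [hA g hg x hx]; simp
  have cB : ∀ g ∈ B, ∀ x ∈ B, g * x * g⁻¹ = x := by
    intro g hg x hx; rw [hB g hg x hx]; simp
  have i1 : ∀ u : G, ∀ x ∈ B, ∀ y ∈ B, ⁅u * x, y⁆ = ⁅u, y⁆ := by
    intro u x hx y hy
    simp only [commutatorElement_def]
    have : u * x * y * (u * x)⁻¹ * y⁻¹ = u * (x * y * x⁻¹) * u⁻¹ * y⁻¹ := by group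
    rw [this, cB x hx y hy]
  have i2 : ∀ u : G, ∀ x ∈ A, ∀ y ∈ A, ⁅x, u * y⁆ = ⁅x, u⁆ := by
    intro u x hx y hy
    simp only [commutatorElement_def]
    have : x * (u * y) * x⁻¹ * (u * y)⁻¹ = x * u * (y * x⁻¹ * y⁻¹) * u⁻¹ := by group
    rw [this, cA y hy x⁻¹ (inv_mem hx)]
  have e1 : a₁ * (b₁ * ⁅a, b⁆ * b₁⁻¹) * a₁⁻¹ = ⁅a₃, b₂⁆ := by
    rw [conj b₁, cB b₁ hb₁ b hb, h3, i1 a₃ b₃ hb₃ b hb, conj a₁, cA a₁ ha₁ a₃ ha₃, h2,
      i2 b₂ a₃ ha₃ a₂ ha₂]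
  have e2 : b₁ * (a₁ * ⁅a, b⁆ * a₁⁻¹) * b₁⁻¹ = ⁅a₃, b₂⁆ := by
    rw [conj a₁, cA a₁ ha₁ a ha, h2, i2 b₂ a ha a₂ ha₂, conj b₁, cB b₁ hb₁ b₂ hb₂, h3,
      i1 a₃ b₃ hb₃ b₂ hb₂]
  rw [e1, e2]

theorem ito_comm {G : Type u} [Group G] (A B : Subgroup G)
    (hA : ∀ x ∈ A, ∀ y ∈ A, x * y = y * x) (hB : ∀ x ∈ B, ∀ y ∈ B, x * y = y * x)
    (hAB : ∀ g : G, ∃ a ∈ A, ∃ b ∈ B, g = a * b) {a b a' b' : G} (ha : a ∈ A) (hb : b ∈ B)
    (ha' : a' ∈ A) (hb' : b' ∈ B) : ⁅a, b⁆ * ⁅a', b'⁆ = ⁅a', b'⁆ * ⁅a, b⁆ := by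
  have h := ito_conj A B hA hB hAB ha hb (inv_mem ha') (inv_mem hb')
  simp only [inv_inv] at h
  rw [commutatorElement_def a' b']
  generalize ⁅a, b⁆ = w at h ⊢
  have h2 : a' * b' * (a'⁻¹ * (b'⁻¹ * w * b') * a') * a'⁻¹ * b'⁻¹ =
      a' * b' * (b'⁻¹ * (a'⁻¹ * w * a') * b') * a'⁻¹ * b'⁻¹ := by rw [h]
  have e1 : a' * b' * (a'⁻¹ * (b'⁻¹ * w * b') * a') * a'⁻¹ * b'⁻¹ =
      (a' * b' * a'⁻¹ * b'⁻¹) * w := by group
  have e2 : a' * b' * (b'⁻¹ * (a'⁻¹ * w * a') * b') * a'⁻¹ * b'⁻¹ =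
      w * (a' * b' * a'⁻¹ * b'⁻¹) := by group
  rw [e1, e2] at h2; exact h2.symm

/-- Itô's Theorem: if a group G is the product AB of two abelian subgroups, then the commutator subgroup of G is abelian, i.e. the second term of the derived series is trivial. -/
theorem result {G : Type*} [Group G] (A B : Subgroup G) [IsMulCommutative A] [IsMulCommutative B] (hAB : ∀ g : G, ∃ a ∈ A, ∃ b ∈ B, g = a * b) : derivedSeries G 2 = ⊥ := by
  have hA : ∀ x ∈ A, ∀ y ∈ A, x * y = y * x := fun x hx y hy => setLike_mul_comm hx hy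
  have hB : ∀ x ∈ B, ∀ y ∈ B, x * y = y * x := fun x hx y hy => setLike_mul_comm hx hy
  -- N = ⁅A, B⁆ is normal
  have hNn : (⁅A, B⁆ : Subgroup G).Normal := by
    constructor
    intro n hn g
    obtain ⟨a, ha, b, hb, rfl⟩ := hAB g
    have h1 : a * b * n * (a * b)⁻¹ = a * (b * n * b⁻¹) * a⁻¹ := by group
    rw [h1]
    exact conj_commutator_mem_left ha _ (conj_commutator_mem_right hb _ hn)
  -- G' ≤ N
  have hle : commutator G ≤ ⁅A, B⁆ := by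
    rw [commutator_def, Subgroup.commutator_le]
    intro g _ h _
    set π := QuotientGroup.mk' (⁅A, B⁆ : Subgroup G) with hπ
    have h0 : π ⁅g, h⁆ = 1 := by
      rw [map_commutatorElement, commutatorElement_eq_one_iff_mul_comm]
      obtain ⟨a, ha, b, hb, rfl⟩ := hAB g
      obtain ⟨a', ha', b', hb', rfl⟩ := hAB h
      have key : ∀ x ∈ A, ∀ y ∈ B, Commute (π x) (π y) := by
        intro x hx y hy
        have : π ⁅x, y⁆ = 1 :=
          (QuotientGroup.eq_one_iff _).mpr (Subgroup.commutator_mem_commutator hx hy)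
        rw [map_commutatorElement, commutatorElement_eq_one_iff_mul_comm] at this
        exact this
      have kA : ∀ x ∈ A, ∀ y ∈ A, Commute (π x) (π y) := by
        intro x hx y hy
        show π x * π y = π y * π x
        rw [← map_mul, ← map_mul, hA x hx y hy]
      have kB : ∀ x ∈ B, ∀ y ∈ B, Commute (π x) (π y) := by
        intro x hx y hy
        show π x * π y = π y * π x
        rw [← map_mul, ← map_mul, hB x hx y hy]
      rw [map_mul, map_mul]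
      exact (((kA a ha a' ha').mul_right (key a ha b' hb')).mul_left
        ((key a' ha' b hb).symm.mul_right (kB b hb b' hb')))
    exact (QuotientGroup.eq_one_iff _).mp h0
  -- N is commutative
  have hNc : ⁅(⁅A, B⁆ : Subgroup G), ⁅A, B⁆⁆ = ⊥ := by
    have hc : IsMulCommutative (⁅A, B⁆ : Subgroup G) := by
      rw [Subgroup.commutator_def]
      apply Subgroup.isMulCommutative_closure
      rintro _ ⟨a, ha, b, hb, rfl⟩ _ ⟨a', ha', b', hb', rfl⟩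
      exact ito_comm A B hA hB hAB ha hb ha' hb'
    rw [Subgroup.commutator_eq_bot_iff_le_centralizer]
    intro x hx y hy
    exact setLike_mul_comm hy hx
  rw [eq_bot_iff, ← hNc]
  show ⁅derivedSeries G 1, derivedSeries G 1⁆ ≤ _
  rw [derivedSeries_one]
  exact Subgroup.commutator_mono hle hle

end Cfsg.Agent.S0572
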