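import Cfsg.Statements.S0531
import Mathlib
import Cfsg.Agent.Lib.helper3.Supersolvable
import Cfsg.Agent.Lib.helper3.Basic

set_option autoImplicit false
open Cfsg

namespace Cfsg.Agent.S0531

open Cfsg.Agent.Lib.helper3

universe u

theorem card_comap_mk {G : Type u} [Group G] [Finite G] (N : Subgroup G) [N.Normal]
    (K : Subgroup (G ⧸ N)) :
    Nat.card (K.comap (QuotientGroup.mk' N)) = Nat.card K * Nat.card N := by
  have h1 := Subgroup.card_mul_index (K.comap (QuotientGroup.mk' N))
  rw [Subgroup.index_comap_of_surjective K (QuotientGroup.mk'_surjective N)] at h1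
  have h2 := Subgroup.card_mul_index K
  have h3 := Subgroup.card_eq_card_quotient_mul_card_subgroup N
  have hpos : 0 < K.index := Nat.pos_of_ne_zero (Subgroup.index_ne_zero_of_finite)
  have : Nat.card (K.comap (QuotientGroup.mk' N)) * K.index = (Nat.card K * Nat.card N) * K.index := by
    rw [h1, h3, ← h2]; ring
  exact Nat.eq_of_mul_eq_mul_right hpos this

theorem key : ∀ (n : ℕ) (G : Type u) [Group G] [Finite G], Nat.card G = n →
    Cfsg.IsSupersolvable G → Cfsg.HasSubgroupOfEveryOrder G := by
  intro n
  induction n using Nat.strong_induction_on with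
  | _ n ih =>
    intro G _ _ hn hG d hd
    rcases subsingleton_or_nontrivial G with hs | hnt
    · refine ⟨⊥, ?_⟩
      rw [Nat.card_of_subsingleton (1 : G)] at hd
      rw [Subgroup.card_bot]
      exact (Nat.dvd_one.mp hd).symm
    · obtain ⟨N, hNn, hNp⟩ := exists_normal_prime_card hG
      have hNbot : N ≠ ⊥ := by
        intro h
        rw [h, Subgroup.card_bot] at hNp
        exact Nat.not_prime_one hNp
      have hlt := card_quotient_lt N hNbot
      have hQ : Cfsg.IsSupersolvable (G ⧸ N) :=
        isSupersolvable_of_surjective (QuotientGroup.mk' N) (QuotientGroup.mk'_surjective N) hG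
      have hQclt := ih (Nat.card (G ⧸ N)) (hn ▸ hlt) (G ⧸ N) rfl hQ
      have hcard := Subgroup.card_eq_card_quotient_mul_card_subgroup N
      by_cases hpd : Nat.card N ∣ d
      · obtain ⟨e, rfl⟩ := hpd
        have he : e ∣ Nat.card (G ⧸ N) := by
          rw [hcard, mul_comm (Nat.card N) e] at hd
          exact Nat.dvd_of_mul_dvd_mul_right hNp.pos hd
        obtain ⟨K, hK⟩ := hQclt e he
        refine ⟨K.comap (QuotientGroup.mk' N), ?_⟩
        rw [card_comap_mk, hK, mul_comm]
      · have hcop : Nat.Coprime d (Nat.card N) :=
          (Nat.Coprime.symm ((Nat.Prime.coprime_iff_not_dvd hNp).mpr hpd))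
        have hdQ : d ∣ Nat.card (G ⧸ N) := by
          rw [hcard] at hd
          exact hcop.dvd_of_dvd_mul_right hd
        obtain ⟨K, hK⟩ := hQclt d hdQ
        set L := K.comap (QuotientGroup.mk' N) with hL
        have hLcard : Nat.card L = d * Nat.card N := by
          rw [hL, card_comap_mk, hK]
        have hNL : N ≤ L := by
          intro x hx
          rw [hL, Subgroup.mem_comap]
          have : (QuotientGroup.mk' N) x = 1 := (QuotientGroup.eq_one_iff x).mpr hx
          rw [this]; exact K.one_mem
        have hN'card : Nat.card (N.subgroupOf L) = Nat.card N :=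
          Nat.card_congr (Subgroup.subgroupOfEquivOfLe hNL).toEquiv
        have hN'idx : (N.subgroupOf L).index = d := by
          have h1 := Subgroup.card_mul_index (N.subgroupOf L)
          rw [hN'card, hLcard, mul_comm] at h1
          exact Nat.eq_of_mul_eq_mul_right hNp.pos h1
        have hcop' : Nat.Coprime (Nat.card (N.subgroupOf L)) (N.subgroupOf L).index := by
          rw [hN'card, hN'idx]; exact hcop.symm
        obtain ⟨H', hH'⟩ := Subgroup.exists_right_complement'_of_coprime hcop'
        have hH'card : Nat.card H' = d := by
          have h1 := hH'.card_mul_card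
          rw [hN'card, hLcard, mul_comm] at h1
          exact Nat.eq_of_mul_eq_mul_right hNp.pos h1
        refine ⟨H'.map L.subtype, ?_⟩
        rw [Subgroup.card_map_of_injective L.subtype_injective, hH'card]

/-- A finite supersolvable group has a subgroup of each order dividing its order. -/
theorem result {G : Type*} [Group G] [Finite G] (hG : Cfsg.IsSupersolvable G) : Cfsg.HasSubgroupOfEveryOrder G := by
  exact key (Nat.card G) G rfl hG

end Cfsg.Agent.S0531
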