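import Cfsg.Statements.S0794
-- import your own Cfsg.Agent.* helpers here
import Cfsg.Agent.Lib.helper13.Spinor
import Cfsg.Agent.S0793

set_option autoImplicit false
open Cfsg

namespace Cfsg.Agent.S0794

open Cfsg.Agent.Lib.helper13 in
/-- an isometry `h` with `h u = -u`, `h v = v` conjugates `T_(u,v)(c)` to `T_(u,v)(-c)`. -/
theorem conj_siegel {F : Type*} [Field F] {n : ℕ} (Q : QuadraticForm F (Fin n → F))
    (u v : Fin n → F) (c : F) (h : ↥(Cfsg.isometryGroup F ⇑Q))
    (hu : ((h : Matrix.GeneralLinearGroup (Fin n) F) : Matrix (Fin n) (Fin n) F).mulVec u = -u)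
    (hv : ((h : Matrix.GeneralLinearGroup (Fin n) F) : Matrix (Fin n) (Fin n) F).mulVec v = v) :
    ((h : Matrix.GeneralLinearGroup (Fin n) F) : Matrix (Fin n) (Fin n) F)
        * Cfsg.siegelMatrix (⇑Q) u v c
      = Cfsg.siegelMatrix (⇑Q) u v (-c)
        * ((h : Matrix.GeneralLinearGroup (Fin n) F) : Matrix (Fin n) (Fin n) F) := by
  apply Matrix.mulVec_injective
  funext x
  rw [← Matrix.mulVec_mulVec, ← Matrix.mulVec_mulVec, Cfsg.Agent.S0793.siegel_mulVec,
    Cfsg.Agent.S0793.siegel_mulVec, Matrix.mulVec_add, Matrix.mulVec_smul, Matrix.mulVec_sub,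
    Matrix.mulVec_smul, Matrix.mulVec_smul, hu, hv]
  have h1 : QuadraticMap.polar (⇑Q) u
      (((h : Matrix.GeneralLinearGroup (Fin n) F) : Matrix (Fin n) (Fin n) F).mulVec x)
      = - QuadraticMap.polar (⇑Q) u x := by
    have h2 := isom_polar Q h u x
    rw [hu, QuadraticMap.polar_neg_left] at h2
    rw [← h2, neg_neg]
  have h3 : QuadraticMap.polar (⇑Q) v
      (((h : Matrix.GeneralLinearGroup (Fin n) F) : Matrix (Fin n) (Fin n) F).mulVec x)
      = QuadraticMap.polar (⇑Q) v x := by
    have h2 := isom_polar Q h v x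
    rw [hv] at h2
    exact h2
  rw [h1, h3]
  module

/-- For q odd, n ≥ 5 and Q with non-degenerate polar form: an isometry whose matrix is a Siegel transformation T_(u,v)(c) (u, v singular and orthogonal) is a commutator in the isometry group, so lies in Ω. -/
theorem result {F : Type*} [Field F] [Fintype F] (h2 : (2 : F) ≠ 0) {n : ℕ} (hn : 5 ≤ n) (Q : QuadraticForm F (Fin n → F)) (hQ : (QuadraticMap.polarBilin Q).Nondegenerate) (u v : Fin n → F) (hu : Q u = 0) (hv : Q v = 0) (huv : QuadraticMap.polar ⇑Q u v = 0) (c : F) (g : ↥(Cfsg.isometryGroup F ⇑Q)) (hg : ((g : Matrix.GeneralLinearGroup (Fin n) F) : Matrix (Fin n) (Fin n) F) = Cfsg.siegelMatrix ⇑Q u v c) : g ∈ commutatorSet ↥(Cfsg.isometryGroup F ⇑Q) ∧ g ∈ Cfsg.Omega F ⇑Q := by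
  classical
  have hcomm : g ∈ commutatorSet ↥(Cfsg.isometryGroup F ⇑Q) := by
    by_cases hA : ∃ y, QuadraticMap.polar (⇑Q) u y ≠ 0 ∧ QuadraticMap.polar (⇑Q) v y = 0
    · obtain ⟨y₀, hy1, hy2⟩ := hA
      obtain ⟨y, hy, hy'⟩ : ∃ y, QuadraticMap.polar (⇑Q) u y = 1 ∧
          QuadraticMap.polar (⇑Q) v y = 0 :=
        ⟨(QuadraticMap.polar (⇑Q) u y₀)⁻¹ • y₀, by
          rw [QuadraticMap.polar_smul_right, smul_eq_mul, inv_mul_cancel₀ hy1], by
          rw [QuadraticMap.polar_smul_right, hy2, smul_zero]⟩
      have huu : QuadraticMap.polar (⇑Q) u u = 0 := by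
        rw [QuadraticMap.polar_self, hu, smul_zero]
      have hvu : QuadraticMap.polar (⇑Q) v u = 0 := by
        rw [QuadraticMap.polar_comm]; exact huv
      obtain ⟨u', hu'⟩ : ∃ u' : Fin n → F, u' = y - Q y • u := ⟨_, rfl⟩
      have hQu' : Q u' = 0 := by
        rw [hu', sub_eq_add_neg, ← neg_smul, QuadraticMap.map_add (⇑Q), QuadraticMap.map_smul, hu,
          QuadraticMap.polar_smul_right, QuadraticMap.polar_comm (⇑Q) y u, hy]
        simp only [smul_eq_mul]
        ring
      have huu' : QuadraticMap.polar (⇑Q) u u' = 1 := by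
        rw [hu', QuadraticMap.polar_sub_right, QuadraticMap.polar_smul_right, huu, hy, smul_zero,
          sub_zero]
      have hu'u : QuadraticMap.polar (⇑Q) u' u = 1 := by
        rw [QuadraticMap.polar_comm]; exact huu'
      have hvu' : QuadraticMap.polar (⇑Q) v u' = 0 := by
        rw [hu', QuadraticMap.polar_sub_right, QuadraticMap.polar_smul_right, hvu, hy', smul_zero,
          sub_zero]
      have hu'v : QuadraticMap.polar (⇑Q) u' v = 0 := by
        rw [QuadraticMap.polar_comm]; exact hvu'
      have hu'u' : QuadraticMap.polar (⇑Q) u' u' = 0 := by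
        rw [QuadraticMap.polar_self, hQu', smul_zero]
      have hQa : Q (u - u') = -1 := by
        rw [sub_eq_add_neg, QuadraticMap.map_add (⇑Q), QuadraticMap.map_neg, hu, hQu',
          QuadraticMap.polar_neg_right, huu']
        ring
      have hQb : Q (u + u') = 1 := by
        rw [QuadraticMap.map_add (⇑Q), hu, hQu', huu']
        ring
      have hQa0 : Q (u - u') ≠ 0 := by
        rw [hQa]; exact neg_ne_zero.mpr one_ne_zero
      have hQb0 : Q (u + u') ≠ 0 := by
        rw [hQb]; exact one_ne_zero
      obtain ⟨h, hh⟩ : ∃ h : ↥(Cfsg.isometryGroup F ⇑Q),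
          h = Cfsg.Agent.Lib.helper13.reflEl Q (u - u') * Cfsg.Agent.Lib.helper13.reflEl Q (u + u') :=
        ⟨_, rfl⟩
      have hmat : ∀ x, ((h : Matrix.GeneralLinearGroup (Fin n) F) :
          Matrix (Fin n) (Fin n) F).mulVec x
          = (Cfsg.reflectionMatrix (⇑Q) (u - u')).mulVec
            ((Cfsg.reflectionMatrix (⇑Q) (u + u')).mulVec x) := by
        intro x
        rw [hh, Cfsg.Agent.Lib.helper13.isom_coe_mul, Cfsg.Agent.Lib.helper13.reflEl_coe Q _ hQa0,
          Cfsg.Agent.Lib.helper13.reflEl_coe Q _ hQb0, Matrix.mulVec_mulVec]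
      have hHu : ((h : Matrix.GeneralLinearGroup (Fin n) F) :
          Matrix (Fin n) (Fin n) F).mulVec u = -u := by
        rw [hmat, Cfsg.Agent.Lib.helper13.refl_mulVec, Cfsg.Agent.Lib.helper13.refl_mulVec, hQa, hQb,
          QuadraticMap.polar_add_left, huu, hu'u, QuadraticMap.polar_sub_right,
          QuadraticMap.polar_smul_right, QuadraticMap.polar_sub_left, QuadraticMap.polar_sub_left,
          QuadraticMap.polar_add_right, QuadraticMap.polar_add_right, huu, hu'u, huu', hu'u']
        simp only [smul_eq_mul]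
        module
      have hHv : ((h : Matrix.GeneralLinearGroup (Fin n) F) :
          Matrix (Fin n) (Fin n) F).mulVec v = v := by
        rw [hmat, Cfsg.Agent.Lib.helper13.refl_mulVec, Cfsg.Agent.Lib.helper13.refl_mulVec,
          QuadraticMap.polar_add_left, huv, hu'v, add_zero, mul_zero, zero_smul, sub_zero,
          QuadraticMap.polar_sub_left, huv, hu'v, sub_zero, mul_zero, zero_smul, sub_zero]
      obtain ⟨hpres, -, hmul⟩ := Cfsg.Agent.S0793.result Q u v hu hv huv
      have h0 : Cfsg.siegelMatrix (⇑Q) u v 0 = 1 := by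
        unfold Cfsg.siegelMatrix
        rw [zero_smul, add_zero]
      obtain ⟨t, ht⟩ : ∃ t : ↥(Cfsg.isometryGroup F ⇑Q),
          ((t : Matrix.GeneralLinearGroup (Fin n) F) : Matrix (Fin n) (Fin n) F)
            = Cfsg.siegelMatrix (⇑Q) u v (-(c / 2)) :=
        ⟨⟨⟨Cfsg.siegelMatrix (⇑Q) u v (-(c / 2)), Cfsg.siegelMatrix (⇑Q) u v (c / 2), by
          rw [hmul, neg_add_cancel, h0], by rw [hmul, add_neg_cancel, h0]⟩,
          fun x _ => hpres _ x⟩, rfl⟩
      refine ⟨h, t, ?_⟩
      rw [commutatorElement_def, mul_inv_eq_iff_eq_mul, mul_inv_eq_iff_eq_mul]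
      apply Cfsg.Agent.Lib.helper13.isom_ext
      rw [Cfsg.Agent.Lib.helper13.isom_coe_mul, Cfsg.Agent.Lib.helper13.isom_coe_mul,
        Cfsg.Agent.Lib.helper13.isom_coe_mul, hg, ht, hmul, conj_siegel Q u v _ h hHu hHv]
      congr 2
      field_simp
      ring
    · push Not at hA
      have hg1 : g = 1 := by
        apply Cfsg.Agent.Lib.helper13.isom_ext
        rw [hg, Cfsg.Agent.Lib.helper13.isom_coe_one]
        apply Matrix.mulVec_injective
        funext x
        rw [Cfsg.Agent.S0793.siegel_mulVec, Matrix.one_mulVec]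
        by_cases hv0 : v = 0
        · have hu0 : u = 0 := by
            apply hQ.1 u
            intro y
            by_contra hne
            apply hA y hne
            rw [hv0]
            exact QuadraticMap.polar_zero_left Q y
          rw [hv0, hu0]
          simp
        · obtain ⟨y₀, hy₀⟩ : ∃ y₀, QuadraticMap.polar (⇑Q) v y₀ ≠ 0 := by
            by_contra hcon
            push Not at hcon
            exact hv0 (hQ.1 v hcon)
          obtain ⟨y, hy⟩ : ∃ y, QuadraticMap.polar (⇑Q) v y = 1 :=
            ⟨(QuadraticMap.polar (⇑Q) v y₀)⁻¹ • y₀, by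
              rw [QuadraticMap.polar_smul_right, smul_eq_mul, inv_mul_cancel₀ hy₀]⟩
          have hkey : ∀ z, QuadraticMap.polar (⇑Q) u z
              = QuadraticMap.polar (⇑Q) v z * QuadraticMap.polar (⇑Q) u y := by
            intro z
            have h1 : QuadraticMap.polar (⇑Q) v (z - QuadraticMap.polar (⇑Q) v z • y) = 0 := by
              rw [QuadraticMap.polar_sub_right, QuadraticMap.polar_smul_right, hy, smul_eq_mul,
                mul_one, sub_self]
            have h2 : QuadraticMap.polar (⇑Q) u (z - QuadraticMap.polar (⇑Q) v z • y) = 0 := by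
              by_contra hne
              exact hA _ hne h1
            rw [QuadraticMap.polar_sub_right, QuadraticMap.polar_smul_right, smul_eq_mul] at h2
            linear_combination h2
          have huv' : u = QuadraticMap.polar (⇑Q) u y • v := by
            have h1 : u - QuadraticMap.polar (⇑Q) u y • v = 0 := by
              apply hQ.1
              intro z
              show QuadraticMap.polar (⇑Q) (u - QuadraticMap.polar (⇑Q) u y • v) z = 0
              rw [QuadraticMap.polar_sub_left, QuadraticMap.polar_smul_left, hkey z, smul_eq_mul]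
              ring
            exact sub_eq_zero.mp h1
          have h5 : QuadraticMap.polar (⇑Q) v x • u
              = (QuadraticMap.polar (⇑Q) v x * QuadraticMap.polar (⇑Q) u y) • v := by
            conv_lhs => rw [huv']
            rw [smul_smul]
          rw [hkey x, h5, sub_self, smul_zero, add_zero]
      rw [hg1]
      exact ⟨1, 1, by simp⟩
  refine ⟨hcomm, ?_⟩
  rw [Cfsg.Omega, commutator_eq_closure]
  exact Subgroup.subset_closure hcomm

end Cfsg.Agent.S0794
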