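import Cfsg.Statements.S0675
import Mathlib
import Cfsg.Agent.S0674
import Cfsg.Agent.S0671

set_option autoImplicit false
open Cfsg

namespace Cfsg.Agent.S0675

theorem solvable_small {α : Type*} [Fintype α] [DecidableEq α] (hα : Fintype.card α ≤ 3) :
    Group.IsSolvable (Equiv.Perm α) := by
  by_cases h1 : Fintype.card α ≤ 1
  · haveI : Subsingleton α := Fintype.card_le_one_iff_subsingleton.mp h1
    exact Group.isSolvable_of_comm (fun a b => by
      rw [Subsingleton.elim a 1, Subsingleton.elim b 1])
  · haveI : Nontrivial α := Fintype.one_lt_card_iff_nontrivial.mp (by omega)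
    have hA : Fintype.card (alternatingGroup α) = 1 ∨ Fintype.card (alternatingGroup α) = 3 := by
      have h2 := two_mul_card_alternatingGroup (α := α)
      rw [Fintype.card_perm] at h2
      have h3 : Fintype.card α = 2 ∨ Fintype.card α = 3 := by omega
      rcases h3 with h3 | h3
      · rw [h3] at h2
        left
        have : Nat.factorial 2 = 2 := rfl
        omega
      · rw [h3] at h2
        right
        have : Nat.factorial 3 = 6 := rfl
        omega
    haveI : Group.IsSolvable (alternatingGroup α) := by
      rcases hA with hA | hA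
      · haveI : Subsingleton (alternatingGroup α) := Fintype.card_le_one_iff_subsingleton.mp hA.le
        exact Group.isSolvable_of_comm (fun a b => by
          rw [Subsingleton.elim a 1, Subsingleton.elim b 1])
      · haveI : Fact (Nat.Prime 3) := ⟨Nat.prime_three⟩
        haveI : IsCyclic (alternatingGroup α) :=
          isCyclic_of_prime_card (p := 3) (by rw [Nat.card_eq_fintype_card]; exact hA)
        exact Group.isSolvable_of_comm (fun a b => IsMulCommutative.is_comm.comm a b)
    exact solvable_of_ker_le_range (alternatingGroup α).subtype (Equiv.Perm.sign (α := α))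
      (by rw [Subgroup.range_subtype]; exact le_rfl)


/-- Burnside's Theorem on permutation groups of prime degree: a transitive permutation group of prime degree that is not solvable is doubly transitive. -/
theorem result {α : Type*} [Fintype α] [DecidableEq α] (hα : (Fintype.card α).Prime) (G : Subgroup (Equiv.Perm α)) [MulAction.IsPretransitive G α] : Group.IsSolvable G ∨ MulAction.IsMultiplyPretransitive G α 2 := by
  by_cases hG : Group.IsSolvable G
  · exact Or.inl hG
  right
  obtain ⟨p, hp⟩ : ∃ p, Fintype.card α = p := ⟨_, rfl⟩
  rw [hp] at hα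
  haveI : Fact p.Prime := ⟨hα⟩
  have h5 : 5 ≤ p := by
    by_contra hlt
    have h4 : p ≠ 4 := by
      rintro rfl
      exact absurd hα (by norm_num)
    apply hG
    haveI := solvable_small (α := α) (by omega)
    infer_instance
  apply Cfsg.Agent.S0671.result (K := ZMod p) (p := p) (f := 1) le_rfl (by rw [pow_one]; exact hp)
  intro W W' hCW hlt hW'S
  have hW := Cfsg.Agent.S0674.result hp G hG W hCW (hlt.le.trans hW'S)
  have hW' := Cfsg.Agent.S0674.result hp G hG W' (hCW.trans hlt.le) hW'S
  have hWC : W = Cfsg.permConstants (ZMod p) G α := by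
    rcases hW with h | h
    · exact h
    · exfalso
      rw [h] at hlt
      exact absurd hW'S (not_le_of_gt hlt)
  have hW'S' : W' = Cfsg.permSumZero (ZMod p) G α := by
    rcases hW' with h | h
    · exfalso
      rw [h] at hlt
      exact absurd hCW (not_le_of_gt hlt)
    · exact h
  rw [hWC, hW'S']
  by_contra hall
  push Not at hall
  apply hG
  haveI : Nontrivial α := Fintype.one_lt_card_iff_nontrivial.mp (by omega)
  have h1ne : (1 : ZMod p) ≠ 0 := one_ne_zero
  have h2ne : (1 : ZMod p) + 1 ≠ 0 := by
    intro h
    have h' : ((2 : ℕ) : ZMod p) = 0 := by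
      rw [← h]
      norm_num
    rw [ZMod.natCast_eq_zero_iff] at h'
    have := Nat.le_of_dvd (by norm_num) h'
    omega
  have htriv : ∀ (g : G) (a : α), g • a = a := by
    intro g a
    by_contra hne
    obtain ⟨b, hb⟩ : ∃ b, b ≠ a := exists_ne a
    obtain ⟨v, hv⟩ : ∃ v : α → ZMod p, v = Pi.single a 1 - Pi.single b 1 := ⟨_, rfl⟩
    have hvS : v ∈ (Cfsg.permSumZero (ZMod p) G α).toSubmodule := by
      change ∑ x, v x = 0
      rw [hv]
      simp [Finset.sum_sub_distrib]
    have h1 := hall g v hvS
    have h1' : Cfsg.permRep (ZMod p) G α g v - v ∈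
        Submodule.span (ZMod p) {fun _ : α => (1 : ZMod p)} := h1
    rw [Submodule.mem_span_singleton] at h1'
    obtain ⟨c, hc⟩ := h1'
    have hcx : ∀ x : α, c = v (g⁻¹ • x) - v x := by
      intro x
      have h := congrFun hc x
      have h' : c * 1 = v (g⁻¹ • x) - v x := h
      rw [mul_one] at h'
      exact h'
    obtain ⟨x, hx⟩ : ∃ x : α, x ∉ ({g • a, g • b, a, b} : Finset α) := by
      by_contra hcon
      push Not at hcon
      have h1 : (Finset.univ : Finset α) ⊆ {g • a, g • b, a, b} := fun x _ => hcon x
      have h2 := Finset.card_le_card h1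
      rw [Finset.card_univ, hp] at h2
      have h3 := Finset.card_le_four (a := g • a) (b := g • b) (c := a) (d := b)
      omega
    simp only [Finset.mem_insert, Finset.mem_singleton, not_or] at hx
    obtain ⟨hx1, hx2, hx3, hx4⟩ := hx
    have hc0 : c = 0 := by
      rw [hcx x, hv]
      have e1 : g⁻¹ • x ≠ a := by
        intro h
        apply hx1
        rw [← h, smul_inv_smul]
      have e2 : g⁻¹ • x ≠ b := by
        intro h
        apply hx2
        rw [← h, smul_inv_smul]
      simp [Pi.single_apply, e1, e2, hx3, hx4]
    have h2 := hcx (g • a)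
    rw [hc0, inv_smul_smul, hv] at h2
    simp only [Pi.sub_apply, Pi.single_apply, if_true, if_neg hne, if_neg (Ne.symm hb)] at h2
    by_cases hgb : g • a = b
    · rw [if_pos hgb] at h2
      apply h2ne
      rw [h2]
      ring
    · rw [if_neg hgb] at h2
      apply h1ne
      rw [h2]
      ring
  have hone : ∀ g : G, g = 1 := fun g => Subtype.ext (Equiv.ext (fun a => htriv g a))
  exact Group.isSolvable_of_comm (fun a b => by rw [hone a, hone b])

end Cfsg.Agent.S0675
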