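import Cfsg.Statements.S5420

set_option autoImplicit false
open Cfsg

namespace Cfsg.Agent.S5420

theorem pCore_le_sylow {G : Type*} [Group G] [Finite G] (p : ℕ) [Fact p.Prime] (P : Sylow p G) :
    Cfsg.pCore p G ≤ P := by
  apply sSup_le
  rintro N ⟨hN, hNp⟩
  obtain ⟨Q, hQ⟩ := hNp.exists_le_sylow
  obtain ⟨g, rfl⟩ := MulAction.exists_smul_eq G Q P
  intro n hn
  rw [Sylow.coe_subgroup_smul, Subgroup.mem_pointwise_smul_iff_inv_smul_mem]
  apply hQ
  have : (MulAut.conj g)⁻¹ • n = g⁻¹ * n * g⁻¹⁻¹ := by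
    simp [MulAut.smul_def]
  rw [this]
  exact hN.conj_mem n hn g⁻¹

theorem pCore_isPGroup {G : Type*} [Group G] [Finite G] (p : ℕ) [Fact p.Prime] :
    IsPGroup p (Cfsg.pCore p G) := by
  obtain ⟨P⟩ : Nonempty (Sylow p G) := inferInstance
  exact P.2.to_le (pCore_le_sylow p P)

theorem pCore_normal {G : Type*} [Group G] (p : ℕ) : (Cfsg.pCore p G).Normal :=
  Subgroup.sSup_normal _ (fun _ h => h.1)

theorem eq_one_of_mem_odd_of_mem_two {G : Type*} [Group G] [Finite G] (K T : Subgroup G)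
    (hK : Odd (Nat.card K)) (hT : IsPGroup 2 T) (k : G) (hk : k ∈ K) (hkT : k ∈ T) : k = 1 := by
  obtain ⟨n, hn⟩ := hT ⟨k, hkT⟩
  have h1 : k ^ (2 ^ n) = 1 := by simpa using congrArg Subtype.val hn
  have h2 : k ^ (Nat.card K) = 1 := by
    have h := pow_card_eq_one' (G := K) (x := ⟨k, hk⟩)
    have h' := congrArg Subtype.val h
    rw [Subgroup.coe_pow] at h'
    exact h'
  have h3 : orderOf k ∣ Nat.gcd (2 ^ n) (Nat.card K) :=
    Nat.dvd_gcd (orderOf_dvd_of_pow_eq_one h1) (orderOf_dvd_of_pow_eq_one h2)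
  have h4 : Nat.gcd (2 ^ n) (Nat.card K) = 1 :=
    Nat.Coprime.pow_left n (Nat.coprime_two_left.mpr hK)
  rw [h4] at h3
  exact orderOf_eq_one_iff.mp (Nat.dvd_one.mp h3)

/-- Let Q be an extraspecial 2-subgroup of the finite group G whose centralizer in G is its centre Z and which is normal in the centralizer of Z. If Z lies in the largest normal 2-subgroup of G, then Q is a large extraspecial 2-subgroup of G: it normalizes no non-trivial subgroup of G of odd order. -/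
theorem result {G : Type*} [Group G] [Finite G] (Q : Subgroup G) (hL1 : Cfsg.IsExtraspecial 2 ↥Q) (hL2 : Subgroup.centralizer (Q : Set G) = ((Subgroup.center ↥Q).map Q.subtype)) (hL3 : Subgroup.centralizer (((Subgroup.center ↥Q).map Q.subtype) : Set G) ≤ Subgroup.normalizer (Q : Set G)) (hZ : ((Subgroup.center ↥Q).map Q.subtype) ≤ Cfsg.pCore 2 G) : Cfsg.IsLargeExtraspecial Q := by
  refine ⟨hL1, hL2, hL3, ?_⟩
  intro K hKodd hQK
  have : Fact (Nat.Prime 2) := ⟨Nat.prime_two⟩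
  have hQp : IsPGroup 2 Q := hL1.1.1
  have hO2 : IsPGroup 2 (Cfsg.pCore 2 G) := pCore_isPGroup 2
  have hO2n : (Cfsg.pCore 2 G).Normal := pCore_normal 2
  have hZQ : ((Subgroup.center ↥Q).map Q.subtype) ≤ Q := by
    rintro _ ⟨y, -, rfl⟩
    exact y.2
  rw [eq_bot_iff]
  intro k hk
  rw [Subgroup.mem_bot]
  -- k centralizes Z
  have hkZ : k ∈ Subgroup.centralizer (((Subgroup.center ↥Q).map Q.subtype) : Set G) := by
    rw [Subgroup.mem_centralizer_iff]
    intro z hz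
    have hzQ : z ∈ Q := hZQ hz
    have hzN := hQK hzQ
    rw [Subgroup.mem_normalizer_iff] at hzN
    have h1 : z * k * z⁻¹ * k⁻¹ ∈ K := K.mul_mem ((hzN k).mp hk) (K.inv_mem hk)
    have h2 : z * k * z⁻¹ * k⁻¹ ∈ Cfsg.pCore 2 G := by
      have hz2 : z ∈ Cfsg.pCore 2 G := hZ hz
      have : z * k * z⁻¹ * k⁻¹ = z * (k * z⁻¹ * k⁻¹) := by group
      rw [this]
      exact (Cfsg.pCore 2 G).mul_mem hz2 (hO2n.conj_mem _ ((Cfsg.pCore 2 G).inv_mem hz2) k)
    have h3 := eq_one_of_mem_odd_of_mem_two K _ hKodd hO2 _ h1 h2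
    calc z * k = z * k * z⁻¹ * k⁻¹ * (k * z) := by group
      _ = k * z := by rw [h3, one_mul]
  have hkN : k ∈ Subgroup.normalizer (Q : Set G) := hL3 hkZ
  rw [Subgroup.mem_normalizer_iff] at hkN
  -- k centralizes Q
  have hkQ : k ∈ Subgroup.centralizer (Q : Set G) := by
    rw [Subgroup.mem_centralizer_iff]
    intro q hq
    have hqN := hQK hq
    rw [Subgroup.mem_normalizer_iff] at hqN
    have h1 : q * k * q⁻¹ * k⁻¹ ∈ K := K.mul_mem ((hqN k).mp hk) (K.inv_mem hk)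
    have h2 : q * k * q⁻¹ * k⁻¹ ∈ Q := by
      have : q * k * q⁻¹ * k⁻¹ = q * (k * q⁻¹ * k⁻¹) := by group
      rw [this]
      exact Q.mul_mem hq ((hkN q⁻¹).mp (Q.inv_mem hq))
    have h3 := eq_one_of_mem_odd_of_mem_two K _ hKodd hQp _ h1 h2
    calc q * k = q * k * q⁻¹ * k⁻¹ * (k * q) := by group
      _ = k * q := by rw [h3, one_mul]
  rw [hL2] at hkQ
  exact eq_one_of_mem_odd_of_mem_two K _ hKodd hQp _ hk (hZQ hkQ)

end Cfsg.Agent.S5420
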