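import Cfsg.Statements.S5421
import Cfsg.Agent.S5420

set_option autoImplicit false
open Cfsg
open scoped commutatorElement Pointwise

namespace Cfsg.Agent.S5421

universe u

theorem odd_sqrt {P : Type*} [Group P] [Finite P] (hodd : Odd (Nat.card P)) (n : P) :
    ∃ j : ℕ, (n ^ j) * (n ^ j) = n := by
  obtain ⟨j, hj⟩ := hodd
  refine ⟨j + 1, ?_⟩
  rw [← pow_add]
  have h2 : j + 1 + (j + 1) = Nat.card P + 1 := by omega
  rw [h2, pow_succ, pow_card_eq_one', one_mul]

theorem eq_one_of_sq {P : Type*} [Group P] [Finite P] (hodd : Odd (Nat.card P)) (n : P)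
    (h : n * n = 1) : n = 1 := by
  obtain ⟨j, hj⟩ := odd_sqrt hodd n
  rw [← hj, ← pow_add, ← two_mul, pow_mul, pow_two, h, one_pow]

theorem pgroup_case (p : ℕ) [hp : Fact p.Prime] : ∀ (n : ℕ) (P : Type u) [Group P] [Finite P],
    Nat.card P = n → IsPGroup p P → Odd (Nat.card P) → ∀ (s t : P ≃* P),
    (∀ x, s (s x) = x) → (∀ x, t (t x) = x) → (∀ x, s (t x) = t (s x)) →
    (∀ x, t x = x → s x = x) → (∀ x, s (t x) = x → s x = x) → ∀ x, s x = x := by
  intro n
  induction n using Nat.strong_induction_on with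
  | _ n ih =>
    intro P _ _ hn hP hodd s t hss htt hst h1 h2
    by_cases hsub : Subsingleton P
    · intro x; exact Subsingleton.elim _ _
    rw [not_subsingleton_iff_nontrivial] at hsub
    have hZnt : Nontrivial (Subgroup.center P) := hP.center_nontrivial
    have hsq1 : ∀ w : P, w * w = 1 → w = 1 := eq_one_of_sq hodd
    have hZmem : ∀ (e : P ≃* P) (c : P), c ∈ Subgroup.center P → e c ∈ Subgroup.center P := by
      intro e c hc
      rw [Subgroup.mem_center_iff] at hc ⊢
      intro g
      obtain ⟨g', rfl⟩ := e.surjective g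
      rw [← map_mul, ← map_mul, hc g']
    have hZs : ∀ c ∈ Subgroup.center P, s c = c := by
      intro c hc
      obtain ⟨w, hw⟩ : ∃ w, w = c⁻¹ * s c := ⟨_, rfl⟩
      have hwZ : w ∈ Subgroup.center P := by
        rw [hw]; exact Subgroup.mul_mem _ (Subgroup.inv_mem _ hc) (hZmem s c hc)
      have hws : s w = w⁻¹ := by
        rw [hw, map_mul, map_inv, hss]; group
      have hwt : t w * w = w * t w := Subgroup.mem_center_iff.mp hwZ (t w)
      have hu : w * t w = 1 := by
        apply hsq1
        have hfix : t (w * t w) = w * t w := by rw [map_mul, htt, hwt]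
        have h := h1 _ hfix
        rw [map_mul, hst, hws, map_inv] at h
        have h' : w * t w = (t w * w)⁻¹ := by rw [mul_inv_rev]; exact h.symm
        calc w * t w * (w * t w) = (t w * w)⁻¹ * (w * t w) := by rw [← h']
          _ = (t w * w)⁻¹ * (t w * w) := by rw [hwt]
          _ = 1 := inv_mul_cancel _
      have htw : t w = w⁻¹ := eq_inv_of_mul_eq_one_right hu
      have h3 : s (t w) = w := by rw [htw, map_inv, hws, inv_inv]
      have h4 : s w = w := h2 w h3
      have h5 : w = 1 := by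
        apply hsq1
        have h6 : w⁻¹ = w := by rw [← hws, h4]
        calc w * w = w⁻¹ * w := by rw [h6]
          _ = 1 := inv_mul_cancel w
      have h7 : s c = c * w := by rw [hw]; group
      rw [h7, h5, mul_one]
    have hmapZ : ∀ e : P ≃* P, (Subgroup.center P).map (e : P →* P) = Subgroup.center P := by
      intro e
      apply le_antisymm
      · rintro _ ⟨c, hc, rfl⟩
        exact hZmem e c hc
      · intro c hc
        exact ⟨e.symm c, hZmem e.symm c hc, by simp⟩
    let sb : P ⧸ Subgroup.center P ≃* P ⧸ Subgroup.center P :=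
      QuotientGroup.congr _ _ s (hmapZ s)
    let tb : P ⧸ Subgroup.center P ≃* P ⧸ Subgroup.center P :=
      QuotientGroup.congr _ _ t (hmapZ t)
    have hsb : ∀ x : P, sb (QuotientGroup.mk x) = QuotientGroup.mk (s x) := fun x => rfl
    have htb : ∀ x : P, tb (QuotientGroup.mk x) = QuotientGroup.mk (t x) := fun x => rfl
    have hcard : Nat.card (P ⧸ Subgroup.center P) < n := by
      rw [← hn, Subgroup.card_eq_card_quotient_mul_card_subgroup (Subgroup.center P)]
      have h1 : 1 < Nat.card (Subgroup.center P) := Finite.one_lt_card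
      have h0 : 0 < Nat.card (P ⧸ Subgroup.center P) := Nat.card_pos
      nlinarith
    have hoddq : Odd (Nat.card (P ⧸ Subgroup.center P)) := by
      have hdvd : Nat.card (P ⧸ Subgroup.center P) ∣ Nat.card P :=
        Subgroup.card_quotient_dvd_card _
      exact Odd.of_dvd_nat hodd hdvd
    have hlift : ∀ (e : P ≃* P), (∀ x, e (e x) = x) → ∀ k : P, k⁻¹ * e k ∈ Subgroup.center P →
        ∃ k', k⁻¹ * k' ∈ Subgroup.center P ∧ e k' = k' := by
      intro e hee k hk
      obtain ⟨j, hj⟩ := odd_sqrt hodd (k⁻¹ * e k)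
      have hinv : e (k⁻¹ * e k) = (k⁻¹ * e k)⁻¹ := by
        rw [map_mul, map_inv, hee]; group
      refine ⟨k * (k⁻¹ * e k) ^ j, ?_, ?_⟩
      · have : k⁻¹ * (k * (k⁻¹ * e k) ^ j) = (k⁻¹ * e k) ^ j := by group
        rw [this]; exact Subgroup.pow_mem _ hk j
      · rw [map_mul, map_pow, hinv]
        obtain ⟨m, hm⟩ : ∃ m, m = (k⁻¹ * e k) ^ j := ⟨_, rfl⟩
        rw [inv_pow, ← hm]
        have : e k = k * (m * m) := by rw [hm, hj]; group
        rw [this]; group
    have hq := ih _ hcard (P ⧸ Subgroup.center P) rfl (hP.to_quotient _) hoddq sb tb ?_ ?_ ?_ ?_ ?_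
    · intro k
      have hk : (QuotientGroup.mk (s k) : P ⧸ Subgroup.center P) = QuotientGroup.mk k :=
        hq (QuotientGroup.mk k)
      have hc : k⁻¹ * s k ∈ Subgroup.center P := QuotientGroup.eq.mp hk.symm
      have hc2 := hZs _ hc
      rw [map_mul, map_inv, hss] at hc2
      have h8 : (k⁻¹ * s k) * (k⁻¹ * s k) = 1 := by
        calc (k⁻¹ * s k) * (k⁻¹ * s k) = (k⁻¹ * s k) * ((s k)⁻¹ * k) := by rw [hc2]
          _ = 1 := by group
      have h := hsq1 _ h8
      calc s k = k * (k⁻¹ * s k) := by group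
        _ = k := by rw [h, mul_one]
    · intro x
      induction x using QuotientGroup.induction_on with
      | _ x => rw [hsb, hsb, hss]
    · intro x
      induction x using QuotientGroup.induction_on with
      | _ x => rw [htb, htb, htt]
    · intro x
      induction x using QuotientGroup.induction_on with
      | _ x => rw [htb, hsb, hsb, htb, hst]
    · intro x hx
      induction x using QuotientGroup.induction_on with
      | _ k =>
        rw [htb] at hx
        have hk : k⁻¹ * t k ∈ Subgroup.center P := QuotientGroup.eq.mp hx.symm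
        obtain ⟨k', hk', hfix⟩ := hlift t htt k hk
        have e1 : (QuotientGroup.mk k : P ⧸ Subgroup.center P) = QuotientGroup.mk k' :=
          QuotientGroup.eq.mpr hk'
        rw [e1, hsb, h1 k' hfix]
    · intro x hx
      induction x using QuotientGroup.induction_on with
      | _ k =>
        rw [htb, hsb] at hx
        have hk : k⁻¹ * (t.trans s) k ∈ Subgroup.center P := QuotientGroup.eq.mp hx.symm
        have hee : ∀ x, (t.trans s) ((t.trans s) x) = x := by
          intro x
          show s (t (s (t x))) = x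
          rw [← hst (t x), htt, hss]
        obtain ⟨k', hk', hfix⟩ := hlift (t.trans s) hee k hk
        have e1 : (QuotientGroup.mk k : P ⧸ Subgroup.center P) = QuotientGroup.mk k' :=
          QuotientGroup.eq.mpr hk'
        rw [e1, hsb, h2 k' hfix]

/-- restriction of an involutive action element to an invariant subgroup -/
def restrictEquiv {K : Type*} [Group K] {A : Type*} [Group A] [MulDistribMulAction A K]
    (a : A) (ha : a * a = 1) (P : Subgroup K) (hP : ∀ k ∈ P, a • k ∈ P) : P ≃* P where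
  toFun k := ⟨a • (k : K), hP k k.2⟩
  invFun k := ⟨a • (k : K), hP k k.2⟩
  left_inv k := Subtype.ext (by show a • a • (k : K) = k; rw [smul_smul, ha, one_smul])
  right_inv k := Subtype.ext (by show a • a • (k : K) = k; rw [smul_smul, ha, one_smul])
  map_mul' x y := Subtype.ext (smul_mul' a (x : K) (y : K))

theorem v4_fix {K : Type u} [Group K] [Finite K] (hodd : Odd (Nat.card K))
    {A : Type*} [Group A] [Finite A] (hA : IsPGroup 2 A) [MulDistribMulAction A K]
    (z b : A) (hz : z * z = 1) (hb : b * b = 1) (hzb : z * b = b * z)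
    (h1 : ∀ k : K, b • k = k → z • k = k) (h2 : ∀ k : K, (z * b) • k = k → z • k = k) :
    ∀ k : K, z • k = k := by
  let F : Subgroup K :=
    { carrier := {k | z • k = k}
      mul_mem' := by
        intro x y hx hy
        show z • (x * y) = x * y
        rw [smul_mul', hx, hy]
      one_mem' := smul_one z
      inv_mem' := by
        intro x hx
        show z • x⁻¹ = x⁻¹
        rw [smul_inv', hx] }
  suffices h : F = ⊤ by
    intro k
    have hk : k ∈ F := by rw [h]; trivial
    exact hk
  have hdvd : Nat.card K ∣ Nat.card F := by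
    rw [Nat.dvd_iff_prime_pow_dvd_dvd]
    intro p n hp hpn
    have : Fact p.Prime := ⟨hp⟩
    have : Fact (Nat.Prime 2) := ⟨Nat.prime_two⟩
    have hfix : (MulAction.fixedPoints A (Sylow p K)).Nonempty := by
      have hmod := hA.card_modEq_card_fixedPoints (Sylow p K)
      obtain ⟨P0⟩ : Nonempty (Sylow p K) := inferInstance
      have hd1 : Nat.card (Sylow p K) ∣ Nat.card K :=
        (Sylow.card_dvd_index P0).trans (Subgroup.index_dvd_card _)
      have hoddS : Odd (Nat.card (Sylow p K)) := Odd.of_dvd_nat hodd hd1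
      by_contra hne
      rw [Set.not_nonempty_iff_eq_empty] at hne
      rw [hne] at hmod
      have h0 : Nat.card (∅ : Set (Sylow p K)) = 0 := by simp
      rw [h0] at hmod
      have h3 : Nat.card (Sylow p K) % 2 = 0 := hmod
      rw [Nat.odd_iff] at hoddS
      omega
    obtain ⟨P, hPfix⟩ := hfix
    rw [MulAction.mem_fixedPoints] at hPfix
    have hinvP : ∀ a : A, ∀ k ∈ (P : Subgroup K), a • k ∈ (P : Subgroup K) := by
      intro a k hk
      have h3 : a • k ∈ a • (P : Subgroup K) := Subgroup.smul_mem_pointwise_smul k a _ hk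
      rw [← Sylow.pointwise_smul_def, hPfix a] at h3
      exact h3
    have hPF : (P : Subgroup K) ≤ F := by
      intro k hk
      have hoddP : Odd (Nat.card (P : Subgroup K)) :=
        Odd.of_dvd_nat hodd (Subgroup.card_subgroup_dvd_card _)
      have key := pgroup_case p (Nat.card (P : Subgroup K)) (P : Subgroup K) rfl P.isPGroup' hoddP
        (restrictEquiv z hz (P : Subgroup K) (hinvP z)) (restrictEquiv b hb (P : Subgroup K) (hinvP b)) ?_ ?_ ?_ ?_ ?_ ⟨k, hk⟩
      · exact congrArg Subtype.val key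
      · intro x
        apply Subtype.ext
        show z • z • (x : K) = x
        rw [smul_smul, hz, one_smul]
      · intro x
        apply Subtype.ext
        show b • b • (x : K) = x
        rw [smul_smul, hb, one_smul]
      · intro x
        apply Subtype.ext
        show z • b • (x : K) = b • z • (x : K)
        rw [smul_smul, smul_smul, hzb]
      · intro x hx
        apply Subtype.ext
        exact h1 x (congrArg Subtype.val hx)
      · intro x hx
        apply Subtype.ext
        have hx' : z • b • (x : K) = x := congrArg Subtype.val hx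
        rw [smul_smul] at hx'
        exact h2 x hx'
    have hle : n ≤ (Nat.card K).factorization p :=
      (hp.pow_dvd_iff_le_factorization Nat.card_pos.ne').mp hpn
    calc p ^ n ∣ p ^ (Nat.card K).factorization p := pow_dvd_pow p hle
      _ = Nat.card (P : Subgroup K) := (Sylow.card_eq_multiplicity P).symm
      _ ∣ Nat.card F := Subgroup.card_dvd_of_le hPF
  exact Subgroup.eq_top_of_le_card F (Nat.le_of_dvd Nat.card_pos hdvd)

/-- Let Q be an extraspecial 2-subgroup of the finite group G whose centralizer in G is its centre Z and which is normal in the centralizer of Z. If some involution b of Q outside Z has Z inside the largest normal 2-subgroup of the centralizer of b, then Q is a large extraspecial 2-subgroup of G. -/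
theorem result {G : Type*} [Group G] [Finite G] (Q : Subgroup G) (hL1 : Cfsg.IsExtraspecial 2 ↥Q) (hL2 : Subgroup.centralizer (Q : Set G) = ((Subgroup.center ↥Q).map Q.subtype)) (hL3 : Subgroup.centralizer (((Subgroup.center ↥Q).map Q.subtype) : Set G) ≤ Subgroup.normalizer (Q : Set G)) (b : G) (hbQ : b ∈ Q) (hbZ : b ∉ ((Subgroup.center ↥Q).map Q.subtype)) (hb : orderOf b = 2) (hZ : ((Subgroup.center ↥Q).map Q.subtype) ≤ (Cfsg.pCore 2 ↥(Subgroup.centralizer ({b} : Set G))).map (Subgroup.centralizer ({b} : Set G)).subtype) : Cfsg.IsLargeExtraspecial Q := by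
  refine ⟨hL1, hL2, hL3, ?_⟩
  intro K hKodd hQK
  have : Fact (Nat.Prime 2) := ⟨Nat.prime_two⟩
  have hQp : IsPGroup 2 Q := hL1.1.1
  have hcomm : commutator Q = Subgroup.center Q := hL1.1.2.2
  have hcardZ : Nat.card (Subgroup.center Q) = 2 := hL1.2
  have hZQ : ((Subgroup.center ↥Q).map Q.subtype) ≤ Q := by
    rintro _ ⟨y, -, rfl⟩
    exact y.2
  -- the central involution
  obtain ⟨z', hz'1, hz'u⟩ := (Nat.card_eq_two_iff' (1 : Subgroup.center Q)).mp hcardZ
  have hz'sq : z' * z' = 1 := by
    have h := pow_card_eq_one' (G := Subgroup.center Q) (x := z')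
    rw [hcardZ, pow_two] at h; exact h
  obtain ⟨zQ, hzQ⟩ : ∃ zQ : Q, zQ = (z' : Q) := ⟨_, rfl⟩
  have hzQc : zQ ∈ Subgroup.center Q := by rw [hzQ]; exact z'.2
  have hzQsq : zQ * zQ = 1 := by rw [hzQ]; exact congrArg Subtype.val hz'sq
  have hZel : ∀ c : Q, c ∈ Subgroup.center Q → c = 1 ∨ c = zQ := by
    intro c hc
    by_cases h : c = 1
    · left; exact h
    · right
      have h2 : (⟨c, hc⟩ : Subgroup.center Q) = z' :=
        hz'u _ (fun h' => h (congrArg Subtype.val h'))
      rw [hzQ, ← h2]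
  obtain ⟨bQ, hbQdef⟩ : ∃ bQ : Q, bQ = ⟨b, hbQ⟩ := ⟨_, rfl⟩
  have hbQval : (bQ : G) = b := by rw [hbQdef]
  have hbsq : b * b = 1 := by
    have h := pow_orderOf_eq_one b
    rw [hb, pow_two] at h; exact h
  have hbQsq : bQ * bQ = 1 := by
    apply Subtype.ext
    show (bQ : G) * (bQ : G) = 1
    rw [hbQval, hbsq]
  have hbQnc : bQ ∉ Subgroup.center Q := by
    intro h
    exact hbZ ⟨bQ, h, hbQval⟩
  obtain ⟨q, hq⟩ : ∃ q : Q, q * bQ ≠ bQ * q := by
    by_contra hcon
    push Not at hcon
    exact hbQnc (Subgroup.mem_center_iff.mpr hcon)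
  have hcomm_el : q * bQ * q⁻¹ * bQ⁻¹ = zQ := by
    have hmem : ⁅q, bQ⁆ ∈ commutator Q :=
      Subgroup.commutator_mem_commutator (Subgroup.mem_top q) (Subgroup.mem_top bQ)
    rw [hcomm] at hmem
    rcases hZel _ hmem with h | h
    · exfalso; apply hq
      rw [commutatorElement_def] at h
      calc q * bQ = (q * bQ * q⁻¹ * bQ⁻¹) * (bQ * q) := by group
        _ = bQ * q := by rw [h, one_mul]
    · rw [commutatorElement_def] at h; exact h
  -- G-level facts
  obtain ⟨z, hz⟩ : ∃ z : G, z = (zQ : G) := ⟨_, rfl⟩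
  obtain ⟨c, hc⟩ : ∃ c : G, c = (q : G) := ⟨_, rfl⟩
  have hcQ : c ∈ Q := by rw [hc]; exact q.2
  have hzQmem : z ∈ Q := by rw [hz]; exact zQ.2
  have hzZ : z ∈ (Subgroup.center Q).map Q.subtype := ⟨zQ, hzQc, hz.symm⟩
  have hzcent : ∀ x ∈ Q, x * z = z * x := by
    intro x hx
    have h := Subgroup.mem_center_iff.mp hzQc ⟨x, hx⟩
    rw [hz]; exact congrArg Subtype.val h
  have hqb : c * b * c⁻¹ = z * b := by
    have h := congrArg Subtype.val hcomm_el
    have h' : c * b * c⁻¹ * b⁻¹ = z := by
      rw [hz, hc, ← hbQval]; exact h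
    calc c * b * c⁻¹ = (c * b * c⁻¹ * b⁻¹) * b := by group
      _ = z * b := by rw [h']
  have hZeq : ∀ x ∈ (Subgroup.center Q).map Q.subtype, x = 1 ∨ x = z := by
    rintro _ ⟨x, hx, rfl⟩
    rcases hZel x hx with h | h
    · left; rw [h]; rfl
    · right; rw [h, hz]; rfl
  have hnorm : ∀ x ∈ Q, ∀ k ∈ K, x * k * x⁻¹ ∈ K := by
    intro x hx k hk
    have h := hQK hx
    rw [Subgroup.mem_normalizer_iff] at h
    exact (h k).mp hk
  -- C_K(b) ≤ C(z)
  have h1 : ∀ k ∈ K, b * k * b⁻¹ = k → z * k * z⁻¹ = k := by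
    intro k hk hbk
    obtain ⟨y, hy, hyz⟩ := hZ hzZ
    have hkC : k ∈ Subgroup.centralizer ({b} : Set G) := by
      rw [Subgroup.mem_centralizer_singleton_iff]
      calc k * b = (b * k * b⁻¹) * b := by rw [hbk]
        _ = b * k := by group
    have hn : (Cfsg.pCore 2 ↥(Subgroup.centralizer ({b} : Set G))).Normal :=
      Cfsg.Agent.S5420.pCore_normal 2
    have hm1 : y * (⟨k, hkC⟩ * y⁻¹ * (⟨k, hkC⟩ : Subgroup.centralizer ({b} : Set G))⁻¹) ∈
        Cfsg.pCore 2 ↥(Subgroup.centralizer ({b} : Set G)) :=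
      Subgroup.mul_mem _ hy (hn.conj_mem _ (Subgroup.inv_mem _ hy) _)
    have hT : IsPGroup 2 ((Cfsg.pCore 2 ↥(Subgroup.centralizer ({b} : Set G))).map
        (Subgroup.centralizer ({b} : Set G)).subtype) :=
      (Cfsg.Agent.S5420.pCore_isPGroup 2).map _
    have hm2 : z * k * z⁻¹ * k⁻¹ ∈ (Cfsg.pCore 2 ↥(Subgroup.centralizer ({b} : Set G))).map
        (Subgroup.centralizer ({b} : Set G)).subtype := by
      refine ⟨_, hm1, ?_⟩
      have hyz' : (y : G) = z := hyz
      show (y : G) * (k * (y : G)⁻¹ * k⁻¹) = _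
      rw [hyz']
      group
    have hm3 : z * k * z⁻¹ * k⁻¹ ∈ K := K.mul_mem (hnorm z hzQmem k hk) (K.inv_mem hk)
    have h3 := Cfsg.Agent.S5420.eq_one_of_mem_odd_of_mem_two K _ hKodd hT _ hm3 hm2
    calc z * k * z⁻¹ = (z * k * z⁻¹ * k⁻¹) * k := by group
      _ = k := by rw [h3, one_mul]
  -- C_K(zb) ≤ C(z)
  have h2 : ∀ k ∈ K, (z * b) * k * (z * b)⁻¹ = k → z * k * z⁻¹ = k := by
    intro k hk hzbk
    obtain ⟨d, hd⟩ : ∃ d : G, d = z * b := ⟨_, rfl⟩
    rw [← hd] at hzbk hqb
    have hk' : c⁻¹ * k * c ∈ K := by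
      have h := hnorm c⁻¹ (Q.inv_mem hcQ) k hk
      simpa using h
    have eb : b = c⁻¹ * d * c := by rw [← hqb]; group
    have hbk' : b * (c⁻¹ * k * c) * b⁻¹ = c⁻¹ * k * c := by
      calc b * (c⁻¹ * k * c) * b⁻¹ = (c⁻¹ * d * c) * (c⁻¹ * k * c) * (c⁻¹ * d * c)⁻¹ := by
            rw [← eb]
        _ = c⁻¹ * (d * k * d⁻¹) * c := by group
        _ = c⁻¹ * k * c := by rw [hzbk]
    have h3 := h1 _ hk' hbk'
    have hzq := hzcent c hcQ
    have ez : z = c * z * c⁻¹ := by rw [hzq]; group
    calc z * k * z⁻¹ = (c * z * c⁻¹) * k * (c * z * c⁻¹)⁻¹ := by rw [← ez]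
      _ = c * (z * (c⁻¹ * k * c) * z⁻¹) * c⁻¹ := by group
      _ = k := by rw [h3]; group
  -- the conjugation action of Q on K
  let act : MulDistribMulAction Q K :=
    { smul := fun x k => ⟨(x : G) * (k : G) * (x : G)⁻¹, hnorm x x.2 k k.2⟩
      one_smul := fun k => Subtype.ext (by
        show (1 : G) * (k : G) * (1 : G)⁻¹ = k
        group)
      mul_smul := fun x y k => Subtype.ext (by
        show ((x : G) * (y : G)) * (k : G) * ((x : G) * (y : G))⁻¹ =
          (x : G) * ((y : G) * (k : G) * (y : G)⁻¹) * (x : G)⁻¹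
        group)
      smul_mul := fun x k l => Subtype.ext (by
        show (x : G) * ((k : G) * (l : G)) * (x : G)⁻¹ =
          ((x : G) * (k : G) * (x : G)⁻¹) * ((x : G) * (l : G) * (x : G)⁻¹)
        group)
      smul_one := fun x => Subtype.ext (by
        show (x : G) * (1 : G) * (x : G)⁻¹ = 1
        group) }
  have hsmul : ∀ (x : Q) (k : K), ((x • k : K) : G) = (x : G) * (k : G) * (x : G)⁻¹ :=
    fun x k => rfl
  have hfix := v4_fix hKodd hQp zQ bQ hzQsq hbQsq
    ((Subgroup.mem_center_iff.mp hzQc bQ).symm) ?_ ?_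
  rotate_left
  · intro k hk
    apply Subtype.ext
    rw [hsmul, ← hz]
    have h := congrArg Subtype.val hk
    rw [hsmul, hbQval] at h
    exact h1 k k.2 h
  · intro k hk
    apply Subtype.ext
    rw [hsmul, ← hz]
    have h := congrArg Subtype.val hk
    rw [hsmul] at h
    have e : ((zQ * bQ : Q) : G) = z * b := by
      show (zQ : G) * (bQ : G) = z * b
      rw [hbQval, hz]
    rw [e] at h
    exact h2 k k.2 h
  have hKz : ∀ k ∈ K, z * k * z⁻¹ = k := by
    intro k hk
    have h := congrArg Subtype.val (hfix ⟨k, hk⟩)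
    rw [hsmul, ← hz] at h
    exact h
  rw [eq_bot_iff]
  intro k hk
  rw [Subgroup.mem_bot]
  have hkZ : k ∈ Subgroup.centralizer (((Subgroup.center ↥Q).map Q.subtype) : Set G) := by
    rw [Subgroup.mem_centralizer_iff]
    intro x hx
    rcases hZeq x hx with h | h
    · rw [h, one_mul, mul_one]
    · rw [h]
      have h3 := hKz k hk
      calc z * k = (z * k * z⁻¹) * z := by group
        _ = k * z := by rw [h3]
  have hkN : k ∈ Subgroup.normalizer (Q : Set G) := hL3 hkZ
  rw [Subgroup.mem_normalizer_iff] at hkN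
  have hkQ : k ∈ Subgroup.centralizer (Q : Set G) := by
    rw [Subgroup.mem_centralizer_iff]
    intro x hx
    have h1' : x * k * x⁻¹ * k⁻¹ ∈ K := K.mul_mem (hnorm x hx k hk) (K.inv_mem hk)
    have h2' : x * k * x⁻¹ * k⁻¹ ∈ Q := by
      have e : x * k * x⁻¹ * k⁻¹ = x * (k * x⁻¹ * k⁻¹) := by group
      rw [e]
      exact Q.mul_mem hx ((hkN x⁻¹).mp (Q.inv_mem hx))
    have h3 := Cfsg.Agent.S5420.eq_one_of_mem_odd_of_mem_two K _ hKodd hQp _ h1' h2'
    calc x * k = x * k * x⁻¹ * k⁻¹ * (k * x) := by group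
      _ = k * x := by rw [h3, one_mul]
  rw [hL2] at hkQ
  exact Cfsg.Agent.S5420.eq_one_of_mem_odd_of_mem_two K _ hKodd hQp _ hk (hZQ hkQ)

end Cfsg.Agent.S5421
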