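import Cfsg.Statements.S5433

set_option autoImplicit false
open Cfsg

namespace Cfsg.Agent.S5433

/-- Let Q be a large extraspecial 2-subgroup of the finite group G (extraspecial; centralizer equal to its centre; normal in the centralizer of its centre; normalizing no non-trivial subgroup of odd order), and L a normal subgroup of G containing Q. Then G is the product of L and the normalizer of Q. -/
theorem result {G : Type*} [Group G] [Finite G] (Q : Subgroup G) (hQ : Cfsg.IsLargeExtraspecial Q) (L : Subgroup G) [L.Normal] (hQL : Q ≤ L) : L ⊔ Subgroup.normalizer (Q : Set G) = ⊤ := by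
  have : Fact (Nat.Prime 2) := ⟨Nat.prime_two⟩
  obtain ⟨hE, hC, hN, -⟩ := hQ
  have hQp : IsPGroup 2 Q := hE.1.1
  have hcard : Nat.card (Subgroup.center Q) = 2 := hE.2
  obtain ⟨Z, hZ⟩ : ∃ Z : Subgroup G, Z = (Subgroup.center Q).map Q.subtype := ⟨_, rfl⟩
  rw [← hZ] at hC hN
  have hZcard : Nat.card Z = 2 := by
    rw [hZ, Subgroup.card_map_of_injective (Subgroup.subtype_injective Q)]
    exact hcard
  have hZQ : Z ≤ Q := by
    rw [hZ]
    rintro _ ⟨y, -, rfl⟩
    exact y.2
  have hQLp : IsPGroup 2 (Q.subgroupOf L) := hQp.comap_subtype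
  obtain ⟨P, hP⟩ := hQLp.exists_le_sylow
  obtain ⟨S, hS⟩ : ∃ S : Subgroup G, S = (P : Subgroup L).map L.subtype := ⟨_, rfl⟩
  have hFr : Subgroup.normalizer (S : Set G) ⊔ L = ⊤ := by
    rw [hS]; exact Sylow.normalizer_sup_eq_top P
  have hQS : Q ≤ S := by
    intro q hq
    rw [hS]
    exact ⟨⟨q, hQL hq⟩, hP (by simpa [Subgroup.mem_subgroupOf] using hq), rfl⟩
  have hSp : IsPGroup 2 S := by
    rw [hS]; exact P.2.map L.subtype
  obtain ⟨y, hy⟩ := (Nat.card_eq_two_iff' (1 : Z)).mp hZcard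
  have hSnt : Nontrivial S := by
    refine ⟨⟨⟨y, hQS (hZQ y.2)⟩, 1, ?_⟩⟩
    intro h
    apply hy.1
    ext
    have h' := congrArg (fun s : S => (s : G)) h
    simpa using h'
  have hcnt := hSp.center_nontrivial
  obtain ⟨c, hc1⟩ : ∃ c : Subgroup.center S, c ≠ 1 := exists_ne 1
  obtain ⟨c0, hc0⟩ : ∃ c0 : G, c0 = ((c : S) : G) := ⟨_, rfl⟩
  have hc0S : c0 ∈ S := by rw [hc0]; exact (c : S).2
  have hc0comm : ∀ s ∈ S, s * c0 = c0 * s := by
    intro s hs
    have h := Subgroup.mem_center_iff.mp c.2 ⟨s, hs⟩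
    have h' := congrArg Subtype.val h
    rw [hc0]
    simpa using h'
  have hc0ne : c0 ≠ 1 := by
    intro h
    apply hc1
    ext
    rw [hc0] at h
    simpa using h
  have hmemZ : ∀ x : G, (∀ q ∈ Q, q * x = x * q) → x ∈ Z := by
    intro x hx
    rw [← hC, Subgroup.mem_centralizer_iff]
    exact hx
  have hc0Z : c0 ∈ Z := hmemZ c0 (fun q hq => hc0comm q (hQS hq))
  have hZelts : ∀ z ∈ Z, z = 1 ∨ z = c0 := by
    intro z hz
    by_cases h1 : z = 1
    · exact Or.inl h1
    · right
      have e1 : (⟨z, hz⟩ : Z) = y := hy.2 _ (by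
        intro h; apply h1; exact congrArg Subtype.val h)
      have e2 : (⟨c0, hc0Z⟩ : Z) = y := hy.2 _ (by
        intro h; apply hc0ne; exact congrArg Subtype.val h)
      exact congrArg Subtype.val (e1.trans e2.symm)
  have hNS : Subgroup.normalizer (S : Set G) ≤ Subgroup.normalizer (Q : Set G) := by
    intro g hg
    apply hN
    rw [Subgroup.mem_normalizer_iff''] at hg
    have hgc : g * c0 * g⁻¹ ∈ Z := by
      apply hmemZ
      intro q hq
      have h1 : g⁻¹ * q * g ∈ S := (hg q).mp (hQS hq)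
      have h2 := hc0comm _ h1
      calc q * (g * c0 * g⁻¹) = g * ((g⁻¹ * q * g) * c0) * g⁻¹ := by group
        _ = g * (c0 * (g⁻¹ * q * g)) * g⁻¹ := by rw [h2]
        _ = g * c0 * g⁻¹ * q := by group
    have hgc' : g * c0 * g⁻¹ = c0 := by
      rcases hZelts _ hgc with h | h
      · exfalso
        apply hc0ne
        calc c0 = g⁻¹ * (g * c0 * g⁻¹) * g := by group
          _ = 1 := by rw [h]; group
      · exact h
    rw [Subgroup.mem_centralizer_iff]
    intro z hz
    rcases hZelts z hz with h | h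
    · rw [h]; simp
    · rw [h]
      calc c0 * g = (g * c0 * g⁻¹) * g := by rw [hgc']
        _ = g * c0 := by group
  rw [eq_top_iff, ← hFr, sup_comm]
  exact sup_le_sup_left hNS L

end Cfsg.Agent.S5433
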