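import Cfsg.Statements.S1184
-- import your own Cfsg.Agent.* helpers here
import Mathlib
import Cfsg.Agent.Lib.helper6.Isolated

set_option autoImplicit false
open Cfsg

namespace Cfsg.Agent.S1184

open Cfsg.Agent.Lib.helper6

theorem conj_pow_inv_or {G : Type*} [Group G] (w c : G) (hw : w * c * w⁻¹ = c⁻¹) (n : ℕ) :
    w ^ n * c * (w ^ n)⁻¹ = c ∨ w ^ n * c * (w ^ n)⁻¹ = c⁻¹ := by
  induction n with
  | zero => left; simp
  | succ n ih =>
    have e : w ^ (n + 1) * c * (w ^ (n + 1))⁻¹ = w * (w ^ n * c * (w ^ n)⁻¹) * w⁻¹ := by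
      rw [pow_succ']; group
    rcases ih with h | h
    · right; rw [e, h, hw]
    · left
      rw [e, h]
      have : w * c⁻¹ * w⁻¹ = (w * c * w⁻¹)⁻¹ := by group
      rw [this, hw, inv_inv]

/-- Let z be an isolated involution of the finite group G. If s and t are distinct conjugates of z, then st does not commute with z. -/
theorem result {G : Type*} [Group G] [Finite G] (z : G) (hz : Cfsg.IsIsolatedInvolution z) (g h : G) (hne : g * z * g⁻¹ ≠ h * z * h⁻¹) : ¬ Commute (g * z * g⁻¹ * (h * z * h⁻¹)) z := by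
  intro hcz
  have hz1 := iso_mul_self hz
  have hzi : z⁻¹ = z := inv_eq_self_of_mul_self hz1
  have hs := iso_conj hz g
  have hs1 := conj_mul_self hz1 g
  have ht1 := conj_mul_self hz1 h
  have hsi : (g * z * g⁻¹)⁻¹ = g * z * g⁻¹ := inv_eq_self_of_mul_self hs1
  have hti : (h * z * h⁻¹)⁻¹ = h * z * h⁻¹ := inv_eq_self_of_mul_self ht1
  obtain ⟨m, -, hc⟩ := iso_exists_conj hz g
  generalize hsdef : g * z * g⁻¹ = s at *
  generalize htdef : h * z * h⁻¹ = t at *
  -- s inverts c = s * t
  have hsc : s * (s * t) * s⁻¹ = (s * t)⁻¹ := by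
    rw [mul_inv_rev, hsi, hti, ← mul_assoc, hs1, one_mul]
  -- c is not its own inverse
  have hcne : s * t ≠ (s * t)⁻¹ := by
    intro heq
    rw [mul_inv_rev, hsi, hti] at heq
    have hcomm : Commute s t := heq
    have ht_conj : t = (h * g⁻¹) * s * (h * g⁻¹)⁻¹ := by
      rw [← hsdef, ← htdef]; group
    rw [ht_conj] at hcomm
    have := hs.2 _ hcomm
    rw [← ht_conj] at this
    exact hne this.symm
  -- w = s * z inverts c
  have hzc : z * (s * t) * z⁻¹ = s * t := by
    have := hcz.eq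
    rw [hzi]
    calc z * (s * t) * z = z * ((s * t) * z) := by rw [mul_assoc]
      _ = z * (z * (s * t)) := by rw [this]
      _ = s * t := by rw [← mul_assoc, hz1, one_mul]
  have hwc : (s * z) * (s * t) * (s * z)⁻¹ = (s * t)⁻¹ := by
    have : (s * z) * (s * t) * (s * z)⁻¹ = s * (z * (s * t) * z⁻¹) * s⁻¹ := by group
    rw [this, hzc, hsc]
  have hj := conj_pow_inv_or (s * z) (s * t) hwc (m + 1)
  generalize hjdef : (s * z) ^ (m + 1) = j at *
  -- s = j z j⁻¹ commutes with j c j⁻¹
  have hcomm2 : Commute (j * z * j⁻¹) (j * (s * t) * j⁻¹) := (Commute.conj_iff j).mpr hcz.symm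
  rw [hc] at hcomm2
  have hcomm3 : Commute s (s * t) := by
    rcases hj with h1 | h1
    · rw [h1] at hcomm2; exact hcomm2
    · rw [h1] at hcomm2; exact (Commute.inv_right_iff).mp hcomm2
  apply hcne
  rw [← hsc]
  have := hcomm3.eq
  rw [this, mul_assoc, mul_inv_cancel, mul_one]

end Cfsg.Agent.S1184
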