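import Cfsg.Statements.S1185
-- import your own Cfsg.Agent.* helpers here
import Mathlib
import Cfsg.Agent.Lib.helper6.Isolated

set_option autoImplicit false
open Cfsg

namespace Cfsg.Agent.S1185

open Cfsg.Agent.Lib.helper6

theorem eq_of_sq_eq_of_odd {G : Type*} [Group G] {a b : G} (ha : Odd (orderOf a))
    (hb : Odd (orderOf b)) (h : a * a = b * b) : a = b := by
  obtain ⟨e, he⟩ := ha.mul hb
  have ha1 : a ^ (2 * e + 1) = 1 := by
    rw [← he, pow_mul, pow_orderOf_eq_one, one_pow]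
  have hb1 : b ^ (2 * e + 1) = 1 := by
    rw [← he, mul_comm, pow_mul, pow_orderOf_eq_one, one_pow]
  have ha2 : a = (a * a) ^ (e + 1) := by
    rw [← sq, ← pow_mul]
    have : 2 * (e + 1) = (2 * e + 1) + 1 := by ring
    rw [this, pow_succ, ha1, one_mul]
  have hb2 : b = (b * b) ^ (e + 1) := by
    rw [← sq, ← pow_mul]
    have : 2 * (e + 1) = (2 * e + 1) + 1 := by ring
    rw [this, pow_succ, hb1, one_mul]
  rw [ha2, hb2, h]

theorem sq_of_inverted {G : Type*} [Group G] {z k g : G} (hz : z * z = 1)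
    (hinv : z * k * z⁻¹ = k⁻¹) (hcen : g⁻¹ * k ∈ Subgroup.centralizer ({z} : Set G)) :
    k * k = g * z * g⁻¹ * z := by
  have hzi : z⁻¹ = z := inv_eq_self_of_mul_self hz
  have h1 : z * (g⁻¹ * k) = (g⁻¹ * k) * z := Subgroup.mem_centralizer_iff.mp hcen z rfl
  have h2 : g * z * g⁻¹ = k * z * k⁻¹ := by
    have : g * z * g⁻¹ = g * (z * (g⁻¹ * k)) * k⁻¹ := by group
    rw [this, h1]; group
  have h3 : z * k⁻¹ * z⁻¹ = k := by
    have : z * k⁻¹ * z⁻¹ = (z * k * z⁻¹)⁻¹ := by group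
    rw [this, hinv, inv_inv]
  rw [h2]
  calc k * k = k * (z * k⁻¹ * z⁻¹) := by rw [h3]
    _ = k * z * k⁻¹ * z := by rw [hzi]; group

/-- Let z be an isolated involution of the finite group G with centralizer C. Then for every g ∈ G there is exactly one element k in the coset gC that has odd order and is inverted by z. -/
theorem result {G : Type*} [Group G] [Finite G] (z : G) (hz : Cfsg.IsIsolatedInvolution z) (g : G) : ∃! k : G, (Odd (orderOf k) ∧ z * k * z⁻¹ = k⁻¹) ∧ g⁻¹ * k ∈ Subgroup.centralizer ({z} : Set G) := by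
  have hz1 := iso_mul_self hz
  have hzi : z⁻¹ = z := inv_eq_self_of_mul_self hz1
  have hu1 := conj_mul_self hz1 g
  have hui : (g * z * g⁻¹)⁻¹ = g * z * g⁻¹ := inv_eq_self_of_mul_self hu1
  obtain ⟨m, h1, hc⟩ := iso_exists_conj hz g
  have huz : (g * z * g⁻¹) * z = (z * (g * z * g⁻¹))⁻¹ := by rw [mul_inv_rev, hui, hzi]
  have huz1 : ((g * z * g⁻¹) * z) ^ (2 * m + 1) = 1 := by rw [huz, inv_pow, h1, inv_one]
  have hkodd : Odd (orderOf (((g * z * g⁻¹) * z) ^ (m + 1))) := by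
    have hd1 : orderOf (((g * z * g⁻¹) * z) ^ (m + 1)) ∣ orderOf ((g * z * g⁻¹) * z) :=
      orderOf_pow_dvd _
    have hd2 : orderOf ((g * z * g⁻¹) * z) ∣ 2 * m + 1 := orderOf_dvd_of_pow_eq_one huz1
    exact Odd.of_dvd_nat ⟨m, rfl⟩ (hd1.trans hd2)
  have hkinv : z * ((g * z * g⁻¹) * z) ^ (m + 1) * z⁻¹ = (((g * z * g⁻¹) * z) ^ (m + 1))⁻¹ := by
    rw [← conj_pow, ← inv_pow]
    congr 1
    rw [mul_inv_rev, hui, hzi]
    simp only [mul_assoc]
    rw [hz1, mul_one]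
  have hkcen : g⁻¹ * ((g * z * g⁻¹) * z) ^ (m + 1) ∈ Subgroup.centralizer ({z} : Set G) := by
    rw [Subgroup.mem_centralizer_iff]
    intro x hx
    rw [Set.mem_singleton_iff] at hx
    subst hx
    generalize ((g * x * g⁻¹) * x) ^ (m + 1) = j at hc ⊢
    calc x * (g⁻¹ * j) = g⁻¹ * (g * x * g⁻¹) * j := by group
      _ = g⁻¹ * (j * x * j⁻¹) * j := by rw [hc]
      _ = g⁻¹ * j * x := by group
  refine ⟨((g * z * g⁻¹) * z) ^ (m + 1), ⟨⟨hkodd, hkinv⟩, hkcen⟩, ?_⟩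
  rintro k' ⟨⟨hk'odd, hk'inv⟩, hk'cen⟩
  apply eq_of_sq_eq_of_odd hk'odd hkodd
  rw [sq_of_inverted hz1 hk'inv hk'cen, sq_of_inverted hz1 hkinv hkcen]

end Cfsg.Agent.S1185
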