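import Cfsg.Statements.S1613

import Cfsg.Agent.Lib.helper8.Fischer
set_option autoImplicit false
open Cfsg

namespace Cfsg.Agent.S1613

open Cfsg.Agent.Lib.helper8

/-- For a transposition x of a Fischer 3-transposition group, the transpositions commuting with x (other than x) form one conjugacy class of the subgroup they generate. -/
theorem result {G : Type*} [Group G] [Finite G] (hsol : ∀ N : Subgroup G, N.Normal → Group.IsSolvable ↥N → N = ⊥) (hperf : ⁅commutator G, commutator G⁆ = commutator G) {D : Set G} (hD : Cfsg.IsThreeTranspositionClass D) (x : G) (hx : x ∈ D) : ∀ y ∈ {y : G | y ∈ D ∧ y ≠ x ∧ Commute x y}, ∀ y' ∈ {y : G | y ∈ D ∧ y ≠ x ∧ Commute x y}, ∃ g ∈ Subgroup.closure {y : G | y ∈ D ∧ y ≠ x ∧ Commute x y}, g * y * g⁻¹ = y' := by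

  classical
  intro y hy y' hy'
  show y' ∈ ttOrb D x y
  have hs := hD.1
  have hcl := tt_class_closed hD
  have hTW : ∀ p ∈ D, ∀ c ∈ D, (∀ d ∈ D, Commute d p → Commute d c) → p = c :=
    fun p hp c hc h => fischer_no_twins hsol hperf hD hp hc h
  obtain ⟨⟨p₀, y₀⟩, ⟨hp₀, hy₀⟩, hmax0⟩ := Set.exists_max_image
    {pr : G × G | pr.1 ∈ D ∧ pr.2 ∈ ttDc D pr.1} (fun pr => (ttOrb D pr.1 pr.2).ncard)
    (Set.toFinite _) ⟨(x, y), hx, hy⟩
  obtain ⟨m, hm⟩ : ∃ m : ℕ, m = (ttOrb D p₀ y₀).ncard := ⟨_, rfl⟩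
  have hmax : ∀ p ∈ D, ∀ z ∈ ttDc D p, (ttOrb D p z).ncard ≤ m := by
    intro p hp z hz
    rw [hm]
    exact hmax0 (p, z) ⟨hp, hz⟩
  have hFne : ∀ p ∈ D, ∃ z, z ∈ ttF D m p := by
    intro p hp
    obtain ⟨g, rfl⟩ := tt_class_trans hD hp₀ hp
    refine ⟨g * y₀ * g⁻¹, ?_⟩
    rw [ttF_conj hcl m g p₀]
    exact ⟨y₀, ⟨hy₀, hm.symm⟩, rfl⟩
  have hFinj : ∀ p ∈ D, ∀ q ∈ D, ttF D m p = ttF D m q → p = q := by
    intro p hp q hq hpq
    by_contra hne
    have hrFe : Equivalence (fun a b : G => ttF D m a = ttF D m b) :=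
      ⟨fun a => rfl, fun h => h.symm, fun h1 h2 => h1.trans h2⟩
    have hrFi : ∀ g a b : G, (fun a b : G => ttF D m a = ttF D m b) a b →
        (fun a b : G => ttF D m a = ttF D m b) (g * a * g⁻¹) (g * b * g⁻¹) := by
      intro g a b h
      show ttF D m (g * a * g⁻¹) = ttF D m (g * b * g⁻¹)
      rw [ttF_conj hcl m g a, ttF_conj hcl m g b]
      exact congrArg _ h
    have huniv := fischer_primitive hsol hperf hD hrFe hrFi hp hq hne hpq
    obtain ⟨z, hz⟩ := hFne x hx
    have h1 : ttF D m z = ttF D m x := huniv z hz.1.1 x hx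
    have h2 : z ∈ ttF D m z := by rw [h1]; exact hz
    exact h2.1.2.1 rfl
  have h33 : ∀ p ∈ D, ∀ q ∈ D, (∀ z ∈ ttF D m p, Commute q z) → q = p := by
    intro p hp q hq hall
    have horbF : ∀ z ∈ ttF D m p, ∀ w ∈ ttOrb D p z, w ∈ ttF D m p := by
      intro z hz w hw
      refine ⟨ttOrb_sub hcl hz.1 hw, ?_⟩
      rw [ttOrb_eq hw]; exact hz.2
    have hqnot : ∀ z ∈ ttF D m p, q ∉ ttOrb D p z := by
      intro z hz hqz
      have hqF : q ∈ ttF D m p := horbF z hz q hqz
      have hqall : ∀ b ∈ ttDc D p, Commute q b := by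
        intro b hb
        by_cases hbF : b ∈ ttF D m p
        · exact hall b hbF
        · by_contra hnc
          have h1 : b ∈ ttOrb D p q := ttOrb_adj hs hqF.1 hb hnc
          exact hbF (horbF q hqF b h1)
      have hpq : p = q := by
        apply hTW p hp q hq
        intro d hd hdp
        by_cases hdp' : d = p
        · rw [hdp']; exact hqF.1.2.2
        · exact (hqall d ⟨hd, hdp', hdp.symm⟩).symm
      exact hqF.1.2.1 hpq.symm
    have hsub : ttF D m p ⊆ ttF D m q := by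
      intro z hz
      have h1 := ttOrb_max_transfer hs hcl hz.1 hz.2 (hmax q hq)
        (fun w hw => hall w (horbF z hz w hw)) (hqnot z hz)
      have hzq : z ∈ ttDc D q := by
        refine ⟨hz.1.1, ?_, hall z hz⟩
        intro h
        apply hqnot z hz
        rw [← h]; exact ttOrb_refl p z
      refine ⟨hzq, ?_⟩
      rw [h1]; exact hz.2
    have hcard : (ttF D m q).ncard ≤ (ttF D m p).ncard := by
      obtain ⟨g, rfl⟩ := tt_class_trans hD hp hq
      exact le_of_eq (ttF_ncard_conj hcl m g p)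
    have heq := Set.eq_of_subset_of_ncard_le hsub hcard (Set.toFinite _)
    exact (hFinj p hp q hq heq).symm
  have h34 : ∀ p ∈ D, ∀ b ∈ ttDc D p, b ∈ ttF D m p := by
    intro p hp b hb
    by_contra hbF
    have hall : ∀ z ∈ ttF D m p, Commute b z := by
      intro z hz
      by_contra hnc
      have h1 : b ∈ ttOrb D p z := ttOrb_adj hs hz.1 hb (fun h => hnc h.symm)
      apply hbF
      refine ⟨hb, ?_⟩
      rw [ttOrb_eq h1]; exact hz.2
    exact hb.2.1 (h33 p hp b hb.1 hall)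
  by_contra hne
  have hsubc : ∀ z ∈ D, ¬ Commute z x → ∀ b ∈ ttDc D x, Commute z b →
      ∀ c ∈ ttDc D x, c ∉ ttOrb D x b → Commute z c := by
    intro z hz hzx b hb hzb c hc hcb
    by_contra hzc
    have hcF := h34 x hx c hc
    have hbcomm : ∀ w ∈ ttOrb D x c, Commute b w := by
      intro w hw
      by_contra hnc
      have hwS : w ∈ ttDc D x := ttOrb_sub hcl hc hw
      have h1 : w ∈ ttOrb D x b := ttOrb_adj hs hb hwS hnc
      exact hcb (ttOrb_trans h1 (ttOrb_symm hw))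
    have hbnot : b ∉ ttOrb D x c := fun h => hcb (ttOrb_symm h)
    have h1 := ttOrb_max_transfer hs hcl hc hcF.2 (hmax b hb.1) hbcomm hbnot
    have hzb' : z ∈ ttDc D b := by
      refine ⟨hz, ?_, hzb.symm⟩
      intro h
      apply hzx
      rw [h]; exact hb.2.2.symm
    have hcb' : c ∈ ttDc D b := by
      refine ⟨hc.1, ?_, hbcomm c (ttOrb_refl x c)⟩
      intro h
      apply hbnot
      rw [← h]; exact ttOrb_refl x c
    have h2 : z ∈ ttOrb D b c := ttOrb_adj hs hcb' hzb' (fun h => hzc h.symm)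
    rw [h1] at h2
    have h3 : z ∈ ttDc D x := ttOrb_sub hcl hc h2
    exact hzx h3.2.2.symm
  have hZ : ∀ z ∈ D, ¬ Commute z x → ∀ b ∈ ttDc D x, ¬ Commute z b := by
    intro z hz hzx b hb hzb
    obtain ⟨c₀, hc₀, hc₀b⟩ : ∃ c₀ ∈ ttDc D x, c₀ ∉ ttOrb D x b := by
      by_cases hyb : y ∈ ttOrb D x b
      · refine ⟨y', hy', ?_⟩
        intro hy'b
        exact hne (ttOrb_trans (ttOrb_symm hyb) hy'b)
      · exact ⟨y, hy, hyb⟩
    have hzc₀ : Commute z c₀ := hsubc z hz hzx b hb hzb c₀ hc₀ hc₀b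
    have hall : ∀ c ∈ ttDc D x, Commute z c := by
      intro c hc
      by_cases hcb : c ∈ ttOrb D x b
      · apply hsubc z hz hzx c₀ hc₀ hzc₀ c hc
        intro hcc₀
        exact hc₀b (ttOrb_trans hcb (ttOrb_symm hcc₀))
      · exact hsubc z hz hzx b hb hzb c hc hcb
    have hzx' : z = x := h33 x hx z hz (fun w hw => hall w hw.1)
    apply hzx
    rw [hzx']
  have hyx : y = x := by
    apply hTW y hy.1 x hx
    intro d hd hdy
    by_contra hdx
    exact hZ d hd hdx y hy hdy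
  exact hy.2.1 hyx

end Cfsg.Agent.S1613
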