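import Cfsg.Statements.S0010
import Mathlib

set_option autoImplicit false
open Pointwise
open Cfsg

namespace Cfsg.Agent.S0010

theorem mem_smul_iff {G : Type*} [Group G] {p : ℕ} (P : Sylow p G) (x y : G) :
    y ∈ (x • P : Sylow p G) ↔ x⁻¹ * y * x ∈ P := by
  change y ∈ MulAut.conj x • (P : Subgroup G) ↔ _
  rw [Subgroup.mem_pointwise_smul_iff_inv_smul_mem]
  simp [MulAut.smul_def]
  exact Iff.rfl

theorem iInf_sylow_normal {G : Type*} [Group G] (p : ℕ) :
    (⨅ P : Sylow p G, (P : Subgroup G)).Normal := by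
  constructor
  intro n hn g
  rw [Subgroup.mem_iInf] at hn ⊢
  intro Q
  have h := hn (g⁻¹ • Q)
  have h' : n ∈ (g⁻¹ • Q : Sylow p G) := h
  rw [mem_smul_iff] at h'
  simp only [inv_inv] at h'
  exact h'

theorem result {G : Type*} [Group G] [Finite G] (p : ℕ) [Fact p.Prime] :
    Cfsg.pCore p G = ⨅ P : Sylow p G, (P : Subgroup G) := by
  apply le_antisymm
  · apply sSup_le
    rintro N ⟨hNn, hNp⟩
    apply le_iInf
    intro P
    exact hNp.le_sylow_of_normal P
  · apply le_sSup
    refine ⟨iInf_sylow_normal p, ?_⟩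
    obtain ⟨P⟩ : Nonempty (Sylow p G) := inferInstance
    exact P.isPGroup'.to_le (iInf_le _ P)

end Cfsg.Agent.S0010
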