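import Cfsg.Statements.S0011
import Mathlib

set_option autoImplicit false
open Pointwise
open Cfsg

namespace Cfsg.Agent.S0011

theorem result {G : Type*} [Group G] [Finite G]
    (h : Group.IsNilpotent (G ⧸ frattini G)) : Group.IsNilpotent G := by
  have tfae := Group.isNilpotent_of_finite_tfae (G := G)
  refine (tfae.out 0 3).mpr ?_
  intro p hp P
  have hsurj : Function.Surjective (QuotientGroup.mk' (frattini G)) :=
    QuotientGroup.mk'_surjective _
  have hPbar : ((P.mapSurjective hsurj : Sylow p (G ⧸ frattini G)) : Subgroup (G ⧸ frattini G)).Normal :=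
    inferInstance
  rw [Sylow.coe_mapSurjective] at hPbar
  have hK : ((P : Subgroup G) ⊔ frattini G).Normal := by
    have h1 := hPbar.comap (QuotientGroup.mk' (frattini G))
    rwa [Subgroup.comap_map_eq, QuotientGroup.ker_mk'] at h1
  have h2 := Sylow.normalizer_sup_eq_top' P (le_sup_left : (P : Subgroup G) ≤ (P : Subgroup G) ⊔ frattini G)
  have h3 : Subgroup.normalizer ((P : Subgroup G) : Set G) ⊔ frattini G = ⊤ := by
    rw [eq_top_iff, ← h2]
    apply sup_le le_sup_left
    apply sup_le (le_trans Subgroup.le_normalizer le_sup_left) le_sup_right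
  have h4 := frattini_nongenerating h3
  exact Subgroup.normalizer_eq_top_iff.mp h4

end Cfsg.Agent.S0011
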