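import Cfsg.Statements.S0018
import Mathlib
import Cfsg.Agent.S0017
import Cfsg.Agent.Lib.helper1.Factor
import Cfsg.Agent.Lib.helper9.PPrimeCore

set_option autoImplicit false
open Cfsg

namespace Cfsg.Agent.S0018

open Cfsg.Agent.Lib.helper1

/-- A finite solvable group whose Sylow p-subgroups are abelian has p-length one: a Sylow p-subgroup together with the largest normal subgroup of order prime to p generates a normal subgroup. -/
theorem result {G : Type*} [Group G] [Finite G] [Group.IsSolvable G]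
    (p : ℕ) [Fact p.Prime] (P : Sylow p G) (hP : IsMulCommutative P) :
    ((P : Subgroup G) ⊔ Cfsg.pPrimeCore p G).Normal := by
  set N := Cfsg.pPrimeCore p G with hN
  haveI hNn : N.Normal := Cfsg.Agent.Lib.helper9.ppc_normal p G
  set π := QuotientGroup.mk' N with hπ
  have hπs : Function.Surjective π := QuotientGroup.mk'_surjective N
  haveI : Group.IsSolvable (G ⧸ N) := Group.isSolvable_of_surjective hπs
  have hbot : Cfsg.pPrimeCore p (G ⧸ N) = ⊥ := Cfsg.Agent.Lib.helper9.pPrimeCore_quotient_eq_bot p G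
  have hHH := Cfsg.Agent.S0017.result (G := G ⧸ N) p hbot
  set Pb := (P : Subgroup G).map π with hPb
  set O := Cfsg.pCore p (G ⧸ N) with hO
  haveI hOn : O.Normal := pCore_normal p (G ⧸ N)
  have hOp : IsPGroup p O := pCore_isPGroup p (G ⧸ N)
  have hidx : ¬ p ∣ Pb.index := fun h => P.not_dvd_index (h.trans (Subgroup.index_map_dvd _ hπs))
  obtain ⟨g, hg⟩ := exists_conj_mem_of_not_dvd_index p O Pb hOp hidx
  have hOle : O ≤ Pb := by
    intro m hm
    have h1 : g * m * g⁻¹ ∈ O := hOn.conj_mem m hm g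
    have h2 := hg _ h1
    have e : g⁻¹ * (g * m * g⁻¹) * g = m := by group
    rwa [e] at h2
  have hPbc : ∀ a ∈ Pb, ∀ b ∈ Pb, a * b = b * a := by
    intro a ha b hb
    obtain ⟨a', ha', rfl⟩ := Subgroup.mem_map.mp ha
    obtain ⟨b', hb', rfl⟩ := Subgroup.mem_map.mp hb
    have := congrArg Subtype.val (mul_comm' (⟨a', ha'⟩ : (P : Subgroup G)) ⟨b', hb'⟩)
    have h2 : a' * b' = b' * a' := this
    rw [← map_mul, ← map_mul, h2]
  have hPbO : Pb ≤ O := by
    intro a ha
    apply hHH
    rw [Subgroup.mem_centralizer_iff]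
    intro b hb
    exact hPbc b (hOle hb) a ha
  have heq : Pb = O := le_antisymm hPbO hOle
  have hcomap : Pb.comap π = (P : Subgroup G) ⊔ N := by
    rw [hPb, Subgroup.comap_map_eq, hπ, QuotientGroup.ker_mk']
  rw [← hcomap, heq]
  exact hOn.comap π

end Cfsg.Agent.S0018
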