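import Cfsg.Statements.S0020
import Mathlib
import Cfsg.Agent.Lib.helper1.Hall
import Cfsg.Agent.S0007

set_option autoImplicit false
open Cfsg
open Pointwise

namespace Cfsg.Agent.S0020

open Cfsg.Agent.Lib.helper1

universe u

/-- If `H, K ≤ T` have coprime relative indices in `T` then `H * K = T` as sets. -/
theorem mul_eq_of_coprime_relIndex {G : Type*} [Group G] [Finite G] (H K T : Subgroup G)
    (hH : H ≤ T) (hK : K ≤ T) (hcop : (H.relIndex T).Coprime (K.relIndex T)) :
    (H : Set G) * (K : Set G) = (T : Set G) := by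
  apply Set.Subset.antisymm
  · rintro _ ⟨x, hx, y, hy, rfl⟩
    exact T.mul_mem (hH hx) (hK hy)
  · intro t ht
    obtain ⟨x, hx, y, hy, hxy⟩ := Cfsg.Agent.S0007.exists_mul_of_coprime
      (H.subgroupOf T) (K.subgroupOf T) hcop ⟨t, ht⟩
    refine Set.mem_mul.mpr ⟨x, Subgroup.mem_subgroupOf.mp hx, y, Subgroup.mem_subgroupOf.mp hy, ?_⟩
    have := congrArg Subtype.val hxy
    simpa using this.symm

/-- Existence of Hall `p`-complements in a finite solvable group. -/
theorem exists_hall_compl {G : Type u} [Group G] [Finite G] [Group.IsSolvable G] (p : ℕ)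
    (hp : p.Prime) : ∃ H : Subgroup G, H.index = p ^ (Nat.card G).factorization p := by
  set n := Nat.card G with hn
  have hn0 : n ≠ 0 := Nat.card_pos.ne'
  have hdvd : p ^ n.factorization p ∣ n := Nat.ordProj_dvd n p
  have hmul : n = (n / p ^ n.factorization p) * p ^ n.factorization p :=
    (Nat.div_mul_cancel hdvd).symm
  have hcop : (n / p ^ n.factorization p).Coprime (p ^ n.factorization p) :=
    (Nat.Coprime.pow_left _ (Nat.coprime_ordCompl hp hn0)).symm
  obtain ⟨H, hH⟩ := hall_exists (G := G) _ _ hmul hcop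
  refine ⟨H, ?_⟩
  have h1 : Nat.card H * H.index = n := Subgroup.card_mul_index H
  rw [hH] at h1
  have hpos : 0 < n / p ^ n.factorization p := by
    rcases Nat.eq_zero_or_pos (n / p ^ n.factorization p) with h0 | h0
    · rw [h0, zero_mul] at hmul; exact absurd hmul hn0
    · exact h0
  apply Nat.eq_of_mul_eq_mul_left hpos
  rw [h1]; exact hmul

/-- A finite solvable group admits a Sylow system: Sylow subgroups, one for each prime, that pairwise permute as sets. -/
theorem result {G : Type*} [Group G] [Finite G] [Group.IsSolvable G] :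
    ∃ S : (p : Nat.Primes) → Sylow (p : ℕ) G,
      ∀ p q : Nat.Primes, (S p : Set G) * (S q : Set G) = (S q : Set G) * (S p : Set G) := by
  classical
  set n := Nat.card G with hn
  have hn0 : n ≠ 0 := Nat.card_pos.ne'
  set v : ℕ → ℕ := fun q => n.factorization q with hv
  -- Hall complements
  have hex : ∀ q : ℕ, ∃ H : Subgroup G, q.Prime → H.index = q ^ v q := by
    intro q
    by_cases hq : q.Prime
    · obtain ⟨H, hH⟩ := exists_hall_compl (G := G) q hq
      exact ⟨H, fun _ => hH⟩
    · exact ⟨⊤, fun h => absurd h hq⟩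
  choose Hc hHc using hex
  set π := n.primeFactors with hπ
  -- intersections
  set I : Finset ℕ → Subgroup G := fun s => ⨅ q ∈ s, Hc q with hI
  set idx : Finset ℕ → ℕ := fun s => ∏ q ∈ s, q ^ v q with hidx
  have hIidx : ∀ s : Finset ℕ, (∀ q ∈ s, q.Prime) → (I s).index = idx s := by
    intro s
    induction s using Finset.induction_on with
    | empty =>
      intro _
      simp [hI, hidx]
    | insert a s ha ih =>
      intro hs
      have hsa : a.Prime := hs a (Finset.mem_insert_self a s)
      have hs' : ∀ q ∈ s, q.Prime := fun q hq => hs q (Finset.mem_insert_of_mem hq)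
      have e1 : I (insert a s) = Hc a ⊓ I s := by
        simp only [hI]
        rw [Finset.iInf_insert]
      have e2 : idx (insert a s) = a ^ v a * idx s := by
        simp only [hidx]
        rw [Finset.prod_insert ha]
      rw [e1, e2, Cfsg.Agent.S0007.index_inf_of_coprime, hHc a hsa, ih hs']
      rw [hHc a hsa, ih hs']
      simp only [hidx]
      apply Nat.Coprime.prod_right
      intro q hq
      apply Nat.Coprime.pow
      rw [Nat.coprime_primes hsa (hs' q hq)]
      rintro rfl
      exact ha hq
  have hImono : ∀ s t : Finset ℕ, s ⊆ t → I t ≤ I s := by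
    intro s t hst
    simp only [hI]
    exact le_iInf₂ (fun q hq => iInf₂_le q (hst hq))
  have hπprime : ∀ q ∈ π, q.Prime := fun q hq => Nat.prime_of_mem_primeFactors hq
  have hidxπ : idx π = n := by
    have := Nat.prod_factorization_pow_eq_self hn0
    rw [Finsupp.prod, Nat.support_factorization] at this
    exact this
  have hv0 : ∀ r : ℕ, r ∉ π → v r = 0 := by
    intro r hr
    simp only [hv]
    rw [← Finsupp.notMem_support_iff, Nat.support_factorization]
    exact hr
  have herase : ∀ (s : Finset ℕ) (r : ℕ), (r ∈ s ∨ v r = 0) → idx s = r ^ v r * idx (s.erase r) := by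
    intro s r hr
    by_cases hrs : r ∈ s
    · simp only [hidx]
      rw [Finset.mul_prod_erase s (fun q => q ^ v q) hrs]
    · have h0 : v r = 0 := hr.resolve_left hrs
      rw [Finset.erase_eq_of_notMem hrs, h0, pow_zero, one_mul]
  have hpos : ∀ s : Finset ℕ, (∀ q ∈ s, q.Prime) → 0 < idx s := by
    intro s hs
    rw [← hIidx s hs]
    exact Nat.pos_of_ne_zero Subgroup.index_ne_zero_of_finite
  have hsub1 : ∀ p : ℕ, ∀ q ∈ π.erase p, q.Prime := fun p q hq =>
    hπprime q (Finset.mem_of_mem_erase hq)
  have hsub2 : ∀ p r : ℕ, ∀ q ∈ (π.erase p).erase r, q.Prime := fun p r q hq =>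
    hsub1 p q (Finset.mem_of_mem_erase hq)
  have hcardS : ∀ p : ℕ, Nat.card (I (π.erase p)) = p ^ v p := by
    intro p
    have h1 : Nat.card (I (π.erase p)) * (I (π.erase p)).index = n := Subgroup.card_mul_index _
    rw [hIidx _ (hsub1 p)] at h1
    have h2 : idx π = p ^ v p * idx (π.erase p) := herase π p (by
      by_cases hp : p ∈ π
      · exact Or.inl hp
      · exact Or.inr (hv0 p hp))
    rw [hidxπ] at h2
    apply Nat.eq_of_mul_eq_mul_right (hpos _ (hsub1 p))
    rw [h1, h2]
  let S : (p : Nat.Primes) → Sylow (p : ℕ) G := fun p =>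
    haveI : Fact (p : ℕ).Prime := ⟨p.2⟩
    Sylow.ofCard (I (π.erase p)) (hcardS p)
  have hS : ∀ p : Nat.Primes, ((S p : Subgroup G)) = I (π.erase p) := fun p => rfl
  refine ⟨S, ?_⟩
  intro p q
  by_cases hpq : p = q
  · rw [hpq]
  · have hpq' : (p : ℕ) ≠ q := fun h => hpq (Subtype.ext h)
    set T := I ((π.erase p).erase q) with hT
    have hSpT : I (π.erase p) ≤ T := hImono _ _ (Finset.erase_subset _ _)
    have hSqT : I (π.erase q) ≤ T := by
      apply hImono
      rw [Finset.erase_right_comm]
      exact Finset.erase_subset _ _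
    have hTidx : T.index = idx ((π.erase p).erase q) := hIidx _ (hsub2 p q)
    have hTpos : 0 < idx ((π.erase p).erase q) := hpos _ (hsub2 p q)
    have hrel1 : (I (π.erase p)).relIndex T = (q : ℕ) ^ v q := by
      have h1 := Subgroup.relIndex_mul_index hSpT
      rw [hTidx, hIidx _ (hsub1 p)] at h1
      have h2 : idx (π.erase p) = (q : ℕ) ^ v q * idx ((π.erase p).erase q) := herase _ q (by
        by_cases hq : (q : ℕ) ∈ π.erase p
        · exact Or.inl hq
        · right
          apply hv0
          intro hqπ
          exact hq (Finset.mem_erase.mpr ⟨fun h => hpq' h.symm, hqπ⟩))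
      apply Nat.eq_of_mul_eq_mul_right hTpos
      rw [h1, h2]
    have hrel2 : (I (π.erase q)).relIndex T = (p : ℕ) ^ v p := by
      have h1 := Subgroup.relIndex_mul_index hSqT
      rw [hTidx, hIidx _ (hsub1 q)] at h1
      have h2 : idx (π.erase q) = (p : ℕ) ^ v p * idx ((π.erase q).erase p) := herase _ p (by
        by_cases hp : (p : ℕ) ∈ π.erase q
        · exact Or.inl hp
        · right
          apply hv0
          intro hpπ
          exact hp (Finset.mem_erase.mpr ⟨hpq', hpπ⟩))
      rw [Finset.erase_right_comm] at h2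
      apply Nat.eq_of_mul_eq_mul_right hTpos
      rw [h1, h2]
    have hcop : ((I (π.erase p)).relIndex T).Coprime ((I (π.erase q)).relIndex T) := by
      rw [hrel1, hrel2]
      apply Nat.Coprime.pow
      exact (Nat.coprime_primes q.2 p.2).mpr (fun h => hpq' h.symm)
    have e1 := mul_eq_of_coprime_relIndex _ _ T hSpT hSqT hcop
    have e2 := mul_eq_of_coprime_relIndex _ _ T hSqT hSpT hcop.symm
    change ((I (π.erase p) : Subgroup G) : Set G) * ((I (π.erase q) : Subgroup G) : Set G)
      = ((I (π.erase q) : Subgroup G) : Set G) * ((I (π.erase p) : Subgroup G) : Set G)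
    rw [e1, e2]

end Cfsg.Agent.S0020
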