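import Cfsg.Statements.S0021
import Mathlib
import Cfsg.Agent.Lib.helper1.Permute
import Cfsg.Agent.S0006

set_option autoImplicit false
open Cfsg
open Pointwise

namespace Cfsg.Agent.S0021

open Cfsg.Agent.Lib.helper1

/-- A finite group with a family of pairwise permuting Sylow subgroups, one for each prime, is solvable (this direction rests on Burnside's two-prime Theorem). -/
theorem result {G : Type*} [Group G] [Finite G]
    (S : (p : Nat.Primes) → Sylow (p : ℕ) G)
    (hS : ∀ p q : Nat.Primes, (S p : Set G) * (S q : Set G) = (S q : Set G) * (S p : Set G)) :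
    Group.IsSolvable G := by
  classical
  apply Cfsg.Agent.S0006.result
  set n := Nat.card G with hn
  have hn0 : n ≠ 0 := Nat.card_pos.ne'
  set v : ℕ → ℕ := fun q => n.factorization q with hv
  set S' : ℕ → Subgroup G := fun q => if h : q.Prime then (S ⟨q, h⟩ : Subgroup G) else ⊥ with hS'
  have hperm : ∀ a b : ℕ, (S' a : Set G) * (S' b : Set G) = (S' b : Set G) * (S' a : Set G) := by
    intro a b
    by_cases ha : a.Prime
    · by_cases hb : b.Prime
      · simp only [hS', dif_pos ha, dif_pos hb]; exact hS ⟨a, ha⟩ ⟨b, hb⟩
      · simp only [hS', dif_neg hb]; exact permute_bot _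
    · simp only [hS', dif_neg ha]; exact (permute_bot _).symm
  have hcardS' : ∀ q : ℕ, q.Prime → Nat.card (S' q) = q ^ v q := by
    intro q hq
    simp only [hS', dif_pos hq]
    haveI : Fact q.Prime := ⟨hq⟩
    exact (S ⟨q, hq⟩).card_eq_multiplicity
  set J : Finset ℕ → Subgroup G := fun s => ⨆ q ∈ s, S' q with hJ
  have hJperm : ∀ (s : Finset ℕ) (a : ℕ),
      (S' a : Set G) * (J s : Set G) = (J s : Set G) * (S' a : Set G) := by
    intro s
    induction s using Finset.induction_on with
    | empty =>
      intro a
      have e : J ∅ = ⊥ := by simp [hJ]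
      rw [e]; exact permute_bot _
    | insert b s hb ih =>
      intro a
      have e : J (insert b s) = S' b ⊔ J s := by simp only [hJ]; rw [Finset.iSup_insert]
      rw [e]
      exact permute_sup _ _ _ (hperm a b) (ih a) (ih b)
  have hJcard : ∀ s : Finset ℕ, (∀ q ∈ s, q.Prime) → Nat.card (J s) = ∏ q ∈ s, q ^ v q := by
    intro s
    induction s using Finset.induction_on with
    | empty => intro _; simp [hJ]
    | insert b s hb ih =>
      intro hs
      have hbp := hs b (Finset.mem_insert_self b s)
      have hs' : ∀ q ∈ s, q.Prime := fun q hq => hs q (Finset.mem_insert_of_mem hq)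
      have e : J (insert b s) = S' b ⊔ J s := by simp only [hJ]; rw [Finset.iSup_insert]
      have hcop : (Nat.card (S' b)).Coprime (Nat.card (J s)) := by
        rw [hcardS' b hbp, ih hs']
        apply Nat.Coprime.prod_right
        intro q hq
        apply Nat.Coprime.pow
        rw [Nat.coprime_primes hbp (hs' q hq)]
        rintro rfl; exact hb hq
      rw [e, card_sup_of_permute_coprime _ _ (hJperm s b) hcop, hcardS' b hbp, ih hs',
        Finset.prod_insert hb]
  intro p hp
  refine ⟨J (n.primeFactors.erase p), ?_⟩
  have h1 := hJcard (n.primeFactors.erase p)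
    (fun q hq => Nat.prime_of_mem_primeFactors (Finset.mem_of_mem_erase hq))
  have hprod : ∏ r ∈ n.primeFactors, r ^ v r = n := by
    have := Nat.prod_factorization_pow_eq_self hn0
    rw [Finsupp.prod, Nat.support_factorization] at this
    exact this
  have h2 : p ^ v p * ∏ q ∈ n.primeFactors.erase p, q ^ v q = n := by
    by_cases hpπ : p ∈ n.primeFactors
    · rw [Finset.mul_prod_erase _ (fun q => q ^ v q) hpπ]; exact hprod
    · have h0 : v p = 0 := by
        simp only [hv]
        rw [← Finsupp.notMem_support_iff, Nat.support_factorization]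
        exact hpπ
      rw [Finset.erase_eq_of_notMem hpπ, hprod, h0, pow_zero, one_mul]
  have h3 : Nat.card (J (n.primeFactors.erase p)) * (J (n.primeFactors.erase p)).index = n :=
    Subgroup.card_mul_index _
  rw [h1] at h3
  have hpos : 0 < ∏ q ∈ n.primeFactors.erase p, q ^ v q := by rw [← h1]; exact Nat.card_pos
  apply Nat.eq_of_mul_eq_mul_left hpos
  refine h3.trans ?_
  rw [mul_comm]
  exact h2.symm

end Cfsg.Agent.S0021
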