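import Cfsg.Statements.S0034
import Mathlib
import Cfsg.Agent.Lib.helper1.Frob

set_option autoImplicit false
open Cfsg

namespace Cfsg.Agent.S0034

open Cfsg.Agent.Lib.helper1

/-- For a Frobenius complement H, the set of elements lying in no conjugate of H, together with 1, has exactly as many elements as the index of H, and that index is congruent to 1 modulo the order of H. -/
theorem result {G : Type*} [Group G] [Finite G] (H : Subgroup G) (hH : Cfsg.IsFrobeniusComplement H) :
    Nat.card (Cfsg.frobeniusKernel H) = H.index ∧ H.index % Nat.card H = 1 % Nat.card H := by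
  refine ⟨card_frobeniusKernel hH, ?_⟩
  have h1 : 1 ≤ H.index := Nat.pos_of_ne_zero Subgroup.index_ne_zero_of_finite
  have h2 : 1 ≡ H.index [MOD Nat.card H] := (Nat.modEq_iff_dvd' h1).mpr (index_frob_mod hH)
  exact h2.symm

end Cfsg.Agent.S0034
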