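import Cfsg.Statements.S0046
import Mathlib
import Cfsg.Agent.Lib.helper1.Frob

set_option autoImplicit false
open Cfsg
open Pointwise

namespace Cfsg.Agent.S0046

open Cfsg.Agent.Lib.helper1

universe u

theorem nilpotent_of_le {G : Type*} [Group G] (N M : Subgroup G) (h : N ≤ M)
    (hM : Group.IsNilpotent M) : Group.IsNilpotent N := by
  haveI := hM
  haveI : Group.IsNilpotent (N.subgroupOf M) := Subgroup.isNilpotent _
  exact Group.nilpotent_of_mulEquiv (Subgroup.subgroupOfEquivOfLe h)

/-- In a nilpotent subgroup `M`, a proper subgroup `D < M` is properly contained in its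
normaliser in `M`. -/
theorem exists_normalizing {G : Type*} [Group G] (D M : Subgroup G) (hDM : D < M)
    (hM : Group.IsNilpotent M) :
    ∃ x ∈ M, x ∉ D ∧ x ∈ Subgroup.normalizer (D : Set G) := by
  haveI := hM
  have hnc : NormalizerCondition M := Group.normalizerCondition_of_isNilpotent
  have hlt : D.subgroupOf M < ⊤ := by
    rw [lt_top_iff_ne_top, Ne, Subgroup.subgroupOf_eq_top]
    exact not_le_of_gt hDM
  obtain ⟨x, hxN, hxD⟩ := SetLike.exists_of_lt (hnc _ hlt)
  refine ⟨x, x.2, fun h => hxD (Subgroup.mem_subgroupOf.mpr h), ?_⟩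
  rw [Subgroup.mem_normalizer_iff] at hxN ⊢
  intro d
  constructor
  · intro hd
    have := (hxN ⟨d, hDM.le hd⟩).mp (Subgroup.mem_subgroupOf.mpr hd)
    exact Subgroup.mem_subgroupOf.mp this
  · intro hd
    have hdM : d ∈ M := by
      have h1 : (x : G) * d * (x : G)⁻¹ ∈ M := hDM.le hd
      have e : d = (x : G)⁻¹ * ((x : G) * d * (x : G)⁻¹) * (x : G) := by group
      rw [e]
      exact M.mul_mem (M.mul_mem (M.inv_mem x.2) h1) x.2
    have := (hxN ⟨d, hdM⟩).mpr (Subgroup.mem_subgroupOf.mpr hd)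
    exact Subgroup.mem_subgroupOf.mp this

theorem conj_smul_eq_top {G : Type*} [Group G] (M : Subgroup G) (g : G)
    (h : MulAut.conj g • M = ⊤) : M = ⊤ := by
  rw [eq_top_iff]
  intro y _
  have h1 : g * y * g⁻¹ ∈ MulAut.conj g • M := by rw [h]; exact Subgroup.mem_top _
  rw [mem_conj_smul] at h1
  have e : g⁻¹ * (g * y * g⁻¹) * g = y := by group
  rwa [e] at h1

theorem isCoatom_conj {G : Type*} [Group G] (M : Subgroup G) (hM : IsCoatom M) (g : G) :
    IsCoatom (MulAut.conj g • M) := by
  constructor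
  · intro h
    exact hM.1 (conj_smul_eq_top M g h)
  · intro L hL
    have h1 : M < MulAut.conj g⁻¹ • L := by
      have h2 : MulAut.conj g⁻¹ • (MulAut.conj g • M) < MulAut.conj g⁻¹ • L := by
        constructor
        · exact Subgroup.pointwise_smul_le_pointwise_smul_iff.mpr hL.le
        · intro h3
          exact hL.2 (Subgroup.pointwise_smul_le_pointwise_smul_iff.mp h3)
      rw [← conj_mul_smul, inv_mul_cancel, map_one, one_smul] at h2
      exact h2
    have h4 := hM.2 _ h1
    exact conj_smul_eq_top L g⁻¹ h4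

theorem simple_case {G : Type u} [Group G] [Finite G]
    (h : ∀ M : Subgroup G, IsCoatom M → Group.IsNilpotent M)
    (hsimple : ∀ N : Subgroup G, N.Normal → N = ⊥ ∨ N = ⊤) : Group.IsSolvable G := by
  by_contra hns
  have hncyc : ¬ IsCyclic G := by
    intro hc
    haveI := hc
    letI : CommGroup G := IsCyclic.commGroup
    exact hns inferInstance
  -- coatoms are not normal
  have hnn : ∀ M : Subgroup G, IsCoatom M → ¬ M.Normal := by
    intro M hM hn
    rcases hsimple M hn with h0 | h0
    · apply hncyc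
      obtain ⟨g, hg⟩ : ∃ g : G, g ≠ 1 := by
        by_contra hcon
        push Not at hcon
        apply hM.1
        rw [h0]
        exact (Subgroup.eq_bot_iff_forall _).mpr (fun x _ => hcon x) ▸ rfl
      rw [isCyclic_iff_exists_zpowers_eq_top]
      refine ⟨g, hM.2 _ ?_⟩
      rw [h0, bot_lt_iff_ne_bot]
      intro hz
      apply hg
      have : g ∈ Subgroup.zpowers g := Subgroup.mem_zpowers g
      rw [hz, Subgroup.mem_bot] at this
      exact this
    · exact hM.1 h0
  -- coatoms are self-normalising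
  have hself : ∀ M : Subgroup G, IsCoatom M → ∀ g : G, g ∈ Subgroup.normalizer (M : Set G) → g ∈ M := by
    intro M hM g hg
    by_contra hgM
    have hlt : M < Subgroup.normalizer (M : Set G) :=
      lt_of_le_of_ne Subgroup.le_normalizer (fun heq => hgM (by rw [heq]; exact hg))
    have := hM.2 _ hlt
    exact hnn M hM (Subgroup.normalizer_eq_top_iff.mp this)
  -- distinct coatoms intersect trivially
  have hTI : ∀ M₁ M₂ : Subgroup G, IsCoatom M₁ → IsCoatom M₂ → M₁ ≠ M₂ → M₁ ⊓ M₂ = ⊥ := by
    by_contra hcon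
    push Not at hcon
    let S : Set (Subgroup G × Subgroup G) :=
      {pr | IsCoatom pr.1 ∧ IsCoatom pr.2 ∧ pr.1 ≠ pr.2 ∧ pr.1 ⊓ pr.2 ≠ ⊥}
    have hSne : S.Nonempty := by
      obtain ⟨M₁, M₂, h1, h2, h3, h4⟩ := hcon
      exact ⟨(M₁, M₂), h1, h2, h3, h4⟩
    obtain ⟨⟨M₁, M₂⟩, ⟨hM₁, hM₂, hne, hD⟩, hmax⟩ :=
      Set.exists_max_image S (fun pr => Nat.card (pr.1 ⊓ pr.2 : Subgroup G)) (Set.toFinite S) hSne
    set D := M₁ ⊓ M₂ with hDdef
    have hD1 : D < M₁ := by
      refine lt_of_le_of_ne inf_le_left (fun heq => hne ?_)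
      have hle : M₁ ≤ M₂ := by rw [← heq]; exact inf_le_right
      by_contra hne'
      exact hM₂.1 (hM₁.2 _ (lt_of_le_of_ne hle hne'))
    have hD2 : D < M₂ := by
      refine lt_of_le_of_ne inf_le_right (fun heq => hne ?_)
      have hle : M₂ ≤ M₁ := by rw [← heq]; exact inf_le_left
      by_contra hne'
      exact hM₁.1 (hM₂.2 _ (lt_of_le_of_ne hle (fun e => hne' e.symm)))
    obtain ⟨x, hxM, hxD, hxN⟩ := exists_normalizing D M₁ hD1 (h M₁ hM₁)
    obtain ⟨y, hyM, hyD, hyN⟩ := exists_normalizing D M₂ hD2 (h M₂ hM₂)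
    have hNtop : Subgroup.normalizer (D : Set G) ≠ ⊤ := by
      intro htop
      have hDn : D.Normal := Subgroup.normalizer_eq_top_iff.mp htop
      rcases hsimple D hDn with h0 | h0
      · exact hD h0
      · exact hM₁.1 (top_unique (by rw [← h0]; exact inf_le_left))
    obtain ⟨M₃, hM₃, hle₃⟩ := (eq_top_or_exists_le_coatom (Subgroup.normalizer (D : Set G))).resolve_left hNtop
    have hD3 : D ≤ M₃ := Subgroup.le_normalizer.trans hle₃
    have key : ∀ (M : Subgroup G) (z : G), IsCoatom M → D ≤ M → z ∈ M → z ∉ D →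
        z ∈ M₃ → Nat.card D = Nat.card (M ⊓ M₂ : Subgroup G) ∨ True → M₃ = M := by
      intro M z hM hDM hzM hzD hz3 _
      by_contra hne3
      have hlt : D < M₃ ⊓ M := by
        refine lt_of_le_of_ne (le_inf hD3 hDM) (fun heq => hzD ?_)
        rw [heq]; exact Subgroup.mem_inf.mpr ⟨hz3, hzM⟩
      have hne0 : M₃ ⊓ M ≠ ⊥ := fun h0 => hD (le_bot_iff.mp (h0 ▸ hlt.le))
      have := hmax (M₃, M) ⟨hM₃, hM, hne3, hne0⟩
      have hcard : Nat.card D < Nat.card (M₃ ⊓ M : Subgroup G) := by
        have h7 := Set.ncard_lt_ncard (s := (D : Set G)) (t := ((M₃ ⊓ M : Subgroup G) : Set G))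
          (SetLike.coe_ssubset_coe.mpr hlt) (Set.toFinite _)
        rwa [← Nat.card_coe_set_eq, ← Nat.card_coe_set_eq] at h7
      exact absurd this (not_le.mpr hcard)
    have e1 := key M₁ x hM₁ inf_le_left hxM hxD (hle₃ hxN) (Or.inr trivial)
    have e2 := key M₂ y hM₂ inf_le_right hyM hyD (hle₃ hyN) (Or.inr trivial)
    exact hne (e1.symm.trans e2)
  -- every coatom is a Frobenius complement
  have hne_bot : ∀ M : Subgroup G, IsCoatom M → M ≠ ⊥ := by
    intro M hM h0
    exact hnn M hM (h0 ▸ inferInstance)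
  have hfrob : ∀ M : Subgroup G, IsCoatom M → Cfsg.IsFrobeniusComplement M := by
    intro M hM
    refine ⟨hne_bot M hM, hM.1, ?_⟩
    intro g hg
    apply hTI M _ hM (isCoatom_conj M hM g)
    intro heq
    apply hg
    apply hself M hM
    rw [mem_normalizer_iff_conj_smul]
    exact heq.symm
  -- existence of a coatom
  have hntriv : (⊥ : Subgroup G) ≠ ⊤ := by
    intro h0
    apply hncyc
    rw [isCyclic_iff_exists_zpowers_eq_top]
    exact ⟨1, by rw [Subgroup.zpowers_one_eq_bot, h0]⟩
  obtain ⟨M, hM, -⟩ := (eq_top_or_exists_le_coatom (⊥ : Subgroup G)).resolve_left hntriv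
  have hcardK := card_frobeniusKernel (hfrob M hM)
  have hMcard : 2 ≤ Nat.card M := by
    have := M.one_lt_card_iff_ne_bot.mpr (hne_bot M hM)
    omega
  have hidx2 : 2 ≤ M.index := by
    have h1 : M.index ≠ 1 := fun h1 => hM.1 (Subgroup.index_eq_one.mp h1)
    have h0 : M.index ≠ 0 := Subgroup.index_ne_zero_of_finite
    omega
  -- a nonidentity element of the kernel
  obtain ⟨x, hxK, hx1⟩ : ∃ x ∈ Cfsg.frobeniusKernel M, x ≠ 1 := by
    by_contra hcon
    push Not at hcon
    have hsub : Cfsg.frobeniusKernel M ⊆ {1} := fun x hx => hcon x hx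
    have : Nat.card (Cfsg.frobeniusKernel M) ≤ 1 := by
      rw [Nat.card_coe_set_eq]
      calc (Cfsg.frobeniusKernel M).ncard ≤ ({1} : Set G).ncard := Set.ncard_le_ncard hsub
        _ = 1 := Set.ncard_singleton 1
    omega
  have hxtop : Subgroup.zpowers x ≠ ⊤ := fun htop =>
    hncyc (isCyclic_iff_exists_zpowers_eq_top.mpr ⟨x, htop⟩)
  obtain ⟨M', hM', hxM'⟩ := (eq_top_or_exists_le_coatom (Subgroup.zpowers x)).resolve_left hxtop
  have hx' : x ∈ M' := hxM' (Subgroup.mem_zpowers x)
  have hcardK' := card_frobeniusKernel (hfrob M' hM')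
  have hM'card : 2 ≤ Nat.card M' := by
    have := M'.one_lt_card_iff_ne_bot.mpr (hne_bot M' hM')
    omega
  -- the two complements of kernels are disjoint
  have hdisj : Disjoint ((Cfsg.frobeniusKernel M)ᶜ) ((Cfsg.frobeniusKernel M')ᶜ) := by
    rw [Set.disjoint_left]
    intro y hy hy'
    rw [Set.mem_compl_iff, mem_frobeniusKernel_iff] at hy hy'
    push Not at hy hy'
    obtain ⟨hy1, g, hg⟩ := hy
    obtain ⟨-, g', hg'⟩ := hy'
    have hmem : y ∈ (MulAut.conj g • M) ⊓ (MulAut.conj g' • M') :=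
      Subgroup.mem_inf.mpr ⟨(mem_conj_smul g y M).mpr hg, (mem_conj_smul g' y M').mpr hg'⟩
    have heq : MulAut.conj g • M = MulAut.conj g' • M' := by
      by_contra hne
      rw [hTI _ _ (isCoatom_conj M hM g) (isCoatom_conj M' hM' g') hne, Subgroup.mem_bot] at hmem
      exact hy1 hmem
    -- then x lies in a conjugate of M
    have hxc : x ∈ MulAut.conj (g'⁻¹ * g) • M := by
      rw [conj_mul_smul, heq, ← conj_mul_smul, inv_mul_cancel, map_one, one_smul]
      exact hx'
    rw [mem_frobeniusKernel_iff] at hxK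
    rcases hxK with h1 | h1
    · exact hx1 h1
    · exact h1 (g'⁻¹ * g) ((mem_conj_smul _ x M).mp hxc)
  have hsum : ((Cfsg.frobeniusKernel M)ᶜ).ncard + ((Cfsg.frobeniusKernel M')ᶜ).ncard ≤ Nat.card G - 1 := by
    rw [← Set.ncard_union_eq hdisj (Set.toFinite _) (Set.toFinite _)]
    have hsub : (Cfsg.frobeniusKernel M)ᶜ ∪ (Cfsg.frobeniusKernel M')ᶜ ⊆ ({1}ᶜ : Set G) := by
      intro y hy
      rw [Set.mem_compl_iff, Set.mem_singleton_iff]
      rintro rfl
      rcases hy with hy | hy
      · exact hy ((mem_frobeniusKernel_iff M 1).mpr (Or.inl rfl))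
      · exact hy ((mem_frobeniusKernel_iff M' 1).mpr (Or.inl rfl))
    calc ((Cfsg.frobeniusKernel M)ᶜ ∪ (Cfsg.frobeniusKernel M')ᶜ).ncard ≤ ({1}ᶜ : Set G).ncard :=
          Set.ncard_le_ncard hsub
      _ = Nat.card G - 1 := by rw [Set.ncard_compl, Set.ncard_singleton]
  have hc1 : ((Cfsg.frobeniusKernel M)ᶜ).ncard = Nat.card G - M.index := by
    rw [Set.ncard_compl, ← Nat.card_coe_set_eq, hcardK]
  have hc2 : ((Cfsg.frobeniusKernel M')ᶜ).ncard = Nat.card G - M'.index := by
    rw [Set.ncard_compl, ← Nat.card_coe_set_eq, hcardK']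
  rw [hc1, hc2] at hsum
  have h1 : Nat.card M * M.index = Nat.card G := Subgroup.card_mul_index M
  have h2 : Nat.card M' * M'.index = Nat.card G := Subgroup.card_mul_index M'
  have h3 : 2 * M.index ≤ Nat.card G := by rw [← h1]; exact Nat.mul_le_mul_right _ hMcard
  have h4 : 2 * M'.index ≤ Nat.card G := by rw [← h2]; exact Nat.mul_le_mul_right _ hM'card
  have hpos : 0 < Nat.card G := Nat.card_pos
  omega

theorem aux (n : ℕ) : ∀ {G : Type u} [Group G] [Finite G], Nat.card G = n →
    (∀ M : Subgroup G, IsCoatom M → Group.IsNilpotent M) → Group.IsSolvable G := by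
  induction n using Nat.strong_induction_on with
  | _ n ih =>
    intro G _ _ hcard h
    by_cases hex : ∃ N : Subgroup G, N.Normal ∧ N ≠ ⊥ ∧ N ≠ ⊤
    · obtain ⟨N, hNn, hNbot, hNtop⟩ := hex
      haveI := hNn
      obtain ⟨M, hM, hNM⟩ := (eq_top_or_exists_le_coatom N).resolve_left hNtop
      haveI : Group.IsNilpotent N := nilpotent_of_le N M hNM (h M hM)
      have hlt : Nat.card (G ⧸ N) < n := by
        rw [← hcard, Subgroup.card_eq_card_quotient_mul_card_subgroup N]
        have h1 : 1 < Nat.card N := N.one_lt_card_iff_ne_bot.mpr hNbot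
        have h2 : 0 < Nat.card (G ⧸ N) := Nat.card_pos
        nlinarith
      have hπ : Function.Surjective (QuotientGroup.mk' N) := QuotientGroup.mk'_surjective N
      haveI : Group.IsSolvable (G ⧸ N) := by
        apply ih _ hlt rfl
        intro Mb hMb
        have hco := Subgroup.isCoatom_comap_of_surjective hπ hMb
        haveI := h _ hco
        have hmap : (Mb.comap (QuotientGroup.mk' N)).map (QuotientGroup.mk' N) = Mb :=
          Subgroup.map_comap_eq_self_of_surjective hπ Mb
        have h5 : Group.IsNilpotent ((Mb.comap (QuotientGroup.mk' N)).map (QuotientGroup.mk' N)) :=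
          Group.nilpotent_of_surjective ((QuotientGroup.mk' N).subgroupMap _)
            (MonoidHom.subgroupMap_surjective _ _)
        rw [hmap] at h5
        exact h5
      exact Group.isSolvable_of_ker_le_range N.subtype (QuotientGroup.mk' N) (by simp)
    · push Not at hex
      apply simple_case h
      intro N hN
      by_cases h0 : N = ⊥
      · exact Or.inl h0
      · exact Or.inr (hex N hN h0)

/-- Schmidt's Theorem on minimal non-nilpotent groups: a finite group in which every maximal subgroup is nilpotent is solvable. -/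
theorem result {G : Type*} [Group G] [Finite G]
    (h : ∀ M : Subgroup G, IsCoatom M → Group.IsNilpotent M) : Group.IsSolvable G :=
  aux _ rfl h

end Cfsg.Agent.S0046
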