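import Cfsg.Statements.S0047
import Mathlib

set_option autoImplicit false
open Pointwise
open Cfsg

namespace Cfsg.Agent.S0047

open scoped commutatorElement

theorem conj_comm {G : Type*} [Group G] (g x y : G) :
    g * ⁅x, y⁆ * g⁻¹ = ⁅g * x * g⁻¹, g * y * g⁻¹⁆ := by
  simp only [commutatorElement_def]; group

theorem comm_mul_right {G : Type*} [Group G] (x y c : G) (h : x * c = c * x) :
    ⁅x, y * c⁆ = ⁅x, y⁆ := by
  simp only [commutatorElement_def]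
  have h' : c * x⁻¹ = x⁻¹ * c := by
    have := congrArg (fun t => x⁻¹ * t * x⁻¹) h
    simpa [mul_assoc] using this
  calc x * (y * c) * x⁻¹ * (y * c)⁻¹ = x * y * (c * x⁻¹) * c⁻¹ * y⁻¹ := by group
    _ = x * y * (x⁻¹ * c) * c⁻¹ * y⁻¹ := by rw [h']
    _ = x * y * x⁻¹ * y⁻¹ := by group

theorem comm_mul_left {G : Type*} [Group G] (x y c : G) (h : c * y = y * c) :
    ⁅x * c, y⁆ = ⁅x, y⁆ := by
  simp only [commutatorElement_def]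
  calc x * c * y * (x * c)⁻¹ * y⁻¹ = x * (c * y) * c⁻¹ * x⁻¹ * y⁻¹ := by group
    _ = x * (y * c) * c⁻¹ * x⁻¹ * y⁻¹ := by rw [h]
    _ = x * y * x⁻¹ * y⁻¹ := by group

theorem ito_key {G : Type*} [Group G] (A B : Subgroup G)
    (hA : ∀ x ∈ A, ∀ y ∈ A, x * y = y * x) (hB : ∀ x ∈ B, ∀ y ∈ B, x * y = y * x)
    (hAB : ∀ g : G, ∃ a ∈ A, ∃ b ∈ B, g = a * b)
    (a a1 b b1 : G) (ha : a ∈ A) (ha1 : a1 ∈ A) (hb : b ∈ B) (hb1 : b1 ∈ B) :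
    (a1 * b1) * ⁅a, b⁆ * (a1 * b1)⁻¹ = (b1 * a1) * ⁅a, b⁆ * (b1 * a1)⁻¹ := by
  obtain ⟨a3, ha3, b3, hb3, h3⟩ := hAB (b1 * a * b1⁻¹)
  obtain ⟨a2', ha2', b2', hb2', h2'⟩ := hAB (a1 * b * a1⁻¹)⁻¹
  -- a1 * b * a1⁻¹ = b2 * a2
  have h2 : a1 * b * a1⁻¹ = b2'⁻¹ * a2'⁻¹ := by
    have := congrArg (fun t => t⁻¹) h2'
    simpa using this
  have hb2 : b2'⁻¹ ∈ B := B.inv_mem hb2'
  have ha2 : a2'⁻¹ ∈ A := A.inv_mem ha2'
  have e1 : b1 * b * b1⁻¹ = b := by rw [hB b1 hb1 b hb]; group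
  have e2 : a1 * a * a1⁻¹ = a := by rw [hA a1 ha1 a ha]; group
  have e3 : a1 * a3 * a1⁻¹ = a3 := by rw [hA a1 ha1 a3 ha3]; group
  have e4 : b1 * b2'⁻¹ * b1⁻¹ = b2'⁻¹ := by rw [hB b1 hb1 _ hb2]; group
  have lhs : (a1 * b1) * ⁅a, b⁆ * (a1 * b1)⁻¹ = ⁅a3, b2'⁻¹⁆ := by
    calc (a1 * b1) * ⁅a, b⁆ * (a1 * b1)⁻¹ = a1 * (b1 * ⁅a, b⁆ * b1⁻¹) * a1⁻¹ := by group
      _ = a1 * ⁅a3 * b3, b⁆ * a1⁻¹ := by rw [conj_comm, e1, h3]
      _ = a1 * ⁅a3, b⁆ * a1⁻¹ := by rw [comm_mul_left _ _ _ (hB b3 hb3 b hb)]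
      _ = ⁅a3, b2'⁻¹ * a2'⁻¹⁆ := by rw [conj_comm, e3, h2]
      _ = ⁅a3, b2'⁻¹⁆ := by rw [comm_mul_right _ _ _ (hA a3 ha3 _ ha2)]
  have rhs : (b1 * a1) * ⁅a, b⁆ * (b1 * a1)⁻¹ = ⁅a3, b2'⁻¹⁆ := by
    calc (b1 * a1) * ⁅a, b⁆ * (b1 * a1)⁻¹ = b1 * (a1 * ⁅a, b⁆ * a1⁻¹) * b1⁻¹ := by group
      _ = b1 * ⁅a, b2'⁻¹ * a2'⁻¹⁆ * b1⁻¹ := by rw [conj_comm, e2, h2]
      _ = b1 * ⁅a, b2'⁻¹⁆ * b1⁻¹ := by rw [comm_mul_right _ _ _ (hA a ha _ ha2)]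
      _ = ⁅a3 * b3, b2'⁻¹⁆ := by rw [conj_comm, e4, h3]
      _ = ⁅a3, b2'⁻¹⁆ := by rw [comm_mul_left _ _ _ (hB b3 hb3 _ hb2)]
  rw [lhs, rhs]

theorem ito_comm {G : Type*} [Group G] (A B : Subgroup G)
    (hA : ∀ x ∈ A, ∀ y ∈ A, x * y = y * x) (hB : ∀ x ∈ B, ∀ y ∈ B, x * y = y * x)
    (hAB : ∀ g : G, ∃ a ∈ A, ∃ b ∈ B, g = a * b)
    (a a1 b b1 : G) (ha : a ∈ A) (ha1 : a1 ∈ A) (hb : b ∈ B) (hb1 : b1 ∈ B) :
    ⁅a, b⁆ * ⁅a1, b1⁆ = ⁅a1, b1⁆ * ⁅a, b⁆ := by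
  have h := ito_key A B hA hB hAB a a1⁻¹ b b1⁻¹ ha (A.inv_mem ha1) hb (B.inv_mem hb1)
  have h2 : ⁅a1, b1⁆ * ⁅a, b⁆ * ⁅a1, b1⁆⁻¹ = ⁅a, b⁆ := by
    have := congrArg (fun t => (b1⁻¹ * a1⁻¹)⁻¹ * t * (b1⁻¹ * a1⁻¹)) h
    calc ⁅a1, b1⁆ * ⁅a, b⁆ * ⁅a1, b1⁆⁻¹
        = (b1⁻¹ * a1⁻¹)⁻¹ * ((a1⁻¹ * b1⁻¹) * ⁅a, b⁆ * (a1⁻¹ * b1⁻¹)⁻¹) * (b1⁻¹ * a1⁻¹) := by
          simp only [commutatorElement_def]; group
      _ = (b1⁻¹ * a1⁻¹)⁻¹ * ((b1⁻¹ * a1⁻¹) * ⁅a, b⁆ * (b1⁻¹ * a1⁻¹)⁻¹) * (b1⁻¹ * a1⁻¹) := this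
      _ = ⁅a, b⁆ := by group
  calc ⁅a, b⁆ * ⁅a1, b1⁆ = (⁅a1, b1⁆ * ⁅a, b⁆ * ⁅a1, b1⁆⁻¹) * ⁅a1, b1⁆ := by rw [h2]
    _ = ⁅a1, b1⁆ * ⁅a, b⁆ := by group

theorem result {G : Type*} [Group G] [Finite G] (A B : Subgroup G)
    [IsMulCommutative A] [IsMulCommutative B] (hAB : ∀ g : G, ∃ a ∈ A, ∃ b ∈ B, g = a * b) :
    Group.IsSolvable G := by
  have hA : ∀ x ∈ A, ∀ y ∈ A, x * y = y * x := fun x hx y hy =>
    congrArg Subtype.val (mul_comm' (⟨x, hx⟩ : A) ⟨y, hy⟩)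
  have hB : ∀ x ∈ B, ∀ y ∈ B, x * y = y * x := fun x hx y hy =>
    congrArg Subtype.val (mul_comm' (⟨x, hx⟩ : B) ⟨y, hy⟩)
  -- N = [A, B]
  have hNcomm : ∀ x ∈ {g : G | ∃ g₁ ∈ A, ∃ g₂ ∈ B, ⁅g₁, g₂⁆ = g}, ∀ y ∈ {g : G | ∃ g₁ ∈ A, ∃ g₂ ∈ B, ⁅g₁, g₂⁆ = g}, x * y = y * x := by
    rintro x ⟨a, ha, b, hb, rfl⟩ y ⟨a1, ha1, b1, hb1, rfl⟩
    exact ito_comm A B hA hB hAB a a1 b b1 ha ha1 hb hb1
  set S : Set G := {g : G | ∃ g₁ ∈ A, ∃ g₂ ∈ B, ⁅g₁, g₂⁆ = g} with hS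
  set N : Subgroup G := Subgroup.closure S with hN
  have hNc : ∀ x ∈ N, ∀ y ∈ N, x * y = y * x := by
    intro x hx y hy
    have h1 : S ⊆ Subgroup.centralizer S := by
      intro s hs
      rw [SetLike.mem_coe, Subgroup.mem_centralizer_iff]
      intro t ht
      exact hNcomm t ht s hs
    have h2 : N ≤ Subgroup.centralizer S := (Subgroup.closure_le _).mpr h1
    have h3 : S ⊆ Subgroup.centralizer (N : Set G) := by
      intro s hs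
      rw [SetLike.mem_coe, Subgroup.mem_centralizer_iff]
      intro t ht
      have := h2 ht
      rw [Subgroup.mem_centralizer_iff] at this
      exact (this s hs).symm
    have h4 : N ≤ Subgroup.centralizer (N : Set G) := (Subgroup.closure_le _).mpr h3
    have := h4 hy
    rw [Subgroup.mem_centralizer_iff] at this
    exact this x hx
  have hconjA : ∀ a' ∈ A, ∀ n ∈ N, a' * n * a'⁻¹ ∈ N := by
    intro a' ha' n hn
    induction hn using Subgroup.closure_induction with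
    | mem x hx =>
      obtain ⟨a, ha, b, hb, rfl⟩ := hx
      have e : a' * ⁅a, b⁆ * a'⁻¹ = ⁅a' * a, b⁆ * ⁅a', b⁆⁻¹ := by
        simp only [commutatorElement_def]; group
      rw [e]
      exact N.mul_mem (Subgroup.subset_closure ⟨a' * a, A.mul_mem ha' ha, b, hb, rfl⟩)
        (N.inv_mem (Subgroup.subset_closure ⟨a', ha', b, hb, rfl⟩))
    | one => simp
    | mul x y hx hy ihx ihy =>
      have e : a' * (x * y) * a'⁻¹ = (a' * x * a'⁻¹) * (a' * y * a'⁻¹) := by group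
      rw [e]; exact N.mul_mem ihx ihy
    | inv x hx ih =>
      have e : a' * x⁻¹ * a'⁻¹ = (a' * x * a'⁻¹)⁻¹ := by group
      rw [e]; exact N.inv_mem ih
  have hconjB : ∀ b' ∈ B, ∀ n ∈ N, b' * n * b'⁻¹ ∈ N := by
    intro b' hb' n hn
    induction hn using Subgroup.closure_induction with
    | mem x hx =>
      obtain ⟨a, ha, b, hb, rfl⟩ := hx
      have e : b' * ⁅a, b⁆ * b'⁻¹ = ⁅a, b'⁆⁻¹ * ⁅a, b' * b⁆ := by
        simp only [commutatorElement_def]; group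
      rw [e]
      exact N.mul_mem (N.inv_mem (Subgroup.subset_closure ⟨a, ha, b', hb', rfl⟩))
        (Subgroup.subset_closure ⟨a, ha, b' * b, B.mul_mem hb' hb, rfl⟩)
    | one => simp
    | mul x y hx hy ihx ihy =>
      have e : b' * (x * y) * b'⁻¹ = (b' * x * b'⁻¹) * (b' * y * b'⁻¹) := by group
      rw [e]; exact N.mul_mem ihx ihy
    | inv x hx ih =>
      have e : b' * x⁻¹ * b'⁻¹ = (b' * x * b'⁻¹)⁻¹ := by group
      rw [e]; exact N.inv_mem ih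
  have hNn : N.Normal := by
    constructor
    intro n hn g
    obtain ⟨a, ha, b, hb, rfl⟩ := hAB g
    have e : a * b * n * (a * b)⁻¹ = a * (b * n * b⁻¹) * a⁻¹ := by group
    rw [e]
    exact hconjA a ha _ (hconjB b hb n hn)
  haveI : IsMulCommutative N := ⟨⟨fun x y => Subtype.ext (hNc x x.2 y y.2)⟩⟩
  have hQ : ∀ x y : G ⧸ N, x * y = y * x := by
    intro x y
    obtain ⟨g, rfl⟩ := QuotientGroup.mk_surjective x
    obtain ⟨g', rfl⟩ := QuotientGroup.mk_surjective y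
    obtain ⟨a, ha, b, hb, rfl⟩ := hAB g
    obtain ⟨a', ha', b', hb', rfl⟩ := hAB g'
    have hc : ∀ u ∈ A, ∀ v ∈ B, (QuotientGroup.mk u : G ⧸ N) * QuotientGroup.mk v
        = QuotientGroup.mk v * QuotientGroup.mk u := by
      intro u hu v hv
      rw [← QuotientGroup.mk_mul, ← QuotientGroup.mk_mul, QuotientGroup.eq]
      have : (u * v)⁻¹ * (v * u) = ⁅v⁻¹, u⁻¹⁆ := by
        simp only [commutatorElement_def]; group
      rw [this]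
      have h5 : ⁅u⁻¹, v⁻¹⁆ ∈ N := Subgroup.subset_closure ⟨u⁻¹, A.inv_mem hu, v⁻¹, B.inv_mem hv, rfl⟩
      have := N.inv_mem h5
      rwa [commutatorElement_inv] at this
    have hcA : ∀ u ∈ A, ∀ v ∈ A, (QuotientGroup.mk u : G ⧸ N) * QuotientGroup.mk v
        = QuotientGroup.mk v * QuotientGroup.mk u := by
      intro u hu v hv
      rw [← QuotientGroup.mk_mul, ← QuotientGroup.mk_mul, hA u hu v hv]
    have hcB : ∀ u ∈ B, ∀ v ∈ B, (QuotientGroup.mk u : G ⧸ N) * QuotientGroup.mk v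
        = QuotientGroup.mk v * QuotientGroup.mk u := by
      intro u hu v hv
      rw [← QuotientGroup.mk_mul, ← QuotientGroup.mk_mul, hB u hu v hv]
    simp only [QuotientGroup.mk_mul]
    calc (QuotientGroup.mk a : G ⧸ N) * QuotientGroup.mk b * (QuotientGroup.mk a' * QuotientGroup.mk b')
        = QuotientGroup.mk a * (QuotientGroup.mk b * QuotientGroup.mk a') * QuotientGroup.mk b' := by group
      _ = QuotientGroup.mk a * (QuotientGroup.mk a' * QuotientGroup.mk b) * QuotientGroup.mk b' := by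
          rw [hc a' ha' b hb]
      _ = (QuotientGroup.mk a * QuotientGroup.mk a') * (QuotientGroup.mk b * QuotientGroup.mk b') := by group
      _ = (QuotientGroup.mk a' * QuotientGroup.mk a) * (QuotientGroup.mk b' * QuotientGroup.mk b) := by
          rw [hcA a ha a' ha', hcB b hb b' hb']
      _ = QuotientGroup.mk a' * (QuotientGroup.mk a * QuotientGroup.mk b') * QuotientGroup.mk b := by group
      _ = QuotientGroup.mk a' * (QuotientGroup.mk b' * QuotientGroup.mk a) * QuotientGroup.mk b := by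
          rw [hc a ha b' hb']
      _ = QuotientGroup.mk a' * QuotientGroup.mk b' * (QuotientGroup.mk a * QuotientGroup.mk b) := by group
  haveI : Group.IsSolvable (G ⧸ N) := Group.isSolvable_of_comm hQ
  haveI : Group.IsSolvable N := Group.isSolvable_of_comm (fun x y => mul_comm' x y)
  exact Group.isSolvable_of_ker_le_range N.subtype (QuotientGroup.mk' N) (by simp)

end Cfsg.Agent.S0047
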