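import Cfsg.Statements.S0048
import Mathlib
import Cfsg.Agent.Lib.helper1.Misc

set_option autoImplicit false
open Cfsg

namespace Cfsg.Agent.S0048

open Cfsg.Agent.Lib.helper1

universe u

theorem aux (n : ℕ) : ∀ {G : Type u} [Group G] [Finite G] [Group.IsSolvable G] (M : Subgroup G),
    Nat.card G = n → IsCoatom M → IsPrimePow M.index := by
  induction n using Nat.strong_induction_on with
  | _ n ih =>
    intro G _ _ _ M hcard hM
    haveI : Nontrivial G := by
      by_contra h
      rw [not_nontrivial_iff_subsingleton] at h
      exact hM.1 (Subsingleton.elim _ _)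
    obtain ⟨p, hp, P, hPn, hPp, hPbot⟩ := exists_normal_pgroup_ne_bot G
    haveI := hPn
    haveI : Fact p.Prime := ⟨hp⟩
    by_cases hle : P ≤ M
    · have hcomap : (M.map (QuotientGroup.mk' P)).comap (QuotientGroup.mk' P) = M := by
        rw [Subgroup.comap_map_eq, QuotientGroup.ker_mk', sup_eq_left.mpr hle]
      have hco : IsCoatom (M.map (QuotientGroup.mk' P)) :=
        isCoatom_of_comap _ (QuotientGroup.mk'_surjective P) _ (by rw [hcomap]; exact hM)
      have hlt : Nat.card (G ⧸ P) < n := by
        rw [← hcard, Subgroup.card_eq_card_quotient_mul_card_subgroup P]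
        have h1 : 1 < Nat.card P := P.one_lt_card_iff_ne_bot.mpr hPbot
        have h2 : 0 < Nat.card (G ⧸ P) := Nat.card_pos
        nlinarith
      have := ih _ hlt (M.map (QuotientGroup.mk' P)) rfl hco
      rw [← hcomap, Subgroup.index_comap_of_surjective _ (QuotientGroup.mk'_surjective P)]
      exact this
    · have hsup : M ⊔ P = ⊤ := by
        apply hM.2
        refine lt_of_le_of_ne le_sup_left ?_
        intro h
        apply hle
        rw [h]
        exact le_sup_right
      have hdvd := index_dvd_card_of_sup_eq_top M P hsup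
      obtain ⟨k, hk⟩ := (IsPGroup.iff_card).mp hPp
      rw [hk] at hdvd
      obtain ⟨j, hj, hj'⟩ := (Nat.dvd_prime_pow hp).mp hdvd
      rw [isPrimePow_nat_iff]
      refine ⟨p, j, hp, ?_, hj'.symm⟩
      rcases Nat.eq_zero_or_pos j with h0 | h0
      · exfalso
        rw [h0, pow_zero, Subgroup.index_eq_one] at hj'
        exact hM.1 hj'
      · exact h0

/-- In a finite solvable group every maximal subgroup has index a prime power. -/
theorem result {G : Type*} [Group G] [Finite G] [Group.IsSolvable G]
    (M : Subgroup G) (hM : IsCoatom M) : IsPrimePow M.index :=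
  aux _ M rfl hM

end Cfsg.Agent.S0048
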