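import Cfsg.Statements.S0049
import Mathlib

set_option autoImplicit false
open Cfsg

namespace Cfsg.Agent.S0049

/-- A prime divisor of the order of a finite group also divides the index of the Frattini subgroup. -/
theorem result {G : Type*} [Group G] [Finite G] (p : ℕ) (hp : p.Prime) (hdvd : p ∣ Nat.card G) :
    p ∣ (frattini G).index := by
  by_contra hnd
  haveI : Fact p.Prime := ⟨hp⟩
  set Φ := frattini G with hΦ
  haveI : Group.IsNilpotent Φ := frattini_nilpotent
  let S : Sylow p Φ := default
  have hSn : (S : Subgroup Φ).Normal := by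
    have h03 : Group.IsNilpotent Φ ↔ ∀ (p : ℕ), Fact (Nat.Prime p) → ∀ (P : Sylow p Φ),
        (P : Subgroup Φ).Normal := (Group.isNilpotent_of_finite_tfae (G := Φ)).out 0 3
    exact h03.mp inferInstance p ⟨hp⟩ S
  haveI := Sylow.characteristic_of_normal S hSn
  let Q : Subgroup G := (S : Subgroup Φ).map Φ.subtype
  haveI hQn : Q.Normal := ConjAct.normal_of_characteristic_of_normal
  have hQle : Q ≤ Φ := Subgroup.map_subtype_le _
  have hQcard : Nat.card Q = p ^ (Nat.card G).factorization p := by
    rw [Subgroup.card_map_of_injective Φ.subtype_injective, S.card_eq_multiplicity]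
    congr 1
    have h1 : Nat.card Φ * Φ.index = Nat.card G := Subgroup.card_mul_index Φ
    rw [← h1, Nat.factorization_mul (Nat.card_pos.ne') Subgroup.index_ne_zero_of_finite]
    simp [Nat.factorization_eq_zero_of_not_dvd hnd]
  have hcop : (Nat.card Q).Coprime Q.index := by
    rw [hQcard]
    apply Nat.Coprime.pow_left
    rw [Nat.Prime.coprime_iff_not_dvd hp]
    intro hd
    have h2 : Nat.card Q * Q.index = Nat.card G := Subgroup.card_mul_index Q
    have : p ^ ((Nat.card G).factorization p + 1) ∣ Nat.card G := by
      rw [pow_succ]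
      calc p ^ (Nat.card G).factorization p * p ∣ Nat.card Q * Q.index := by
            rw [hQcard]; exact Nat.mul_dvd_mul_left _ hd
        _ = Nat.card G := h2
    exact Nat.pow_succ_factorization_not_dvd (Nat.card_pos.ne') hp this
  obtain ⟨H, hH⟩ := Subgroup.exists_right_complement'_of_coprime hcop
  have hsup : H ⊔ Φ = ⊤ := by
    have := hH.sup_eq_top
    apply top_unique
    rw [← this, sup_comm]
    exact sup_le_sup_left hQle H
  have hHtop : H = ⊤ := frattini_nongenerating hsup
  have hcard := hH.card_mul_card
  rw [hHtop, Subgroup.card_top] at hcard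
  have hQ1 : Nat.card Q = 1 := by
    have hpos : 0 < Nat.card G := Nat.card_pos
    exact Nat.eq_of_mul_eq_mul_right hpos (by rw [hcard, one_mul])
  rw [hQcard] at hQ1
  have hpos := Nat.Prime.factorization_pos_of_dvd hp (Nat.card_pos.ne') hdvd
  have : 1 < p ^ (Nat.card G).factorization p := Nat.one_lt_pow hpos.ne' hp.one_lt
  omega

end Cfsg.Agent.S0049
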