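import Cfsg.Statements.S0050
import Cfsg.Agent.Lib.helper1.Hall

set_option autoImplicit false
open Pointwise
open Cfsg

namespace Cfsg.Agent.S0050

open Cfsg.Agent.Lib.helper1 in
/-- Frattini argument for Hall subgroups: if L is a solvable normal subgroup and H a subgroup of L of order coprime to its index in L, then L together with the normaliser of H generates the whole group. -/
theorem result {G : Type*} [Group G] [Finite G] (L : Subgroup G) [L.Normal] (hL : Group.IsSolvable L)
    (H : Subgroup G) (hHL : H ≤ L) (hHall : (Nat.card H).Coprime (H.relIndex L)) :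
    L ⊔ Subgroup.normalizer (H : Set G) = ⊤ := by
  rw [eq_top_iff]
  intro g _
  have hH'L : MulAut.conj g • H ≤ L := by
    rw [← Subgroup.Normal.conj_smul_eq_self g L]
    exact Subgroup.pointwise_smul_le_pointwise_smul_iff.mpr hHL
  have hcardL : Nat.card L = Nat.card H * H.relIndex L := by
    have h1 := Subgroup.card_mul_index (H.subgroupOf L)
    rw [Nat.card_congr (Subgroup.subgroupOfEquivOfLe hHL).toEquiv] at h1
    exact h1.symm
  obtain ⟨l, hl⟩ := hall_conj (G := L) (Nat.card H) (H.relIndex L) hcardL hHall
    ((MulAut.conj g • H).subgroupOf L) (H.subgroupOf L)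
    (by rw [Nat.card_congr (Subgroup.subgroupOfEquivOfLe hH'L).toEquiv, card_conj_smul])
    (Nat.card_congr (Subgroup.subgroupOfEquivOfLe hHL).toEquiv)
  have h2 := conj_of_conj_subgroupOf L _ H hH'L hHL l hl
  rw [← conj_mul_smul] at h2
  have h3 : (l : G) * g ∈ Subgroup.normalizer (H : Set G) :=
    (mem_normalizer_iff_conj_smul _ H).mpr h2
  have h4 : g = (l : G)⁻¹ * ((l : G) * g) := by group
  rw [h4]
  exact Subgroup.mul_mem _ (Subgroup.mem_sup_left (L.inv_mem l.2)) (Subgroup.mem_sup_right h3)

end Cfsg.Agent.S0050
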