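import Cfsg.Statements.S0053
import Mathlib

set_option autoImplicit false
open Cfsg
open Pointwise

namespace Cfsg.Agent.S0053

/-- An abelian minimal normal subgroup N of a finite group is complemented exactly when N is not inside the Frattini subgroup. -/
theorem result {G : Type*} [Group G] [Finite G]
    (N : Subgroup G) [N.Normal] [IsMulCommutative N] (hN : N ≠ ⊥)
    (hmin : ∀ M : Subgroup G, M.Normal → M ≤ N → M = ⊥ ∨ M = N) :
    (∃ H : Subgroup G, Subgroup.IsComplement' N H) ↔ ¬ N ≤ frattini G := by
  constructor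
  · rintro ⟨H, hH⟩ hle
    have hsup : H ⊔ frattini G = ⊤ := by
      have := hH.sup_eq_top
      apply top_unique
      rw [← this, sup_comm]
      exact sup_le_sup_left hle H
    have hHtop : H = ⊤ := frattini_nongenerating hsup
    have hd := hH.disjoint
    rw [hHtop, disjoint_top] at hd
    exact hN hd
  · intro hnle
    have hex : ∃ M : Subgroup G, IsCoatom M ∧ ¬ N ≤ M := by
      by_contra hcon
      push Not at hcon
      apply hnle
      unfold frattini Order.radical
      exact le_iInf₂ (fun M hM => hcon M hM)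
    obtain ⟨M, hM, hNM⟩ := hex
    have hsup : N ⊔ M = ⊤ := by
      apply hM.2
      refine lt_of_le_of_ne le_sup_right ?_
      intro h
      apply hNM
      rw [h]
      exact le_sup_left
    have hmul : (N : Set G) * (M : Set G) = Set.univ := by
      rw [← Subgroup.normal_mul, hsup, Subgroup.coe_top]
    have hc : ∀ a ∈ N, ∀ b ∈ N, a * b = b * a := fun a ha b hb =>
      congrArg Subtype.val (mul_comm' (⟨a, ha⟩ : N) ⟨b, hb⟩)
    have hnorm : (N ⊓ M).Normal := by
      constructor
      rintro x ⟨hxN, hxM⟩ g
      have hg : g ∈ (N : Set G) * (M : Set G) := by rw [hmul]; exact Set.mem_univ g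
      obtain ⟨n, hn, m, hm, rfl⟩ := Set.mem_mul.mp hg
      have hmx : m * x * m⁻¹ ∈ N ⊓ M :=
        ⟨Subgroup.Normal.conj_mem inferInstance x hxN m, M.mul_mem (M.mul_mem hm hxM) (M.inv_mem hm)⟩
      have e : n * m * x * (n * m)⁻¹ = n * (m * x * m⁻¹) * n⁻¹ := by group
      rw [e, hc n hn _ hmx.1, mul_assoc, mul_inv_cancel, mul_one]
      exact hmx
    have hbot : N ⊓ M = ⊥ := by
      rcases hmin (N ⊓ M) hnorm inf_le_left with h | h
      · exact h
      · exfalso; apply hNM; rw [← h]; exact inf_le_right
    exact ⟨M, Subgroup.isComplement'_of_disjoint_and_mul_eq_univ (disjoint_iff.mpr hbot) hmul⟩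

end Cfsg.Agent.S0053
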