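import Cfsg.Statements.S0054
import Mathlib

set_option autoImplicit false
open Cfsg

namespace Cfsg.Agent.S0054

/-- A regular normal subgroup of a finite 2-transitive group is elementary abelian: it is commutative and all its elements have order dividing one prime. -/
theorem result {G : Type*} [Group G] [Finite G]
    {X : Type*} [Nonempty X] [MulAction G X] (h2 : MulAction.IsMultiplyPretransitive G X 2)
    (N : Subgroup G) [N.Normal] (htrans : MulAction.IsPretransitive N X) (hreg : ∀ x : X, MulAction.stabilizer N x = ⊥) :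
    IsMulCommutative N ∧ ∃ p : ℕ, p.Prime ∧ ∀ n ∈ N, n ^ p = 1 := by
  by_cases hbot : N = ⊥
  · refine ⟨⟨⟨fun a b => ?_⟩⟩, 2, Nat.prime_two, ?_⟩
    · have hall : ∀ c : G, c ∈ N → c = 1 := by
        intro c hc
        rw [hbot, Subgroup.mem_bot] at hc
        exact hc
      have ha : (a : G) = 1 := hall _ a.2
      have hb : (b : G) = 1 := hall _ b.2
      apply Subtype.ext
      simp [ha, hb]
    · intro n hn
      rw [hbot, Subgroup.mem_bot] at hn
      rw [hn, one_pow]
  · obtain ⟨x₀⟩ := ‹Nonempty X›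
    have hfix : ∀ n ∈ N, n • x₀ = x₀ → n = 1 := by
      intro n hn h
      have : (⟨n, hn⟩ : N) ∈ MulAction.stabilizer N x₀ := by
        rw [MulAction.mem_stabilizer_iff]; exact h
      rw [hreg x₀, Subgroup.mem_bot] at this
      exact congrArg Subtype.val this
    -- all nonidentity elements of N are conjugate
    have hconj : ∀ n₁ ∈ N, n₁ ≠ 1 → ∀ n₂ ∈ N, n₂ ≠ 1 → ∃ g : G, g * n₁ * g⁻¹ = n₂ := by
      intro n₁ hn₁ h1 n₂ hn₂ h2'
      have hne1 : x₀ ≠ n₁ • x₀ := fun h => h1 (hfix n₁ hn₁ h.symm)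
      have hne2 : x₀ ≠ n₂ • x₀ := fun h => h2' (hfix n₂ hn₂ h.symm)
      obtain ⟨g, hg1, hg2⟩ := (MulAction.is_two_pretransitive_iff.mp h2) hne1 hne2
      refine ⟨g, ?_⟩
      have hmem : n₂⁻¹ * (g * n₁ * g⁻¹) ∈ N :=
        N.mul_mem (N.inv_mem hn₂) (Subgroup.Normal.conj_mem inferInstance n₁ hn₁ g)
      have hx : (n₂⁻¹ * (g * n₁ * g⁻¹)) • x₀ = x₀ := by
        have hginv : g⁻¹ • x₀ = x₀ := by
          rw [inv_smul_eq_iff]; exact hg1.symm
        rw [mul_smul, mul_smul, mul_smul, hginv, hg2, inv_smul_smul]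
      have := hfix _ hmem hx
      have e := congrArg (fun t => n₂ * t) this
      simpa using e
    haveI : Nontrivial N := (Subgroup.nontrivial_iff_ne_bot N).mpr hbot
    have hcard : Nat.card N ≠ 1 := fun h => hbot (Subgroup.card_eq_one.mp h)
    obtain ⟨p, hp, hpd⟩ := Nat.exists_prime_and_dvd hcard
    haveI : Fact p.Prime := ⟨hp⟩
    obtain ⟨z₀, hz₀⟩ := exists_prime_orderOf_dvd_card' p hpd
    have hz₀1 : (z₀ : G) ≠ 1 := by
      intro h
      have : z₀ = 1 := Subtype.ext h
      rw [this, orderOf_one] at hz₀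
      exact hp.one_lt.ne hz₀
    have hz₀p : (z₀ : G) ^ p = 1 := by
      have : z₀ ^ p = 1 := by rw [← hz₀]; exact pow_orderOf_eq_one z₀
      have := congrArg Subtype.val this
      simpa using this
    have hpow : ∀ n ∈ N, n ^ p = 1 := by
      intro n hn
      by_cases h1 : n = 1
      · rw [h1, one_pow]
      · obtain ⟨g, hg⟩ := hconj z₀ z₀.2 hz₀1 n hn h1
        rw [← hg, conj_pow, hz₀p, mul_one, mul_inv_cancel]
    refine ⟨?_, p, hp, hpow⟩
    have hPG : IsPGroup p N := by
      intro n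
      refine ⟨1, ?_⟩
      apply Subtype.ext
      have := hpow n n.2
      simpa using this
    haveI := hPG.center_nontrivial
    obtain ⟨z, hz⟩ := exists_ne (1 : Subgroup.center N)
    have hz1 : ((z : N) : G) ≠ 1 := by
      intro h
      apply hz
      apply Subtype.ext
      apply Subtype.ext
      exact h
    have hzc : ∀ m ∈ N, m * ((z : N) : G) = ((z : N) : G) * m := by
      intro m hm
      have := (Subgroup.mem_center_iff.mp z.2) ⟨m, hm⟩
      exact congrArg Subtype.val this
    refine ⟨⟨fun a b => ?_⟩⟩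
    apply Subtype.ext
    change (a : G) * b = b * a
    by_cases ha : (a : G) = 1
    · rw [ha]; simp
    · obtain ⟨g, hg⟩ := hconj _ (z : N).2 hz1 a a.2 ha
      have hmem : g⁻¹ * (b : G) * g ∈ N := by
        have := Subgroup.Normal.conj_mem (inferInstance : N.Normal) b b.2 g⁻¹
        simpa using this
      have h3 := hzc _ hmem
      rw [← hg]
      calc g * ((z : N) : G) * g⁻¹ * (b : G) = g * (((z : N) : G) * (g⁻¹ * b * g)) * g⁻¹ := by group
        _ = g * ((g⁻¹ * b * g) * ((z : N) : G)) * g⁻¹ := by rw [h3]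
        _ = b * (g * ((z : N) : G) * g⁻¹) := by group

end Cfsg.Agent.S0054
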