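import Cfsg.Statements.S0059

import Cfsg.Agent.Lib.helper8.CoprimeAction
set_option autoImplicit false
open Cfsg

namespace Cfsg.Agent.S0059

/-- Let a finite group act on a set on which a normal subgroup K of coprime order and index is transitive, with K or the quotient solvable. Then any complement H of K has a fixed point, and any two H-fixed points are interchanged by an element of K centralising H. -/
theorem result {G : Type*} [Group G] [Finite G] {X : Type*} [Nonempty X] [MulAction G X]
    (K H : Subgroup G) [K.Normal] (hc : Subgroup.IsComplement' K H) (hcop : (Nat.card K).Coprime K.index)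
    (hsolv : Group.IsSolvable K ∨ Group.IsSolvable (G ⧸ K)) (htrans : MulAction.IsPretransitive K X) :
    (∃ x : X, ∀ h ∈ H, h • x = x) ∧
    ∀ x y : X, (∀ h ∈ H, h • x = x) → (∀ h ∈ H, h • y = y) → ∃ k ∈ K ⊓ Subgroup.centralizer (H : Set G), k • x = y := by

    have hs : Group.IsSolvable K ∨ Group.IsSolvable H := by
      rcases hsolv with h | h
      · exact Or.inl h
      · exact Or.inr (Cfsg.Agent.Lib.helper8.isSolvable_of_isComplement' K H hc)
    have hKn : ∀ k ∈ K, ∀ g : G, g * k * g⁻¹ ∈ K := fun k hk g =>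
      (inferInstance : K.Normal).conj_mem k hk g
    constructor
    · obtain ⟨x₀⟩ := (inferInstance : Nonempty X)
      obtain ⟨k, -, hk⟩ := Cfsg.Agent.Lib.helper8.gfix K H hc hcop hs x₀ (by
        intro a _
        obtain ⟨k, hk⟩ := MulAction.exists_smul_eq K x₀ (a • x₀)
        exact ⟨k.1, k.2, hk.symm⟩)
      exact ⟨k • x₀, hk⟩
    · intro x y hxfix hyfix
      obtain ⟨k₀, hk₀⟩ := MulAction.exists_smul_eq K x y
      have hk₀' : (k₀ : G) • x = y := hk₀
      set D : Subgroup G := K ⊓ MulAction.stabilizer G x with hD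
      have hDK : D ≤ K := inf_le_left
      have hinv : ∀ h ∈ H, h⁻¹ • x = x := by
        intro h hh
        rw [inv_smul_eq_iff, hxfix h hh]
      have hHD : H ≤ Subgroup.normalizer (D : Set G) :=
        Cfsg.Agent.Lib.helper8.le_normalizer_of_conj_mem (by
          intro h hh d hd
          refine Subgroup.mem_inf.mpr ⟨hKn d hd.1 h, ?_⟩
          rw [MulAction.mem_stabilizer_iff, mul_smul, mul_smul, hinv h hh,
            MulAction.mem_stabilizer_iff.mp hd.2, hxfix h hh])
      have hcop' : (Nat.card H).Coprime (Nat.card D) := by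
        rw [← hc.symm.index_eq_card]
        exact (Nat.Coprime.coprime_dvd_left (Subgroup.card_dvd_of_le hDK) hcop).symm
      have hsolv' : Group.IsSolvable H ∨ Group.IsSolvable D := by
        rcases hs with h | h
        · exact Or.inr (Cfsg.Agent.Lib.helper8.isSolvable_of_le hDK)
        · exact Or.inl h
      obtain ⟨d, hd, hd2⟩ := Cfsg.Agent.Lib.helper8.coset_fix H D hHD hcop' hsolv' (k₀ : G) (by
        intro h hh
        refine Subgroup.mem_inf.mpr ⟨?_, ?_⟩
        · have e : (k₀ : G)⁻¹ * h * k₀ * h⁻¹ = (k₀ : G)⁻¹ * (h * k₀ * h⁻¹) := by group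
          rw [e]
          exact K.mul_mem (K.inv_mem k₀.2) (hKn _ k₀.2 h)
        · rw [MulAction.mem_stabilizer_iff, mul_smul, mul_smul, mul_smul, hinv h hh, hk₀',
            hyfix h hh, inv_smul_eq_iff, hk₀'])
      have hc2 : (k₀ : G) * d ∈ Subgroup.centralizer (H : Set G) := by
        rw [Subgroup.mem_centralizer_iff]
        exact fun a ha => hd2 a ha
      refine ⟨(k₀ : G) * d, Subgroup.mem_inf.mpr ⟨K.mul_mem k₀.2 (hDK hd), hc2⟩, ?_⟩
      rw [mul_smul, MulAction.mem_stabilizer_iff.mp hd.2, hk₀']

end Cfsg.Agent.S0059
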