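import Mathlib
import Cfsg.Statements.S1009

set_option autoImplicit false
open Cfsg

namespace Cfsg.Agent.S1009

open scoped Pointwise

/-- Brodkey: if `(P, Q)` minimises the order of the intersection of two Sylow `p`-subgroups and
both are abelian, then `P ⊓ Q` lies in every Sylow `p`-subgroup. -/
theorem brodkey_le {G : Type*} [Group G] [Finite G] (p : ℕ) [Fact p.Prime]
    (P Q : Sylow p G) (hP : ∀ a ∈ P, ∀ b ∈ P, a * b = b * a) (hQ : ∀ a ∈ Q, ∀ b ∈ Q, a * b = b * a)
    (hmin : ∀ P' Q' : Sylow p G,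
      Nat.card ↥((P : Subgroup G) ⊓ (Q : Subgroup G)) ≤ Nat.card ↥((P' : Subgroup G) ⊓ (Q' : Subgroup G)))
    (R : Sylow p G) : (P : Subgroup G) ⊓ (Q : Subgroup G) ≤ (R : Subgroup G) := by
  set D : Subgroup G := (P : Subgroup G) ⊓ (Q : Subgroup G) with hD
  set N : Subgroup G := Subgroup.normalizer (D : Set G) with hN
  have hPN : (P : Subgroup G) ≤ N := by
    intro x hx
    rw [hN, Subgroup.mem_normalizer_iff]
    intro d
    constructor
    · intro hd
      have : x * d * x⁻¹ = d := by
        rw [hP x hx d hd.1]; group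
      rw [this]; exact hd
    · intro hd
      have hdP : x * d * x⁻¹ ∈ (P : Subgroup G) := hd.1
      have hd' : d ∈ (P : Subgroup G) := by
        have := (P : Subgroup G).mul_mem ((P : Subgroup G).mul_mem ((P : Subgroup G).inv_mem hx) hdP) hx
        simpa [mul_assoc] using this
      have : x * d * x⁻¹ = d := by
        rw [hP x hx d hd']; group
      rw [this] at hd; exact hd
  have hQN : (Q : Subgroup G) ≤ N := by
    intro x hx
    rw [hN, Subgroup.mem_normalizer_iff]
    intro d
    constructor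
    · intro hd
      have : x * d * x⁻¹ = d := by
        rw [hQ x hx d hd.2]; group
      rw [this]; exact hd
    · intro hd
      have hdP : x * d * x⁻¹ ∈ (Q : Subgroup G) := hd.2
      have hd' : d ∈ (Q : Subgroup G) := by
        have := (Q : Subgroup G).mul_mem ((Q : Subgroup G).mul_mem ((Q : Subgroup G).inv_mem hx) hdP) hx
        simpa [mul_assoc] using this
      have : x * d * x⁻¹ = d := by
        rw [hQ x hx d hd']; group
      rw [this] at hd; exact hd
  -- Sylow theory inside N
  have hE : IsPGroup p ((R : Subgroup G).subgroupOf N) := R.isPGroup'.comap_subtype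
  obtain ⟨T, hT⟩ := hE.exists_le_sylow
  obtain ⟨n, hn⟩ := MulAction.exists_smul_eq N (P.subtype hPN) T
  have hkey : ∀ y : G, y ∈ (R : Subgroup G) → y ∈ N → (n : G)⁻¹ * y * (n : G) ∈ (P : Subgroup G) := by
    intro y hyR hyN
    have h1 : (⟨y, hyN⟩ : N) ∈ (R : Subgroup G).subgroupOf N := by
      rw [Subgroup.mem_subgroupOf]; exact hyR
    have h2 : (⟨y, hyN⟩ : N) ∈ (T : Subgroup N) := hT h1
    rw [← hn, Sylow.smul_def, Sylow.pointwise_smul_def,
      Subgroup.mem_pointwise_smul_iff_inv_smul_mem] at h2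
    have h3 : (MulAut.conj n)⁻¹ • (⟨y, hyN⟩ : N) ∈ (P : Subgroup G).subgroupOf N := by
      simpa using h2
    rw [Subgroup.mem_subgroupOf] at h3
    simpa [MulAut.smul_def, MulAut.conj_inv_apply] using h3
  -- the Sylow subgroup n • Q
  have hle : (R : Subgroup G) ⊓ (((n : G) • Q : Sylow p G) : Subgroup G) ≤ D := by
    intro y hy
    have hyR : y ∈ (R : Subgroup G) := hy.1
    have hyQ : (n : G)⁻¹ * y * (n : G) ∈ (Q : Subgroup G) := by
      have h2 : y ∈ (((n : G) • Q : Sylow p G) : Subgroup G) := hy.2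
      rw [Sylow.smul_def, Sylow.pointwise_smul_def,
        Subgroup.mem_pointwise_smul_iff_inv_smul_mem] at h2
      simpa [MulAut.smul_def, MulAut.conj_inv_apply] using h2
    have hyN : y ∈ N := by
      have h3 : (n : G)⁻¹ * y * (n : G) ∈ N := hQN hyQ
      have := N.mul_mem (N.mul_mem n.2 h3) (N.inv_mem n.2)
      simpa [mul_assoc] using this
    have hyP := hkey y hyR hyN
    have hnD : (n : G)⁻¹ * y * (n : G) ∈ D := ⟨hyP, hyQ⟩
    have hnN : (n : G) ∈ Subgroup.normalizer (D : Set G) := n.2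
    exact (Subgroup.mem_normalizer_iff''.mp hnN y).mpr hnD
  have hcard := hmin R ((n : G) • Q)
  have heq := Subgroup.eq_of_le_of_card_ge hle hcard
  rw [← heq]
  exact inf_le_left

/-- Brodkey's Theorem: if a finite group has abelian Sylow p-subgroups, then there are two Sylow p-subgroups whose intersection equals the intersection of all Sylow p-subgroups. -/
theorem result {G : Type*} [Group G] [Finite G] (p : ℕ) [Fact p.Prime] (hab : ∀ P : Sylow p G, IsMulCommutative ↥(P : Subgroup G)) : ∃ P Q : Sylow p G, (P : Subgroup G) ⊓ (Q : Subgroup G) = ⨅ R : Sylow p G, (R : Subgroup G) := by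
  obtain ⟨⟨P, Q⟩, hmin⟩ := Finite.exists_min
    (fun PQ : Sylow p G × Sylow p G => Nat.card ↥((PQ.1 : Subgroup G) ⊓ (PQ.2 : Subgroup G)))
  have hcomm : ∀ P : Sylow p G, ∀ a ∈ P, ∀ b ∈ P, a * b = b * a := by
    intro P a ha b hb
    haveI := hab P
    have := mul_comm' (⟨a, ha⟩ : (P : Subgroup G)) ⟨b, hb⟩
    exact congrArg Subtype.val this
  refine ⟨P, Q, le_antisymm ?_ ?_⟩
  · apply le_iInf
    intro R
    exact brodkey_le p P Q (hcomm P) (hcomm Q) (fun P' Q' => hmin (P', Q')) R
  · exact le_inf (iInf_le _ P) (iInf_le _ Q)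

end Cfsg.Agent.S1009
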