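import Mathlib
import Cfsg.Statements.S0060
import Cfsg.Agent.S1009

set_option autoImplicit false
open Pointwise
open Cfsg

namespace Cfsg.Agent.S0060

theorem mem_smul_sylow {G : Type*} [Group G] (p : ℕ) (g : G) (S : Sylow p G) (x : G) :
    x ∈ ((g • S : Sylow p G) : Subgroup G) ↔ g⁻¹ * x * g ∈ (S : Subgroup G) := by
  rw [Sylow.smul_def, Sylow.pointwise_smul_def, Subgroup.mem_pointwise_smul_iff_inv_smul_mem]
  simp [MulAut.smul_def]

/-- Brodkey's Theorem: in a finite group with abelian Sylow p-subgroups and no nontrivial normal p-subgroup, some conjugate of a Sylow p-subgroup meets it trivially. -/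
theorem result {G : Type*} [Group G] [Finite G] (p : ℕ) [Fact p.Prime]
    (S : Sylow p G) (hS : IsMulCommutative S) (hOp : Cfsg.pCore p G = ⊥) :
    ∃ g : G, (S : Subgroup G) ⊓ MulAut.conj g • (S : Subgroup G) = ⊥ := by
  have hScomm : ∀ a ∈ S, ∀ b ∈ S, a * b = b * a := by
    intro a ha b hb
    have := mul_comm' (⟨a, ha⟩ : (S : Subgroup G)) ⟨b, hb⟩
    exact congrArg Subtype.val this
  have hcomm : ∀ P : Sylow p G, ∀ a ∈ P, ∀ b ∈ P, a * b = b * a := by
    intro P a ha b hb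
    obtain ⟨g, rfl⟩ := MulAction.exists_smul_eq G S P
    have ha' := (mem_smul_sylow p g S a).mp ha
    have hb' := (mem_smul_sylow p g S b).mp hb
    have h := hScomm _ ha' _ hb'
    have h2 : g * (g⁻¹ * a * g * (g⁻¹ * b * g)) * g⁻¹ = g * (g⁻¹ * b * g * (g⁻¹ * a * g)) * g⁻¹ := by
      rw [h]
    simpa [mul_assoc] using h2
  obtain ⟨⟨P, Q⟩, hmin⟩ := Finite.exists_min
    (fun PQ : Sylow p G × Sylow p G => Nat.card ↥((PQ.1 : Subgroup G) ⊓ (PQ.2 : Subgroup G)))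
  have hle : ∀ R : Sylow p G, (P : Subgroup G) ⊓ (Q : Subgroup G) ≤ (R : Subgroup G) :=
    fun R => Cfsg.Agent.S1009.brodkey_le p P Q (hcomm P) (hcomm Q) (fun P' Q' => hmin (P', Q')) R
  -- P ⊓ Q is a normal p-subgroup, hence trivial
  have hnormal : ((P : Subgroup G) ⊓ (Q : Subgroup G)).Normal := by
    constructor
    intro x hx g
    have h1 : g * x * g⁻¹ ∈ ((g • P : Sylow p G) : Subgroup G) := by
      rw [mem_smul_sylow]
      have : g⁻¹ * (g * x * g⁻¹) * g = x := by group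
      rw [this]; exact hx.1
    have h2 : x ∈ ((g⁻¹ • P : Sylow p G) : Subgroup G) := hle _ hx
    have h3 : x ∈ ((g⁻¹ • Q : Sylow p G) : Subgroup G) := hle _ hx
    rw [mem_smul_sylow] at h2 h3
    simp only [inv_inv] at h2 h3
    exact ⟨h2, h3⟩
  have hpg : IsPGroup p ↥((P : Subgroup G) ⊓ (Q : Subgroup G)) := P.isPGroup'.to_le inf_le_left
  have hbot : (P : Subgroup G) ⊓ (Q : Subgroup G) = ⊥ := by
    have : (P : Subgroup G) ⊓ (Q : Subgroup G) ≤ Cfsg.pCore p G := by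
      unfold Cfsg.pCore
      exact le_sSup ⟨hnormal, hpg⟩
    rw [hOp] at this
    exact le_bot_iff.mp this
  obtain ⟨g₁, rfl⟩ := MulAction.exists_smul_eq G S P
  obtain ⟨g₂, rfl⟩ := MulAction.exists_smul_eq G S Q
  refine ⟨g₁⁻¹ * g₂, ?_⟩
  rw [Subgroup.eq_bot_iff_forall]
  intro x hx
  have hx1 : x ∈ (S : Subgroup G) := hx.1
  have hx2 : x ∈ MulAut.conj (g₁⁻¹ * g₂) • (S : Subgroup G) := hx.2
  rw [Subgroup.mem_pointwise_smul_iff_inv_smul_mem] at hx2
  have e : (MulAut.conj (g₁⁻¹ * g₂))⁻¹ • x = g₂⁻¹ * (g₁ * x * g₁⁻¹) * g₂ := by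
    simp [MulAut.smul_def, mul_assoc]
  rw [e] at hx2
  have hmem : g₁ * x * g₁⁻¹ ∈ ((g₁ • S : Sylow p G) : Subgroup G) ⊓ ((g₂ • S : Sylow p G) : Subgroup G) := by
    constructor
    · show g₁ * x * g₁⁻¹ ∈ ((g₁ • S : Sylow p G) : Subgroup G)
      rw [mem_smul_sylow]
      have : g₁⁻¹ * (g₁ * x * g₁⁻¹) * g₁ = x := by group
      rw [this]; exact hx1
    · show g₁ * x * g₁⁻¹ ∈ ((g₂ • S : Sylow p G) : Subgroup G)
      rw [mem_smul_sylow]
      exact hx2
  rw [hbot, Subgroup.mem_bot] at hmem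
  have : x = g₁⁻¹ * (g₁ * x * g₁⁻¹) * g₁ := by group
  rw [this, hmem]; group

end Cfsg.Agent.S0060
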