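import Cfsg.Statements.S0063
import Mathlib

set_option autoImplicit false
open Cfsg

namespace Cfsg.Agent.S0063

universe u

theorem aux (p : ℕ) [Fact p.Prime] (m : ℕ) : ∀ {G : Type u} [Group G] [Finite G],
    Nat.card G = p ^ m → Group.nilpotencyClass G ≤ max (m - 1) 1 := by
  induction m using Nat.strong_induction_on with
  | _ m ih =>
    intro G _ _ hG
    have hp : p.Prime := Fact.out
    have hPG : IsPGroup p G := IsPGroup.of_card hG
    haveI : Group.IsNilpotent G := hPG.isNilpotent
    rcases Nat.eq_zero_or_pos m with hm0 | hmpos
    · subst hm0
      rw [pow_zero] at hG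
      have : Subsingleton G := (Nat.card_eq_one_iff_unique.mp hG).1
      have h0 : Group.nilpotencyClass G = 0 := Group.nilpotencyClass_zero_iff_subsingleton.mpr this
      rw [h0]; exact Nat.zero_le _
    · haveI : Nontrivial G := by
        rw [← Finite.one_lt_card_iff_nontrivial, hG]
        exact Nat.one_lt_pow hmpos.ne' hp.one_lt
      haveI hZnt : Nontrivial (Subgroup.center G) := hPG.center_nontrivial
      obtain ⟨j, hj⟩ := (IsPGroup.iff_card).mp (hPG.to_subgroup (Subgroup.center G))
      have hj1 : 1 ≤ j := by
        rcases Nat.eq_zero_or_pos j with h0 | h0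
        · exfalso
          rw [h0, pow_zero] at hj
          have h1 : 1 < Nat.card (Subgroup.center G) := Finite.one_lt_card_iff_nontrivial.mpr hZnt
          omega
        · exact h0
      have hmul : Nat.card G = Nat.card (G ⧸ Subgroup.center G) * Nat.card (Subgroup.center G) :=
        Subgroup.card_eq_card_quotient_mul_card_subgroup _
      have hjm : j ≤ m := by
        have : p ^ j ∣ p ^ m := by rw [← hj, ← hG, hmul]; exact Dvd.intro_left _ rfl
        exact (Nat.pow_dvd_pow_iff_le_right hp.one_lt).mp this
      have hQ : Nat.card (G ⧸ Subgroup.center G) = p ^ (m - j) := by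
        have hpos : 0 < p ^ j := Nat.pow_pos hp.pos
        apply Nat.eq_of_mul_eq_mul_right hpos
        rw [← hj, ← hmul, hG, hj, ← pow_add, Nat.sub_add_cancel hjm]
      have hih := ih (m - j) (by omega) hQ
      have hcls : Group.nilpotencyClass G = Group.nilpotencyClass (G ⧸ Subgroup.center G) + 1 :=
        Group.nilpotencyClass_eq_quotient_center_plus_one
      rcases Nat.lt_or_ge (m - j) 2 with hlt | hge
      · rcases Nat.eq_zero_or_pos (m - j) with h0 | h0
        · rw [h0, pow_zero] at hQ
          have : Subsingleton (G ⧸ Subgroup.center G) := (Nat.card_eq_one_iff_unique.mp hQ).1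
          have hq0 : Group.nilpotencyClass (G ⧸ Subgroup.center G) = 0 :=
            Group.nilpotencyClass_zero_iff_subsingleton.mpr this
          rw [hcls, hq0]
          exact le_max_right _ _
        · exfalso
          have h1 : m - j = 1 := by omega
          rw [h1, pow_one] at hQ
          haveI : IsCyclic (G ⧸ Subgroup.center G) := isCyclic_of_prime_card hQ
          have hcomm := commutative_of_cyclic_center_quotient (QuotientGroup.mk' (Subgroup.center G))
            (by rw [QuotientGroup.ker_mk'])
          have htop : Subgroup.center G = ⊤ := by
            rw [eq_top_iff]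
            intro g _
            rw [Subgroup.mem_center_iff]
            intro h
            exact hcomm h g
          have : Nat.card (Subgroup.center G) = Nat.card G := by rw [htop, Subgroup.card_top]
          rw [hj, hG] at this
          have := Nat.pow_right_injective hp.two_le this
          omega
      · have h2 : max (m - j - 1) 1 = m - j - 1 := max_eq_left (by omega)
        rw [h2] at hih
        rw [hcls]
        have : m - j ≤ m - 1 := by omega
        have h3 : m - 1 ≤ max (m - 1) 1 := le_max_left _ _
        omega

/-- A finite group of prime-power order p ^ m with m > 1 is nilpotent of class at most m - 1. -/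
theorem result {G : Type*} [Group G] [Finite G] (p m : ℕ) [Fact p.Prime]
    (hG : Nat.card G = p ^ m) (hm : 1 < m) : Group.nilpotencyClass G ≤ m - 1 := by
  have := aux p m hG
  rwa [max_eq_left (by omega)] at this

end Cfsg.Agent.S0063
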