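import Cfsg.Statements.S0064
import Mathlib

set_option autoImplicit false
open Pointwise
open Cfsg

namespace Cfsg.Agent.S0064

theorem subnormal_of_normalizerCondition {G : Type*} [Group G] [Finite G]
    (hnc : NormalizerCondition G) (H : Subgroup G) : H.IsSubnormal := by
  induction H using (wellFounded_gt (α := Subgroup G)).induction with
  | _ H ih =>
    by_cases hH : H = ⊤
    · rw [hH]; exact Subgroup.IsSubnormal.top
    · have hlt : H < Subgroup.normalizer (H : Set G) := hnc H (lt_top_iff_ne_top.mpr hH)
      exact Subgroup.IsSubnormal.step H _ Subgroup.le_normalizer (ih _ hlt)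
        Subgroup.normal_in_normalizer

theorem result {G : Type*} [Group G] [Finite G] :
    Group.IsNilpotent G ↔ ∀ H : Subgroup G, H.IsSubnormal := by
  constructor
  · intro h H
    exact subnormal_of_normalizerCondition normalizerCondition_of_isNilpotent H
  · intro h
    have tfae := Group.isNilpotent_of_finite_tfae (G := G)
    refine (tfae.out 0 2).mpr ?_
    intro H hH
    rcases (h H).lt_normal with htop | ⟨K, hKn, hHK, hKtop⟩
    · exact absurd htop hH.1
    · have hKH : K = H := by
        by_contra hne
        have hlt : H < K := lt_of_le_of_ne hHK (Ne.symm hne)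
        exact (ne_of_lt hKtop) (hH.2 K hlt)
      rw [← hKH]; exact hKn

end Cfsg.Agent.S0064
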