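import Cfsg.Statements.S0067
import Cfsg.Agent.Lib.helper20.Zipper
import Cfsg.Agent.Lib.helper7.Subn

set_option autoImplicit false
open Pointwise
open Cfsg

namespace Cfsg.Agent.S0067

/-- If the join of a subgroup A with each of its conjugates is nilpotent, then A is subnormal in the finite group and contained in the Fitting subgroup. -/
theorem result {G : Type*} [Group G] [Finite G] (A : Subgroup G)
    (h : ∀ g : G, Group.IsNilpotent (A ⊔ MulAut.conj g • A : Subgroup G)) : A.IsSubnormal ∧ A ≤ Cfsg.fittingSubgroup G := by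
  have hsub : A.IsSubnormal := by
    apply Cfsg.Agent.Lib.helper20.wielandt_criterion
    intro g
    haveI := h g
    exact Cfsg.Agent.Lib.helper20.subnormal_of_isNilpotent _
  refine ⟨hsub, ?_⟩
  have hAnil : Group.IsNilpotent A :=
    Cfsg.Agent.Lib.helper20.isNilpotent_of_le (le_sup_left (b := MulAut.conj (1 : G) • A)) (h 1)
  have hF : Cfsg.fittingSubgroup ↥A = ⊤ := by
    rw [eq_top_iff]
    exact le_sSup ⟨inferInstance, Group.isNilpotent_top.mpr hAnil⟩
  have h1 := Cfsg.Agent.Lib.helper7.fitting_subnormal_eq hsub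
  rw [hF, ← MonoidHom.range_eq_map, Subgroup.range_subtype] at h1
  rw [h1]
  exact inf_le_left

end Cfsg.Agent.S0067
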