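import Cfsg.Statements.S0070
import Mathlib
import Cfsg.Agent.Lib.helper1.Fitting

set_option autoImplicit false
open Cfsg

namespace Cfsg.Agent.S0070

open Cfsg.Agent.Lib.helper1

/-- The Fitting subgroup commutes with passing to the Frattini quotient: the Fitting subgroup of G modulo its Frattini subgroup is the image of the Fitting subgroup of G. -/
theorem result {G : Type*} [Group G] [Finite G] :
    Cfsg.fittingSubgroup (G ⧸ frattini G) = (Cfsg.fittingSubgroup G).map (QuotientGroup.mk' (frattini G)) := by
  set Φ := frattini G with hΦ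
  set π := QuotientGroup.mk' Φ with hπdef
  have hπ : Function.Surjective π := QuotientGroup.mk'_surjective Φ
  apply le_antisymm
  · rw [fitting_eq_iSup_pCore]
    apply iSup_le
    intro p
    haveI : Fact (p : ℕ).Prime := ⟨p.2⟩
    set L := (Cfsg.pCore (p : ℕ) (G ⧸ Φ)).comap π with hL
    haveI hLn : L.Normal := (pCore_normal p (G ⧸ Φ)).comap π
    have hΦL : Φ ≤ L := by
      have := MonoidHom.ker_le_comap π (Cfsg.pCore (p : ℕ) (G ⧸ Φ))
      rwa [hπdef, QuotientGroup.ker_mk'] at this
    let P : Sylow (p : ℕ) L := default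
    set P' := (P : Subgroup L).map L.subtype with hP'
    have hP'L : P' ≤ L := Subgroup.map_subtype_le _
    have hLle : L ≤ P' ⊔ Φ := by
      rw [← Subgroup.relIndex_eq_one]
      have h1 : (P' ⊔ Φ).relIndex L ∣ P'.relIndex L :=
        Subgroup.relIndex_dvd_of_le_left L le_sup_left
      have h2 : (P' ⊔ Φ).relIndex L ∣ Φ.relIndex L :=
        Subgroup.relIndex_dvd_of_le_left L le_sup_right
      have h3 : P'.relIndex L = (P : Subgroup L).index := by
        rw [Subgroup.relIndex, hP', Subgroup.subgroupOf,
          Subgroup.comap_map_eq_self_of_injective L.subtype_injective]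
      have h4 : Φ.relIndex L = Nat.card (Cfsg.pCore (p : ℕ) (G ⧸ Φ)) := by
        have := Subgroup.relIndex_ker (K := L) π
        rw [hπdef, QuotientGroup.ker_mk'] at this
        rw [this, hL, ← hπdef, Subgroup.map_comap_eq_self_of_surjective hπ]
      obtain ⟨k, hk⟩ := (IsPGroup.iff_card).mp (pCore_isPGroup (p : ℕ) (G ⧸ Φ))
      rw [h4, hk] at h2
      rw [h3] at h1
      obtain ⟨j, hj, hj'⟩ := (Nat.dvd_prime_pow p.2).mp h2
      rcases Nat.eq_zero_or_pos j with h0 | h0
      · rw [hj', h0, pow_zero]
      · exfalso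
        have : (p : ℕ) ∣ (P : Subgroup L).index := by
          rw [hj'] at h1
          exact (dvd_pow_self _ h0.ne').trans h1
        exact P.not_dvd_index this
    have hfr := Sylow.normalizer_sup_eq_top P
    have hnorm : Subgroup.normalizer (P' : Set G) = ⊤ := by
      apply frattini_nongenerating
      apply top_unique
      rw [← hfr]
      apply sup_le
      · exact le_sup_left
      · calc L ≤ P' ⊔ Φ := hLle
          _ ≤ Subgroup.normalizer (P' : Set G) ⊔ Φ := sup_le_sup_right Subgroup.le_normalizer _
    have hP'n : P'.Normal := Subgroup.normalizer_eq_top_iff.mp hnorm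
    have hP'le : P' ≤ Cfsg.pCore (p : ℕ) G := le_pCore hP'n (P.isPGroup'.map _)
    have hΦbot : Φ.map π = ⊥ := by
      rw [hπdef, QuotientGroup.map_mk'_self]
    calc Cfsg.pCore (p : ℕ) (G ⧸ Φ) = L.map π :=
          (Subgroup.map_comap_eq_self_of_surjective hπ _).symm
      _ ≤ (P' ⊔ Φ).map π := Subgroup.map_mono hLle
      _ = P'.map π := by rw [Subgroup.map_sup, hΦbot, sup_bot_eq]
      _ ≤ (Cfsg.pCore (p : ℕ) G).map π := Subgroup.map_mono hP'le
      _ ≤ (Cfsg.fittingSubgroup G).map π := Subgroup.map_mono (pCore_le_fitting p G)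
  · apply le_fitting
    · exact (fitting_normal G).map π hπ
    · haveI := fitting_isNilpotent G
      exact Group.nilpotent_of_surjective (π.subgroupMap (Cfsg.fittingSubgroup G))
        (MonoidHom.subgroupMap_surjective _ _)

end Cfsg.Agent.S0070
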