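import Cfsg.Statements.S0085
import Mathlib

set_option autoImplicit false
open Pointwise
open Cfsg

namespace Cfsg.Agent.S0085

theorem fixed_modEq {T : Type*} [Group T] [Finite T] (q : ℕ) [Fact q.Prime] (α : MulAut T)
    (hα : α ^ q = 1) :
    ∃ F : Subgroup T, (∀ t, t ∈ F ↔ α t = t) ∧ Nat.card T ≡ Nat.card F [MOD q] := by
  let F : Subgroup T :=
    { carrier := {t | α t = t}
      mul_mem' := by
        intro a b ha hb
        simp only [Set.mem_ofPred_eq] at ha hb ⊢
        rw [map_mul, ha, hb]
      one_mem' := by simp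
      inv_mem' := by
        intro a ha
        simp only [Set.mem_ofPred_eq] at ha ⊢
        rw [map_inv, ha] }
  refine ⟨F, fun t => Iff.rfl, ?_⟩
  have hZ : IsPGroup q (Subgroup.zpowers α) := by
    have hq : q.Prime := Fact.out
    have hdvd : orderOf α ∣ q := orderOf_dvd_of_pow_eq_one hα
    rcases (Nat.dvd_prime hq).mp hdvd with h1 | h1
    · exact IsPGroup.of_card (n := 0) (by rw [Nat.card_zpowers, h1, pow_zero])
    · exact IsPGroup.of_card (n := 1) (by rw [Nat.card_zpowers, h1, pow_one])
  have h := hZ.card_modEq_card_fixedPoints T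
  have hfix : (MulAction.fixedPoints (Subgroup.zpowers α) T) = (F : Set T) := by
    ext t
    simp only [MulAction.mem_fixedPoints, SetLike.mem_coe]
    constructor
    · intro ht
      exact ht ⟨α, Subgroup.mem_zpowers α⟩
    · intro ht β
      obtain ⟨β, hβ⟩ := β
      obtain ⟨k, rfl⟩ := Subgroup.mem_zpowers_iff.mp hβ
      show (α ^ k) t = t
      have ht' : α t = t := ht
      have hst : α ^ k ∈ MulAction.stabilizer (MulAut T) t :=
        Subgroup.zpow_mem _ (MulAction.mem_stabilizer_iff.mpr ht') k
      exact MulAction.mem_stabilizer_iff.mp hst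
  rw [hfix] at h
  exact h

theorem aut_five {T : Type*} [Group T] [Finite T] (h8 : Nat.card T = 8) (α : MulAut T) (hα : α ^ 5 = 1) :
    α = 1 := by
  have : Fact (Nat.Prime 5) := ⟨by norm_num⟩
  obtain ⟨F, hF, hmod⟩ := fixed_modEq 5 α hα
  have hdvd : Nat.card F ∣ 8 := h8 ▸ Subgroup.card_subgroup_dvd_card F
  rw [h8] at hmod
  have hle : Nat.card F ≤ 8 := Nat.le_of_dvd (by norm_num) hdvd
  have hF8 : Nat.card F = 8 := by
    generalize Nat.card F = c at *
    unfold Nat.ModEq at hmod
    interval_cases c <;> omega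
  have htop : F = ⊤ := Subgroup.eq_top_of_card_eq _ (by rw [hF8, h8])
  ext t
  have : t ∈ F := by rw [htop]; trivial
  simpa using (hF t).mp this

/-- A group whose Sylow 2-subgroups are elementary abelian of order 8 and whose order is prime to 3 and to 7 has a normal 2-complement. -/
theorem result {G : Type*} [Group G] [Finite G] (T : Sylow 2 G) (h8 : Nat.card T = 8) (he : ∀ x : T, x * x = 1) (h3 : ¬ 3 ∣ Nat.card G) (h7 : ¬ 7 ∣ Nat.card G) : Cfsg.HasNormalPComplement 2 G := by
  have : Fact (Nat.Prime 2) := ⟨Nat.prime_two⟩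
  have hcomm : IsMulCommutative T := by
    refine ⟨⟨fun a b => ?_⟩⟩
    have h1 := he (a * b)
    have ha := he a
    have hb := he b
    calc a * b = a * (a * b * (a * b)) * b := by rw [h1, mul_one]
      _ = (a * a) * (b * a) * (b * b) := by group
      _ = b * a := by rw [ha, hb, one_mul, mul_one]
  have key := Subgroup.card_dvd_of_injective _ (QuotientGroup.kerLift_injective (T : Subgroup G).normalizerMonoidHom)
  rw [← Subgroup.index] at key
  set φ := (T : Subgroup G).normalizerMonoidHom with hφ
  have hker : φ.ker = (Subgroup.centralizer (T : Set G)).subgroupOf (Subgroup.normalizer (T : Set G)) :=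
    Subgroup.normalizerMonoidHom_ker _
  have h1 : Nat.card (MulAut T) ∣ 40320 := by
    have hinj : Function.Injective (MulAut.toPerm (T : Subgroup G)) := by
      intro a b hab
      ext x
      exact congrArg Subtype.val (congrFun (congrArg (fun e : Equiv.Perm T => (e : T → T)) hab) x)
    have := Subgroup.card_dvd_of_injective (MulAut.toPerm (T : Subgroup G)) hinj
    rw [Nat.card_perm, h8] at this
    exact this
  have h2 : φ.ker.index ∣ (T : Subgroup G).index := by
    rw [hker, ← Subgroup.relIndex]
    exact (Subgroup.relIndex_dvd_of_le_left _ T.le_centralizer).trans (Subgroup.relIndex_dvd_index_of_le T.le_normalizer)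
  have h2c : Nat.Coprime (T : Subgroup G).index 2 :=
    Nat.Coprime.symm ((Nat.Prime.coprime_iff_not_dvd Nat.prime_two).mpr T.not_dvd_index)
  have h3c : Nat.Coprime (T : Subgroup G).index 3 :=
    Nat.Coprime.symm ((Nat.Prime.coprime_iff_not_dvd Nat.prime_three).mpr
      (fun h => h3 (h.trans (Subgroup.index_dvd_card _))))
  have h7c : Nat.Coprime (T : Subgroup G).index 7 :=
    Nat.Coprime.symm ((Nat.Prime.coprime_iff_not_dvd (by norm_num)).mpr
      (fun h => h7 (h.trans (Subgroup.index_dvd_card _))))
  have hcop : Nat.Coprime (T : Subgroup G).index (2 ^ 7 * 3 ^ 2 * 7) :=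
    Nat.Coprime.mul_right (Nat.Coprime.mul_right (Nat.Coprime.pow_right 7 h2c) (Nat.Coprime.pow_right 2 h3c)) h7c
  have h5 : φ.ker.index ∣ 5 := by
    have hd : φ.ker.index ∣ (2 ^ 7 * 3 ^ 2 * 7) * 5 := key.trans (by norm_num at h1 ⊢; exact h1)
    exact (Nat.Coprime.dvd_mul_left (hcop.coprime_dvd_left h2)).mp hd
  have hpow : ∀ g : Subgroup.normalizer (T : Set G), g ^ 5 ∈ φ.ker := by
    intro g
    obtain ⟨k, hk⟩ := h5
    have := Subgroup.pow_index_mem φ.ker g
    rw [hk, pow_mul]
    exact Subgroup.pow_mem _ this k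
  have hall : ∀ g : Subgroup.normalizer (T : Set G), g ∈ φ.ker := by
    intro g
    rw [MonoidHom.mem_ker]
    apply aut_five h8
    rw [← map_pow]
    exact (MonoidHom.mem_ker).mp (hpow g)
  have hNC : Subgroup.normalizer (T : Set G) ≤ Subgroup.centralizer (T : Set G) := by
    intro g hg
    have := hall ⟨g, hg⟩
    rw [hker, Subgroup.mem_subgroupOf] at this
    exact this
  exact ⟨T, _, inferInstance, MonoidHom.ker_transferSylow_isComplement' T hNC⟩

end Cfsg.Agent.S0085
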