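import Cfsg.Statements.S0073
import Cfsg.Agent.S0085
import Mathlib

set_option autoImplicit false
open Pointwise
open Cfsg

namespace Cfsg.Agent.S0073

/-- an automorphism of prime order `q > p` of a group of order `p ^ k`, `k ≤ 2`, forces `p = 2`, `q = 3`, `k = 2` -/
theorem aut_small {T : Type*} [Group T] [Finite T] {p q k : ℕ} [Fact p.Prime] [Fact q.Prime]
    (hk : k ≤ 2) (hT : Nat.card T = p ^ k) (hpq : p < q) (α : MulAut T) (hα : α ^ q = 1) (hne : α ≠ 1) :
    p = 2 ∧ q = 3 ∧ k = 2 := by
  have hp : p.Prime := Fact.out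
  have hq : q.Prime := Fact.out
  obtain ⟨F, hF, hmod⟩ := Cfsg.Agent.S0085.fixed_modEq q α hα
  have hdvd : Nat.card F ∣ p ^ k := hT ▸ Subgroup.card_subgroup_dvd_card F
  obtain ⟨j, hjk, hj⟩ := (Nat.dvd_prime_pow hp).mp hdvd
  have hjlt : j < k := by
    rcases Nat.lt_or_ge j k with h | h
    · exact h
    · exfalso
      have hjk' : j = k := le_antisymm hjk h
      have htop : F = ⊤ := Subgroup.eq_top_of_card_eq _ (by rw [hj, hT, hjk'])
      apply hne
      ext t
      have : t ∈ F := by rw [htop]; trivial
      simpa using (hF t).mp this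
  rw [hT, hj] at hmod
  have hle : p ^ j ≤ p ^ k := Nat.pow_le_pow_right hp.pos hjk
  have hd : q ∣ p ^ k - p ^ j := (Nat.modEq_iff_dvd' hle).mp hmod.symm
  have hnd1 : ¬ q ∣ p - 1 := by
    intro h
    have h1 : 0 < p - 1 := by have := hp.two_le; omega
    have := Nat.le_of_dvd h1 h
    omega
  have hndp : ¬ q ∣ p := by
    intro h
    have := Nat.le_of_dvd hp.pos h
    omega
  have hk' : k = 1 ∨ k = 2 := by omega
  rcases hk' with rfl | rfl
  · have hj0 : j = 0 := by omega
    subst hj0
    simp only [pow_one, pow_zero] at hd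
    exact absurd hd hnd1
  · have hj' : j = 0 ∨ j = 1 := by omega
    rcases hj' with rfl | rfl
    · have e : p ^ 2 - p ^ 0 = (p - 1) * (p + 1) := by
        have h1 := hp.one_le
        obtain ⟨m, rfl⟩ : ∃ m, p = m + 1 := ⟨p - 1, by omega⟩
        simp only [pow_zero, Nat.add_sub_cancel]
        have : (m + 1) ^ 2 = m * (m + 1 + 1) + 1 := by ring
        omega
      rw [e] at hd
      rcases (Nat.Prime.dvd_mul hq).mp hd with h | h
      · exact absurd h hnd1
      · have h1 := Nat.le_of_dvd (by omega) h
        have hqp : q = p + 1 := by omega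
        have hp2 : p = 2 := by
          rcases hp.eq_two_or_odd with h2 | h2
          · exact h2
          · rcases hq.eq_two_or_odd with h3 | h3
            · have := hp.two_le; omega
            · omega
        exact ⟨hp2, by omega, rfl⟩
    · have e : p ^ 2 - p ^ 1 = p * (p - 1) := by
        have h1 := hp.one_le
        obtain ⟨m, rfl⟩ : ∃ m, p = m + 1 := ⟨p - 1, by omega⟩
        simp only [pow_one, Nat.add_sub_cancel]
        have : (m + 1) ^ 2 = (m + 1) * m + (m + 1) := by ring
        omega
      rw [e] at hd
      rcases (Nat.Prime.dvd_mul hq).mp hd with h | h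
      · exact absurd h hndp
      · exact absurd h hnd1

/-- For a finite non-abelian simple group, either the cube of the least prime divisor of the order divides the order, or 12 does. -/
theorem result {G : Type*} [Group G] [Finite G] [IsSimpleGroup G] (hG : ∃ x y : G, x * y ≠ y * x) : (Nat.card G).minFac ^ 3 ∣ Nat.card G ∨ 12 ∣ Nat.card G := by
  have hcard1 : Nat.card G ≠ 1 := by
    intro h
    obtain ⟨x, y, hxy⟩ := hG
    have : Subsingleton G := (Nat.card_eq_one_iff_unique.mp h).1
    exact hxy (Subsingleton.elim _ _)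
  set p := (Nat.card G).minFac with hpdef
  have hp : p.Prime := Nat.minFac_prime hcard1
  haveI : Fact p.Prime := ⟨hp⟩
  have hpG : p ∣ Nat.card G := Nat.minFac_dvd _
  obtain ⟨P⟩ : Nonempty (Sylow p G) := inferInstance
  obtain ⟨k, hk⟩ := (IsPGroup.iff_card.mp P.2)
  have hPdvd : Nat.card P ∣ Nat.card G := Subgroup.card_subgroup_dvd_card _
  by_cases hk3 : 3 ≤ k
  · left
    exact (pow_dvd_pow p hk3).trans (hk ▸ hPdvd)
  have hk2 : k ≤ 2 := by omega
  have hk0 : k ≠ 0 := by
    rintro rfl
    rw [pow_zero] at hk
    have := P.card_eq_multiplicity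
    rw [hk] at this
    have h0 : (Nat.card G).factorization p = 0 := by
      by_contra h
      have : 1 < p ^ (Nat.card G).factorization p := Nat.one_lt_pow h hp.one_lt
      omega
    have hpos : 0 < (Nat.card G).factorization p :=
      hp.factorization_pos_of_dvd Nat.card_pos.ne' hpG
    omega
  haveI hcomm : IsMulCommutative P := by
    have hk' : k = 1 ∨ k = 2 := by omega
    rcases hk' with rfl | rfl
    · rw [pow_one] at hk
      haveI := isCyclic_of_prime_card hk
      infer_instance
    · exact IsPGroup.isMulCommutative_of_card_eq_prime_sq hk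
  set φ := (P : Subgroup G).normalizerMonoidHom with hφ
  have hker : φ.ker = (Subgroup.centralizer (P : Set G)).subgroupOf (Subgroup.normalizer (P : Set G)) :=
    Subgroup.normalizerMonoidHom_ker _
  have h2 : φ.ker.index ∣ (P : Subgroup G).index := by
    rw [hker, ← Subgroup.relIndex]
    exact (Subgroup.relIndex_dvd_of_le_left _ P.le_centralizer).trans (Subgroup.relIndex_dvd_index_of_le P.le_normalizer)
  have hrange : Nat.card φ.range = φ.ker.index := (Subgroup.index_ker φ).symm
  by_cases htriv : φ.ker.index = 1
  · -- Burnside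
    exfalso
    have hNC : Subgroup.normalizer (P : Set G) ≤ Subgroup.centralizer (P : Set G) := by
      intro g hg
      have : (⟨g, hg⟩ : Subgroup.normalizer (P : Set G)) ∈ φ.ker := by
        rw [Subgroup.index_eq_one.mp htriv]; trivial
      rw [hker, Subgroup.mem_subgroupOf] at this
      exact this
    have hcompl := MonoidHom.ker_transferSylow_isComplement' P hNC
    have hcm := hcompl.card_mul_card
    rcases (MonoidHom.normal_ker (MonoidHom.transferSylow P hNC)).eq_bot_or_eq_top with hb | ht
    · rw [hb] at hcm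
      simp only [Subgroup.card_bot, one_mul] at hcm
      have hPtop : (P : Subgroup G) = ⊤ := Subgroup.eq_top_of_card_eq _ hcm
      obtain ⟨x, y, hxy⟩ := hG
      apply hxy
      have hx : x ∈ Subgroup.centralizer ((P : Subgroup G) : Set G) := hNC (by
        have : x ∈ (P : Subgroup G) := by rw [hPtop]; trivial
        exact P.le_normalizer this)
      have hy : y ∈ (P : Subgroup G) := by rw [hPtop]; trivial
      exact ((Subgroup.mem_centralizer_iff.mp hx) y hy).symm
    · rw [ht] at hcm
      simp only [Subgroup.card_top] at hcm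
      have hP1 : Nat.card P = 1 := by
        have hpos : 0 < Nat.card G := Nat.card_pos
        have : Nat.card G * Nat.card (P : Subgroup G) = Nat.card G * 1 := by rw [mul_one]; exact hcm
        exact Nat.eq_of_mul_eq_mul_left hpos this
      rw [hk] at hP1
      have : 1 < p ^ k := Nat.one_lt_pow hk0 hp.one_lt
      omega
  · -- an automorphism of prime order q
    right
    obtain ⟨q, hq, hqd⟩ := Nat.exists_prime_and_dvd htriv
    haveI : Fact q.Prime := ⟨hq⟩
    rw [← hrange] at hqd
    obtain ⟨α, hα⟩ := exists_prime_orderOf_dvd_card' q hqd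
    have hqG : q ∣ Nat.card G := by
      rw [hrange] at hqd
      exact hqd.trans (h2.trans (Subgroup.index_dvd_card _))
    have hqp : q ≠ p := by
      rintro rfl
      rw [hrange] at hqd
      exact P.not_dvd_index (hqd.trans h2)
    have hpq : p < q := lt_of_le_of_ne (Nat.minFac_le_of_dvd hq.two_le hqG) (Ne.symm hqp)
    have hα1 : (α : MulAut P) ^ q = 1 := by
      have := pow_orderOf_eq_one α
      rw [hα] at this
      exact congrArg Subtype.val this
    have hαne : (α : MulAut P) ≠ 1 := by
      intro h
      have h1 : α = 1 := Subtype.ext h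
      rw [h1, orderOf_one] at hα
      exact hq.one_lt.ne hα
    obtain ⟨hp2, hq3, hk2'⟩ := aut_small hk2 hk hpq (α : MulAut P) hα1 hαne
    have h4 : 4 ∣ Nat.card G := by
      have : Nat.card P = 4 := by rw [hk, hp2, hk2']; norm_num
      exact this ▸ hPdvd
    have h3 : 3 ∣ Nat.card G := hq3 ▸ hqG
    have : (12 : ℕ) = 4 * 3 := by norm_num
    rw [this]
    exact Nat.Coprime.mul_dvd_of_dvd_of_dvd (by norm_num) h4 h3

end Cfsg.Agent.S0073
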