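import Cfsg.Statements.S0074
import Mathlib

set_option autoImplicit false
open Pointwise
open Cfsg

namespace Cfsg.Agent.S0074

open scoped commutatorElement

theorem result {G : Type*} [Group G] [Finite G] {p : ℕ} [Fact p.Prime] (P : Sylow p G) (hP : IsMulCommutative P) : commutator G ⊓ (P : Subgroup G) = ⁅Subgroup.normalizer (P : Set G), Subgroup.normalizer (P : Set G)⁆ ⊓ (P : Subgroup G) := by
  apply le_antisymm
  · rw [Subgroup.commutator_inf_eq_focalSubgroup P, Subgroup.focalSubgroup_def, Subgroup.closure_le]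
    rintro g ⟨hg, x, hx, u, rfl⟩
    refine ⟨?_, hg⟩
    have hy : (u⁻¹)⁻¹ * x⁻¹ * u⁻¹ ∈ (P : Subgroup G) := by
      have : (u⁻¹)⁻¹ * x⁻¹ * u⁻¹ = x⁻¹ * ⁅x, u⁆ := by
        rw [commutatorElement_def]; group
      rw [this]
      exact mul_mem (inv_mem hx) hg
    obtain ⟨n, hn, hnx⟩ := P.conj_eq_normalizer_conj_of_mem x⁻¹ u⁻¹ (inv_mem hx) hy
    have : ⁅x, u⁆ = ⁅x, n⁻¹⁆ := by
      have h1 : ⁅x, u⁆ = x * ((u⁻¹)⁻¹ * x⁻¹ * u⁻¹) := by rw [commutatorElement_def]; group
      rw [h1, hnx, commutatorElement_def]; group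
    rw [this]
    exact Subgroup.commutator_mem_commutator (Subgroup.le_normalizer hx) (inv_mem hn)
  · exact inf_le_inf_right _ (Subgroup.commutator_mono le_top le_top)

end Cfsg.Agent.S0074
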