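import Cfsg.Statements.S0076
import Mathlib

set_option autoImplicit false
open Pointwise
open Cfsg

namespace Cfsg.Agent.S0076

theorem result {G : Type*} [Group G] [Finite G] {p : ℕ} [Fact p.Prime] (P : Sylow p G) (X Y : Set G) (hXP : X ⊆ P) (hYP : Y ⊆ P) (hX : ∀ x ∈ P, (fun y => x * y * x⁻¹) '' X = X) (hY : ∀ x ∈ P, (fun y => x * y * x⁻¹) '' Y = Y) (g : G) (hg : (fun y => g * y * g⁻¹) '' X = Y) : ∃ n ∈ Subgroup.normalizer (P : Set G), (fun y => n * y * n⁻¹) '' X = Y := by
  have conjfun : ∀ a : G, (fun y => a * y * a⁻¹) = ⇑(MulAut.conj a) := by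
    intro a; funext y; simp [MulAut.conj_apply]
  have h1 : (P : Subgroup G) ≤ Subgroup.normalizer Y := by
    intro x hx
    rw [Subgroup.mem_normalizer_iff_conj_image_eq, ← conjfun]
    exact hY x hx
  have h2 : ((g • P : Sylow p G) : Subgroup G) ≤ Subgroup.normalizer Y := by
    rintro - ⟨x, hx, rfl⟩
    rw [Subgroup.mem_normalizer_iff_conj_image_eq, ← conjfun]
    have hxX := hX x hx
    show (fun y => (g * x * g⁻¹) * y * (g * x * g⁻¹)⁻¹) '' Y = Y
    rw [← hg, Set.image_image]
    conv_rhs => rw [← hxX, Set.image_image]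
    apply Set.image_congr
    intro a _
    group
  obtain ⟨h, hh⟩ :=
    MulAction.exists_smul_eq (Subgroup.normalizer Y) ((g • P).subtype h2) (P.subtype h1)
  simp_rw [Sylow.smul_subtype, Subgroup.smul_def, smul_smul] at hh
  refine ⟨h * g, Sylow.smul_eq_iff_mem_normalizer.mp (Sylow.subtype_injective hh), ?_⟩
  have hhY := h.2
  rw [Subgroup.mem_normalizer_iff_conj_image_eq, ← conjfun] at hhY
  calc (fun y => (↑h * g) * y * (↑h * g)⁻¹) '' X
      = (fun y => (h : G) * y * (h : G)⁻¹) '' ((fun y => g * y * g⁻¹) '' X) := by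
        rw [Set.image_image]; apply Set.image_congr; intro a _; group
    _ = (fun y => (h : G) * y * (h : G)⁻¹) '' Y := by rw [hg]
    _ = Y := hhY

end Cfsg.Agent.S0076
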