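import Mathlib
import Cfsg.Statements.S0079
import Cfsg.Agent.Lib.helper1.HallCompl

set_option autoImplicit false
open Cfsg

namespace Cfsg.Agent.S0079

open Cfsg.Agent.Lib.helper1 Cfsg.Agent.Lib.lead
open scoped commutatorElement

/-- A nilpotent Hall subgroup has a normal complement exactly when elements of it that are conjugate in the whole group are already conjugate inside it. -/
theorem result {G : Type*} [Group G] [Finite G] (H : Subgroup G) (hH : Group.IsNilpotent H) (hHall : Nat.Coprime (Nat.card H) H.index) : (∃ N : Subgroup G, N.Normal ∧ N.IsComplement' H) ↔ ∀ x ∈ H, ∀ y ∈ H, (∃ g : G, g * x * g⁻¹ = y) → ∃ h ∈ H, h * x * h⁻¹ = y := by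
  classical
  constructor
  · rintro ⟨N, hNn, hc⟩ x hx y hy ⟨g, hg⟩
    obtain ⟨⟨⟨n, hn⟩, ⟨h, hh⟩⟩, hnh, -⟩ := hc.existsUnique g
    simp only at hnh
    refine ⟨h, hh, ?_⟩
    have hw : h * x * h⁻¹ ∈ H := H.mul_mem (H.mul_mem hh hx) (H.inv_mem hh)
    have h1 : y * (h * x * h⁻¹)⁻¹ ∈ N := by
      have e : y * (h * x * h⁻¹)⁻¹ = n * ((h * x * h⁻¹) * n⁻¹ * (h * x * h⁻¹)⁻¹) := by
        rw [← hg, ← hnh]; group
      rw [e]
      exact N.mul_mem hn (hNn.conj_mem _ (N.inv_mem hn) _)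
    have h2 : y * (h * x * h⁻¹)⁻¹ ∈ H := H.mul_mem hy (H.inv_mem hw)
    have h3 : y * (h * x * h⁻¹)⁻¹ ∈ N ⊓ H := Subgroup.mem_inf.mpr ⟨h1, h2⟩
    rw [disjoint_iff.mp hc.disjoint, Subgroup.mem_bot] at h3
    exact (mul_inv_eq_one.mp h3).symm
  · intro hfus
    apply hall_complement_of_pcomplements H hHall
    intro p hp hpH
    haveI := Fact.mk hp
    haveI := hH
    obtain ⟨Q, N₂, hN₂n, hc₂⟩ := hasNPC_of_nilpotent (G := H) p hH
    haveI hQn : (Q : Subgroup H).Normal := inferInstance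
    obtain ⟨P, hP⟩ := exists_sylow_le_hall H hHall hpH Q
    have hPH : (P : Subgroup G) ≤ H := by
      rw [hP]
      rintro _ ⟨x, -, rfl⟩
      exact x.2
    have hmemP : ∀ x : G, x ∈ (P : Subgroup G) ↔ ∃ hx : x ∈ H, (⟨x, hx⟩ : H) ∈ (Q : Subgroup H) := by
      intro x
      rw [hP]
      constructor
      · rintro ⟨y, hy, rfl⟩
        exact ⟨y.2, hy⟩
      · rintro ⟨hx, hxQ⟩
        exact ⟨⟨x, hx⟩, hxQ, rfl⟩
    have hfoc : commutator G ⊓ (P : Subgroup G) ≤ ⁅(P : Subgroup G), (P : Subgroup G)⁆ := by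
      rw [Subgroup.commutator_inf_eq_focalSubgroup P, Subgroup.focalSubgroup_def,
        Subgroup.closure_le]
      rintro g ⟨hgP, x, hxP, u, rfl⟩
      have hxinvP : x⁻¹ ∈ (P : Subgroup G) := Subgroup.inv_mem _ hxP
      have huP : u * x⁻¹ * u⁻¹ ∈ (P : Subgroup G) := by
        have e : u * x⁻¹ * u⁻¹ = x⁻¹ * ⁅x, u⁆ := by
          rw [commutatorElement_def]; group
        rw [e]
        exact Subgroup.mul_mem _ hxinvP hgP
      obtain ⟨h, hh, hhx⟩ := hfus x⁻¹ (hPH hxinvP) (u * x⁻¹ * u⁻¹) (hPH huP) ⟨u, rfl⟩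
      obtain ⟨⟨⟨n, hn⟩, ⟨a, ha⟩⟩, hna, -⟩ := hc₂.existsUnique ⟨h, hh⟩
      simp only at hna
      obtain ⟨hxH, hxQ⟩ := (hmemP x⁻¹).mp hxinvP
      have haQ' : a * ⟨x⁻¹, hxH⟩ * a⁻¹ ∈ (Q : Subgroup H) := hQn.conj_mem _ hxQ a
      have hcomm := Subgroup.commute_of_normal_of_disjoint _ _ hN₂n hQn hc₂.disjoint n
        (a * ⟨x⁻¹, hxH⟩ * a⁻¹) hn haQ'
      have h1 : (⟨h, hh⟩ : H) * ⟨x⁻¹, hxH⟩ * (⟨h, hh⟩ : H)⁻¹ = a * ⟨x⁻¹, hxH⟩ * a⁻¹ := by
        rw [← hna]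
        calc n * a * ⟨x⁻¹, hxH⟩ * (n * a)⁻¹ = n * (a * ⟨x⁻¹, hxH⟩ * a⁻¹) * n⁻¹ := by group
          _ = (a * ⟨x⁻¹, hxH⟩ * a⁻¹) * n * n⁻¹ := by rw [hcomm.eq]
          _ = a * ⟨x⁻¹, hxH⟩ * a⁻¹ := by group
      have h2 : h * x⁻¹ * h⁻¹ = (a : G) * x⁻¹ * (a : G)⁻¹ := congrArg Subtype.val h1
      have haP : (a : G) ∈ (P : Subgroup G) := (hmemP a).mpr ⟨a.2, ha⟩
      have e : ⁅x, u⁆ = ⁅x, (a : G)⁆ := by
        rw [commutatorElement_def, commutatorElement_def]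
        calc x * u * x⁻¹ * u⁻¹ = x * (u * x⁻¹ * u⁻¹) := by group
          _ = x * ((a : G) * x⁻¹ * (a : G)⁻¹) := by rw [← hhx, h2]
          _ = x * (a : G) * x⁻¹ * (a : G)⁻¹ := by group
      rw [SetLike.mem_coe, e]
      exact Subgroup.commutator_mem_commutator hxP haP
    have hcompl := isComplement'_pResidual_of_commutator_le P hfoc
    haveI hRn : (Cfsg.pResidual p G).Normal := Cfsg.Agent.S0075.pResidual_normal p
    refine ⟨Cfsg.pResidual p G, hRn, ?_, (core_of_isComplement' _ P hcompl).1⟩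
    intro g hg
    exact Subgroup.subset_closure hg

end Cfsg.Agent.S0079
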