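import Cfsg.Statements.S0080
import Mathlib

set_option autoImplicit false
open Pointwise
open Cfsg

namespace Cfsg.Agent.S0080

open scoped IsMulCommutative in
theorem result {G : Type*} [Group G] [Finite G] (H : Subgroup G) (h : Nat.Coprime H.index (⁅H, H⁆.relIndex H)) : Subgroup.focalSubgroup H = commutator G ⊓ H ∧ ∃ N : Subgroup G, N.Normal ∧ N ⊓ H = commutator G ⊓ H ∧ N ⊔ H = ⊤ := by
  have hcard : Nat.card (H ⧸ H.focalSubgroupOf) ∣ ⁅H, H⁆.relIndex H := by
    rw [← Subgroup.index_eq_card]
    exact Subgroup.relIndex_dvd_of_le_left H H.commutator_le_focalSubgroup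
  have hcop : (Nat.card (H ⧸ H.focalSubgroupOf)).Coprime H.index :=
    (h.symm).coprime_dvd_left hcard
  have key : ∀ a : G, a ∈ H → H.transferFocal a = 1 → a ∈ H.focalSubgroup := by
    intro a haH h1
    have h2 := H.transferFocal_eq_pow ⟨a, haH⟩
    rw [Subgroup.coe_mk, h1] at h2
    have h3 : orderOf ((⟨a, haH⟩ : H) : H ⧸ H.focalSubgroupOf) ∣ H.index :=
      orderOf_dvd_of_pow_eq_one h2.symm
    have h4 : orderOf ((⟨a, haH⟩ : H) : H ⧸ H.focalSubgroupOf) ∣ Nat.card (H ⧸ H.focalSubgroupOf) :=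
      orderOf_dvd_natCard _
    have h5 : orderOf ((⟨a, haH⟩ : H) : H ⧸ H.focalSubgroupOf) = 1 :=
      Nat.eq_one_of_dvd_one (hcop ▸ Nat.dvd_gcd h4 h3)
    have h6 := orderOf_eq_one_iff.mp h5
    rw [QuotientGroup.eq_one_iff, Subgroup.focalSubgroupOf_def, Subgroup.mem_subgroupOf] at h6
    exact h6
  have hker : commutator G ≤ H.transferFocal.ker := Abelianization.commutator_subset_ker H.transferFocal
  have hfoc : Subgroup.focalSubgroup H = commutator G ⊓ H := by
    apply le_antisymm
    · exact le_inf H.focalSubgroup_le_commutator H.focalSubgroup_le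
    · rintro a ⟨haG, haH⟩
      exact key a haH (hker haG)
  refine ⟨hfoc, H.transferFocal.ker, inferInstance, ?_, ?_⟩
  · apply le_antisymm
    · rintro a ⟨hak, haH⟩
      rw [← hfoc]
      exact key a haH hak
    · exact inf_le_inf_right _ hker
  · rw [eq_top_iff]
    intro g _
    obtain ⟨y, hy⟩ := (powCoprime hcop).surjective (H.transferFocal g)
    obtain ⟨x, rfl⟩ := QuotientGroup.mk_surjective y
    have hx : H.transferFocal (x : G) = H.transferFocal g := by
      rw [Subgroup.transferFocal_eq_pow]; exact hy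
    have hk : g * (x : G)⁻¹ ∈ H.transferFocal.ker := by
      rw [MonoidHom.mem_ker, map_mul, map_inv, hx, mul_inv_cancel]
    have e : g = (g * (x : G)⁻¹) * x := by group
    rw [e]
    exact Subgroup.mul_mem_sup hk x.2

end Cfsg.Agent.S0080
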