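import Cfsg.Statements.S0082
import Mathlib

set_option autoImplicit false
open Pointwise
open Cfsg

namespace Cfsg.Agent.S0082

theorem pResidual_normal {G : Type*} [Group G] (p : ℕ) : (Cfsg.pResidual p G).Normal := by
  constructor
  intro n hn g
  have h1 : g * n * g⁻¹ ∈ (Cfsg.pResidual p G).map (MulAut.conj g).toMonoidHom :=
    ⟨n, hn, by simp [MulAut.conj_apply]⟩
  unfold Cfsg.pResidual at h1 ⊢
  rw [MonoidHom.map_closure] at h1
  refine Subgroup.closure_mono ?_ h1
  rintro - ⟨s, hs, rfl⟩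
  show Nat.Coprime (orderOf ((MulAut.conj g) s)) p
  rw [MulEquiv.orderOf_eq]
  exact hs

theorem quotient_isPGroup {G : Type*} [Group G] [Finite G] (p : ℕ) [Fact p.Prime]
    (R : Subgroup G) [R.Normal] (hR : R = Cfsg.pResidual p G) : IsPGroup p (G ⧸ R) := by
  intro q
  obtain ⟨x, rfl⟩ := QuotientGroup.mk_surjective q
  have hp : p.Prime := Fact.out
  obtain ⟨a, m, hm, hxm⟩ := Nat.exists_eq_pow_mul_and_not_dvd (orderOf_pos x).ne' p hp.ne_one
  refine ⟨a, ?_⟩
  rw [← QuotientGroup.mk_pow, QuotientGroup.eq_one_iff, hR]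
  apply Subgroup.subset_closure
  show Nat.Coprime (orderOf (x ^ p ^ a)) p
  have hne : p ^ a ≠ 0 := pow_ne_zero _ hp.ne_zero
  rw [orderOf_pow_of_dvd hne ⟨m, hxm⟩, hxm, Nat.mul_div_cancel_left m (Nat.pos_of_ne_zero hne)]
  exact Nat.Coprime.symm ((Nat.Prime.coprime_iff_not_dvd hp).mpr hm)

theorem result {G : Type*} [Group G] [Finite G] {p : ℕ} [Fact p.Prime] (P : Sylow p G) (hP : IsCyclic P) : Cfsg.HasNormalPComplement p G ∨ Cfsg.pResidual p G = ⊤ := by
  rcases Sylow.normalizer_le_centralizer_or_le_commutator P with hNC | hPG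
  · left
    exact ⟨P, _, inferInstance, MonoidHom.ker_transferSylow_isComplement' P hNC⟩
  · right
    haveI hRn : (Cfsg.pResidual p G).Normal := pResidual_normal p
    have hQ : IsPGroup p (G ⧸ Cfsg.pResidual p G) := quotient_isPGroup p _ rfl
    rw [← QuotientGroup.subsingleton_iff]
    by_contra hns
    rw [not_subsingleton_iff_nontrivial] at hns
    haveI : Group.IsNilpotent (G ⧸ Cfsg.pResidual p G) := hQ.isNilpotent
    have hlt := IsSolvable.commutator_lt_top_of_nontrivial (G ⧸ Cfsg.pResidual p G)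
    have hsurj : Function.Surjective (QuotientGroup.mk' (Cfsg.pResidual p G)) :=
      QuotientGroup.mk'_surjective _
    have h1 : (P.mapSurjective hsurj : Subgroup (G ⧸ Cfsg.pResidual p G)) = ⊤ := by
      have := (P.mapSurjective hsurj).3 (hQ.to_subgroup ⊤) le_top
      exact this.symm
    rw [Sylow.coe_mapSurjective] at h1
    have h2 : (commutator G).map (QuotientGroup.mk' (Cfsg.pResidual p G)) = commutator (G ⧸ Cfsg.pResidual p G) := by
      rw [commutator_def, Subgroup.map_commutator, ← MonoidHom.range_eq_map, MonoidHom.range_eq_top.mpr hsurj, commutator_def]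
    have h3 : (⊤ : Subgroup (G ⧸ Cfsg.pResidual p G)) ≤ commutator (G ⧸ Cfsg.pResidual p G) := by
      rw [← h1, ← h2]
      exact Subgroup.map_mono hPG
    exact absurd (top_le_iff.mp h3) hlt.ne

end Cfsg.Agent.S0082
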