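import Cfsg.Statements.S0083
import Mathlib

set_option autoImplicit false
open Pointwise
open Cfsg

namespace Cfsg.Agent.S0083

theorem result {G : Type*} [Group G] [Finite G] {p : ℕ} [Fact p.Prime] (P : Sylow p G) (hP : IsMulCommutative P) : Cfsg.HasNormalPComplement p G ↔ ∃ Q : Subgroup G, Q ≤ Subgroup.centralizer (P : Set G) ∧ Q ⊓ (P : Subgroup G) = ⊥ ∧ Q ⊔ (P : Subgroup G) = Subgroup.normalizer (P : Set G) := by
  have hp : p.Prime := Fact.out
  constructor
  · rintro ⟨P₀, K, hKn, hK⟩
    have hKcard : Nat.card K = (P₀ : Subgroup G).index := hK.index_eq_card.symm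
    have hPP : Nat.card (P : Subgroup G) = Nat.card (P₀ : Subgroup G) := Sylow.card_eq_multiplicity P |>.trans (Sylow.card_eq_multiplicity P₀).symm
    have hcop : (Nat.card K).Coprime (Nat.card (P : Subgroup G)) := by
      rw [hKcard, hPP]
      exact (P₀.card_coprime_index).symm
    have hmul : Nat.card K * Nat.card (P : Subgroup G) = Nat.card G := by
      rw [hPP]; exact hK.card_mul_card
    have hKP : K.IsComplement' (P : Subgroup G) := Subgroup.isComplement'_of_coprime hmul hcop
    have hdisj : K ⊓ (P : Subgroup G) = ⊥ := hKP.disjoint.eq_bot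
    refine ⟨K ⊓ Subgroup.normalizer (P : Set G), ?_, ?_, ?_⟩
    · rintro q ⟨hqK, hqN⟩
      rw [Subgroup.mem_centralizer_iff]
      intro x hx
      have h1 : q * x * q⁻¹ * x⁻¹ ∈ K := by
        have : q * x * q⁻¹ * x⁻¹ = q * (x * q⁻¹ * x⁻¹) := by group
        rw [this]
        exact mul_mem hqK (hKn.conj_mem _ (inv_mem hqK) x)
      have h2 : q * x * q⁻¹ * x⁻¹ ∈ (P : Subgroup G) :=
        mul_mem ((hqN x).mp hx) (inv_mem hx)
      have h3 : q * x * q⁻¹ * x⁻¹ ∈ K ⊓ (P : Subgroup G) := ⟨h1, h2⟩
      rw [hdisj, Subgroup.mem_bot] at h3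
      have : q * x = x * q := by
        have e : q * x = (q * x * q⁻¹ * x⁻¹) * (x * q) := by group
        rw [e, h3, one_mul]
      exact this.symm
    · rw [eq_bot_iff, ← hdisj]
      exact inf_le_inf_right _ inf_le_left
    · apply le_antisymm
      · exact sup_le inf_le_right P.le_normalizer
      · intro n hn
        obtain ⟨⟨⟨k, hk⟩, ⟨x, hx⟩⟩, hkx⟩ := hKP.2 n
        simp only at hkx
        have hkN : k ∈ Subgroup.normalizer (P : Set G) := by
          have : k = n * x⁻¹ := by rw [← hkx]; group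
          rw [this]
          exact mul_mem hn (inv_mem (P.le_normalizer hx))
        rw [← hkx]
        exact Subgroup.mul_mem_sup ⟨hk, hkN⟩ hx
  · rintro ⟨Q, hQC, -, hQN⟩
    have hNC : Subgroup.normalizer (P : Set G) ≤ Subgroup.centralizer (P : Set G) := by
      rw [← hQN]
      exact sup_le hQC P.le_centralizer
    exact ⟨P, _, inferInstance, MonoidHom.ker_transferSylow_isComplement' P hNC⟩

end Cfsg.Agent.S0083
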