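import Cfsg.Statements.S0084
import Mathlib

set_option autoImplicit false
open Pointwise
open Cfsg

namespace Cfsg.Agent.S0084

theorem result {G : Type*} [Group G] [Finite G] (T : Sylow 2 G) (hT : IsKleinFour T) (h3 : ¬ 3 ∣ Nat.card G) : Cfsg.HasNormalPComplement 2 G := by
  haveI : Fact (Nat.Prime 2) := ⟨Nat.prime_two⟩
  haveI hcomm : IsMulCommutative T := IsKleinFour.isMulCommutative
  have key := Subgroup.card_dvd_of_injective _ (QuotientGroup.kerLift_injective (T : Subgroup G).normalizerMonoidHom)
  rw [Subgroup.normalizerMonoidHom_ker, ← Subgroup.index, ← Subgroup.relIndex] at key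
  have hNC : Subgroup.normalizer (T : Set G) ≤ Subgroup.centralizer (T : Set G) := by
    refine Subgroup.relIndex_eq_one.mp (Nat.eq_one_of_dvd_coprimes ?_ dvd_rfl key)
    have h1 : Nat.card (MulAut T) ∣ 24 := by
      have hinj : Function.Injective (MulAut.toPerm (T : Subgroup G)) := by
        intro a b hab
        ext x
        exact congrArg Subtype.val (congrFun (congrArg (fun e : Equiv.Perm T => (e : T → T)) hab) x)
      have := Subgroup.card_dvd_of_injective (MulAut.toPerm (T : Subgroup G)) hinj
      rw [Nat.card_perm, hT.card_four] at this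
      exact this
    have h2 : ((Subgroup.centralizer (T : Set G)).relIndex (Subgroup.normalizer (T : Set G))) ∣ (T : Subgroup G).index :=
      (Subgroup.relIndex_dvd_of_le_left _ T.le_centralizer).trans (Subgroup.relIndex_dvd_index_of_le T.le_normalizer)
    have h2c : Nat.Coprime (T : Subgroup G).index 2 :=
      Nat.Coprime.symm ((Nat.Prime.coprime_iff_not_dvd Nat.prime_two).mpr T.not_dvd_index)
    have h3c : Nat.Coprime (T : Subgroup G).index 3 :=
      Nat.Coprime.symm ((Nat.Prime.coprime_iff_not_dvd Nat.prime_three).mpr
        (fun h => h3 (h.trans (Subgroup.index_dvd_card _))))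
    have h24 : Nat.Coprime (T : Subgroup G).index 24 := by
      have : (24 : ℕ) = 2 ^ 3 * 3 := by norm_num
      rw [this]
      exact Nat.Coprime.mul_right (Nat.Coprime.pow_right 3 h2c) h3c
    exact (h24.coprime_dvd_left h2).coprime_dvd_right h1
  exact ⟨T, _, inferInstance, MonoidHom.ker_transferSylow_isComplement' T hNC⟩

end Cfsg.Agent.S0084
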