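import Cfsg.Statements.S0087
import Cfsg.Agent.S0079
import Cfsg.Agent.Lib.lead.Frobenius
import Mathlib

set_option autoImplicit false
open Cfsg

namespace Cfsg.Agent.S0087

open scoped Pointwise
open Cfsg.Agent.Lib.lead

theorem fusion {G : Type*} [Group G] [Finite G] (H : Subgroup G)
    (hHall : Nat.Coprime (Nat.card H) H.index)
    (h : Subgroup.normalizer (H : Set G) ≤ Subgroup.centralizer (H : Set G))
    (x : G) (hx : x ∈ H) (g : G) (hy : g * x * g⁻¹ ∈ H) : g * x * g⁻¹ = x := by
  classical
  have hab : ∀ a ∈ H, ∀ b ∈ H, a * b = b * a := by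
    intro a ha b hb
    have := Subgroup.mem_centralizer_iff.mp (h (Subgroup.le_normalizer ha)) b hb
    exact this.symm
  obtain ⟨y, hydef⟩ : ∃ y, y = g * x * g⁻¹ := ⟨_, rfl⟩
  rw [← hydef] at hy ⊢
  let S : Set (Subgroup G) := {T | T ≤ H ∧ ∃ n : G, n * x * n⁻¹ = y ∧ ∀ t ∈ T, n⁻¹ * t * n ∈ T}
  have hne : S.Nonempty := ⟨⊥, bot_le, g, hydef.symm, by
    intro t ht
    rw [Subgroup.mem_bot] at ht
    subst ht
    simp⟩
  obtain ⟨T, hTS, hmax⟩ := (wellFounded_gt (α := Subgroup G)).has_min S hne
  obtain ⟨hTH, n, hn, hnT⟩ := hTS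
  have hTeq : T = H := by
    by_contra hne'
    have hrel : T.relIndex H ≠ 1 := by
      intro h1
      exact hne' (le_antisymm hTH (Subgroup.relIndex_eq_one.mp h1))
    obtain ⟨q, hq, hqdvd⟩ := Nat.exists_prime_and_dvd hrel
    haveI : Fact q.Prime := ⟨hq⟩
    obtain ⟨QH⟩ : Nonempty (Sylow q H) := inferInstance
    have hqH : q ∣ Nat.card H := dvd_trans hqdvd (Subgroup.index_dvd_card _)
    have hidx : ¬ q ∣ ((QH : Subgroup H).map H.subtype).index := by
      rw [Subgroup.index_map_subtype]
      intro hdvd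
      rcases (Nat.Prime.dvd_mul hq).mp hdvd with h' | h'
      · exact QH.not_dvd_index h'
      · have h1 := Nat.dvd_gcd hqH h'
        rw [hHall] at h1
        exact hq.one_lt.ne' (Nat.dvd_one.mp h1)
    let Q : Sylow q G := (QH.2.map H.subtype).toSylow hidx
    have hQH : (Q : Subgroup G) ≤ H := by
      rintro z ⟨w, -, rfl⟩
      exact w.2
    let D : Subgroup G := Subgroup.centralizer {y} ⊓ Subgroup.centralizer (T : Set G)
    have hQD : (Q : Subgroup G) ≤ D := by
      intro z hz
      have hzH := hQH hz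
      refine Subgroup.mem_inf.mpr ⟨?_, ?_⟩
      · rw [Subgroup.mem_centralizer_iff]
        intro w hw
        rw [Set.mem_singleton_iff] at hw
        rw [hw]
        exact hab _ hy _ hzH
      · rw [Subgroup.mem_centralizer_iff]
        intro t ht
        exact hab _ (hTH ht) _ hzH
    have hnQD : ((n • Q : Sylow q G) : Subgroup G) ≤ D := by
      intro z hz
      have hz' : n⁻¹ * z * n ∈ (Q : Subgroup G) := (mem_smul_sylow n z Q).mp hz
      have hzH := hQH hz'
      refine Subgroup.mem_inf.mpr ⟨?_, ?_⟩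
      · rw [Subgroup.mem_centralizer_iff]
        intro w hw
        rw [Set.mem_singleton_iff] at hw
        rw [hw]
        have h1 : x * (n⁻¹ * z * n) = (n⁻¹ * z * n) * x := hab _ hx _ hzH
        rw [← hn]
        calc n * x * n⁻¹ * z = n * (x * (n⁻¹ * z * n)) * n⁻¹ := by group
          _ = n * ((n⁻¹ * z * n) * x) * n⁻¹ := by rw [h1]
          _ = z * (n * x * n⁻¹) := by group
      · rw [Subgroup.mem_centralizer_iff]
        intro t ht
        have h1 : (n⁻¹ * t * n) * (n⁻¹ * z * n) = (n⁻¹ * z * n) * (n⁻¹ * t * n) :=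
          hab _ (hTH (hnT t ht)) _ hzH
        calc t * z = n * ((n⁻¹ * t * n) * (n⁻¹ * z * n)) * n⁻¹ := by group
          _ = n * ((n⁻¹ * z * n) * (n⁻¹ * t * n)) * n⁻¹ := by rw [h1]
          _ = z * t := by group
    obtain ⟨d, hd⟩ := MulAction.exists_smul_eq D ((n • Q : Sylow q G).subtype hnQD) (Q.subtype hQD)
    have hkey : ∀ w ∈ (Q : Subgroup G), ((d : G) * n)⁻¹ * w * ((d : G) * n) ∈ (Q : Subgroup G) := by
      intro w hw
      have hwD : w ∈ D := hQD hw
      have h1 : (⟨w, hwD⟩ : D) ∈ ((Q.subtype hQD : Sylow q D) : Subgroup D) := by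
        rw [Sylow.coe_subtype]
        exact hw
      rw [← hd] at h1
      have h2 := (mem_smul_sylow d ⟨w, hwD⟩ _).mp h1
      rw [Sylow.coe_subtype, Subgroup.mem_subgroupOf] at h2
      have h3 := (mem_smul_sylow n _ Q).mp h2
      have e : ((d : G) * n)⁻¹ * w * ((d : G) * n) = n⁻¹ * ((d⁻¹ * ⟨w, hwD⟩ * d : D) : G) * n := by
        simp only [Subgroup.coe_mul, Subgroup.coe_inv]; group
      rw [e]; exact h3
    have hdy : (d : G) * y * (d : G)⁻¹ = y := by
      have := Subgroup.mem_centralizer_iff.mp (Subgroup.mem_inf.mp d.2).1 y (Set.mem_singleton y)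
      rw [← this]; group
    have hdT : ∀ t ∈ T, (d : G)⁻¹ * t * (d : G) = t := by
      intro t ht
      have := Subgroup.mem_centralizer_iff.mp (Subgroup.mem_inf.mp d.2).2 t ht
      rw [mul_assoc, this]; group
    have hnew : T ⊔ (Q : Subgroup G) ∈ S := by
      refine ⟨sup_le hTH hQH, (d : G) * n, ?_, ?_⟩
      · calc (d : G) * n * x * ((d : G) * n)⁻¹ = (d : G) * (n * x * n⁻¹) * (d : G)⁻¹ := by group
          _ = y := by rw [hn, hdy]
      · have hle : T ⊔ (Q : Subgroup G) ≤
            (T ⊔ (Q : Subgroup G)).comap (MulAut.conj ((d : G) * n)⁻¹).toMonoidHom := by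
          apply sup_le
          · intro t ht
            rw [Subgroup.mem_comap]
            apply Subgroup.mem_sup_left
            show (MulAut.conj ((d : G) * n)⁻¹) t ∈ T
            rw [MulAut.conj_apply, inv_inv]
            have e : ((d : G) * n)⁻¹ * t * ((d : G) * n) = n⁻¹ * ((d : G)⁻¹ * t * (d : G)) * n := by
              group
            rw [e, hdT t ht]
            exact hnT t ht
          · intro w hw
            rw [Subgroup.mem_comap]
            apply Subgroup.mem_sup_right
            show (MulAut.conj ((d : G) * n)⁻¹) w ∈ (Q : Subgroup G)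
            rw [MulAut.conj_apply, inv_inv]
            exact hkey w hw
        intro t ht
        have h5 := hle ht
        rw [Subgroup.mem_comap] at h5
        have e : (MulAut.conj ((d : G) * n)⁻¹).toMonoidHom t = ((d : G) * n)⁻¹ * t * ((d : G) * n) := by
          show (MulAut.conj ((d : G) * n)⁻¹) t = _
          rw [MulAut.conj_apply, inv_inv]
        rw [e] at h5
        exact h5
    have hlt : T < T ⊔ (Q : Subgroup G) := by
      refine lt_of_le_of_ne le_sup_left ?_
      intro heq
      have hQT : (Q : Subgroup G) ≤ T := by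
        rw [heq]; exact le_sup_right
      have hle2 : (QH : Subgroup H) ≤ T.subgroupOf H := by
        intro z hz
        rw [Subgroup.mem_subgroupOf]
        exact hQT ⟨z, hz, rfl⟩
      have hd2 := Subgroup.index_dvd_of_le hle2
      exact QH.not_dvd_index (dvd_trans hqdvd hd2)
    exact hmax _ hnew hlt
  rw [hTeq] at hnT
  have hninv : n⁻¹ ∈ Subgroup.normalizer (H : Set G) := by
    rw [Subgroup.mem_normalizer_iff]
    intro t
    constructor
    · intro ht
      simpa using hnT t ht
    · intro ht
      let φ : H → H := fun t => ⟨n⁻¹ * t * n, hnT t t.2⟩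
      have hinj : Function.Injective φ := by
        intro a b hab'
        have h2 : n⁻¹ * (a : G) * n = n⁻¹ * (b : G) * n := congrArg Subtype.val hab'
        ext
        simpa using h2
      obtain ⟨s, hs⟩ := (Finite.injective_iff_surjective.mp hinj) ⟨n⁻¹ * t * n⁻¹⁻¹, ht⟩
      have h3 : n⁻¹ * (s : G) * n = n⁻¹ * t * n⁻¹⁻¹ := congrArg Subtype.val hs
      have h4 : (s : G) = t := by simpa using h3
      rw [← h4]; exact s.2
  have hc := h hninv
  have h6 := Subgroup.mem_centralizer_iff.mp hc x hx
  rw [← hn]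
  calc n * x * n⁻¹ = n * (x * n⁻¹) := by group
    _ = n * (n⁻¹ * x) := by rw [h6]
    _ = x := by group

/-- A Hall subgroup that is central in its normalizer has a normal complement. -/
theorem result {G : Type*} [Group G] [Finite G] (H : Subgroup G) (hHall : Nat.Coprime (Nat.card H) H.index) (h : Subgroup.normalizer (H : Set G) ≤ Subgroup.centralizer (H : Set G)) : ∃ N : Subgroup G, N.Normal ∧ N.IsComplement' H := by
  have hab : ∀ a b : H, a * b = b * a := by
    intro a b
    have := Subgroup.mem_centralizer_iff.mp (h (Subgroup.le_normalizer a.2)) b b.2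
    exact Subtype.ext this.symm
  have hnil : Group.IsNilpotent H := by
    letI : CommGroup H := { (inferInstance : Group H) with mul_comm := hab }
    exact CommGroup.isNilpotent
  exact (Cfsg.Agent.S0079.result H hnil hHall).mpr (by
    rintro x hx y hy ⟨g, rfl⟩
    refine ⟨1, H.one_mem, ?_⟩
    rw [fusion H hHall h x hx g hy]; simp)

end Cfsg.Agent.S0087
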