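import Cfsg.Statements.S0089
import Mathlib

set_option autoImplicit false
open Pointwise
open Cfsg

namespace Cfsg.Agent.S0089

open scoped IsMulCommutative in
theorem pow_index_eq_one {G : Type*} [Group G] [Finite G] (H : Subgroup G) (hc : IsMulCommutative H) (z : G) (hzG' : z ∈ commutator G) (hzZ : z ∈ Subgroup.center G) : z ^ H.index = 1 := by
  have key : ∀ (k : ℕ) (g₀ : G), g₀⁻¹ * z ^ k * g₀ ∈ H → g₀⁻¹ * z ^ k * g₀ = z ^ k := by
    intro k g₀ _
    have h1 : z ^ k ∈ Subgroup.center G := Subgroup.pow_mem _ hzZ k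
    rw [Subgroup.mem_center_iff] at h1
    rw [mul_assoc, ← h1 g₀, inv_mul_cancel_left]
  have h1 := MonoidHom.transfer_eq_pow (MonoidHom.id H) z key
  have h2 : MonoidHom.transfer (MonoidHom.id H) z = 1 :=
    (Abelianization.commutator_subset_ker (MonoidHom.transfer (MonoidHom.id H))) hzG'
  rw [h2] at h1
  have := congrArg Subtype.val h1
  simpa using this.symm

theorem result {G : Type*} [Group G] [Finite G] (h : ∀ p : ℕ, p.Prime → ∀ P : Sylow p G, IsMulCommutative P) : commutator G ⊓ Subgroup.center G = ⊥ := by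
  rw [Subgroup.eq_bot_iff_forall]
  intro z hz
  obtain ⟨hzG', hzZ⟩ := Subgroup.mem_inf.mp hz
  by_contra hz1
  have ho : orderOf z ≠ 1 := fun h1 => hz1 (orderOf_eq_one_iff.mp h1)
  obtain ⟨q, hq, hqdvd⟩ := Nat.exists_prime_and_dvd ho
  haveI : Fact q.Prime := ⟨hq⟩
  obtain ⟨P⟩ : Nonempty (Sylow q G) := inferInstance
  have h1 := pow_index_eq_one (P : Subgroup G) (h q hq P) z hzG' hzZ
  have h2 : orderOf z ∣ (P : Subgroup G).index := orderOf_dvd_of_pow_eq_one h1
  exact P.not_dvd_index (hqdvd.trans h2)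

end Cfsg.Agent.S0089
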