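import Cfsg.Statements.S0090
import Mathlib

set_option autoImplicit false
open Pointwise
open Cfsg

namespace Cfsg.Agent.S0090

open scoped IsMulCommutative in
theorem transfer_central {G : Type*} [Group G] [Finite G] (H : Subgroup G) (hc : IsMulCommutative H)
    (z : G) (hzZ : z ∈ Subgroup.center G) (hzG : z ∈ commutator G) :
    z ^ H.index = 1 := by
  have key : ∀ (k : ℕ) (g₀ : G), g₀⁻¹ * z ^ k * g₀ ∈ H → g₀⁻¹ * z ^ k * g₀ = z ^ k := by
    intro k g₀ _
    have : z ^ k ∈ Subgroup.center G := Subgroup.pow_mem _ hzZ k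
    rw [Subgroup.mem_center_iff] at this
    rw [mul_assoc, ← this g₀, inv_mul_cancel_left]
  have h1 := MonoidHom.transfer_eq_pow (MonoidHom.id H) z key
  have h2 : MonoidHom.transfer (MonoidHom.id H) z = 1 := by
    have : commutator G ≤ (MonoidHom.transfer (MonoidHom.id H)).ker :=
      Abelianization.commutator_subset_ker _
    exact this hzG
  rw [h2] at h1
  have := congrArg Subtype.val h1
  simpa using this.symm

theorem hall_abelian {G : Type*} [Group G] [Finite G] (H : Subgroup G) (hc : IsMulCommutative H) (hHall : Nat.Coprime (Nat.card H) H.index) : H ⊓ commutator G ⊓ Subgroup.center G = ⊥ := by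
  rw [eq_bot_iff]
  rintro z ⟨⟨hzH, hzG⟩, hzZ⟩
  have h1 := transfer_central H hc z hzZ hzG
  have h2 : z ^ Nat.card H = 1 := by
    have h := pow_card_eq_one' (G := H) (x := ⟨z, hzH⟩)
    have h' := congrArg Subtype.val h
    rw [Subgroup.coe_pow] at h'
    exact h'
  have h3 : orderOf z ∣ Nat.gcd (Nat.card H) H.index :=
    Nat.dvd_gcd (orderOf_dvd_of_pow_eq_one h2) (orderOf_dvd_of_pow_eq_one h1)
  rw [hHall] at h3
  exact orderOf_eq_one_iff.mp (Nat.eq_one_of_dvd_one h3)


open scoped IsMulCommutative in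
theorem transfer_mem_center {G : Type*} [Group G] (A : Subgroup G) [A.Normal] [IsMulCommutative A]
    [A.FiniteIndex] (x : G) :
    ((MonoidHom.transfer (MonoidHom.id A) x : A) : G) ∈ Subgroup.center G := by
  rw [Subgroup.mem_center_iff]
  intro g
  let T : A.LeftTransversal := default
  have h1 := MonoidHom.transfer_def (MonoidHom.id A) T x
  have h2 := MonoidHom.transfer_def (MonoidHom.id A) (MulOpposite.op g • T) x
  have h3 : x • (MulOpposite.op g • T) = MulOpposite.op g • (x • T) :=
    Subtype.ext (smul_comm x (MulOpposite.op g) (T : Set G))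
  rw [h3, Subgroup.smul_diff_smul', ← h1] at h2
  have h4 := congrArg Subtype.val h2
  simp only [MulOpposite.unop_op] at h4
  generalize ((MonoidHom.transfer (MonoidHom.id A) x : A) : G) = v at h4 ⊢
  conv_lhs => rw [h4]
  group

open scoped IsMulCommutative in
theorem transfer_comp {G : Type*} [Group G] (A : Subgroup G) [IsMulCommutative A] [A.FiniteIndex]
    {B : Type*} [CommGroup B] (f : A →* B) (x : G) :
    MonoidHom.transfer f x = f (MonoidHom.transfer (MonoidHom.id A) x) := by
  let T : A.LeftTransversal := default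
  rw [MonoidHom.transfer_def f T, MonoidHom.transfer_def (MonoidHom.id A) T]
  unfold Subgroup.leftTransversals.diff
  simp only [map_prod, MonoidHom.id_apply]

open scoped IsMulCommutative in
theorem comm_inf_le_focal {G : Type*} [Group G] [Finite G] (A : Subgroup G)
    (hHall : Nat.Coprime (Nat.card A) A.index) :
    commutator G ⊓ A ≤ A.focalSubgroup := by
  rintro a ⟨haG, haA⟩
  have h1 : A.transferFocal a = 1 := (Abelianization.commutator_subset_ker A.transferFocal) haG
  have h2 := A.transferFocal_eq_pow ⟨a, haA⟩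
  rw [Subgroup.coe_mk, h1] at h2
  have h3 : orderOf ((⟨a, haA⟩ : A) : A ⧸ A.focalSubgroupOf) ∣ A.index :=
    orderOf_dvd_of_pow_eq_one h2.symm
  have h4 : orderOf ((⟨a, haA⟩ : A) : A ⧸ A.focalSubgroupOf) ∣ Nat.card A :=
    (orderOf_dvd_natCard _).trans (Subgroup.card_quotient_dvd_card _)
  have h5 : orderOf ((⟨a, haA⟩ : A) : A ⧸ A.focalSubgroupOf) = 1 :=
    Nat.eq_one_of_dvd_one (hHall ▸ Nat.dvd_gcd h4 h3)
  have h6 := orderOf_eq_one_iff.mp h5
  rw [QuotientGroup.eq_one_iff, Subgroup.focalSubgroupOf_def, Subgroup.mem_subgroupOf] at h6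
  exact h6

open scoped IsMulCommutative in
theorem result {G : Type*} [Group G] [Finite G] (A : Subgroup G) [A.Normal] (hc : IsMulCommutative A) (hHall : Nat.Coprime (Nat.card A) A.index) : ⁅A, (⊤ : Subgroup G)⁆ = commutator G ⊓ A ∧ (commutator G ⊓ A) ⊓ (Subgroup.center G ⊓ A) = ⊥ ∧ (commutator G ⊓ A) ⊔ (Subgroup.center G ⊓ A) = A := by
  have hF1 : A.focalSubgroup ≤ ⁅A, (⊤ : Subgroup G)⁆ := by
    rw [Subgroup.focalSubgroup_def, Subgroup.closure_le]
    rintro g ⟨-, x, hx, u, rfl⟩
    exact Subgroup.commutator_mem_commutator hx (Subgroup.mem_top u)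
  have hF2 : ⁅A, (⊤ : Subgroup G)⁆ ≤ commutator G ⊓ A :=
    le_inf (Subgroup.commutator_mono le_top le_rfl) (Subgroup.commutator_le_left A ⊤)
  have hF3 := comm_inf_le_focal A hHall
  refine ⟨le_antisymm hF2 (hF3.trans hF1), ?_, ?_⟩
  · have := hall_abelian A hc hHall
    rw [eq_bot_iff] at this ⊢
    rintro z ⟨⟨hzG, hzA⟩, hzZ, -⟩
    exact this ⟨⟨hzA, hzG⟩, hzZ⟩
  · apply le_antisymm (sup_le inf_le_right inf_le_right)
    intro a haA
    set z : A := MonoidHom.transfer (MonoidHom.id A) a with hz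
    have hzZ : (z : G) ∈ Subgroup.center G := transfer_mem_center A a
    have h1 : (QuotientGroup.mk' A.focalSubgroupOf) z = A.transferFocal a := by
      rw [hz, ← transfer_comp]; rfl
    have h2 := A.transferFocal_eq_pow ⟨a, haA⟩
    rw [Subgroup.coe_mk, ← h1] at h2
    have h3 : (⟨a, haA⟩ : A) ^ A.index * z⁻¹ ∈ A.focalSubgroupOf := by
      rw [← QuotientGroup.eq_one_iff, QuotientGroup.mk_mul, QuotientGroup.mk_inv, QuotientGroup.mk_pow]
      rw [← h2]
      exact mul_inv_cancel _
    rw [Subgroup.focalSubgroupOf_def, Subgroup.mem_subgroupOf] at h3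
    have h3' : a ^ A.index * (z : G)⁻¹ ∈ A.focalSubgroup := by simpa using h3
    have h4 : a ^ A.index ∈ (commutator G ⊓ A) ⊔ (Subgroup.center G ⊓ A) := by
      have : a ^ A.index = (a ^ A.index * (z : G)⁻¹) * z := by group
      rw [this]
      exact Subgroup.mul_mem_sup ⟨A.focalSubgroup_le_commutator h3', A.focalSubgroup_le h3'⟩ ⟨hzZ, z.2⟩
    have hcop : (A.index).Coprime (orderOf a) := by
      have hd : orderOf a ∣ Nat.card A := by
        have := orderOf_dvd_natCard (⟨a, haA⟩ : A)
        rwa [Subgroup.orderOf_mk] at this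
      exact (hHall.symm).coprime_dvd_right hd
    obtain ⟨m, hm⟩ := exists_pow_eq_self_of_coprime hcop
    rw [← hm]
    exact Subgroup.pow_mem _ h4 m

end Cfsg.Agent.S0090
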