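import Cfsg.Statements.S0091
import Mathlib

set_option autoImplicit false
open Pointwise
open Cfsg

namespace Cfsg.Agent.S0091

open scoped commutatorElement

theorem result {G : Type*} [Group G] [Finite G] {p : ℕ} [Fact p.Prime] (P : Sylow p G) (hp : p ∣ Nat.card G) (h : ∀ x ∈ P, ∀ y ∈ P, (∃ g : G, g * x * g⁻¹ = y) → ∃ z ∈ P, z * x * z⁻¹ = y) : ¬ (P : Subgroup G) ≤ commutator G := by
  intro hle
  have hfoc : Subgroup.focalSubgroup (P : Subgroup G) ≤ ⁅(P : Subgroup G), (P : Subgroup G)⁆ := by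
    rw [Subgroup.focalSubgroup_def, Subgroup.closure_le]
    rintro g ⟨hg, x, hx, u, rfl⟩
    have hy : u * x⁻¹ * u⁻¹ ∈ (P : Subgroup G) := by
      have : u * x⁻¹ * u⁻¹ = x⁻¹ * ⁅x, u⁆ := by
        rw [commutatorElement_def]; group
      rw [this]
      exact mul_mem (inv_mem hx) hg
    obtain ⟨z, hz, hzx⟩ := h x⁻¹ (inv_mem hx) _ hy ⟨u, rfl⟩
    have : ⁅x, u⁆ = ⁅x, z⁆ := by
      rw [commutatorElement_def, commutatorElement_def, mul_assoc x u, mul_assoc x (u * x⁻¹), ← hzx]
      group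
    rw [this]
    exact Subgroup.commutator_mem_commutator hx hz
  have h1 : commutator G ⊓ (P : Subgroup G) ≤ ⁅(P : Subgroup G), (P : Subgroup G)⁆ :=
    (Subgroup.commutator_inf_eq_focalSubgroup P).le.trans hfoc
  have h2 : (P : Subgroup G) ≤ ⁅(P : Subgroup G), (P : Subgroup G)⁆ := (le_inf hle le_rfl).trans h1
  have hne : (P : Subgroup G) ≠ ⊥ := P.ne_bot_of_dvd_card hp
  haveI : Group.IsSolvable (P : Subgroup G) := by
    haveI := P.2.isNilpotent
    infer_instance
  have hlt : ⁅(P : Subgroup G), (P : Subgroup G)⁆ < (P : Subgroup G) := by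
    haveI : Nontrivial (P : Subgroup G) := (Subgroup.nontrivial_iff_ne_bot _).mpr hne
    have := IsSolvable.commutator_lt_top_of_nontrivial (P : Subgroup G)
    rw [← (P : Subgroup G).range_subtype, MonoidHom.range_eq_map, ← Subgroup.map_commutator,
      Subgroup.map_subtype_lt_map_subtype]
    exact this
  exact absurd h2 (not_le_of_gt hlt)

end Cfsg.Agent.S0091
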