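import Cfsg.Statements.S0092
import Cfsg.Agent.S0075
import Cfsg.Agent.Lib.lead.Frobenius
import Cfsg.Agent.Lib.helper8.CoprimeAction
import Mathlib

set_option autoImplicit false
open Cfsg

namespace Cfsg.Agent.S0092

open scoped Pointwise
open Cfsg.Agent.Lib.lead Cfsg.Agent.Lib.helper8

theorem pResidual_eq_top_of {G : Type*} [Group G] (p : ℕ) (N : Subgroup G)
    (hN : N = Cfsg.pResidual p G) : Cfsg.pResidual p N = ⊤ := by
  apply Subgroup.map_injective N.subtype_injective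
  rw [← MonoidHom.range_eq_map, Subgroup.range_subtype]
  show (Subgroup.closure {g : N | Nat.Coprime (orderOf g) p}).map N.subtype = N
  rw [MonoidHom.map_closure]
  conv_rhs => rw [hN]
  show _ = Subgroup.closure {g : G | Nat.Coprime (orderOf g) p}
  congr 1
  ext g
  constructor
  · rintro ⟨⟨g, hg⟩, hcop, rfl⟩
    have e : orderOf (⟨g, hg⟩ : N) = orderOf g := Subgroup.orderOf_mk g hg
    show Nat.Coprime (orderOf g) p
    rw [← e]; exact hcop
  · intro hg
    have hgN : g ∈ N := by rw [hN]; exact Subgroup.subset_closure hg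
    refine ⟨⟨g, hgN⟩, ?_, rfl⟩
    show Nat.Coprime (orderOf (⟨g, hgN⟩ : N)) p
    rw [Subgroup.orderOf_mk]; exact hg

theorem hom_trivial_of_pResidual_eq_top {N : Type*} [Group N] {p : ℕ} [Fact p.Prime]
    (hres : Cfsg.pResidual p N = ⊤) {B : Type*} [Group B] (hB : IsPGroup p B) (f : N →* B)
    (x : N) : f x = 1 := by
  have hle : Cfsg.pResidual p N ≤ f.ker := by
    unfold Cfsg.pResidual
    rw [Subgroup.closure_le]
    intro g hg
    rw [SetLike.mem_coe, MonoidHom.mem_ker]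
    obtain ⟨k, hk⟩ := hB (f g)
    have h1 : orderOf (f g) ∣ orderOf g := orderOf_map_dvd f g
    have h2 : orderOf (f g) ∣ p ^ k := orderOf_dvd_of_pow_eq_one hk
    have h3 : Nat.Coprime (orderOf g) (p ^ k) := Nat.Coprime.pow_right k hg
    have h4 : orderOf (f g) = 1 := Nat.eq_one_of_dvd_coprimes h3 h1 h2
    exact orderOf_eq_one_iff.mp h4
  have : x ∈ f.ker := hle (by rw [hres]; exact Subgroup.mem_top x)
  exact MonoidHom.mem_ker.mp this

theorem cz {N : Type*} [Group N] [Finite N] {p : ℕ} [Fact p.Prime] (A : Sylow p N)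
    (hab : ∀ a ∈ (A : Subgroup N), ∀ b ∈ (A : Subgroup N), a * b = b * a)
    (hres : Cfsg.pResidual p N = ⊤) (z : N) (hz : z ∈ (A : Subgroup N))
    (hzc : ∀ m ∈ Subgroup.normalizer ((A : Subgroup N) : Set N), m * z = z * m) : z = 1 := by
  classical
  have key : ∀ (k : ℕ) (g₀ : N), g₀⁻¹ * z ^ k * g₀ ∈ (A : Subgroup N) →
      g₀⁻¹ * z ^ k * g₀ = z ^ k := by
    intro k g₀ hw
    obtain ⟨w, hwdef⟩ : ∃ w, w = g₀⁻¹ * z ^ k * g₀ := ⟨_, rfl⟩
    rw [← hwdef] at hw ⊢
    let C : Subgroup N := Subgroup.centralizer {w}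
    have hAC : (A : Subgroup N) ≤ C := by
      intro a ha
      rw [Subgroup.mem_centralizer_iff]
      intro v hv
      rw [Set.mem_singleton_iff] at hv
      rw [hv]
      exact hab _ hw _ ha
    have hgAC : ((g₀⁻¹ • A : Sylow p N) : Subgroup N) ≤ C := by
      intro a ha
      have ha' : g₀⁻¹⁻¹ * a * g₀⁻¹ ∈ (A : Subgroup N) := (mem_smul_sylow g₀⁻¹ a A).mp ha
      rw [inv_inv] at ha'
      rw [Subgroup.mem_centralizer_iff]
      intro v hv
      rw [Set.mem_singleton_iff] at hv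
      rw [hv, hwdef]
      have h1 : z ^ k * (g₀ * a * g₀⁻¹) = (g₀ * a * g₀⁻¹) * z ^ k :=
        hab _ ((A : Subgroup N).pow_mem hz k) _ ha'
      calc g₀⁻¹ * z ^ k * g₀ * a = g₀⁻¹ * (z ^ k * (g₀ * a * g₀⁻¹)) * g₀ := by group
        _ = g₀⁻¹ * ((g₀ * a * g₀⁻¹) * z ^ k) * g₀ := by rw [h1]
        _ = a * (g₀⁻¹ * z ^ k * g₀) := by group
    obtain ⟨d, hd⟩ := MulAction.exists_smul_eq C ((g₀⁻¹ • A : Sylow p N).subtype hgAC)
      (A.subtype hAC)
    have hle : (A : Subgroup N) ≤ ((((d : N) * g₀⁻¹) • A : Sylow p N) : Subgroup N) := by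
      intro v hv
      have hvC : v ∈ C := hAC hv
      have h1 : (⟨v, hvC⟩ : C) ∈ ((A.subtype hAC : Sylow p C) : Subgroup C) := by
        rw [Sylow.coe_subtype]; exact hv
      rw [← hd] at h1
      have h2 := (mem_smul_sylow d ⟨v, hvC⟩ _).mp h1
      rw [Sylow.coe_subtype, Subgroup.mem_subgroupOf] at h2
      have h3 := (mem_smul_sylow g₀⁻¹ _ A).mp h2
      rw [mem_smul_sylow]
      have e : ((d : N) * g₀⁻¹)⁻¹ * v * ((d : N) * g₀⁻¹) =
          g₀⁻¹⁻¹ * ((d⁻¹ * ⟨v, hvC⟩ * d : C) : N) * g₀⁻¹ := by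
        simp only [Subgroup.coe_mul, Subgroup.coe_inv]; group
      rw [e]; exact h3
    have heq : (((d : N) * g₀⁻¹) • A : Sylow p N) = A := by
      apply Sylow.ext
      exact A.3 (((d : N) * g₀⁻¹) • A : Sylow p N).2 hle
    have hmem : (d : N) * g₀⁻¹ ∈ Subgroup.normalizer ((A : Subgroup N) : Set N) :=
      Sylow.smul_eq_iff_mem_normalizer.mp heq
    have h5 := hzc _ hmem
    have h6 : ((d : N) * g₀⁻¹) * z ^ k * ((d : N) * g₀⁻¹)⁻¹ = z ^ k := by
      have hc : Commute ((d : N) * g₀⁻¹) z := h5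
      have := (hc.pow_right k).eq
      rw [this]; group
    have hdw : (d : N) * w * (d : N)⁻¹ = w := by
      have := Subgroup.mem_centralizer_iff.mp d.2 w (Set.mem_singleton w)
      rw [← this]; group
    calc w = (d : N) * w * (d : N)⁻¹ := hdw.symm
      _ = ((d : N) * g₀⁻¹) * z ^ k * ((d : N) * g₀⁻¹)⁻¹ := by rw [hwdef]; group
      _ = z ^ k := h6
  letI : CommGroup (A : Subgroup N) := { (inferInstance : Group (A : Subgroup N)) with
    mul_comm := fun a b => Subtype.ext (hab a a.2 b b.2) }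
  have htr := MonoidHom.transfer_eq_pow (MonoidHom.id (A : Subgroup N)) z key
  have h1 : MonoidHom.transfer (MonoidHom.id (A : Subgroup N)) z = 1 :=
    hom_trivial_of_pResidual_eq_top hres A.2 _ z
  rw [h1] at htr
  have h2 : z ^ (A : Subgroup N).index = 1 := by
    have := congrArg Subtype.val htr
    simpa using this.symm
  obtain ⟨j, hj⟩ := A.2 ⟨z, hz⟩
  have hj' : z ^ p ^ j = 1 := by simpa using congrArg Subtype.val hj
  have hcop : Nat.Coprime (A : Subgroup N).index (p ^ j) :=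
    Nat.Coprime.pow_right j ((Nat.Prime.coprime_iff_not_dvd Fact.out).mpr A.not_dvd_index).symm
  have := Nat.eq_one_of_dvd_coprimes hcop (orderOf_dvd_of_pow_eq_one h2)
    (orderOf_dvd_of_pow_eq_one hj')
  exact orderOf_eq_one_iff.mp this

/-- If the Sylow p-subgroups of O^p(G) are abelian then G splits over O^p(G). -/
theorem result {G : Type*} [Group G] [Finite G] {p : ℕ} [Fact p.Prime] (h : ∀ Q : Sylow p (Cfsg.pResidual p G), IsMulCommutative Q) : ∃ K : Subgroup G, K.IsComplement' (Cfsg.pResidual p G) := by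
  classical
  have hpp : p.Prime := Fact.out
  set N : Subgroup G := Cfsg.pResidual p G with hNdef
  haveI hNn : N.Normal := Cfsg.Agent.S0075.pResidual_normal p
  obtain ⟨A₀⟩ : Nonempty (Sylow p N) := inferInstance
  have hab₀ : ∀ a ∈ (A₀ : Subgroup N), ∀ b ∈ (A₀ : Subgroup N), a * b = b * a := by
    intro a ha b hb
    haveI := h A₀
    have := mul_comm' (⟨a, ha⟩ : A₀) ⟨b, hb⟩
    exact congrArg Subtype.val this
  have hres : Cfsg.pResidual p N = ⊤ := pResidual_eq_top_of p N rfl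
  have hcz : ∀ z ∈ (A₀ : Subgroup N),
      (∀ m ∈ Subgroup.normalizer ((A₀ : Subgroup N) : Set N), m * z = z * m) → z = 1 :=
    fun z hz hzc => cz A₀ hab₀ hres z hz hzc
  let A : Subgroup G := (A₀ : Subgroup N).map N.subtype
  have hAN : A ≤ N := by
    rintro _ ⟨a, -, rfl⟩; exact a.2
  have hAmem : ∀ a : N, (a : G) ∈ A ↔ a ∈ (A₀ : Subgroup N) := by
    intro a; constructor
    · rintro ⟨b, hb, hba⟩
      have : b = a := Subtype.ext hba
      rwa [← this]
    · intro ha; exact ⟨a, ha, rfl⟩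
  have habA : ∀ a ∈ A, ∀ b ∈ A, a * b = b * a := by
    rintro _ ⟨a, ha, rfl⟩ _ ⟨b, hb, rfl⟩
    have := hab₀ a ha b hb
    exact congrArg Subtype.val this
  have hAp : IsPGroup p A := A₀.2.map N.subtype
  let M : Subgroup G := N ⊓ Subgroup.normalizer (A : Set G)
  have hAM : A ≤ M := le_inf hAN Subgroup.le_normalizer
  have hMN : M ≤ N := inf_le_left
  have hMnorm : M ≤ Subgroup.normalizer (A : Set G) := inf_le_right
  haveI hAMn : (A.subgroupOf M).Normal := by
    refine ⟨fun x hx g => ?_⟩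
    rw [Subgroup.mem_subgroupOf] at hx ⊢
    have := (Subgroup.mem_normalizer_iff.mp (hMnorm g.2) x).mp hx
    simpa using this
  have hcardA : Nat.card (A.subgroupOf M) = Nat.card A := card_subgroupOf_of_le hAM
  have hrel : A.relIndex N = (A₀ : Subgroup N).index := by
    unfold Subgroup.relIndex
    congr 1
    ext a
    exact Subgroup.mem_subgroupOf.trans (hAmem a)
  have hidxA : ¬ p ∣ (A.subgroupOf M).index := by
    intro hdvd
    have h1 : A.relIndex M * M.relIndex N = A.relIndex N := Subgroup.relIndex_mul_relIndex _ _ _ hAM hMN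
    have h2 : p ∣ A.relIndex N := by
      rw [← h1]; exact Dvd.dvd.mul_right hdvd _
    rw [hrel] at h2
    exact A₀.not_dvd_index h2
  have hcopA : Nat.Coprime (Nat.card (A.subgroupOf M)) (A.subgroupOf M).index := by
    rw [hcardA]
    obtain ⟨k, hk⟩ := IsPGroup.iff_card.mp hAp
    rw [hk]
    exact Nat.Coprime.pow_left k ((Nat.Prime.coprime_iff_not_dvd hpp).mpr hidxA)
  obtain ⟨K₁, hK₁⟩ := Subgroup.exists_left_complement'_of_coprime hcopA
  let K₀ : Subgroup G := K₁.map M.subtype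
  have hK₀M : K₀ ≤ M := by
    rintro _ ⟨k, -, rfl⟩; exact k.2
  have hK₀mem : ∀ m : M, (m : G) ∈ K₀ ↔ m ∈ K₁ := by
    intro a; constructor
    · rintro ⟨b, hb, hba⟩
      have : b = a := Subtype.ext hba
      rwa [← this]
    · intro ha; exact ⟨a, ha, rfl⟩
  have hAK : ∀ x ∈ A, x ∈ K₀ → x = 1 := by
    intro x hxA hxK
    obtain ⟨m, hm, rfl⟩ := hxK
    have h1 : m ∈ K₁ ⊓ A.subgroupOf M := Subgroup.mem_inf.mpr ⟨hm, Subgroup.mem_subgroupOf.mpr hxA⟩
    rw [disjoint_iff.mp hK₁.disjoint, Subgroup.mem_bot] at h1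
    rw [h1]; rfl
  have hMAK : ∀ m ∈ M, ∃ k ∈ K₀, ∃ a ∈ A, m = k * a := by
    intro m hm
    obtain ⟨⟨⟨k, hk⟩, ⟨a, ha⟩⟩, hka⟩ := hK₁.2 ⟨m, hm⟩
    have hka' : k * a = ⟨m, hm⟩ := hka
    refine ⟨k, (hK₀mem k).mpr hk, a, Subgroup.mem_subgroupOf.mp ha, ?_⟩
    have := congrArg Subtype.val hka'
    simpa using this.symm
  have hcardK₀ : Nat.card K₀ = (A.subgroupOf M).index := by
    rw [hK₁.index_eq_card]
    exact Subgroup.card_map_of_injective M.subtype_injective
  have hcopAK : (Nat.card A).Coprime (Nat.card K₀) := by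
    rw [hcardK₀, ← hcardA]; exact hcopA
  have hK₀norm : K₀ ≤ Subgroup.normalizer (A : Set G) := hK₀M.trans hMnorm
  -- (ii)
  have hii : ∀ g ∈ Subgroup.normalizer (A : Set G), ∃ a ∈ A,
      a⁻¹ * g ∈ Subgroup.normalizer (K₀ : Set G) := by
    intro g hg
    have hB : cj g K₀ ≤ A ⊔ K₀ := by
      intro y hy
      rw [mem_cj] at hy
      have hyM : y ∈ M := by
        have e : y = g * (g⁻¹ * y * g) * g⁻¹ := by group
        have h1 := hK₀M hy
        refine Subgroup.mem_inf.mpr ⟨?_, ?_⟩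
        · rw [e]; exact hNn.conj_mem _ (hMN h1) g
        · rw [e]
          exact Subgroup.mul_mem _ (Subgroup.mul_mem _ hg (hMnorm h1)) (Subgroup.inv_mem _ hg)
      obtain ⟨k, hk, a, ha, rfl⟩ := hMAK y hyM
      exact Subgroup.mul_mem _ (Subgroup.mem_sup_right hk) (Subgroup.mem_sup_left ha)
    haveI : IsMulCommutative A := ⟨⟨fun a b => Subtype.ext (habA a a.2 b b.2)⟩⟩
    obtain ⟨a, ha, hax⟩ := szi A K₀ (cj g K₀) hK₀norm hcopAK
      (Or.inl (isSolvable_of_isMulCommutative A)) hB (card_cj g K₀)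
    refine ⟨a, ha, ?_⟩
    rw [Subgroup.mem_normalizer_iff]
    intro k
    have h1 := hax (g * k * g⁻¹)
    rw [mem_cj] at h1
    have e1 : g⁻¹ * (g * k * g⁻¹) * g = k := by group
    have e2 : a⁻¹ * (g * k * g⁻¹) * a = a⁻¹ * g * k * (a⁻¹ * g)⁻¹ := by group
    rw [e1, e2] at h1
    exact h1
  let L₁ : Subgroup G := Subgroup.normalizer (A : Set G) ⊓ Subgroup.normalizer (K₀ : Set G)
  have hNL : L₁ ⊔ N = ⊤ := by
    rw [eq_top_iff]
    intro g _
    have hfr : Subgroup.normalizer (A : Set G) ⊔ N = ⊤ := Sylow.normalizer_sup_eq_top A₀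
    have hg : g ∈ Subgroup.normalizer (A : Set G) ⊔ N := by rw [hfr]; exact Subgroup.mem_top g
    rw [← SetLike.mem_coe, Subgroup.mul_normal] at hg
    obtain ⟨l, hl, n, hn, rfl⟩ := Set.mem_mul.mp hg
    obtain ⟨a, ha, hal⟩ := hii l hl
    have hal' : a⁻¹ * l ∈ L₁ := Subgroup.mem_inf.mpr
      ⟨Subgroup.mul_mem _ (Subgroup.inv_mem _ (Subgroup.le_normalizer ha)) hl, hal⟩
    have e : l * n = a * (a⁻¹ * l) * n := by group
    rw [e]
    exact Subgroup.mul_mem _ (Subgroup.mul_mem _ (Subgroup.mem_sup_right (hAN ha))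
      (Subgroup.mem_sup_left hal')) (Subgroup.mem_sup_right hn)
  obtain ⟨K⟩ : Nonempty (Sylow p L₁) := inferInstance
  let K' : Subgroup G := (K : Subgroup L₁).map L₁.subtype
  have hdisj : Disjoint K' N := by
    rw [Subgroup.disjoint_def]
    intro x hxK hxN
    obtain ⟨xl, hxl, rfl⟩ := hxK
    have hxL : (xl : G) ∈ L₁ := xl.2
    have hxnA := (Subgroup.mem_inf.mp hxL).1
    have hxnK := (Subgroup.mem_inf.mp hxL).2
    have hxM : (xl : G) ∈ M := Subgroup.mem_inf.mpr ⟨hxN, hxnA⟩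
    obtain ⟨j, hj⟩ := K.2 ⟨xl, hxl⟩
    have hj' : (xl : G) ^ p ^ j = 1 := by
      have := congrArg (fun t : (K : Subgroup L₁) => ((t : L₁) : G)) hj
      simpa using this
    -- x ∈ A
    have hxA : (xl : G) ∈ A := by
      have h1 : (⟨(xl : G), hxM⟩ : M) ^ (A.subgroupOf M).index ∈ A.subgroupOf M :=
        Subgroup.pow_index_mem _ _
      rw [Subgroup.mem_subgroupOf] at h1
      have h1' : (xl : G) ^ (A.subgroupOf M).index ∈ A := by simpa using h1
      have hcop : Nat.Coprime (A.subgroupOf M).index (orderOf (xl : G)) := by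
        have h2 : orderOf (xl : G) ∣ p ^ j := orderOf_dvd_of_pow_eq_one hj'
        have h3 : Nat.Coprime (A.subgroupOf M).index (p ^ j) :=
          Nat.Coprime.pow_right j ((Nat.Prime.coprime_iff_not_dvd hpp).mpr hidxA).symm
        exact Nat.Coprime.coprime_dvd_right h2 h3
      obtain ⟨m, hm⟩ := exists_pow_eq_self_of_coprime hcop
      rw [← hm]; exact A.pow_mem h1' m
    -- x commutes with K₀
    have hxK₀ : ∀ k ∈ K₀, (xl : G) * k = k * (xl : G) := by
      intro k hk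
      have hc1 : (xl : G) * k * (xl : G)⁻¹ * k⁻¹ ∈ A := by
        have h1 : k * (xl : G)⁻¹ * k⁻¹ ∈ A :=
          (Subgroup.mem_normalizer_iff.mp (hK₀norm hk) _).mp (A.inv_mem hxA)
        have e : (xl : G) * k * (xl : G)⁻¹ * k⁻¹ = (xl : G) * (k * (xl : G)⁻¹ * k⁻¹) := by group
        rw [e]; exact A.mul_mem hxA h1
      have hc2 : (xl : G) * k * (xl : G)⁻¹ * k⁻¹ ∈ K₀ := by
        have h1 : (xl : G) * k * (xl : G)⁻¹ ∈ K₀ := (Subgroup.mem_normalizer_iff.mp hxnK _).mp hk
        exact K₀.mul_mem h1 (K₀.inv_mem hk)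
      have h3 := hAK _ hc1 hc2
      calc (xl : G) * k = ((xl : G) * k * (xl : G)⁻¹ * k⁻¹) * (k * (xl : G)) := by group
        _ = k * (xl : G) := by rw [h3, one_mul]
    have hxMc : ∀ m ∈ M, m * (xl : G) = (xl : G) * m := by
      intro m hm
      obtain ⟨k, hk, a, ha, rfl⟩ := hMAK m hm
      rw [mul_assoc, habA a ha _ hxA, ← mul_assoc, ← hxK₀ k hk, mul_assoc]
    have hz := hcz ⟨(xl : G), hxN⟩ ((hAmem _).mp hxA) (by
      intro m hm
      have hmM : (m : G) ∈ M := by
        refine Subgroup.mem_inf.mpr ⟨m.2, ?_⟩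
        have hle : (Subgroup.normalizer ((A₀ : Subgroup N) : Set N)).map N.subtype ≤
            Subgroup.normalizer (A : Set G) := by
          apply le_normalizer_of_conj_mem
          rintro _ ⟨n, hn, rfl⟩ _ ⟨b, hb, rfl⟩
          have := (Subgroup.mem_normalizer_iff.mp hn b).mp hb
          exact ⟨n * b * n⁻¹, this, by simp⟩
        exact hle ⟨m, hm, rfl⟩
      exact Subtype.ext (hxMc _ hmM))
    exact congrArg Subtype.val hz
  -- cardinalities
  have hrelL : N.relIndex L₁ = N.index := by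
    rw [← Subgroup.relIndex_sup_right, hNL, Subgroup.relIndex_top_right]
  obtain ⟨a, ha⟩ : ∃ a, N.index = p ^ a := by
    have := IsPGroup.iff_card.mp (Cfsg.Agent.S0075.quotient_isPGroup (G := G) p N rfl)
    rw [Subgroup.index_eq_card]; exact this
  have hdvd : p ^ a ∣ Nat.card L₁ := by
    rw [← ha, ← hrelL]; exact Subgroup.relIndex_dvd_card _ _
  have hcardK : p ^ a ≤ Nat.card K' := by
    have h1 : Nat.card K' = Nat.card (K : Subgroup L₁) :=
      Subgroup.card_map_of_injective L₁.subtype_injective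
    rw [h1, Sylow.card_eq_multiplicity]
    apply Nat.pow_le_pow_right hpp.pos
    exact (hpp.pow_dvd_iff_le_factorization Nat.card_pos.ne').mp hdvd
  refine ⟨K', ?_⟩
  apply Subgroup.isComplement'_of_card_mul_and_disjoint _ hdisj
  have h2 : Nat.card K' * Nat.card N ≤ Nat.card G := by
    rw [← Nat.card_prod]
    exact Nat.card_le_card_of_injective _ (Subgroup.mul_injective_of_disjoint hdisj)
  have h3 : Nat.card G ≤ Nat.card K' * Nat.card N := by
    rw [← Subgroup.index_mul_card N, ha]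
    exact Nat.mul_le_mul_right _ hcardK
  exact le_antisymm h2 h3

end Cfsg.Agent.S0092
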