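import Cfsg.Statements.S0094
import Mathlib

set_option autoImplicit false
open Pointwise
open Cfsg

namespace Cfsg.Agent.S0094

open scoped commutatorElement

theorem coatom_facts {G : Type*} [Group G] [Finite G] (p : ℕ) [Fact p.Prime]
    (hG : IsPGroup p G) (M : Subgroup G) (hM : IsCoatom M) :
    commutator G ≤ M ∧ ∀ x : G, x ^ p ∈ M := by
  haveI : Group.IsNilpotent G := hG.isNilpotent
  haveI hMn : M.Normal :=
    Subgroup.NormalizerCondition.normal_of_coatom M Group.normalizerCondition_of_isNilpotent hM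
  have hQ : IsPGroup p (G ⧸ M) := hG.to_quotient M
  haveI : Nontrivial (G ⧸ M) := QuotientGroup.nontrivial_iff.mpr hM.1
  obtain ⟨n, hn⟩ := IsPGroup.iff_card.mp hQ
  have hn0 : n ≠ 0 := by
    rintro rfl
    rw [pow_zero] at hn
    exact (Finite.one_lt_card (α := G ⧸ M)).ne' hn
  have hdvd : p ∣ Nat.card (G ⧸ M) := by rw [hn]; exact dvd_pow_self p hn0
  obtain ⟨x, hx⟩ := exists_prime_orderOf_dvd_card' p hdvd
  have htop : Subgroup.zpowers x = ⊤ := by
    have h1 : M ≤ (Subgroup.zpowers x).comap (QuotientGroup.mk' M) := by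
      intro m hm
      rw [Subgroup.mem_comap]
      have : QuotientGroup.mk' M m = 1 := (QuotientGroup.eq_one_iff m).mpr hm
      rw [this]; exact one_mem _
    have h2 : (Subgroup.zpowers x).comap (QuotientGroup.mk' M) ≠ M := by
      intro h
      obtain ⟨y, rfl⟩ := QuotientGroup.mk_surjective x
      have : y ∈ (Subgroup.zpowers (y : G ⧸ M)).comap (QuotientGroup.mk' M) := by
        rw [Subgroup.mem_comap]; exact Subgroup.mem_zpowers _
      rw [h] at this
      have h1 : (y : G ⧸ M) = 1 := (QuotientGroup.eq_one_iff y).mpr this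
      rw [h1, orderOf_one] at hx
      exact (Fact.out : p.Prime).one_lt.ne hx
    have h3 := hM.2 _ (lt_of_le_of_ne h1 (Ne.symm h2))
    have := congrArg (Subgroup.map (QuotientGroup.mk' M)) h3
    rw [Subgroup.map_comap_eq_self_of_surjective (QuotientGroup.mk'_surjective M)] at this
    rw [this, ← MonoidHom.range_eq_map, MonoidHom.range_eq_top]
    exact QuotientGroup.mk'_surjective M
  have hcard : Nat.card (G ⧸ M) = p := by
    rw [← Nat.card_zpowers, htop, Subgroup.card_top] at hx
    exact hx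
  constructor
  · haveI : IsCyclic (G ⧸ M) := isCyclic_of_prime_card hcard
    haveI : IsMulCommutative (G ⧸ M) := ⟨⟨fun a b => IsCyclic.commGroup.mul_comm a b⟩⟩
    exact Subgroup.Normal.quotient_commutative_iff_commutator_le.mp inferInstance
  · intro g
    rw [← QuotientGroup.eq_one_iff, QuotientGroup.mk_pow, ← hcard]
    exact pow_card_eq_one'

theorem frattini_facts {G : Type*} [Group G] [Finite G] (p : ℕ) [Fact p.Prime]
    (hG : IsPGroup p G) : commutator G ≤ frattini G ∧ ∀ x : G, x ^ p ∈ frattini G := by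
  constructor
  · simp only [frattini, Order.radical, le_iInf_iff]
    intro M hM
    exact (coatom_facts p hG M hM).1
  · intro x
    simp only [frattini, Order.radical, Subgroup.mem_iInf]
    intro M hM
    exact (coatom_facts p hG M hM).2 x


theorem comm_pow {P : Type*} [Group P] (x y : P) (hc : ∀ a b : P, ⁅a, b⁆ ∈ Subgroup.center P) (n : ℕ) :
    ⁅x ^ n, y⁆ = ⁅x, y⁆ ^ n := by
  induction n with
  | zero => simp
  | succ n ih =>
    have h1 : ⁅x ^ (n + 1), y⁆ = x * ⁅x ^ n, y⁆ * x⁻¹ * ⁅x, y⁆ := by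
      simp only [commutatorElement_def, pow_succ']
      group
    have h2 : x * ⁅x ^ n, y⁆ = ⁅x ^ n, y⁆ * x := ((Subgroup.mem_center_iff.mp (hc (x ^ n) y)) x)
    rw [h1, h2, mul_inv_cancel_right, ih, pow_succ]

theorem result {P : Type*} [Group P] [Finite P] {p : ℕ} [Fact p.Prime] (h : Cfsg.IsSpecial p P) (z : P) (hz : z ∈ Subgroup.center P) : z ^ p = 1 := by
  obtain ⟨hP, hΦ, hC⟩ := h
  have hc : ∀ a b : P, ⁅a, b⁆ ∈ Subgroup.center P := by
    intro a b
    rw [← hC]
    exact Subgroup.commutator_mem_commutator (Subgroup.mem_top a) (Subgroup.mem_top b)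
  have hgen : ∀ a b : P, ⁅a, b⁆ ^ p = 1 := by
    intro a b
    rw [← comm_pow a b hc p]
    have : a ^ p ∈ Subgroup.center P := by
      rw [← hΦ]; exact (frattini_facts p hP).2 a
    rw [commutatorElement_def]
    rw [← (Subgroup.mem_center_iff.mp this) b]
    group
  rw [← hC, commutator_eq_closure] at hz
  have key : ∀ w ∈ Subgroup.closure (commutatorSet P), w ∈ Subgroup.center P ∧ w ^ p = 1 := by
    intro w hw
    induction hw using Subgroup.closure_induction with
    | mem w hw =>
      obtain ⟨a, b, rfl⟩ := hw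
      exact ⟨hc a b, hgen a b⟩
    | one => exact ⟨one_mem _, one_pow _⟩
    | mul a b _ _ iha ihb =>
      refine ⟨mul_mem iha.1 ihb.1, ?_⟩
      have hcomm : Commute a b := (Subgroup.mem_center_iff.mp ihb.1 a)
      rw [hcomm.mul_pow, iha.2, ihb.2, one_mul]
    | inv a _ iha =>
      exact ⟨inv_mem iha.1, by rw [inv_pow, iha.2, inv_one]⟩
  exact (key z hz).2

end Cfsg.Agent.S0094
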