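import Cfsg.Statements.S0097
import Cfsg.Agent.S0012
import Cfsg.Agent.S0096
import Mathlib

set_option autoImplicit false
open Cfsg

namespace Cfsg.Agent.S0097

open scoped commutatorElement

/-- For odd p and E extraspecial, the subgroup generated by the elements of order dividing p has exponent dividing p and index at most p. -/
theorem result {E : Type*} [Group E] [Finite E] {p : ℕ} [Fact p.Prime] (hp : p ≠ 2) (h : Cfsg.IsExtraspecial p E) : (Subgroup.closure {x : E | x ^ p = 1}).index ≤ p ∧ ∀ g ∈ Subgroup.closure {x : E | x ^ p = 1}, g ^ p = 1 := by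
  obtain ⟨⟨hP, hfr, hcomm⟩, hcard⟩ := h
  have hpp : p.Prime := Fact.out
  have hc : ∀ a b : E, ⁅a, b⁆ ∈ Subgroup.center E := by
    intro a b
    rw [← hcomm]
    exact Subgroup.commutator_mem_commutator (Subgroup.mem_top a) (Subgroup.mem_top b)
  have hzp : ∀ z ∈ Subgroup.center E, z ^ p = 1 := by
    intro z hz
    have := pow_card_eq_one' (G := Subgroup.center E) (x := ⟨z, hz⟩)
    rw [hcard] at this
    exact congrArg Subtype.val this
  have h2lt : 2 < p := lt_of_le_of_ne hpp.two_le (Ne.symm hp)
  obtain ⟨m, hm⟩ := hpp.dvd_choose_self (by norm_num : (2 : ℕ) ≠ 0) h2lt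
  have hmul : ∀ x y : E, (x * y) ^ p = x ^ p * y ^ p := by
    intro x y
    rw [Cfsg.Agent.S0096.mul_pow_class_two x y hc p, hm, pow_mul, hzp _ (hc y x), one_pow, one_mul]
  have hpow : ∀ x : E, x ^ p ∈ Subgroup.center E := by
    intro x
    rw [← hfr]
    exact (Cfsg.Agent.S0012.result p hP).2 x
  let φ : E →* Subgroup.center E :=
    { toFun := fun x => ⟨x ^ p, hpow x⟩
      map_one' := by ext; simp
      map_mul' := by intro x y; ext; simp [hmul] }
  have hker : Subgroup.closure {x : E | x ^ p = 1} = φ.ker := by
    apply le_antisymm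
    · rw [Subgroup.closure_le]
      intro x hx
      rw [SetLike.mem_coe, MonoidHom.mem_ker]
      ext
      exact hx
    · intro x hx
      apply Subgroup.subset_closure
      rw [MonoidHom.mem_ker] at hx
      exact congrArg Subtype.val hx
  constructor
  · rw [hker, Subgroup.index_ker, ← hcard]
    exact Nat.card_le_card_of_injective (fun x : φ.range => (x : Subgroup.center E)) Subtype.val_injective
  · intro g hg
    rw [hker, MonoidHom.mem_ker] at hg
    exact congrArg Subtype.val hg

end Cfsg.Agent.S0097
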