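import Cfsg.Statements.S0099
-- import your own Cfsg.Agent.* helpers here
import Mathlib
import Cfsg.Agent.Lib.helper18.ES2b

set_option autoImplicit false
open Cfsg

namespace Cfsg.Agent.S0099



/-- Among three extraspecial 2-groups of equal order, some two are isomorphic. -/
theorem result {E₁ : Type*} {E₂ : Type*} {E₃ : Type*} [Group E₁] [Group E₂] [Group E₃] [Finite E₁] [Finite E₂] [Finite E₃] (h₁ : Cfsg.IsExtraspecial 2 E₁) (h₂ : Cfsg.IsExtraspecial 2 E₂) (h₃ : Cfsg.IsExtraspecial 2 E₃) (h12 : Nat.card E₁ = Nat.card E₂) (h23 : Nat.card E₂ = Nat.card E₃) : Nonempty (E₁ ≃* E₂) ∨ Nonempty (E₂ ≃* E₃) ∨ Nonempty (E₁ ≃* E₃) := by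
  exact Cfsg.Agent.Lib.helper18.ES2.main0099 h₁ h₂ h₃ h12 h23

end Cfsg.Agent.S0099
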