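import Cfsg.Statements.S0101
import Mathlib

set_option autoImplicit false
open Pointwise
open Cfsg

namespace Cfsg.Agent.S0101

theorem coatom_facts {G : Type*} [Group G] [Finite G] (p : ℕ) [Fact p.Prime]
    (hG : IsPGroup p G) (M : Subgroup G) (hM : IsCoatom M) :
    commutator G ≤ M ∧ ∀ x : G, x ^ p ∈ M := by
  haveI : Group.IsNilpotent G := hG.isNilpotent
  haveI hMn : M.Normal :=
    Subgroup.NormalizerCondition.normal_of_coatom M Group.normalizerCondition_of_isNilpotent hM
  have hQ : IsPGroup p (G ⧸ M) := hG.to_quotient M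
  haveI : Nontrivial (G ⧸ M) := QuotientGroup.nontrivial_iff.mpr hM.1
  obtain ⟨n, hn⟩ := IsPGroup.iff_card.mp hQ
  have hn0 : n ≠ 0 := by
    rintro rfl
    rw [pow_zero] at hn
    exact (Finite.one_lt_card (α := G ⧸ M)).ne' hn
  have hdvd : p ∣ Nat.card (G ⧸ M) := by rw [hn]; exact dvd_pow_self p hn0
  obtain ⟨x, hx⟩ := exists_prime_orderOf_dvd_card' p hdvd
  have htop : Subgroup.zpowers x = ⊤ := by
    have h1 : M ≤ (Subgroup.zpowers x).comap (QuotientGroup.mk' M) := by
      intro m hm
      rw [Subgroup.mem_comap]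
      have : QuotientGroup.mk' M m = 1 := (QuotientGroup.eq_one_iff m).mpr hm
      rw [this]; exact one_mem _
    have h2 : (Subgroup.zpowers x).comap (QuotientGroup.mk' M) ≠ M := by
      intro h
      obtain ⟨y, rfl⟩ := QuotientGroup.mk_surjective x
      have : y ∈ (Subgroup.zpowers (y : G ⧸ M)).comap (QuotientGroup.mk' M) := by
        rw [Subgroup.mem_comap]; exact Subgroup.mem_zpowers _
      rw [h] at this
      have h1 : (y : G ⧸ M) = 1 := (QuotientGroup.eq_one_iff y).mpr this
      rw [h1, orderOf_one] at hx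
      exact (Fact.out : p.Prime).one_lt.ne hx
    have h3 := hM.2 _ (lt_of_le_of_ne h1 (Ne.symm h2))
    have := congrArg (Subgroup.map (QuotientGroup.mk' M)) h3
    rw [Subgroup.map_comap_eq_self_of_surjective (QuotientGroup.mk'_surjective M)] at this
    rw [this, ← MonoidHom.range_eq_map, MonoidHom.range_eq_top]
    exact QuotientGroup.mk'_surjective M
  have hcard : Nat.card (G ⧸ M) = p := by
    rw [← Nat.card_zpowers, htop, Subgroup.card_top] at hx
    exact hx
  constructor
  · haveI : IsCyclic (G ⧸ M) := isCyclic_of_prime_card hcard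
    haveI : IsMulCommutative (G ⧸ M) := ⟨⟨fun a b => IsCyclic.commGroup.mul_comm a b⟩⟩
    exact Subgroup.Normal.quotient_commutative_iff_commutator_le.mp inferInstance
  · intro g
    rw [← QuotientGroup.eq_one_iff, QuotientGroup.mk_pow, ← hcard]
    exact pow_card_eq_one'

theorem frattini_facts {G : Type*} [Group G] [Finite G] (p : ℕ) [Fact p.Prime]
    (hG : IsPGroup p G) : commutator G ≤ frattini G ∧ ∀ x : G, x ^ p ∈ frattini G := by
  constructor
  · simp only [frattini, Order.radical, le_iInf_iff]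
    intro M hM
    exact (coatom_facts p hG M hM).1
  · intro x
    simp only [frattini, Order.radical, Subgroup.mem_iInf]
    intro M hM
    exact (coatom_facts p hG M hM).2 x


theorem central_comm_mem {H : Type*} [Group H] [Finite H] {p : ℕ} [Fact p.Prime] (P : Sylow p H)
    (z : H) (hzP : z ∈ (P : Subgroup H)) (hzZ : z ∈ Subgroup.center H) (hzH : z ∈ commutator H) :
    (⟨z, hzP⟩ : (P : Subgroup H)) ∈ commutator (P : Subgroup H) := by
  have hp : p.Prime := Fact.out
  let φ : (P : Subgroup H) →* Abelianization (P : Subgroup H) := Abelianization.of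
  have key : ∀ (k : ℕ) (g₀ : H), g₀⁻¹ * z ^ k * g₀ ∈ (P : Subgroup H) → g₀⁻¹ * z ^ k * g₀ = z ^ k := by
    intro k g₀ _
    have : z ^ k ∈ Subgroup.center H := Subgroup.pow_mem _ hzZ k
    rw [Subgroup.mem_center_iff] at this
    rw [mul_assoc, ← this g₀, inv_mul_cancel_left]
  have h1 := MonoidHom.transfer_eq_pow φ z key
  have h2 : MonoidHom.transfer φ z = 1 := by
    have : commutator H ≤ (MonoidHom.transfer φ).ker :=
      Abelianization.commutator_subset_ker _
    exact this hzH
  rw [h2] at h1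
  have h3 : (φ ⟨z, hzP⟩) ^ (P : Subgroup H).index = 1 := by
    rw [← map_pow]
    rw [h1]
    rfl
  have hA : IsPGroup p (Abelianization (P : Subgroup H)) :=
    IsPGroup.of_surjective P.2 φ (QuotientGroup.mk_surjective)
  obtain ⟨j, hj⟩ := hA (φ ⟨z, hzP⟩)
  have h4 : orderOf (φ ⟨z, hzP⟩) ∣ Nat.gcd ((P : Subgroup H).index) (p ^ j) :=
    Nat.dvd_gcd (orderOf_dvd_of_pow_eq_one h3) (orderOf_dvd_of_pow_eq_one hj)
  have hcop : Nat.Coprime ((P : Subgroup H).index) (p ^ j) :=
    Nat.Coprime.pow_right j (Nat.Coprime.symm ((Nat.Prime.coprime_iff_not_dvd hp).mpr P.not_dvd_index))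
  rw [hcop] at h4
  have h5 : φ ⟨z, hzP⟩ = 1 := orderOf_eq_one_iff.mp (Nat.eq_one_of_dvd_one h4)
  have : (⟨z, hzP⟩ : (P : Subgroup H)) ∈ φ.ker := h5
  rwa [Abelianization.ker_of] at this

theorem result {H : Type*} {G : Type*} [Group H] [Group G] [Finite H] (σ : H →* G) (hσ : Function.Surjective σ) (hc : σ.ker ≤ Subgroup.center H) (hH : commutator H = ⊤) {p : ℕ} [Fact p.Prime] (P : Sylow p H) : σ.ker ⊓ (P : Subgroup H) ≤ (frattini P).map (P : Subgroup H).subtype := by
  rintro z ⟨hzk, hzP⟩
  have h1 := central_comm_mem P z hzP (hc hzk) (hH ▸ Subgroup.mem_top z)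
  have h2 := (frattini_facts p P.2).1 h1
  exact ⟨⟨z, hzP⟩, h2, rfl⟩

end Cfsg.Agent.S0101
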