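import Cfsg.Statements.S0102
import Mathlib

set_option autoImplicit false
open Pointwise
open Cfsg

namespace Cfsg.Agent.S0102

open scoped IsMulCommutative in
theorem transfer_central {G : Type*} [Group G] [Finite G] (H : Subgroup G) (hc : IsMulCommutative H)
    (z : G) (hzZ : z ∈ Subgroup.center G) (hzG : z ∈ commutator G) :
    z ^ H.index = 1 := by
  have key : ∀ (k : ℕ) (g₀ : G), g₀⁻¹ * z ^ k * g₀ ∈ H → g₀⁻¹ * z ^ k * g₀ = z ^ k := by
    intro k g₀ _
    have : z ^ k ∈ Subgroup.center G := Subgroup.pow_mem _ hzZ k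
    rw [Subgroup.mem_center_iff] at this
    rw [mul_assoc, ← this g₀, inv_mul_cancel_left]
  have h1 := MonoidHom.transfer_eq_pow (MonoidHom.id H) z key
  have h2 : MonoidHom.transfer (MonoidHom.id H) z = 1 := by
    have : commutator G ≤ (MonoidHom.transfer (MonoidHom.id H)).ker :=
      Abelianization.commutator_subset_ker _
    exact this hzG
  rw [h2] at h1
  have := congrArg Subtype.val h1
  simpa using this.symm

theorem hall_abelian {G : Type*} [Group G] [Finite G] (H : Subgroup G) (hc : IsMulCommutative H) (hHall : Nat.Coprime (Nat.card H) H.index) : H ⊓ commutator G ⊓ Subgroup.center G = ⊥ := by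
  rw [eq_bot_iff]
  rintro z ⟨⟨hzH, hzG⟩, hzZ⟩
  have h1 := transfer_central H hc z hzZ hzG
  have h2 : z ^ Nat.card H = 1 := by
    have h := pow_card_eq_one' (G := H) (x := ⟨z, hzH⟩)
    have h' := congrArg Subtype.val h
    rw [Subgroup.coe_pow] at h'
    exact h'
  have h3 : orderOf z ∣ Nat.gcd (Nat.card H) H.index :=
    Nat.dvd_gcd (orderOf_dvd_of_pow_eq_one h2) (orderOf_dvd_of_pow_eq_one h1)
  rw [hHall] at h3
  exact orderOf_eq_one_iff.mp (Nat.eq_one_of_dvd_one h3)

theorem result {G : Type*} {H : Type*} [Group G] [Group H] [Finite G] [Finite H] (hG : commutator G = ⊤) {p : ℕ} [Fact p.Prime] (hcyc : ∀ P : Sylow p G, IsCyclic P) (σ : H →* G) (hσ : Function.Surjective σ) (hz : σ.ker ≤ Subgroup.center H) (hH : commutator H = ⊤) : ¬ p ∣ Nat.card σ.ker := by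
  intro hdvd
  have hp : p.Prime := Fact.out
  obtain ⟨z, hzo⟩ := exists_prime_orderOf_dvd_card' p hdvd
  have hzo' : orderOf (z : H) = p := by rw [Subgroup.orderOf_coe]; exact hzo
  have hpg : IsPGroup p (Subgroup.zpowers (z : H)) := by
    rw [IsPGroup.iff_card, Nat.card_zpowers, hzo']
    exact ⟨1, (pow_one p).symm⟩
  obtain ⟨P, hP⟩ := hpg.exists_le_sylow
  have hzP : (z : H) ∈ (P : Subgroup H) := hP (Subgroup.mem_zpowers _)
  -- P is abelian
  haveI : IsCyclic ((P : Subgroup H).map σ) := hcyc (P.mapSurjective hσ)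
  have hcomm : IsMulCommutative (P : Subgroup H) := by
    refine (σ.subgroupMap (P : Subgroup H)).isMulCommutative_of_isCyclic_of_ker_le_center ?_
    intro x hx
    rw [Subgroup.mem_center_iff]
    intro y
    have hx' : σ (x : H) = 1 := by
      have := congrArg Subtype.val (MonoidHom.mem_ker.mp hx)
      simpa using this
    have hxc : (x : H) ∈ Subgroup.center H := hz hx'
    rw [Subgroup.mem_center_iff] at hxc
    exact Subtype.ext (hxc y)
  have hbot := hall_abelian (P : Subgroup H) hcomm P.card_coprime_index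
  have hmem : (z : H) ∈ (P : Subgroup H) ⊓ commutator H ⊓ Subgroup.center H :=
    ⟨⟨hzP, hH ▸ Subgroup.mem_top _⟩, hz z.2⟩
  rw [hbot, Subgroup.mem_bot] at hmem
  rw [hmem, orderOf_one] at hzo'
  exact hp.one_lt.ne hzo'

end Cfsg.Agent.S0102
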