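import Cfsg.Statements.S0103
import Mathlib

set_option autoImplicit false
open Pointwise
open Cfsg

namespace Cfsg.Agent.S0103

theorem result {G : Type*} [Group G] [Finite G] {p : ℕ} [Fact p.Prime] (P : Sylow p G) (hTI : ∀ g : G, (P : Subgroup G).map (MulAut.conj g).toMonoidHom ≠ (P : Subgroup G) → (P : Subgroup G) ⊓ (P : Subgroup G).map (MulAut.conj g).toMonoidHom = ⊥) (x y : G) (hx : x ∈ P) (hy : y ∈ P) (hc : ∃ g : G, g * x * g⁻¹ = y) : ∃ n ∈ Subgroup.normalizer (P : Set G), n * x * n⁻¹ = y := by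
  obtain ⟨g, rfl⟩ := hc
  by_cases hx1 : x = 1
  · subst hx1
    exact ⟨1, Subgroup.one_mem _, by simp⟩
  refine ⟨g, ?_, rfl⟩
  have hmem : g * x * g⁻¹ ∈ (P : Subgroup G).map (MulAut.conj g).toMonoidHom :=
    ⟨x, hx, by simp [MulAut.conj_apply]⟩
  have heq : (P : Subgroup G).map (MulAut.conj g).toMonoidHom = (P : Subgroup G) := by
    by_contra hne
    have h := hTI g hne
    have : g * x * g⁻¹ ∈ (P : Subgroup G) ⊓ (P : Subgroup G).map (MulAut.conj g).toMonoidHom := ⟨hy, hmem⟩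
    rw [h, Subgroup.mem_bot] at this
    apply hx1
    have : x = g⁻¹ * (g * x * g⁻¹) * g := by group
    rw [this, ‹g * x * g⁻¹ = 1›]; group
  exact Subgroup.mem_normalizer_iff_map_conj_eq.mpr heq

end Cfsg.Agent.S0103
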