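import Cfsg.Statements.S0104
import Mathlib

set_option autoImplicit false
open Pointwise
open Cfsg

namespace Cfsg.Agent.S0104

theorem mem_smul_sylow {G : Type*} [Group G] {p : ℕ} (g x : G) (P : Sylow p G) : x ∈ ((g • P : Sylow p G) : Subgroup G) ↔ g⁻¹ * x * g ∈ (P : Subgroup G) := by
  rw [Sylow.coe_subgroup_smul, Subgroup.mem_pointwise_smul_iff_inv_smul_mem]
  simp [MulAut.smul_def]

theorem mem_map_conj {G : Type*} [Group G] (g x : G) (Z : Subgroup G) : x ∈ Z.map (MulAut.conj g).toMonoidHom ↔ g⁻¹ * x * g ∈ Z := by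
  simp [Subgroup.mem_map]
  constructor
  · rintro ⟨y, hy, rfl⟩; simpa [mul_assoc] using hy
  · intro h; exact ⟨_, h, by group⟩

theorem result {G : Type*} [Group G] [Finite G] {p : ℕ} [Fact p.Prime] (P : Sylow p G) (Z : Subgroup G) (hZP : Z ≤ (P : Subgroup G)) (hZN : Subgroup.normalizer (P : Set G) ≤ Subgroup.normalizer (Z : Set G)) : Cfsg.IsWeaklyClosed Z P ↔ ∀ R : Sylow p G, Z ≤ (R : Subgroup G) → (R : Subgroup G) ≤ Subgroup.normalizer (Z : Set G) := by
  constructor
  · rintro ⟨-, hW⟩ R hZR x hx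
    obtain ⟨g, rfl⟩ := MulAction.exists_smul_eq G P R
    have h1 : Z.map (MulAut.conj g⁻¹).toMonoidHom ≤ (P : Subgroup G) := by
      intro y hy
      rw [mem_map_conj, inv_inv] at hy
      have := hZR hy
      rw [mem_smul_sylow] at this
      have e : g⁻¹ * (g * y * g⁻¹) * g = y := by group
      rwa [e] at this
    have h2 : g⁻¹ ∈ Subgroup.normalizer (Z : Set G) :=
      Subgroup.mem_normalizer_iff_map_conj_eq.mpr (hW g⁻¹ h1)
    have h3 : g ∈ Subgroup.normalizer (Z : Set G) := by simpa using inv_mem h2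
    rw [mem_smul_sylow] at hx
    have h4 : g⁻¹ * x * g ∈ Subgroup.normalizer (Z : Set G) := hZN (Subgroup.le_normalizer hx)
    have e : x = g * (g⁻¹ * x * g) * g⁻¹ := by group
    rw [e]
    exact mul_mem (mul_mem h3 h4) h2
  · intro h
    refine ⟨hZP, fun g hg => ?_⟩
    have hZR : Z ≤ ((g⁻¹ • P : Sylow p G) : Subgroup G) := by
      intro z hz
      rw [mem_smul_sylow, inv_inv]
      apply hg
      rw [mem_map_conj]
      have e : g⁻¹ * (g * z * g⁻¹) * g = z := by group
      rwa [e]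
    have h1 : (P : Subgroup G) ≤ Subgroup.normalizer (Z : Set G) := h P hZP
    have h2 : ((g⁻¹ • P : Sylow p G) : Subgroup G) ≤ Subgroup.normalizer (Z : Set G) := h _ hZR
    obtain ⟨c, hc⟩ :=
      MulAction.exists_smul_eq (Subgroup.normalizer (Z : Set G)) ((g⁻¹ • P).subtype h2) (P.subtype h1)
    simp_rw [Sylow.smul_subtype, Subgroup.smul_def, smul_smul] at hc
    have h3 : (c : G) * g⁻¹ ∈ Subgroup.normalizer (P : Set G) :=
      Sylow.smul_eq_iff_mem_normalizer.mp (Sylow.subtype_injective hc)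
    have h4 : g⁻¹ ∈ Subgroup.normalizer (Z : Set G) := by
      have e : g⁻¹ = (c : G)⁻¹ * ((c : G) * g⁻¹) := by group
      rw [e]
      exact mul_mem (inv_mem c.2) (hZN h3)
    have h5 : g ∈ Subgroup.normalizer (Z : Set G) := by simpa using inv_mem h4
    exact Subgroup.mem_normalizer_iff_map_conj_eq.mp h5

end Cfsg.Agent.S0104
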