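import Mathlib
import Cfsg.Statements.S0107
import Cfsg.Agent.Lib.helper1.Quat
import Cfsg.Agent.Lib.helper1.SZ
import Cfsg.Agent.S0111

set_option autoImplicit false
open Cfsg

namespace Cfsg.Agent.S0107

open Cfsg.Agent.Lib.helper1
open Pointwise

theorem unique_involution_of_isCyclic {C : Type*} [Group C] [Finite C] [IsCyclic C]
    (u v : C) (hu : orderOf u = 2) (hv : orderOf v = 2) : u = v := by
  have h1 : Subgroup.zpowers u ≤ Subgroup.zpowers v := by
    apply le_of_card_dvd_of_isCyclic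
    rw [Nat.card_zpowers, Nat.card_zpowers, hu, hv]
  have h2 : u ∈ Subgroup.zpowers v := h1 (Subgroup.mem_zpowers u)
  obtain ⟨k, hk⟩ := Subgroup.mem_zpowers_iff.mp h2
  have hv2 : v ^ (2 : ℤ) = 1 := by
    have := pow_orderOf_eq_one v
    rw [hv] at this
    exact_mod_cast this
  have hu1 : u ≠ 1 := by
    intro h
    rw [h, orderOf_one] at hu
    omega
  rcases Int.emod_two_eq_zero_or_one k with h | h
  · exfalso
    apply hu1
    have : k = 2 * (k / 2) := by omega
    rw [← hk, this, zpow_mul, hv2, one_zpow]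
  · have : k = 2 * (k / 2) + 1 := by omega
    rw [← hk, this, zpow_add, zpow_mul, hv2, one_zpow, one_mul, zpow_one]

/-- A finite group with no nontrivial 2-group quotient and dihedral Sylow 2-subgroups of order at least 8 has a single class of involutions. -/
theorem result {G : Type*} [Group G] [Finite G] (T : Sylow 2 G) (n : ℕ) (hn : 2 ≤ n) (hT : Nonempty ((T : Subgroup G) ≃* DihedralGroup (2 ^ n))) (hO : Cfsg.pResidual 2 G = ⊤) (x y : G) (hx : orderOf x = 2) (hy : orderOf y = 2) : ∃ g : G, g * x * g⁻¹ = y := by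
  obtain ⟨e⟩ := hT
  haveI : Fact (Nat.Prime 2) := ⟨Nat.prime_two⟩
  haveI : NeZero (2 ^ n) := ⟨by positivity⟩
  set R₀ : Subgroup (DihedralGroup (2 ^ n)) := Subgroup.zpowers (DihedralGroup.r 1) with hR₀
  set Q₀ : Subgroup (T : Subgroup G) := R₀.comap e.toMonoidHom with hQ₀
  set Q : Subgroup G := Q₀.map (T : Subgroup G).subtype with hQ
  have hQT : Q ≤ (T : Subgroup G) := Subgroup.map_subtype_le _
  have hR₀idx : R₀.index = 2 := by
    have h1 := R₀.card_mul_index
    rw [DihedralGroup.nat_card, hR₀, Nat.card_zpowers, DihedralGroup.orderOf_r_one] at h1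
    have h2 : 0 < 2 ^ n := by positivity
    nlinarith
  have hQidx : Q.relIndex (T : Subgroup G) = 2 := by
    have h1 : Q.subgroupOf (T : Subgroup G) = Q₀ :=
      Subgroup.comap_map_eq_self_of_injective (T : Subgroup G).subtype_injective _
    rw [Subgroup.relIndex, h1, hQ₀, Subgroup.index_comap_of_surjective _ e.surjective]
    exact hR₀idx
  -- involutions in Q are unique
  have huniq : ∀ u ∈ Q, ∀ v ∈ Q, orderOf u = 2 → orderOf v = 2 → u = v := by
    intro u hu v hv hou hov
    rw [hQ, Subgroup.mem_map] at hu hv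
    obtain ⟨u₀, hu₀, rfl⟩ := hu
    obtain ⟨v₀, hv₀, rfl⟩ := hv
    have hu₀' : e u₀ ∈ R₀ := hu₀
    have hv₀' : e v₀ ∈ R₀ := hv₀
    have h1 : orderOf (⟨e u₀, hu₀'⟩ : R₀) = 2 := by
      rw [Subgroup.orderOf_mk, MulEquiv.orderOf_eq]
      exact (Subgroup.orderOf_coe u₀).symm.trans hou
    have h2 : orderOf (⟨e v₀, hv₀'⟩ : R₀) = 2 := by
      rw [Subgroup.orderOf_mk, MulEquiv.orderOf_eq]
      exact (Subgroup.orderOf_coe v₀).symm.trans hov
    have h3 := unique_involution_of_isCyclic _ _ h1 h2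
    have h4 : e u₀ = e v₀ := congrArg Subtype.val h3
    rw [e.injective h4]
  -- no normal subgroup of index 2
  have hno2 : ∀ M : Subgroup G, M.Normal → M.index = 2 → False := by
    intro M hM hMi
    have h1 : Cfsg.pResidual 2 G ≤ M := by
      unfold Cfsg.pResidual
      rw [Subgroup.closure_le]
      intro g hg
      have hg' : Nat.Coprime (orderOf g) 2 := hg
      have h2 : g ^ 2 ∈ M := by
        rw [pow_two]; exact Subgroup.mul_self_mem_of_index_two hMi g
      obtain ⟨m, hm⟩ := exists_pow_eq_self_of_coprime (x := g) (n := 2) hg'.symm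
      have h3 : (g ^ 2) ^ m ∈ M := M.pow_mem h2 m
      rw [hm] at h3
      exact h3
    rw [hO, top_le_iff] at h1
    rw [h1, Subgroup.index_top] at hMi
    omega
  -- every involution is conjugate to one in Q
  have hkey : ∀ w : G, orderOf w = 2 → ∃ g : G, g * w * g⁻¹ ∈ Q := by
    intro w hw
    have hwp : IsPGroup 2 (Subgroup.zpowers w) := by
      apply IsPGroup.of_card (n := 1)
      rw [Nat.card_zpowers, hw, pow_one]
    obtain ⟨P', hP'⟩ := hwp.exists_le_sylow
    obtain ⟨g, hg⟩ := MulAction.exists_smul_eq G P' T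
    have hwT : g * w * g⁻¹ ∈ (T : Subgroup G) := by
      rw [← hg, Sylow.coe_subgroup_smul, mem_conj_smul]
      have : g⁻¹ * (g * w * g⁻¹) * g = w := by group
      rw [this]
      exact hP' (Subgroup.mem_zpowers w)
    have hwo : orderOf (g * w * g⁻¹) = 2 := by
      have := orderOf_injective (MulAut.conj g).toMonoidHom (MulAut.conj g).injective w
      rw [← hw]
      simpa using this
    by_cases hwQ : g * w * g⁻¹ ∈ Q
    · exact ⟨g, hwQ⟩
    · rcases Cfsg.Agent.S0111.result T Q hQT hQidx (g * w * g⁻¹) hwo hwT hwQ with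
        ⟨M, hM, hMi, -⟩ | ⟨g', hg'⟩
      · exact absurd hMi (fun h => hno2 M hM h)
      · refine ⟨g' * g, ?_⟩
        have : g' * g * w * (g' * g)⁻¹ = g' * (g * w * g⁻¹) * g'⁻¹ := by group
        rw [this]; exact hg'
  obtain ⟨g₁, hg₁⟩ := hkey x hx
  obtain ⟨g₂, hg₂⟩ := hkey y hy
  have ho₁ : orderOf (g₁ * x * g₁⁻¹) = 2 := by
    have := orderOf_injective (MulAut.conj g₁).toMonoidHom (MulAut.conj g₁).injective x
    rw [← hx]
    simpa using this
  have ho₂ : orderOf (g₂ * y * g₂⁻¹) = 2 := by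
    have := orderOf_injective (MulAut.conj g₂).toMonoidHom (MulAut.conj g₂).injective y
    rw [← hy]
    simpa using this
  have heq := huniq _ hg₁ _ hg₂ ho₁ ho₂
  refine ⟨g₂⁻¹ * g₁, ?_⟩
  have : g₂⁻¹ * g₁ * x * (g₂⁻¹ * g₁)⁻¹ = g₂⁻¹ * (g₁ * x * g₁⁻¹) * g₂ := by group
  rw [this, heq]
  group

end Cfsg.Agent.S0107
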