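import Cfsg.Statements.S0608
import Mathlib
import Cfsg.Agent.Lib.helper3.PLocal

set_option linter.style.haveILetI false

set_option autoImplicit false
open Cfsg

namespace Cfsg.Agent.S0608

/-- With trivial p'-core, Thompson factorizability is equivalent to J(G) centralizing the subgroup generated by all Ω₁(Z(S)), S Sylow. -/
theorem result {G : Type*} [Group G] [Finite G] {p : ℕ} [Fact p.Prime] (hO : Cfsg.pPrimeCore p G = ⊥) : Cfsg.IsThompsonFactorizable p G ↔ Cfsg.thompsonSubgroup p G ≤ Subgroup.centralizer ((⨆ S : Sylow p G, Cfsg.omegaOne p (((S : Subgroup G)) ⊓ Subgroup.centralizer ((S : Subgroup G) : Set G)) : Subgroup G) : Set G) := by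
  open Cfsg.Agent.Lib.helper3 in
  constructor
  · intro hTF
    apply sSup_le
    intro A hA
    obtain ⟨S₀, hS₀⟩ := (isPGroup_of_isEA hA.1).exists_le_sylow
    have hAJ : A ≤ Cfsg.thompsonSubgroupOf p (S₀ : Subgroup G) := by
      rw [thompsonSubgroupOf_eq]; exact le_sSup ⟨hA, hS₀⟩
    refine hAJ.trans ?_
    apply Subgroup.le_centralizer_iff.mp
    apply iSup_le
    intro S
    unfold Cfsg.omegaOne
    apply (Subgroup.closure_le _).mpr
    rintro x ⟨hx, hxp⟩
    obtain ⟨g, hg⟩ := MulAction.exists_smul_eq G S₀ S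
    obtain ⟨x₀, hx₀, c, hc, n, hn, hgcn⟩ := hTF S₀ g⁻¹
    rw [hO, Subgroup.mem_bot] at hx₀
    subst hx₀
    have hg' : g = n⁻¹ * c⁻¹ := by
      have h1 : g⁻¹ = c * n := by rw [hgcn]; group
      calc g = (g⁻¹)⁻¹ := by group
        _ = n⁻¹ * c⁻¹ := by rw [h1]; group
    obtain ⟨x', hx'def⟩ : ∃ x', x' = g⁻¹ * x * g := ⟨_, rfl⟩
    have hxx' : x = g * x' * g⁻¹ := by rw [hx'def]; group
    have hx' : x' ∈ (S₀ : Subgroup G) ⊓ Subgroup.centralizer ((S₀ : Subgroup G) : Set G) := by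
      have h1 := conj_mem_center_smul S g⁻¹ hx
      have e : g⁻¹ • S = S₀ := by rw [← hg]; simp
      rw [e] at h1
      rw [hx'def]
      simpa using h1
    have hx'p : x' ^ p = 1 := by
      have e : x' = g⁻¹ * x * (g⁻¹)⁻¹ := by rw [hx'def]; group
      rw [e, conj_pow, hxp]; group
    have hx'Ω : x' ∈ Cfsg.omegaOne p
        ((S₀ : Subgroup G) ⊓ Subgroup.centralizer ((S₀ : Subgroup G) : Set G)) :=
      Subgroup.subset_closure ⟨hx', hx'p⟩
    have hcx : x' * c⁻¹ = c⁻¹ * x' :=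
      (Subgroup.mem_centralizer_iff.mp (Subgroup.inv_mem _ hc)) _ hx'Ω
    have hxn : x = n⁻¹ * x' * n := by
      calc x = g * x' * g⁻¹ := hxx'
        _ = n⁻¹ * (c⁻¹ * x') * c * n := by rw [hg']; group
        _ = n⁻¹ * (x' * c⁻¹) * c * n := by rw [hcx]
        _ = n⁻¹ * x' * n := by group
    rw [SetLike.mem_coe, Subgroup.mem_centralizer_iff]
    intro s hs
    have hs' : n * s * n⁻¹ ∈ Cfsg.thompsonSubgroupOf p (S₀ : Subgroup G) :=
      (Subgroup.mem_normalizer_iff.mp hn s).mp hs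
    have hcomm : (n * s * n⁻¹) * x' = x' * (n * s * n⁻¹) :=
      (Subgroup.mem_centralizer_iff.mp (Subgroup.mem_inf.mp hx').2) _
        (thompsonSubgroupOf_le S₀ hs')
    rw [hxn]
    calc s * (n⁻¹ * x' * n) = n⁻¹ * ((n * s * n⁻¹) * x') * n := by group
      _ = n⁻¹ * (x' * (n * s * n⁻¹)) * n := by rw [hcomm]
      _ = n⁻¹ * x' * n * s := by group
  · intro hJ S g
    haveI := thompson_normal p G
    obtain ⟨P, hP⟩ := exists_sylow_map_eq_inf S (Cfsg.thompsonSubgroup p G)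
    have hfr := Sylow.normalizer_sup_eq_top P
    rw [hP] at hfr
    obtain ⟨j, hj, n, hn, hgjn⟩ := exists_mul_of_sup_eq_top (Cfsg.thompsonSubgroup p G)
      (Subgroup.normalizer (((S : Subgroup G) ⊓ Cfsg.thompsonSubgroup p G : Subgroup G) : Set G))
      (by rw [sup_comm]; exact hfr) g
    refine ⟨1, Subgroup.one_mem _, j, ?_, n, normalizer_inf_thompson_le S hn, by rw [hgjn]; group⟩
    exact centralizer_anti (le_iSup (fun S : Sylow p G => Cfsg.omegaOne p
      (((S : Subgroup G)) ⊓ Subgroup.centralizer ((S : Subgroup G) : Set G))) S) (hJ hj)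

end Cfsg.Agent.S0608
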