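import Cfsg.Statements.S0109
import Cfsg.Agent.S0607
import Cfsg.Agent.S0608
import Cfsg.Agent.Lib.helper3.PSolvQuad
import Cfsg.Agent.Lib.helper3.ActionPStable
import Cfsg.Agent.Lib.helper10.PSolv
import Cfsg.Agent.Lib.helper14.SolvPSolv

set_option autoImplicit false
open Cfsg
open Cfsg.Agent.Lib.helper14

namespace Cfsg.Agent.S0109

theorem relIndex_ker_comap {G : Type*} [Group G] (N : Subgroup G) [N.Normal]
    (K : Subgroup (G ⧸ N)) : N.relIndex (K.comap (QuotientGroup.mk' N)) = Nat.card K := by
  have h := Subgroup.relIndex_comap (⊥ : Subgroup (G ⧸ N)) (QuotientGroup.mk' N)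
    (K.comap (QuotientGroup.mk' N))
  rw [Subgroup.map_comap_eq_self_of_surjective (QuotientGroup.mk'_surjective _),
    Subgroup.relIndex_bot_left] at h
  have e : (⊥ : Subgroup (G ⧸ N)).comap (QuotientGroup.mk' N) = N := by
    rw [MonoidHom.comap_bot, QuotientGroup.ker_mk']
  rw [e] at h
  exact h


/-- The Thompson factorization Theorem for solvable groups states that, with p odd (and abelian Sylow 2-subgroups when p = 3) and no nontrivial normal subgroup of order prime to p, every element of G is a product of an element normalizing J(P) and an element centralizing the elements of order dividing p in the centre of P. -/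
theorem result {G : Type*} [Group G] [Finite G] {p : ℕ} [Fact p.Prime] (hp : p ≠ 2) (hs : Group.IsSolvable G) (h3 : p = 3 → ∀ T : Sylow 2 G, IsMulCommutative T) (hF : ∀ N : Subgroup G, N.Normal → Nat.Coprime (Nat.card N) p → N = ⊥) (P : Sylow p G) (g : G) : ∃ a ∈ Subgroup.normalizer (Cfsg.thompsonSubgroupOf p (P : Subgroup G) : Set G), ∃ c ∈ Subgroup.centralizer {x : G | x ∈ (P : Subgroup G) ∧ (∀ y ∈ (P : Subgroup G), x * y = y * x) ∧ x ^ p = 1}, g = a * c := by
  open Cfsg.Agent.Lib.helper3 in
  have hpp : p.Prime := Fact.out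
  have hO : Cfsg.pPrimeCore p G = ⊥ := by
    rw [eq_bot_iff]
    apply sSup_le
    intro N hN
    exact (hF N hN.1 hN.2).le
  have hact : Cfsg.IsActionPStable p G := by
    by_cases h3' : p = 3
    · exact actionPStable_of_sylow2_comm hp (h3 h3')
    · have h5 : 5 ≤ p := by
        have h2 := hpp.two_le
        rcases Nat.lt_or_ge p 5 with h | h
        · exfalso
          interval_cases p
          · exact hp rfl
          · exact h3' rfl
          · exact absurd hpp (by decide)
        · exact h
      exact actionPStable_of_pSolvable h5 (isPSolvable_of_solvable p hs)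
  have hc : Subgroup.centralizer (Cfsg.pCore p G : Set G) ≤ Cfsg.pCore p G :=
    Cfsg.Agent.Lib.helper10.centralizer_pCore_le_of_solvable hs hO
  haveI hVn : (omegaZ p G).Normal := omegaZ_normal p G
  have hVE : Cfsg.IsElementaryAbelian p (omegaZ p G) := omegaZ_isEA hc
  have hst : Cfsg.IsPStableOn p (omegaZ p G) := hact.1 (omegaZ p G) hVE
  have hOp : Cfsg.pCore p (G ⧸ Subgroup.centralizer ((omegaZ p G : Subgroup G) : Set G)) = ⊥ := by
    have hDn : ((Cfsg.pCore p (G ⧸ Subgroup.centralizer ((omegaZ p G : Subgroup G) : Set G))).comap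
        (QuotientGroup.mk' (Subgroup.centralizer ((omegaZ p G : Subgroup G) : Set G)))).Normal := by
      haveI := pCore_normal3 p (G ⧸ Subgroup.centralizer ((omegaZ p G : Subgroup G) : Set G))
      infer_instance
    have hCD : Subgroup.centralizer ((omegaZ p G : Subgroup G) : Set G) ≤
        (Cfsg.pCore p (G ⧸ Subgroup.centralizer ((omegaZ p G : Subgroup G) : Set G))).comap
        (QuotientGroup.mk' (Subgroup.centralizer ((omegaZ p G : Subgroup G) : Set G))) := by
      intro x hx
      rw [Subgroup.mem_comap]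
      have : QuotientGroup.mk' (Subgroup.centralizer ((omegaZ p G : Subgroup G) : Set G)) x = 1 :=
        (QuotientGroup.eq_one_iff x).mpr hx
      rw [this]; exact Subgroup.one_mem _
    obtain ⟨k, hk⟩ := IsPGroup.iff_card.mp
      (pCore_isPGroup3 p (G ⧸ Subgroup.centralizer ((omegaZ p G : Subgroup G) : Set G)))
    have hidx : (Subgroup.centralizer ((omegaZ p G : Subgroup G) : Set G)).relIndex
        ((Cfsg.pCore p (G ⧸ Subgroup.centralizer ((omegaZ p G : Subgroup G) : Set G))).comap
        (QuotientGroup.mk' (Subgroup.centralizer ((omegaZ p G : Subgroup G) : Set G)))) = p ^ k := by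
      rw [relIndex_ker_comap, hk]
    have hD := eq_centralizer_omegaZ _ hDn hCD hidx
    rw [eq_bot_iff]
    intro y hy
    obtain ⟨x, rfl⟩ := QuotientGroup.mk_surjective y
    have hx : x ∈ (Cfsg.pCore p (G ⧸ Subgroup.centralizer ((omegaZ p G : Subgroup G) : Set G))).comap
        (QuotientGroup.mk' (Subgroup.centralizer ((omegaZ p G : Subgroup G) : Set G))) := hy
    rw [hD] at hx
    rw [Subgroup.mem_bot]
    exact (QuotientGroup.eq_one_iff x).mpr hx
  have hJ : Cfsg.thompsonSubgroup p G ≤
      Subgroup.centralizer ((omegaZ p G : Subgroup G) : Set G) := by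
    apply sSup_le
    intro A hA
    by_contra hAC
    have hVA : ⁅omegaZ p G, A⁆ ≠ ⊥ := by
      intro h
      apply hAC
      rw [Subgroup.commutator_eq_bot_iff_le_centralizer] at h
      exact Subgroup.le_centralizer_iff.mp h
    obtain ⟨-, hquad, hne⟩ := Cfsg.Agent.S0607.result (omegaZ p G) hVE A hA
    apply hne hVA
    rw [Subgroup.commutator_eq_bot_iff_le_centralizer]
    apply Subgroup.le_centralizer_iff.mp
    intro a ha
    have hza : Subgroup.zpowers a ≤ ⁅omegaZ p G, A⁆ ⊔
        (A ⊓ Subgroup.centralizer ((⁅omegaZ p G, A⁆ : Subgroup G) : Set G)) := by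
      rw [Subgroup.zpowers_le]; exact ha
    have hq : ⁅⁅omegaZ p G, Subgroup.zpowers a⁆, Subgroup.zpowers a⁆ = ⊥ := by
      rw [eq_bot_iff, ← hquad]
      exact Subgroup.commutator_mono (Subgroup.commutator_mono le_rfl hza) hza
    have h1 := hst a hq
    rw [hOp, Subgroup.mem_bot] at h1
    exact (QuotientGroup.eq_one_iff a).mp h1
  have hTF : Cfsg.IsThompsonFactorizable p G := (Cfsg.Agent.S0608.result hO).mpr hJ
  obtain ⟨x, hx, c, hc', n, hn, hg⟩ := hTF P g⁻¹
  rw [hO, Subgroup.mem_bot] at hx
  subst hx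
  refine ⟨n⁻¹, Subgroup.inv_mem _ hn, c⁻¹, ?_, ?_⟩
  · apply Subgroup.inv_mem
    refine Subgroup.centralizer_le ?_ hc'
    intro y hy
    apply Subgroup.subset_closure
    refine ⟨Subgroup.mem_inf.mpr ⟨hy.1, ?_⟩, hy.2.2⟩
    rw [Subgroup.mem_centralizer_iff]
    intro h hh
    exact (hy.2.1 h hh).symm
  · have h1 : g⁻¹ = c * n := by rw [hg]; group
    calc g = (g⁻¹)⁻¹ := by group
      _ = n⁻¹ * c⁻¹ := by rw [h1]; group

end Cfsg.Agent.S0109
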