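import Cfsg.Statements.S0110
import Cfsg.Agent.S0012
import Mathlib

set_option autoImplicit false
open Cfsg

namespace Cfsg.Agent.S0110

open scoped IsMulCommutative

theorem card_hom_le {E C : Type*} [Group E] [Finite E] [CommGroup C] [Finite C] {p : ℕ} [Fact p.Prime]
    (hC : Nat.card C = p) (hE : ∀ x : E, x ^ p ∈ commutator E) :
    Nat.card (E →* C) ≤ (commutator E).index := by
  have hcyc : IsCyclic C := isCyclic_of_prime_card hC
  obtain ⟨g, hg⟩ := IsCyclic.exists_generator (α := C)
  have hog : orderOf g = p := by rw [orderOf_eq_card_of_forall_mem_zpowers hg, hC]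
  have : HasEnoughRootsOfUnity C p :=
    { prim := ⟨g, hog ▸ IsPrimitiveRoot.orderOf g⟩
      cyc := by
        have : IsCyclic Cˣ := isCyclic_of_surjective (toUnits (G := C)) toUnits.surjective
        infer_instance }
  have hexp : Monoid.exponent (Abelianization E) ∣ p := by
    apply Monoid.exponent_dvd_of_forall_pow_eq_one
    intro v
    have hsurj : Function.Surjective (Abelianization.of (G := E)) := by
      intro w
      obtain ⟨x, rfl⟩ := QuotientGroup.mk_surjective w
      exact ⟨x, rfl⟩
    obtain ⟨x, rfl⟩ := hsurj v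
    rw [← map_pow, ← MonoidHom.mem_ker, Abelianization.ker_of]
    exact hE x
  have : HasEnoughRootsOfUnity C (Monoid.exponent (Abelianization E)) :=
    HasEnoughRootsOfUnity.of_dvd C hexp
  have h1 : Nat.card (Abelianization E →* Cˣ) = Nat.card (Abelianization E) :=
    CommGroup.card_monoidHom_of_hasEnoughRootsOfUnity _ _
  have h2 : Nat.card (E →* C) ≤ Nat.card (Abelianization E →* Cˣ) := by
    apply Nat.card_le_card_of_injective
      (fun f => (toUnits (G := C)).toMonoidHom.comp (Abelianization.lift f))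
    intro f f' hff'
    ext x
    have := DFunLike.congr_fun hff' (Abelianization.of x)
    simpa using this
  rw [h1] at h2
  exact h2

/-- In a p-group G, an extraspecial subgroup E with [G, E] ≤ Z(E) satisfies G = E C_G(E). -/
theorem result {G : Type*} [Group G] [Finite G] {p : ℕ} [Fact p.Prime] (hG : IsPGroup p G) (E : Subgroup G) (hE : Cfsg.IsExtraspecial p E) (h : ⁅(⊤ : Subgroup G), E⁆ ≤ E ⊓ Subgroup.centralizer (E : Set G)) : E ⊔ Subgroup.centralizer (E : Set G) = ⊤ := by
  obtain ⟨⟨hP, hfr, hcomm⟩, hcard⟩ := hE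
  set C := Subgroup.centralizer (E : Set G) with hCdef
  -- commutators
  have hcm : ∀ (g : G) (e : G), e ∈ E → g * e * g⁻¹ * e⁻¹ ∈ E ⊓ C := by
    intro g e he
    exact h (Subgroup.commutator_mem_commutator (Subgroup.mem_top g) he)
  have hcenE : ∀ z : G, ∀ hz : z ∈ E ⊓ C, (⟨z, hz.1⟩ : E) ∈ Subgroup.center E := by
    intro z hz
    rw [Subgroup.mem_center_iff]
    intro e
    have := (Subgroup.mem_centralizer_iff.mp (Subgroup.mem_inf.mp hz).2) e e.2
    exact Subtype.ext this
  -- the hom
  let ψ : G → (E →* Subgroup.center E) := fun g =>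
    { toFun := fun e => ⟨⟨g * e * g⁻¹ * (e : G)⁻¹, (hcm g e e.2).1⟩, hcenE _ (hcm g e e.2)⟩
      map_one' := by ext; simp
      map_mul' := by
        intro a b
        ext
        have hb := (Subgroup.mem_centralizer_iff.mp (Subgroup.mem_inf.mp (hcm g b b.2)).2) a a.2
        simp only [Subgroup.coe_mul]
        calc g * (↑a * ↑b) * g⁻¹ * ((a : G) * ↑b)⁻¹ = g * a * g⁻¹ * (g * b * g⁻¹ * (b : G)⁻¹) * (a : G)⁻¹ := by group
          _ = g * a * g⁻¹ * ((a : G)⁻¹ * ((a : G) * (g * b * g⁻¹ * (b : G)⁻¹))) * (a : G)⁻¹ := by group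
          _ = g * a * g⁻¹ * ((a : G)⁻¹ * ((g * b * g⁻¹ * (b : G)⁻¹) * a)) * (a : G)⁻¹ := by rw [hb]
          _ = g * ↑a * g⁻¹ * (↑a)⁻¹ * (g * ↑b * g⁻¹ * (↑b)⁻¹) := by group }
  have hinj : Function.Injective (fun q : G ⧸ C => ψ (Quotient.out q)) := by
    intro q q' hqq'
    rw [← Quotient.out_eq q, ← Quotient.out_eq q']
    apply QuotientGroup.eq.mpr
    show (Quotient.out q)⁻¹ * Quotient.out q' ∈ Subgroup.centralizer (E : Set G)
    rw [Subgroup.mem_centralizer_iff]
    intro e he
    have := congrArg (fun f : E →* Subgroup.center E => ((f ⟨e, he⟩ : E) : G)) hqq'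
    simp only [ψ, MonoidHom.coe_mk, OneHom.coe_mk] at this
    have h3 : Quotient.out q * e * (Quotient.out q)⁻¹ = Quotient.out q' * e * (Quotient.out q')⁻¹ := by
      simpa using this
    calc e * ((Quotient.out q)⁻¹ * Quotient.out q') = (Quotient.out q)⁻¹ * (Quotient.out q * e * (Quotient.out q)⁻¹) * Quotient.out q' := by group
      _ = (Quotient.out q)⁻¹ * Quotient.out q' * e := by rw [h3]; group
  haveI : Finite (E →* Subgroup.center E) := Finite.of_injective _ DFunLike.coe_injective
  have hle1 : C.index ≤ Nat.card (E →* Subgroup.center E) := Nat.card_le_card_of_injective _ hinj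
  have hpow : ∀ x : E, x ^ p ∈ commutator E := by
    intro x
    rw [hcomm, ← hfr]
    exact (Cfsg.Agent.S0012.result p hP).2 x
  have hle2 := card_hom_le (E := E) (C := Subgroup.center E) hcard hpow
  have hsub : C.subgroupOf E = Subgroup.center E := by
    ext x
    rw [Subgroup.mem_subgroupOf, hCdef, Subgroup.mem_centralizer_iff, Subgroup.mem_center_iff]
    constructor
    · intro hx e
      exact Subtype.ext (hx e e.2)
    · intro hx e he
      exact congrArg Subtype.val (hx ⟨e, he⟩)
  have hrel : C.relIndex E = (commutator E).index := by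
    rw [Subgroup.relIndex, hsub, hcomm]
  have hfin : ∀ K : Subgroup G, C.relIndex K ≠ 0 := fun K => by
    rw [Subgroup.relIndex]; exact Subgroup.index_ne_zero_of_finite
  have h4 : C.relIndex E ≤ C.relIndex (E ⊔ C) :=
    Subgroup.relIndex_le_of_le_right le_sup_left (hfin _)
  have h5 : C.relIndex (E ⊔ C) * (E ⊔ C).index = C.index := Subgroup.relIndex_mul_index le_sup_right
  have h6 : (E ⊔ C).index ≠ 0 := Subgroup.index_ne_zero_of_finite
  have h7 : C.relIndex E ≠ 0 := hfin _
  rw [← Subgroup.index_eq_one]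
  by_contra hne
  have h8 : 2 ≤ (E ⊔ C).index := by omega
  have h9 : C.relIndex E * 2 ≤ C.index := by
    rw [← h5]
    exact Nat.mul_le_mul h4 h8
  omega

end Cfsg.Agent.S0110
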