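import Cfsg.Statements.S0119
import Cfsg.Agent.S0012
import Cfsg.Agent.S0093
import Cfsg.Agent.S0096
import Cfsg.Agent.Lib.helper1.PGroup
import Mathlib

set_option autoImplicit false
open Cfsg

namespace Cfsg.Agent.S0119

open scoped commutatorElement

theorem comm_pow_right {P : Type*} [Group P] (x y : P) (hc : ∀ a b : P, ⁅a, b⁆ ∈ Subgroup.center P) (n : ℕ) :
    ⁅x, y ^ n⁆ = ⁅x, y⁆ ^ n := by
  rw [← commutatorElement_inv, Cfsg.Agent.S0096.comm_pow y x hc n, ← inv_pow, commutatorElement_inv]

/-- a subgroup generated by pairwise commuting elements is commutative -/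
theorem closure_comm {G : Type*} [Group G] (T : Set G) (hT : ∀ s ∈ T, ∀ t ∈ T, s * t = t * s) :
    ∀ a ∈ Subgroup.closure T, ∀ b ∈ Subgroup.closure T, a * b = b * a := by
  have h1 : Subgroup.closure T ≤ Subgroup.centralizer T := by
    rw [Subgroup.closure_le]
    intro s hs
    rw [SetLike.mem_coe, Subgroup.mem_centralizer_iff]
    intro t ht
    exact hT t ht s hs
  have h2 : Subgroup.closure T ≤ Subgroup.centralizer (Subgroup.closure T : Set G) := by
    rw [Subgroup.closure_le]
    intro t ht
    rw [SetLike.mem_coe, Subgroup.mem_centralizer_iff]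
    intro x hx
    exact (Subgroup.mem_centralizer_iff.mp (h1 hx) t ht).symm
  intro a ha b hb
  exact (Subgroup.mem_centralizer_iff.mp (h2 hb) a ha)

/-- If a p'-group A of automorphisms of a p-group G satisfies G = [G, A] and acts trivially on every characteristic abelian subgroup, then G is special with centre equal to the fixed points of A. -/
theorem result {G : Type*} [Group G] [Finite G] {p : ℕ} [Fact p.Prime] (hG : IsPGroup p G) (A : Subgroup (MulAut G)) (hA : Nat.Coprime (Nat.card A) p) (hGA : Subgroup.closure {x : G | ∃ g : G, ∃ a ∈ A, x = g⁻¹ * a g} = ⊤) (hchar : ∀ H : Subgroup G, H.Characteristic → IsMulCommutative H → ∀ a ∈ A, ∀ h ∈ H, a h = h) : Cfsg.IsSpecial p G ∧ (∀ g : G, (g ∈ Subgroup.center G ↔ ∀ a ∈ A, a g = g)) := by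
  have hp : p.Prime := Fact.out
  -- (1) characteristic abelian subgroups are central
  have hcentral : ∀ D : Subgroup G, D.Characteristic → (∀ x ∈ D, ∀ y ∈ D, x * y = y * x) →
      D ≤ Subgroup.center G := by
    intro D hDc hDab
    haveI := hDc
    have hfix := hchar D hDc ⟨⟨fun a b => Subtype.ext (hDab a a.2 b b.2)⟩⟩
    have hle : Subgroup.closure {x : G | ∃ g : G, ∃ a ∈ A, x = g⁻¹ * a g} ≤ Subgroup.centralizer (D : Set G) := by
      rw [Subgroup.closure_le]
      rintro x ⟨g, a, ha, rfl⟩
      rw [SetLike.mem_coe, Subgroup.mem_centralizer_iff]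
      intro d hd
      have hn : g * d * g⁻¹ ∈ D := (inferInstance : D.Normal).conj_mem d hd g
      have h1 : a (g * d * g⁻¹) = g * d * g⁻¹ := hfix a ha _ hn
      rw [map_mul, map_mul, map_inv, hfix a ha d hd] at h1
      calc d * (g⁻¹ * a g) = g⁻¹ * (g * d * g⁻¹) * a g := by group
        _ = g⁻¹ * (a g * d * (a g)⁻¹) * a g := by rw [h1]
        _ = g⁻¹ * a g * d := by group
    rw [hGA] at hle
    intro d hd
    rw [Subgroup.mem_center_iff]
    intro g
    exact (Subgroup.mem_centralizer_iff.mp (hle (Subgroup.mem_top g)) d hd).symm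
  -- (2) class at most two, via a critical subgroup
  obtain ⟨C, hCchar, -, hCcomm, hCcen⟩ := Cfsg.Agent.S0093.result hG
  haveI := hCchar
  have hZC : C ⊓ Subgroup.centralizer (C : Set G) ≤ Subgroup.center G := by
    apply hcentral
    · infer_instance
    · intro x hx y hy
      exact (Subgroup.mem_centralizer_iff.mp hy.2 x hx.1)
  have hCG : ⁅C, (⊤ : Subgroup G)⁆ ≤ Subgroup.center G := hCcomm.trans hZC
  have h3 : ⁅⁅(⊤ : Subgroup G), (⊤ : Subgroup G)⁆, C⁆ = ⊥ := by
    apply Subgroup.commutator_commutator_eq_bot_of_rotate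
    · rw [Subgroup.commutator_comm ⊤ C, Subgroup.commutator_eq_bot_iff_le_centralizer, Subgroup.coe_top,
        Subgroup.centralizer_univ]
      exact hCG
    · rw [Subgroup.commutator_eq_bot_iff_le_centralizer, Subgroup.coe_top, Subgroup.centralizer_univ]
      exact hCG
  have hcomm_le : commutator G ≤ Subgroup.center G := by
    rw [Subgroup.commutator_eq_bot_iff_le_centralizer] at h3
    intro x hx
    exact hZC ⟨hCcen (h3 hx), h3 hx⟩
  have hc : ∀ a b : G, ⁅a, b⁆ ∈ Subgroup.center G := fun a b =>
    hcomm_le (Subgroup.commutator_mem_commutator (Subgroup.mem_top a) (Subgroup.mem_top b))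
  -- (3) A fixes the centre
  have hZfix : ∀ a ∈ A, ∀ z ∈ Subgroup.center G, a z = z :=
    hchar (Subgroup.center G) inferInstance
      ⟨⟨fun a b => Subtype.ext ((Subgroup.mem_center_iff.mp b.2 (a : G)))⟩⟩
  -- (4) fixed points lie in the commutator subgroup
  haveI : Finite (MulAut G) := Finite.of_injective (fun e : MulAut G => (e : G → G)) DFunLike.coe_injective
  haveI : Fintype A := Fintype.ofFinite A
  let τ : G →* Abelianization G := ∏ a : A, (Abelianization.of.comp (a : MulAut G).toMonoidHom)
  have hτ : ∀ x : G, τ x = ∏ a : A, Abelianization.of ((a : MulAut G) x) := by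
    intro x
    simp only [τ, MonoidHom.finsetProd_apply]
    rfl
  have hτinv : ∀ b ∈ A, ∀ x : G, τ (b x) = τ x := by
    intro b hb x
    rw [hτ, hτ]
    exact Fintype.prod_equiv (Equiv.mulRight (⟨b, hb⟩ : A)) _ _ (fun a => rfl)
  have hτtriv : ∀ x : G, τ x = 1 := by
    intro x
    have hle : Subgroup.closure {x : G | ∃ g : G, ∃ a ∈ A, x = g⁻¹ * a g} ≤ τ.ker := by
      rw [Subgroup.closure_le]
      rintro y ⟨g, a, ha, rfl⟩
      rw [SetLike.mem_coe, MonoidHom.mem_ker, map_mul, map_inv, hτinv a ha, inv_mul_cancel]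
    rw [hGA] at hle
    exact MonoidHom.mem_ker.mp (hle (Subgroup.mem_top x))
  have hfixed_le : ∀ x : G, (∀ a ∈ A, a x = x) → x ∈ commutator G := by
    intro x hx
    have h1 : (Abelianization.of x) ^ (Nat.card A) = 1 := by
      have := hτtriv x
      rw [hτ] at this
      rw [← this, Nat.card_eq_fintype_card, ← Finset.card_univ, ← Finset.prod_const]
      apply Finset.prod_congr rfl
      intro a _
      rw [hx a a.2]
    obtain ⟨k, hk⟩ := hG x
    have h2 : (Abelianization.of x) ^ (p ^ k) = 1 := by rw [← map_pow, hk, map_one]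
    have h4 : orderOf (Abelianization.of x) ∣ Nat.gcd (Nat.card A) (p ^ k) :=
      Nat.dvd_gcd (orderOf_dvd_of_pow_eq_one h1) (orderOf_dvd_of_pow_eq_one h2)
    have h5 : Nat.gcd (Nat.card A) (p ^ k) = 1 := Nat.Coprime.pow_right k hA
    rw [h5, Nat.dvd_one, orderOf_eq_one_iff] at h4
    rw [← Abelianization.ker_of, MonoidHom.mem_ker]
    exact h4
  have hcomm_eq : commutator G = Subgroup.center G := by
    apply le_antisymm hcomm_le
    intro z hz
    exact hfixed_le z (fun a ha => hZfix a ha z hz)
  -- (6) the centre has exponent p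
  have hex : ∃ e : ℕ, ∀ z ∈ Subgroup.center G, z ^ p ^ e = 1 := by
    obtain ⟨n, hn⟩ := IsPGroup.iff_card.mp hG
    exact ⟨n, fun z _ => by rw [← hn]; exact pow_card_eq_one'⟩
  classical
  have hmin : ∀ m, m < Nat.find hex → ¬ (∀ z ∈ Subgroup.center G, z ^ p ^ m = 1) :=
    fun m hm => Nat.find_min hex hm
  have hspec := Nat.find_spec hex
  set e := Nat.find hex with he
  have he1 : e ≤ 1 := by
    by_contra hgt
    obtain ⟨e', he'⟩ : ∃ e', e = e' + 1 := ⟨e - 1, by omega⟩
    have he'1 : 1 ≤ e' := by omega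
    apply hmin e' (by omega)
    -- the characteristic abelian subgroup S
    set T : Set G := {y | ∃ x : G, y = x ^ p ^ e'} ∪ (Subgroup.center G : Set G) with hT
    have hTcomm : ∀ s ∈ T, ∀ t ∈ T, s * t = t * s := by
      intro s hs t ht
      rcases ht with ⟨y, rfl⟩ | ht
      · rcases hs with ⟨x, rfl⟩ | hs
        · rw [← commutatorElement_eq_one_iff_mul_comm, Cfsg.Agent.S0096.comm_pow x _ hc,
            comm_pow_right x y hc, ← pow_mul]
          have h1 : p ^ e' * p ^ e' = p ^ e * p ^ (e' - 1) := by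
            rw [he', ← pow_add, ← pow_add]; congr 1; omega
          rw [h1, pow_mul, hspec _ (hc x y), one_pow]
        · exact (Subgroup.mem_center_iff.mp hs _).symm
      · exact (Subgroup.mem_center_iff.mp ht s)
    have hSab := closure_comm T hTcomm
    have hSchar : (Subgroup.closure T).Characteristic := by
      rw [Subgroup.characteristic_iff_map_le]
      intro ϕ
      rw [MonoidHom.map_closure]
      apply Subgroup.closure_mono
      rintro _ ⟨t, ht, rfl⟩
      rcases ht with ⟨x, rfl⟩ | ht
      · left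
        exact ⟨ϕ x, by simp⟩
      · right
        rw [SetLike.mem_coe, Subgroup.mem_center_iff]
        intro g
        have h1 := Subgroup.mem_center_iff.mp ht (ϕ.symm g)
        have h2 := congrArg ϕ h1
        simpa using h2
    have hScen := hcentral _ hSchar hSab
    have hpow_cen : ∀ x : G, x ^ p ^ e' ∈ Subgroup.center G := fun x =>
      hScen (Subgroup.subset_closure (Or.inl ⟨x, rfl⟩))
    have hcomm_pow : ∀ x y : G, ⁅x, y⁆ ^ p ^ e' = 1 := by
      intro x y
      rw [← Cfsg.Agent.S0096.comm_pow x y hc, commutatorElement_eq_one_iff_mul_comm]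
      exact ((Subgroup.mem_center_iff.mp (hpow_cen x)) y).symm
    intro z hz
    rw [← hcomm_eq, commutator_eq_closure] at hz
    have key : z ∈ Subgroup.center G ∧ z ^ p ^ e' = 1 := by
      induction hz using Subgroup.closure_induction with
      | mem w hw =>
        obtain ⟨x, y, rfl⟩ := hw
        exact ⟨hc x y, hcomm_pow x y⟩
      | one => exact ⟨Subgroup.one_mem _, one_pow _⟩
      | mul a b _ _ iha ihb =>
        refine ⟨Subgroup.mul_mem _ iha.1 ihb.1, ?_⟩
        have hcm : Commute a b := (Subgroup.mem_center_iff.mp iha.1 b).symm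
        rw [hcm.mul_pow, iha.2, ihb.2, one_mul]
      | inv a _ iha => exact ⟨Subgroup.inv_mem _ iha.1, by rw [inv_pow, iha.2, inv_one]⟩
    exact key.2
  have hZp : ∀ z ∈ Subgroup.center G, z ^ p = 1 := by
    intro z hz
    have h1 := hspec z hz
    rcases Nat.eq_zero_or_pos e with h0 | h0
    · rw [h0, pow_zero, pow_one] at h1
      rw [h1, one_pow]
    · have : e = 1 := by omega
      rw [this, pow_one] at h1
      exact h1
  have hpow : ∀ x : G, x ^ p ∈ Subgroup.center G := by
    intro x
    rw [Subgroup.mem_center_iff]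
    intro y
    have h1 : ⁅x ^ p, y⁆ = 1 := by
      rw [Cfsg.Agent.S0096.comm_pow x y hc, hZp _ (hc x y)]
    exact (commutatorElement_eq_one_iff_mul_comm.mp h1).symm
  -- (7) Frattini
  have hfr : frattini G = Subgroup.center G := by
    apply le_antisymm
    · exact Cfsg.Agent.Lib.helper1.frattini_le_of_elementary_quotient p (Subgroup.center G) hcomm_le hpow
    · rw [← hcomm_eq]
      exact (Cfsg.Agent.S0012.result p hG).1
  refine ⟨⟨hG, hfr, hcomm_eq⟩, fun g => ⟨fun hg a ha => hZfix a ha g hg, fun hg => ?_⟩⟩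
  rw [← hcomm_eq]
  exact hfixed_le g hg

end Cfsg.Agent.S0119
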