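import Cfsg.Statements.S0123
import Cfsg.Agent.S0096
import Cfsg.Agent.S0124
import Mathlib

set_option autoImplicit false
open Cfsg

namespace Cfsg.Agent.S0123

open scoped commutatorElement

/-- For a p-group of small class relative to p (class ≤ 2 with p odd, or class ≤ 3 with p > 3) whose derived subgroup is generated by elements of order dividing p, the p-th power map is multiplicative. -/
theorem result {R : Type*} [Group R] [Finite R] {p : ℕ} [Fact p.Prime] (hR : IsPGroup p R) (hcl : (p ≠ 2 ∧ ⁅commutator R, (⊤ : Subgroup R)⁆ = ⊥) ∨ (3 < p ∧ ⁅⁅commutator R, (⊤ : Subgroup R)⁆, (⊤ : Subgroup R)⁆ = ⊥)) (hder : commutator R ≤ Subgroup.closure {x : R | x ^ p = 1}) (x y : R) : (x * y) ^ p = x ^ p * y ^ p := by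
  have hpp : p.Prime := Fact.out
  have hcm : ∀ a b : R, ⁅a, b⁆ ∈ commutator R := fun a b =>
    Subgroup.commutator_mem_commutator (Subgroup.mem_top a) (Subgroup.mem_top b)
  rcases hcl with ⟨hp, h2⟩ | ⟨hp, h3⟩
  · have hc := Cfsg.Agent.S0096.comm_central h2
    have hexp : ∀ a b : R, ⁅a, b⁆ ^ p = 1 := fun a b =>
      Cfsg.Agent.S0096.result hp hR h2 _ (hder (hcm a b))
    have h2lt : 2 < p := lt_of_le_of_ne hpp.two_le (Ne.symm hp)
    obtain ⟨m, hm⟩ := hpp.dvd_choose_self (by norm_num : (2 : ℕ) ≠ 0) h2lt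
    rw [Cfsg.Agent.S0096.mul_pow_class_two x y hc p, hm, pow_mul, hexp, one_pow, one_mul]
  · have hc := Cfsg.Agent.S0124.comm3_central h3
    have hexp : ∀ a b : R, ⁅a, b⁆ ^ p = 1 := fun a b =>
      Cfsg.Agent.S0124.result hp hR h3 _ (hder (hcm a b))
    obtain ⟨d3, d2⟩ := Cfsg.Agent.S0124.dvd_choose_succ hp
    have h1 : ⁅x ^ p, y⁆ = 1 := by
      rw [Cfsg.Agent.S0124.comm_pow_formula hc x y p, hexp,
        Cfsg.Agent.S0124.pow_eq_one_of_dvd' (hexp _ _)
          (hpp.dvd_choose_self (by norm_num : (2 : ℕ) ≠ 0) (by omega : 2 < p)), one_mul]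
    have h2 : x ^ p * y = y * x ^ p := commutatorElement_eq_one_iff_mul_comm.mp h1
    have h3' : Commute (x ^ p) y := h2
    rw [Cfsg.Agent.S0124.mul_pow_class_three hc x y p,
      Cfsg.Agent.S0124.pow_eq_one_of_dvd' (hexp _ _) (Dvd.dvd.mul_left d3 2),
      Cfsg.Agent.S0124.pow_eq_one_of_dvd' (hexp _ _) d3,
      Cfsg.Agent.S0124.pow_eq_one_of_dvd' (hexp _ _) d2, one_mul, one_mul, one_mul]
    exact ((h3'.pow_right p).eq).symm

end Cfsg.Agent.S0123
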