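import Cfsg.Statements.S0125
import Mathlib

set_option autoImplicit false
open Pointwise
open Cfsg

namespace Cfsg.Agent.S0125

theorem mem_smul_sylow {G : Type*} [Group G] {p : ℕ} (g x : G) (P : Sylow p G) : x ∈ ((g • P : Sylow p G) : Subgroup G) ↔ g⁻¹ * x * g ∈ (P : Subgroup G) := by
  rw [Sylow.coe_subgroup_smul, Subgroup.mem_pointwise_smul_iff_inv_smul_mem]
  simp [MulAut.smul_def]

theorem rel_sylow {G : Type*} [Group G] [Finite G] {p : ℕ} [Fact p.Prime] (R : Sylow p G)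
    (M B : Subgroup G) (hRM : (R : Subgroup G) ≤ M) (hBM : B ≤ M) (hB : IsPGroup p B) :
    ∃ m ∈ M, ∀ b ∈ B, m * b * m⁻¹ ∈ (R : Subgroup G) := by
  have hB' : IsPGroup p (B.subgroupOf M) := hB.comap_subtype
  obtain ⟨S, hS⟩ := hB'.exists_le_sylow
  obtain ⟨m, hm⟩ := MulAction.exists_smul_eq M S (R.subtype hRM)
  refine ⟨m, m.2, fun b hb => ?_⟩
  have h1 : (⟨b, hBM hb⟩ : M) ∈ (S : Subgroup M) := hS (Subgroup.mem_subgroupOf.mpr hb)
  have h2 : m * (⟨b, hBM hb⟩ : M) * m⁻¹ ∈ ((m • S : Sylow p M) : Subgroup M) := by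
    rw [mem_smul_sylow]
    have e : m⁻¹ * (m * (⟨b, hBM hb⟩ : M) * m⁻¹) * m = ⟨b, hBM hb⟩ := by group
    rw [e]; exact h1
  rw [hm, Sylow.coe_subtype, Subgroup.mem_subgroupOf] at h2
  exact h2

theorem result {G : Type*} [Group G] [Finite G] {p : ℕ} [Fact p.Prime] (R : Sylow p G) (A : Subgroup G) (hAR : A ≤ (R : Subgroup G)) (hAn : (R : Subgroup G) ≤ Subgroup.normalizer (A : Set G)) (hC : (R : Subgroup G) ⊓ Subgroup.centralizer (A : Set G) = A) : ∃ H : Subgroup G, H ≤ Subgroup.centralizer (A : Set G) ∧ Nat.Coprime (Nat.card H) p ∧ Subgroup.centralizer (A : Set G) ≤ Subgroup.normalizer (H : Set G) ∧ H ⊓ A = ⊥ ∧ H ⊔ A = Subgroup.centralizer (A : Set G) := by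
  have hp : p.Prime := Fact.out
  set C := Subgroup.centralizer (A : Set G) with hCdef
  set M := Subgroup.normalizer (A : Set G) with hMdef
  have hAC : A ≤ C := by rw [← hC]; exact inf_le_right
  have hCM : C ≤ M := Subgroup.centralizer_le_normalizer _
  have hApg : IsPGroup p A := R.2.to_le hAR
  have hA' : IsPGroup p (A.subgroupOf C) := hApg.comap_subtype
  obtain ⟨S, hS⟩ := hA'.exists_le_sylow
  have hSA : (S : Subgroup C) = A.subgroupOf C := by
    apply le_antisymm _ hS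
    intro s hs
    rw [Subgroup.mem_subgroupOf]
    have hBpg : IsPGroup p ((S : Subgroup C).map C.subtype) := S.2.map _
    have hBM : (S : Subgroup C).map C.subtype ≤ M := (Subgroup.map_subtype_le _).trans hCM
    obtain ⟨m, hmM, hm⟩ := rel_sylow R M _ hAn hBM hBpg
    have h1 : m * (s : G) * m⁻¹ ∈ (R : Subgroup G) := hm _ ⟨s, hs, rfl⟩
    have h2 : m * (s : G) * m⁻¹ ∈ C := by
      show m * (s : G) * m⁻¹ ∈ Subgroup.centralizer (A : Set G)
      rw [Subgroup.mem_centralizer_iff]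
      intro a ha
      have ha' : m⁻¹ * a * m ∈ A := by
        have := (Subgroup.mem_normalizer_iff_map_conj_eq.mp (inv_mem hmM))
        rw [← this]
        exact ⟨a, ha, by simp [MulAut.conj_apply]⟩
      have hs' := Subgroup.mem_centralizer_iff.mp s.2 _ ha'
      have e1 : a * (m * (s : G) * m⁻¹) = m * ((m⁻¹ * a * m) * (s : G)) * m⁻¹ := by group
      have e2 : m * (s : G) * m⁻¹ * a = m * ((s : G) * (m⁻¹ * a * m)) * m⁻¹ := by group
      rw [e1, e2, hs']
    have h3 : m * (s : G) * m⁻¹ ∈ A := by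
      rw [← hC]; exact ⟨h1, h2⟩
    have h4 : m⁻¹ * (m * (s : G) * m⁻¹) * m ∈ A := by
      have := (Subgroup.mem_normalizer_iff_map_conj_eq.mp (inv_mem hmM))
      rw [← this]
      exact ⟨_, h3, by simp [MulAut.conj_apply]⟩
    have e : m⁻¹ * (m * (s : G) * m⁻¹) * m = (s : G) := by group
    rwa [e] at h4
  have hScent : ∀ s ∈ (S : Subgroup C), ∀ c : C, c * s = s * c := by
    intro s hs c
    rw [hSA, Subgroup.mem_subgroupOf] at hs
    apply Subtype.ext
    exact (Subgroup.mem_centralizer_iff.mp c.2 _ hs).symm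
  have hNC : Subgroup.normalizer ((S : Subgroup C) : Set C) ≤ Subgroup.centralizer ((S : Subgroup C) : Set C) := by
    intro c _
    rw [Subgroup.mem_centralizer_iff]
    intro s hs
    exact (hScent s hs c).symm
  have hcompl := MonoidHom.ker_transferSylow_isComplement' S hNC
  have hnd := MonoidHom.not_dvd_card_ker_transferSylow S hNC
  set K := (MonoidHom.transferSylow S hNC).ker with hK
  have hKn : K.Normal := by rw [hK]; infer_instance
  refine ⟨K.map C.subtype, Subgroup.map_subtype_le _, ?_, ?_, ?_, ?_⟩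
  · rw [Subgroup.card_subtype]
    exact Nat.Coprime.symm ((Nat.Prime.coprime_iff_not_dvd hp).mpr hnd)
  · rw [Subgroup.le_normalizer_iff]
    rintro c hc x ⟨k, hk, rfl⟩
    have h := hKn.conj_mem k hk ⟨c, hc⟩
    refine ⟨_, h, ?_⟩
    simp
  · rw [eq_bot_iff]
    rintro x ⟨⟨k, hk, rfl⟩, hxA⟩
    have hkS : k ∈ (S : Subgroup C) := by rw [hSA, Subgroup.mem_subgroupOf]; exact hxA
    have : k ∈ K ⊓ (S : Subgroup C) := ⟨hk, hkS⟩
    rw [hcompl.disjoint.eq_bot, Subgroup.mem_bot] at this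
    rw [this]; simp
  · apply le_antisymm (sup_le (Subgroup.map_subtype_le _) hAC)
    intro c hc
    obtain ⟨⟨⟨k, hk⟩, ⟨s, hs⟩⟩, hks⟩ := hcompl.2 ⟨c, hc⟩
    simp only at hks
    have hsA : (s : G) ∈ A := by
      have hs' : s ∈ (S : Subgroup C) := hs
      rw [hSA] at hs'
      exact Subgroup.mem_subgroupOf.mp hs'
    have e : c = (k : G) * (s : G) := (congrArg Subtype.val hks).symm
    rw [e]
    exact Subgroup.mul_mem_sup ⟨k, hk, rfl⟩ hsA

end Cfsg.Agent.S0125
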