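import Cfsg.Statements.S0127
import Cfsg.Agent.S0096
import Cfsg.Agent.S0119
import Mathlib

set_option autoImplicit false
open Cfsg

namespace Cfsg.Agent.S0127

open scoped commutatorElement

theorem nt {p : ℕ} (hp : p.Prime) (hodd : p ≠ 2) (m : ℕ) (hm : 1 ≤ m) (r : ℤ)
    (h : (p : ℤ) ^ m ∣ r ^ p - 1) : (p : ℤ) ∣ r - 1 ∧ (p : ℤ) ^ (m - 1) ∣ r - 1 := by
  have hp1 : (p : ℤ) ∣ r - 1 := by
    have h1 : (p : ℤ) ∣ r ^ p - 1 := dvd_trans (dvd_pow_self _ (by omega)) h
    have h2 : (p : ℤ) ∣ r ^ p - r := by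
      haveI := Fact.mk hp
      have h3 := ZMod.pow_card (r : ZMod p)
      rw [← ZMod.intCast_zmod_eq_zero_iff_dvd]
      push_cast
      rw [h3, sub_self]
    have h4 : r - 1 = (r ^ p - 1) - (r ^ p - r) := by ring
    rw [h4]; exact dvd_sub h1 h2
  refine ⟨hp1, ?_⟩
  have hx : ¬ (p : ℤ) ∣ r := by
    intro hr
    have h5 : (p : ℤ) ∣ 1 := by
      have h6 := dvd_sub hr hp1
      simpa using h6
    have h7 := Int.eq_one_of_dvd_one (by positivity) h5
    have h8 := hp.one_lt
    omega
  have hlte := Int.emultiplicity_pow_sub_pow hp (hp.odd_of_ne_two hodd) (x := r) (y := 1)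
    (by simpa using hp1) hx p
  rw [one_pow, hp.emultiplicity_self] at hlte
  rw [pow_dvd_iff_le_emultiplicity]
  have h3 := pow_dvd_iff_le_emultiplicity.mp h
  rw [hlte] at h3
  generalize emultiplicity (p:ℤ) (r - 1) = e at *
  induction e using ENat.recTopCoe with
  | top => exact le_top
  | coe k =>
    norm_cast at *
    omega

theorem result {R : Type*} [Group R] [Finite R] {p : ℕ} [Fact p.Prime] (hp : p ≠ 2) (hR : IsPGroup p R) (hnc : ¬ IsCyclic R) (C : Subgroup R) (hC : IsCyclic C) (hCi : C.index = p) : Cfsg.IsElementaryAbelian p (Subgroup.closure {x : R | x ^ p = 1}) ∧ Nat.card (Subgroup.closure {x : R | x ^ p = 1}) = p ^ 2 := by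
  classical
  have hpp : p.Prime := Fact.out
  -- generator of C
  obtain ⟨⟨c, hcC⟩, hgen⟩ := hC.exists_generator
  have hCz : C = Subgroup.zpowers c := by
    apply le_antisymm
    · intro y hy
      have h1 := hgen ⟨y, hy⟩
      obtain ⟨k, hk⟩ := Subgroup.mem_zpowers_iff.mp h1
      refine Subgroup.mem_zpowers_iff.mpr ⟨k, ?_⟩
      have h2 := congrArg Subtype.val hk
      simpa using h2
    · rw [Subgroup.zpowers_le]; exact hcC
  -- C normal
  obtain ⟨n, hn⟩ := IsPGroup.iff_card.mp hR
  have hn1 : n ≠ 0 := by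
    rintro rfl
    rw [pow_zero] at hn
    haveI : Subsingleton R := (Nat.card_eq_one_iff_unique.mp hn).1
    have h1 : C.index = 1 := by rw [Subgroup.index_eq_one]; exact Subsingleton.elim _ _
    rw [hCi] at h1
    exact hpp.one_lt.ne' h1
  haveI hCn : C.Normal := by
    apply Subgroup.normal_of_index_eq_minFac_card
    rw [hCi, hn, hpp.pow_minFac hn1]
  -- order of c
  have hcardC : Nat.card C * p = p ^ n := by
    have h1 := Subgroup.card_mul_index C
    rw [hCi, hn] at h1
    exact h1
  obtain ⟨m, hm⟩ := IsPGroup.iff_card.mp (hR.to_subgroup C)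
  have hordc : orderOf c = p ^ m := by
    rw [← hm, hCz, Nat.card_zpowers]
  have hm1 : 1 ≤ m := by
    by_contra hm0
    have hm0' : m = 0 := by omega
    rw [hm0', pow_zero] at hm
    rw [hm, one_mul] at hcardC
    have : IsCyclic R := isCyclic_of_prime_card (p := p) (by rw [hn, ← hcardC])
    exact hnc this
  -- x outside C
  obtain ⟨x, hxC⟩ : ∃ x : R, x ∉ C := by
    by_contra hall
    push Not at hall
    have h1 : C = ⊤ := by rw [eq_top_iff]; intro y _; exact hall y
    have h2 : C.index = 1 := by rw [h1, Subgroup.index_top]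
    rw [hCi] at h2
    exact hpp.one_lt.ne' h2
  have hsup : ∀ S : Subgroup R, x ∈ S → c ∈ S → S = ⊤ := by
    intro S hxS hcS
    have hCS : C ≤ S := by rw [hCz, Subgroup.zpowers_le]; exact hcS
    have h1 := Subgroup.relIndex_mul_index hCS
    rw [hCi] at h1
    have h2 : S.index ∣ p := Dvd.intro_left _ h1
    rcases (Nat.dvd_prime hpp).mp h2 with h3 | h3
    · exact Subgroup.index_eq_one.mp h3
    · exfalso
      rw [h3] at h1
      have h4 : C.relIndex S = 1 := by
        have := hpp.pos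
        nlinarith [Nat.eq_of_mul_eq_mul_right this (by rw [one_mul]; exact h1 : C.relIndex S * p = 1 * p)]
      exact hxC (Subgroup.relIndex_eq_one.mp h4 hxS)
  -- conjugation exponent
  have hconj : x * c * x⁻¹ ∈ Subgroup.zpowers c := by
    rw [← hCz]; exact hCn.conj_mem c hcC x
  obtain ⟨r, hr⟩ := Subgroup.mem_zpowers_iff.mp hconj
  have hpowconj : ∀ k : ℕ, x ^ k * c * (x ^ k)⁻¹ = c ^ (r ^ k) := by
    intro k
    induction k with
    | zero => simp
    | succ k ih =>
      have h1 : x ^ (k + 1) * c * (x ^ (k + 1))⁻¹ = x * (x ^ k * c * (x ^ k)⁻¹) * x⁻¹ := by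
        rw [pow_succ']; group
      rw [h1, ih, ← conj_zpow, ← hr, ← zpow_mul, pow_succ']
  have hxp : x ^ p ∈ Subgroup.zpowers c := by
    rw [← hCz, ← hCi]; exact C.pow_index_mem x
  have hxpc : x ^ p * c * (x ^ p)⁻¹ = c := by
    obtain ⟨k, hk⟩ := Subgroup.mem_zpowers_iff.mp hxp
    rw [← hk]
    have : c ^ k * c = c * c ^ k := by rw [← zpow_add_one, ← zpow_one_add, add_comm]
    rw [this, mul_inv_cancel_right]
  have hrp : ((p : ℤ)) ^ m ∣ r ^ p - 1 := by
    have h1 : c ^ (r ^ p) = c ^ (1 : ℤ) := by rw [← hpowconj p, hxpc, zpow_one]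
    have h2 := (zpow_eq_zpow_iff_modEq.mp h1).symm.dvd
    rw [hordc] at h2
    exact_mod_cast h2
  obtain ⟨hr1, hr2⟩ := nt hpp hp m hm1 r hrp
  -- z = c^(r-1)
  set z : R := c ^ (r - 1) with hz
  have hzp : z ^ p = 1 := by
    rw [hz, ← zpow_natCast, ← zpow_mul, ← orderOf_dvd_iff_zpow_eq_one, hordc]
    obtain ⟨t, ht⟩ := hr2
    rw [ht]
    refine ⟨t, ?_⟩
    have : (p : ℤ) ^ m = (p : ℤ) ^ (m - 1) * p := by
      rw [← pow_succ]; congr 1; omega
    push_cast
    rw [this]; ring
  have hzx : x * z * x⁻¹ = z := by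
    rw [hz, ← conj_zpow, ← hr, ← zpow_mul, zpow_eq_zpow_iff_modEq, hordc]
    apply Int.ModEq.symm
    rw [Int.modEq_iff_dvd]
    obtain ⟨t, ht⟩ := hr2
    obtain ⟨s, hs⟩ := hr1
    refine ⟨t * s, ?_⟩
    have : (p : ℤ) ^ m = (p : ℤ) ^ (m - 1) * p := by
      rw [← pow_succ]; congr 1; omega
    push_cast
    rw [this]
    have e1 : r * (r - 1) - (r - 1) = (r - 1) * (r - 1) := by ring
    rw [e1]
    nth_rewrite 1 [ht]
    rw [hs]; ring
  have hzc : c * z = z * c := by
    rw [hz, ← zpow_one_add, ← zpow_add_one, add_comm]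
  have hzcen : z ∈ Subgroup.center R := by
    have h1 : Subgroup.centralizer {z} = ⊤ := by
      apply hsup
      · rw [Subgroup.mem_centralizer_iff]
        rintro h rfl
        have := hzx
        rw [mul_inv_eq_iff_eq_mul] at this
        exact this.symm
      · rw [Subgroup.mem_centralizer_iff]
        rintro h rfl
        exact hzc.symm
    rw [Subgroup.mem_center_iff]
    intro g
    have h2 : g ∈ Subgroup.centralizer {z} := by rw [h1]; exact Subgroup.mem_top g
    rw [Subgroup.mem_centralizer_iff] at h2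
    exact (h2 z rfl).symm
  -- N = zpowers z is central of exponent p
  have hNcen : Subgroup.zpowers z ≤ Subgroup.center R := by
    rw [Subgroup.zpowers_le]; exact hzcen
  have hNp : ∀ w ∈ Subgroup.zpowers z, w ^ p = 1 := by
    intro w hw
    obtain ⟨k, rfl⟩ := Subgroup.mem_zpowers_iff.mp hw
    rw [← zpow_natCast, ← zpow_mul, mul_comm, zpow_mul, zpow_natCast, hzp, one_zpow]
  haveI hNn : (Subgroup.zpowers z).Normal := by
    refine ⟨fun w hw g => ?_⟩
    have := Subgroup.mem_center_iff.mp (hNcen hw) g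
    rw [this, mul_inv_cancel_right]
    exact hw
  -- quotient commutative
  have hxc : x * c = z * (c * x) := by
    have h1 : z * c = c ^ r := by rw [hz, ← zpow_add_one]; congr 1; ring
    rw [← mul_assoc, h1, hr]; group
  have hcomm : ∀ a b : R, ⁅a, b⁆ ∈ Subgroup.zpowers z := by
    set π := QuotientGroup.mk' (Subgroup.zpowers z) with hπ
    have hπxc : π x * π c = π c * π x := by
      rw [← map_mul, ← map_mul, hxc, map_mul]
      have : π z = 1 := (QuotientGroup.eq_one_iff z).mpr (Subgroup.mem_zpowers z)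
      rw [this, one_mul]
    have hT : ∀ s ∈ ({π x, π c} : Set (R ⧸ Subgroup.zpowers z)), ∀ t ∈ ({π x, π c} : Set (R ⧸ Subgroup.zpowers z)), s * t = t * s := by
      rintro s (rfl | rfl) t (rfl | rfl)
      · rfl
      · exact hπxc
      · exact hπxc.symm
      · rfl
    have hclos := Cfsg.Agent.S0119.closure_comm _ hT
    have htop : (Subgroup.closure ({π x, π c} : Set (R ⧸ Subgroup.zpowers z))).comap π = ⊤ := by
      apply hsup
      · exact Subgroup.subset_closure (by simp)
      · exact Subgroup.subset_closure (by simp)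
    have hmem : ∀ a : R, π a ∈ Subgroup.closure ({π x, π c} : Set (R ⧸ Subgroup.zpowers z)) := by
      intro a
      have : a ∈ (Subgroup.closure ({π x, π c} : Set (R ⧸ Subgroup.zpowers z))).comap π := by
        rw [htop]; exact Subgroup.mem_top a
      exact this
    intro a b
    have h1 : π ⁅a, b⁆ = 1 := by
      rw [map_commutatorElement, commutatorElement_eq_one_iff_mul_comm]
      exact hclos _ (hmem a) _ (hmem b)
    exact (QuotientGroup.eq_one_iff _).mp h1
  have hcen : ∀ a b : R, ⁅a, b⁆ ∈ Subgroup.center R := fun a b => hNcen (hcomm a b)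
  have h2lt : 2 < p := lt_of_le_of_ne hpp.two_le (Ne.symm hp)
  have hmulpow : ∀ a b : R, (a * b) ^ p = a ^ p * b ^ p := by
    intro a b
    obtain ⟨t, ht⟩ := hpp.dvd_choose_self (by norm_num : (2 : ℕ) ≠ 0) h2lt
    rw [Cfsg.Agent.S0096.mul_pow_class_two a b hcen p, ht, pow_mul, hNp _ (hcomm b a), one_pow, one_mul]
  -- power hom
  let φ : R →* R := { toFun := fun a => a ^ p, map_one' := one_pow p, map_mul' := hmulpow }
  have hker : ∀ a : R, a ∈ φ.ker ↔ a ^ p = 1 := fun a => MonoidHom.mem_ker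
  have hclK : Subgroup.closure {x : R | x ^ p = 1} = φ.ker := by
    have : {x : R | x ^ p = 1} = (φ.ker : Set R) := by
      ext a; exact (hker a).symm
    rw [this, Subgroup.closure_eq]
  rw [hclK]
  -- K ⊓ C has order p
  have hKC_le : Nat.card (φ.ker ⊓ C : Subgroup R) ∣ p := by
    haveI : IsCyclic (φ.ker ⊓ C : Subgroup R) := Subgroup.isCyclic_of_le (inf_le_right : φ.ker ⊓ C ≤ C)
    obtain ⟨g, hg⟩ := IsCyclic.exists_generator (α := (φ.ker ⊓ C : Subgroup R))
    rw [← orderOf_eq_card_of_forall_mem_zpowers hg]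
    apply orderOf_dvd_of_pow_eq_one
    have h1 : (g : R) ^ p = 1 := (hker _).mp (Subgroup.mem_inf.mp g.2).1
    exact Subtype.ext (by simpa using h1)
  have hKC_ne : Nat.card (φ.ker ⊓ C : Subgroup R) ≠ 1 := by
    intro h1
    have h2 : (φ.ker ⊓ C : Subgroup R) = ⊥ := Subgroup.card_eq_one.mp h1
    have h3 : c ^ (p ^ (m - 1)) ∈ (φ.ker ⊓ C : Subgroup R) := by
      refine Subgroup.mem_inf.mpr ⟨?_, ?_⟩
      · have e : m - 1 + 1 = m := by omega
        rw [hker, ← pow_mul, ← pow_succ, e, ← hordc, pow_orderOf_eq_one]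
      · exact Subgroup.pow_mem _ hcC _
    rw [h2, Subgroup.mem_bot] at h3
    have h4 := orderOf_dvd_of_pow_eq_one h3
    rw [hordc] at h4
    have h5 : m ≤ m - 1 := (Nat.pow_dvd_pow_iff_le_right hpp.one_lt).mp h4
    omega
  have hKC : Nat.card (φ.ker ⊓ C : Subgroup R) = p := by
    rcases (Nat.dvd_prime hpp).mp hKC_le with h | h
    · exact absurd h hKC_ne
    · exact h
  -- K not inside C
  have hKnotC : ¬ φ.ker ≤ C := by
    intro hle
    obtain ⟨j, hj⟩ := Subgroup.mem_zpowers_iff.mp hxp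
    by_cases hpj : (p : ℤ) ∣ j
    · obtain ⟨k, rfl⟩ := hpj
      have h1 : x * (c ^ k)⁻¹ ∈ φ.ker := by
        rw [hker, hmulpow, inv_pow, ← hj, ← zpow_natCast (c ^ k), ← zpow_mul, mul_comm, mul_inv_cancel]
      have h2 := hle h1
      have h3 : c ^ k ∈ C := Subgroup.zpow_mem _ hcC _
      have h4 : x ∈ C := by
        have := C.mul_mem h2 h3
        simpa using this
      exact hxC h4
    · -- x^p generates C, so R is cyclic
      have hcop : IsCoprime j ((orderOf c : ℕ) : ℤ) := by
        rw [hordc]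
        push_cast
        apply IsCoprime.pow_right
        rw [isCoprime_comm]
        exact (Nat.prime_iff_prime_int.mp hpp).coprime_iff_not_dvd.mpr hpj
      obtain ⟨u, v, huv⟩ := hcop
      have h1 : c = (x ^ p) ^ u := by
        rw [← hj, ← zpow_mul]
        have : c ^ (j * u) = c ^ (j * u) * (c ^ ((orderOf c : ℕ) : ℤ)) ^ v := by
          rw [zpow_natCast, pow_orderOf_eq_one, one_zpow, mul_one]
        rw [this, ← zpow_mul, ← zpow_add]
        have e : j * u + ((orderOf c : ℕ) : ℤ) * v = 1 := by rw [← huv]; ring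
        rw [e, zpow_one]
      have h2 : Subgroup.zpowers x = ⊤ := by
        apply hsup
        · exact Subgroup.mem_zpowers x
        · rw [h1]
          exact Subgroup.zpow_mem _ (Subgroup.pow_mem _ (Subgroup.mem_zpowers x) p) u
      apply hnc
      rw [isCyclic_iff_exists_zpowers_eq_top]
      exact ⟨x, h2⟩
  -- card of K
  have hcardK : Nat.card φ.ker = p ^ 2 := by
    have h1 : C.relIndex φ.ker ∣ C.index := Subgroup.relIndex_dvd_index_of_normal C φ.ker
    rw [hCi] at h1
    have h2 : C.relIndex φ.ker ≠ 1 := fun h => hKnotC (Subgroup.relIndex_eq_one.mp h)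
    have h3 : C.relIndex φ.ker = p := by
      rcases (Nat.dvd_prime hpp).mp h1 with h | h
      · exact absurd h h2
      · exact h
    have h4 := Subgroup.relIndex_mul_relIndex (⊥ : Subgroup R) (φ.ker ⊓ C) φ.ker bot_le inf_le_left
    rw [Subgroup.relIndex_bot_left, Subgroup.relIndex_bot_left, hKC, inf_comm, Subgroup.inf_relIndex_right, h3] at h4
    rw [← h4, sq]
  refine ⟨⟨?_, ?_⟩, hcardK⟩
  · haveI : Finite φ.ker := inferInstance
    exact IsPGroup.isMulCommutative_of_card_eq_prime_sq hcardK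
  · intro a ha
    exact (hker a).mp ha

end Cfsg.Agent.S0127
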