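import Cfsg.Statements.S0131
import Mathlib

set_option autoImplicit false
open Pointwise
open Cfsg

namespace Cfsg.Agent.S0131

open scoped commutatorElement

theorem result {G : Type*} [Group G] [Finite G] {p : ℕ} [Fact p.Prime] (P : Sylow p G) : (∃ N : Subgroup G, N.Normal ∧ N ⊓ (P : Subgroup G) = ⁅(P : Subgroup G), (P : Subgroup G)⁆ ∧ N ⊔ (P : Subgroup G) = ⊤) ↔ commutator G ⊓ (P : Subgroup G) = ⁅(P : Subgroup G), (P : Subgroup G)⁆ := by
  constructor
  · rintro ⟨N, hN, hNP, hsup⟩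
    have hcomm : commutator G ≤ N := by
      rw [← Subgroup.Normal.quotient_commutative_iff_commutator_le]
      refine ⟨⟨fun a b => ?_⟩⟩
      obtain ⟨a, rfl⟩ := QuotientGroup.mk_surjective a
      obtain ⟨b, rfl⟩ := QuotientGroup.mk_surjective b
      have ha : a ∈ N ⊔ (P : Subgroup G) := hsup ▸ Subgroup.mem_top a
      have hb : b ∈ N ⊔ (P : Subgroup G) := hsup ▸ Subgroup.mem_top b
      rw [← SetLike.mem_coe, Subgroup.normal_mul] at ha hb
      obtain ⟨n₁, hn₁, p₁, hp₁, rfl⟩ := ha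
      obtain ⟨n₂, hn₂, p₂, hp₂, rfl⟩ := hb
      have e1 : ((n₁ * p₁ : G) : G ⧸ N) = (p₁ : G ⧸ N) := by
        rw [QuotientGroup.mk_mul, (QuotientGroup.eq_one_iff n₁).mpr hn₁, one_mul]
      have e2 : ((n₂ * p₂ : G) : G ⧸ N) = (p₂ : G ⧸ N) := by
        rw [QuotientGroup.mk_mul, (QuotientGroup.eq_one_iff n₂).mpr hn₂, one_mul]
      rw [e1, e2, ← QuotientGroup.mk_mul, ← QuotientGroup.mk_mul, QuotientGroup.eq]
      have : (p₁ * p₂)⁻¹ * (p₂ * p₁) ∈ ⁅(P : Subgroup G), (P : Subgroup G)⁆ := by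
        have h := Subgroup.commutator_mem_commutator (inv_mem hp₂) (inv_mem hp₁)
        have e : (p₁ * p₂)⁻¹ * (p₂ * p₁) = ⁅p₂⁻¹, p₁⁻¹⁆ := by
          rw [commutatorElement_def]; group
        rw [e]; exact h
      rw [← hNP] at this
      exact this.1
    apply le_antisymm
    · rw [← hNP]
      exact inf_le_inf_right _ hcomm
    · exact le_inf (Subgroup.commutator_mono le_top le_top) (Subgroup.commutator_le_self _ |> fun h => h)
  · intro h
    refine ⟨P.transferFocal.ker, inferInstance, ?_, ?_⟩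
    · rw [Subgroup.ker_transferFocal_inf_eq_focalSubgroup, ← Subgroup.commutator_inf_eq_focalSubgroup, h]
    · rw [eq_top_iff]
      intro g _
      obtain ⟨y, hy⟩ := Subgroup.focalSubgroupOf.pow_index_surjective P (P.transferFocal g)
      obtain ⟨x, rfl⟩ := QuotientGroup.mk'_surjective _ y
      have hx : P.transferFocal (x : G) = P.transferFocal g := by
        rw [Subgroup.transferFocal_eq_pow]; exact hy
      have hk : g * (x : G)⁻¹ ∈ P.transferFocal.ker := by
        rw [MonoidHom.mem_ker, map_mul, map_inv, hx, mul_inv_cancel]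
      have e : g = (g * (x : G)⁻¹) * x := by group
      rw [e]
      exact Subgroup.mul_mem_sup hk x.2

end Cfsg.Agent.S0131
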