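import Cfsg.Statements.S0132
import Cfsg.Agent.Lib.lead.PNil

set_option autoImplicit false
open Pointwise
open Cfsg

namespace Cfsg.Agent.S0132

open Cfsg.Agent.Lib.lead Cfsg.Agent.S0072

/-- Step 1: the Sylow `p`-subgroups of a minimal non-`p`-nilpotent group are normal. -/
theorem sylow_normal {G : Type*} [Group G] [Finite G] {p : ℕ} [Fact p.Prime]
    (h1 : ¬ Cfsg.HasNormalPComplement p G)
    (h2 : ∀ H : Subgroup G, H ≠ ⊤ → Cfsg.HasNormalPComplement p H) (P : Sylow p G) :
    (P : Subgroup G).Normal := by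
  have hp : p.Prime := Fact.out
  -- a nontrivial normal p-subgroup
  have hex : ∃ Q₀ : Subgroup G, IsPGroup p Q₀ ∧ Q₀ ≠ ⊥ ∧ Q₀.Normal := by
    have := (Cfsg.Agent.S0072.result (G := G) p).not.mp h1
    push Not at this
    obtain ⟨Q₀, hQ₀p, hQ₀ne, hQ₀⟩ := this
    refine ⟨Q₀, hQ₀p, hQ₀ne, ?_⟩
    rw [← Subgroup.normalizer_eq_top_iff]
    by_contra hne
    exact hQ₀ (h2 _ hne)
  obtain ⟨Q₀, hQ₀p, hQ₀ne, hQ₀n⟩ := hex
  let 𝒮 := {Q : Subgroup G // IsPGroup p Q ∧ Q.Normal}
  haveI : Nonempty 𝒮 := ⟨⟨Q₀, hQ₀p, hQ₀n⟩⟩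
  obtain ⟨⟨Q, hQp, hQn⟩, hQmax⟩ := Finite.exists_max (fun Q : 𝒮 => Nat.card (Q.1 : Subgroup G))
  haveI := hQn
  have hQmax' : ∀ Q' : Subgroup G, IsPGroup p Q' → Q'.Normal → Nat.card Q' ≤ Nat.card Q :=
    fun Q' h h' => hQmax ⟨Q', h, h'⟩
  have hQP : Q ≤ (P : Subgroup G) := by
    obtain ⟨P', hP'⟩ := hQp.exists_le_sylow
    obtain ⟨g, hg⟩ := MulAction.exists_smul_eq G P' P
    intro x hx
    rw [← hg, mem_smul_sylow]
    apply hP'
    have := hQn.conj_mem x hx g⁻¹
    rwa [inv_inv] at this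
  by_cases hc : Nat.card Q = Nat.card (P : Subgroup G)
  · have : Q = (P : Subgroup G) := Subgroup.eq_of_le_of_card_ge hQP hc.ge
    rw [← this]; exact hQn
  exfalso
  have hbar : Cfsg.HasNormalPComplement p (G ⧸ Q) := by
    rw [Cfsg.Agent.S0072.result]
    intro U hUp hUne
    set H : Subgroup G := (Subgroup.normalizer (U : Set (G ⧸ Q))).comap (QuotientGroup.mk' Q) with hH
    have hHne : H ≠ ⊤ := by
      intro htop
      set V : Subgroup G := U.comap (QuotientGroup.mk' Q) with hV
      have hVn : V.Normal := by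
        refine ⟨fun x hx g => ?_⟩
        have hg : g ∈ H := by rw [htop]; trivial
        rw [hH, Subgroup.mem_comap, Subgroup.mem_normalizer_iff] at hg
        rw [hV, Subgroup.mem_comap] at hx ⊢
        have := (hg _).mp hx
        simpa using this
      have hVp : IsPGroup p V := by
        intro x
        obtain ⟨k, hk⟩ := hUp ⟨QuotientGroup.mk' Q (x : G), x.2⟩
        have hk' : (QuotientGroup.mk' Q (x : G)) ^ p ^ k = 1 := congrArg Subtype.val hk
        have hxQ : (x : G) ^ p ^ k ∈ Q := by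
          rw [← QuotientGroup.eq_one_iff]
          exact hk'
        obtain ⟨j, hj⟩ := hQp ⟨(x : G) ^ p ^ k, hxQ⟩
        have hj' : ((x : G) ^ p ^ k) ^ p ^ j = 1 := congrArg Subtype.val hj
        refine ⟨k + j, ?_⟩
        apply Subtype.ext
        show (x : G) ^ p ^ (k + j) = 1
        rw [pow_add, pow_mul]; exact hj'
      have hQV : Q ≤ V := by
        intro x hx
        rw [hV, Subgroup.mem_comap]
        have : QuotientGroup.mk' Q x = 1 := (QuotientGroup.eq_one_iff x).mpr hx
        rw [this]; exact Subgroup.one_mem _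
      have hVQ : Q = V := Subgroup.eq_of_le_of_card_ge hQV (hQmax' V hVp hVn)
      apply hUne
      rw [eq_bot_iff]
      intro u hu
      obtain ⟨x, rfl⟩ := QuotientGroup.mk_surjective u
      have hx : x ∈ V := hu
      rw [← hVQ] at hx
      exact (QuotientGroup.eq_one_iff x).mpr hx
    exact hasNPC_of_surjective ((QuotientGroup.mk' Q).subgroupComap (Subgroup.normalizer (U : Set (G ⧸ Q))))
      (MonoidHom.subgroupComap_surjective_of_surjective _ _ (QuotientGroup.mk'_surjective Q)) (h2 H hHne)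
  rw [hasNormalPComplement_iff] at hbar
  obtain ⟨Kb, hKbn, hKbc, a, hKba⟩ := hbar
  set L : Subgroup G := Kb.comap (QuotientGroup.mk' Q) with hL
  haveI hLn : L.Normal := hKbn.comap _
  have hLidx : L.index = p ^ a := by
    rw [hL, Subgroup.index_comap_of_surjective _ (QuotientGroup.mk'_surjective Q), hKba]
  have hLne : L ≠ ⊤ := by
    intro htop
    have hKtop : Kb = ⊤ := by
      rw [eq_top_iff]
      intro u _
      obtain ⟨x, rfl⟩ := QuotientGroup.mk_surjective u
      have hx : x ∈ L := by rw [htop]; trivial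
      exact hx
    have hcop : Nat.Coprime (Nat.card (G ⧸ Q)) p := by
      rw [hKtop, Subgroup.card_top] at hKbc; exact hKbc
    have hcard : Nat.card G = Nat.card (G ⧸ Q) * Nat.card Q := Subgroup.card_eq_card_quotient_mul_card_subgroup Q
    obtain ⟨e, he⟩ := IsPGroup.iff_card.mp P.2
    have hdvd : Nat.card (P : Subgroup G) ∣ Nat.card (G ⧸ Q) * Nat.card Q := hcard ▸ Subgroup.card_subgroup_dvd_card _
    have hcop' : Nat.Coprime (Nat.card (P : Subgroup G)) (Nat.card (G ⧸ Q)) := by
      rw [he]; exact Nat.Coprime.pow_left e hcop.symm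
    have hdvd' : Nat.card (P : Subgroup G) ∣ Nat.card Q := hcop'.dvd_of_dvd_mul_left hdvd
    have hle := Nat.le_of_dvd Nat.card_pos hdvd'
    have hle' := Subgroup.card_le_of_le hQP
    exact hc (le_antisymm hle' hle)
  exact h1 (hasNPC_lift L hLidx (h2 L hLne))

/-- Step 2: a complement of the normal Sylow `p`-subgroup is a `q`-group. -/
theorem complement_isPGroup {G : Type*} [Group G] [Finite G] {p : ℕ} [Fact p.Prime]
    (h1 : ¬ Cfsg.HasNormalPComplement p G)
    (h2 : ∀ H : Subgroup G, H ≠ ⊤ → Cfsg.HasNormalPComplement p H) (P : Sylow p G)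
    (hPn : (P : Subgroup G).Normal) (K : Subgroup G) (hK : (P : Subgroup G).IsComplement' K) :
    ∃ q : ℕ, q.Prime ∧ IsPGroup q K := by
  have hp : p.Prime := Fact.out
  haveI := hPn
  have hKcard : Nat.card K = (P : Subgroup G).index := hK.symm.index_eq_card.symm
  have hKcop : Nat.Coprime (Nat.card K) p := by
    rw [hKcard]
    exact ((Nat.Prime.coprime_iff_not_dvd hp).mpr P.not_dvd_index).symm
  have hdisj : (P : Subgroup G) ⊓ K = ⊥ := hK.disjoint.eq_bot
  have hmul : ∀ g : G, ∃ a ∈ (P : Subgroup G), ∃ k ∈ K, g = a * k := by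
    intro g
    have hg : g ∈ (P : Subgroup G) ⊔ K := by rw [hK.sup_eq_top]; trivial
    rw [← SetLike.mem_coe, Subgroup.normal_mul] at hg
    obtain ⟨a, ha, k, hk, rfl⟩ := hg
    exact ⟨a, ha, k, hk, rfl⟩
  -- Claim A
  have hA : ¬ K ≤ Subgroup.centralizer ((P : Subgroup G) : Set G) := by
    intro hKC
    apply h1
    refine ⟨P, K, ⟨fun x hx g => ?_⟩, hK.symm⟩
    obtain ⟨a, ha, k, hk, rfl⟩ := hmul g
    have hy : k * x * k⁻¹ ∈ K := K.mul_mem (K.mul_mem hk hx) (K.inv_mem hk)
    have hcomm := Subgroup.mem_centralizer_iff.mp (hKC hy) a ha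
    have e : a * k * x * (a * k)⁻¹ = (a * (k * x * k⁻¹)) * a⁻¹ := by group
    rw [e, hcomm, mul_inv_cancel_right]
    exact hy
  -- Claim B
  have hB : ∀ K₀ : Subgroup G, K₀ ≤ K → K₀ ≠ K → K₀ ≤ Subgroup.centralizer ((P : Subgroup G) : Set G) := by
    intro K₀ hK₀ hK₀ne
    set X : Subgroup G := (P : Subgroup G) ⊔ K₀ with hX
    have hXne : X ≠ ⊤ := by
      intro htop
      apply hK₀ne
      apply le_antisymm hK₀
      intro y hy
      have hyX : y ∈ (P : Subgroup G) ⊔ K₀ := by rw [← hX, htop]; trivial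
      rw [← SetLike.mem_coe, Subgroup.normal_mul] at hyX
      obtain ⟨a, ha, k₀, hk₀, rfl⟩ := hyX
      have ha' : a ∈ (P : Subgroup G) ⊓ K := by
        refine Subgroup.mem_inf.mpr ⟨ha, ?_⟩
        have : a = a * k₀ * k₀⁻¹ := by group
        rw [this]
        exact K.mul_mem hy (K.inv_mem (hK₀ hk₀))
      rw [hdisj, Subgroup.mem_bot] at ha'
      subst ha'
      show 1 * k₀ ∈ K₀
      rw [one_mul]; exact hk₀
    have hnpc := h2 X hXne
    rw [hasNormalPComplement_iff] at hnpc
    obtain ⟨N, hNn, hNc, c, hNi⟩ := hnpc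
    have hF := frob_of_core N hNc hNi
    intro k hk
    have hkX : k ∈ X := (le_sup_right : K₀ ≤ X) hk
    have hPX : (P : Subgroup G) ≤ X := le_sup_left
    have hQ' : IsPGroup p ((P : Subgroup G).subgroupOf X) := P.2.comap_subtype
    have hnorm : (⟨k, hkX⟩ : X) ∈ Subgroup.normalizer ((((P : Subgroup G).subgroupOf X : Subgroup X)) : Set X) := by
      have ht := Subgroup.normalizer_eq_top ((P : Subgroup G).subgroupOf X)
      exact ht.symm ▸ Subgroup.mem_top _
    have hord : Nat.Coprime (orderOf (⟨k, hkX⟩ : X)) p := by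
      rw [← Subgroup.orderOf_coe]
      have h3 : orderOf k ∣ Nat.card K := by
        have := orderOf_dvd_natCard (⟨k, hK₀ hk⟩ : K)
        rwa [← Subgroup.orderOf_coe] at this
      exact Nat.Coprime.coprime_dvd_left h3 hKcop
    have hcen := hF _ hQ' ⟨k, hkX⟩ hnorm hord
    rw [Subgroup.mem_centralizer_iff] at hcen ⊢
    intro x hx
    have := hcen ⟨x, hPX hx⟩ (Subgroup.mem_subgroupOf.mpr hx)
    exact congrArg Subtype.val this
  -- Claim C
  by_contra hcon
  push Not at hcon
  apply hA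
  set D : Subgroup K := (Subgroup.centralizer ((P : Subgroup G) : Set G)).subgroupOf K with hD
  have hidx : D.index = 1 := by
    rw [Nat.eq_one_iff_not_exists_prime_dvd]
    intro q hq hqd
    haveI : Fact q.Prime := ⟨hq⟩
    obtain ⟨R⟩ : Nonempty (Sylow q K) := inferInstance
    have hRne : (R : Subgroup K).map K.subtype ≠ K := by
      intro heq
      apply hcon q hq
      have hRtop : (R : Subgroup K) = ⊤ := by
        rw [eq_top_iff]
        intro y _
        have : (y : G) ∈ (R : Subgroup K).map K.subtype := by rw [heq]; exact y.2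
        obtain ⟨z, hz, hzy⟩ := this
        have : z = y := Subtype.ext hzy
        rw [← this]; exact hz
      intro y
      obtain ⟨k, hk⟩ := R.2 ⟨y, by rw [hRtop]; trivial⟩
      exact ⟨k, congrArg Subtype.val hk⟩
    have hRle : (R : Subgroup K).map K.subtype ≤ K := by
      rintro _ ⟨z, -, rfl⟩
      exact z.2
    have hRC := hB _ hRle hRne
    have hRD : (R : Subgroup K) ≤ D := by
      intro y hy
      rw [hD, Subgroup.mem_subgroupOf]
      exact hRC ⟨y, hy, rfl⟩
    exact R.not_dvd_index (hqd.trans (Subgroup.index_dvd_of_le hRD))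
  have htop := Subgroup.index_eq_one.mp hidx
  intro k hk
  have : (⟨k, hk⟩ : K) ∈ D := by rw [htop]; trivial
  rw [hD, Subgroup.mem_subgroupOf] at this
  exact this

/-- A minimal non-p-nilpotent finite group is a minimal non-nilpotent group with a normal Sylow p-subgroup. -/
theorem result {G : Type*} [Group G] [Finite G] {p : ℕ} [Fact p.Prime] (h1 : ¬ Cfsg.HasNormalPComplement p G) (h2 : ∀ H : Subgroup G, H ≠ ⊤ → Cfsg.HasNormalPComplement p H) : (∀ H : Subgroup G, H ≠ ⊤ → Group.IsNilpotent H) ∧ ¬ Group.IsNilpotent G ∧ ∀ P : Sylow p G, (P : Subgroup G).Normal := by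
  have hp : p.Prime := Fact.out
  refine ⟨?_, fun hn => h1 (hasNPC_of_nilpotent p hn), fun P => sylow_normal h1 h2 P⟩
  intro H hH
  obtain ⟨P⟩ : Nonempty (Sylow p G) := inferInstance
  haveI hPn : (P : Subgroup G).Normal := sylow_normal h1 h2 P
  have hcopP : Nat.Coprime (Nat.card (P : Subgroup G)) (P : Subgroup G).index := P.card_coprime_index
  obtain ⟨K, hK⟩ := Subgroup.exists_right_complement'_of_coprime hcopP
  obtain ⟨q, hq, hKq⟩ := complement_isPGroup h1 h2 P hPn K hK
  haveI : Fact q.Prime := ⟨hq⟩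
  obtain ⟨b, hb⟩ := IsPGroup.iff_card.mp hKq
  obtain ⟨e, he⟩ := IsPGroup.iff_card.mp P.2
  have hcardG : Nat.card G = p ^ e * q ^ b := by
    rw [← hK.card_mul_card, he, hb]
  have hnpc := h2 H hH
  rw [hasNormalPComplement_iff] at hnpc
  obtain ⟨N, hNn, hNc, c, hNi⟩ := hnpc
  haveI := hNn
  -- N is a q-group
  have hNq : IsPGroup q N := by
    have h3 : Nat.card N ∣ p ^ e * q ^ b := by
      rw [← hcardG]
      exact (Subgroup.card_subgroup_dvd_card N).trans (Subgroup.card_subgroup_dvd_card H)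
    have h4 : Nat.card N ∣ q ^ b := (Nat.Coprime.pow_right e hNc).dvd_of_dvd_mul_left h3
    obtain ⟨m, -, hm⟩ := (Nat.dvd_prime_pow hq).mp h4
    exact IsPGroup.of_card hm
  apply ((Group.isNilpotent_of_finite_tfae (G := H)).out 0 3).mpr
  intro r hr S
  haveI := hr
  by_cases hrp : r = p
  · subst hrp
    have hle : (S : Subgroup H) ≤ (P : Subgroup G).subgroupOf H := by
      intro y hy
      rw [Subgroup.mem_subgroupOf]
      have hSp : IsPGroup r ((S : Subgroup H).map H.subtype) := S.2.map _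
      obtain ⟨P', hP'⟩ := hSp.exists_le_sylow
      obtain ⟨g, hg⟩ := MulAction.exists_smul_eq G P P'
      have : P' = P := by rw [← hg]; exact Sylow.smul_eq_of_normal
      rw [← this]
      exact hP' ⟨y, hy, rfl⟩
    have heq := S.is_maximal' (P.2.comap_subtype : IsPGroup r ((P : Subgroup G).subgroupOf H)) hle
    rw [← heq]
    infer_instance
  · have hSN : (S : Subgroup H) ≤ N := by
      intro y hy
      rw [mem_iff_coprime N hNc hNi]
      obtain ⟨k, hk⟩ := (IsPGroup.iff_orderOf.mp S.2) ⟨y, hy⟩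
      have hk' : orderOf y = r ^ k := by
        rw [← hk]; exact (Subgroup.orderOf_coe (⟨y, hy⟩ : ↥(S : Subgroup H)))
      rw [hk']
      exact Nat.Coprime.pow_left k ((Nat.coprime_primes hr.out hp).mpr hrp)
    by_cases hrq : r = q
    · subst hrq
      have heq := S.is_maximal' hNq hSN
      rw [← heq]; exact hNn
    · have hbot : (S : Subgroup H) = ⊥ := by
        have hdis : Disjoint (S : Subgroup H) N := IsPGroup.disjoint_of_ne r q hrq _ _ S.2 hNq
        exact (disjoint_of_le_iff_left_eq_bot hSN).mp hdis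
      rw [hbot]; infer_instance

end Cfsg.Agent.S0132
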