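import Cfsg.Statements.S0138
import Cfsg.Agent.Lib.helper23.RepScalar

set_option autoImplicit false
open Cfsg

namespace Cfsg.Agent.S0138

/-- A character value has absolute value equal to the degree exactly when the group element acts by a scalar. -/
theorem result {G : Type*} [Group G] [Finite G] {V : Type*} [AddCommGroup V] [Module ℂ V] [FiniteDimensional ℂ V] (ρ : Representation ℂ G V) (g : G) : ‖ρ.character g‖ = (Module.finrank ℂ V : ℝ) ↔ ∃ ω : ℂ, ρ g = ω • (LinearMap.id : V →ₗ[ℂ] V) := by
  constructor
  · intro h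
    exact Cfsg.Agent.Lib.helper23.genrep_scalar_of_norm_eq ρ g (isOfFinOrder_of_finite g) h
  · rintro ⟨ω, hω⟩
    exact Cfsg.Agent.Lib.helper23.genrep_norm_eq_of_scalar ρ g (isOfFinOrder_of_finite g) ω hω

end Cfsg.Agent.S0138
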