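import Cfsg.Statements.S0160
import Cfsg.Agent.Lib.helper24.CharPerm

set_option autoImplicit false
open Cfsg

namespace Cfsg.Agent.S0160

/-- A finite group has as many real-valued irreducible complex characters as conjugacy classes closed under taking inverses. -/
theorem result {G : Type*} [Group G] [Finite G] : Nat.card {χ : Cfsg.IrrCharacter G // ∀ g : G, ((χ : G → ℂ) g).im = 0} = Nat.card {C : ConjClasses G // ∀ g : G, ConjClasses.mk g = C → IsConj g g⁻¹} := by
  classical
  have := Fintype.ofFinite G
  have h := Cfsg.Agent.Lib.helper24.brauer_perm_count (G := G) (fun g => g⁻¹)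
    (fun χ => by
      have h1 := Cfsg.Agent.Lib.helper24.isIrrCharacter_conj χ.2
      convert h1 using 1
      funext g
      exact Cfsg.Agent.Lib.helper24.irr_inv χ g)
    (fun g h hgh => by
      obtain ⟨c, hc⟩ := isConj_iff.mp hgh
      exact isConj_iff.mpr ⟨c, by rw [← hc]; group⟩)
  have e1 : Nat.card {χ : Cfsg.IrrCharacter G // ∀ g : G, ((χ : G → ℂ) g).im = 0}
      = Nat.card {χ : Cfsg.IrrCharacter G // χ.1 ∘ (fun g => g⁻¹) = χ.1} := by
    apply Nat.card_congr
    refine Equiv.subtypeEquivRight ?_
    intro χ
    constructor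
    · intro hχ
      funext g
      simp only [Function.comp_apply]
      rw [Cfsg.Agent.Lib.helper24.irr_inv χ g]
      exact Complex.conj_eq_iff_im.mpr (hχ g)
    · intro hχ g
      have := congrFun hχ g
      simp only [Function.comp_apply] at this
      rw [Cfsg.Agent.Lib.helper24.irr_inv χ g] at this
      exact Complex.conj_eq_iff_im.mp this
  rw [e1, h]
  apply Nat.card_congr
  refine Equiv.subtypeEquivRight ?_
  intro C
  constructor
  · intro hC g hg
    exact (hC g hg).symm
  · intro hC g hg
    exact (hC g hg).symm

end Cfsg.Agent.S0160
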