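import Cfsg.Statements.S0161
import Cfsg.Agent.Lib.helper24.CharFS

set_option autoImplicit false
open Cfsg

namespace Cfsg.Agent.S0161

/-- In a finite group of odd order, a real-valued irreducible complex character is the trivial character. -/
theorem result {G : Type*} [Group G] [Finite G] (hodd : Odd (Nat.card G)) (χ : Cfsg.IrrCharacter G) (hreal : ∀ g : G, ((χ : G → ℂ) g).im = 0) : (χ : G → ℂ) = fun _ => 1 := by
  classical
  have := Fintype.ofFinite G
  have h := Cfsg.Agent.Lib.helper24.irr_real_of_odd hodd χ hreal
  rw [h]
  rfl

end Cfsg.Agent.S0161
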