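import Cfsg.Statements.S0167
import Cfsg.Agent.Lib.helper24.CharComm

set_option autoImplicit false
open Cfsg

namespace Cfsg.Agent.S0167

/-- An element g of a finite group is a commutator if and only if the sum over the irreducible characters χ of χ g / χ 1 is nonzero. -/
theorem result {G : Type*} [Group G] [Finite G] (g : G) : (∃ a b : G, g = a * b * a⁻¹ * b⁻¹) ↔ ∑ᶠ χ : Cfsg.IrrCharacter G, (χ : G → ℂ) g / (χ : G → ℂ) 1 ≠ 0 := by
  classical
  have := Fintype.ofFinite G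
  have := Fintype.ofFinite (Cfsg.IrrCharacter G)
  rw [finsum_eq_sum_of_fintype]
  have hne : (Nat.card G : ℂ) ≠ 0 := NeZero.ne _
  have hc := Cfsg.Agent.Lib.helper24.commutator_count g
  constructor
  · rintro ⟨a, b, hab⟩ h0
    rw [h0, mul_zero] at hc
    have hpos : 0 < Nat.card {xy : G × G // xy.1 * xy.2 * xy.1⁻¹ * xy.2⁻¹ = g} :=
      Nat.card_pos_iff.mpr ⟨⟨⟨(a, b), hab.symm⟩⟩, inferInstance⟩
    have : (Nat.card {xy : G × G // xy.1 * xy.2 * xy.1⁻¹ * xy.2⁻¹ = g} : ℂ) ≠ 0 := by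
      exact_mod_cast hpos.ne'
    exact this hc
  · intro hsum
    by_contra hcon
    have hempty : IsEmpty {xy : G × G // xy.1 * xy.2 * xy.1⁻¹ * xy.2⁻¹ = g} := by
      constructor
      rintro ⟨⟨a, b⟩, hab⟩
      exact hcon ⟨a, b, hab.symm⟩
    rw [Nat.card_of_isEmpty, Nat.cast_zero] at hc
    rcases mul_eq_zero.mp hc.symm with h1 | h1
    · exact hne h1
    · exact hsum h1

end Cfsg.Agent.S0167
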