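import Cfsg.Statements.S0172
import Mathlib

set_option autoImplicit false
open Cfsg

namespace Cfsg.Agent.S0172

open scoped Pointwise

lemma comm_pairs_sum (G : Type*) [Group G] [Fintype G] :
    Nat.card {p : G × G // Commute p.1 p.2} =
      ∑ x : G, Nat.card (Subgroup.centralizer ({x} : Set G)) := by
  classical
  have h : ∀ x : G, Nat.card (Subgroup.centralizer ({x} : Set G)) =
      Fintype.card {y : G // Commute x y} := by
    intro x
    rw [← Nat.card_eq_fintype_card]
    refine Nat.card_congr (Equiv.subtypeEquivRight ?_)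
    intro y
    rw [Subgroup.mem_centralizer_iff]
    simp [commute_iff_eq]
  simp_rw [h]
  rw [← Fintype.card_sigma, ← Nat.card_eq_fintype_card]
  exact Nat.card_congr ⟨fun p => ⟨p.1.1, p.1.2, p.2⟩, fun s => ⟨(s.1, s.2.1), s.2.2⟩,
    fun _ => rfl, fun _ => rfl⟩

lemma card_centralizer_one (X : Type*) [Group X] :
    Nat.card (Subgroup.centralizer ({1} : Set X)) = Nat.card X := by
  have : Subgroup.centralizer ({1} : Set X) = ⊤ := by
    rw [eq_top_iff]
    intro y _
    rw [Subgroup.mem_centralizer_iff]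
    intro h hh
    rw [Set.mem_singleton_iff] at hh
    rw [hh]; simp
  rw [this, Subgroup.card_top]


/-- Class number of a Frobenius group: if G = K H with K normal, K ⊓ H trivial and no non-identity element of H commuting with a non-identity element of K, then |H| * k(G) + 1 = |H| * k(H) + k(K), where k denotes the number of conjugacy classes. -/
theorem result {G : Type*} [Group G] [Finite G] (K H : Subgroup G) [K.Normal] (hKH : K ⊓ H = ⊥) (hKH' : K ⊔ H = ⊤) (hfpf : ∀ h ∈ H, h ≠ 1 → ∀ k ∈ K, h * k = k * h → k = 1) : Nat.card H * Nat.card (ConjClasses G) + 1 = Nat.card H * Nat.card (ConjClasses H) + Nat.card (ConjClasses K) := by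
  classical
  haveI := Fintype.ofFinite G
  haveI : Fintype K := Fintype.ofFinite K
  haveI : Fintype H := Fintype.ofFinite H
  have hKn : K.Normal := inferInstance
  have hdec : ∀ g : G, ∃ k ∈ K, ∃ h ∈ H, g = k * h := by
    intro g
    have hg : g ∈ ((K ⊔ H : Subgroup G) : Set G) := by rw [hKH']; trivial
    rw [Subgroup.normal_mul] at hg
    obtain ⟨k, hk, h, hh, rfl⟩ := Set.mem_mul.mp hg
    exact ⟨k, hk, h, hh, rfl⟩
  have huniq : ∀ k ∈ K, ∀ h ∈ H, ∀ k' ∈ K, ∀ h' ∈ H, k * h = k' * h' → k = k' ∧ h = h' := by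
    intro k hk h hh k' hk' h' hh' e
    have h1 : k'⁻¹ * k = h' * h⁻¹ := by
      rw [eq_mul_inv_iff_mul_eq, mul_assoc, e, inv_mul_cancel_left]
    have h2 : k'⁻¹ * k ∈ K ⊓ H :=
      Subgroup.mem_inf.mpr ⟨K.mul_mem (K.inv_mem hk') hk, by rw [h1]; exact H.mul_mem hh' (H.inv_mem hh)⟩
    rw [hKH, Subgroup.mem_bot] at h2
    have h3 : h' * h⁻¹ = 1 := by rw [← h1, h2]
    exact ⟨by rw [inv_mul_eq_one] at h2; exact h2.symm, by rw [mul_inv_eq_one] at h3; exact h3.symm⟩
  have F2 : ∀ h ∈ H, h ≠ 1 → ∀ k ∈ K, ∃ u ∈ K, k * h = u * h * u⁻¹ := by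
    intro h hh hne k hk
    let φ : K → K := fun u => ⟨u.1 * (h * u.1⁻¹ * h⁻¹),
      K.mul_mem u.2 (hKn.conj_mem _ (K.inv_mem u.2) h)⟩
    have hinj : Function.Injective φ := by
      intro u v huv
      have e : u.1 * (h * u.1⁻¹ * h⁻¹) = v.1 * (h * v.1⁻¹ * h⁻¹) := congrArg Subtype.val huv
      have e3 : u.1 * h * u.1⁻¹ = v.1 * h * v.1⁻¹ := by
        have := congrArg (· * h) e
        simpa [mul_assoc] using this
      have e2 : h * (v.1⁻¹ * u.1) = (v.1⁻¹ * u.1) * h := by
        calc h * (v.1⁻¹ * u.1) = v.1⁻¹ * (v.1 * h * v.1⁻¹) * u.1 := by group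
          _ = v.1⁻¹ * (u.1 * h * u.1⁻¹) * u.1 := by rw [e3]
          _ = (v.1⁻¹ * u.1) * h := by group
      have := hfpf h hh hne _ (K.mul_mem (K.inv_mem v.2) u.2) e2
      exact Subtype.ext (by rw [inv_mul_eq_one] at this; exact this.symm)
    obtain ⟨u, hu⟩ := (Finite.injective_iff_surjective.mp hinj) ⟨k, hk⟩
    refine ⟨u.1, u.2, ?_⟩
    have : u.1 * (h * u.1⁻¹ * h⁻¹) = k := congrArg Subtype.val hu
    rw [← this]; group
  have F3 : ∀ h ∈ H, h ≠ 1 → ∀ y : G, h * y = y * h → y ∈ H := by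
    intro h hh hne y hy
    obtain ⟨k, hk, h', hh', rfl⟩ := hdec y
    have e : (h * k * h⁻¹) * (h * h') = k * (h' * h) := by
      calc (h * k * h⁻¹) * (h * h') = h * (k * h') := by group
        _ = k * h' * h := hy
        _ = k * (h' * h) := by group
    obtain ⟨e1, e2⟩ := huniq _ (hKn.conj_mem k hk h) _ (H.mul_mem hh hh') _ hk _
      (H.mul_mem hh' hh) e
    have e3 : h * k = k * h := by
      have := congrArg (· * h) e1
      simpa [mul_assoc] using this
    have hk1 := hfpf h hh hne k hk e3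
    rw [hk1, one_mul]; exact hh'
  have F1 : ∀ k ∈ K, k ≠ 1 → ∀ y : G, k * y = y * k → y ∈ K := by
    intro k hk hne y hy
    obtain ⟨k', hk', h, hh, rfl⟩ := hdec y
    by_cases h1 : h = 1
    · rw [h1, mul_one]; exact hk'
    · exfalso
      obtain ⟨u, hu, e⟩ := F2 h hh h1 k' hk'
      rw [e] at hy
      have e2 : h * (u⁻¹ * k * u) = (u⁻¹ * k * u) * h := by
        calc h * (u⁻¹ * k * u) = u⁻¹ * ((u * h * u⁻¹) * k) * u := by group
          _ = u⁻¹ * (k * (u * h * u⁻¹)) * u := by rw [hy]
          _ = (u⁻¹ * k * u) * h := by group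
      have hmem : u⁻¹ * k * u ∈ K := by
        have := hKn.conj_mem k hk u⁻¹
        simpa using this
      have := hfpf h hh h1 _ hmem e2
      apply hne
      calc k = u * (u⁻¹ * k * u) * u⁻¹ := by group
        _ = 1 := by rw [this]; group
  -- centralizer sizes
  have H1 : ∀ h : H, h ≠ 1 → ∀ k : K,
      Nat.card (Subgroup.centralizer ({k.1 * h.1} : Set G)) =
        Nat.card (Subgroup.centralizer ({h} : Set H)) := by
    intro h hne k
    have hne' : h.1 ≠ 1 := fun hh => hne (Subtype.ext hh)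
    obtain ⟨u, hu, e⟩ := F2 h.1 h.2 hne' k.1 k.2
    rw [e]
    symm
    have hmem : ∀ y : Subgroup.centralizer ({h} : Set H),
        u * y.1.1 * u⁻¹ ∈ Subgroup.centralizer ({u * h.1 * u⁻¹} : Set G) := by
      intro y
      rw [Subgroup.mem_centralizer_iff]
      intro z hz
      rw [Set.mem_singleton_iff] at hz
      have hy := (Subgroup.mem_centralizer_iff.mp y.2) h (Set.mem_singleton _)
      have hy' : h.1 * y.1.1 = y.1.1 * h.1 := congrArg Subtype.val hy
      rw [hz]
      calc u * h.1 * u⁻¹ * (u * y.1.1 * u⁻¹) = u * (h.1 * y.1.1) * u⁻¹ := by group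
        _ = u * (y.1.1 * h.1) * u⁻¹ := by rw [hy']
        _ = u * y.1.1 * u⁻¹ * (u * h.1 * u⁻¹) := by group
    refine Nat.card_congr (Equiv.ofBijective (fun y => ⟨u * y.1.1 * u⁻¹, hmem y⟩) ⟨?_, ?_⟩)
    · intro y z hyz
      have : u * y.1.1 * u⁻¹ = u * z.1.1 * u⁻¹ := congrArg Subtype.val hyz
      have h2 : y.1.1 = z.1.1 := by simpa using this
      exact Subtype.ext (Subtype.ext h2)
    · intro z
      have hz := (Subgroup.mem_centralizer_iff.mp z.2) _ (Set.mem_singleton _)
      have hc : h.1 * (u⁻¹ * z.1 * u) = (u⁻¹ * z.1 * u) * h.1 := by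
        calc h.1 * (u⁻¹ * z.1 * u) = u⁻¹ * (u * h.1 * u⁻¹ * z.1) * u := by group
          _ = u⁻¹ * (z.1 * (u * h.1 * u⁻¹)) * u := by rw [hz]
          _ = (u⁻¹ * z.1 * u) * h.1 := by group
      have hH := F3 h.1 h.2 hne' _ hc
      refine ⟨⟨⟨u⁻¹ * z.1 * u, hH⟩, ?_⟩, ?_⟩
      · rw [Subgroup.mem_centralizer_iff]
        intro w hw
        rw [Set.mem_singleton_iff] at hw
        rw [hw]
        exact Subtype.ext hc
      · apply Subtype.ext
        show u * (u⁻¹ * z.1 * u) * u⁻¹ = z.1
        group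
  have K1 : ∀ k : K, k ≠ 1 →
      Nat.card (Subgroup.centralizer ({k.1} : Set G)) =
        Nat.card (Subgroup.centralizer ({k} : Set K)) := by
    intro k hne
    have hne' : k.1 ≠ 1 := fun hh => hne (Subtype.ext hh)
    symm
    have hmem : ∀ y : Subgroup.centralizer ({k} : Set K),
        y.1.1 ∈ Subgroup.centralizer ({k.1} : Set G) := by
      intro y
      rw [Subgroup.mem_centralizer_iff]
      intro z hz
      rw [Set.mem_singleton_iff] at hz
      have hy := (Subgroup.mem_centralizer_iff.mp y.2) k (Set.mem_singleton _)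
      rw [hz]
      exact congrArg Subtype.val hy
    refine Nat.card_congr (Equiv.ofBijective (fun y => ⟨y.1.1, hmem y⟩) ⟨?_, ?_⟩)
    · intro y z hyz
      have : y.1.1 = z.1.1 :=
        congrArg (fun t : ↥(Subgroup.centralizer ({k.1} : Set G)) => (t : G)) hyz
      exact Subtype.ext (Subtype.ext this)
    · intro z
      have hz := (Subgroup.mem_centralizer_iff.mp z.2) _ (Set.mem_singleton _)
      have hKz := F1 k.1 k.2 hne' _ hz
      refine ⟨⟨⟨z.1, hKz⟩, ?_⟩, rfl⟩
      rw [Subgroup.mem_centralizer_iff]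
      intro w hw
      rw [Set.mem_singleton_iff] at hw
      rw [hw]
      exact Subtype.ext hz
  have hG := comm_pairs_sum G
  have hH := comm_pairs_sum H
  have hK := comm_pairs_sum K
  rw [card_comm_eq_card_conjClasses_mul_card] at hG hH hK
  have hbij : Function.Bijective (fun p : K × H => p.1.1 * p.2.1) := by
    constructor
    · rintro ⟨k, h⟩ ⟨k', h'⟩ e
      obtain ⟨e1, e2⟩ := huniq _ k.2 _ h.2 _ k'.2 _ h'.2 e
      exact Prod.ext (Subtype.ext e1) (Subtype.ext e2)
    · intro g
      obtain ⟨k, hk, h, hh, rfl⟩ := hdec g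
      exact ⟨(⟨k, hk⟩, ⟨h, hh⟩), rfl⟩
  let e : K × H ≃ G := Equiv.ofBijective _ hbij
  have hcard : Nat.card G = Nat.card K * Nat.card H := by
    rw [← Nat.card_prod]; exact (Nat.card_congr e).symm
  have hsum : ∑ x : G, Nat.card (Subgroup.centralizer ({x} : Set G)) =
      ∑ k : K, ∑ h : H, Nat.card (Subgroup.centralizer ({k.1 * h.1} : Set G)) := by
    rw [← Equiv.sum_comp e, Fintype.sum_prod_type]
    rfl
  have key : ∀ k : K, ∑ h : H, Nat.card (Subgroup.centralizer ({k.1 * h.1} : Set G))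
        + Nat.card H + (if k = 1 then Nat.card K else 0) =
      ∑ h : H, Nat.card (Subgroup.centralizer ({h} : Set H))
        + Nat.card (Subgroup.centralizer ({k} : Set K))
        + (if k = 1 then Nat.card K * Nat.card H else 0) := by
    intro k
    have s1 : ∑ h : H, Nat.card (Subgroup.centralizer ({k.1 * h.1} : Set G)) =
        Nat.card (Subgroup.centralizer ({k.1 * (1 : H).1} : Set G)) +
          ∑ h ∈ Finset.univ.erase (1 : H), Nat.card (Subgroup.centralizer ({k.1 * h.1} : Set G)) :=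
      (Finset.add_sum_erase _ _ (Finset.mem_univ _)).symm
    have s2 : ∑ h : H, Nat.card (Subgroup.centralizer ({h} : Set H)) =
        Nat.card (Subgroup.centralizer ({(1 : H)} : Set H)) +
          ∑ h ∈ Finset.univ.erase (1 : H), Nat.card (Subgroup.centralizer ({h} : Set H)) :=
      (Finset.add_sum_erase _ _ (Finset.mem_univ _)).symm
    have s3 : ∑ h ∈ Finset.univ.erase (1 : H),
          Nat.card (Subgroup.centralizer ({k.1 * h.1} : Set G)) =
        ∑ h ∈ Finset.univ.erase (1 : H), Nat.card (Subgroup.centralizer ({h} : Set H)) :=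
      Finset.sum_congr rfl (fun h hh => H1 h (Finset.ne_of_mem_erase hh) k)
    rw [s1, s2, s3, card_centralizer_one H]
    have h1 : k.1 * (1 : H).1 = k.1 := by simp
    rw [h1]
    by_cases hk : k = 1
    · subst hk
      rw [if_pos rfl, if_pos rfl, card_centralizer_one K]
      have : ((1 : K) : G) = 1 := rfl
      rw [this, card_centralizer_one G, hcard]
      ring
    · rw [if_neg hk, if_neg hk, K1 k hk]
      ring
  have tot : ∑ k : K, (∑ h : H, Nat.card (Subgroup.centralizer ({k.1 * h.1} : Set G))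
        + Nat.card H + (if k = 1 then Nat.card K else 0)) =
      ∑ k : K, (∑ h : H, Nat.card (Subgroup.centralizer ({h} : Set H))
        + Nat.card (Subgroup.centralizer ({k} : Set K))
        + (if k = 1 then Nat.card K * Nat.card H else 0)) :=
    Finset.sum_congr rfl (fun k _ => key k)
  simp only [Finset.sum_add_distrib, Finset.sum_const, Finset.card_univ, Finset.sum_ite_eq',
    Finset.mem_univ, if_true, smul_eq_mul, ← Nat.card_eq_fintype_card] at tot
  rw [← hsum, ← hG, ← hH, ← hK, hcard] at tot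
  have hpos : 0 < Nat.card K := Nat.card_pos
  apply Nat.eq_of_mul_eq_mul_left hpos
  nlinarith [tot]

end Cfsg.Agent.S0172
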