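import Cfsg.Statements.S0173
import Cfsg.Agent.Lib.helper24.CharPerm

set_option autoImplicit false
open Cfsg

namespace Cfsg.Agent.S0173

/-- Brauer's permutation lemma for a single automorphism: the number of conjugacy classes mapped to themselves equals the number of irreducible complex characters χ with χ ∘ α = χ. -/
theorem result {G : Type*} [Group G] [Finite G] (α : G ≃* G) : Nat.card {C : ConjClasses G // ConjClasses.map α.toMonoidHom C = C} = Nat.card {χ : Cfsg.IrrCharacter G // (χ : G → ℂ) ∘ α = (χ : G → ℂ)} := by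
  have h := Cfsg.Agent.Lib.helper24.brauer_perm_count (G := G) (fun g => α g)
    (fun χ => Cfsg.Agent.Lib.helper24.isIrrCharacter_comp_equiv α χ.2)
    (fun g h hgh => by
      obtain ⟨c, hc⟩ := isConj_iff.mp hgh
      exact isConj_iff.mpr ⟨α c, by rw [← hc]; simp⟩)
  have e : Nat.card {χ : Cfsg.IrrCharacter G // (χ : G → ℂ) ∘ α = (χ : G → ℂ)}
      = Nat.card {χ : Cfsg.IrrCharacter G // χ.1 ∘ (fun g => α g) = χ.1} := rfl
  rw [e, h]
  apply Nat.card_congr
  refine Equiv.subtypeEquivRight ?_
  intro C
  constructor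
  · intro hC g hg
    rw [← hg] at hC
    rw [← ConjClasses.mk_eq_mk_iff_isConj]
    exact hC
  · intro hC
    obtain ⟨g, rfl⟩ := ConjClasses.mk_surjective C
    have := hC g rfl
    rw [← ConjClasses.mk_eq_mk_iff_isConj] at this
    exact this

end Cfsg.Agent.S0173
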