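import Cfsg.Statements.S0184
import Cfsg.Agent.Lib.helper23.FaithfulP

set_option autoImplicit false
open Cfsg

namespace Cfsg.Agent.S0184

/-- A finite p-group admits a faithful irreducible complex representation if and only if its centre is cyclic. -/
theorem result {G : Type*} [Group G] [Finite G] (p : ℕ) [Fact p.Prime] (hG : IsPGroup p G) : (∃ (n : ℕ) (ρ : Representation ℂ G (Fin n → ℂ)), ρ.IsIrreducible ∧ Function.Injective ρ) ↔ IsCyclic (Subgroup.center G) := by
  exact Cfsg.Agent.Lib.helper23.faithful_irr_iff_center_cyclic p hG

end Cfsg.Agent.S0184
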