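import Cfsg.Statements.S0187
import Cfsg.Agent.Lib.helper24.CharComplete

set_option autoImplicit false
open Cfsg

namespace Cfsg.Agent.S0187

/-- A finite group is commutative if and only if every irreducible complex character has degree 1. -/
theorem result {G : Type*} [Group G] [Finite G] : (∀ a b : G, a * b = b * a) ↔ ∀ χ : Cfsg.IrrCharacter G, (χ : G → ℂ) 1 = 1 := by
  classical
  have := Fintype.ofFinite G
  have := Fintype.ofFinite (Cfsg.IrrCharacter G)
  constructor
  · intro hcomm χ
    have : IsMulCommutative G := ⟨⟨hcomm⟩⟩
    exact Cfsg.Agent.Lib.helper24.irr_one_of_comm χ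
  · intro hall a b
    have h1 := Cfsg.Agent.Lib.helper24.sum_sq_degrees (G := G)
    simp only [hall, one_pow, Finset.sum_const, Finset.card_univ, nsmul_eq_mul, mul_one] at h1
    have h2 : Fintype.card (Cfsg.IrrCharacter G) = Nat.card G := by exact_mod_cast h1
    rw [← Nat.card_eq_fintype_card, Cfsg.Agent.Lib.helper24.card_irr_eq_card_conjClasses] at h2
    have hinj : Function.Injective (ConjClasses.mk : G → ConjClasses G) := by
      have hs : Function.Surjective (ConjClasses.mk : G → ConjClasses G) := ConjClasses.mk_surjective
      have := Fintype.ofFinite (ConjClasses G)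
      rw [Nat.card_eq_fintype_card, Nat.card_eq_fintype_card] at h2
      exact (Fintype.bijective_iff_surjective_and_card _).mpr ⟨hs, h2.symm⟩ |>.1
    have h3 : ConjClasses.mk (b * a * b⁻¹) = ConjClasses.mk a := by
      rw [ConjClasses.mk_eq_mk_iff_isConj]
      exact (isConj_iff.mpr ⟨b, rfl⟩).symm
    have h4 := hinj h3
    calc a * b = (b * a * b⁻¹) * b := by rw [h4]
      _ = b * a := by group

end Cfsg.Agent.S0187
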