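import Cfsg.Statements.S0196
import Mathlib

set_option autoImplicit false
open Pointwise
open Cfsg

namespace Cfsg.Agent.S0196

theorem result {G : Type*} [Group G] [Finite G] (A : Subgroup G) (hA : ∀ x ∈ A, x ≠ 1 → Subgroup.centralizer ({x} : Set G) = A) : (A.subgroupOf (Subgroup.normalizer (A : Set G))).index ∣ Nat.card A - 1 := by
  classical
  set N := Subgroup.normalizer (A : Set G) with hNdef
  let X := ↥((A : Set G) \ {1})
  let _ : MulAction N X :=
    { smul := fun n x => ⟨(n : G) * x.1 * (n : G)⁻¹,
        (Subgroup.mem_normalizer_iff.mp n.2 x.1).mp x.2.1, by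
          intro h
          apply x.2.2
          have h' : (n : G) * x.1 * (n : G)⁻¹ = 1 := h
          have : x.1 = (n : G)⁻¹ * ((n : G) * x.1 * (n : G)⁻¹) * (n : G) := by group
          rw [this, h']; simp⟩
      one_smul := fun x => Subtype.ext (by
        change ((1 : N) : G) * x.1 * ((1 : N) : G)⁻¹ = x.1
        simp)
      mul_smul := fun a b x => Subtype.ext (by
        change ((a * b : N) : G) * x.1 * ((a * b : N) : G)⁻¹ = (a : G) * ((b : G) * x.1 * (b : G)⁻¹) * (a : G)⁻¹
        simp [mul_assoc]) }
  have hsmul : ∀ (n : N) (x : X), ((n • x : X) : G) = (n : G) * x.1 * (n : G)⁻¹ := fun _ _ => rfl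
  have hstab : ∀ x : X, MulAction.stabilizer N x = A.subgroupOf N := by
    intro x
    ext n
    rw [MulAction.mem_stabilizer_iff, Subgroup.mem_subgroupOf, Subtype.ext_iff, hsmul]
    have hx1 : x.1 ≠ 1 := fun h => x.2.2 h
    have hAx := hA x.1 x.2.1 hx1
    have hiff : (n : G) ∈ A ↔ (n : G) * x.1 = x.1 * (n : G) := by
      rw [← Subgroup.mem_centralizer_singleton_iff, hAx]
    rw [hiff]
    constructor
    · intro h
      calc (n : G) * x.1 = (n : G) * x.1 * (n : G)⁻¹ * n := by group
        _ = x.1 * n := by rw [h]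
    · intro h
      rw [h]; group
  have hcard : Nat.card X = Nat.card (Quotient (MulAction.orbitRel N X)) * (A.subgroupOf N).index := by
    rw [Nat.card_congr (MulAction.selfEquivSigmaOrbitsQuotientStabilizer N X)]
    have : Fintype (Quotient (MulAction.orbitRel N X)) := Fintype.ofFinite _
    rw [Nat.card_sigma]
    simp only [hstab]
    rw [Finset.sum_const, Finset.card_univ, smul_eq_mul, ← Nat.card_eq_fintype_card]
    rfl
  have hX : Nat.card X = Nat.card A - 1 := by
    change Nat.card ↥((A : Set G) \ {1}) = _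
    rw [Nat.card_coe_set_eq, Set.ncard_sdiff_singleton_of_mem (Subgroup.one_mem A)]
    congr 1
  rw [← hX, hcard]
  exact dvd_mul_left _ _

end Cfsg.Agent.S0196
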