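import Cfsg.Statements.S0200
import Mathlib
import Cfsg.Agent.Lib.helper1.Dihedral
import Cfsg.Agent.Lib.helper20.BaerSuzuki

set_option autoImplicit false
open Cfsg

namespace Cfsg.Agent.S0200

open Cfsg.Agent.Lib.helper1

theorem orderOf_conj_eq {G : Type*} [Group G] (g x : G) : orderOf (g * x * g⁻¹) = orderOf x :=
  orderOf_injective (MulAut.conj g).toMonoidHom (MulAut.conj g).injective x

/-- Two distinct involutions whose product has 2-power order generate a 2-group. -/
theorem isPGroup_closure_of_pow {G : Type*} [Group G] [Finite G] (a b : G) (ha : orderOf a = 2)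
    (hb : orderOf b = 2) (hab : a ≠ b) (k : ℕ) (hk : orderOf (a * b) = 2 ^ k) :
    IsPGroup 2 (Subgroup.closure ({a, b} : Set G)) := by
  have ha2 : a * a = 1 := by rw [← pow_two, ← ha]; exact pow_orderOf_eq_one a
  have hb2 : b * b = 1 := by rw [← pow_two, ← hb]; exact pow_orderOf_eq_one b
  have hinj := dihHom_injective a (a * b) ha2 (invol_conj a b ha2 hb2)
    (invol_not_mem_zpowers a b ha hb hab)
  have hrange := dihHom_range a b ha2 hb2
  have hcard : Nat.card (Subgroup.closure ({a, b} : Set G)) = 2 ^ (k + 1) := by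
    rw [← hrange, ← Nat.card_congr (MonoidHom.ofInjective hinj).toEquiv, DihedralGroup.nat_card, hk,
      pow_succ, mul_comm]
  exact IsPGroup.of_card hcard

/-- An involution lying in no normal 2-subgroup of a finite group inverts a nontrivial element of odd order (a consequence of the Baer–Suzuki Theorem). -/
theorem result {G : Type*} [Group G] [Finite G] (t : G) (ht : orderOf t = 2) (hO : ∀ N : Subgroup G, N.Normal → IsPGroup 2 N → t ∉ N) : ∃ h : G, h ≠ 1 ∧ Odd (orderOf h) ∧ t * h * t⁻¹ = h⁻¹ := by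
  haveI : Fact (Nat.Prime 2) := ⟨Nat.prime_two⟩
  let K : Set G := {a | ∃ g : G, a = g * t * g⁻¹}
  have hKn : ∀ g : G, ∀ a ∈ K, g * a * g⁻¹ ∈ K := by
    rintro g _ ⟨g', rfl⟩
    exact ⟨g * g', by group⟩
  have hex : ∃ a ∈ K, ∃ b ∈ K, ¬ IsPGroup 2 (Subgroup.closure ({a, b} : Set G)) := by
    by_contra hcon
    push Not at hcon
    let P : Sylow 2 G := default
    have hsub := Cfsg.Agent.Lib.helper20.baer_suzuki_set K hKn hcon P
    have htc : t ∈ (P : Subgroup G).normalCore := by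
      intro b
      exact hsub ⟨b, rfl⟩
    exact hO _ inferInstance (P.isPGroup'.to_le (Subgroup.normalCore_le _)) htc
  obtain ⟨a, ⟨g₁, rfl⟩, b, ⟨g₂, rfl⟩, hnp⟩ := hex
  set a := g₁ * t * g₁⁻¹ with ha
  set b := g₂ * t * g₂⁻¹ with hb
  have hao : orderOf a = 2 := by rw [ha, orderOf_conj_eq, ht]
  have hbo : orderOf b = 2 := by rw [hb, orderOf_conj_eq, ht]
  have ha2 : a * a = 1 := by rw [← pow_two, ← hao]; exact pow_orderOf_eq_one a
  have hb2 : b * b = 1 := by rw [← pow_two, ← hbo]; exact pow_orderOf_eq_one b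
  have hab : a ≠ b := by
    intro h
    apply hnp
    rw [← h]
    have : ({a, a} : Set G) = {a} := by simp
    rw [this, ← Subgroup.zpowers_eq_closure]
    apply IsPGroup.of_card (n := 1)
    rw [Nat.card_zpowers, hao, pow_one]
  have hn0 : orderOf (a * b) ≠ 0 := (orderOf_pos (a * b)).ne'
  rcases Nat.eq_two_pow_or_exists_odd_prime_and_dvd (orderOf (a * b)) with ⟨k, hk⟩ | ⟨q, hq, hqd, hqodd⟩
  · exact absurd (isPGroup_closure_of_pow a b hao hbo hab k hk) hnp
  · set h₀ := (a * b) ^ (orderOf (a * b) / q) with hh₀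
    have hh₀o : orderOf h₀ = q := orderOf_pow_orderOf_div hn0 hqd
    have hinv : a * h₀ * a⁻¹ = h₀⁻¹ := by
      rw [hh₀, ← conj_pow, invol_conj a b ha2 hb2, inv_pow]
    refine ⟨g₁⁻¹ * h₀ * g₁, ?_, ?_, ?_⟩
    · intro h1
      have : orderOf (g₁⁻¹ * h₀ * g₁) = q := by
        have := orderOf_conj_eq g₁⁻¹ h₀
        rw [inv_inv] at this
        rw [this, hh₀o]
      rw [h1, orderOf_one] at this
      exact hq.one_lt.ne this
    · have := orderOf_conj_eq g₁⁻¹ h₀
      rw [inv_inv] at this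
      rw [this, hh₀o]
      exact hqodd
    · calc t * (g₁⁻¹ * h₀ * g₁) * t⁻¹ = g₁⁻¹ * ((g₁ * t * g₁⁻¹) * h₀ * (g₁ * t * g₁⁻¹)⁻¹) * g₁ := by
            group
        _ = g₁⁻¹ * h₀⁻¹ * g₁ := by rw [← ha, hinv]
        _ = (g₁⁻¹ * h₀ * g₁)⁻¹ := by group

end Cfsg.Agent.S0200
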