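import Cfsg.Statements.S0207
import Mathlib
import Cfsg.Agent.Lib.helper1.Dihedral

set_option autoImplicit false
open Cfsg

namespace Cfsg.Agent.S0207

open Cfsg.Agent.Lib.helper1

/-- If x, y are distinct involutions, every element of the subgroup they generate that lies outside the cyclic subgroup generated by xy is an involution. -/
theorem result {G : Type*} [Group G] [Finite G] (x y : G) (hx : orderOf x = 2) (hy : orderOf y = 2) (hxy : x ≠ y) (d : G) (hd : d ∈ Subgroup.closure ({x, y} : Set G)) (hd' : d ∉ Subgroup.zpowers (x * y)) : orderOf d = 2 := by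
  have hx2 : x * x = 1 := by rw [← pow_two, ← hx]; exact pow_orderOf_eq_one x
  have hy2 : y * y = 1 := by rw [← pow_two, ← hy]; exact pow_orderOf_eq_one y
  have hinj := dihHom_injective x (x * y) hx2 (invol_conj x y hx2 hy2)
    (invol_not_mem_zpowers x y hx hy hxy)
  have hrange := dihHom_range x y hx2 hy2
  rw [← hrange] at hd
  obtain ⟨e, rfl⟩ := hd
  rcases e with i | i
  · exfalso
    apply hd'
    rw [dihHom_r]
    exact zmodPow_mem_zpowers _ i
  · rw [orderOf_injective _ hinj, DihedralGroup.orderOf_sr]

end Cfsg.Agent.S0207
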