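import Cfsg.Statements.S0209
import Cfsg.Agent.Lib.helper2.Invol

set_option autoImplicit false
open Cfsg

open Cfsg.Agent.Lib.helper2

namespace Cfsg.Agent.S0209

/-- If x, y are involutions whose product has even order n, the element (xy)^(n/2) is an involution that commutes with x and with y. -/
theorem result {G : Type*} [Group G] [Finite G] (x y : G) (hx : orderOf x = 2) (hy : orderOf y = 2) (heven : Even (orderOf (x * y))) : orderOf ((x * y) ^ (orderOf (x * y) / 2)) = 2 ∧ Commute ((x * y) ^ (orderOf (x * y) / 2)) x ∧ Commute ((x * y) ^ (orderOf (x * y) / 2)) y := by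
  have hx' := Invol.sq_of_order_two hx
  have hy' := Invol.sq_of_order_two hy
  obtain ⟨m, hm⟩ := heven
  have hpos : 0 < orderOf (x * y) := orderOf_pos (x * y)
  have hm0 : 0 < m := by omega
  have hdiv : orderOf (x * y) / 2 = m := by omega
  rw [hdiv]
  refine ⟨?_, ?_, ?_⟩
  · exact Invol.order_two_of (by rw [← pow_add, ← hm, pow_orderOf_eq_one])
      (Invol.half_ne_one hm hm0)
  · exact (Invol.half_comm_x hm hx' hy').symm
  · exact (Invol.half_comm_y hm hx' hy').symm

end Cfsg.Agent.S0209
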