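import Cfsg.Statements.S0210
import Cfsg.Agent.Lib.helper2.Invol

set_option autoImplicit false
open Cfsg

open Cfsg.Agent.Lib.helper2

namespace Cfsg.Agent.S0210

/-- If x, y are involutions whose product has even order, no element of the subgroup generated by x and y conjugates x to y. -/
theorem result {G : Type*} [Group G] [Finite G] (x y : G) (hx : orderOf x = 2) (hy : orderOf y = 2) (heven : Even (orderOf (x * y))) (d : G) (hd : d ∈ Subgroup.closure ({x, y} : Set G)) : d * x * d⁻¹ ≠ y := by
  have hx' := Invol.sq_of_order_two hx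
  have hy' := Invol.sq_of_order_two hy
  intro hd'
  obtain ⟨i, hi⟩ := Invol.conj_class_x hx' hy' hd
  rw [hi] at hd'
  have h2 : (x * y) ^ (2 * i) * x = (x * y) ^ (-1 : ℤ) * x := by
    rw [hd', zpow_neg_one]; exact Invol.y_eq hy'
  have h3 := Invol.dvd_of_zpow_mul_eq h2
  obtain ⟨r, hr⟩ := heven
  rw [hr] at h3
  have : (2 : ℤ) ∣ 2 * i - (-1) := dvd_trans ⟨(r : ℤ), by push_cast; ring⟩ h3
  omega

end Cfsg.Agent.S0210
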