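import Cfsg.Statements.S0211
import Cfsg.Agent.Lib.helper2.Invol

set_option autoImplicit false
open Cfsg

open Cfsg.Agent.Lib.helper2

namespace Cfsg.Agent.S0211

/-- Let x, y be involutions with xy of even order n and z = (xy)^(n/2). Then xz is conjugate to x by an element of the subgroup generated by x, y if and only if 4 divides n. -/
theorem result {G : Type*} [Group G] [Finite G] (x y : G) (hx : orderOf x = 2) (hy : orderOf y = 2) (heven : Even (orderOf (x * y))) : (∃ d ∈ Subgroup.closure ({x, y} : Set G), d * x * d⁻¹ = x * (x * y) ^ (orderOf (x * y) / 2)) ↔ 4 ∣ orderOf (x * y) := by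
  have hx' := Invol.sq_of_order_two hx
  have hy' := Invol.sq_of_order_two hy
  obtain ⟨m, hm⟩ := heven
  have hdiv : orderOf (x * y) / 2 = m := by omega
  rw [hdiv]
  constructor
  · rintro ⟨d, hd, hd'⟩
    obtain ⟨i, hi⟩ := Invol.conj_class_x hx' hy' hd
    rw [hi] at hd'
    have h1 := Invol.x_zpow hx' hy' (m : ℤ)
    rw [zpow_natCast] at h1
    rw [h1] at hd'
    have h3 := Invol.dvd_of_zpow_mul_eq hd'
    rw [hm] at h3
    obtain ⟨c, hc⟩ := h3
    have h4 : (2 : ℤ) ∣ (m : ℤ) := ⟨(m : ℤ) * c - i, by push_cast at hc; linarith⟩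
    have h5 : 2 ∣ m := by exact_mod_cast h4
    obtain ⟨j, hj⟩ := h5
    exact ⟨j, by omega⟩
  · rintro ⟨j, hj⟩
    have hmj : m = 2 * j := by omega
    refine ⟨(x * y) ^ (j : ℤ), Invol.zpow_mem _, ?_⟩
    exact Invol.half_conj_x_even hm hx' hy' hmj

end Cfsg.Agent.S0211
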