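import Cfsg.Statements.S2758
import Mathlib
import Cfsg.Agent.Lib.helper1.Dihedral
import Cfsg.Agent.Lib.helper8.CoprimeAction

set_option autoImplicit false
open Cfsg

namespace Cfsg.Agent.S2758

open Cfsg.Agent.Lib.helper1

section
variable {G : Type*} [Group G]

/-- An element of odd prime power order which equals its inverse is trivial. -/
theorem eq_one_of_inv {p : ℕ} (hp : p.Prime) (hp2 : p ≠ 2) {y : G} {k : ℕ} (hy : y ^ (p ^ k) = 1)
    (h : y⁻¹ = y) : y = 1 := by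
  have h2 : y ^ 2 = 1 := by
    rw [pow_two]; nth_rewrite 1 [← h]; exact inv_mul_cancel y
  have hc : Nat.Coprime 2 (p ^ k) := by
    apply Nat.Coprime.pow_right
    rw [Nat.coprime_primes Nat.prime_two hp]; exact fun h => hp2 h.symm
  have h1 := orderOf_dvd_of_pow_eq_one h2
  have h3 := orderOf_dvd_of_pow_eq_one hy
  have h4 : orderOf y ∣ 1 := by
    have := Nat.dvd_gcd h1 h3
    rwa [hc.gcd_eq_one] at this
  exact orderOf_eq_one_iff.1 (Nat.dvd_one.1 h4)

theorem B_to_A {p : ℕ} [Fact p.Prime] (hp : p ≠ 2) (x y : G) (hy : ∃ k : ℕ, orderOf y = p ^ k)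
    (hy1 : y ≠ 1) (hxy : x * y * x⁻¹ = y⁻¹) :
    IsPGroup p ↥(Subgroup.zpowers y) ∧ x ∈ Subgroup.normalizer (Subgroup.zpowers y : Set G) ∧
      x ∉ Subgroup.centralizer (Subgroup.zpowers y : Set G) := by
  obtain ⟨k, hk⟩ := hy
  have hpp : p.Prime := Fact.out
  refine ⟨?_, ?_, ?_⟩
  · refine IsPGroup.of_card (n := k) ?_
    rw [Nat.card_zpowers, hk]
  · rw [Subgroup.mem_normalizer_iff]
    intro h
    constructor
    · intro hh
      obtain ⟨i, rfl⟩ := Subgroup.mem_zpowers_iff.1 hh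
      rw [← conj_zpow, hxy]
      exact Subgroup.zpow_mem _ (Subgroup.inv_mem _ (Subgroup.mem_zpowers y)) i
    · intro hh
      obtain ⟨i, hi⟩ := Subgroup.mem_zpowers_iff.1 hh
      have h1 : x⁻¹ * y * x = y⁻¹ := by
        have h0 : y = x⁻¹ * y⁻¹ * x := by rw [← hxy]; group
        calc x⁻¹ * y * x = (x⁻¹ * y⁻¹ * x)⁻¹ := by group
          _ = y⁻¹ := by rw [← h0]
      have h2 : h = (y⁻¹) ^ i := by
        have h0 : h = x⁻¹ * (x * h * x⁻¹) * x := by group
        rw [h0, ← hi]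
        have h3 := conj_zpow (a := x⁻¹) (b := y) (i := i)
        rw [inv_inv] at h3
        rw [← h3, h1]
      rw [h2]
      exact Subgroup.zpow_mem _ (Subgroup.inv_mem _ (Subgroup.mem_zpowers y)) i
  · intro hc
    rw [Subgroup.mem_centralizer_iff] at hc
    have h1 := hc y (Subgroup.mem_zpowers y)
    have h2 : y⁻¹ = y := by rw [← hxy, ← h1]; group
    exact hy1 (eq_one_of_inv hpp hp (k := k) (by rw [← hk]; exact pow_orderOf_eq_one y) h2)

theorem A_to_B {p : ℕ} [Fact p.Prime] (x : G) (P : Subgroup G)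
    (hx : ∃ k : ℕ, orderOf x = 2 ^ k) (hP : IsPGroup p ↥P)
    (hxN : x ∈ Subgroup.normalizer (P : Set G)) (hxC : x ∉ Subgroup.centralizer (P : Set G)) :
    ∃ x y : G, (∃ k : ℕ, orderOf x = 2 ^ k) ∧ (∃ k : ℕ, orderOf y = p ^ k) ∧ y ≠ 1 ∧
      x * y * x⁻¹ = y⁻¹ := by
  classical
  obtain ⟨k, hk⟩ := hx
  have hex : ∃ j : ℕ, x ^ (2 ^ j) ∈ Subgroup.centralizer (P : Set G) :=
    ⟨k, by rw [← hk, pow_orderOf_eq_one]; exact Subgroup.one_mem _⟩
  have hjs : x ^ (2 ^ Nat.find hex) ∈ Subgroup.centralizer (P : Set G) := Nat.find_spec hex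
  have hj0 : Nat.find hex ≠ 0 := by
    intro h0
    rw [h0, pow_zero, pow_one] at hjs
    exact hxC hjs
  obtain ⟨i, hi⟩ := Nat.exists_eq_succ_of_ne_zero hj0
  set x' := x ^ (2 ^ i) with hx'
  have hx'C : x' ∉ Subgroup.centralizer (P : Set G) := Nat.find_min hex (by omega : i < Nat.find hex)
  have hx'2 : x' * x' ∈ Subgroup.centralizer (P : Set G) := by
    have h0 : x' * x' = x ^ (2 ^ Nat.find hex) := by
      rw [hx', ← pow_add, hi, Nat.succ_eq_add_one, pow_succ]; congr 1; ring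
    rw [h0]; exact hjs
  have hx'N : x' ∈ Subgroup.normalizer (P : Set G) := Subgroup.pow_mem _ hxN _
  have hx'o : ∃ k : ℕ, orderOf x' = 2 ^ k := by
    have h0 : orderOf x' ∣ 2 ^ k := by
      rw [← hk]; exact orderOf_pow_dvd _
    obtain ⟨m, -, hm⟩ := (Nat.dvd_prime_pow Nat.prime_two).1 h0
    exact ⟨m, hm⟩
  have hu : ∃ u ∈ P, x' * u * x'⁻¹ ≠ u := by
    by_contra hcon
    push Not at hcon
    apply hx'C
    rw [Subgroup.mem_centralizer_iff]
    intro u hu
    have h0 := hcon u hu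
    calc u * x' = (x' * u * x'⁻¹) * x' := by rw [h0]
      _ = x' * u := by group
  obtain ⟨u, hu, hne⟩ := hu
  have hcu : x' * u * x'⁻¹ ∈ P := (Subgroup.mem_normalizer_iff.1 hx'N u).1 hu
  refine ⟨x', u⁻¹ * (x' * u * x'⁻¹), hx'o, ?_, ?_, ?_⟩
  · have hy : u⁻¹ * (x' * u * x'⁻¹) ∈ P := P.mul_mem (P.inv_mem hu) hcu
    obtain ⟨m, hm⟩ := (IsPGroup.iff_orderOf.1 hP) ⟨_, hy⟩
    exact ⟨m, by rw [← hm, Subgroup.orderOf_mk]⟩
  · intro h1
    apply hne
    exact (inv_mul_eq_one.1 h1).symm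
  · have h2 := (Subgroup.mem_centralizer_iff.1 hx'2) u hu
    have h3 : x' * x' * u * (x' * x')⁻¹ = u := by
      rw [← h2]; group
    calc x' * (u⁻¹ * (x' * u * x'⁻¹)) * x'⁻¹
        = (x' * u * x'⁻¹)⁻¹ * (x' * x' * u * (x' * x')⁻¹) := by group
      _ = (x' * u * x'⁻¹)⁻¹ * u := by rw [h3]
      _ = (u⁻¹ * (x' * u * x'⁻¹))⁻¹ := by group

/-- A subgroup of `H` containing the images of the generators is everything. -/
theorem closure_map_top {H : Type*} [Group H] (s : Set G) (f : ↥(Subgroup.closure s) →* H)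
    (hf : Function.Surjective f) (T : Subgroup H)
    (hT : ∀ g (hg : g ∈ s), f ⟨g, Subgroup.subset_closure hg⟩ ∈ T) : T = ⊤ := by
  have key : ∀ g (hg : g ∈ Subgroup.closure s), f ⟨g, hg⟩ ∈ T := by
    intro g hg
    induction hg using Subgroup.closure_induction with
    | mem x hx => exact hT x hx
    | one =>
      have h0 : (⟨1, Subgroup.one_mem _⟩ : ↥(Subgroup.closure s)) = 1 := rfl
      rw [h0, map_one]; exact T.one_mem
    | mul a b ha hb iha ihb =>
      have h0 : (⟨a * b, Subgroup.mul_mem _ ha hb⟩ : ↥(Subgroup.closure s)) = ⟨a, ha⟩ * ⟨b, hb⟩ := rfl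
      rw [h0, map_mul]; exact T.mul_mem iha ihb
    | inv a ha iha =>
      have h0 : (⟨a⁻¹, Subgroup.inv_mem _ ha⟩ : ↥(Subgroup.closure s)) = ⟨a, ha⟩⁻¹ := rfl
      rw [h0, map_inv]; exact T.inv_mem iha
  rw [eq_top_iff]
  intro h _
  obtain ⟨⟨g, hg⟩, rfl⟩ := hf h
  exact key g hg

theorem B_to_I {p : ℕ} [Fact p.Prime] (hp : p ≠ 2) (x y : G)
    (hy : ∃ k : ℕ, orderOf y = p ^ k) (hy1 : y ≠ 1)
    (hxy : x * y * x⁻¹ = y⁻¹) : Cfsg.Involves (DihedralGroup p) G := by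
  have hpp : p.Prime := Fact.out
  obtain ⟨k, hk⟩ := hy
  have hk0 : k ≠ 0 := by
    rintro rfl
    rw [pow_zero] at hk
    exact hy1 (orderOf_eq_one_iff.1 hk)
  obtain ⟨k', rfl⟩ := Nat.exists_eq_succ_of_ne_zero hk0
  set y' := y ^ (p ^ k') with hy'
  have hy'p : y' ^ p = 1 := by
    rw [hy', ← pow_mul, ← pow_succ, ← hk]; exact pow_orderOf_eq_one y
  have hy'1 : y' ≠ 1 := by
    intro h1
    have h2 := orderOf_dvd_of_pow_eq_one h1
    rw [hk] at h2
    have h3 := Nat.le_of_dvd (pow_pos hpp.pos _) h2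
    have h4 := Nat.pow_lt_pow_right hpp.one_lt (Nat.lt_succ_self k')
    omega
  have hxy' : x * y' * x⁻¹ = y'⁻¹ := by
    rw [hy', ← conj_pow, hxy, inv_pow]
  have hc1 : Commute (x * x) x := (Commute.refl x).mul_left (Commute.refl x)
  have hc2 : x * x * y' = y' * (x * x) := by
    have h1 : x * y' = y'⁻¹ * x := by rw [← hxy']; group
    have h2 : x * y'⁻¹ = y' * x := by
      have h0 : x * y'⁻¹ * x⁻¹ = y' := by
        have := congrArg (fun t => t⁻¹) hxy'
        simp only [mul_inv_rev, inv_inv] at this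
        rw [← mul_assoc] at this
        exact this
      calc x * y'⁻¹ = (x * y'⁻¹ * x⁻¹) * x := by group
        _ = y' * x := by rw [h0]
    rw [mul_assoc, h1, ← mul_assoc, h2, mul_assoc]
  have key : ∀ K : Subgroup G, K = Subgroup.closure ({x, y'} : Set G) →
      Cfsg.Involves (DihedralGroup p) G := by
    intro K hK
    set R : Subgroup G := Subgroup.zpowers (x * x) with hR
    have hxK : x ∈ K := by rw [hK]; exact Subgroup.subset_closure (by simp)
    have hyK : y' ∈ K := by rw [hK]; exact Subgroup.subset_closure (by simp)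
    have hKcent : K ≤ Subgroup.centralizer ({x * x} : Set G) := by
      rw [hK, Subgroup.closure_le]
      intro g hg
      rw [SetLike.mem_coe, Subgroup.mem_centralizer_iff]
      intro h hh
      rw [Set.mem_singleton_iff] at hh; subst hh
      rcases hg with rfl | hg
      · exact hc1.eq
      · rw [Set.mem_singleton_iff] at hg; subst hg
        exact hc2
    have hN : (R.subgroupOf K).Normal := by
      constructor
      intro n hn g
      rw [Subgroup.mem_subgroupOf] at hn ⊢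
      obtain ⟨i, hi⟩ := Subgroup.mem_zpowers_iff.1 hn
      have hg := Subgroup.mem_centralizer_iff.1 (hKcent g.2) (x * x) rfl
      have h0 : (g : G) * (n : G) * (g : G)⁻¹ = (n : G) := by
        rw [← hi]
        have hcz : Commute (g : G) ((x * x) ^ i) := Commute.zpow_right (show Commute (g : G) (x * x) from hg.symm) i
        rw [hcz.eq]; group
      simp only [Subgroup.coe_mul, Subgroup.coe_inv]
      rw [h0]; exact hn
    haveI := hN
    set X : ↥K ⧸ R.subgroupOf K := QuotientGroup.mk ⟨x, hxK⟩ with hX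
    set ρ : ↥K ⧸ R.subgroupOf K := QuotientGroup.mk ⟨y', hyK⟩ with hρ
    have hXX : X * X = 1 := by
      rw [hX, ← QuotientGroup.mk_mul, QuotientGroup.eq_one_iff, Subgroup.mem_subgroupOf]
      exact Subgroup.mem_zpowers (x * x)
    have hconj : X * ρ * X⁻¹ = ρ⁻¹ := by
      rw [hX, hρ, ← QuotientGroup.mk_inv, ← QuotientGroup.mk_mul, ← QuotientGroup.mk_mul,
        ← QuotientGroup.mk_inv]
      congr 1
      exact Subtype.ext hxy'
    have hρp : ρ ^ p = 1 := by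
      rw [hρ, ← QuotientGroup.mk_pow]
      have : (⟨y', hyK⟩ : ↥K) ^ p = 1 := Subtype.ext hy'p
      rw [this]; rfl
    have hρ1 : ρ ≠ 1 := by
      intro h1
      rw [hρ, QuotientGroup.eq_one_iff, Subgroup.mem_subgroupOf] at h1
      obtain ⟨i, hi⟩ := Subgroup.mem_zpowers_iff.1 h1
      have hcz : Commute x ((x * x) ^ i) := Commute.zpow_right hc1.symm i
      have h2 : x * y' * x⁻¹ = y' := by
        have : (⟨y', hyK⟩ : ↥K).1 = y' := rfl
        rw [this] at hi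
        rw [← hi, hcz.eq]; group
      rw [hxy'] at h2
      exact hy'1 (eq_one_of_inv hpp hp (k := 1) (by rw [pow_one]; exact hy'p) h2)
    have hord : orderOf ρ = p := orderOf_eq_prime hρp hρ1
    have hnot : X ∉ Subgroup.zpowers ρ := by
      intro h1
      obtain ⟨i, hi⟩ := Subgroup.mem_zpowers_iff.1 h1
      have hcz : Commute X ρ := by
        rw [← hi]; exact (Commute.refl ρ).zpow_left i
      have h2 : ρ⁻¹ = ρ := by
        rw [← hconj, hcz.eq]; group
      exact hρ1 (eq_one_of_inv hpp hp (k := 1) (by rw [pow_one]; exact hρp) h2)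
    have hinj := dihHom_injective X ρ hXX hconj hnot
    subst hK
    have hsurj : (dihHom X ρ hXX hconj).range = ⊤ := by
      apply closure_map_top ({x, y'} : Set G) (QuotientGroup.mk' (R.subgroupOf (Subgroup.closure ({x, y'} : Set G))))
        (QuotientGroup.mk'_surjective _)
      intro g hg
      rcases hg with rfl | hg
      · refine ⟨DihedralGroup.sr 0, ?_⟩
        rw [dihHom_sr, zmodPow_zero, mul_one]; rfl
      · rw [Set.mem_singleton_iff] at hg; subst hg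
        refine ⟨DihedralGroup.r 1, ?_⟩
        rw [dihHom_r, zmodPow_one]; rfl
    have hE : Nonempty ((↥(Subgroup.closure ({x, y'} : Set G)) ⧸
        R.subgroupOf (Subgroup.closure ({x, y'} : Set G))) ≃* DihedralGroup (orderOf ρ)) :=
      ⟨(MulEquiv.ofBijective (dihHom X ρ hXX hconj)
        ⟨hinj, MonoidHom.range_eq_top.1 hsurj⟩).symm⟩
    rw [hord] at hE
    exact ⟨_, R, hN, hE⟩
  exact key _ rfl

end

/-- The rotation subgroup of a dihedral group. -/
def rot (p : ℕ) : Subgroup (DihedralGroup p) where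
  carrier := {d | ∃ i, d = DihedralGroup.r i}
  mul_mem' := by rintro _ _ ⟨i, rfl⟩ ⟨j, rfl⟩; exact ⟨i + j, rfl⟩
  one_mem' := ⟨0, rfl⟩
  inv_mem' := by rintro _ ⟨i, rfl⟩; exact ⟨-i, rfl⟩

theorem rot_normal (p : ℕ) : (rot p).Normal := by
  constructor
  rintro _ ⟨i, rfl⟩ g
  cases g with
  | r j =>
    refine ⟨i, ?_⟩
    show DihedralGroup.r (j + i + -j) = DihedralGroup.r i
    congr 1; ring
  | sr j =>
    refine ⟨-i, ?_⟩
    show DihedralGroup.r (j - (j + i)) = DihedralGroup.r (-i)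
    congr 1; ring

theorem exists_conj_mem_sylow {N : Type*} [Group N] [Finite N] {p : ℕ} [Fact p.Prime]
    (P : Sylow p N) (y : N) (a : ℕ) (hy : y ^ (p ^ a) = 1) :
    ∃ g : N, g * y * g⁻¹ ∈ (P : Subgroup N) := by
  have hz : IsPGroup p (Subgroup.zpowers y) := by
    obtain ⟨m, -, hm⟩ := (Nat.dvd_prime_pow Fact.out).1 (orderOf_dvd_of_pow_eq_one hy)
    exact IsPGroup.of_card (n := m) (by rw [Nat.card_zpowers, hm])
  obtain ⟨Q, hQ⟩ := hz.exists_le_sylow
  obtain ⟨g, hg⟩ := MulAction.exists_smul_eq N Q P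
  refine ⟨g, ?_⟩
  rw [← hg]
  have h1 : y ∈ (Q : Subgroup N) := hQ (Subgroup.mem_zpowers y)
  rw [Sylow.coe_subgroup_smul]
  exact ⟨y, h1, rfl⟩

set_option maxHeartbeats 1600000 in
theorem I_to_A {G : Type*} [Group G] [Finite G] {p : ℕ} [Fact p.Prime] (hp : p ≠ 2)
    (h : Cfsg.Involves (DihedralGroup p) G) :
    ∃ (x : G) (P : Subgroup G), (∃ k : ℕ, orderOf x = 2 ^ k) ∧ IsPGroup p ↥P ∧
      x ∈ Subgroup.normalizer (P : Set G) ∧ x ∉ Subgroup.centralizer (P : Set G) := by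
  classical
  have hpp : p.Prime := Fact.out
  obtain ⟨K, R, hN, ⟨e⟩⟩ := h
  haveI := hN
  obtain ⟨π, hπdef⟩ : ∃ π : ↥K →* DihedralGroup p,
      π = e.toMonoidHom.comp (QuotientGroup.mk' (R.subgroupOf K)) := ⟨_, rfl⟩
  have hπs : Function.Surjective π := by
    rw [hπdef]; exact e.surjective.comp (QuotientGroup.mk'_surjective _)
  obtain ⟨N, hNdef⟩ : ∃ N : Subgroup ↥K, N = (rot p).comap π := ⟨_, rfl⟩
  haveI : N.Normal := by rw [hNdef]; exact Subgroup.Normal.comap (rot_normal p) π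
  have hNmem : ∀ g : ↥K, g ∈ N ↔ ∃ i, π g = DihedralGroup.r i := by
    intro g; rw [hNdef]; exact Iff.rfl
  obtain ⟨P⟩ : Nonempty (Sylow p ↥N) := inferInstance
  set P' : Subgroup ↥K := (P : Subgroup ↥N).map N.subtype with hP'
  have hfr : Subgroup.normalizer (P' : Set ↥K) ⊔ N = ⊤ := Sylow.normalizer_sup_eq_top P
  obtain ⟨k0, hk0⟩ := hπs (DihedralGroup.sr 0)
  have hk0mem : k0 ∈ Subgroup.normalizer (P' : Set ↥K) ⊔ N := by rw [hfr]; exact Subgroup.mem_top _
  have hk0mem' : k0 ∈ ((Subgroup.normalizer (P' : Set ↥K) ⊔ N : Subgroup ↥K) : Set ↥K) := hk0mem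
  rw [Subgroup.mul_normal] at hk0mem'
  obtain ⟨a, ha, b, hb, hab⟩ := Set.mem_mul.1 hk0mem'
  obtain ⟨ib, hib⟩ := (hNmem b).1 hb
  have hπa : ∃ j, π a = DihedralGroup.sr j := by
    have h0 : π a = π k0 * (π b)⁻¹ := by rw [← hab, map_mul]; group
    rw [h0, hk0, hib]
    exact ⟨_, rfl⟩
  obtain ⟨j, hj⟩ := hπa
  obtain ⟨k, m, hm, hkm⟩ := Nat.exists_eq_two_pow_mul_odd (orderOf_pos a).ne'
  set x : ↥K := a ^ m with hx
  have hxo : ∃ k' : ℕ, orderOf x = 2 ^ k' := by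
    have h0 : x ^ (2 ^ k) = 1 := by
      rw [hx, ← pow_mul, mul_comm, ← hkm]; exact pow_orderOf_eq_one a
    obtain ⟨k', -, hk'⟩ := (Nat.dvd_prime_pow Nat.prime_two).1 (orderOf_dvd_of_pow_eq_one h0)
    exact ⟨k', hk'⟩
  have hπx : π x = DihedralGroup.sr j := by
    rw [hx, map_pow, hj]
    obtain ⟨t, rfl⟩ := hm
    rw [pow_succ, pow_mul, pow_two, DihedralGroup.sr_mul_self, one_pow, one_mul]
  have hxN : x ∈ Subgroup.normalizer (P' : Set ↥K) := Subgroup.pow_mem _ ha _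
  obtain ⟨n1, hn1⟩ := hπs (DihedralGroup.r 1)
  obtain ⟨ea, m', hm', hom'⟩ := Nat.exists_eq_pow_mul_and_not_dvd (orderOf_pos n1).ne' p hpp.ne_one
  have hn1N : n1 ∈ N := (hNmem n1).2 ⟨1, hn1⟩
  set y1 : ↥N := ⟨n1, hn1N⟩ ^ m' with hy1
  have hy1p : y1 ^ (p ^ ea) = 1 := by
    rw [hy1, ← pow_mul]
    apply Subtype.ext
    rw [Subgroup.coe_pow, Subgroup.coe_one]
    show n1 ^ (m' * p ^ ea) = 1
    rw [mul_comm, ← hom']; exact pow_orderOf_eq_one n1
  obtain ⟨g, hg⟩ := exists_conj_mem_sylow P y1 ea hy1p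
  set u : ↥K := ((g * y1 * g⁻¹ : ↥N) : ↥K) with hu
  have huP' : u ∈ P' := Subgroup.mem_map_of_mem N.subtype hg
  have hπu1 : π u ≠ 1 := by
    intro h1
    have h2 : π (y1 : ↥K) = 1 := by
      have h0 : π u = π (g : ↥K) * π (y1 : ↥K) * (π (g : ↥K))⁻¹ := by
        rw [hu, ← map_inv, ← map_mul, ← map_mul]; rfl
      rw [h0] at h1
      exact conj_eq_one_iff.1 h1
    have h3 : π (y1 : ↥K) = DihedralGroup.r (m' : ZMod p) := by
      have h0 : (y1 : ↥K) = n1 ^ m' := by rw [hy1]; rfl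
      rw [h0, map_pow, hn1, DihedralGroup.r_one_pow]
    rw [h3, DihedralGroup.one_def] at h2
    have h4 : (m' : ZMod p) = 0 := DihedralGroup.r.inj h2
    exact hm' ((ZMod.natCast_eq_zero_iff m' p).1 h4)
  have huN : u ∈ N := by rw [hu]; exact (g * y1 * g⁻¹).2
  obtain ⟨i, hi⟩ := (hNmem u).1 huN
  have hi0 : i ≠ 0 := by
    rintro rfl; exact hπu1 (by rw [hi]; rfl)
  have hxu : x * u * x⁻¹ ≠ u := by
    intro h1
    have h2 := congrArg π h1
    rw [map_mul, map_mul, map_inv, hπx, hi] at h2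
    have h3 : DihedralGroup.sr j * DihedralGroup.r i * (DihedralGroup.sr j)⁻¹ =
        DihedralGroup.r (j - (j + i)) := rfl
    rw [h3] at h2
    have h4 : j - (j + i) = i := DihedralGroup.r.inj h2
    have h5 : (2 : ZMod p) * i = 0 := by linear_combination -h4
    rcases mul_eq_zero.1 h5 with h6 | h6
    · have h7 : ((2 : ℕ) : ZMod p) = 0 := by exact_mod_cast h6
      rw [ZMod.natCast_eq_zero_iff] at h7
      exact hp ((Nat.prime_dvd_prime_iff_eq hpp Nat.prime_two).1 h7)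
    · exact hi0 h6
  refine ⟨(x : G), P'.map K.subtype, ?_, ?_, ?_, ?_⟩
  · obtain ⟨k', hk'⟩ := hxo
    exact ⟨k', by rw [Subgroup.orderOf_coe, hk']⟩
  · exact (P.2.map N.subtype).map K.subtype
  · have h0 : (Subgroup.normalizer (P' : Set ↥K)).map K.subtype ≤
        Subgroup.normalizer ((P'.map K.subtype : Subgroup G) : Set G) := by
      apply Cfsg.Agent.Lib.helper8.le_normalizer_of_conj_mem
      rintro _ ⟨a', ha', rfl⟩ _ ⟨h', hh', rfl⟩
      refine ⟨a' * h' * a'⁻¹, ?_, by simp⟩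
      exact (Subgroup.mem_normalizer_iff.1 ha' h').1 hh'
    exact h0 ⟨x, hxN, rfl⟩
  · intro hc
    rw [Subgroup.mem_centralizer_iff] at hc
    have h1 := hc (u : G) ⟨u, huP', rfl⟩
    apply hxu
    apply Subtype.ext
    simp only [Subgroup.coe_mul, Subgroup.coe_inv]
    rw [← h1]; group

theorem result {G : Type*} [Group G] [Finite G] {p : ℕ} [Fact p.Prime] (hp : p ≠ 2) : (Cfsg.Involves (DihedralGroup p) G ↔ ∃ (x : G) (P : Subgroup G), (∃ k : ℕ, orderOf x = 2 ^ k) ∧ IsPGroup p ↥P ∧ x ∈ Subgroup.normalizer (P : Set G) ∧ x ∉ Subgroup.centralizer (P : Set G)) ∧ (Cfsg.Involves (DihedralGroup p) G ↔ ∃ x y : G, (∃ k : ℕ, orderOf x = 2 ^ k) ∧ (∃ k : ℕ, orderOf y = p ^ k) ∧ y ≠ 1 ∧ x * y * x⁻¹ = y⁻¹) := by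
  have hAB : (∃ (x : G) (P : Subgroup G), (∃ k : ℕ, orderOf x = 2 ^ k) ∧ IsPGroup p ↥P ∧
      x ∈ Subgroup.normalizer (P : Set G) ∧ x ∉ Subgroup.centralizer (P : Set G)) →
      ∃ x y : G, (∃ k : ℕ, orderOf x = 2 ^ k) ∧ (∃ k : ℕ, orderOf y = p ^ k) ∧ y ≠ 1 ∧
        x * y * x⁻¹ = y⁻¹ := by
    rintro ⟨x, P, hx, hP, hxN, hxC⟩
    exact A_to_B x P hx hP hxN hxC
  have hBI : (∃ x y : G, (∃ k : ℕ, orderOf x = 2 ^ k) ∧ (∃ k : ℕ, orderOf y = p ^ k) ∧ y ≠ 1 ∧
        x * y * x⁻¹ = y⁻¹) → Cfsg.Involves (DihedralGroup p) G := by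
    rintro ⟨x, y, -, hy, hy1, hxy⟩
    exact B_to_I hp x y hy hy1 hxy
  refine ⟨⟨I_to_A hp, fun h => hBI (hAB h)⟩, ⟨fun h => hAB (I_to_A hp h), hBI⟩⟩

end Cfsg.Agent.S2758
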