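import Cfsg.Statements.S0221
import Mathlib
import Cfsg.Agent.S0111
import Cfsg.Agent.S2758
import Cfsg.Agent.S3761
import Cfsg.Agent.S0065
import Cfsg.Agent.Lib.helper1.SelfCent
import Cfsg.Agent.Lib.helper1.NormAb
-- import your own Cfsg.Agent.* helpers here

set_option autoImplicit false
open Cfsg

namespace Cfsg.Agent.S0221

theorem mem_zp2 {G : Type*} [Group G] (a z : G) (ha : a ^ 2 = 1) (hz : z ∈ Subgroup.zpowers a) :
    z = 1 ∨ z = a := by
  obtain ⟨k, rfl⟩ := Subgroup.mem_zpowers_iff.mp hz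
  rcases Int.emod_two_eq_zero_or_one k with h | h
  · left
    have : k = 2 * (k / 2) := by omega
    rw [this, zpow_mul, zpow_ofNat, ha, one_zpow]
  · right
    have : k = 2 * (k / 2) + 1 := by omega
    rw [this, zpow_add, zpow_mul, zpow_ofNat, ha, one_zpow, one_mul, zpow_one]

theorem comm_of_sq {G : Type*} [Group G] (E : Subgroup G) (h : ∀ e ∈ E, e ^ 2 = 1) :
    ∀ a ∈ E, ∀ b ∈ E, a * b = b * a := by
  intro a ha b hb
  have h1 := h a ha
  have h2 := h b hb
  have h3 := h (a * b) (E.mul_mem ha hb)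
  rw [pow_two] at h1 h2 h3
  have ha' : a⁻¹ = a := by rw [inv_eq_iff_mul_eq_one]; exact h1
  have hb' : b⁻¹ = b := by rw [inv_eq_iff_mul_eq_one]; exact h2
  calc a * b = (a * b)⁻¹ := by rw [eq_comm, inv_eq_iff_mul_eq_one]; exact h3
    _ = b⁻¹ * a⁻¹ := mul_inv_rev a b
    _ = b * a := by rw [ha', hb']

theorem cent_index {P : Type*} [Group P] [Finite P] (hP : IsPGroup 2 P) (U : Subgroup P)
    [hUn : U.Normal] (hU4 : Nat.card U = 4) (hU2 : ∀ u ∈ U, u ^ 2 = 1) :
    Subgroup.centralizer (U : Set P) = ⊤ ∨ (Subgroup.centralizer (U : Set P)).index = 2 := by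
  haveI : Fact (Nat.Prime 2) := ⟨Nat.prime_two⟩
  haveI : Group.IsNilpotent P := hP.isNilpotent
  have hUne : U ≠ ⊥ := by
    intro h; rw [h, Subgroup.card_bot] at hU4; omega
  have hne := Cfsg.Agent.S0065.normal_inf_center_ne_bot U hUne
  obtain ⟨a, haUZ, ha1⟩ : ∃ a ∈ U ⊓ Subgroup.center P, a ≠ 1 := by
    by_contra hcon; push_neg at hcon
    exact hne ((Subgroup.eq_bot_iff_forall _).mpr hcon)
  obtain ⟨haU, haZ⟩ := Subgroup.mem_inf.mp haUZ
  have haZ' : ∀ g : P, g * a = a * g := fun g => Subgroup.mem_center_iff.mp haZ g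
  have ha2 : a ^ 2 = 1 := hU2 a haU
  have hoa : orderOf a = 2 := orderOf_eq_prime ha2 ha1
  have hZaU : Subgroup.zpowers a ≤ U := by rw [Subgroup.zpowers_le]; exact haU
  obtain ⟨b, hbU, hbZ⟩ : ∃ b ∈ U, b ∉ Subgroup.zpowers a := by
    by_contra hcon; push_neg at hcon
    have hle : U ≤ Subgroup.zpowers a := hcon
    have := Subgroup.card_le_of_le hle
    rw [Nat.card_zpowers, hoa, hU4] at this; omega
  have hrel : (Subgroup.zpowers a).relIndex U = 2 := by
    have h1 := Subgroup.relIndex_mul_relIndex ⊥ (Subgroup.zpowers a) U bot_le hZaU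
    rw [Subgroup.relIndex_bot_left, Subgroup.relIndex_bot_left, Nat.card_zpowers, hoa, hU4] at h1
    omega
  obtain ⟨c, hcU, hc⟩ := Subgroup.relIndex_eq_two_iff.mp hrel
  have hbc : b * c ∈ Subgroup.zpowers a := by
    rcases hc b hbU with ⟨h, -⟩ | ⟨h, -⟩
    · exact h
    · exact absurd h hbZ
  have hub : ∀ u ∈ U, u ∉ Subgroup.zpowers a → u * b⁻¹ ∈ Subgroup.zpowers a := by
    intro u hu huZ
    have huc : u * c ∈ Subgroup.zpowers a := by
      rcases hc u hu with ⟨h, -⟩ | ⟨h, -⟩
      · exact h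
      · exact absurd h huZ
    have := Subgroup.mul_mem _ huc (Subgroup.inv_mem _ hbc)
    have e : u * c * (b * c)⁻¹ = u * b⁻¹ := by group
    rwa [e] at this
  have hconj : ∀ s : P, s * b * s⁻¹ = b ∨ s * b * s⁻¹ = a * b := by
    intro s
    have h1 : s * b * s⁻¹ ∈ U := hUn.conj_mem b hbU s
    have h2 : s * b * s⁻¹ ∉ Subgroup.zpowers a := by
      intro h
      rcases mem_zp2 a _ ha2 h with h | h
      · apply hbZ
        have : b = 1 := by
          have e : b = s⁻¹ * (s * b * s⁻¹) * s := by group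
          rw [e, h]; group
        rw [this]; exact Subgroup.one_mem _
      · apply hbZ
        have : b = a := by
          have e : b = s⁻¹ * (s * b * s⁻¹) * s := by group
          rw [e, h, mul_assoc, ← haZ' s, ← mul_assoc, inv_mul_cancel, one_mul]
        rw [this]; exact Subgroup.mem_zpowers a
    rcases mem_zp2 a _ ha2 (hub _ h1 h2) with h | h
    · left; rw [mul_inv_eq_one] at h; exact h
    · right; rw [mul_inv_eq_iff_eq_mul] at h; exact h
  have hcent : ∀ s : P, s ∈ Subgroup.centralizer (U : Set P) ↔ s * b * s⁻¹ = b := by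
    intro s
    rw [Subgroup.mem_centralizer_iff]
    constructor
    · intro h
      have := h b hbU
      rw [← this]; group
    · intro h u hu
      have hsb : b * s = s * b := by rw [mul_inv_eq_iff_eq_mul] at h; exact h.symm
      by_cases huZ : u ∈ Subgroup.zpowers a
      · rcases mem_zp2 a u ha2 huZ with rfl | rfl
        · simp
        · exact (haZ' s).symm
      · rcases mem_zp2 a _ ha2 (hub u hu huZ) with h' | h'
        · rw [mul_inv_eq_one] at h'; rw [h']; exact hsb
        · rw [mul_inv_eq_iff_eq_mul] at h'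
          rw [h', mul_assoc, hsb, ← mul_assoc, ← haZ' s, mul_assoc]
  by_cases htop : Subgroup.centralizer (U : Set P) = ⊤
  · left; exact htop
  · right
    obtain ⟨s0, hs0⟩ : ∃ s0 : P, s0 ∉ Subgroup.centralizer (U : Set P) := by
      by_contra hcon; push_neg at hcon
      exact htop ((Subgroup.eq_top_iff' _).mpr hcon)
    rw [Subgroup.index_eq_two_iff]
    refine ⟨s0, fun t => ?_⟩
    have hs0b : s0 * b * s0⁻¹ = a * b := by
      rcases hconj s0 with h | h
      · exact absurd ((hcent s0).mpr h) hs0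
      · exact h
    by_cases ht : t ∈ Subgroup.centralizer (U : Set P)
    · right
      refine ⟨ht, fun h => hs0 ?_⟩
      have := Subgroup.mul_mem _ (Subgroup.inv_mem _ ht) h
      rwa [inv_mul_cancel_left] at this
    · left
      refine ⟨?_, ht⟩
      have htb : t * b * t⁻¹ = a * b := by
        rcases hconj t with h | h
        · exact absurd ((hcent t).mpr h) ht
        · exact h
      rw [hcent]
      have e1 : t * s0 * b * (t * s0)⁻¹ = t * (s0 * b * s0⁻¹) * t⁻¹ := by group
      rw [e1, hs0b]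
      have e2 : t * (a * b) * t⁻¹ = a * (t * b * t⁻¹) := by
        rw [← mul_assoc, haZ' t]; group
      rw [e2, htb, ← mul_assoc, ← pow_two, ha2, one_mul]

theorem four_normal {P : Type*} [Group P] [Finite P] (hP : IsPGroup 2 P)
    (E : Subgroup P) (hE8 : Nat.card E = 8) (hE2 : ∀ e ∈ E, e ^ 2 = 1) :
    ∃ U : Subgroup P, U.Normal ∧ Nat.card U = 4 ∧ ∀ u ∈ U, u ^ 2 = 1 := by
  classical
  haveI : Fact (Nat.Prime 2) := ⟨Nat.prime_two⟩
  obtain ⟨A, hAn, hAab, hCA⟩ := Cfsg.Agent.Lib.helper1.exists_self_centralizing_normal hP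
  by_cases hAc : IsCyclic A
  · have hEA : Nat.card (A ⊓ E : Subgroup P) ≤ 2 := by
      haveI := Fintype.ofFinite A
      have h1 := IsCyclic.card_pow_eq_one_le (α := A) (n := 2) (by norm_num)
      have h2 : Nat.card (A ⊓ E : Subgroup P) ≤ Nat.card {a : A // a ^ 2 = 1} := by
        apply Nat.card_le_card_of_injective (fun y : (A ⊓ E : Subgroup P) =>
          (⟨⟨y.1, y.2.1⟩, by apply Subtype.ext; simpa using hE2 y.1 y.2.2⟩ : {a : A // a ^ 2 = 1}))
        intro y z hyz
        apply Subtype.ext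
        have := congrArg (fun w : {a : A // a ^ 2 = 1} => ((w.1 : A) : P)) hyz
        simpa using this
      have h3 : Nat.card {a : A // a ^ 2 = 1} = (Finset.univ.filter (fun a : A => a ^ 2 = 1)).card := by
        rw [Nat.card_eq_fintype_card, Fintype.card_subtype]
      omega
    have hcardE : Nat.card (A ⊓ E : Subgroup P) * A.relIndex E = 8 := by
      have h1 := Subgroup.relIndex_mul_relIndex ⊥ (A ⊓ E) E bot_le inf_le_right
      rw [Subgroup.relIndex_bot_left, Subgroup.relIndex_bot_left, Subgroup.inf_relIndex_right, hE8] at h1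
      exact h1
    by_cases hcomm : IsMulCommutative P
    · exfalso
      have hA : A = ⊤ := by
        rw [← hCA, Subgroup.eq_top_iff']; intro g
        rw [Subgroup.mem_centralizer_iff]; intro h _; exact hcomm.is_comm.comm h g
      have : A.relIndex E = 1 := by rw [Subgroup.relIndex_eq_one, hA]; exact le_top
      rw [this] at hcardE; omega
    · haveI := hAn
      obtain ⟨n, hn⟩ := IsPGroup.iff_card.mp (hP.to_subgroup A)
      rcases Cfsg.Agent.S3761.result hP hcomm A hAc n hn hCA with ⟨-, hcard, -⟩ | ⟨-, hea, hc4, hchar⟩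
      · exfalso
        have hidx : A.index = 2 := by
          have := A.card_mul_index
          rw [hn, hcard, pow_succ] at this
          exact Nat.eq_of_mul_eq_mul_left (by positivity) this
        have h1 : A.relIndex E ∣ 2 := by rw [← hidx]; exact Subgroup.relIndex_dvd_index_of_normal A E
        have h2 : A.relIndex E ≤ 2 := Nat.le_of_dvd (by norm_num) h1
        nlinarith
      · haveI := hchar
        exact ⟨_, inferInstance, by rw [hc4]; norm_num, hea.2⟩
  · obtain ⟨U, -, hUn, -, hU2, hU4⟩ :=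
      Cfsg.Agent.Lib.helper1.exists_normal_ea_sq_of_abelian hP A hAn hAab hAc
    exact ⟨U, hUn, by rw [hU4]; norm_num, hU2⟩

/-- Let G be a finite group with no subgroup of index 2 whose 2-rank is at least 3 (it contains an elementary abelian subgroup of order 8). Then the centralizer of every involution of G also contains an elementary abelian subgroup of order 8. -/
theorem result {G : Type*} [Group G] [Finite G] (hno : ∀ H : Subgroup G, H.index ≠ 2) (hrank : ∃ E : Subgroup G, Nat.card E = 8 ∧ ∀ e ∈ E, e ^ 2 = 1) (x : G) (hx : orderOf x = 2) : ∃ E : Subgroup G, E ≤ Subgroup.centralizer ({x} : Set G) ∧ Nat.card E = 8 ∧ ∀ e ∈ E, e ^ 2 = 1 := by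
  classical
  haveI : Fact (Nat.Prime 2) := ⟨Nat.prime_two⟩
  obtain ⟨E, hE8, hE2⟩ := hrank
  have hEp : IsPGroup 2 E := IsPGroup.of_card (n := 3) (by rw [hE8]; norm_num)
  obtain ⟨S, hES⟩ := hEp.exists_le_sylow
  obtain ⟨g, hg⟩ := Cfsg.Agent.S2758.exists_conj_mem_sylow S x 1
    (by rw [pow_one, ← hx]; exact pow_orderOf_eq_one x)
  have hconjord : ∀ k : G, orderOf (k * x * k⁻¹) = 2 := by
    intro k
    have := (MulAut.conj k).orderOf_eq x
    rw [MulAut.conj_apply] at this
    rw [this, hx]
  have hox' : orderOf (g * x * g⁻¹) = 2 := hconjord g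
  have hSP : IsPGroup 2 (S : Subgroup G) := S.isPGroup'
  have hE8' : Nat.card (E.subgroupOf (S : Subgroup G)) = 8 := by
    rw [Nat.card_congr (Subgroup.subgroupOfEquivOfLe hES).toEquiv, hE8]
  obtain ⟨U0, hU0n, hU04, hU02⟩ := four_normal hSP (E.subgroupOf (S : Subgroup G)) hE8' (by
    intro e he
    apply Subtype.ext
    simpa using hE2 e.1 (Subgroup.mem_subgroupOf.mp he))
  haveI := hU0n
  set Q0 : Subgroup (S : Subgroup G) := Subgroup.centralizer (U0 : Set (S : Subgroup G)) with hQ0
  set Q : Subgroup G := Q0.map (S : Subgroup G).subtype with hQ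
  have hQS : Q ≤ (S : Subgroup G) := Subgroup.map_subtype_le _
  have hQ0' : Q.subgroupOf (S : Subgroup G) = Q0 :=
    Subgroup.comap_map_eq_self_of_injective (Subgroup.subtype_injective _) Q0
  have hidx : Q0 = ⊤ ∨ Q0.index = 2 := cent_index hSP U0 hU04 hU02
  set U : Subgroup G := U0.map (S : Subgroup G).subtype with hU
  have hU4 : Nat.card U = 4 := by
    rw [hU, Subgroup.card_map_of_injective (Subgroup.subtype_injective _), hU04]
  have hU2 : ∀ u ∈ U, u ^ 2 = 1 := by
    rintro u ⟨u0, hu0, rfl⟩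
    have := hU02 u0 hu0
    simpa using congrArg Subtype.val this
  have hQU : ∀ q ∈ Q, ∀ u ∈ U, u * q = q * u := by
    rintro q ⟨q0, hq0, rfl⟩ u ⟨u0, hu0, rfl⟩
    have := Subgroup.mem_centralizer_iff.mp hq0 u0 hu0
    simpa using congrArg Subtype.val this
  have hrelS : Q.relIndex (S : Subgroup G) = 1 ∨ Q.relIndex (S : Subgroup G) = 2 := by
    rcases hidx with h | h
    · left
      rw [Subgroup.relIndex_eq_one]
      intro s hs; rw [hQ, h]; exact ⟨⟨s, hs⟩, Subgroup.mem_top _, rfl⟩
    · right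
      show (Q.subgroupOf (S : Subgroup G)).index = 2
      rw [hQ0']; exact h
  obtain ⟨y, h, hy, hyQ⟩ : ∃ y h, y = h * x * h⁻¹ ∧ y ∈ Q := by
    by_cases hx'Q : g * x * g⁻¹ ∈ Q
    · exact ⟨g * x * g⁻¹, g, rfl, hx'Q⟩
    · have hQi : Q.relIndex (S : Subgroup G) = 2 := by
        rcases hrelS with h | h
        · exfalso; apply hx'Q
          rw [Subgroup.relIndex_eq_one] at h
          exact h hg
        · exact h
      rcases Cfsg.Agent.S0111.result S Q hQS hQi (g * x * g⁻¹) hox' hg hx'Q with ⟨M, -, hM, -⟩ | ⟨k, hk⟩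
      · exact absurd hM (hno M)
      · exact ⟨k * (g * x * g⁻¹) * k⁻¹, k * g, by group, hk⟩
  have hoy : orderOf y = 2 := by rw [hy]; exact hconjord h
  have hy2 : y ^ 2 = 1 := by rw [← hoy]; exact pow_orderOf_eq_one y
  obtain ⟨e, he2, heU, heC, hye⟩ : ∃ e : G, e ^ 2 = 1 ∧ e ∉ U ∧ (∀ u ∈ U, u * e = e * u) ∧
      (y ∈ U ∨ y = e) := by
    by_cases hyU : y ∈ U
    · by_contra hcon
      push_neg at hcon
      have hEQU : E ⊓ Q ≤ U := by
        intro e he
        obtain ⟨heE, heQ⟩ := Subgroup.mem_inf.mp he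
        by_contra heU
        exact (hcon e (hE2 e heE) heU (fun u hu => hQU e heQ u hu)).1 hyU
      have hrel : Q.relIndex E ≤ 2 := by
        have h1 : Q.relIndex (S : Subgroup G) ≤ 2 := by rcases hrelS with h | h <;> omega
        have h2 : Q.relIndex (S : Subgroup G) ≠ 0 := by rcases hrelS with h | h <;> omega
        exact le_trans (Subgroup.relIndex_le_of_le_right hES h2) h1
      have hcardE : Nat.card (E ⊓ Q : Subgroup G) * Q.relIndex E = 8 := by
        have h1 := Subgroup.relIndex_mul_relIndex ⊥ (E ⊓ Q) E bot_le inf_le_left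
        rw [Subgroup.relIndex_bot_left, Subgroup.relIndex_bot_left, Subgroup.inf_relIndex_left, hE8] at h1
        exact h1
      have h4 : 4 ≤ Nat.card (E ⊓ Q : Subgroup G) := by nlinarith
      have hEQ : E ⊓ Q = U := Subgroup.eq_of_le_of_card_ge hEQU (by rw [hU4]; exact h4)
      have hUE : U ≤ E := by rw [← hEQ]; exact inf_le_left
      have hEcomm := comm_of_sq E hE2
      have hEU : E ≤ U := by
        intro e heE
        by_contra heU
        exact (hcon e (hE2 e heE) heU (fun u hu => hEcomm u (hUE hu) e heE)).1 hyU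
      have := Subgroup.card_le_of_le hEU
      rw [hE8, hU4] at this; omega
    · exact ⟨y, hy2, hyU, fun u hu => hQU y hyQ u hu, Or.inr rfl⟩
  let A : Subgroup G :=
    { carrier := {a | a ∈ U ∨ a * e ∈ U}
      one_mem' := Or.inl U.one_mem
      mul_mem' := by
        rintro a b (ha | ha) (hb | hb)
        · exact Or.inl (U.mul_mem ha hb)
        · right
          show a * b * e ∈ U
          rw [mul_assoc]; exact U.mul_mem ha hb
        · right
          have : a * b * e = a * e * b := by rw [mul_assoc, heC b hb, ← mul_assoc]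
          show a * b * e ∈ U
          rw [this]; exact U.mul_mem ha hb
        · left
          have : a * b = a * e * (b * e) := by
            rw [mul_assoc a e, ← heC (b * e) hb, mul_assoc b e e, ← pow_two, he2, mul_one]
          show a * b ∈ U
          rw [this]; exact U.mul_mem ha hb
      inv_mem' := by
        rintro a (ha | ha)
        · exact Or.inl (U.inv_mem ha)
        · right
          have : a⁻¹ * e = (a * e)⁻¹ := by
            have h1 := heC (a * e)⁻¹ (U.inv_mem ha)
            have h2 : e * (a * e)⁻¹ = a⁻¹ := by group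
            rw [h2] at h1
            rw [← h1, mul_assoc, ← pow_two, he2, mul_one]
          show a⁻¹ * e ∈ U
          rw [this]; exact U.inv_mem ha }
  have hUA : U ≤ A := fun u hu => Or.inl hu
  have heA : e ∈ A := Or.inr (by rw [← pow_two, he2]; exact U.one_mem)
  have hA2 : ∀ a ∈ A, a ^ 2 = 1 := by
    rintro a (ha | ha)
    · exact hU2 a ha
    · have h1 := hU2 (a * e) ha
      have h2 := heC (a * e) ha
      have h3 : a * e * e = a := by rw [mul_assoc, ← pow_two, he2, mul_one]
      rw [h3] at h2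
      calc a ^ 2 = a * a := pow_two a
        _ = a * (e * (a * e)) := by rw [← h2]
        _ = (a * e) ^ 2 := by rw [pow_two]; group
        _ = 1 := h1
  have hyA : y ∈ A := by
    rcases hye with h | h
    · exact hUA h
    · rw [h]; exact heA
  have hAcomm := comm_of_sq A hA2
  have hAp : IsPGroup 2 A := by
    intro a
    refine ⟨1, ?_⟩
    apply Subtype.ext
    simpa using hA2 a.1 a.2
  obtain ⟨n, hn⟩ := IsPGroup.iff_card.mp hAp
  have hn3 : 3 ≤ n := by
    have hd : 4 ∣ 2 ^ n := by rw [← hn, ← hU4]; exact Subgroup.card_dvd_of_le hUA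
    have hne : Nat.card A ≠ 4 := by
      intro h4
      have := Subgroup.eq_of_le_of_card_ge hUA (by rw [h4, hU4])
      exact heU (this ▸ heA)
    rw [hn] at hne
    by_contra hlt
    push_neg at hlt
    interval_cases n <;> omega
  obtain ⟨K, hK⟩ := Sylow.exists_subgroup_card_pow_prime 2 (G := A) (n := 3)
    (by rw [hn]; exact pow_dvd_pow 2 hn3)
  refine ⟨(K.map A.subtype).map (MulAut.conj h⁻¹).toMonoidHom, ?_, ?_, ?_⟩
  · rintro _ ⟨_, ⟨k, hk, rfl⟩, rfl⟩
    rw [Subgroup.mem_centralizer_iff]
    intro z hz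
    rw [Set.mem_singleton_iff.mp hz]
    have hk' : y * (k : G) = (k : G) * y := hAcomm y hyA k k.2
    simp only [MulEquiv.coe_toMonoidHom, MulAut.conj_apply, Subgroup.coe_subtype, inv_inv]
    rw [hy] at hk'
    have e1 : x * (h⁻¹ * (k : G) * h) = h⁻¹ * (h * x * h⁻¹ * (k : G)) * h := by group
    rw [e1, hk']; group
  · rw [Subgroup.card_map_of_injective (MulAut.conj h⁻¹).injective,
      Subgroup.card_map_of_injective (Subgroup.subtype_injective _), hK]; norm_num
  · rintro _ ⟨_, ⟨k, hk, rfl⟩, rfl⟩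
    rw [← map_pow, ← map_pow]
    have : k ^ 2 = 1 := by apply Subtype.ext; simpa using hA2 k.1 k.2
    rw [this, map_one, map_one]

end Cfsg.Agent.S0221
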