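import Cfsg.Statements.S0226
import Cfsg.Agent.Lib.helper2.Invol

set_option autoImplicit false
open Cfsg

open Cfsg.Agent.Lib.helper2

namespace Cfsg.Agent.S0226

/-- A finite group of even order has an odd number of involutions. -/
theorem result {G : Type*} [Group G] [Finite G] (heven : Even (Nat.card G)) : Odd (Nat.card {t : G // orderOf t = 2}) := by
  classical
  have := Fintype.ofFinite G
  let f : Function.End G := fun g => g⁻¹
  have hf : f ^ 2 ^ 1 = 1 := by
    rw [pow_one, pow_two]
    funext g
    show (g⁻¹)⁻¹ = g
    simp
  have h1 := Equiv.Perm.card_fixedPoints_modEq (p := 2) (n := 1) hf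
  have h2 : Function.fixedPoints f = insert 1 {t : G | orderOf t = 2} := by
    ext g
    show g⁻¹ = g ↔ g = 1 ∨ orderOf g = 2
    constructor
    · intro h
      by_cases h1 : g = 1
      · exact Or.inl h1
      · right
        apply Invol.order_two_of _ h1
        have := mul_inv_cancel g
        rwa [h] at this
    · rintro (h | h)
      · rw [h]; simp
      · exact Invol.inv_of_order_two h
  have h3 : ({t : G | orderOf t = 2}).ncard + 1 = (Function.fixedPoints f).ncard := by
    rw [h2, Set.ncard_insert_of_notMem]
    intro h
    have h' : orderOf (1 : G) = 2 := h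
    simp at h'
  have h4 : Nat.card {t : G // orderOf t = 2} = ({t : G | orderOf t = 2}).ncard :=
    Nat.card_coe_set_eq {t : G | orderOf t = 2}
  have h5 : Fintype.card (Function.fixedPoints f) = (Function.fixedPoints f).ncard := by
    rw [← Nat.card_eq_fintype_card]
    exact Nat.card_coe_set_eq _
  rw [h5, ← h3, ← h4, ← Nat.card_eq_fintype_card] at h1
  have h6 : Even (Nat.card {t : G // orderOf t = 2} + 1) := by
    rw [Nat.even_iff] at heven ⊢
    have := h1
    unfold Nat.ModEq at this
    omega
  rcases Nat.even_or_odd (Nat.card {t : G // orderOf t = 2}) with h | h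
  · exfalso
    have : Odd (Nat.card {t : G // orderOf t = 2} + 1) := h.add_one
    exact (Nat.not_even_iff_odd.2 this) h6
  · exact h

end Cfsg.Agent.S0226
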