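import Cfsg.Statements.S0231
import Cfsg.Agent.Lib.helper2.TI

set_option autoImplicit false
open scoped Pointwise
open Cfsg

open Cfsg.Agent.Lib.helper2

namespace Cfsg.Agent.S0231

/-- Let T be a Sylow 2-subgroup of the finite group G which is not normal and which intersects every other Sylow 2-subgroup trivially. Then G has a single conjugacy class of involutions. -/
theorem result {G : Type*} [Group G] [Finite G] (T : Sylow 2 G) (hnn : ¬ (T : Subgroup G).Normal) (hTI : ∀ g : G, MulAut.conj g • (T : Subgroup G) ≠ T → MulAut.conj g • (T : Subgroup G) ⊓ T = ⊥) (s t : G) (hs : orderOf s = 2) (ht : orderOf t = 2) : IsConj s t := by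
  exact TI.single_class T hTI hnn s t hs ht

end Cfsg.Agent.S0231
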