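import Cfsg.Statements.S0239
import Cfsg.Agent.Lib.helper2.Count

set_option autoImplicit false
open Cfsg

open Cfsg.Agent.Lib.helper2

namespace Cfsg.Agent.S0239

/-- If some nontrivial element x of a finite group G is conjugate to x⁻¹, then |G| is even. -/
theorem result {G : Type*} [Group G] [Finite G] (x : G) (hx : x ≠ 1) (hreal : IsConj x x⁻¹) : Even (Nat.card G) := by
  obtain ⟨c, hc⟩ := isConj_iff.1 hreal
  by_cases h2 : x * x = 1
  · have h3 : orderOf x = 2 := Invol.order_two_of h2 hx
    have := orderOf_dvd_natCard x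
    rw [h3] at this
    exact even_iff_two_dvd.2 this
  · by_contra hodd
    rw [Nat.not_even_iff_odd] at hodd
    have hco : Odd (orderOf c) := Odd.of_dvd_nat hodd (orderOf_dvd_natCard c)
    obtain ⟨k, hk⟩ := hco
    have hcc : c * c ∈ Subgroup.centralizer ({x} : Set G) := by
      rw [Subgroup.mem_centralizer_singleton_iff]
      have h1 : c * x = x⁻¹ * c := mul_inv_eq_iff_eq_mul.1 hc
      have h3 : c * x⁻¹ = x * c := by
        have : c * x⁻¹ * c⁻¹ = x := by
          have h := congrArg Inv.inv hc
          simpa [mul_assoc] using h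
        exact mul_inv_eq_iff_eq_mul.1 this
      calc c * c * x = c * (c * x) := by group
        _ = c * (x⁻¹ * c) := by rw [h1]
        _ = (c * x⁻¹) * c := by group
        _ = x * c * c := by rw [h3]
        _ = x * (c * c) := by group
    have hc1 : c = (c * c) ^ (k + 1) := by
      have : (c * c) ^ (k + 1) = c ^ (2 * k + 1) * c := by
        rw [← pow_two, ← pow_mul, ← pow_succ]; congr 1
      rw [this, ← hk, pow_orderOf_eq_one, one_mul]
    have hc2 : c ∈ Subgroup.centralizer ({x} : Set G) := by
      rw [hc1]; exact Subgroup.pow_mem _ hcc _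
    rw [Subgroup.mem_centralizer_singleton_iff] at hc2
    apply h2
    have : x = x⁻¹ := by
      rw [← hc, hc2, mul_inv_cancel_right]
    calc x * x = x * x⁻¹ := by rw [← this]
      _ = 1 := mul_inv_cancel x

end Cfsg.Agent.S0239
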