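import Cfsg.Statements.S0240
import Cfsg.Agent.Lib.helper2.Count

set_option autoImplicit false
open Cfsg

open Cfsg.Agent.Lib.helper2

namespace Cfsg.Agent.S0240

/-- Let G be a finite group with n involutions and H a subgroup with |H|·(n+1) > |G|. Then some nontrivial h ∈ H is strongly real in G: an involution t of G satisfies t h t⁻¹ = h⁻¹. -/
theorem result {G : Type*} [Group G] [Finite G] (H : Subgroup G) (hH : Nat.card G < Nat.card H * (Nat.card {t : G // orderOf t = 2} + 1)) : ∃ h : G, h ∈ H ∧ h ≠ 1 ∧ ∃ t : G, orderOf t = 2 ∧ t * h * t⁻¹ = h⁻¹ := by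
  have hidx : H.index < Nat.card {t : G // orderOf t = 2} + 1 := by
    rw [← Subgroup.card_mul_index H] at hH
    exact Nat.lt_of_mul_lt_mul_left hH
  have hcard : Nat.card {g : G // g = 1 ∨ orderOf g = 2} = Nat.card {t : G // orderOf t = 2} + 1 := by
    rw [← Count.card_subtype_ne_add_one (fun g : G => g = 1 ∨ orderOf g = 2) 1 (Or.inl rfl)]
    congr 1
    apply Nat.card_congr
    refine ⟨fun g => ⟨g.1, ?_⟩, fun t => ⟨t.1, Or.inr t.2, Invol.ne_one_of_order_two t.2⟩,
      fun g => rfl, fun t => rfl⟩
    rcases g.2.1 with h | h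
    · exact absurd h g.2.2
    · exact h
  have hnot : ¬ Function.Injective
      (fun g : {g : G // g = 1 ∨ orderOf g = 2} => (QuotientGroup.mk g.1 : G ⧸ H)) := by
    intro hinj
    have := Nat.card_le_card_of_injective _ hinj
    rw [hcard, ← Subgroup.index_eq_card] at this
    omega
  rw [Function.Injective] at hnot
  push Not at hnot
  obtain ⟨⟨a, ha⟩, ⟨b, hb⟩, hab, hne⟩ := hnot
  have hab' : a⁻¹ * b ∈ H := QuotientGroup.eq.1 hab
  have hne' : a ≠ b := fun h => hne (Subtype.ext h)
  refine ⟨a⁻¹ * b, hab', ?_, ?_⟩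
  · intro h
    apply hne'
    have := eq_inv_of_mul_eq_one_right h
    rw [inv_inv] at this
    exact this.symm
  · rcases ha with ha | ha
    · subst ha
      rcases hb with hb | hb
      · exact absurd hb.symm hne'
      · refine ⟨b, hb, ?_⟩
        rw [inv_one, one_mul, mul_inv_cancel_right, Invol.inv_of_order_two hb]
    · refine ⟨a, ha, ?_⟩
      rcases hb with hb | hb
      · subst hb
        rw [mul_one, mul_inv_cancel, one_mul, inv_inv, Invol.inv_of_order_two ha]
      · rw [Invol.inv_of_order_two ha, mul_inv_rev, Invol.inv_of_order_two hb,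
          Invol.inv_of_order_two ha, ← mul_assoc a a b, Invol.sq_of_order_two ha, one_mul]

end Cfsg.Agent.S0240
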