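import Cfsg.Statements.S0241
import Cfsg.Agent.Lib.helper2.Count

set_option autoImplicit false
open Cfsg

open Cfsg.Agent.Lib.helper2

namespace Cfsg.Agent.S0241

/-- If x ≠ 1 is conjugate to x⁻¹ in a finite group G and |C_G(x)| is odd, then some involution t satisfies t x t⁻¹ = x⁻¹. -/
theorem result {G : Type*} [Group G] [Finite G] (x : G) (hx : x ≠ 1) (hreal : IsConj x x⁻¹) (hodd : Odd (Nat.card (Subgroup.centralizer ({x} : Set G)))) : ∃ t : G, orderOf t = 2 ∧ t * x * t⁻¹ = x⁻¹ := by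
  obtain ⟨c, hc⟩ := isConj_iff.1 hreal
  have h1 : c * x = x⁻¹ * c := mul_inv_eq_iff_eq_mul.1 hc
  have h3 : c * x⁻¹ = x * c := by
    have : c * x⁻¹ * c⁻¹ = x := by
      have h := congrArg Inv.inv hc
      simpa [mul_assoc] using h
    exact mul_inv_eq_iff_eq_mul.1 this
  have hcc : c * c ∈ Subgroup.centralizer ({x} : Set G) := by
    rw [Subgroup.mem_centralizer_singleton_iff]
    calc c * c * x = c * (c * x) := by group
      _ = c * (x⁻¹ * c) := by rw [h1]
      _ = (c * x⁻¹) * c := by group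
      _ = x * c * c := by rw [h3]
      _ = x * (c * c) := by group
  have hko : Odd (orderOf (c * c)) :=
    Odd.of_dvd_nat hodd (Subgroup.orderOf_dvd_natCard _ hcc)
  obtain ⟨i, hi⟩ := hko
  have hci : (c * c) ^ i ∈ Subgroup.centralizer ({x} : Set G) := Subgroup.pow_mem _ hcc _
  rw [Subgroup.mem_centralizer_singleton_iff] at hci
  have ht1 : ((c * c) ^ i * c) * ((c * c) ^ i * c) = 1 := by
    have e : ((c * c) ^ i * c) * ((c * c) ^ i * c) = (c * c) ^ (2 * i + 1) := by
      have hcomm : Commute ((c * c) ^ i) c := by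
        apply Commute.pow_left
        exact (Commute.refl c).mul_left (Commute.refl c)
      calc ((c * c) ^ i * c) * ((c * c) ^ i * c) = (c * c) ^ i * (c * (c * c) ^ i) * c := by group
        _ = (c * c) ^ i * ((c * c) ^ i * c) * c := by rw [hcomm.eq]
        _ = (c * c) ^ i * (c * c) ^ i * (c * c) := by group
        _ = (c * c) ^ (2 * i + 1) := by rw [← pow_add, ← pow_succ]; congr 1; omega
    rw [e, ← hi, pow_orderOf_eq_one]
  have ht2 : ((c * c) ^ i * c) * x * ((c * c) ^ i * c)⁻¹ = x⁻¹ := by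
    have hci' : (c * c) ^ i * x⁻¹ = x⁻¹ * (c * c) ^ i := by
      have : x⁻¹ * ((c * c) ^ i * x) * x⁻¹ = x⁻¹ * (x * (c * c) ^ i) * x⁻¹ := by rw [hci]
      have e1 : x⁻¹ * ((c * c) ^ i * x) * x⁻¹ = x⁻¹ * (c * c) ^ i := by group
      have e2 : x⁻¹ * (x * (c * c) ^ i) * x⁻¹ = (c * c) ^ i * x⁻¹ := by group
      rw [e1, e2] at this
      exact this.symm
    calc ((c * c) ^ i * c) * x * ((c * c) ^ i * c)⁻¹
        = (c * c) ^ i * (c * x * c⁻¹) * ((c * c) ^ i)⁻¹ := by group
      _ = (c * c) ^ i * x⁻¹ * ((c * c) ^ i)⁻¹ := by rw [hc]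
      _ = x⁻¹ * (c * c) ^ i * ((c * c) ^ i)⁻¹ := by rw [hci']
      _ = x⁻¹ := by group
  refine ⟨(c * c) ^ i * c, Invol.order_two_of ht1 ?_, ht2⟩
  intro h
  rw [h] at ht2
  have hxx : x = x⁻¹ := by simpa using ht2
  have h2 : x * x = 1 := by
    calc x * x = x * x⁻¹ := by rw [← hxx]
      _ = 1 := mul_inv_cancel x
  have h4 : orderOf x = 2 := Invol.order_two_of h2 hx
  have hxC : x ∈ Subgroup.centralizer ({x} : Set G) :=
    Subgroup.mem_centralizer_singleton_iff.2 rfl
  have := Subgroup.orderOf_dvd_natCard _ hxC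
  rw [h4] at this
  exact (Nat.not_even_iff_odd.2 hodd) (even_iff_two_dvd.2 this)

end Cfsg.Agent.S0241
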