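import Cfsg.Statements.S0244
import Mathlib

set_option autoImplicit false
open Cfsg

namespace Cfsg.Agent.S0244

/-- Sp_2 = SL_2: a matrix on Fin 1 ⊕ Fin 1 lies in Mathlib's symplectic group iff its determinant is 1. -/
theorem result {R : Type*} [CommRing R] (A : Matrix (Fin 1 ⊕ Fin 1) (Fin 1 ⊕ Fin 1) R) : A ∈ Matrix.symplecticGroup (Fin 1) R ↔ A.det = 1 := by
  rw [SymplecticGroup.mem_iff]
  have hdet : A.det = A (Sum.inl 0) (Sum.inl 0) * A (Sum.inr 0) (Sum.inr 0)
      - A (Sum.inl 0) (Sum.inr 0) * A (Sum.inr 0) (Sum.inl 0) := by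
    rw [← Matrix.det_reindex_self finSumFinEquiv A, Matrix.det_fin_two]
    rfl
  have key : ∀ i k : Fin 1 ⊕ Fin 1, (A * Matrix.J (Fin 1) R * A.transpose) i k
      = A i (Sum.inr 0) * A k (Sum.inl 0) - A i (Sum.inl 0) * A k (Sum.inr 0) := by
    intro i k
    simp [Matrix.mul_apply, Matrix.J, Fintype.sum_sum_type, Matrix.fromBlocks_apply₁₁,
      Matrix.fromBlocks_apply₁₂, Matrix.fromBlocks_apply₂₁, Matrix.fromBlocks_apply₂₂]
    ring
  constructor
  · intro h
    have h1 := congrFun (congrFun h (Sum.inr 0)) (Sum.inl 0)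
    rw [key] at h1
    simp [Matrix.J] at h1
    rw [hdet]
    linear_combination h1
  · intro h
    rw [hdet] at h
    ext i k
    rw [key]
    rcases i with i | i <;> rcases k with k | k
    all_goals
      have hi : i = 0 := Subsingleton.elim _ _
      have hk : k = 0 := Subsingleton.elim _ _
      subst hi hk
      simp [Matrix.J]
    · ring
    · linear_combination -h
    · linear_combination h
    · ring

end Cfsg.Agent.S0244
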