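import Cfsg.Statements.S0249
import Cfsg.Agent.Lib.helper2.SLGen

set_option autoImplicit false
open Cfsg

open Cfsg.Agent.Lib.helper2

namespace Cfsg.Agent.S0249

/-- PSL_n(F) is simple for n at least 3, over any field F. -/
theorem result {F : Type*} [Field F] (n : ℕ) (hn : 3 ≤ n) : IsSimpleGroup (Matrix.ProjectiveSpecialLinearGroup (Fin n) F) := by
  exact SLGen.PSL_simple (by simpa using hn)

end Cfsg.Agent.S0249
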