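import Cfsg.Statements.S0253
import Cfsg.Agent.Lib.helper2.PSL2Small
import Cfsg.Agent.Lib.helper2.A5

set_option autoImplicit false
open Cfsg

open Cfsg.Agent.Lib.helper2

namespace Cfsg.Agent.S0253

/-- PSL_2(5) is isomorphic to A_5. -/
theorem result {F : Type*} [Field F] [Fintype F] (hF : Fintype.card F = 5) : Nonempty (Matrix.ProjectiveSpecialLinearGroup (Fin 2) F ≃* alternatingGroup (Fin 5)) := by
  classical
  have hcard := PSL2Small.card_PSL2 (F := F)
  rw [hF] at hcard
  have h60 : Nat.card (Matrix.ProjectiveSpecialLinearGroup (Fin 2) F) = 60 := by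
    have e1 : Nat.gcd 2 (5 - 1) = 2 := by decide
    have e2 : (5 ^ 2 - 1) * (5 ^ 2 - 5) = 480 := by norm_num
    rw [e1, e2] at hcard
    omega
  have hfinP : Finite (Matrix.ProjectiveSpecialLinearGroup (Fin 2) F) :=
    Nat.finite_of_card_ne_zero (by omega)
  have hs : IsSimpleGroup (Matrix.ProjectiveSpecialLinearGroup (Fin 2) F) :=
    Matrix.ProjectiveSpecialLinearGroup.rank_two_simple
      (by rw [Nat.card_eq_fintype_card, hF]; norm_num)
  exact A5.iso_A5_of_card h60

end Cfsg.Agent.S0253
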