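import Cfsg.Statements.S0267
import Mathlib
import Cfsg.Agent.Lib.helper20.P1

set_option autoImplicit false
open Cfsg

namespace Cfsg.Agent.S0267

open Cfsg.Agent.Lib.helper20.P1

/-- SL_2(q) is 3-transitive on the q+1 points of the projective line if and only if q is even. -/
theorem result {F : Type*} [Field F] [Fintype F] : MulAction.IsMultiplyPretransitive (Matrix.SpecialLinearGroup (Fin 2) F) (Projectivization F (Fin 2 → F)) 3 ↔ ringChar F = 2 := by
  constructor
  · intro h
    by_contra hchar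
    obtain ⟨δ, hδ⟩ := FiniteField.exists_nonsquare hchar
    have hδ0 : δ ≠ 0 := by rintro rfl; exact hδ ⟨0, by simp⟩
    have hne : (![1, δ] : Fin 2 → F) ≠ 0 := by
      intro h; have := congrFun h 0; simp at this
    obtain ⟨pδ, hpδ⟩ : ∃ pδ, pδ = Projectivization.mk F ![1, δ] hne := ⟨_, rfl⟩
    have h01 : p0 F ≠ p1 F := by
      unfold p0 p1; rw [Ne, Projectivization.mk_eq_mk_iff']; rintro ⟨a, ha⟩
      have := congrFun ha 0; simp at this
    have h02 : p0 F ≠ p2 F := by
      unfold p0 p2; rw [Ne, Projectivization.mk_eq_mk_iff']; rintro ⟨a, ha⟩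
      have h1 := congrFun ha 0
      have h2 := congrFun ha 1
      simp at h1 h2
      rw [h2] at h1; simp at h1
    have h12 : p1 F ≠ p2 F := by
      unfold p1 p2; rw [Ne, Projectivization.mk_eq_mk_iff']; rintro ⟨a, ha⟩
      have h1 := congrFun ha 0
      have h2 := congrFun ha 1
      simp at h1 h2
      rw [h1] at h2; simp at h2
    have h0δ : p0 F ≠ pδ := by
      rw [hpδ]
      unfold p0; rw [Ne, Projectivization.mk_eq_mk_iff']; rintro ⟨a, ha⟩
      have h1 := congrFun ha 0
      have h2 := congrFun ha 1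
      simp at h1 h2
      rcases h2 with h2 | h2
      · rw [h2] at h1; simp at h1
      · exact hδ0 h2
    have h1δ : p1 F ≠ pδ := by
      rw [hpδ]
      unfold p1; rw [Ne, Projectivization.mk_eq_mk_iff']; rintro ⟨a, ha⟩
      have h1 := congrFun ha 0
      have h2 := congrFun ha 1
      simp at h1 h2
      rw [h1] at h2; simp at h2
    obtain ⟨S, hS⟩ := MulAction.isMultiplyPretransitive_iff.mp h
      ⟨![p0 F, p1 F, p2 F], inj3 h01 h02 h12⟩ ⟨![p0 F, p1 F, pδ], inj3 h01 h0δ h1δ⟩
    have e0 : S • p0 F = p0 F := DFunLike.congr_fun hS 0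
    have e1 : S • p1 F = p1 F := DFunLike.congr_fun hS 1
    have e2 : S • p2 F = pδ := DFunLike.congr_fun hS 2
    rw [hpδ] at e2
    unfold p0 at e0
    unfold p1 at e1
    unfold p2 at e2
    rw [Projectivization.smul_mk, Projectivization.mk_eq_mk_iff', sl_smul] at e0 e1 e2
    obtain ⟨a, ha⟩ := e0
    obtain ⟨b, hb⟩ := e1
    obtain ⟨c, hc⟩ := e2
    have ha1 := congrFun ha 1
    have hb0 := congrFun hb 0
    have hc0 := congrFun hc 0
    have hc1 := congrFun hc 1
    simp at ha1 hb0 hc0 hc1
    have hdet : S.1.det = 1 := S.2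
    rw [Matrix.det_fin_two, ← ha1, ← hb0] at hdet
    rw [← hb0, add_zero] at hc0
    rw [← ha1, zero_add] at hc1
    rw [← hc0, ← hc1] at hdet
    apply hδ
    have hc0' : c ≠ 0 := by rintro rfl; simp at hdet
    refine ⟨c⁻¹, ?_⟩
    field_simp
    linear_combination hdet
  · intro hchar
    have hsq := FiniteField.isSquare_of_char_two hchar
    rw [MulAction.isMultiplyPretransitive_iff]
    intro x y
    obtain ⟨g, hg⟩ := pgl_three x y
    obtain ⟨M, rfl⟩ := Matrix.ProjGenLinGroup.mk_surjective g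
    obtain ⟨s, hs⟩ := hsq M.1.det
    have hs0 : s ≠ 0 := by
      rintro rfl
      exact Matrix.GeneralLinearGroup.det_ne_zero M (by simpa using hs)
    have hdet : (s⁻¹ • M.1).det = 1 := by
      rw [Matrix.det_smul, Fintype.card_fin, hs]; field_simp
    obtain ⟨S, hSdef⟩ : ∃ S : Matrix.SpecialLinearGroup (Fin 2) F, S.1 = s⁻¹ • M.1 :=
      ⟨⟨s⁻¹ • M.1, hdet⟩, rfl⟩
    have key : ∀ p : Projectivization F (Fin 2 → F),
        S • p = (Matrix.ProjGenLinGroup.mk M : Matrix.ProjGenLinGroup (Fin 2) F) • p := by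
      intro p
      induction p using Projectivization.ind with | h v hv =>
      rw [Projectivization.smul_mk, Projectivization.PGL.mk_smul_mk,
        Projectivization.mk_eq_mk_iff']
      refine ⟨s⁻¹, ?_⟩
      show s⁻¹ • (Matrix.mulVec M.1 v) = Matrix.mulVec S.1 v
      rw [hSdef, Matrix.smul_mulVec]
    refine ⟨S, ?_⟩
    ext i
    rw [Function.Embedding.smul_apply, key, ← hg, Function.Embedding.smul_apply]

end Cfsg.Agent.S0267
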