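import Cfsg.Statements.S0274
-- import your own Cfsg.Agent.* helpers here
import Cfsg.Agent.Lib.helper15.DkMain

set_option autoImplicit false
open Cfsg

namespace Cfsg.Agent.S0274

theorem exists_noncomm_of_sylow_ne {G : Type*} [Group G] {p : ℕ} [Fact p.Prime] (P Q : Sylow p G)
    (hne : P ≠ Q) : ∃ x ∈ (P : Subgroup G), ∃ y ∈ (Q : Subgroup G), x * y ≠ y * x := by
  by_contra h
  push Not at h
  apply hne
  have hN : (Q : Subgroup G) ≤ Subgroup.normalizer ((P : Subgroup G) : Set G) := by
    intro y hy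
    rw [Subgroup.mem_normalizer_iff]
    intro x
    constructor
    · intro hx
      have hc := h x hx y hy
      have : y * x * y⁻¹ = x := by rw [← hc]; group
      rw [this]; exact hx
    · intro hx
      have hc := h _ hx y hy
      have : x = y * x * y⁻¹ := by
        calc x = y⁻¹ * (y * x * y⁻¹ * y) := by group
          _ = y⁻¹ * (y * (y * x * y⁻¹)) := by rw [hc]
          _ = y * x * y⁻¹ := by group
      rw [this]; exact hx
  have hpg : IsPGroup p ((Q : Subgroup G) ⊔ (P : Subgroup G) : Subgroup G) :=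
    IsPGroup.to_sup_of_normal_right' Q.2 P.2 hN
  have h1 := P.is_maximal' hpg le_sup_right
  have h2 := Q.is_maximal' hpg le_sup_left
  exact Sylow.ext (h1.symm.trans h2)

/-- Dickson's Theorem for SL_2: if p is odd and H is a subgroup of SL_2(q), q a power of p, with more than one Sylow p-subgroup, then H contains a copy of SL_2(p). -/
theorem result {F : Type*} [Field F] [Fintype F] (p : ℕ) [Fact p.Prime] [CharP F p] (hp : p ≠ 2) (H : Subgroup (Matrix.SpecialLinearGroup (Fin 2) F)) (hH : 1 < Nat.card (Sylow p H)) : ∃ K : Subgroup (Matrix.SpecialLinearGroup (Fin 2) F), K ≤ H ∧ Nonempty (K ≃* Matrix.SpecialLinearGroup (Fin 2) (ZMod p)) := by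
  classical
  haveI : Nontrivial (Sylow p H) := Finite.one_lt_card_iff_nontrivial.mp hH
  obtain ⟨P, Q, hPQ⟩ := exists_pair_ne (Sylow p H)
  obtain ⟨x, hx, y, hy, hxy⟩ := exists_noncomm_of_sylow_ne P Q hPQ
  have htr : ∀ (R : Sylow p H) (g : H), g ∈ (R : Subgroup H) →
      Cfsg.Agent.Lib.helper15.Dk.tr (g : Matrix.SpecialLinearGroup (Fin 2) F) = 2 := by
    intro R g hg
    obtain ⟨k, hk⟩ := R.isPGroup' ⟨g, hg⟩
    have hk' : g ^ (p ^ k) = 1 := by
      have := congrArg Subtype.val hk
      rw [Subgroup.coe_pow] at this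
      exact this
    have hk'' : (g : Matrix.SpecialLinearGroup (Fin 2) F) ^ (p ^ k) = 1 := by
      have := congrArg Subtype.val hk'
      rw [Subgroup.coe_pow] at this
      exact this
    exact Cfsg.Agent.Lib.helper15.Dk.tr_of_pow_char p _ k hk''
  have hxy' : (x : Matrix.SpecialLinearGroup (Fin 2) F) * (y : Matrix.SpecialLinearGroup (Fin 2) F) ≠
      (y : Matrix.SpecialLinearGroup (Fin 2) F) * (x : Matrix.SpecialLinearGroup (Fin 2) F) := by
    intro h
    apply hxy
    apply Subtype.ext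
    rw [Subgroup.coe_mul, Subgroup.coe_mul]
    exact h
  obtain ⟨Ψ, hinj, hmem⟩ := Cfsg.Agent.Lib.helper15.Dk.W_hom p hp H x.1 y.1 x.2 y.2
    (htr P x hx) (htr Q y hy) hxy'
  refine ⟨Ψ.range, ?_, ⟨(MonoidHom.ofInjective hinj).symm⟩⟩
  rintro _ ⟨M, rfl⟩
  exact hmem M


end Cfsg.Agent.S0274
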