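import Cfsg.Statements.S0283
-- import your own Cfsg.Agent.* helpers here
import Cfsg.Agent.Lib.helper4.USimple

set_option autoImplicit false
open Cfsg

namespace Cfsg.Agent.S0283

/-- PSU_n(q) is simple for n at least 3 and (n, q) other than (3, 2). -/
theorem result {F : Type*} [Field F] [Fintype F] {q : ℕ} (hF : Fintype.card F = q ^ 2) (n : ℕ) (hn : 3 ≤ n) (h : ¬ (n = 3 ∧ q = 2)) : IsSimpleGroup (Cfsg.PSU n F q) := by
  have hq := Cfsg.Agent.Lib.helper4.uq_ge_two hF
  have hcond : 4 ≤ n ∨ (n = 3 ∧ 3 ≤ q) := by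
    by_cases h3 : n = 3
    · right
      refine ⟨h3, ?_⟩
      by_contra hlt
      exact h ⟨h3, by omega⟩
    · left; omega
  exact Cfsg.Agent.Lib.helper4.psu_simple hF hcond

end Cfsg.Agent.S0283
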