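import Cfsg.Statements.S0285
-- import your own Cfsg.Agent.* helpers here
import Cfsg.Agent.Lib.helper4.UCount

set_option autoImplicit false
open Cfsg

namespace Cfsg.Agent.S0285

/-- The standard Hermitian form on F^n, |F| = q^2, has exactly (q^n - (-1)^n)(q^(n-1) + (-1)^n) non-zero isotropic vectors; counting the zero vector too: -/
theorem result {F : Type*} [Field F] [Fintype F] {q : ℕ} (hF : Fintype.card F = q ^ 2) (n : ℕ) : Nat.card {v : Fin n → F // Cfsg.hermForm n F q v v = 0} = (if Even n then (q ^ n - 1) * (q ^ (n - 1) + 1) else (q ^ n + 1) * (q ^ (n - 1) - 1)) + 1 := by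
  classical
  have hq := Cfsg.Agent.Lib.helper4.uq_ge_two hF
  have key := Cfsg.Agent.Lib.helper4.card_herm_eq hF n (0 : F) (zero_pow (by omega))
  rw [if_pos rfl] at key
  have hq0 : (q : ℤ) ≠ 0 := by
    have : (0 : ℤ) < q := by exact_mod_cast (show 0 < q by omega)
    exact this.ne'
  rcases Nat.even_or_odd n with he | ho
  · rw [if_pos he]
    rw [he.neg_pow] at key
    rcases Nat.eq_zero_or_pos n with rfl | hn
    · apply Nat.cast_injective (R := ℤ)
      apply mul_right_cancel₀ hq0
      rw [key]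
      simp
    · obtain ⟨m, rfl⟩ : ∃ m, n = m + 1 := ⟨n - 1, by omega⟩
      simp only [Nat.add_sub_cancel]
      have h1 : 1 ≤ q ^ (m + 1) := Nat.one_le_pow _ _ (by omega)
      apply Nat.cast_injective (R := ℤ)
      apply mul_right_cancel₀ hq0
      rw [key]
      push_cast [Nat.cast_sub h1]
      ring
  · rw [if_neg (Nat.not_even_iff_odd.mpr ho)]
    rw [ho.neg_pow] at key
    obtain ⟨m, rfl⟩ : ∃ m, n = m + 1 := ⟨n - 1, by have := ho.pos; omega⟩
    simp only [Nat.add_sub_cancel]
    have h1 : 1 ≤ q ^ m := Nat.one_le_pow _ _ (by omega)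
    apply Nat.cast_injective (R := ℤ)
    apply mul_right_cancel₀ hq0
    rw [key]
    push_cast [Nat.cast_sub h1]
    ring

end Cfsg.Agent.S0285
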