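import Cfsg.Statements.S0292
-- import your own Cfsg.Agent.* helpers here
import Cfsg.Agent.Lib.helper4.OrthForms
import Cfsg.Agent.S0286

set_option autoImplicit false
open Cfsg

open Cfsg.Agent.Lib.helper13 Cfsg.Agent.Lib.helper4

namespace Cfsg.Agent.S0292

/-- 2 |PΩ_{2m+1}(q)| = q^(m^2) prod_{i=1}^{m} (q^(2i) - 1), for q odd and m at least 3 (type B_m). -/
theorem result {F : Type*} [Field F] [Fintype F] {q : ℕ} (hF : Fintype.card F = q) (hodd : Odd q) (m : ℕ) (hm : 3 ≤ m) : 2 * Nat.card (Cfsg.POmega F (Cfsg.quadFormOdd m F)) = q ^ (m ^ 2) * ∏ i ∈ Finset.range m, (q ^ (2 * (i + 1)) - 1) := by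
  classical
  have h2 : (2 : F) ≠ 0 := two_ne_zero_of_odd_card hF hodd
  have hc := qOdd_coe (F := F) m
  have hQ := nondeg_qOdd h2 m
  have hcard : Fintype.card (Unit ⊕ (Fin m ⊕ Fin m)) = 2 * m + 1 := by
    simp only [Fintype.card_sum, Fintype.card_unit, Fintype.card_fin]
    ring
  obtain ⟨e, he0, hQe⟩ := qOdd_sing (F := F) m (by omega)
  have hnot : ¬ ((2 : F) ≠ 0 ∧ ∃ g ∈ Cfsg.Omega F ⇑(qOdd F m), mat (qOdd F m) g = -1) := by
    rintro ⟨-, g, hg, hgm⟩
    have h1 := det_omega (qOdd F m) g hg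
    rw [hgm, Matrix.det_neg, Matrix.det_one, mul_one, hcard, pow_succ, pow_mul] at h1
    simp only [even_two, Even.neg_pow, one_pow, one_mul] at h1
    apply h2
    linear_combination -h1
  have h3 := card_pomega_of_not (by rw [hcard]; omega) (qOdd F m) hQ e he0 hQe hnot
  have h4 := omega_index_odd h2 (qOdd F m) hQ (by rw [hcard]; omega)
  have h5 := Subgroup.index_mul_card (Cfsg.Omega F ⇑(qOdd F m))
  have h6 := Cfsg.Agent.S0286.result hF hodd m
  rw [← hc] at h6 ⊢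
  rw [h3]
  rw [h4, h6, mul_assoc] at h5
  omega

end Cfsg.Agent.S0292
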