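import Cfsg.Statements.S0790
-- import your own Cfsg.Agent.* helpers here
import Cfsg.Agent.Lib.helper4.OrthNeg
import Cfsg.Agent.S2562
import Cfsg.Agent.S2620

set_option autoImplicit false
open Cfsg

open Cfsg.Agent.Lib.helper13 Cfsg.Agent.Lib.helper4

namespace Cfsg.Agent.S0790

/-- −1 ∈ Ω⁺_2m(q) iff q^m ≡ 1 (mod 4), for q odd and m ≥ 1 (so that in the other case SO⁺_2m(q) = 2 × Ω⁺_2m(q)). -/
theorem result {F : Type*} [Field F] [Fintype F] {q : ℕ} (hF : Fintype.card F = q) (hodd : Odd q) (m : ℕ) (hm : 1 ≤ m) : (∃ g : ↥(Cfsg.isometryGroup F (Cfsg.quadFormPlus m F)), g ∈ Cfsg.Omega F (Cfsg.quadFormPlus m F) ∧ ((g : Matrix.GeneralLinearGroup (Fin m ⊕ Fin m) F) : Matrix (Fin m ⊕ Fin m) (Fin m ⊕ Fin m) F) = -1) ↔ q ^ m % 4 = 1 := by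
  classical
  have h2 : (2 : F) ≠ 0 := two_ne_zero_of_odd_card hF hodd
  have hQf : Cfsg.quadFormPlus m F = ⇑(Cfsg.Agent.S2562.qP F m) :=
    funext (fun v => (Cfsg.Agent.S2562.qP_apply m v).symm)
  have he : Even (Fintype.card (Fin m ⊕ Fin m)) := by
    rw [Fintype.card_sum, Fintype.card_fin]; exact ⟨m, rfl⟩
  rw [neg_one_mem_omega_iff h2 he (Cfsg.Agent.S2562.qP F m) _ hQf (Cfsg.Agent.S2562.nondeg_qP m)]
  have h3 := Cfsg.Agent.S2620.result hF hodd hm (Pi.basisFun F (Fin m ⊕ Fin m))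
  simp only [Pi.basisFun_apply] at h3
  rw [← hQf, h3]
  exact even_half_iff q m hodd

end Cfsg.Agent.S0790
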