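import Cfsg.Statements.S0791
-- import your own Cfsg.Agent.* helpers here
import Cfsg.Agent.Lib.helper4.OrthNeg
import Cfsg.Agent.Lib.helper13.OrthSum
import Cfsg.Agent.S2679
import Cfsg.Agent.S2621

set_option autoImplicit false
open Cfsg

open Cfsg.Agent.Lib.helper13 Cfsg.Agent.Lib.helper4

namespace Cfsg.Agent.S0791

/-- −1 ∈ Ω⁻_2m(q) iff q^m ≡ −1 (mod 4), for q odd and m ≥ 1; for the minus-type form quadFormMinus (m−1) with anisotropic binary part. -/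
theorem result {F : Type*} [Field F] [Fintype F] {q : ℕ} (hF : Fintype.card F = q) (hodd : Odd q) (m : ℕ) (hm : 1 ≤ m) (a b : F) (hab : ∀ z₁ z₂ : F, z₁ ^ 2 + a * z₁ * z₂ + b * z₂ ^ 2 = 0 → z₁ = 0 ∧ z₂ = 0) : (∃ g : ↥(Cfsg.isometryGroup F (Cfsg.quadFormMinus (m - 1) F a b)), g ∈ Cfsg.Omega F (Cfsg.quadFormMinus (m - 1) F a b) ∧ ((g : Matrix.GeneralLinearGroup ((Fin (m - 1) ⊕ Fin (m - 1)) ⊕ Fin 2) F) : Matrix ((Fin (m - 1) ⊕ Fin (m - 1)) ⊕ Fin 2) ((Fin (m - 1) ⊕ Fin (m - 1)) ⊕ Fin 2) F) = -1) ↔ q ^ m % 4 = 3 := by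
  classical
  have h2 : (2 : F) ≠ 0 := two_ne_zero_of_odd_card hF hodd
  have hQf : Cfsg.quadFormMinus (m - 1) F a b = ⇑(Cfsg.Agent.S2679.qMg F (m - 1) a b) :=
    funext (fun v => (Cfsg.Agent.S2679.qMg_apply (m - 1) a b v).symm)
  have he : Even (Fintype.card ((Fin (m - 1) ⊕ Fin (m - 1)) ⊕ Fin 2)) := by
    rw [Fintype.card_sum, Fintype.card_sum, Fintype.card_fin, Fintype.card_fin]
    exact ⟨m, by omega⟩
  have hdet : (Cfsg.Agent.S2621.ellM F (m - 1) a b).det ≠ 0 := by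
    rw [Cfsg.Agent.S2621.det_ellM]
    have h3 := Cfsg.Agent.S2621.not_isSquare_disc h2 a b hab
    refine mul_ne_zero (pow_ne_zero _ (neg_ne_zero.mpr one_ne_zero)) ?_
    intro h0
    apply h3
    have : a ^ 2 - 4 * b = 0 := by linear_combination -h0
    rw [this]
    exact ⟨0, by simp⟩
  have hnd : (QuadraticMap.polarBilin (Cfsg.Agent.S2679.qMg F (m - 1) a b)).Nondegenerate := by
    apply nondeg_of_sep_left
    intro x hx
    apply Matrix.eq_zero_of_vecMul_eq_zero hdet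
    funext j
    have h4 := hx (Pi.single j 1)
    rw [← hQf, Cfsg.Agent.S2621.polar_minus, Matrix.dotProduct_mulVec] at h4
    simpa using h4
  rw [neg_one_mem_omega_iff h2 he (Cfsg.Agent.S2679.qMg F (m - 1) a b) _ hQf hnd]
  have h3 := Cfsg.Agent.S2621.result hF hodd hm a b hab
    (Pi.basisFun F ((Fin (m - 1) ⊕ Fin (m - 1)) ⊕ Fin 2))
  simp only [Pi.basisFun_apply] at h3
  rw [← hQf, h3]
  exact not_even_half_iff q m hodd

end Cfsg.Agent.S0791
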