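import Cfsg.Statements.S0294
-- import your own Cfsg.Agent.* helpers here
import Cfsg.Agent.Lib.helper4.OrthForms
import Cfsg.Agent.S0288
import Cfsg.Agent.S0791

set_option autoImplicit false
open Cfsg

open Cfsg.Agent.Lib.helper13 Cfsg.Agent.Lib.helper4

namespace Cfsg.Agent.S0294

/-- gcd(4, q^m + 1) |PΩ^-_{2m}(q)| = q^(m(m-1)) (q^m + 1) prod_{i=1}^{m-1} (q^(2i) - 1), m at least 4 (type ²D_m). -/
theorem result {F : Type*} [Field F] [Fintype F] {q : ℕ} (hF : Fintype.card F = q) (m : ℕ) (hm : 4 ≤ m) (a b : F) (hab : ∀ z₁ z₂ : F, z₁ ^ 2 + a * z₁ * z₂ + b * z₂ ^ 2 = 0 → z₁ = 0 ∧ z₂ = 0) : Nat.gcd 4 (q ^ m + 1) * Nat.card (Cfsg.POmega F (Cfsg.quadFormMinus (m - 1) F a b)) = q ^ (m * (m - 1)) * (q ^ m + 1) * ∏ i ∈ Finset.range (m - 1), (q ^ (2 * (i + 1)) - 1) := by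
  classical
  have hc := qMg_coe (F := F) (m - 1) a b
  have hQ := nondeg_qMg (F := F) (m - 1) a b hab
  have hcard : Fintype.card ((Fin (m - 1) ⊕ Fin (m - 1)) ⊕ Fin 2) = 2 * m := by
    simp only [Fintype.card_sum, Fintype.card_fin]
    omega
  obtain ⟨e, he0, hQe⟩ := qMg_sing (F := F) (m - 1) (by omega) a b
  have h5 := Subgroup.index_mul_card (Cfsg.Omega F ⇑(Cfsg.Agent.S2679.qMg F (m - 1) a b))
  have h6 := Cfsg.Agent.S0288.result hF m (by omega) a b hab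
  rw [← hc] at h6 ⊢
  rw [h6, mul_assoc, mul_assoc] at h5
  rw [mul_assoc]
  obtain ⟨X, hX⟩ : ∃ X, X = q ^ (m * (m - 1)) * ((q ^ m + 1) *
      ∏ i ∈ Finset.range (m - 1), (q ^ (2 * (i + 1)) - 1)) := ⟨_, rfl⟩
  rw [← hX] at h5 ⊢
  have hqpos : 0 < q ^ m := pow_pos (by rw [← hF]; exact Fintype.card_pos) m
  by_cases h2 : (2 : F) = 0
  · have hch : CharP F 2 := CharTwo.of_one_ne_zero_of_two_eq_zero one_ne_zero h2
    have h4 := omega_index_c2 (Or.inr (by rw [hcard]; omega))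
      (Cfsg.Agent.S2679.qMg F (m - 1) a b) hQ (Sum.inr 0)
    have h3 := card_pomega_of_not (by rw [hcard]; omega) (Cfsg.Agent.S2679.qMg F (m - 1) a b) hQ
      e he0 hQe (fun h => h.1 h2)
    have hqe : Even q := by rw [← hF]; exact even_card_of_two_eq_zero h2
    have hqm : Even (q ^ m) := (Nat.even_pow.mpr ⟨hqe, by omega⟩)
    have hodd' : Odd (q ^ m + 1) := by
      obtain ⟨r, hr⟩ := hqm
      exact ⟨r, by omega⟩
    have hg : Nat.gcd 4 (q ^ m + 1) = 1 := by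
      have h7 : Nat.Coprime (2 ^ 2) (q ^ m + 1) :=
        Nat.Coprime.pow_left 2 (Nat.coprime_two_left.mpr hodd')
      exact h7
    rw [hg, h3]
    rw [h4] at h5
    omega
  · have hodd : Odd q := by rw [← hF]; exact odd_card_of_two_ne_zero h2
    have h4 := omega_index_odd h2 (Cfsg.Agent.S2679.qMg F (m - 1) a b) hQ (by rw [hcard]; omega)
    rw [h4] at h5
    have hiff := Cfsg.Agent.S0791.result hF hodd m (by omega) a b hab
    rw [← hc] at hiff
    have hqm : Odd (q ^ m) := hodd.pow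
    by_cases hm4 : q ^ m % 4 = 3
    · obtain ⟨g, hg, hgm⟩ := hiff.mpr hm4
      have h3 := card_pomega_of_neg (by rw [hcard]; omega) (Cfsg.Agent.S2679.qMg F (m - 1) a b) hQ
        e he0 hQe h2 ⟨g, hg, hgm⟩
      have hg4 : Nat.gcd 4 (q ^ m + 1) = 4 := Nat.gcd_eq_left (by omega)
      rw [hg4]
      omega
    · have hnot : ¬ ((2 : F) ≠ 0 ∧ ∃ g ∈ Cfsg.Omega F ⇑(Cfsg.Agent.S2679.qMg F (m - 1) a b),
          mat (Cfsg.Agent.S2679.qMg F (m - 1) a b) g = -1) := by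
        rintro ⟨-, g, hg, hgm⟩
        exact hm4 (hiff.mp ⟨g, hg, hgm⟩)
      have h3 := card_pomega_of_not (by rw [hcard]; omega) (Cfsg.Agent.S2679.qMg F (m - 1) a b) hQ
        e he0 hQe hnot
      have hmod : (q ^ m + 1) % 4 = 2 := by
        obtain ⟨r, hr⟩ := hqm
        omega
      have hg2 : Nat.gcd 4 (q ^ m + 1) = 2 := by
        rw [Nat.gcd_rec, hmod]
        rfl
      rw [hg2, h3]
      omega

end Cfsg.Agent.S0294
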