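import Cfsg.Statements.S0295
-- import your own Cfsg.Agent.* helpers here
import Cfsg.Agent.Lib.helper4.OrthForms
import Cfsg.Agent.Lib.helper4.OrthSimple

set_option autoImplicit false
open Cfsg

open Cfsg.Agent.Lib.helper13 Cfsg.Agent.Lib.helper4

namespace Cfsg.Agent.S0295

/-- PΩ_{2m+1}(q) is simple for q odd and m at least 3. -/
theorem result {F : Type*} [Field F] [Fintype F] (hodd : Odd (Fintype.card F)) (m : ℕ) (hm : 3 ≤ m) : IsSimpleGroup (Cfsg.POmega F (Cfsg.quadFormOdd m F)) := by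
  classical
  have h2 : (2 : F) ≠ 0 := two_ne_zero_of_odd_card rfl hodd
  have hc := qOdd_coe (F := F) m
  have hQ := nondeg_qOdd (F := F) h2 m
  have hcard : 6 ≤ Fintype.card (Unit ⊕ (Fin m ⊕ Fin m)) := by
    simp only [Fintype.card_sum, Fintype.card_fin, Fintype.card_unit]
    omega
  rw [← hc]
  exact pomega_simple hcard (qOdd F m) hQ

end Cfsg.Agent.S0295
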