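import Cfsg.Statements.S0296
-- import your own Cfsg.Agent.* helpers here
import Cfsg.Agent.Lib.helper4.OrthForms
import Cfsg.Agent.Lib.helper4.OrthSimple

set_option autoImplicit false
open Cfsg

open Cfsg.Agent.Lib.helper13 Cfsg.Agent.Lib.helper4

namespace Cfsg.Agent.S0296

/-- PΩ^+_{2m}(q) is simple for m at least 4. -/
theorem result {F : Type*} [Field F] [Fintype F] (m : ℕ) (hm : 4 ≤ m) : IsSimpleGroup (Cfsg.POmega F (Cfsg.quadFormPlus m F)) := by
  classical
  have hc := qP_coe (F := F) m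
  have hQ := Cfsg.Agent.S2562.nondeg_qP (F := F) m
  have hcard : 6 ≤ Fintype.card (Fin m ⊕ Fin m) := by
    simp only [Fintype.card_sum, Fintype.card_fin]
    omega
  rw [← hc]
  exact pomega_simple hcard (Cfsg.Agent.S2562.qP F m) hQ

end Cfsg.Agent.S0296
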