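import Cfsg.Statements.S0305
import Mathlib
import Cfsg.Agent.Lib.helper6.GO2m

set_option autoImplicit false
open Cfsg

namespace Cfsg.Agent.S0305

open Matrix Cfsg.Agent.Lib.helper6 Cfsg.Agent.Lib.helper12

section
variable {F : Type*} [Field F]

/-- the hyperbolic form on the plane -/
def Qh (u : Fin 2 → F) : F := u 0 * u 1

theorem mem_iff (g : GL (Fin 2) F) :
    g ∈ Cfsg.isometryGroup F (Qh (F := F)) ↔
      g.1 0 0 * g.1 1 0 = 0 ∧ g.1 0 1 * g.1 1 1 = 0 ∧
        g.1 0 0 * g.1 1 1 + g.1 0 1 * g.1 1 0 = 1 := by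
  rw [mem_isometryGroup_iff]
  constructor
  · intro h
    have h1 : g.1 0 0 * g.1 1 0 = 0 := by
      have := h ![1, 0]
      simpa [Qh, Matrix.mulVec, dotProduct, Fin.sum_univ_two] using this
    have h2 : g.1 0 1 * g.1 1 1 = 0 := by
      have := h ![0, 1]
      simpa [Qh, Matrix.mulVec, dotProduct, Fin.sum_univ_two] using this
    have h3 : (g.1 0 0 + g.1 0 1) * (g.1 1 0 + g.1 1 1) = 1 := by
      have := h ![1, 1]
      simpa [Qh, Matrix.mulVec, dotProduct, Fin.sum_univ_two] using this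
    refine ⟨h1, h2, ?_⟩
    linear_combination h3 - h1 - h2
  · rintro ⟨h1, h2, h3⟩ u
    simp only [Qh, Matrix.mulVec, dotProduct, Fin.sum_univ_two]
    linear_combination (u 0)^2 * h1 + (u 1)^2 * h2 + u 0 * u 1 * h3

theorem dich (g : GL (Fin 2) F) (hg : g ∈ Cfsg.isometryGroup F (Qh (F := F))) :
    (g.1 0 1 = 0 ∧ g.1 1 0 = 0 ∧ g.1 0 0 * g.1 1 1 = 1) ∨
      (g.1 0 0 = 0 ∧ g.1 1 1 = 0 ∧ g.1 0 1 * g.1 1 0 = 1) := by
  obtain ⟨h1, h2, h3⟩ := (mem_iff g).mp hg
  rcases mul_eq_zero.mp h1 with ha | hc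
  · right
    rw [ha, zero_mul, zero_add] at h3
    have hb : g.1 0 1 ≠ 0 := by
      intro hb; rw [hb, zero_mul] at h3; exact zero_ne_one h3
    exact ⟨ha, (mul_eq_zero.mp h2).resolve_left hb, h3⟩
  · left
    rw [hc, mul_zero, add_zero] at h3
    have hd : g.1 1 1 ≠ 0 := by
      intro hd; rw [hd, mul_zero] at h3; exact zero_ne_one h3
    exact ⟨(mul_eq_zero.mp h2).resolve_right hd, hc, h3⟩

/-- diagonal isometry -/
def diagGL (a : Fˣ) : GL (Fin 2) F :=
  ⟨!![(a : F), 0; 0, ((a⁻¹ : Fˣ) : F)], !![((a⁻¹ : Fˣ) : F), 0; 0, (a : F)],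
    by ext i j; fin_cases i <;> fin_cases j <;> simp [Matrix.mul_apply, Fin.sum_univ_two],
    by ext i j; fin_cases i <;> fin_cases j <;> simp [Matrix.mul_apply, Fin.sum_univ_two]⟩

theorem diagGL_mem (a : Fˣ) : diagGL a ∈ Cfsg.isometryGroup F (Qh (F := F)) := by
  rw [mem_iff]; simp [diagGL]

/-- the torus -/
def δ : Fˣ →* ↥(Cfsg.isometryGroup F (Qh (F := F))) where
  toFun a := ⟨diagGL a, diagGL_mem a⟩
  map_one' := by
    apply Subtype.ext; apply Units.ext; ext i j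
    fin_cases i <;> fin_cases j <;> simp [diagGL]
  map_mul' a b := by
    apply Subtype.ext; apply Units.ext; ext i j
    fin_cases i <;> fin_cases j <;> simp [diagGL, Matrix.mul_apply, Fin.sum_univ_two, mul_comm]

/-- the swap -/
def swapGL : GL (Fin 2) F :=
  ⟨!![0, 1; 1, 0], !![0, 1; 1, 0],
    by ext i j; fin_cases i <;> fin_cases j <;> simp [Matrix.mul_apply, Fin.sum_univ_two],
    by ext i j; fin_cases i <;> fin_cases j <;> simp [Matrix.mul_apply, Fin.sum_univ_two]⟩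

theorem swapGL_mem : (swapGL : GL (Fin 2) F) ∈ Cfsg.isometryGroup F (Qh (F := F)) := by
  rw [mem_iff]; simp [swapGL]

theorem mem_range_iff (b : ↥(Cfsg.isometryGroup F (Qh (F := F)))) :
    b ∈ (δ (F := F)).range ↔ b.1.1 0 1 = 0 ∧ b.1.1 1 0 = 0 := by
  constructor
  · rintro ⟨a, rfl⟩
    simp [δ, diagGL]
  · rintro ⟨h1, h2⟩
    rcases dich b.1 b.2 with ⟨_, _, h3⟩ | ⟨h3, h4, h5⟩
    · have ha : b.1.1 0 0 ≠ 0 := by
        intro h; rw [h, zero_mul] at h3; exact zero_ne_one h3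
      refine ⟨Units.mk0 _ ha, ?_⟩
      apply Subtype.ext; apply Units.ext
      ext i j
      fin_cases i <;> fin_cases j <;> simp [δ, diagGL, h1, h2]
      exact (eq_inv_of_mul_eq_one_right h3).symm
    · rw [h1, zero_mul] at h5; exact absurd h5 zero_ne_one

theorem go2p [Fintype F] :
    Nonempty (↥(Cfsg.isometryGroup F (Qh (F := F))) ≃* DihedralGroup (Fintype.card F - 1)) := by
  classical
  have hinj : Function.Injective (δ (F := F)) := by
    intro a b hab
    have := congrArg (fun x : ↥(Cfsg.isometryGroup F (Qh (F := F))) => x.1.1 0 0) hab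
    simp [δ, diagGL] at this
    exact Units.ext this
  have hCcyc : IsCyclic ↥(δ (F := F)).range :=
    isCyclic_of_surjective (δ (F := F)).rangeRestrict (δ (F := F)).rangeRestrict_surjective
  have hCcard : Nat.card ↥(δ (F := F)).range = Fintype.card F - 1 := by
    rw [← Nat.card_congr (MonoidHom.ofInjective hinj).toEquiv, Nat.card_eq_fintype_card,
      Fintype.card_units]
  have hidx : (δ (F := F)).range.index = 2 := by
    rw [Subgroup.index_eq_two_iff]
    refine ⟨⟨swapGL, swapGL_mem⟩, fun b => ?_⟩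
    rw [mem_range_iff, mem_range_iff]
    have e1 : (b * ⟨swapGL, swapGL_mem⟩ : ↥(Cfsg.isometryGroup F (Qh (F := F)))).1.1 0 1 =
        b.1.1 0 0 := by
      simp [swapGL, Matrix.mul_apply, Fin.sum_univ_two]
    have e2 : (b * ⟨swapGL, swapGL_mem⟩ : ↥(Cfsg.isometryGroup F (Qh (F := F)))).1.1 1 0 =
        b.1.1 1 1 := by
      simp [swapGL, Matrix.mul_apply, Fin.sum_univ_two]
    rw [e1, e2]
    rcases dich b.1 b.2 with ⟨h1, h2, h3⟩ | ⟨h1, h2, h3⟩
    · right
      refine ⟨⟨h1, h2⟩, ?_⟩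
      rintro ⟨h4, h5⟩
      rw [h4, zero_mul] at h3; exact zero_ne_one h3
    · left
      refine ⟨⟨h1, h2⟩, ?_⟩
      rintro ⟨h4, h5⟩
      rw [h4, zero_mul] at h3; exact zero_ne_one h3
  have hrel : ∀ s : ↥(Cfsg.isometryGroup F (Qh (F := F))), s ∉ (δ (F := F)).range →
      s * s = 1 ∧ ∀ c ∈ (δ (F := F)).range, s * c * s⁻¹ = c⁻¹ := by
    intro s hs
    rw [mem_range_iff] at hs
    rcases dich s.1 s.2 with ⟨h1, h2, h3⟩ | ⟨h1, h2, h3⟩
    · exact absurd ⟨h1, h2⟩ hs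
    · have h3' : s.1.1 1 0 * s.1.1 0 1 = 1 := by rw [mul_comm]; exact h3
      constructor
      · apply Subtype.ext; apply Units.ext
        ext i j
        fin_cases i <;> fin_cases j <;>
          simp [Matrix.mul_apply, Fin.sum_univ_two, h1, h2, h3, h3']
      · rintro c ⟨u, rfl⟩
        have key : s * δ u = δ u⁻¹ * s := by
          apply Subtype.ext; apply Units.ext
          ext i j
          fin_cases i <;> fin_cases j <;>
            simp [δ, diagGL, Matrix.mul_apply, Fin.sum_univ_two, h1, h2, mul_comm]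
        rw [key, map_inv, mul_inv_cancel_right]
  obtain ⟨e⟩ := dihedral_rec _ hCcyc hidx hrel
  rw [hCcard] at e
  exact ⟨e⟩

end

/-- GO^+_2(q) is dihedral of order 2(q-1). -/
theorem result {F : Type*} [Field F] [Fintype F] {q : ℕ} (hF : Fintype.card F = q) : Nonempty (Cfsg.isometryGroup F (Cfsg.quadFormPlus 1 F) ≃* DihedralGroup (q - 1)) := by
  obtain ⟨e₁⟩ := go2p (F := F)
  rw [hF] at e₁
  let e : Fin 2 ≃ Fin 1 ⊕ Fin 1 := (finSumFinEquiv (m := 1) (n := 1)).symm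
  obtain ⟨e₂⟩ := isometryGroup_reindex (F := F) e (Cfsg.quadFormPlus 1 F)
  have hQ : (fun u : Fin 2 → F => Cfsg.quadFormPlus 1 F (u ∘ e.symm)) = Qh := by
    funext u
    have a1 : (finSumFinEquiv (m := 1) (n := 1) (Sum.inl (0 : Fin 1))) = (0 : Fin 2) := rfl
    have a2 : (finSumFinEquiv (m := 1) (n := 1) (Sum.inr (0 : Fin 1))) = (1 : Fin 2) := rfl
    simp [Cfsg.quadFormPlus, Qh, e]
    rw [a1, a2]
  rw [hQ] at e₂
  exact ⟨e₂.symm.trans e₁⟩

end Cfsg.Agent.S0305
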