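import Cfsg.Statements.S0307
import Mathlib

set_option autoImplicit false
open Cfsg

namespace Cfsg.Agent.S0307

theorem zmod_div {m n : ℕ} [NeZero m] (z : ZMod m)
    (hz : ZMod.castHom (Nat.gcd_dvd_right n m) (ZMod (Nat.gcd n m)) z = 0) :
    ∃ w : ZMod m, (n : ZMod m) * w = z := by
  rw [ZMod.castHom_apply, ← ZMod.natCast_val, ZMod.natCast_eq_zero_iff] at hz
  obtain ⟨t, ht⟩ := hz
  have hb := Nat.gcd_eq_gcd_ab n m
  have h1 : ((Nat.gcd n m : ℕ) : ZMod m) = (n : ZMod m) * ((Nat.gcdA n m : ℤ) : ZMod m) := by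
    have h2 : (((Nat.gcd n m : ℕ) : ℤ) : ZMod m) =
        ((((n : ℤ) * Nat.gcdA n m + (m : ℤ) * Nat.gcdB n m : ℤ)) : ZMod m) := by rw [hb]
    push_cast at h2
    rw [h2]
    simp
  refine ⟨((Nat.gcdA n m : ℤ) : ZMod m) * (t : ZMod m), ?_⟩
  rw [← mul_assoc, ← h1]
  have h3 : z = ((z.val : ℕ) : ZMod m) := (ZMod.natCast_zmod_val z).symm
  rw [h3, ht]
  push_cast
  ring

/-- PSL_n(q) is normal in PGL_n(q) with cyclic quotient of order gcd(n, q-1): the image of the natural map PSL_n → PGL_n is the kernel of a surjective homomorphism onto the cyclic group of that order. -/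
theorem result {F : Type*} [Field F] [Fintype F] {q : ℕ} (hF : Fintype.card F = q) (n : ℕ) (hn : 1 ≤ n) : ∃ g : Matrix.ProjGenLinGroup (Fin n) F →* Multiplicative (ZMod (Nat.gcd n (q - 1))), Function.Surjective g ∧ g.ker = (Matrix.ProjectiveSpecialLinearGroup.toPGL : Matrix.ProjectiveSpecialLinearGroup (Fin n) F →* Matrix.ProjGenLinGroup (Fin n) F).range := by
  classical
  have hq : 2 ≤ q := by rw [← hF]; exact Fintype.one_lt_card
  haveI : NeZero (q - 1) := ⟨by omega⟩
  haveI : Nonempty (Fin n) := ⟨⟨0, hn⟩⟩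
  have hcard : Nat.card Fˣ = q - 1 := by
    rw [Nat.card_eq_fintype_card, Fintype.card_units, hF]
  obtain ⟨L⟩ : Nonempty (Fˣ ≃* Multiplicative (ZMod (q - 1))) := by
    rw [← hcard]; exact ⟨(zmodCyclicMulEquiv inferInstance).symm⟩
  have hd : Nat.gcd n (q - 1) ∣ q - 1 := Nat.gcd_dvd_right n (q - 1)
  let c : ZMod (q - 1) →+* ZMod (Nat.gcd n (q - 1)) := ZMod.castHom hd (ZMod (Nat.gcd n (q - 1)))
  let cM : Multiplicative (ZMod (q - 1)) →* Multiplicative (ZMod (Nat.gcd n (q - 1))) :=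
    AddMonoidHom.toMultiplicative c.toAddMonoidHom
  let ψ : Fˣ →* Multiplicative (ZMod (Nat.gcd n (q - 1))) := cM.comp L.toMonoidHom
  let φ : GL (Fin n) F →* Multiplicative (ZMod (Nat.gcd n (q - 1))) :=
    ψ.comp Matrix.GeneralLinearGroup.det
  have hpow : ∀ y : Multiplicative (ZMod (Nat.gcd n (q - 1))), y ^ n = 1 := by
    intro y
    apply Multiplicative.toAdd.injective
    rw [toAdd_pow, toAdd_one, nsmul_eq_mul]
    have h0 : ((n : ℕ) : ZMod (Nat.gcd n (q - 1))) = 0 := by
      rw [ZMod.natCast_eq_zero_iff]; exact Nat.gcd_dvd_left n (q - 1)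
    rw [h0, zero_mul]
  have hle : Subgroup.center (GL (Fin n) F) ≤ φ.ker := by
    intro M hM
    rw [Matrix.GeneralLinearGroup.center_eq_range_scalar] at hM
    obtain ⟨u, rfl⟩ := hM
    rw [MonoidHom.mem_ker]
    show ψ (Matrix.GeneralLinearGroup.det (Matrix.GeneralLinearGroup.scalar (Fin n) u)) = 1
    rw [Matrix.GeneralLinearGroup.det_scalar, map_pow, Fintype.card_fin]
    exact hpow _
  let g : Matrix.ProjGenLinGroup (Fin n) F →* Multiplicative (ZMod (Nat.gcd n (q - 1))) :=
    QuotientGroup.lift (Subgroup.center (GL (Fin n) F)) φ hle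
  have hg : ∀ M : GL (Fin n) F, g (Matrix.ProjGenLinGroup.mk M) = φ M := fun M => rfl
  refine ⟨g, ?_, ?_⟩
  · intro y
    obtain ⟨z, hz⟩ := ZMod.ringHom_surjective c (Multiplicative.toAdd y)
    obtain ⟨M, hM⟩ := Matrix.GeneralLinearGroup.det_surjective (n := Fin n)
      (L.symm (Multiplicative.ofAdd z))
    refine ⟨Matrix.ProjGenLinGroup.mk M, ?_⟩
    rw [hg]
    show cM (L (Matrix.GeneralLinearGroup.det M)) = y
    rw [hM, MulEquiv.apply_symm_apply]
    show Multiplicative.ofAdd (c z) = y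
    rw [hz]; rfl
  · ext x
    rw [MonoidHom.mem_ker, MonoidHom.mem_range]
    constructor
    · intro hx
      induction x using Matrix.ProjGenLinGroup.induction_on with | mk M =>
      rw [hg] at hx
      have hx' : c (Multiplicative.toAdd (L (Matrix.GeneralLinearGroup.det M))) = 0 := by
        have : cM (L (Matrix.GeneralLinearGroup.det M)) = 1 := hx
        exact congrArg Multiplicative.toAdd this
      obtain ⟨w, hw⟩ := zmod_div (n := n) _ hx'
      obtain ⟨k, hk⟩ : ∃ k : Fˣ, k ^ n = Matrix.GeneralLinearGroup.det M := by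
        refine ⟨L.symm (Multiplicative.ofAdd w), ?_⟩
        apply L.injective
        rw [map_pow, MulEquiv.apply_symm_apply]
        apply Multiplicative.toAdd.injective
        rw [toAdd_pow, toAdd_ofAdd, nsmul_eq_mul, hw]
      obtain ⟨r, hr⟩ : ∃ r : Fˣ, r ^ Fintype.card (Fin n) * Matrix.GeneralLinearGroup.det M = 1 :=
        ⟨k⁻¹, by rw [Fintype.card_fin, ← hk, inv_pow, inv_mul_cancel]⟩
      simp only [Units.ext_iff, Units.val_mul, Units.val_pow_eq_pow_val,
        Matrix.GeneralLinearGroup.val_det_apply, ← Matrix.det_smul M.1 r.1, Units.val_one] at hr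
      refine ⟨QuotientGroup.mk ⟨r.1 • M.1, hr⟩, ?_⟩
      show Matrix.ProjGenLinGroup.mk (Matrix.SpecialLinearGroup.toGL ⟨r.1 • M.1, hr⟩) =
        Matrix.ProjGenLinGroup.mk M
      rw [Matrix.ProjGenLinGroup.mk_eq_mk_iff]
      refine ⟨r⁻¹, Units.ext ?_⟩
      simp only [Units.val_mul, Matrix.GeneralLinearGroup.coe_scalar]
      ext i j
      have hr0 : (r : F) ≠ 0 := r.ne_zero
      have e1 : ((Matrix.SpecialLinearGroup.toGL
          (⟨r.1 • M.1, hr⟩ : Matrix.SpecialLinearGroup (Fin n) F) : GL (Fin n) F) :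
          Matrix (Fin n) (Fin n) F) = r.1 • M.1 := rfl
      rw [e1, Matrix.scalar_apply, Matrix.mul_diagonal, Matrix.smul_apply, smul_eq_mul]
      simp only [Units.val_inv_eq_inv_val]
      field_simp
    · rintro ⟨y, rfl⟩
      induction y using QuotientGroup.induction_on with | H S =>
      rw [Matrix.ProjectiveSpecialLinearGroup.toPGL_mk, hg]
      show ψ (Matrix.GeneralLinearGroup.det (Matrix.SpecialLinearGroup.toGL S)) = 1
      have h1 : Matrix.GeneralLinearGroup.det (Matrix.SpecialLinearGroup.toGL S) = 1 := by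
        ext
        simp
      rw [h1, map_one]

end Cfsg.Agent.S0307
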