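import Cfsg.Statements.S0314
import Cfsg.Agent.Lib.helper2.BN

set_option autoImplicit false
open Cfsg

open Cfsg.Agent.Lib.helper2

namespace Cfsg.Agent.S0314

/-- Distinct sets of distinguished generators give distinct standard parabolic subgroups. -/
theorem result {G : Type*} [Group G] (P : Cfsg.BNPair G) {J K : Set G}
    (hJ : J ⊆ P.S) (hK : K ⊆ P.S) (h : P.parabolic J = P.parabolic K) : J = K := by
  have hle : ∀ {A C : Set G}, A ⊆ P.S → C ⊆ P.S → P.parabolic A = P.parabolic C → A ⊆ C := by
    intro A C hA hC hAC s hs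
    apply BN.mem_of_mem_parabolic P hC (hA hs)
    have h1 : s ∈ P.parabolic A :=
      (le_sup_right : Subgroup.closure A ≤ P.parabolic A) (Subgroup.subset_closure hs)
    rw [hAC] at h1
    exact h1
  exact Set.Subset.antisymm (hle hJ hK h) (hle hK hJ h.symm)

end Cfsg.Agent.S0314
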