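import Cfsg.Statements.S0315
import Cfsg.Agent.Lib.helper2.BN

set_option autoImplicit false
open Cfsg

open Cfsg.Agent.Lib.helper2

namespace Cfsg.Agent.S0315

/-- Standard parabolic subgroups intersect as the index sets do: `P_J ⊓ P_K = P_{J ∩ K}`. -/
theorem result {G : Type*} [Group G] (P : Cfsg.BNPair G) {J K : Set G}
    (hJ : J ⊆ P.S) (hK : K ⊆ P.S) : P.parabolic J ⊓ P.parabolic K = P.parabolic (J ∩ K) := by
  apply le_antisymm
  · rintro g ⟨hgJ, hgK⟩
    obtain ⟨l, hl, hred, hg⟩ := BN.exists_word_of_mem_parabolic P hJ hgJ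
    have hK' := BN.letters_mem P (P.parabolic K) le_sup_left l hred ⟨g, hg, hgK⟩
    exact BN.mem_parabolic_of_C P (J := J ∩ K) (l := l)
      (fun x hx => ⟨hl x hx, BN.mem_of_mem_parabolic P hK x.2 (hK' x hx)⟩) hg
  · apply le_inf
    · exact sup_le_sup_left (Subgroup.closure_mono Set.inter_subset_left) _
    · exact sup_le_sup_left (Subgroup.closure_mono Set.inter_subset_right) _

end Cfsg.Agent.S0315
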