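import Cfsg.Statements.S0316
import Cfsg.Agent.Lib.helper2.BN

set_option autoImplicit false
open Cfsg

open Cfsg.Agent.Lib.helper2

namespace Cfsg.Agent.S0316

/-- The map `J ↦ P_J` is a lattice isomorphism from the power set of the set of distinguished generators onto the
subgroups containing `B`. -/
theorem result {G : Type*} [Group G] (P : Cfsg.BNPair G) :
    ∃ e : Set P.S ≃o {M : Subgroup G // P.B ≤ M},
      ∀ J : Set P.S, ((e J : {M : Subgroup G // P.B ≤ M}) : Subgroup G) = P.parabolic (Subtype.val '' J) := by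
  let f : Set P.S → {M : Subgroup G // P.B ≤ M} :=
    fun J => ⟨P.parabolic (Subtype.val '' J), le_sup_left⟩
  have hsub : ∀ J : Set P.S, Subtype.val '' J ⊆ P.S := by
    rintro J _ ⟨x, _, rfl⟩
    exact x.2
  have hf : ∀ J K : Set P.S, f J ≤ f K ↔ J ≤ K := by
    intro J K
    constructor
    · intro h s hs
      have h1 : (s : G) ∈ P.parabolic (Subtype.val '' J) :=
        (le_sup_right : Subgroup.closure (Subtype.val '' J) ≤ P.parabolic (Subtype.val '' J))
          (Subgroup.subset_closure ⟨s, hs, rfl⟩)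
      have h2 : (s : G) ∈ P.parabolic (Subtype.val '' K) := h h1
      obtain ⟨y, hy, e⟩ := BN.mem_of_mem_parabolic P (hsub K) s.2 h2
      rwa [Subtype.ext e] at hy
    · intro h
      show P.parabolic (Subtype.val '' J) ≤ P.parabolic (Subtype.val '' K)
      exact sup_le_sup_left (Subgroup.closure_mono (Set.image_mono h)) _
  have hs : Function.Surjective f := by
    rintro ⟨M, hM⟩
    refine ⟨{s : P.S | (s : G) ∈ M}, Subtype.ext ?_⟩
    show P.parabolic (Subtype.val '' {s : P.S | (s : G) ∈ M}) = M
    have : Subtype.val '' {s : P.S | (s : G) ∈ M} = P.S ∩ (M : Set G) := by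
      ext x
      constructor
      · rintro ⟨y, hy, rfl⟩
        exact ⟨y.2, hy⟩
      · rintro ⟨hx1, hx2⟩
        exact ⟨⟨x, hx1⟩, hx2, rfl⟩
    rw [this]
    exact (BN.eq_parabolic P M hM).symm
  exact ⟨OrderIso.ofSurjective (OrderEmbedding.ofMapLEIff f hf) hs, fun J => rfl⟩

end Cfsg.Agent.S0316
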