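import Cfsg.Statements.S0318
import Cfsg.Agent.Lib.helper2.BN

set_option autoImplicit false
open Cfsg

open Cfsg.Agent.Lib.helper2

namespace Cfsg.Agent.S0318

/-- For `n ∈ N`, the subgroup generated by `B` and `n` coincides with the subgroup generated by `B` and the
conjugate `n B n⁻¹`. -/
theorem result {G : Type*} [Group G] (P : Cfsg.BNPair G) {n : G}
    (hn : n ∈ P.N) :
    P.B ⊔ Subgroup.closure {n} = P.B ⊔ P.B.map (MulAut.conj n).toMonoidHom := by
  apply le_antisymm
  · apply sup_le le_sup_left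
    rw [Subgroup.closure_le, Set.singleton_subset_iff]
    exact BN.mem_sup_conj P hn
  · apply sup_le le_sup_left
    rintro _ ⟨c, hc, rfl⟩
    have hle1 : P.B ≤ P.B ⊔ Subgroup.closure {n} := le_sup_left
    have hle2 : Subgroup.closure {n} ≤ P.B ⊔ Subgroup.closure {n} := le_sup_right
    have hnn : n ∈ P.B ⊔ Subgroup.closure {n} := hle2 (Subgroup.subset_closure rfl)
    simp only [MulEquiv.toMonoidHom_eq_coe, MonoidHom.coe_coe, MulAut.conj_apply]
    exact Subgroup.mul_mem _ (Subgroup.mul_mem _ hnn (hle1 hc)) (Subgroup.inv_mem _ hnn)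

end Cfsg.Agent.S0318
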