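import Cfsg.Statements.S0320
import Cfsg.Agent.Lib.helper2.BN
import Cfsg.Agent.Lib.helper29.BNCox

set_option autoImplicit false
open Cfsg

namespace Cfsg.Agent.S0320

/-- The Weyl group `W = N / (B ⊓ N)` of a (B,N)-pair, with its distinguished involutions, is a Coxeter system. -/
theorem result {G : Type*} [Group G] (P : Cfsg.BNPair G)
    [hN : ((P.B ⊓ P.N).subgroupOf P.N).Normal] :
    ∃ (M : CoxeterMatrix P.S) (cs : CoxeterSystem M (P.N ⧸ (P.B ⊓ P.N).subgroupOf P.N)),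
      ∀ s : P.S, cs.simple s = QuotientGroup.mk (⟨(s : G), P.subset s.2⟩ : P.N) := by
  have hT : Cfsg.Agent.Lib.helper2.BN.T P = (P.B ⊓ P.N).subgroupOf P.N := by
    unfold Cfsg.Agent.Lib.helper2.BN.T
    exact (Subgroup.inf_subgroupOf_right _ _).symm
  refine ⟨Cfsg.Agent.Lib.helper29.BNCox.cm P,
    (Cfsg.Agent.Lib.helper29.BNCox.csW P).map (QuotientGroup.quotientMulEquivOfEq hT),
    fun s => ?_⟩
  rw [CoxeterSystem.map_simple, Cfsg.Agent.Lib.helper29.BNCox.csW_simple]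
  rfl

end Cfsg.Agent.S0320
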