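import Cfsg.Statements.S0321
import Cfsg.Agent.Lib.helper2.BN

set_option autoImplicit false
open Cfsg

open Cfsg.Agent.Lib.helper2

namespace Cfsg.Agent.S0321

/-- For `n ∈ N` not in `B`, the union `B ∪ B n B` is (the underlying set of) a subgroup exactly when `n` agrees
modulo `B ⊓ N` with one of the distinguished representatives; thus the distinguished involutions are
determined by `B` and `N`. -/
theorem result {G : Type*} [Group G] (P : Cfsg.BNPair G) {n : G}
    (hn : n ∈ P.N) (hnB : n ∉ P.B) :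
    (∃ H : Subgroup G, (H : Set G) = (P.B : Set G) ∪ DoubleCoset.doubleCoset n (P.B : Set G) P.B) ↔ ∃ s ∈ P.S, s⁻¹ * n ∈ P.B := by
  constructor
  · rintro ⟨H, hH⟩
    have hBH : P.B ≤ H := by
      intro x hx
      have : x ∈ (H : Set G) := by rw [hH]; exact Or.inl hx
      exact this
    have hnH : n ∈ H := by
      have : n ∈ (H : Set G) := by
        rw [hH]; exact Or.inr ((BN.mem_dc P).2 (BN.dc_refl P n))
      exact this
    obtain ⟨l, hl, hlen⟩ := BN.exists_reduced P (BN.π P ⟨n, hn⟩)
    have hred : BN.Red P l := by unfold BN.Red; rw [hl, hlen]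
    match l, hl, hred with
    | [], hl, _ =>
      exfalso
      rw [BN.wp_nil] at hl
      exact hnB ((BN.π_eq_one_iff P).1 hl.symm)
    | x :: l', hl, hred =>
      have hx := BN.letters_mem P H hBH (x :: l') hred
        ⟨n, by rw [hl]; exact BN.coe_mem_C P ⟨n, hn⟩, hnH⟩ x (by simp)
      have hx' : (x : G) ∈ (H : Set G) := hx
      rw [hH] at hx'
      rcases hx' with hx' | hx'
      · exact absurd hx' (BN.not_mem_B P x.2)
      · exact ⟨x, x.2, (BN.dc_iff_of_mem_N P (P.subset x.2) hn).1 ((BN.mem_dc P).1 hx')⟩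
  · rintro ⟨s, hs, hsn⟩
    have hsN : s ∈ P.N := P.subset hs
    have hdc : BN.DC P s n := (BN.dc_iff_of_mem_N P hsN hn).2 hsn
    refine ⟨P.B ⊔ Subgroup.closure {s}, ?_⟩
    have hle1 : P.B ≤ P.B ⊔ Subgroup.closure {s} := le_sup_left
    have hle2 : Subgroup.closure {s} ≤ P.B ⊔ Subgroup.closure {s} := le_sup_right
    have hsH : s ∈ P.B ⊔ Subgroup.closure {s} := hle2 (Subgroup.subset_closure rfl)
    ext g
    constructor
    · intro hg
      obtain ⟨l, hl, hred, hgC⟩ := BN.exists_word_of_mem_parabolic P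
        (J := {s}) (Set.singleton_subset_iff.2 hs) hg
      rcases BN.wp_const P (s := ⟨s, hs⟩) l (fun x hx => Subtype.ext (hl x hx)) with h1 | h1
      · left
        rw [h1] at hgC
        exact (BN.mem_C_one P).1 hgC
      · right
        rw [h1] at hgC
        have : BN.DC P g s := (BN.mem_C_π P (n := ⟨s, hsN⟩)).1 hgC
        exact (BN.mem_dc P).2 (BN.dc_trans P this hdc)
    · rintro (hg | hg)
      · exact hle1 hg
      · obtain ⟨b, hb, b', hb', e⟩ := BN.dc_trans P ((BN.mem_dc P).1 hg) (BN.dc_symm P hdc)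
        show g ∈ P.B ⊔ Subgroup.closure {s}
        rw [e]
        exact Subgroup.mul_mem _ (Subgroup.mul_mem _ (hle1 hb) hsH) (hle1 hb')

end Cfsg.Agent.S0321
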