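import Cfsg.Statements.S0322
import Cfsg.Agent.Lib.helper2.BN

set_option autoImplicit false
open Cfsg

open Cfsg.Agent.Lib.helper2

namespace Cfsg.Agent.S0322

/-- A group with a (B,N)-pair of rank one acts doubly transitively on the left cosets of `B`. -/
theorem result {G : Type*} [Group G] (P : Cfsg.BNPair G) (h : P.rank = 1) : MulAction.IsMultiplyPretransitive G (G ⧸ P.B) 2 := by
  have hcard : Nat.card P.S = 1 := h
  rw [Nat.card_eq_one_iff_unique] at hcard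
  obtain ⟨hsub, ⟨s0⟩⟩ := hcard
  have key : ∀ g : G, g ∉ P.B → BN.DC P g s0 := by
    intro g hg
    obtain ⟨w, hw⟩ := BN.exists_mem_C P g
    obtain ⟨l, hl, -⟩ := BN.exists_reduced P w
    rcases BN.wp_const P (s := s0) l (fun x _ => Subsingleton.elim x s0) with h1 | h1
    · exfalso
      rw [← hl, h1] at hw
      exact hg ((BN.mem_C_one P).1 hw)
    · rw [← hl, h1] at hw
      exact (BN.mem_C_π P (n := ⟨s0, P.subset s0.2⟩)).1 hw
  rw [MulAction.is_two_pretransitive_iff]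
  intro a b c d hab hcd
  obtain ⟨a', rfl⟩ := QuotientGroup.mk_surjective a
  obtain ⟨b', rfl⟩ := QuotientGroup.mk_surjective b
  obtain ⟨c', rfl⟩ := QuotientGroup.mk_surjective c
  obtain ⟨d', rfl⟩ := QuotientGroup.mk_surjective d
  have hab' : a'⁻¹ * b' ∉ P.B := fun h => hab (QuotientGroup.eq.2 h)
  have hcd' : c'⁻¹ * d' ∉ P.B := fun h => hcd (QuotientGroup.eq.2 h)
  obtain ⟨β1, hβ1, β2, hβ2, e1⟩ := key _ hab'
  obtain ⟨γ1, hγ1, γ2, hγ2, e2⟩ := key _ hcd'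
  have hb : b' = a' * (β1 * s0 * β2) := by rw [← e1]; group
  have hd : d' = c' * (γ1 * s0 * γ2) := by rw [← e2]; group
  refine ⟨c' * γ1 * β1⁻¹ * a'⁻¹, ?_, ?_⟩
  · rw [MulAction.Quotient.smul_mk, QuotientGroup.eq, smul_eq_mul]
    have : (c' * γ1 * β1⁻¹ * a'⁻¹ * a')⁻¹ * c' = β1 * γ1⁻¹ := by group
    rw [this]
    exact P.B.mul_mem hβ1 (P.B.inv_mem hγ1)
  · rw [MulAction.Quotient.smul_mk, QuotientGroup.eq, smul_eq_mul]
    have : (c' * γ1 * β1⁻¹ * a'⁻¹ * b')⁻¹ * d' = β2⁻¹ * γ2 := by rw [hb, hd]; group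
    rw [this]
    exact P.B.mul_mem (P.B.inv_mem hβ2) hγ2

end Cfsg.Agent.S0322
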