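import Cfsg.Statements.S0323


set_option autoImplicit false
open scoped Pointwise
open Cfsg

namespace Cfsg.Agent.S0323

/-- A doubly transitive action on a set with at least three points yields a (B,N)-pair of rank one:
`B` is the stabiliser of a point `x`, `N` the setwise stabiliser of a pair `{x, y}`. -/
theorem result {G Ω : Type*} [Group G] [MulAction G Ω]
    (h2 : MulAction.IsMultiplyPretransitive G Ω 2) {x y z : Ω} (hxy : x ≠ y) (hyz : y ≠ z) (hxz : x ≠ z) :
    ∃ P : Cfsg.BNPair G, P.B = MulAction.stabilizer G x ∧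
      P.N = MulAction.stabilizer G ({x, y} : Set Ω) ∧ P.rank = 1 := by
  rw [MulAction.is_two_pretransitive_iff] at h2
  obtain ⟨s, hsx, hsy⟩ := h2 hxy hxy.symm
  have hN : ∀ g : G, g ∈ MulAction.stabilizer G ({x, y} : Set Ω) ↔
      (g • x = x ∧ g • y = y) ∨ (g • x = y ∧ g • y = x) := by
    intro g
    rw [MulAction.mem_stabilizer_iff, Set.smul_set_insert, Set.smul_set_singleton,
      Set.pair_eq_pair_iff]
  have hB : ∀ g : G, g ∈ MulAction.stabilizer G x ↔ g • x = x := fun g =>
    MulAction.mem_stabilizer_iff
  have hsN : s ∈ MulAction.stabilizer G ({x, y} : Set Ω) := (hN s).2 (Or.inr ⟨hsx, hsy⟩)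
  have hdc : ∀ g h : G, (g • x = x ↔ h • x = x) →
      g ∈ DoubleCoset.doubleCoset h (MulAction.stabilizer G x : Set G) (MulAction.stabilizer G x) := by
    intro g h hgh
    rw [DoubleCoset.mem_doubleCoset]
    by_cases hg : g • x = x
    · have hh : h • x = x := hgh.1 hg
      refine ⟨g * h⁻¹, ?_, 1, Subgroup.one_mem _, by group⟩
      show g * h⁻¹ ∈ MulAction.stabilizer G x
      rw [hB, mul_smul]
      have : h⁻¹ • x = x := by rw [inv_smul_eq_iff, hh]
      rw [this, hg]
    · have hh : h • x ≠ x := fun hh => hg (hgh.2 hh)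
      obtain ⟨b, hbx, hb⟩ := h2 (Ne.symm hh) (Ne.symm hg)
      refine ⟨b, (hB b).2 hbx, h⁻¹ * b⁻¹ * g, ?_, by group⟩
      show h⁻¹ * b⁻¹ * g ∈ MulAction.stabilizer G x
      rw [hB, mul_smul, mul_smul, ← hb, inv_smul_smul, inv_smul_smul]
  refine ⟨{ B := MulAction.stabilizer G x
            N := MulAction.stabilizer G ({x, y} : Set Ω)
            S := {s}
            sup_eq_top := ?_
            conj_mem := ?_
            subset := ?_
            sq_mem := ?_
            inj := ?_
            closure_sup := ?_
            mul_mem_union := ?_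
            conj_ne := ?_ }, rfl, rfl, ?_⟩
  · rw [eq_top_iff]
    intro g _
    by_cases hg : g • x = x
    · exact (le_sup_left : MulAction.stabilizer G x ≤ _) ((hB g).2 hg)
    · obtain ⟨b, hbx, hb⟩ := h2 (Ne.symm hg) hxy
      have h1 : s * b * g ∈ MulAction.stabilizer G x := by
        rw [hB, mul_smul, mul_smul, hb, hsy]
      have e : g = b⁻¹ * s⁻¹ * (s * b * g) := by group
      rw [e]
      refine Subgroup.mul_mem _ (Subgroup.mul_mem _ ?_ ?_) ?_
      · exact (le_sup_left : MulAction.stabilizer G x ≤ _)
          (Subgroup.inv_mem _ ((hB b).2 hbx))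
      · exact (le_sup_right : MulAction.stabilizer G ({x, y} : Set Ω) ≤ _)
          (Subgroup.inv_mem _ hsN)
      · exact (le_sup_left : MulAction.stabilizer G x ≤ _) h1
  · rintro n hn t ⟨ht1', ht2'⟩
    have ht1 : t • x = x := (hB t).1 ht1'
    have ht2 : t ∈ MulAction.stabilizer G ({x, y} : Set Ω) := ht2'
    rw [hB]
    have hty : t • y = y := by
      rcases (hN t).1 ht2 with h | h
      · exact h.2
      · exact absurd (ht1.symm.trans h.1) hxy
    have hn' := (hN n⁻¹).1 (Subgroup.inv_mem _ hn)
    rw [mul_smul, mul_smul]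
    rcases hn' with h | h
    · rw [h.1, ht1]
      exact (inv_smul_eq_iff.1 h.1).symm
    · rw [h.1, hty]
      exact (inv_smul_eq_iff.1 h.1).symm
  · intro s' hs'
    rw [show s' = s from hs']
    exact hsN
  · intro s' hs'
    rw [show s' = s from hs']
    show s * s ∈ MulAction.stabilizer G x
    rw [hB, mul_smul, hsx, hsy]
  · rintro _ rfl _ rfl _
    rfl
  · apply le_antisymm
    · apply sup_le
      · rw [Subgroup.closure_le, Set.singleton_subset_iff]
        exact hsN
      · exact inf_le_right
    · intro n hn
      rcases (hN n).1 hn with h | h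
      · exact (le_sup_right : MulAction.stabilizer G x ⊓ MulAction.stabilizer G ({x, y} : Set Ω) ≤ _)
          ⟨(hB n).2 h.1, hn⟩
      · have h1 : s⁻¹ * n ∈ MulAction.stabilizer G x ⊓ MulAction.stabilizer G ({x, y} : Set Ω) := by
          refine ⟨?_, Subgroup.mul_mem _ (Subgroup.inv_mem _ hsN) hn⟩
          show s⁻¹ * n ∈ MulAction.stabilizer G x
          rw [hB, mul_smul, h.1, inv_smul_eq_iff, hsx]
        have e : n = s * (s⁻¹ * n) := by group
        rw [e]
        exact Subgroup.mul_mem _
          ((le_sup_left : Subgroup.closure {s} ≤ _) (Subgroup.subset_closure rfl))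
          ((le_sup_right : MulAction.stabilizer G x ⊓ MulAction.stabilizer G ({x, y} : Set Ω) ≤ _) h1)
  · intro s' hs' n hn b hb
    rw [show s' = s from hs']
    have hb' : b • x = x := (hB b).1 hb
    rcases (hN n).1 hn with h | h
    · left
      apply hdc
      rw [mul_smul, mul_smul, mul_smul, h.1, hb', hsx]
    · by_cases hby : b • y = y
      · left
        apply hdc
        rw [mul_smul, mul_smul, mul_smul, h.1, hby, hsy]
      · right
        apply hdc
        constructor
        · intro h3
          exfalso
          apply hby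
          rw [mul_smul, mul_smul, h.1] at h3
          have : s • b • y = s • y := by rw [h3, hsy]
          exact MulAction.injective s this
        · intro h3
          exact absurd (h3.symm.trans h.1) hxy
  · intro s' hs'
    rw [show s' = s from hs']
    obtain ⟨b, hbx, hby⟩ := h2 hxy hxz
    intro hcon
    have h1 : s * b * s ∈ ((MulAction.stabilizer G x : Subgroup G) : Set G) := by
      rw [← hcon]
      exact ⟨b, (hB b).2 hbx, rfl⟩
    have h2' : (s * b * s) • x = x := (hB _).1 h1
    rw [mul_smul, mul_smul, hsx, hby] at h2'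
    have : s • z = s • y := by rw [h2', hsy]
    exact hyz (MulAction.injective s this).symm
  · show Nat.card ({s} : Set G) = 1
    simp

end Cfsg.Agent.S0323
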