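import Cfsg.Statements.S0326


set_option autoImplicit false
open Cfsg

namespace Cfsg.Agent.S0326

/-- The Suzuki–Tits ovoid over a finite field with `q` elements has `q² + 1` points. -/
theorem result {F : Type*} [Field F] [Fintype F] (m : ℕ) :
    Nat.card (Cfsg.suzukiOvoid F m) = Fintype.card F ^ 2 + 1 := by
  classical
  have hne1 : (![1, 0, 0, 0] : Fin 4 → F) ≠ 0 := by
    intro h
    have := congrFun h 0
    simp at this
  have hne2 : ∀ x y : F,
      (![x * y + x ^ (2 ^ (m + 1) + 2) + y ^ (2 ^ (m + 1)), y, x, 1] : Fin 4 → F) ≠ 0 := by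
    intro x y h
    have := congrFun h 3
    simp at this
  let φ : Option (F × F) → Cfsg.suzukiOvoid F m := fun o =>
    match o with
    | none => ⟨Projectivization.mk F ![1, 0, 0, 0] hne1, ![1, 0, 0, 0], hne1, rfl, Or.inl rfl⟩
    | some (x, y) =>
      ⟨Projectivization.mk F ![x * y + x ^ (2 ^ (m + 1) + 2) + y ^ (2 ^ (m + 1)), y, x, 1]
        (hne2 x y), _, hne2 x y, rfl, Or.inr ⟨x, y, rfl⟩⟩
  have hbij : Function.Bijective φ := by
    constructor
    · intro o1 o2 h
      have h' := congrArg Subtype.val h
      rcases o1 with _ | ⟨x, y⟩ <;> rcases o2 with _ | ⟨x', y'⟩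
      · rfl
      · exfalso
        simp only [φ] at h'
        rw [Projectivization.mk_eq_mk_iff] at h'
        obtain ⟨a, ha⟩ := h'
        have := congrFun ha 3
        simp [Units.smul_def] at this
      · exfalso
        simp only [φ] at h'
        rw [Projectivization.mk_eq_mk_iff] at h'
        obtain ⟨a, ha⟩ := h'
        have := congrFun ha 3
        simp [Units.smul_def] at this
      · simp only [φ] at h'
        rw [Projectivization.mk_eq_mk_iff] at h'
        obtain ⟨a, ha⟩ := h'
        have h3 := congrFun ha 3
        have h2 := congrFun ha 2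
        have h1 := congrFun ha 1
        simp [Units.smul_def] at h3 h2 h1
        rw [h3] at h2 h1
        simp at h2 h1
        rw [h2, h1]
    · rintro ⟨p, v, hv, rfl, hv' | ⟨x, y, hxy⟩⟩
      · refine ⟨none, ?_⟩
        apply Subtype.ext
        simp only [φ]
        congr 1
        exact hv'.symm
      · refine ⟨some (x, y), ?_⟩
        apply Subtype.ext
        simp only [φ]
        congr 1
        exact hxy.symm
  rw [← Nat.card_eq_of_bijective φ hbij, Nat.card_eq_fintype_card, Fintype.card_option,
    Fintype.card_prod, sq]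

end Cfsg.Agent.S0326
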