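import Cfsg.Statements.S0333
import Cfsg.Agent.Lib.helper25.SzPart9

set_option autoImplicit false
open Cfsg

namespace Cfsg.Agent.S0333

/-- With `q = 2^(2m+1)` and `r = 2^m`, the Suzuki group has cyclic subgroups of orders `q + 2r + 1` and
`q - 2r + 1`; each is the centraliser of each of its non-identity elements and has index `4` in its normaliser. -/
theorem result {F : Type*} [Field F] [Fintype F] {m : ℕ} (hm : 1 ≤ m)
    (hF : Fintype.card F = 2 ^ (2 * m + 1)) :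
    ∀ k ∈ ({2 ^ (2 * m + 1) + 2 ^ (m + 1) + 1, 2 ^ (2 * m + 1) - 2 ^ (m + 1) + 1} : Set ℕ),
      ∃ U : Subgroup (Cfsg.Sz F m), IsCyclic U ∧ Nat.card U = k ∧
        (∀ u ∈ U, u ≠ 1 → Subgroup.centralizer {u} = U) ∧ Nat.card (Subgroup.normalizer (U : Set (Cfsg.Sz F m))) = 4 * k := by
  classical
  have H := Cfsg.Agent.Lib.helper2.Suzuki.hyp_of_card hm hF
  haveI : Finite ↥(Cfsg.Agent.Lib.helper2.Suzuki.Gs F (2 ^ (m + 1))) :=
    Finite.of_injective _ Subtype.val_injective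
  have T := Cfsg.Agent.Lib.helper25.SzPart.toriHyp hm hF H
  have hr : (2 ^ (m + 1)) ^ 2 = 2 * 2 ^ (2 * m + 1) := by
    rw [← pow_mul, ← pow_succ']
    congr 1
    ring
  obtain ⟨y1, y2, ⟨h11, h1N⟩, ⟨h21, h2N⟩, e1, e2, n1, n2, -, -⟩ :=
    Cfsg.Agent.Lib.helper25.SzPart.tori_exist T (2 ^ (m + 1)) hr
  intro k hk
  rcases hk with hk | hk
  · refine ⟨Subgroup.centralizer ({y1} : Set _), T.cyc y1 h11 h1N, ?_, ?_, ?_⟩
    · rw [hk]; exact e1
    · intro u hu hu1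
      exact Cfsg.Agent.Lib.helper25.SzPart.cent_eq T h11 h1N hu1 hu
    · rw [hk, ← e1]; exact n1
  · have hk' : k = 2 ^ (2 * m + 1) - 2 ^ (m + 1) + 1 := hk
    have hge := Cfsg.Agent.Lib.helper25.SzPart.card_ge T h21 h2N
    have hc : Nat.card (Subgroup.centralizer ({y2} : Set ↥(Cfsg.Agent.Lib.helper2.Suzuki.Gs F (2 ^ (m + 1))))) = k := by
      rw [hk']
      omega
    refine ⟨Subgroup.centralizer ({y2} : Set _), T.cyc y2 h21 h2N, hc, ?_, ?_⟩
    · intro u hu hu1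
      exact Cfsg.Agent.Lib.helper25.SzPart.cent_eq T h21 h2N hu1 hu
    · rw [← hc]; exact n2

end Cfsg.Agent.S0333
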