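import Cfsg.Statements.S0341
import Mathlib
import Cfsg.Agent.Lib.helper1.FrobChar
import Cfsg.Agent.Lib.helper1.FpfPrime
import Cfsg.Agent.Lib.helper1.FrobStruct
-- import your own Cfsg.Agent.* helpers here

set_option autoImplicit false
open Cfsg

namespace Cfsg.Agent.S0341

open scoped Pointwise

theorem artin_two {F : Type*} [Field F] [Finite F] (σ : F →+* F) (r : ℕ) (hr : r.Prime)
    (hσr : ∀ x : F, σ^[r] x = x) (hσ1 : ∃ x : F, σ x ≠ x)
    (hfix : ∀ x : F, σ x = x → x = 0 ∨ x = 1) :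
    Nat.card F = 2 ^ r := by
  classical
  haveI : Fintype F := Fintype.ofFinite F
  have hinj : Function.Injective σ := σ.injective
  let τ : RingAut F := RingEquiv.ofBijective σ ⟨hinj, Finite.injective_iff_surjective.mp hinj⟩
  have hτ : ∀ x, τ x = σ x := fun x => rfl
  have hτpow : ∀ n : ℕ, ∀ x, (τ ^ n) x = σ^[n] x := by
    intro n
    induction n with
    | zero => intro x; simp
    | succ n ih =>
      intro x
      rw [pow_succ, RingAut.mul_apply, hτ, ih, ← Function.iterate_succ_apply]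
  have hτr : τ ^ r = 1 := by
    ext x
    rw [hτpow, hσr]; rfl
  have hτ1 : τ ≠ 1 := by
    obtain ⟨x, hx⟩ := hσ1
    intro h
    apply hx
    have h' := congrArg (fun f : RingAut F => f x) h
    simpa [hτ] using h'
  haveI : Fact r.Prime := ⟨hr⟩
  have hord : orderOf τ = r := orderOf_eq_prime hτr hτ1
  let G' : Subgroup (RingAut F) := Subgroup.zpowers τ
  haveI : Finite (RingAut F) :=
    Finite.of_injective (fun f : RingAut F => (f : F → F)) (fun f g h => RingEquiv.ext (congrFun h))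
  haveI : Fintype G' := Fintype.ofFinite G'
  have h1 : Module.finrank (FixedPoints.subfield G' F) F = Fintype.card G' :=
    FixedPoints.finrank_eq_card G' F
  have h2 : Fintype.card G' = r := by
    rw [← Nat.card_eq_fintype_card, Nat.card_zpowers, hord]
  have h3 : Nat.card (FixedPoints.subfield G' F) = 2 := by
    rw [Nat.card_eq_two_iff]
    refine ⟨0, 1, zero_ne_one, ?_⟩
    ext x
    simp only [Set.mem_insert_iff, Set.mem_singleton_iff, Set.mem_univ, iff_true]
    have hx : ∀ g : G', g • (x : F) = x := x.2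
    have hx' : σ (x : F) = x := hx ⟨τ, Subgroup.mem_zpowers τ⟩
    rcases hfix _ hx' with h | h
    · left; exact Subtype.ext h
    · right; exact Subtype.ext h
  have h4 := Module.natCard_eq_pow_finrank (K := FixedPoints.subfield G' F) (V := F)
  rw [h4, h3, h1, h2]

theorem commutant_field {V : Type*} [AddCommGroup V] [Finite V] {Q : Type*} [Group Q]
    (ρ : Q →* AddMonoid.End V) (K : Subgroup Q)
    (hKc : ∀ x ∈ K, ∀ y ∈ K, x * y = y * x)
    (hKt : ∀ v w : V, v ≠ 0 → w ≠ 0 → ∃ κ ∈ K, ρ κ v = w)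
    (θ : Q) (hθK : ∀ κ ∈ K, θ * κ * θ⁻¹ ∈ K) (r : ℕ) (hr : r.Prime) (hθr : θ ^ r = 1)
    (hθf : ∀ κ ∈ K, ρ (θ * κ * θ⁻¹) = ρ κ → ρ κ = 1)
    (hV : ∃ v w : V, v ≠ 0 ∧ w ≠ 0 ∧ v ≠ w) : Nat.card V = 2 ^ r := by
  classical
  obtain ⟨b, w, hb, hw, hbw⟩ := hV
  have inc_mul : ∀ x y : Q, ρ (x * y) = ρ x * ρ y := fun x y => map_mul ρ x y
  have inc_one : ρ 1 = 1 := map_one ρ
  let E : Subring (AddMonoid.End V) := Subring.centralizer (ρ '' (K : Set Q))
  have hEmem : ∀ e : AddMonoid.End V, e ∈ E ↔ ∀ κ ∈ K, ρ κ * e = e * ρ κ := by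
    intro e
    rw [Subring.mem_centralizer_iff]
    constructor
    · intro h κ hκ
      exact h _ ⟨κ, hκ, rfl⟩
    · rintro h _ ⟨κ, hκ, rfl⟩
      exact h κ hκ
  have hzero : ∀ e ∈ E, e b = 0 → e = 0 := by
    intro e he heb
    ext v
    by_cases hv : v = 0
    · subst hv; simp
    · obtain ⟨κ, hκ, rfl⟩ := hKt b v hb hv
      have h1 := (hEmem e).mp he κ hκ
      have h2 : ρ κ (e b) = e (ρ κ b) := congrArg (fun f : AddMonoid.End V => f b) h1
      rw [← h2, heb]; simp
  have hmemK : ∀ κ ∈ K, ρ κ ∈ E := by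
    intro κ hκ
    rw [hEmem]
    intro κ' hκ'
    rw [← inc_mul, ← inc_mul, hKc κ' hκ' κ hκ]
  have hform : ∀ e ∈ E, e ≠ 0 → ∃ κ ∈ K, e = ρ κ := by
    intro e he he0
    have heb : e b ≠ 0 := fun h => he0 (hzero e he h)
    obtain ⟨κ, hκ, hκb⟩ := hKt b (e b) hb heb
    refine ⟨κ, hκ, ?_⟩
    have h1 : e - ρ κ ∈ E := E.sub_mem he (hmemK κ hκ)
    have h2 : (e - ρ κ) b = 0 := by
      have h3 : (e - ρ κ) b = e b - ρ κ b := rfl
      rw [h3, hκb, sub_self]
    exact sub_eq_zero.mp (hzero _ h1 h2)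
  have hEF : IsField E := by
    refine ⟨⟨0, 1, ?_⟩, ?_, ?_⟩
    · intro h
      have h1 : (0 : AddMonoid.End V) = 1 := congrArg Subtype.val h
      have h2 := congrArg (fun f : AddMonoid.End V => f b) h1
      simp at h2
      exact hb h2.symm
    · intro x y
      apply Subtype.ext
      show x.1 * y.1 = y.1 * x.1
      by_cases hx : x.1 = 0
      · rw [hx]; simp
      by_cases hy : y.1 = 0
      · rw [hy]; simp
      obtain ⟨κ₁, h₁, e₁⟩ := hform x.1 x.2 hx
      obtain ⟨κ₂, h₂, e₂⟩ := hform y.1 y.2 hy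
      rw [e₁, e₂, ← inc_mul, ← inc_mul, hKc κ₁ h₁ κ₂ h₂]
    · intro a ha
      have ha' : a.1 ≠ 0 := fun h => ha (Subtype.ext h)
      obtain ⟨κ, hκ, e⟩ := hform a.1 a.2 ha'
      refine ⟨⟨ρ κ⁻¹, hmemK _ (K.inv_mem hκ)⟩, ?_⟩
      apply Subtype.ext
      show a.1 * ρ κ⁻¹ = 1
      rw [e, ← inc_mul, mul_inv_cancel, inc_one]
  have hconj : ∀ e ∈ E, ρ θ * e * ρ θ⁻¹ ∈ E := by
    intro e he
    by_cases he0 : e = 0
    · rw [he0]; simp
    · obtain ⟨κ, hκ, rfl⟩ := hform e he he0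
      rw [← inc_mul, ← inc_mul]
      exact hmemK _ (hθK κ hκ)
  have hθ1 : ρ θ⁻¹ * ρ θ = 1 := by rw [← inc_mul, inv_mul_cancel, inc_one]
  have hθ2 : ρ θ * ρ θ⁻¹ = 1 := by rw [← inc_mul, mul_inv_cancel, inc_one]
  let σ : E →+* E :=
    { toFun := fun e => ⟨ρ θ * e.1 * ρ θ⁻¹, hconj e.1 e.2⟩
      map_one' := by
        apply Subtype.ext
        show ρ θ * 1 * ρ θ⁻¹ = 1
        rw [mul_one, hθ2]
      map_mul' := by
        intro x y
        apply Subtype.ext
        show ρ θ * (x.1 * y.1) * ρ θ⁻¹ = (ρ θ * x.1 * ρ θ⁻¹) * (ρ θ * y.1 * ρ θ⁻¹)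
        calc ρ θ * (x.1 * y.1) * ρ θ⁻¹ = ρ θ * x.1 * 1 * y.1 * ρ θ⁻¹ := by
              rw [mul_one]; simp only [mul_assoc]
          _ = ρ θ * x.1 * (ρ θ⁻¹ * ρ θ) * y.1 * ρ θ⁻¹ := by rw [hθ1]
          _ = _ := by simp only [mul_assoc]
      map_zero' := by
        apply Subtype.ext
        show ρ θ * 0 * ρ θ⁻¹ = 0
        simp
      map_add' := by
        intro x y
        apply Subtype.ext
        show ρ θ * (x.1 + y.1) * ρ θ⁻¹ = ρ θ * x.1 * ρ θ⁻¹ + ρ θ * y.1 * ρ θ⁻¹
        rw [mul_add, add_mul] }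
  have hσ : ∀ e : E, (σ e).1 = ρ θ * e.1 * ρ θ⁻¹ := fun e => rfl
  have hσpow : ∀ n : ℕ, ∀ e : E, (σ^[n] e).1 = ρ (θ ^ n) * e.1 * ρ (θ ^ n)⁻¹ := by
    intro n
    induction n with
    | zero => intro e; simp [inc_one]
    | succ n ih =>
      intro e
      rw [Function.iterate_succ_apply', hσ, ih, pow_succ', mul_inv_rev, inc_mul, inc_mul]
      simp only [mul_assoc]
  have hσr : ∀ e : E, σ^[r] e = e := by
    intro e
    apply Subtype.ext
    rw [hσpow, hθr]
    simp [inc_one]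
  have hσfix : ∀ e : E, σ e = e → e = 0 ∨ e = 1 := by
    intro e he
    by_cases he0 : e.1 = 0
    · left; exact Subtype.ext he0
    · right
      obtain ⟨κ, hκ, eκ⟩ := hform e.1 e.2 he0
      have h1 : ρ θ * e.1 * ρ θ⁻¹ = e.1 := congrArg Subtype.val he
      rw [eκ, ← inc_mul, ← inc_mul] at h1
      have h2 := hθf κ hκ h1
      apply Subtype.ext
      show e.1 = 1
      rw [eκ, h2]
  have hσne : ∃ e : E, σ e ≠ e := by
    obtain ⟨κ, hκ, hκb⟩ := hKt b w hb hw
    have hκ1 : ρ κ ≠ 1 := by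
      intro h
      rw [h] at hκb
      exact hbw (by simpa using hκb)
    refine ⟨⟨ρ κ, hmemK κ hκ⟩, fun h => ?_⟩
    have h1 : ρ θ * ρ κ * ρ θ⁻¹ = ρ κ := congrArg Subtype.val h
    rw [← inc_mul, ← inc_mul] at h1
    exact hκ1 (hθf κ hκ h1)
  haveI : Finite (AddMonoid.End V) :=
    Finite.of_injective (fun f : AddMonoid.End V => (f : V → V)) (fun f g h => by
      ext v; exact congrFun h v)
  have hcardE : Nat.card E = 2 ^ r := by
    letI : Field E := hEF.toField
    exact artin_two σ r hr hσr hσne hσfix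
  rw [← hcardE]
  symm
  apply Nat.card_eq_of_bijective (fun e : E => e.1 b)
  constructor
  · intro x y hxy
    have h1 : x.1 - y.1 ∈ E := E.sub_mem x.2 y.2
    have h2 : (x.1 - y.1) b = 0 := by
      have h3 : (x.1 - y.1) b = x.1 b - y.1 b := rfl
      rw [h3]
      exact sub_eq_zero.mpr hxy
    exact Subtype.ext (sub_eq_zero.mp (hzero _ h1 h2))
  · intro v
    by_cases hv : v = 0
    · exact ⟨0, by subst hv; simp⟩
    · obtain ⟨κ, hκ, hκb⟩ := hKt b v hb hv
      exact ⟨⟨ρ κ, hmemK κ hκ⟩, hκb⟩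

/-- If a finite group acts faithfully and doubly transitively, no non-identity element fixes three points, some
non-identity element fixes two points, and some normal subgroup acts regularly, then the number of points
is `2^p` with `p` prime. -/
theorem result {G Ω : Type*} [Group G]
    [MulAction G Ω] [Fintype Ω] [FaithfulSMul G Ω] (h2 : MulAction.IsMultiplyPretransitive G Ω 2)
    (h3 : ∀ g : G, ∀ a b c : Ω, a ≠ b → b ≠ c → a ≠ c → g • a = a → g • b = b → g • c = c → g = 1)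
    (hfix : ∃ g : G, g ≠ 1 ∧ ∃ a b : Ω, a ≠ b ∧ g • a = a ∧ g • b = b)
    (N : Subgroup G) [N.Normal] (hNt : MulAction.IsPretransitive N Ω)
    (hNr : ∀ a : Ω, MulAction.stabilizer N a = ⊥) :
    ∃ p : ℕ, p.Prime ∧ Fintype.card Ω = 2 ^ p := by
  classical
  haveI : Finite G := Finite.of_injective (MulAction.toPermHom G Ω) MulAction.toPerm_injective
  obtain ⟨g0, hg01, a, b, hab, hga, hgb⟩ := hfix
  have h2' : ∀ {a b c d : Ω}, a ≠ b → c ≠ d → ∃ g : G, g • a = c ∧ g • b = d :=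
    MulAction.is_two_pretransitive_iff.mp h2
  have hreg : ∀ x ∈ N, ∀ y ∈ N, x • a = y • a → x = y := by
    intro x hx y hy hxy
    have h1 : (⟨y⁻¹ * x, N.mul_mem (N.inv_mem hy) hx⟩ : N) ∈ MulAction.stabilizer N a := by
      rw [MulAction.mem_stabilizer_iff]
      show (y⁻¹ * x) • a = a
      rw [mul_smul, hxy, inv_smul_smul]
    rw [hNr a, Subgroup.mem_bot] at h1
    have h2 : y⁻¹ * x = 1 := congrArg Subtype.val h1
    exact (inv_mul_eq_one.mp h2).symm
  have htr : ∀ c : Ω, ∃ x ∈ N, x • a = c := by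
    intro c
    obtain ⟨x, hx⟩ := MulAction.exists_smul_eq N a c
    exact ⟨x.1, x.2, hx⟩
  have hconj_pt : ∀ l x : G, l • a = a → (l * x * l⁻¹) • a = l • (x • a) := by
    intro l x hl
    have h1 : l⁻¹ • a = a := by rw [inv_smul_eq_iff, hl]
    rw [mul_smul, mul_smul, h1]
  have hexp : ∀ x ∈ N, x * x = 1 := by
    intro x hx
    by_cases hx1 : x = 1
    · rw [hx1, mul_one]
    have hca : x • a ≠ a := by
      intro h
      apply hx1
      apply hreg x hx 1 N.one_mem
      rw [one_smul]; exact h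
    obtain ⟨l, hla, hlb⟩ := h2' hab (Ne.symm hca)
    have hl1 : l⁻¹ • a = a := by rw [inv_smul_eq_iff, hla]
    have hl2 : l⁻¹ • (x • a) = b := by rw [inv_smul_eq_iff, hlb]
    have hg'a : (l * g0 * l⁻¹) • a = a := by
      rw [mul_smul, mul_smul, hl1, hga, hla]
    have hg'c : (l * g0 * l⁻¹) • (x • a) = x • a := by
      rw [mul_smul, mul_smul, hl2, hgb, hlb]
    have hg'1 : l * g0 * l⁻¹ ≠ 1 := by
      intro h
      apply hg01
      have h' : g0 = l⁻¹ * (l * g0 * l⁻¹) * l := by group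
      rw [h', h]; group
    have hcomm : (l * g0 * l⁻¹) * x * (l * g0 * l⁻¹)⁻¹ = x := by
      apply hreg _ (‹N.Normal›.conj_mem x hx _) x hx
      rw [hconj_pt _ x hg'a, hg'c]
    have hcomm' : (l * g0 * l⁻¹) * x = x * (l * g0 * l⁻¹) := by
      calc (l * g0 * l⁻¹) * x = (l * g0 * l⁻¹) * x * (l * g0 * l⁻¹)⁻¹ * (l * g0 * l⁻¹) := by group
        _ = x * (l * g0 * l⁻¹) := by rw [hcomm]
    have hg'd : (l * g0 * l⁻¹) • (x • (x • a)) = x • (x • a) := by
      rw [← mul_smul, hcomm', mul_smul, hg'c]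
    have hd : x • (x • a) = a := by
      by_contra hd
      apply hg'1
      refine h3 _ a (x • a) (x • (x • a)) (Ne.symm hca) ?_ (Ne.symm hd) hg'a hg'c hg'd
      intro h
      exact hca (smul_left_cancel x h).symm
    apply hreg _ (N.mul_mem hx hx) 1 N.one_mem
    rw [mul_smul, one_smul]; exact hd
  have hinvN : ∀ x ∈ N, x⁻¹ = x := fun x hx => inv_eq_of_mul_eq_one_left (hexp x hx)
  have hNcomm : ∀ x ∈ N, ∀ y ∈ N, x * y = y * x := by
    intro x hx y hy
    have h1 := hinvN (x * y) (N.mul_mem hx hy)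
    rw [mul_inv_rev, hinvN x hx, hinvN y hy] at h1
    exact h1.symm
  set L : Subgroup G := MulAction.stabilizer G a with hL
  have hLmem : ∀ l : G, l ∈ L ↔ l • a = a := fun l => MulAction.mem_stabilizer_iff
  let H : Subgroup L := MulAction.stabilizer L b
  have hHmem : ∀ l : L, l ∈ H ↔ (l : G) • b = b := fun l => MulAction.mem_stabilizer_iff
  obtain ⟨c0, hc0⟩ : ∃ c : Ω, g0 • c ≠ c := by
    by_contra hcon
    push Not at hcon
    apply hg01
    apply FaithfulSMul.eq_of_smul_eq_smul (α := Ω)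
    intro c
    rw [hcon c, one_smul]
  have hc0a : c0 ≠ a := by rintro rfl; exact hc0 hga
  have hc0b : c0 ≠ b := by rintro rfl; exact hc0 hgb
  have hFrob : Cfsg.IsFrobeniusComplement H := by
    refine ⟨?_, ?_, ?_⟩
    · intro h
      have h1 : (⟨g0, (hLmem g0).mpr hga⟩ : L) ∈ H := (hHmem _).mpr hgb
      rw [h, Subgroup.mem_bot] at h1
      exact hg01 (congrArg Subtype.val h1)
    · intro h
      obtain ⟨l, hla, hlb⟩ := h2' hab (Ne.symm hc0a)
      have h1 : (⟨l, (hLmem l).mpr hla⟩ : L) ∈ H := by rw [h]; exact Subgroup.mem_top _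
      rw [hHmem] at h1
      exact hc0b (hlb.symm.trans h1)
    · intro g hg
      rw [eq_bot_iff]
      intro y hy
      rw [Subgroup.mem_bot]
      obtain ⟨hy1, hy2⟩ := Subgroup.mem_inf.mp hy
      rw [Subgroup.mem_pointwise_smul_iff_inv_smul_mem] at hy2
      simp only [MulAut.smul_def, MulAut.conj_inv_apply] at hy2
      have h4 : ((g : G)⁻¹ * (y : G) * (g : G)) • b = b := (hHmem _).mp hy2
      have hgb' : (g : G) • b ≠ b := fun h => hg ((hHmem g).mpr h)
      have hga' : (g : G) • a = a := (hLmem _).mp g.2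
      have hya : (y : G) • a = a := (hLmem _).mp y.2
      have hyb : (y : G) • b = b := (hHmem y).mp hy1
      have hyg : (y : G) • ((g : G) • b) = (g : G) • b := by
        rw [mul_smul, mul_smul, inv_smul_eq_iff] at h4
        exact h4
      have h5 : (y : G) = 1 := by
        refine h3 (y : G) a b ((g : G) • b) hab (Ne.symm hgb') ?_ hya hyb hyg
        intro h
        apply hab
        have h' : (g : G) • a = (g : G) • b := by rw [hga']; exact h
        exact smul_left_cancel _ h'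
      exact Subtype.ext h5
  obtain ⟨K0, hK0set, hK0n, hK0c⟩ := Cfsg.Agent.Lib.helper1.frobenius_theorem H hFrob
  haveI : K0.Normal := hK0n
  have hK0mem : ∀ k : L, k ∈ K0 ↔ (k = 1 ∨ ∀ g : L, k ∉ MulAut.conj g • H) := by
    intro k
    have h : k ∈ (K0 : Set L) ↔ k ∈ Cfsg.frobeniusKernel H := by rw [hK0set]
    exact h
  have hK0fix : ∀ k ∈ K0, ∀ c : Ω, c ≠ a → (k : G) • c = c → k = 1 := by
    intro k hk c hca hkc
    rcases (hK0mem k).mp hk with h | h
    · exact h
    · exfalso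
      obtain ⟨l, hla, hlb⟩ := h2' hab (Ne.symm hca)
      apply h ⟨l, (hLmem l).mpr hla⟩
      rw [Subgroup.mem_pointwise_smul_iff_inv_smul_mem]
      simp only [MulAut.smul_def, MulAut.conj_inv_apply]
      rw [hHmem]
      show (l⁻¹ * (k : G) * l) • b = b
      rw [mul_smul, mul_smul, hlb, hkc, inv_smul_eq_iff, hlb]
  have hK0tr : ∀ c : Ω, c ≠ a → ∃ k ∈ K0, (k : G) • b = c := by
    intro c hca
    obtain ⟨l, hla, hlb⟩ := h2' hab (Ne.symm hca)
    obtain ⟨⟨k, h'⟩, hkh⟩ := hK0c.2 (⟨l, (hLmem l).mpr hla⟩ : L)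
    refine ⟨k.1, k.2, ?_⟩
    have h1 : ((k.1 : L) : G) * ((h'.1 : L) : G) = l := congrArg Subtype.val hkh
    have h2 : ((h'.1 : L) : G) • b = b := (hHmem _).mp h'.2
    rw [← hlb, ← h1, mul_smul, h2]
  set KG : Subgroup G := K0.map L.subtype with hKG
  have hKGmem : ∀ x : G, x ∈ KG ↔ ∃ k ∈ K0, (k : G) = x := by
    intro x
    rw [hKG, Subgroup.mem_map]
    rfl
  have hKGa : ∀ x ∈ KG, x • a = a := by
    intro x hx
    obtain ⟨k, hk, rfl⟩ := (hKGmem x).mp hx
    exact (hLmem _).mp k.2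
  have hKGfix : ∀ x ∈ KG, ∀ c : Ω, c ≠ a → x • c = c → x = 1 := by
    intro x hx c hca hxc
    obtain ⟨k, hk, rfl⟩ := (hKGmem x).mp hx
    rw [hK0fix k hk c hca hxc]; rfl
  have hKGtr : ∀ c : Ω, c ≠ a → ∃ x ∈ KG, x • b = c := by
    intro c hca
    obtain ⟨k, hk, hkc⟩ := hK0tr c hca
    exact ⟨(k : G), (hKGmem _).mpr ⟨k, hk, rfl⟩, hkc⟩
  have hKGb : ∀ x ∈ KG, x • b ≠ a := by
    intro x hx h
    apply hab
    have h' : x • a = x • b := by rw [hKGa x hx, h]
    exact smul_left_cancel x h'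
  have hHne : Nat.card H ≠ 1 := fun h => hFrob.1 (Subgroup.eq_bot_of_card_eq H h)
  obtain ⟨r, hr, hrdvd⟩ := Nat.exists_prime_and_dvd hHne
  haveI : Fact r.Prime := ⟨hr⟩
  obtain ⟨h₁, hh₁⟩ := exists_prime_orderOf_dvd_card' r hrdvd
  have hh₁r : h₁ ^ r = 1 := by rw [← hh₁]; exact pow_orderOf_eq_one h₁
  set θ : G := ((h₁ : L) : G) with hθ
  have hθa : θ • a = a := (hLmem _).mp (h₁ : L).2
  have hθb : θ • b = b := (hHmem _).mp h₁.2
  have hθr : θ ^ r = 1 := by
    have h1 := congrArg (fun z : H => ((z : L) : G)) hh₁r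
    simpa using h1
  have hθ1 : θ ≠ 1 := by
    intro h
    have h' : h₁ = 1 := by
      apply Subtype.ext; apply Subtype.ext; exact h
    rw [h', orderOf_one] at hh₁
    exact hr.one_lt.ne hh₁
  have hfpfG : ∀ x ∈ KG, θ * x * θ⁻¹ = x → x = 1 := by
    intro x hx hcomm
    by_contra hx1
    have hxb : x • b ≠ b := fun h => hx1 (hKGfix x hx b (Ne.symm hab) h)
    have hxa : x • b ≠ a := hKGb x hx
    have hcomm' : θ * x = x * θ := by
      calc θ * x = θ * x * θ⁻¹ * θ := by group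
        _ = x * θ := by rw [hcomm]
    have hθc : θ • (x • b) = x • b := by
      rw [← mul_smul, hcomm', mul_smul, hθb]
    exact hθ1 (h3 θ a b (x • b) hab (Ne.symm hxb) (Ne.symm hxa) hθa hθb hθc)
  have hθK : ∀ κ ∈ KG, θ * κ * θ⁻¹ ∈ KG := by
    intro κ hκ
    obtain ⟨k, hk, rfl⟩ := (hKGmem κ).mp hκ
    exact (hKGmem _).mpr ⟨(h₁ : L) * k * (h₁ : L)⁻¹, hK0n.conj_mem k hk _, rfl⟩
  have hnil : Group.IsNilpotent K0 := by
    refine Cfsg.Agent.Lib.helper1.fpf_nilpotent r hr K0 (MulAut.conjNormal (h₁ : L)) ⟨?_, ?_⟩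
    · intro k hk
      have h1 : ((MulAut.conjNormal (h₁ : L) k : K0) : L) = (h₁ : L) * k * (h₁ : L)⁻¹ :=
        MulAut.conjNormal_apply _ _
      rw [hk] at h1
      have h2 : θ * ((k : L) : G) * θ⁻¹ = ((k : L) : G) := (congrArg Subtype.val h1).symm
      have h3' := hfpfG _ ((hKGmem _).mpr ⟨k.1, k.2, rfl⟩) h2
      apply Subtype.ext; apply Subtype.ext; exact h3'
    · rw [← map_pow]
      have h' : (h₁ : L) ^ r = 1 := by
        have h1 := congrArg (fun z : H => (z : L)) hh₁r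
        simpa using h1
      rw [h', map_one]
  obtain ⟨xb, hxbN, hxb⟩ := htr b
  obtain ⟨xc, hxcN, hxc⟩ := htr c0
  have hxb1 : xb ≠ 1 := by rintro rfl; rw [one_smul] at hxb; exact hab hxb
  have hxc1 : xc ≠ 1 := by rintro rfl; rw [one_smul] at hxc; exact hc0a hxc.symm
  have hxbc : xb ≠ xc := by rintro rfl; exact hc0b (hxc.symm.trans hxb)
  have hcardN : Nat.card N = Fintype.card Ω := by
    rw [← Nat.card_eq_fintype_card]
    apply Nat.card_eq_of_bijective (fun x : N => (x : G) • a)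
    constructor
    · intro x y hxy
      exact Subtype.ext (hreg x.1 x.2 y.1 y.2 hxy)
    · intro c
      obtain ⟨x, hx, hxc⟩ := htr c
      exact ⟨⟨x, hx⟩, hxc⟩
  have hevenN : 2 ∣ Nat.card N := by
    have h1 : orderOf (⟨xb, hxbN⟩ : N) = 2 := by
      apply orderOf_eq_prime
      · apply Subtype.ext
        show xb ^ 2 = 1
        rw [pow_two]; exact hexp xb hxbN
      · intro h; exact hxb1 (congrArg Subtype.val h)
    rw [← h1]; exact orderOf_dvd_natCard _
  have hcardK : Nat.card KG + 1 = Fintype.card Ω := by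
    have h1 : Nat.card KG = Nat.card {c : Ω // c ≠ a} := by
      apply Nat.card_eq_of_bijective
        (fun x : KG => (⟨(x : G) • b, hKGb x.1 x.2⟩ : {c : Ω // c ≠ a}))
      constructor
      · intro x y hxy
        have h1 : (x : G) • b = (y : G) • b := congrArg Subtype.val hxy
        have h2 : ((y : G)⁻¹ * (x : G)) • b = b := by rw [mul_smul, h1, inv_smul_smul]
        have h3' := hKGfix _ (KG.mul_mem (KG.inv_mem y.2) x.2) b (Ne.symm hab) h2
        exact Subtype.ext (inv_mul_eq_one.mp h3').symm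
      · intro c
        obtain ⟨x, hx, hxc⟩ := hKGtr c.1 c.2
        exact ⟨⟨x, hx⟩, Subtype.ext hxc⟩
    have h2 : Nat.card {c : Ω // c ≠ a} + 1 = Fintype.card Ω := by
      have h' : Nat.card {c : Ω // c ≠ a} = Set.ncard ({a}ᶜ : Set Ω) :=
        Nat.card_coe_set_eq ({a}ᶜ : Set Ω)
      rw [h', Set.ncard_compl, Set.ncard_singleton, Nat.card_eq_fintype_card]
      have hpos : 0 < Fintype.card Ω := Fintype.card_pos_iff.mpr ⟨a⟩
      omega
    rw [h1, h2]
  have hoddK : Odd (Nat.card KG) := by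
    rw [← hcardN] at hcardK
    obtain ⟨t, ht⟩ := hevenN
    exact ⟨t - 1, by omega⟩
  set M : Subgroup G := N ⊔ KG with hM
  have hNM : N ≤ M := le_sup_left
  have hKM : KG ≤ M := le_sup_right
  have hZ : IsZGroup (KG.subgroupOf M) := by
    apply Cfsg.Agent.Lib.helper1.frob_complement_isZGroup (N.subgroupOf M) (KG.subgroupOf M)
    · apply Subgroup.isComplement'_of_disjoint_and_mul_eq_univ
      · rw [disjoint_iff, eq_bot_iff]
        intro y hy
        obtain ⟨hy1, hy2⟩ := Subgroup.mem_inf.mp hy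
        rw [Subgroup.mem_subgroupOf] at hy1 hy2
        rw [Subgroup.mem_bot]
        apply Subtype.ext
        apply hreg _ hy1 1 N.one_mem
        rw [one_smul]; exact hKGa _ hy2
      · rw [Set.eq_univ_iff_forall]
        intro m
        have hm : (m : G) ∈ ((N ⊔ KG : Subgroup G) : Set G) := m.2
        rw [Subgroup.normal_mul] at hm
        obtain ⟨n, hn, k, hk, hnk⟩ := Set.mem_mul.mp hm
        refine Set.mem_mul.mpr ⟨⟨n, hNM hn⟩, ?_, ⟨k, hKM hk⟩, ?_, Subtype.ext hnk⟩
        · exact Subgroup.mem_subgroupOf.mpr hn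
        · exact Subgroup.mem_subgroupOf.mpr hk
    · intro h
      have h1 : (⟨xb, hNM hxbN⟩ : M) ∈ N.subgroupOf M := Subgroup.mem_subgroupOf.mpr hxbN
      rw [h, Subgroup.mem_bot] at h1
      exact hxb1 (congrArg Subtype.val h1)
    · intro h hh hh1
      rw [eq_bot_iff]
      intro y hy
      obtain ⟨hy1, hy2⟩ := Subgroup.mem_inf.mp hy
      rw [Subgroup.mem_subgroupOf] at hy1
      rw [Subgroup.mem_subgroupOf] at hh
      rw [Subgroup.mem_centralizer_iff] at hy2
      have hy3 : h * y = y * h := hy2 h (Set.mem_singleton h)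
      have hy4 : (h : G) * (y : G) = (y : G) * (h : G) := congrArg Subtype.val hy3
      rw [Subgroup.mem_bot]
      apply Subtype.ext
      apply hreg _ hy1 1 N.one_mem
      rw [one_smul]
      by_contra hya
      apply hh1
      apply Subtype.ext
      apply hKGfix _ hh ((y : G) • a) hya
      rw [← mul_smul, hy4, mul_smul, hKGa _ hh]
    · rw [Nat.card_congr (Subgroup.subgroupOfEquivOfLe hKM).toEquiv]
      exact hoddK
  haveI : IsZGroup K0 := by
    haveI := hZ
    let f : K0 →* (KG.subgroupOf M) :=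
      { toFun := fun k => ⟨⟨((k : L) : G), hKM ((hKGmem _).mpr ⟨k.1, k.2, rfl⟩)⟩,
          Subgroup.mem_subgroupOf.mpr ((hKGmem _).mpr ⟨k.1, k.2, rfl⟩)⟩
        map_one' := rfl
        map_mul' := fun x y => rfl }
    apply IsZGroup.of_injective (f := f)
    intro x y hxy
    have h1 : ((x : L) : G) = ((y : L) : G) :=
      congrArg (fun z : KG.subgroupOf M => ((z : M) : G)) hxy
    exact Subtype.ext (Subtype.ext h1)
  haveI : Group.IsNilpotent K0 := hnil
  have hcyc : IsCyclic K0 := inferInstance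
  have hK0comm : ∀ x y : K0, x * y = y * x := by
    intro x y
    obtain ⟨g, hg⟩ := hcyc.exists_generator
    obtain ⟨i, rfl⟩ := Subgroup.mem_zpowers_iff.mp (hg x)
    obtain ⟨j, rfl⟩ := Subgroup.mem_zpowers_iff.mp (hg y)
    rw [← zpow_add, ← zpow_add, add_comm]
  have hKGc : ∀ x ∈ KG, ∀ y ∈ KG, x * y = y * x := by
    intro x hx y hy
    obtain ⟨k, hk, rfl⟩ := (hKGmem x).mp hx
    obtain ⟨k', hk', rfl⟩ := (hKGmem y).mp hy
    have h := hK0comm ⟨k, hk⟩ ⟨k', hk'⟩
    exact congrArg (fun z : K0 => ((z : L) : G)) h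
  letI : CommGroup N :=
    { (inferInstance : Group N) with
      mul_comm := fun x y => Subtype.ext (hNcomm x.1 x.2 y.1 y.2) }
  haveI : Finite (Additive N) := Finite.of_equiv N Additive.ofMul
  let cj : G → N → N := fun g x => ⟨g * x.1 * g⁻¹, ‹N.Normal›.conj_mem x.1 x.2 g⟩
  let ρ : G →* AddMonoid.End (Additive N) :=
    { toFun := fun g => AddMonoidHom.mk' (fun v => Additive.ofMul (cj g (Additive.toMul v))) (by
        intro v w
        show Additive.ofMul (cj g (Additive.toMul v * Additive.toMul w)) =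
          Additive.ofMul (cj g (Additive.toMul v) * cj g (Additive.toMul w))
        congr 1
        apply Subtype.ext
        show g * ((Additive.toMul v).1 * (Additive.toMul w).1) * g⁻¹ =
          (g * (Additive.toMul v).1 * g⁻¹) * (g * (Additive.toMul w).1 * g⁻¹)
        group)
      map_one' := by
        apply AddMonoidHom.ext
        intro v
        show Additive.ofMul (cj 1 (Additive.toMul v)) = v
        have h : cj 1 (Additive.toMul v) = Additive.toMul v := Subtype.ext (by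
          show (1 : G) * (Additive.toMul v).1 * (1 : G)⁻¹ = (Additive.toMul v).1
          simp)
        rw [h]; rfl
      map_mul' := by
        intro x y
        apply AddMonoidHom.ext
        intro v
        show Additive.ofMul (cj (x * y) (Additive.toMul v)) =
          Additive.ofMul (cj x (cj y (Additive.toMul v)))
        congr 1
        apply Subtype.ext
        show x * y * (Additive.toMul v).1 * (x * y)⁻¹ = x * (y * (Additive.toMul v).1 * y⁻¹) * x⁻¹
        group }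
  have hcardV : Nat.card (Additive N) = 2 ^ r := by
    refine commutant_field (V := Additive N) ρ KG hKGc ?_ θ hθK r hr hθr ?_ ?_
    · intro v w hv hw
      have hx1 : (Additive.toMul v : N) ≠ 1 := fun h => hv h
      have hy1 : (Additive.toMul w : N) ≠ 1 := fun h => hw h
      have hca : ((Additive.toMul v : N) : G) • a ≠ a := by
        intro h
        apply hx1
        apply Subtype.ext
        apply hreg _ (Additive.toMul v : N).2 1 N.one_mem
        rw [one_smul]; exact h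
      have hda : ((Additive.toMul w : N) : G) • a ≠ a := by
        intro h
        apply hy1
        apply Subtype.ext
        apply hreg _ (Additive.toMul w : N).2 1 N.one_mem
        rw [one_smul]; exact h
      obtain ⟨k₁, hk₁, hk₁c⟩ := hKGtr _ hca
      obtain ⟨k₂, hk₂, hk₂d⟩ := hKGtr _ hda
      have hκ : k₂ * k₁⁻¹ ∈ KG := KG.mul_mem hk₂ (KG.inv_mem hk₁)
      refine ⟨k₂ * k₁⁻¹, hκ, ?_⟩
      have hκc : (k₂ * k₁⁻¹) • (((Additive.toMul v : N) : G) • a) = ((Additive.toMul w : N) : G) • a := by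
        rw [mul_smul, ← hk₁c, inv_smul_smul, hk₂d]
      have h1 : cj (k₂ * k₁⁻¹) (Additive.toMul v) = Additive.toMul w := by
        apply Subtype.ext
        apply hreg _ (cj (k₂ * k₁⁻¹) (Additive.toMul v)).2 _ (Additive.toMul w : N).2
        show ((k₂ * k₁⁻¹) * ((Additive.toMul v : N) : G) * (k₂ * k₁⁻¹)⁻¹) • a = _
        rw [hconj_pt _ _ (hKGa _ hκ), hκc]
      exact congrArg Additive.ofMul h1
    · intro κ hκ hρeq
      have hκ' : θ * κ * θ⁻¹ ∈ KG := hθK κ hκ
      have hcomm : (θ * κ * θ⁻¹) * xb * (θ * κ * θ⁻¹)⁻¹ = κ * xb * κ⁻¹ := by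
        have h1 := congrArg (fun f : AddMonoid.End (Additive N) => f (Additive.ofMul ⟨xb, hxbN⟩)) hρeq
        have h2 : cj (θ * κ * θ⁻¹) ⟨xb, hxbN⟩ = cj κ ⟨xb, hxbN⟩ := h1
        exact congrArg Subtype.val h2
      have hκκ : θ * κ * θ⁻¹ = κ := by
        have hu : κ⁻¹ * (θ * κ * θ⁻¹) ∈ KG := KG.mul_mem (KG.inv_mem hκ) hκ'
        have h2 : (κ⁻¹ * (θ * κ * θ⁻¹)) * xb = xb * (κ⁻¹ * (θ * κ * θ⁻¹)) := by
          have h' : (θ * κ * θ⁻¹) * xb = κ * xb * κ⁻¹ * (θ * κ * θ⁻¹) := by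
            rw [← hcomm]; group
          calc (κ⁻¹ * (θ * κ * θ⁻¹)) * xb = κ⁻¹ * ((θ * κ * θ⁻¹) * xb) := by group
            _ = κ⁻¹ * (κ * xb * κ⁻¹ * (θ * κ * θ⁻¹)) := by rw [h']
            _ = xb * (κ⁻¹ * (θ * κ * θ⁻¹)) := by group
        have hub : (κ⁻¹ * (θ * κ * θ⁻¹)) • b = b := by
          rw [← hxb, ← mul_smul, h2, mul_smul, hKGa _ hu]
        have h3' := hKGfix _ hu b (Ne.symm hab) hub
        exact (inv_mul_eq_one.mp h3').symm
      rw [hfpfG κ hκ hκκ, map_one]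
    · refine ⟨Additive.ofMul ⟨xb, hxbN⟩, Additive.ofMul ⟨xc, hxcN⟩, ?_, ?_, ?_⟩
      · intro h
        have h' : (⟨xb, hxbN⟩ : N) = 1 := h
        exact hxb1 (congrArg Subtype.val h')
      · intro h
        have h' : (⟨xc, hxcN⟩ : N) = 1 := h
        exact hxc1 (congrArg Subtype.val h')
      · intro h
        have h' : (⟨xb, hxbN⟩ : N) = ⟨xc, hxcN⟩ := h
        exact hxbc (congrArg Subtype.val h')
  refine ⟨r, hr, ?_⟩
  rw [← hcardN, ← hcardV]
  exact (Nat.card_congr Additive.toMul).symm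

end Cfsg.Agent.S0341
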