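import Cfsg.Statements.S0357
import Cfsg.Agent.Lib.helper2.Steiner

set_option autoImplicit false
open Cfsg

open Cfsg.Agent.Lib.helper2

namespace Cfsg.Agent.S0357

/-- In a Steiner system S(5, 6, 12), the complement of every block is again a block. -/
theorem result {α : Type*} [Fintype α] [DecidableEq α] (hα : Fintype.card α = 12) {B : Set (Finset α)} (hB : Cfsg.IsSteinerSystem 5 6 B) {b : Finset α} (hb : b ∈ B) : bᶜ ∈ B := by
  obtain ⟨h0, _⟩ := Steiner.nInter_5_6_12 hα hB hb
  rw [Steiner.nInter] at h0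
  have hpos : 0 < (((Steiner.Bf B).erase b).filter (fun c => (b ∩ c).card = 0)).card := by
    rw [h0]; norm_num
  obtain ⟨c, hc⟩ := Finset.card_pos.1 hpos
  rw [Finset.mem_filter, Finset.mem_erase, Steiner.mem_Bf, Finset.card_eq_zero,
    ← Finset.disjoint_iff_inter_eq_empty] at hc
  obtain ⟨⟨_, hcB⟩, hd⟩ := hc
  have hsub : c ⊆ bᶜ := by
    intro x hx
    rw [Finset.mem_compl]
    intro hxb
    exact Finset.disjoint_left.1 hd hxb hx
  have hcard : bᶜ.card ≤ c.card := by
    rw [Finset.card_compl, hα, hB.1 b hb, hB.1 c hcB]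
  rw [← Finset.eq_of_subset_of_card_le hsub hcard]
  exact hcB

end Cfsg.Agent.S0357
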