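import Cfsg.Statements.S0362
import Cfsg.Agent.Lib.helper28.GolayWeights

set_option autoImplicit false
open Cfsg

namespace Cfsg.Agent.S0362

/-- The length-24 code is self-orthogonal: the dot product over ZMod 2 of any two of its words vanishes (with dimension 12 this makes it self-dual). -/
theorem result (v w : Cfsg.GolayPt → ZMod 2) (hv : v ∈ Cfsg.golayCode) (hw : w ∈ Cfsg.golayCode) : ∑ i, v i * w i = 0 := by
  have h1 : ∀ i, v i * w i = if i ∈ support₂ v ∩ support₂ w then 1 else 0 := by
    intro i
    simp only [support₂, Finset.mem_inter, Finset.mem_filter, Finset.mem_univ, true_and]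
    rcases Cfsg.Agent.Lib.helper28.zmod2_cases (v i) with h | h <;>
      rcases Cfsg.Agent.Lib.helper28.zmod2_cases (w i) with h' | h' <;> simp [h, h']
  rw [Finset.sum_congr rfl (fun i _ => h1 i), Finset.sum_boole]
  rw [ZMod.natCast_eq_zero_iff_even]
  have h2 := Cfsg.Agent.Lib.helper28.even_card_inter_of_mem_supports
    (s := support₂ v) (t := support₂ w) ⟨v, hv, rfl⟩ ⟨w, hw, rfl⟩
  convert h2 using 2
  ext i; simp

end Cfsg.Agent.S0362
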