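import Cfsg.Statements.S0398
import Cfsg.Agent.Lib.helper27.Co0Basic

set_option autoImplicit false
open Cfsg

namespace Cfsg.Agent.S0398

/-- The centre of the lattice's automorphism group has order 2. -/
theorem result : Nat.card (Subgroup.center Cfsg.Co0) = 2 := by
  exact Cfsg.Agent.Lib.helper27.card_center_Co0

end Cfsg.Agent.S0398
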