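import Cfsg.Statements.S0415
import Cfsg.Agent.Lib.helper2.Sharp4

set_option autoImplicit false
open Cfsg

open Cfsg.Agent.Lib.helper2.Sharp4

namespace Cfsg.Agent.S0415

/-- Degrees of sharply 4-transitive permutation groups are 4, 5, 6, 11. -/
theorem result {α : Type*} [Fintype α] [DecidableEq α] (G : Subgroup (Equiv.Perm α)) (h4 : 4 ≤ Fintype.card α) [MulAction.IsMultiplyPretransitive G α 4] (hsharp : ∀ x : Fin 4 ↪ α, MulAction.stabilizer G x = ⊥) : Fintype.card α = 4 ∨ Fintype.card α = 5 ∨ Fintype.card α = 6 ∨ Fintype.card α = 11 := by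
  obtain ⟨x₀⟩ := Function.Embedding.nonempty_of_card_le (α := Fin 4) (β := α)
    (by rw [Fintype.card_fin]; exact h4)
  have hS : S4 G α := S4.of inferInstance hsharp
  obtain ⟨-, hdeg⟩ := hS.degree x₀
  rw [Nat.card_eq_fintype_card] at hdeg
  exact hdeg

end Cfsg.Agent.S0415
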