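import Cfsg.Statements.S0423
import Cfsg.Agent.Lib.helper9.CE0423S
import Cfsg.Agent.Lib.helper9.PermRep

set_option autoImplicit false
open Cfsg

namespace Cfsg.Agent.S0423

open Cfsg.Agent.Lib.helper9 Cfsg.Agent.Lib.helper9.CE

theorem result : ∃ G : Subgroup (Equiv.Perm (Fin 100)), Cfsg.IsJ2 G := by
  obtain ⟨ρ, e, he, hinj, hfin, hs, hN⟩ := CE0423.main
  have key : ∃ H : Subgroup (Equiv.Perm (Fin 100)), (IsSimpleGroup H ∧ Nat.card H = 604800) ∧
      MulAction.IsPretransitive H (Fin 100) ∧ ∀ i : Fin 100, Nat.card (MulAction.stabilizer H i) = 6048 :=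
    PR.simple_perm_group (m := 100) (subH CE0423.R0 (genSet CE0423t.TL)) ρ e he hinj 604800 6048 hs hN
      (by norm_num) (by norm_num)
  obtain ⟨H, h1, _, _⟩ := key
  exact ⟨H, h1⟩

end Cfsg.Agent.S0423
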