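import Cfsg.Statements.S0439
import Mathlib

set_option autoImplicit false
open Cfsg

namespace Cfsg.Agent.S0439

theorem cube {α : Type*} [DecidableEq α] {x y z : α} (hxy : x ≠ y) (hxz : x ≠ z) (hyz : y ≠ z) :
    (Equiv.swap x y * Equiv.swap y z) ^ 3 = 1 := by
  have h1 := Equiv.swap_mul_swap_mul_swap hxy hxz
  have h2 := Equiv.swap_mul_swap_mul_swap (x := z) (y := x) (z := y) hxz.symm hyz.symm
  have : (Equiv.swap x y * Equiv.swap y z) ^ 3 =
      (Equiv.swap x y * (Equiv.swap y z * Equiv.swap x y * Equiv.swap y z) * Equiv.swap x y) *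
        Equiv.swap y z := by
    simp only [pow_succ, pow_zero, one_mul, mul_assoc]
  rw [this, h1, h2, Equiv.swap_mul_self]

theorem pair {α : Type*} [DecidableEq α] (d e : Equiv.Perm α) (hd : d.IsSwap) (he : e.IsSwap) :
    (d * e) ^ 2 = 1 ∨ (d * e) ^ 3 = 1 := by
  obtain ⟨a, b, hab, rfl⟩ := hd
  obtain ⟨c, f, hcf, rfl⟩ := he
  by_cases h1 : a = c
  · subst h1
    by_cases h2 : b = f
    · subst h2; left; rw [Equiv.swap_mul_self, one_pow]
    · right; rw [Equiv.swap_comm a b]; exact cube hab.symm h2 hcf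
  · by_cases h2 : a = f
    · subst h2
      by_cases h3 : b = c
      · subst h3; left; rw [Equiv.swap_comm b a, Equiv.swap_mul_self, one_pow]
      · right; rw [Equiv.swap_comm a b, Equiv.swap_comm c a]; exact cube hab.symm h3 (Ne.symm hcf)
    · by_cases h3 : b = c
      · subst h3
        right; exact cube hab h2 hcf
      · by_cases h4 : b = f
        · subst h4
          right; rw [Equiv.swap_comm c b]; exact cube hab h1 h3
        · left
          have hdis : Equiv.Perm.Disjoint (Equiv.swap a b) (Equiv.swap c f) :=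
            Equiv.Perm.disjoint_swap_swap (by simp [hab, h1, h2, h3, h4, hcf])
          have hc := hdis.commute
          rw [hc.mul_pow, pow_two, pow_two, Equiv.swap_mul_self, Equiv.swap_mul_self, one_mul]

/-- In the symmetric group of degree n ≥ 2, the set of transpositions is a conjugacy class of 3-transpositions which generates the group. -/
theorem result (n : ℕ) (hn : 2 ≤ n) : Cfsg.IsThreeTranspositionClass {σ : Equiv.Perm (Fin n) | σ.IsSwap} := by
  refine ⟨⟨fun d hd => Equiv.Perm.IsSwap.orderOf hd, fun d hd e he => pair d e hd he⟩, ?_,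
    Equiv.Perm.closure_isSwap⟩
  have h01 : (⟨0, by omega⟩ : Fin n) ≠ ⟨1, by omega⟩ := by
    intro h
    have := congrArg Fin.val h
    simp at this
  refine ⟨Equiv.swap ⟨0, by omega⟩ ⟨1, by omega⟩, ⟨_, _, h01, rfl⟩, ?_⟩
  ext σ
  constructor
  · rintro ⟨x, y, hxy, rfl⟩
    exact (Equiv.Perm.isConj_swap h01 hxy : IsConj _ _)
  · intro h
    obtain ⟨c, hc⟩ := isConj_iff.mp (h : IsConj _ _)
    refine ⟨c ⟨0, by omega⟩, c ⟨1, by omega⟩, fun h' => h01 (c.injective h'), ?_⟩
    rw [← hc, Equiv.swap_apply_apply]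

end Cfsg.Agent.S0439
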