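import Cfsg.Statements.S0440
-- import your own Cfsg.Agent.* helpers here
import Cfsg.Agent.Lib.helper4.SpTv

set_option autoImplicit false
open Cfsg

namespace Cfsg.Agent.S0440

open Cfsg.Agent.Lib.helper4 Cfsg.Agent.S0766 in
theorem braid_cube {G : Type*} [Group G] (d e T : G) (hd : d * d = 1) (he : e * e = 1)
    (hT : T * T = 1) (h3 : d * e = T * d) (h4 : e * d = T * e) : (d * e) ^ 3 = 1 := by
  have hT1 : T = d * e * d := by
    calc T = T * (d * d) := by rw [hd, mul_one]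
      _ = T * d * d := by rw [mul_assoc]
      _ = d * e * d := by rw [← h3]
  have hT2 : T = e * d * e := by
    calc T = T * (e * e) := by rw [he, mul_one]
      _ = T * e * e := by rw [mul_assoc]
      _ = e * d * e := by rw [← h4]
  have h5 : (d * e) ^ 3 = (d * e * d) * (e * d * e) := by
    simp only [pow_succ, pow_zero, one_mul, mul_assoc]
  rw [h5, ← hT1, ← hT2, hT]

/-- In the symplectic group in dimension 2n ≥ 2 over the field with two elements, the elements g for which g - 1 has rank one (the symplectic transvections) form a conjugacy class of 3-transpositions generating the group. -/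
theorem result (n : ℕ) (hn : 1 ≤ n) : Cfsg.IsThreeTranspositionClass {g : Matrix.symplecticGroup (Fin n) (ZMod 2) | ((g : Matrix (Fin n ⊕ Fin n) (Fin n ⊕ Fin n) (ZMod 2)) - 1).rank = 1} := by
  classical
  have h2 : ∀ c : ZMod 2, c ≠ 0 → c = 1 := by decide
  have hchar : ∀ c : ZMod 2, c + c = 0 := by decide
  have hD : ∀ g : Matrix.symplecticGroup (Fin n) (ZMod 2),
      g ∈ {g : Matrix.symplecticGroup (Fin n) (ZMod 2) |
        ((g : Matrix (Fin n ⊕ Fin n) (Fin n ⊕ Fin n) (ZMod 2)) - 1).rank = 1}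
      ↔ ∃ u : Fin n ⊕ Fin n → ZMod 2, u ≠ 0 ∧ g = Cfsg.Agent.S0766.tv u 1 := by
    intro g
    constructor
    · intro hg
      obtain ⟨u, c, hu, hc, rfl⟩ := Cfsg.Agent.Lib.helper4.rank_one_symplectic_is_tv g hg
      exact ⟨u, hu, by rw [h2 c hc]⟩
    · rintro ⟨u, hu, rfl⟩
      exact Cfsg.Agent.Lib.helper4.rank_tv_sub_one u 1 hu one_ne_zero
  have hsq : ∀ u : Fin n ⊕ Fin n → ZMod 2,
      Cfsg.Agent.S0766.tv u (1 : ZMod 2) * Cfsg.Agent.S0766.tv u 1 = 1 := by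
    intro u
    rw [Cfsg.Agent.Lib.helper4.tv_add, hchar, Cfsg.Agent.Lib.helper4.tv_zero_right]
  obtain ⟨e₀, he₀⟩ : ∃ e₀ : Fin n ⊕ Fin n → ZMod 2, e₀ = Pi.single (Sum.inl ⟨0, hn⟩) 1 := ⟨_, rfl⟩
  have he₀0 : e₀ ≠ 0 := by
    rw [he₀]
    exact Cfsg.Agent.Lib.helper4.single_ne_zero' _
  refine ⟨⟨?_, ?_⟩, ⟨Cfsg.Agent.S0766.tv e₀ 1, (hD _).mpr ⟨e₀, he₀0, rfl⟩, ?_⟩, ?_⟩
  · intro d hd
    obtain ⟨u, hu, rfl⟩ := (hD d).mp hd
    apply orderOf_eq_prime
    · rw [sq]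
      exact hsq u
    · intro h1
      have h3 := Cfsg.Agent.Lib.helper4.rank_tv_sub_one u (1 : ZMod 2) hu one_ne_zero
      rw [h1] at h3
      simp at h3
  · intro d hd e he
    obtain ⟨u, hu, rfl⟩ := (hD d).mp hd
    obtain ⟨v, hv, rfl⟩ := (hD e).mp he
    by_cases huv : Cfsg.sympForm n (ZMod 2) v u = 0
    · left
      have hcomm : Cfsg.Agent.S0766.tv u (1 : ZMod 2) * Cfsg.Agent.S0766.tv v 1
          = Cfsg.Agent.S0766.tv v 1 * Cfsg.Agent.S0766.tv u 1 := by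
        rw [Cfsg.Agent.Lib.helper4.tv_conj]
        congr 2
        rw [Cfsg.Agent.S0766.tv_val, Cfsg.Agent.S0766.tv_apply, huv, mul_zero, zero_smul, add_zero]
      rw [sq]
      calc Cfsg.Agent.S0766.tv u (1 : ZMod 2) * Cfsg.Agent.S0766.tv v 1
            * (Cfsg.Agent.S0766.tv u 1 * Cfsg.Agent.S0766.tv v 1)
          = Cfsg.Agent.S0766.tv u (1 : ZMod 2) * Cfsg.Agent.S0766.tv v 1
            * (Cfsg.Agent.S0766.tv v 1 * Cfsg.Agent.S0766.tv u 1) := by rw [hcomm]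
        _ = Cfsg.Agent.S0766.tv u (1 : ZMod 2)
            * (Cfsg.Agent.S0766.tv v 1 * Cfsg.Agent.S0766.tv v 1) * Cfsg.Agent.S0766.tv u 1 := by
          simp only [mul_assoc]
        _ = 1 := by rw [hsq, mul_one, hsq]
    · right
      have huv1 : Cfsg.sympForm n (ZMod 2) v u = 1 := h2 _ huv
      have hvu1 : Cfsg.sympForm n (ZMod 2) u v = 1 := by
        rw [Cfsg.Agent.S0766.sf_anti, huv1]
        decide
      apply braid_cube _ _ (Cfsg.Agent.S0766.tv (u + v) 1) (hsq u) (hsq v) (hsq (u + v))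
      · rw [Cfsg.Agent.Lib.helper4.tv_conj]
        congr 2
        rw [Cfsg.Agent.S0766.tv_val, Cfsg.Agent.S0766.tv_apply, huv1, mul_one, one_smul, add_comm]
      · rw [Cfsg.Agent.Lib.helper4.tv_conj]
        congr 2
        rw [Cfsg.Agent.S0766.tv_val, Cfsg.Agent.S0766.tv_apply, hvu1, mul_one, one_smul]
  · ext g
    rw [hD]
    show _ ↔ IsConj (Cfsg.Agent.S0766.tv e₀ 1) g
    rw [isConj_iff]
    constructor
    · rintro ⟨u, hu, rfl⟩
      obtain ⟨h, hh⟩ := Cfsg.Agent.S0271.result n e₀ u he₀0 hu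
      refine ⟨h, ?_⟩
      rw [Cfsg.Agent.Lib.helper4.tv_conj, hh, mul_inv_cancel_right]
    · rintro ⟨c, rfl⟩
      refine ⟨(c : Matrix (Fin n ⊕ Fin n) (Fin n ⊕ Fin n) (ZMod 2)).mulVec e₀,
        Cfsg.Agent.Lib.helper4.mulVec_ne_zero' c e₀ he₀0, ?_⟩
      rw [Cfsg.Agent.Lib.helper4.tv_conj, mul_inv_cancel_right]
  · rw [eq_top_iff, ← Cfsg.Agent.S0765.result n, Subgroup.closure_le]
    rintro A ⟨w, c, hA⟩
    have hAtv : A = Cfsg.Agent.S0766.tv w c := Subtype.ext hA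
    rw [hAtv]
    by_cases hw : w = 0
    · rw [hw, Cfsg.Agent.Lib.helper4.tv_zero_left]
      exact one_mem _
    · by_cases hc : c = 0
      · rw [hc, Cfsg.Agent.Lib.helper4.tv_zero_right]
        exact one_mem _
      · apply Subgroup.subset_closure
        exact (hD _).mpr ⟨w, hw, by rw [h2 c hc]⟩

end Cfsg.Agent.S0440
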