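import Cfsg.Statements.S0442
import Mathlib

set_option autoImplicit false
open Cfsg

namespace Cfsg.Agent.S0442

theorem sq_of_order {G : Type*} [Group G] {x : G} (h : orderOf x = 2) : x * x = 1 := by
  have := pow_orderOf_eq_one x
  rw [h, pow_two] at this
  exact this

theorem inv_conj {G : Type*} [Group G] {a b : G} (ha : a * a = 1) (hb : b * b = 1) (m : ℕ) :
    (a * b) ^ m * a = a * ((a * b) ^ m)⁻¹ := by
  have ha' : a⁻¹ = a := inv_eq_of_mul_eq_one_left ha
  have hb' : b⁻¹ = b := inv_eq_of_mul_eq_one_left hb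
  have h1 : a * (a * b) * a⁻¹ = (a * b)⁻¹ := by
    rw [mul_inv_rev, ha', hb', ← mul_assoc, ha, one_mul]
  have h2 : a * (a * b) ^ m * a⁻¹ = ((a * b) ^ m)⁻¹ := by
    rw [← conj_pow, h1, inv_pow]
  rw [← h2, ha']
  simp only [← mul_assoc, ha, one_mul]

/-- A standard trick for producing elements of an involution centraliser: for an involution a and an element g, let b be the conjugate g⁻¹ * a * g. If a * b has odd order 2m + 1 then g * (a * b) ^ m commutes with a; if a * b has even order 2m then (a * b) ^ m and (a * (g * a * g⁻¹)) ^ m commute with a. -/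
theorem result {G : Type*} [Group G] (a g : G) (ha : orderOf a = 2) : (∀ m : ℕ, orderOf (a * (g⁻¹ * a * g)) = 2 * m + 1 → Commute (g * (a * (g⁻¹ * a * g)) ^ m) a) ∧ (∀ m : ℕ, orderOf (a * (g⁻¹ * a * g)) = 2 * m → Commute ((a * (g⁻¹ * a * g)) ^ m) a ∧ Commute ((a * (g * a * g⁻¹)) ^ m) a) := by
  have ha2 := sq_of_order ha
  have ha' : a⁻¹ = a := inv_eq_of_mul_eq_one_left ha2
  have hb2 : (g⁻¹ * a * g) * (g⁻¹ * a * g) = 1 := by
    have : (g⁻¹ * a * g) * (g⁻¹ * a * g) = g⁻¹ * (a * a) * g := by group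
    rw [this, ha2]; group
  have hb2' : (g * a * g⁻¹) * (g * a * g⁻¹) = 1 := by
    have : (g * a * g⁻¹) * (g * a * g⁻¹) = g * (a * a) * g⁻¹ := by group
    rw [this, ha2]; group
  refine ⟨fun m hm => ?_, fun m hm => ⟨?_, ?_⟩⟩
  · have h1 : (a * (g⁻¹ * a * g)) ^ (2 * m + 1) = 1 := by rw [← hm]; exact pow_orderOf_eq_one _
    have h2 : ((a * (g⁻¹ * a * g)) ^ m)⁻¹ = (a * (g⁻¹ * a * g)) * (a * (g⁻¹ * a * g)) ^ m := by
      apply inv_eq_of_mul_eq_one_right
      rw [← pow_succ', ← pow_add]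
      have : m + (m + 1) = 2 * m + 1 := by ring
      rw [this]; exact h1
    have h3 := inv_conj ha2 hb2 m
    show g * (a * (g⁻¹ * a * g)) ^ m * a = a * (g * (a * (g⁻¹ * a * g)) ^ m)
    rw [mul_assoc, h3, h2]
    simp only [← mul_assoc, ha2, one_mul, mul_inv_cancel]
  · have h1 : (a * (g⁻¹ * a * g)) ^ (2 * m) = 1 := by rw [← hm]; exact pow_orderOf_eq_one _
    have h2 : ((a * (g⁻¹ * a * g)) ^ m)⁻¹ = (a * (g⁻¹ * a * g)) ^ m := by
      apply inv_eq_of_mul_eq_one_right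
      rw [← pow_add]
      have : m + m = 2 * m := by ring
      rw [this]; exact h1
    have h3 := inv_conj ha2 hb2 m
    show (a * (g⁻¹ * a * g)) ^ m * a = a * (a * (g⁻¹ * a * g)) ^ m
    rw [h3, h2]
  · have h1 : (a * (g⁻¹ * a * g)) ^ (2 * m) = 1 := by rw [← hm]; exact pow_orderOf_eq_one _
    have hc : a * (g * a * g⁻¹) = g * (a * (g⁻¹ * a * g))⁻¹ * g⁻¹ := by
      rw [mul_inv_rev, mul_inv_rev, mul_inv_rev, inv_inv, ha']
      group
    have h1' : (a * (g * a * g⁻¹)) ^ (2 * m) = 1 := by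
      rw [hc, conj_pow, inv_pow, h1]; group
    have h2 : ((a * (g * a * g⁻¹)) ^ m)⁻¹ = (a * (g * a * g⁻¹)) ^ m := by
      apply inv_eq_of_mul_eq_one_right
      rw [← pow_add]
      have : m + m = 2 * m := by ring
      rw [this]; exact h1'
    have h3 := inv_conj ha2 hb2' m
    show (a * (g * a * g⁻¹)) ^ m * a = a * (a * (g * a * g⁻¹)) ^ m
    rw [h3, h2]

end Cfsg.Agent.S0442
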