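import Cfsg.Statements.S0444
import Mathlib

set_option autoImplicit false
open Cfsg

namespace Cfsg.Agent.S0444

/-- The map from the dihedral group of order 6 determined by `x` and `d`. -/
def toG {G : Type*} [Group G] (d x : G) : DihedralGroup 3 → G
  | DihedralGroup.r i => x ^ i.val
  | DihedralGroup.sr i => d * x ^ i.val

theorem dihedral3 {G : Type*} [Group G] (d e : G) (hd : d * d = 1) (he : e * e = 1)
    (h3 : (d * e) ^ 3 = 1) (hne : d * e ≠ e * d) :
    Nonempty (Subgroup.closure ({d, e} : Set G) ≃* DihedralGroup 3) := by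
  have hdinv : d⁻¹ = d := inv_eq_of_mul_eq_one_left hd
  have heinv : e⁻¹ = e := inv_eq_of_mul_eq_one_left he
  have hx1 : d * e ≠ 1 := by
    intro h
    have : d = e := by rw [← heinv]; exact eq_inv_of_mul_eq_one_left h
    exact hne (by rw [this])
  have hxinv : (d * e)⁻¹ = e * d := by rw [mul_inv_rev, hdinv, heinv]
  have hdx : d * (d * e) * d⁻¹ = (d * e)⁻¹ := by
    rw [hxinv, hdinv, ← mul_assoc, hd, one_mul]
  have key : ∀ n : ℕ, d * (d * e) ^ n * d = ((d * e) ^ n)⁻¹ := by
    intro n
    have := conj_pow (a := d) (b := d * e) (i := n)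
    rw [hdx, hdinv, inv_pow] at this
    exact this.symm
  have hP_add : ∀ i j : ZMod 3, (d * e) ^ (i + j).val = (d * e) ^ i.val * (d * e) ^ j.val := by
    intro i j
    rw [ZMod.val_add, ← pow_add]
    exact (pow_eq_pow_mod _ h3).symm
  have hP_sub : ∀ i j : ZMod 3, (d * e) ^ (j - i).val = (d * e) ^ j.val * ((d * e) ^ i.val)⁻¹ := by
    intro i j
    have := hP_add (j - i) i
    rw [sub_add_cancel] at this
    rw [this, mul_inv_cancel_right]
  have hdP : ∀ n : ℕ, (d * e) ^ n * d = d * ((d * e) ^ n)⁻¹ := by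
    intro n
    calc (d * e) ^ n * d = (d * d) * (d * e) ^ n * d := by rw [hd, one_mul]
      _ = d * (d * (d * e) ^ n * d) := by group
      _ = d * ((d * e) ^ n)⁻¹ := by rw [key]
  have hcomm : ∀ m n : ℕ, (d * e) ^ m * ((d * e) ^ n)⁻¹ = ((d * e) ^ n)⁻¹ * (d * e) ^ m := by
    intro m n
    have h : Commute ((d * e) ^ m) ((d * e) ^ n) := (Commute.refl (d * e)).pow_pow m n
    exact (h.inv_right).eq
  let f : DihedralGroup 3 →* G := MonoidHom.mk' (toG d (d * e)) (by
    rintro (i | i) (j | j)
    · show (d * e) ^ (i + j).val = (d * e) ^ i.val * (d * e) ^ j.val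
      exact hP_add i j
    · show d * (d * e) ^ (j - i).val = (d * e) ^ i.val * (d * (d * e) ^ j.val)
      rw [hP_sub, ← mul_assoc ((d * e) ^ i.val), hdP, hcomm, mul_assoc]
    · show d * (d * e) ^ (i + j).val = d * (d * e) ^ i.val * (d * e) ^ j.val
      rw [hP_add, mul_assoc]
    · show (d * e) ^ (j - i).val = d * (d * e) ^ i.val * (d * (d * e) ^ j.val)
      rw [hP_sub, mul_assoc d, ← mul_assoc ((d * e) ^ i.val), hdP, ← mul_assoc, ← mul_assoc, hd,
        one_mul, hcomm])
  have hfr : ∀ i : ZMod 3, f (DihedralGroup.r i) = (d * e) ^ i.val := fun i => rfl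
  have hfs : ∀ i : ZMod 3, f (DihedralGroup.sr i) = d * (d * e) ^ i.val := fun i => rfl
  have hord : orderOf (d * e) = 3 := by
    haveI : Fact (Nat.Prime 3) := ⟨Nat.prime_three⟩
    exact orderOf_eq_prime h3 hx1
  have hinj : Function.Injective f := by
    rw [injective_iff_map_eq_one]
    rintro (i | i) hg
    · rw [hfr] at hg
      have hdvd : orderOf (d * e) ∣ i.val := orderOf_dvd_of_pow_eq_one hg
      rw [hord] at hdvd
      have hlt : i.val < 3 := ZMod.val_lt i
      have h0 : i.val = 0 := by omega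
      have : i = 0 := (ZMod.val_eq_zero i).mp h0
      rw [this]; rfl
    · exfalso
      rw [hfs] at hg
      have hdeq : d = ((d * e) ^ i.val)⁻¹ := eq_inv_of_mul_eq_one_left hg
      have hc : Commute (((d * e) ^ i.val)⁻¹) (d * e) :=
        ((Commute.refl (d * e)).pow_left i.val).inv_left
      rw [← hdeq] at hc
      have h1 : d * (d * e) = d * e * d := hc.eq
      rw [← mul_assoc, hd, one_mul] at h1
      apply hne
      calc d * e = d * (d * e * d) := by rw [← h1]
        _ = (d * d) * e * d := by group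
        _ = e * d := by rw [hd, one_mul]
  have hrange : f.range = Subgroup.closure ({d, e} : Set G) := by
    have hdm : d ∈ Subgroup.closure ({d, e} : Set G) := Subgroup.subset_closure (by simp)
    have hem : e ∈ Subgroup.closure ({d, e} : Set G) := Subgroup.subset_closure (by simp)
    apply le_antisymm
    · rintro _ ⟨(i | i), rfl⟩
      · rw [hfr]; exact Subgroup.pow_mem _ (Subgroup.mul_mem _ hdm hem) _
      · rw [hfs]
        exact Subgroup.mul_mem _ hdm (Subgroup.pow_mem _ (Subgroup.mul_mem _ hdm hem) _)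
    · rw [Subgroup.closure_le]
      rintro g (rfl | rfl)
      · refine ⟨DihedralGroup.sr 0, ?_⟩
        rw [hfs]; simp
      · refine ⟨DihedralGroup.sr 1, ?_⟩
        rw [hfs]
        have : (1 : ZMod 3).val = 1 := rfl
        rw [this, pow_one, ← mul_assoc, hd, one_mul]
  exact ⟨(MulEquiv.subgroupCongr hrange.symm).trans (MonoidHom.ofInjective hinj).symm⟩

theorem perm3 : Nonempty (Equiv.Perm (Fin 3) ≃* DihedralGroup 3) := by
  obtain ⟨e₀⟩ := dihedral3 (Equiv.swap (0 : Fin 3) 1) (Equiv.swap (1 : Fin 3) 2)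
    (by decide) (by decide) (by decide) (by decide)
  have htop : Subgroup.closure ({Equiv.swap (0 : Fin 3) 1, Equiv.swap (1 : Fin 3) 2} :
      Set (Equiv.Perm (Fin 3))) = ⊤ := by
    apply Subgroup.eq_top_of_card_eq
    rw [Nat.card_congr e₀.toEquiv, DihedralGroup.nat_card, Nat.card_perm, Nat.card_fin]
    rfl
  exact ⟨Subgroup.topEquiv.symm.trans ((MulEquiv.subgroupCongr htop.symm).trans e₀)⟩

theorem result {G : Type*} [Group G] {E : Set G} (hE : Cfsg.IsThreeTranspositionSet E) {d e : G} (hd : d ∈ E) (he : e ∈ E) (h : ¬ Commute d e) : Nonempty (Subgroup.closure ({d, e} : Set G) ≃* Equiv.Perm (Fin 3)) := by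
  have hd2 : d * d = 1 := by
    have := pow_orderOf_eq_one d
    rw [hE.1 d hd, pow_two] at this
    exact this
  have he2 : e * e = 1 := by
    have := pow_orderOf_eq_one e
    rw [hE.1 e he, pow_two] at this
    exact this
  have hne : d * e ≠ e * d := fun hc => h hc
  have h3 : (d * e) ^ 3 = 1 := by
    rcases hE.2 d hd e he with h2 | h3
    · exfalso
      apply hne
      rw [pow_two] at h2
      have hdinv : d⁻¹ = d := inv_eq_of_mul_eq_one_left hd2
      have heinv : e⁻¹ = e := inv_eq_of_mul_eq_one_left he2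
      have : d * e = (d * e)⁻¹ := eq_inv_of_mul_eq_one_left h2
      rw [mul_inv_rev, hdinv, heinv] at this
      exact this
    · exact h3
  obtain ⟨e₁⟩ := dihedral3 d e hd2 he2 h3 hne
  obtain ⟨e₂⟩ := perm3
  exact ⟨e₁.trans e₂.symm⟩

end Cfsg.Agent.S0444
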