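import Cfsg.Statements.S0458
import Cfsg.Agent.Lib.helper9.CE0458S
import Cfsg.Agent.Lib.helper9.PermRep

set_option autoImplicit false
open Cfsg

namespace Cfsg.Agent.S0458

open Cfsg.Agent.Lib.helper9 Cfsg.Agent.Lib.helper9.CE

/-- Janko's third group exists as a transitive permutation group of degree 6156 with point stabiliser of order 8160: a simple group of order 50232960. -/
theorem result : ∃ H : Subgroup (Equiv.Perm (Fin 6156)), Cfsg.IsJ3 H ∧ MulAction.IsPretransitive H (Fin 6156) ∧ Nat.card (MulAction.stabilizer H (0 : Fin 6156)) = 8160 := by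
  obtain ⟨ρ, e, he, hinj, hfin, hs, hN⟩ := CE0458.main
  have key : ∃ H : Subgroup (Equiv.Perm (Fin 6156)), (IsSimpleGroup H ∧ Nat.card H = 50232960) ∧
      MulAction.IsPretransitive H (Fin 6156) ∧ ∀ i : Fin 6156, Nat.card (MulAction.stabilizer H i) = 8160 :=
    PR.simple_perm_group (m := 6156) (subH CE0458.R0 (genSet CE0458t.TL)) ρ e he hinj 50232960 8160 hs hN
      (by norm_num) (by norm_num)
  obtain ⟨H, h1, h2, h3⟩ := key
  exact ⟨H, h1, h2, h3 0⟩

end Cfsg.Agent.S0458
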