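import Cfsg.Statements.S0459
import Cfsg.Agent.Lib.helper9.CE0459BS
import Cfsg.Agent.Lib.helper9.CE0459x
import Cfsg.Agent.Lib.helper9.PermRep
import Cfsg.Agent.Lib.helper9.CosetWords

set_option autoImplicit false
open Cfsg

namespace Cfsg.Agent.S0459

open Cfsg.Agent.Lib.helper9 Cfsg.Agent.Lib.helper9.CE
open Cfsg.Spor.Fi23 (Gen)

theorem key (i0 : Fin CE0459Bt.D.n) (hi0 : i0.val = 0) :
    ∃ H : Subgroup (Equiv.Perm (Fin CE0459Bt.D.n)),
    (IsSimpleGroup H ∧ Nat.card H = 145926144000) ∧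
    MulAction.IsPretransitive H (Fin CE0459Bt.D.n) ∧
    (∀ i : Fin CE0459Bt.D.n, Nat.card (MulAction.stabilizer H i) = 35942400) ∧
    ∃ T : Subgroup (MulAction.stabilizer H i0), IsSimpleGroup T ∧ Nat.card T = 17971200 := by
  obtain ⟨ρ, e, he, hρ, hinj, hfin, hs, hN, hbase⟩ := CE0459B.main
  obtain ⟨⟨φ⟩, htr, hst⟩ :=
    PR.perm_rep_of_data (subH CE0459B.R0 (relSet CE0459Bt.SWL)) ρ e he hinj
  obtain ⟨_, _, _, _, _, hsT, hNT⟩ := CE0459A.main
  have h1 : ∀ L ∈ CE0459At.RL, wordG CE0459B.R0 (HI.substW CE0459x.sigT L) = 1 := fun L hL =>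
    hbase _ (HI.relsSubK_spec CE0459Bt.D CE0459x.sigT (HI.wkD CE0459Bt.D CE0459x.sigT)
      (HI.wkD_spec CE0459Bt.D CE0459x.sigT) CE0459x.hfixT L hL)
  have hw : ∀ a : Gen, CE0459Bt.D.walk (CE0459x.sigT a) 0 = 0 := by
    intro a
    cases a
    · exact TT.toK_spec CE0459x.hfix0_a
    · exact TT.toK_spec CE0459x.hfix0_b
    · exact TT.toK_spec CE0459x.hfix0_c
    · exact TT.toK_spec CE0459x.hfix0_d
    all_goals rfl
  have hfix : ∀ x, (ρ.comp (HI.substHom CE0459At.RL CE0459B.R0 CE0459x.sigT h1)) x i0 = i0 :=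
    HI.fix_of_gens (ρ.comp (HI.substHom CE0459At.RL CE0459B.R0 CE0459x.sigT h1)) i0 (fun a => by
      apply Fin.ext
      have e1 : HI.substHom CE0459At.RL CE0459B.R0 CE0459x.sigT h1 (PresentedGroup.of a) =
          wordG CE0459B.R0 (CE0459x.sigT a) := by
        have h := HI.substHom_wordG CE0459At.RL CE0459B.R0 CE0459x.sigT h1 [(a, true)]
        rw [HI.substW_cons_true, HI.substW_nil, List.append_nil] at h
        exact h
      show (ρ (HI.substHom CE0459At.RL CE0459B.R0 CE0459x.sigT h1 (PresentedGroup.of a)) i0).val = i0.val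
      rw [e1, hρ, hi0]
      exact hw a)
  refine ⟨ρ.range, ⟨(MulEquiv.isSimpleGroup_congr φ).mp hs, ?_⟩, htr, fun i => ?_, ?_⟩
  · rw [← hN]
    exact Nat.card_congr φ.symm.toEquiv
  · have h2 := hst i
    rw [hN] at h2
    exact Nat.eq_of_mul_eq_mul_right (by decide : 0 < CE0459Bt.D.n)
      (h2.trans (by decide : 145926144000 = 35942400 * CE0459Bt.D.n))
  · refine HI.stab_image ρ.range i0 hsT 17971200 hNT
      (ρ.rangeRestrict.comp (HI.substHom CE0459At.RL CE0459B.R0 CE0459x.sigT h1)) (fun x => hfix x)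
      (wordG (relSet CE0459At.RL) [(Gen.d, true)]) ?_
    intro h
    have h2 : ρ (wordG CE0459B.R0 (HI.substW CE0459x.sigT [(Gen.d, true)])) = 1 := by
      rw [← HI.substHom_wordG CE0459At.RL CE0459B.R0 CE0459x.sigT h1]
      exact congrArg Subtype.val h
    have h3 := hρ (HI.substW CE0459x.sigT [(Gen.d, true)]) ⟨1, by decide⟩
    rw [h2, HI.toSubK_spec CE0459Bt.D CE0459x.sigT (HI.wkD CE0459Bt.D CE0459x.sigT)
      (HI.wkD_spec CE0459Bt.D CE0459x.sigT) CE0459x.hmoveT] at h3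
    exact absurd h3 (by decide)

/-- The Rudvalis group exists as a transitive permutation group of degree 4060: simple of order 145926144000, with point stabiliser of order 35942400 containing a simple subgroup of order 17971200 (the order of the Tits group). -/
theorem result : ∃ H : Subgroup (Equiv.Perm (Fin 4060)), Cfsg.IsRu H ∧ MulAction.IsPretransitive H (Fin 4060) ∧ Nat.card (MulAction.stabilizer H (0 : Fin 4060)) = 35942400 ∧ ∃ T : Subgroup (MulAction.stabilizer H (0 : Fin 4060)), Cfsg.IsTits T := by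
  obtain ⟨H, h1, h2, h3, T, hT⟩ := key (0 : Fin 4060) rfl
  exact ⟨H, h1, h2, h3 (0 : Fin 4060), T, hT⟩

end Cfsg.Agent.S0459
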