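import Cfsg.Statements.S1699
import Cfsg.Agent.S1692
import Cfsg.Agent.Lib.helper9.CE1699s1X
import Cfsg.Agent.Lib.helper9.CE1699s2X
import Cfsg.Agent.Lib.helper9.CE1699cX
import Cfsg.Agent.Lib.helper9.CE1699pK0
import Cfsg.Agent.Lib.helper9.CE1699pK1
import Cfsg.Agent.Lib.helper9.CE1699pK2

set_option autoImplicit false
open Cfsg

namespace Cfsg.Agent.S1699

open Cfsg.Agent.Lib.helper9 Cfsg.Agent.Lib.helper9.CE
open Cfsg.Spor
open Cfsg.Spor.ON (Gen)

/-- the relators -/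
abbrev R0 : Set (FreeGroup Gen) := CE1692.rels

theorem hS0 : ∀ s ∈ Cfsg.Agent.S1692.S0, ∃ x ∈ ([Gen.a, Gen.b, Gen.c, Gen.d, Gen.e, Gen.f] : List Gen), s = FreeGroup.of x := by
  intro s hs
  rcases hs with rfl | rfl | rfl | rfl | rfl | rfl
  · exact ⟨Gen.a, by decide, rfl⟩
  · exact ⟨Gen.b, by decide, rfl⟩
  · exact ⟨Gen.c, by decide, rfl⟩
  · exact ⟨Gen.d, by decide, rfl⟩
  · exact ⟨Gen.e, by decide, rfl⟩
  · exact ⟨Gen.f, by decide, rfl⟩

theorem ub2 : Finite (PresentedGroup (relSet CE1699s2.RL)) ∧ Nat.card (PresentedGroup (relSet CE1699s2.RL)) ≤ 672 :=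
  chain_bot (relSet CE1699s2.RL) 672 (by decide) CE1699s2.index

theorem ub1 : Finite (PresentedGroup (relSet CE1699s1.RL)) ∧ Nat.card (PresentedGroup (relSet CE1699s1.RL)) ≤ 5586 * (672) :=
  chain_step (relSet CE1699s1.RL) CE1699s1.RL (wordG_relSet CE1699s1.RL) CE1699s1.TL CE1699s2.RL (by decide +kernel) (genSet CE1699s1.TL)
    (genSet_of CE1699s1.TL) 5586 (672) (by decide) CE1699s1.index ub2

theorem ub0 : Finite (PresentedGroup R0) ∧ Nat.card (PresentedGroup R0) ≤ 122760 * (5586 * (672)) :=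
  chain_step R0 CE1692.RW CE1692.hRW1 ([Gen.a, Gen.b, Gen.c, Gen.d, Gen.e, Gen.f] : List Gen) CE1699s1.RL (by decide +kernel) Cfsg.Agent.S1692.S0 hS0 122760 (5586 * (672)) (by decide)
    Cfsg.Agent.S1692.cert.index ub1

theorem hsz : ∀ c, c < 5 → cntS CE1699p.O.lab c CE1692.D.n = ([1, 58653, 52136, 5586, 6384] : List Nat).getD c 0 := by
  intro c hc
  interval_cases c
  · rw [← CE1699p.O.pc_eq 0 CE1692.D.n CE1699p.hpcz_0 (fun k hk => allRange_spec CE1699p.hpc_0 k (Nat.zero_le _) hk)]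
    exact CE1699p.hpcn_0
  · rw [← CE1699p.O.pc_eq 1 CE1692.D.n CE1699p.hpcz_1 (fun k hk => allRange_spec CE1699p.hpc_1 k (Nat.zero_le _) hk)]
    exact CE1699p.hpcn_1
  · rw [← CE1699p.O.pc_eq 2 CE1692.D.n CE1699p.hpcz_2 (fun k hk => allRange_spec CE1699p.hpc_2 k (Nat.zero_le _) hk)]
    exact CE1699p.hpcn_2
  · rw [← CE1699p.O.pc_eq 3 CE1692.D.n CE1699p.hpcz_3 (fun k hk => allRange_spec CE1699p.hpc_3 k (Nat.zero_le _) hk)]
    exact CE1699p.hpcn_3
  · rw [← CE1699p.O.pc_eq 4 CE1692.D.n CE1699p.hpcz_4 (fun k hk => allRange_spec CE1699p.hpc_4 k (Nat.zero_le _) hk)]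
    exact CE1699p.hpcn_4

theorem hRLc : CE1699c.RL = CE1692.RW ++ [CE1699p.Yw] := by decide +kernel

theorem hinvO : ∀ L ∈ CE1692.SW, ∀ i, 0 ≤ i → i < CE1692.D.n → CE1699p.O.lab (CE1692.D.walk L i) = CE1699p.O.lab i :=
  (CE1699p.O.inv_join CE1692.D (CE1699p.O.invsK_spec CE1692.D CE1699p.hinvO_0) (CE1699p.O.inv_join CE1692.D (CE1699p.O.invsK_spec CE1692.D CE1699p.hinvO_1) (CE1699p.O.inv_join CE1692.D (CE1699p.O.invsK_spec CE1692.D CE1699p.hinvO_2) (CE1699p.O.inv_join CE1692.D (CE1699p.O.invsK_spec CE1692.D CE1699p.hinvO_3) (CE1699p.O.inv_join CE1692.D (CE1699p.O.invsK_spec CE1692.D CE1699p.hinvO_4) (CE1699p.O.inv_join CE1692.D (CE1699p.O.invsK_spec CE1692.D CE1699p.hinvO_5) (CE1699p.O.inv_join CE1692.D (CE1699p.O.invsK_spec CE1692.D CE1699p.hinvO_6) (CE1699p.O.invsK_spec CE1692.D CE1699p.hinvO_7))))))))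

/-- The presented O'Nan group is simple of the expected order (that is, it is a simple group of the order of the O'Nan group). -/
theorem result : Cfsg.IsON Cfsg.Spor.ON := by
  show IsSimpleGroup (PresentedGroup R0) ∧ Nat.card (PresentedGroup R0) = 460815505920
  obtain ⟨ρ, e, he, hρ, he0⟩ := Cfsg.Agent.S1692.cert.main
  have hfinG : Finite (PresentedGroup R0) := ub0.1
  have hub : Nat.card (PresentedGroup R0) ≤ 460815505920 := le_trans ub0.2 (by norm_num)
  have l0 := level_step ρ e he hρ CE1699p.OL0 CE1699p.LW0 [] ⟨0, by decide⟩ 122760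
    (fun L hL p hp => fixK_spec CE1692.D CE1699p.hfix0 L hL p.val (List.mem_map_of_mem (f := Fin.val) hp))
    (fun j hj => (allRange_join (allRange_spec CE1699p.horb0_0) (allRange_join (allRange_spec CE1699p.horb0_1) (allRange_spec CE1699p.horb0_2))) j (Nat.zero_le _) hj) CE1699p.hroot0 CE1699p.hpcz0
    (fun k hk => allRange_spec CE1699p.hpc0 k (Nat.zero_le _) hk) CE1699p.hpcn0
  have l1 := level_step ρ e he hρ CE1699p.OL1 CE1699p.LW1 [⟨0, by decide⟩] ⟨1, by decide⟩ 58653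
    (fun L hL p hp => fixK_spec CE1692.D CE1699p.hfix1 L hL p.val (List.mem_map_of_mem (f := Fin.val) hp))
    (fun j hj => (allRange_join (allRange_spec CE1699p.horb1_0) (allRange_spec CE1699p.horb1_1)) j (Nat.zero_le _) hj) CE1699p.hroot1 CE1699p.hpcz1
    (fun k hk => allRange_spec CE1699p.hpc1 k (Nat.zero_le _) hk) CE1699p.hpcn1
  have l2 := level_step ρ e he hρ CE1699p.OL2 CE1699p.LW2 [⟨1, by decide⟩, ⟨0, by decide⟩] ⟨31, by decide⟩ 64
    (fun L hL p hp => fixK_spec CE1692.D CE1699p.hfix2 L hL p.val (List.mem_map_of_mem (f := Fin.val) hp))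
    (fun j hj => (allRange_spec CE1699p.horb2_0) j (Nat.zero_le _) hj) CE1699p.hroot2 CE1699p.hpcz2
    (fun k hk => allRange_spec CE1699p.hpc2 k (Nat.zero_le _) hk) CE1699p.hpcn2
  have hch := (chain_le (chain_le l0 l1) l2)
  obtain ⟨hinj, hcard⟩ := rho_injective_of_chain ρ e he [⟨31, by decide⟩, ⟨1, by decide⟩, ⟨0, by decide⟩] 460815505920 (by norm_num)
    ((by norm_num : (122760 * 58653 * 64 : ℕ) = 460815505920) ▸ hch) hub
  have hdich : ∀ K : Subgroup (PresentedGroup R0), K.Normal → (∀ g ∈ K, ρ g = 1) ∨ CE1692.D.n ∣ Nat.card K :=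
    fun K hK => @normal_dichotomy Gen CE1692.D R0 Cfsg.Agent.S1692.S0 CE1692.SW CE1699p.O ρ e (by decide) he hρ he0 Cfsg.Agent.S1692.hS2
      (fun L hL i hi => hinvO L hL i (Nat.zero_le _) hi) (fun j hj => (allRange_join (allRange_spec CE1699p.horbO_0) (allRange_join (allRange_spec CE1699p.horbO_1) (allRange_join (allRange_spec CE1699p.horbO_2) (allRange_spec CE1699p.horbO_3)))) j (Nat.zero_le _) hj)
      5 0 [1, 58653, 52136, 5586, 6384] (fun j hj => OData.labK_spec _ (allRange_spec CE1699p.hlabk j (Nat.zero_le _) hj)) CE1699p.hlab0 CE1699p.hrootO hsz CE1699p.hnum K hK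
  have hy : wordG R0 CE1699p.Yw ^ 5 = 1 := by
    rw [← wordG_flatten_replicate, ← CE1699p.hYp]
    exact CE1692.hRW1 CE1699p.Yp CE1699p.hYrel
  have htop : ∀ K : Subgroup (PresentedGroup R0), K.Normal → wordG R0 CE1699p.Yw ∈ K → K = ⊤ :=
    fun K hK hyK => @normal_eq_top_of_collapse Gen R0 (relSet CE1699c.RL) (FreeGroup.mk CE1699p.Yw)
      (hRLc ▸ collapse_sub R0 CE1692.RW CE1699p.Yw CE1692.hRW1) (subsingleton_of_index_one _ CE1699c.index) K hK hyK
  exact simple_of_data ρ 460815505920 5 (wordG R0 CE1699p.Yw) hfinG hcard (by norm_num) hinj hdich (by decide)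
    (by decide +kernel) hy htop

end Cfsg.Agent.S1699
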