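import Cfsg.Statements.S0460
import Cfsg.Agent.S1699
import Cfsg.Agent.Lib.helper9.CE0460aS
import Cfsg.Agent.Lib.helper9.CE0460bS
import Cfsg.Agent.Lib.helper9.CE0460x
import Cfsg.Agent.Lib.helper9.PermRep

set_option autoImplicit false
open Cfsg

namespace Cfsg.Agent.S0460

open Cfsg.Agent.Lib.helper9 Cfsg.Agent.Lib.helper9.CE
open Cfsg.Spor
open Cfsg.Spor.ON (Gen)

/-- the relators -/
abbrev R0 : Set (FreeGroup Gen) := CE1692.rels

/-- the image in the permutation group of a presented simple group, under a substitution of words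
for its generators that respects its relators and does not kill a generator -/
theorem sub_of_subst {N : ℕ} (ρ : PresentedGroup R0 →* Equiv.Perm (Fin CE1692.D.n))
    (hρ : ∀ (L : Word Gen) (i : Fin CE1692.D.n), (ρ (wordG R0 L) i).val = CE1692.D.walk L i.val)
    (hrel : ∀ L : Word Gen, (∀ b ∈ [31, 1, 0], CE1692.D.walk L b = b) → wordG R0 L = 1)
    (RL : List (Word Cfsg.Spor.Fi23.Gen)) (σ : Cfsg.Spor.Fi23.Gen → Word Gen)
    (hs : IsSimpleGroup (PresentedGroup (relSet RL)))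
    (hN : Nat.card (PresentedGroup (relSet RL)) = N)
    (hfix : ∀ L ∈ RL, ∀ b ∈ [31, 1, 0], CE1692.D.walk (HI.substW σ L) b = b)
    (x : Cfsg.Spor.Fi23.Gen) (p q : ℕ) (hp : p < CE1692.D.n) (hpq : q ≠ p)
    (hmove : CE1692.D.walk (HI.substW σ [(x, true)]) p = q) :
    ∃ K : Subgroup ρ.range, IsSimpleGroup K ∧ Nat.card K = N := by
  have h1 : ∀ L ∈ RL, wordG R0 (HI.substW σ L) = 1 := fun L hL =>
    hrel _ (hfix L hL)
  refine ⟨(ρ.rangeRestrict.comp (HI.substHom RL R0 σ h1)).range,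
    HI.simple_image hs N hN (ρ.rangeRestrict.comp (HI.substHom RL R0 σ h1))
      (wordG (relSet RL) [(x, true)]) ?_⟩
  intro h
  have h2 : ρ (wordG R0 (HI.substW σ [(x, true)])) = 1 := by
    rw [← HI.substHom_wordG RL R0 σ h1]
    exact congrArg Subtype.val h
  have h3 := hρ (HI.substW σ [(x, true)]) ⟨p, hp⟩
  rw [h2, hmove] at h3
  exact hpq h3.symm

theorem key : ∃ H : Subgroup (Equiv.Perm (Fin CE1692.D.n)),
    (IsSimpleGroup H ∧ Nat.card H = 460815505920) ∧
    MulAction.IsPretransitive H (Fin CE1692.D.n) ∧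
    (∀ i : Fin CE1692.D.n, Nat.card (MulAction.stabilizer H i) = 3753792) ∧
    (∃ K : Subgroup H, IsSimpleGroup K ∧ Nat.card K = 175560) ∧
    (∃ K : Subgroup H, IsSimpleGroup K ∧ Nat.card K = 7920) := by
  obtain ⟨ρ, e, he, hρ, he0⟩ := Cfsg.Agent.S1692.cert.main
  have hfinG : Finite (PresentedGroup R0) := Cfsg.Agent.S1699.ub0.1
  have hub : Nat.card (PresentedGroup R0) ≤ 460815505920 :=
    le_trans Cfsg.Agent.S1699.ub0.2 (by norm_num)
  have l0 := level_step ρ e he hρ CE1699p.OL0 CE1699p.LW0 [] ⟨0, by decide⟩ 122760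
    (fun L hL p hp => fixK_spec CE1692.D CE1699p.hfix0 L hL p.val (List.mem_map_of_mem (f := Fin.val) hp))
    (fun j hj => (allRange_join (allRange_spec CE1699p.horb0_0) (allRange_join (allRange_spec CE1699p.horb0_1) (allRange_spec CE1699p.horb0_2))) j (Nat.zero_le _) hj) CE1699p.hroot0 CE1699p.hpcz0
    (fun k hk => allRange_spec CE1699p.hpc0 k (Nat.zero_le _) hk) CE1699p.hpcn0
  have l1 := level_step ρ e he hρ CE1699p.OL1 CE1699p.LW1 [⟨0, by decide⟩] ⟨1, by decide⟩ 58653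
    (fun L hL p hp => fixK_spec CE1692.D CE1699p.hfix1 L hL p.val (List.mem_map_of_mem (f := Fin.val) hp))
    (fun j hj => (allRange_join (allRange_spec CE1699p.horb1_0) (allRange_spec CE1699p.horb1_1)) j (Nat.zero_le _) hj) CE1699p.hroot1 CE1699p.hpcz1
    (fun k hk => allRange_spec CE1699p.hpc1 k (Nat.zero_le _) hk) CE1699p.hpcn1
  have l2 := level_step ρ e he hρ CE1699p.OL2 CE1699p.LW2 [⟨1, by decide⟩, ⟨0, by decide⟩] ⟨31, by decide⟩ 64
    (fun L hL p hp => fixK_spec CE1692.D CE1699p.hfix2 L hL p.val (List.mem_map_of_mem (f := Fin.val) hp))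
    (fun j hj => (allRange_spec CE1699p.horb2_0) j (Nat.zero_le _) hj) CE1699p.hroot2 CE1699p.hpcz2
    (fun k hk => allRange_spec CE1699p.hpc2 k (Nat.zero_le _) hk) CE1699p.hpcn2
  have hch := (chain_le (chain_le l0 l1) l2)
  obtain ⟨hinj, hcard⟩ := rho_injective_of_chain ρ e he [⟨31, by decide⟩, ⟨1, by decide⟩, ⟨0, by decide⟩] 460815505920 (by norm_num)
    ((by norm_num : (122760 * 58653 * 64 : ℕ) = 460815505920) ▸ hch) hub
  have hbot := pstab_eq_bot_of_chain e [⟨31, by decide⟩, ⟨1, by decide⟩, ⟨0, by decide⟩] 460815505920 (by norm_num)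
    ((by norm_num : (122760 * 58653 * 64 : ℕ) = 460815505920) ▸ hch) hub
  have hrel : ∀ L : Word Gen, (∀ b ∈ [31, 1, 0], CE1692.D.walk L b = b) → wordG R0 L = 1 :=
    fun L h => wordG_eq_one_of_base ρ e he hρ [⟨31, by decide⟩, ⟨1, by decide⟩, ⟨0, by decide⟩] hbot L
      (fun p hp => h p.val (List.mem_map_of_mem (f := Fin.val) hp))
  obtain ⟨⟨φ⟩, htr, hst⟩ := PR.perm_rep_of_data (subH R0 Cfsg.Agent.S1692.S0) ρ e he hinj
  have hON : IsSimpleGroup (PresentedGroup R0) ∧ Nat.card (PresentedGroup R0) = 460815505920 :=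
    Cfsg.Agent.S1699.result
  obtain ⟨_, _, _, _, _, hsM, hNM⟩ := CE0460a.main
  obtain ⟨_, _, _, _, _, hsJ, hNJ⟩ := CE0460b.main
  refine ⟨ρ.range, ⟨(MulEquiv.isSimpleGroup_congr φ).mp hON.1, ?_⟩, htr, fun i => ?_, ?_, ?_⟩
  · rw [← hON.2]
    exact Nat.card_congr φ.symm.toEquiv
  · have h1 := hst i
    rw [hcard] at h1
    exact Nat.eq_of_mul_eq_mul_right (by decide : 0 < CE1692.D.n)
      (h1.trans (by decide : 460815505920 = 3753792 * CE1692.D.n))
  · exact sub_of_subst ρ hρ hrel CE0460bt.RL CE0460x.sigJ hsJ hNJ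
      (HI.relsSubK_spec CE1692.D CE0460x.sigJ (HI.wk2 CE1692.D CE0460x.stdJ CE0460x.letJ)
        (HI.wk2_spec CE1692.D CE0460x.stdJ CE0460x.letJ) CE0460x.hfixJ)
      Cfsg.Spor.Fi23.Gen.d 2 8 (by decide) (by decide)
      (HI.toSubK_spec CE1692.D CE0460x.sigJ (HI.wk2 CE1692.D CE0460x.stdJ CE0460x.letJ)
        (HI.wk2_spec CE1692.D CE0460x.stdJ CE0460x.letJ) CE0460x.hmoveJ)
  · exact sub_of_subst ρ hρ hrel CE0460at.RL CE0460x.sigM hsM hNM
      (HI.relsSubK_spec CE1692.D CE0460x.sigM (HI.wk2 CE1692.D CE0460x.stdM CE0460x.letM)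
        (HI.wk2_spec CE1692.D CE0460x.stdM CE0460x.letM) CE0460x.hfixM)
      Cfsg.Spor.Fi23.Gen.c 0 53998 (by decide) (by decide)
      (HI.toSubK_spec CE1692.D CE0460x.sigM (HI.wk2 CE1692.D CE0460x.stdM CE0460x.letM)
        (HI.wk2_spec CE1692.D CE0460x.stdM CE0460x.letM) CE0460x.hmoveM)

/-- The O'Nan group exists as a transitive permutation group of degree 122760: simple of order 460815505920, point stabiliser of order 3753792, and containing simple subgroups of orders 175560 and 7920. -/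
theorem result : ∃ H : Subgroup (Equiv.Perm (Fin 122760)), Cfsg.IsON H ∧ MulAction.IsPretransitive H (Fin 122760) ∧ Nat.card (MulAction.stabilizer H (0 : Fin 122760)) = 3753792 ∧ (∃ K : Subgroup H, Cfsg.IsJ1 K) ∧ (∃ K : Subgroup H, Cfsg.IsM11 K) := by
  obtain ⟨H, h1, h2, h3, h4, h5⟩ := key
  exact ⟨H, h1, h2, h3 (0 : Fin 122760), h4, h5⟩

end Cfsg.Agent.S0460
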