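import Cfsg.Statements.S0462
import Cfsg.Agent.Lib.helper9.HeSp

set_option autoImplicit false
open Cfsg

namespace Cfsg.Agent.S0462

open Cfsg.Agent.Lib.helper9 Cfsg.Agent.Lib.helper9.CE

theorem key (i0 : Fin CE1683.D.n) (hi0 : i0.val = 0) :
    ∃ H : Subgroup (Equiv.Perm (Fin CE1683.D.n)),
    (IsSimpleGroup H ∧ Nat.card H = 4030387200) ∧ MulAction.IsPretransitive H (Fin CE1683.D.n) ∧
    ∃ N : Subgroup (MulAction.stabilizer H i0), N.index = 2 ∧
      Nonempty (N ≃* Matrix.symplecticGroup (Fin 2) SP.F4) := by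
  obtain ⟨ρ, e, he, hinj, hfix, ψ, hψ⟩ := HeSp.core
  obtain ⟨φS⟩ := SP.iso
  obtain ⟨_, _, _, _, _, hsS, hNS⟩ := CE0462B.main
  have hHe : IsSimpleGroup (PresentedGroup HeSp.R0) ∧ Nat.card (PresentedGroup HeSp.R0) = 4030387200 :=
    Cfsg.Agent.S1695.result
  haveI : Finite (PresentedGroup HeSp.R0) := Cfsg.Agent.S1695.ub0.1
  obtain ⟨⟨φ⟩, htr, hst⟩ := PR.perm_rep_of_data (subH HeSp.R0 HeSp.S0) ρ e he hinj
  have hmem : ∀ x : PresentedGroup (relSet HeSp.RS),
      ((ρ.rangeRestrict.comp (subH HeSp.R0 HeSp.S0).subtype).comp ψ) x ∈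
        MulAction.stabilizer ρ.range i0 := by
    intro x
    rw [MulAction.mem_stabilizer_iff]
    exact hfix _ (ψ x).2 i0 hi0
  have hθ : Function.Injective
      (((ρ.rangeRestrict.comp (subH HeSp.R0 HeSp.S0).subtype).comp ψ).codRestrict
        (MulAction.stabilizer ρ.range i0) hmem) := by
    intro x y hxy
    apply hψ
    apply Subtype.ext
    apply hinj
    exact congrArg (fun t : MulAction.stabilizer ρ.range i0 =>
      ((t : ρ.range) : Equiv.Perm (Fin CE1683.D.n))) hxy
  have hcardN : Nat.card (((ρ.rangeRestrict.comp (subH HeSp.R0 HeSp.S0).subtype).comp ψ).codRestrict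
        (MulAction.stabilizer ρ.range i0) hmem).range = 979200 := by
    rw [← Nat.card_congr (MonoidHom.ofInjective hθ).toEquiv]
    exact hNS
  have hK : Nat.card (MulAction.stabilizer ρ.range i0) = 1958400 := by
    have h1 := hst i0
    rw [hHe.2] at h1
    exact Nat.eq_of_mul_eq_mul_right (by decide : 0 < CE1683.D.n)
      (h1.trans (by decide : 4030387200 = 1958400 * CE1683.D.n))
  have hidx : (((ρ.rangeRestrict.comp (subH HeSp.R0 HeSp.S0).subtype).comp ψ).codRestrict
        (MulAction.stabilizer ρ.range i0) hmem).range.index = 2 := by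
    have h2 := Subgroup.index_mul_card (((ρ.rangeRestrict.comp (subH HeSp.R0 HeSp.S0).subtype).comp ψ).codRestrict
        (MulAction.stabilizer ρ.range i0) hmem).range
    rw [hcardN, hK] at h2
    omega
  refine ⟨ρ.range, ⟨(MulEquiv.isSimpleGroup_congr φ).mp hHe.1, ?_⟩, htr, _, hidx,
    ⟨(MonoidHom.ofInjective hθ).symm.trans φS⟩⟩
  rw [← hHe.2]
  exact Nat.card_congr φ.symm.toEquiv

/-- The Held group exists as a transitive permutation group of degree 2058: simple of order 4030387200, with point stabiliser containing, with index 2, a copy of the 4-dimensional symplectic group over the field with four elements. -/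
theorem result : ∃ H : Subgroup (Equiv.Perm (Fin 2058)), Cfsg.IsHe H ∧ MulAction.IsPretransitive H (Fin 2058) ∧ ∃ (F : Type) (_ : Field F) (_ : Fintype F), Fintype.card F = 4 ∧ ∃ N : Subgroup (MulAction.stabilizer H (0 : Fin 2058)), N.index = 2 ∧ Nonempty (N ≃* Matrix.symplecticGroup (Fin 2) F) := by
  obtain ⟨H, h1, h2, N, h3, h4⟩ := key (0 : Fin 2058) rfl
  exact ⟨H, h1, h2, SP.F4, inferInstance, inferInstance, SP.F4.card, N, h3, h4⟩

end Cfsg.Agent.S0462
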