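import Cfsg.Statements.S0481
import Mathlib

set_option autoImplicit false
open Cfsg

namespace Cfsg.Agent.S0481

open scoped Pointwise

/-- Large extraspecial subgroups: let z be an involution of a finite group G whose centraliser C contains a normal 2-subgroup Q with centre of order 2 and all squares central, such that every element of G centralising Q lies in Q. Then C contains a Sylow 2-subgroup of G, and any involution of G whose centraliser contains a Sylow 2-subgroup of G is conjugate to z. -/
theorem result {G : Type*} [Group G] [Finite G] (z : G) (hz : orderOf z = 2) (Q : Subgroup G) (hQC : Q ≤ Subgroup.centralizer ({z} : Set G)) (hQn : ∀ g ∈ Subgroup.centralizer ({z} : Set G), ∀ q ∈ Q, g * q * g⁻¹ ∈ Q) (hQ2 : IsPGroup 2 Q) (hZ : Nat.card (Subgroup.center Q) = 2) (hsq : ∀ x : Q, x ^ 2 ∈ Subgroup.center Q) (hlarge : Subgroup.centralizer (Q : Set G) ≤ Q) : (∃ P : Sylow 2 G, (P : Subgroup G) ≤ Subgroup.centralizer ({z} : Set G)) ∧ ∀ u : G, orderOf u = 2 → (∃ P : Sylow 2 G, (P : Subgroup G) ≤ Subgroup.centralizer ({u} : Set G)) → IsConj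 z u := by
  have : Fact (Nat.Prime 2) := ⟨Nat.prime_two⟩
  have hz1 : z ≠ 1 := by
    intro h
    rw [h, orderOf_one] at hz
    omega
  -- every element centralizing Q lies in the centre of Q
  have hcent : ∀ c : G, (∀ q ∈ Q, q * c = c * q) → ∃ hc : c ∈ Q, (⟨c, hc⟩ : Q) ∈ Subgroup.center Q := by
    intro c hc
    have h1 : c ∈ Subgroup.centralizer (Q : Set G) := by
      rw [Subgroup.mem_centralizer_iff]
      exact hc
    refine ⟨hlarge h1, ?_⟩
    rw [Subgroup.mem_center_iff]
    intro q
    apply Subtype.ext
    exact hc q q.2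
  have hzc : ∀ q ∈ Q, q * z = z * q := by
    intro q hq
    have := Subgroup.mem_centralizer_iff.mp (hQC hq) z rfl
    exact this.symm
  obtain ⟨hzQ, hzZ⟩ := hcent z hzc
  -- uniqueness of the nonidentity central element
  have huniq : ∀ c : G, (∀ q ∈ Q, q * c = c * q) → c ≠ 1 → c = z := by
    intro c hc hc1
    obtain ⟨hcQ, hcZ⟩ := hcent c hc
    have h2 := (Nat.card_eq_two_iff' (1 : Subgroup.center Q)).mp hZ
    have e1 : (⟨⟨c, hcQ⟩, hcZ⟩ : Subgroup.center Q) ≠ 1 := by
      intro h
      apply hc1
      have := congrArg (fun t : Subgroup.center Q => ((t : Q) : G)) h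
      exact this
    have e2 : (⟨⟨z, hzQ⟩, hzZ⟩ : Subgroup.center Q) ≠ 1 := by
      intro h
      apply hz1
      have := congrArg (fun t : Subgroup.center Q => ((t : Q) : G)) h
      exact this
    have := h2.unique e1 e2
    exact congrArg (fun t : Subgroup.center Q => ((t : Q) : G)) this
  obtain ⟨S, hS⟩ := hQ2.exists_le_sylow
  have hcentS : ∀ c ∈ (S : Subgroup G), (∀ s ∈ (S : Subgroup G), s * c = c * s) → c ≠ 1 → c = z :=
    fun c _ hc hc1 => huniq c (fun q hq => hc q (hS hq)) hc1
  have hSne : (S : Subgroup G) ≠ ⊥ := by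
    intro h
    have : z ∈ (S : Subgroup G) := hS hzQ
    rw [h, Subgroup.mem_bot] at this
    exact hz1 this
  have hSz : ∀ s ∈ (S : Subgroup G), s * z = z * s := by
    have : Nontrivial (S : Subgroup G) := (Subgroup.nontrivial_iff_ne_bot _).mpr hSne
    have : Nontrivial (Subgroup.center (S : Subgroup G)) := S.2.center_nontrivial
    obtain ⟨c, hc⟩ := exists_ne (1 : Subgroup.center (S : Subgroup G))
    have hc' : ∀ s ∈ (S : Subgroup G), s * ((c : (S : Subgroup G)) : G) = ((c : (S : Subgroup G)) : G) * s := by
      intro s hs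
      have := Subgroup.mem_center_iff.mp c.2 ⟨s, hs⟩
      exact congrArg Subtype.val this
    have hc1 : ((c : (S : Subgroup G)) : G) ≠ 1 := by
      intro h
      apply hc
      apply Subtype.ext
      apply Subtype.ext
      exact h
    have := hcentS _ (c : (S : Subgroup G)).2 hc' hc1
    rw [← this]
    exact hc'
  constructor
  · refine ⟨S, fun s hs => ?_⟩
    rw [Subgroup.mem_centralizer_iff]
    intro y hy
    rw [Set.mem_singleton_iff] at hy
    subst hy
    exact (hSz s hs).symm
  · rintro u hu ⟨P, hP⟩
    have hcomm : ∀ x ∈ (P : Subgroup G), x * u = u * x := by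
      intro x hx
      have := hP hx
      rw [Subgroup.mem_centralizer_iff] at this
      exact (this u rfl).symm
    have huP : u ∈ (P : Subgroup G) := by
      have h1 : IsPGroup 2 (Subgroup.zpowers u) := by
        apply IsPGroup.of_card (n := 1)
        rw [Nat.card_zpowers, hu, pow_one]
      have h2 : Subgroup.zpowers u ≤ Subgroup.normalizer ((P : Subgroup G) : Set G) := by
        rw [Subgroup.zpowers_le]
        apply Subgroup.centralizer_le_normalizer
        rw [Subgroup.mem_centralizer_iff]
        intro x hx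
        exact hcomm x hx
      have h3 : IsPGroup 2 ((Subgroup.zpowers u) ⊔ (P : Subgroup G) : Subgroup G) :=
        IsPGroup.to_sup_of_normal_right' h1 P.2 h2
      have h4 := P.is_maximal' h3 le_sup_right
      have h5 : u ∈ (Subgroup.zpowers u) ⊔ (P : Subgroup G) :=
        (le_sup_left : Subgroup.zpowers u ≤ _) (Subgroup.mem_zpowers u)
      rw [h4] at h5
      exact h5
    obtain ⟨g, hg⟩ := MulAction.exists_smul_eq G S P
    have hPS : (P : Subgroup G) = MulAut.conj g • (S : Subgroup G) := by
      rw [← hg]; rfl
    have hmem : ∀ x : G, x ∈ (P : Subgroup G) ↔ g⁻¹ * x * g ∈ (S : Subgroup G) := by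
      intro x
      rw [hPS, Subgroup.mem_pointwise_smul_iff_inv_smul_mem]
      simp [MulAut.smul_def]
    have hu1 : u ≠ 1 := by
      intro h
      rw [h, orderOf_one] at hu
      omega
    have key : g⁻¹ * u * g = z := by
      apply hcentS
      · exact (hmem u).mp huP
      · intro s hs
        have hs' : g * s * g⁻¹ ∈ (P : Subgroup G) := by
          rw [hmem]
          have : g⁻¹ * (g * s * g⁻¹) * g = s := by group
          rw [this]; exact hs
        have := hcomm _ hs'
        have e1 : s * (g⁻¹ * u * g) = g⁻¹ * (g * s * g⁻¹ * u) * g := by group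
        have e2 : g⁻¹ * u * g * s = g⁻¹ * (u * (g * s * g⁻¹)) * g := by group
        rw [e1, e2, this]
      · intro h
        apply hu1
        have : u = g * (g⁻¹ * u * g) * g⁻¹ := by group
        rw [this, h]; group
    rw [isConj_iff]
    refine ⟨g, ?_⟩
    rw [← key]; group

end Cfsg.Agent.S0481
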