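import Cfsg.Statements.S0499
import Mathlib
import Cfsg.Agent.Lib.lead.Frobenius
import Cfsg.Agent.Lib.helper29.SmallSimple

set_option autoImplicit false
open Cfsg

namespace Cfsg.Agent.S0499

def fixSub {Q : Type*} [Group Q] (α : MulAut Q) : Subgroup Q where
  carrier := {q | α q = q}
  mul_mem' := fun {a b} ha hb => by
    simp only [Set.mem_setOf_eq] at *
    rw [map_mul, ha, hb]
  one_mem' := map_one α
  inv_mem' := fun {a} ha => by
    simp only [Set.mem_setOf_eq] at *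
    rw [map_inv, ha]

theorem mem_fixSub {Q : Type*} [Group Q] (α : MulAut Q) (q : Q) : q ∈ fixSub α ↔ α q = q :=
  Iff.rfl

theorem dec_small : ∀ b ∈ Finset.range 4, ∀ c ∈ Finset.range b, ∀ r ∈ Finset.range 9,
    r.Prime → r ≠ 2 → r ∣ 2 ^ b - 2 ^ c → (r = 3 ∧ 2 ≤ b) ∨ (r = 7 ∧ b = 3) := by
  decide +kernel


/-- A non-abelian finite simple group of even order has order divisible by 12, 16 or 56. -/
theorem result {G : Type*} [Group G] [Finite G] [IsSimpleGroup G]
    (hG : ¬ IsMulCommutative G) (h2 : Even (Nat.card G)) :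
    12 ∣ Nat.card G ∨ 16 ∣ Nat.card G ∨ 56 ∣ Nat.card G := by
  classical
  haveI : Fact (Nat.Prime 2) := ⟨Nat.prime_two⟩
  have h2dvd : 2 ∣ Nat.card G := even_iff_two_dvd.mp h2
  have hncyc : ¬ IsCyclic G := by
    intro hc
    apply hG
    obtain ⟨g, hg⟩ := IsCyclic.exists_generator (α := G)
    refine ⟨⟨fun a b => ?_⟩⟩
    obtain ⟨i, rfl⟩ := Subgroup.mem_zpowers_iff.mp (hg a)
    obtain ⟨j, rfl⟩ := Subgroup.mem_zpowers_iff.mp (hg b)
    rw [← zpow_add, ← zpow_add, add_comm]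
  have hnF : ¬ Cfsg.Agent.Lib.lead.Frob 2 G := by
    intro hF
    obtain ⟨T⟩ : Nonempty (Sylow 2 G) := inferInstance
    obtain ⟨N, hNn, hNc⟩ := Cfsg.Agent.Lib.lead.frob_complement hF T
    have hcard := hNc.card_mul
    rcases hNn.eq_bot_or_eq_top with h | h
    · rw [h, Subgroup.card_bot, one_mul] at hcard
      apply hncyc
      have hpow := Sylow.card_eq_multiplicity T
      rw [hcard] at hpow
      exact Cfsg.Agent.Lib.helper29.isCyclic_of_simple_pgroup (IsPGroup.of_card hpow)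
    · rw [h, Subgroup.card_top] at hcard
      have hT1 : Nat.card (T : Subgroup G) = 1 := by
        have hpos := Nat.card_pos (α := G)
        exact Nat.eq_of_mul_eq_mul_left hpos (by rw [hcard, mul_one])
      have h3 := T.dvd_card_of_dvd_card h2dvd
      rw [hT1] at h3
      omega
  unfold Cfsg.Agent.Lib.lead.Frob at hnF
  push Not at hnF
  obtain ⟨Q, hQ, g₀, hg₀N, hg₀c, hg₀C⟩ := hnF
  have hex : ∃ n, ∃ g, g ∈ Subgroup.normalizer (Q : Set G) ∧ Nat.Coprime (orderOf g) 2 ∧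
      g ∉ Subgroup.centralizer (Q : Set G) ∧ orderOf g = n := ⟨_, g₀, hg₀N, hg₀c, hg₀C, rfl⟩
  obtain ⟨g, hgN, hcop, hgC, hgn⟩ := Nat.find_spec hex
  have hmin : ∀ g', g' ∈ Subgroup.normalizer (Q : Set G) → Nat.Coprime (orderOf g') 2 →
      g' ∉ Subgroup.centralizer (Q : Set G) → orderOf g ≤ orderOf g' := by
    intro g' h1 h2 h3
    rw [hgn]
    exact Nat.find_min' hex ⟨g', h1, h2, h3, rfl⟩
  have hg1 : g ≠ 1 := by
    rintro rfl
    exact hgC (Subgroup.one_mem _)
  have hord1 : orderOf g ≠ 1 := fun h => hg1 (orderOf_eq_one_iff.mp h)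
  obtain ⟨r, hr⟩ : ∃ r, r = (orderOf g).minFac := ⟨_, rfl⟩
  have hrp : r.Prime := by rw [hr]; exact Nat.minFac_prime hord1
  have hrdvd : r ∣ orderOf g := by rw [hr]; exact Nat.minFac_dvd _
  have hr2 : r ≠ 2 := by
    rintro rfl
    have h1 := Nat.Coprime.coprime_dvd_left hrdvd hcop
    norm_num at h1
  have hrG : r ∣ Nat.card G := hrdvd.trans (orderOf_dvd_natCard g)
  have hgrC : g ^ r ∈ Subgroup.centralizer (Q : Set G) := by
    by_contra hcon
    have h1 := hmin (g ^ r) (Subgroup.pow_mem _ hgN r)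
      (Nat.Coprime.coprime_dvd_left (orderOf_pow_dvd r) hcop) hcon
    rw [orderOf_pow_of_dvd hrp.pos.ne' hrdvd] at h1
    have hpos : 0 < orderOf g := orderOf_pos g
    have h2 := Nat.div_lt_self hpos hrp.one_lt
    omega
  haveI : Fact r.Prime := ⟨hrp⟩
  obtain ⟨α, hα⟩ : ∃ α : MulAut Q, α = Q.normalizerMonoidHom ⟨g, hgN⟩ := ⟨_, rfl⟩
  have hker : ∀ x : Subgroup.normalizer (Q : Set G),
      Q.normalizerMonoidHom x = 1 ↔ (x : G) ∈ Subgroup.centralizer (Q : Set G) := by
    intro x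
    rw [← MonoidHom.mem_ker, Subgroup.normalizerMonoidHom_ker, Subgroup.mem_subgroupOf]
  have hα1 : α ≠ 1 := by
    rw [hα]
    intro h
    exact hgC ((hker _).mp h)
  have hαr : α ^ r = 1 := by
    rw [hα, ← map_pow]
    exact (hker _).mpr hgrC
  have hordα : orderOf α = r := orderOf_eq_prime hαr hα1
  have hPα : IsPGroup r (Subgroup.zpowers α) :=
    IsPGroup.of_card (n := 1) (by rw [Nat.card_zpowers, hordα, pow_one])
  have hfix : MulAction.fixedPoints (Subgroup.zpowers α) Q = (fixSub α : Set Q) := by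
    ext q
    constructor
    · intro h
      exact h ⟨α, Subgroup.mem_zpowers α⟩
    · intro hq β
      have h1 : α ∈ MulAction.stabilizer (MulAut Q) q := hq
      have h2 := Subgroup.zpowers_le.mpr h1 β.2
      exact h2
  have hmod := hPα.card_modEq_card_fixedPoints Q
  rw [hfix] at hmod
  have hmod' : Nat.card Q ≡ Nat.card (fixSub α) [MOD r] := hmod
  have hFdvd : Nat.card (fixSub α) ∣ Nat.card Q := Subgroup.card_subgroup_dvd_card _
  have hFne : Nat.card (fixSub α) ≠ Nat.card Q := by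
    intro h
    have htop : fixSub α = ⊤ := Subgroup.eq_top_of_card_eq _ h
    apply hα1
    ext q
    have hq : q ∈ fixSub α := by rw [htop]; trivial
    have hq' : α q = q := hq
    rw [hq']
    rfl
  obtain ⟨b, hb⟩ := hQ.exists_card_eq
  by_cases h16 : 16 ∣ Nat.card Q
  · right; left
    exact h16.trans (Subgroup.card_subgroup_dvd_card Q)
  have hb3 : b ≤ 3 := by
    by_contra hcon
    apply h16
    rw [hb]
    exact pow_dvd_pow 2 (by omega : 4 ≤ b)
  rw [hb] at hFdvd hFne hmod'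
  obtain ⟨c, hcb, hc⟩ := (Nat.dvd_prime_pow Nat.prime_two).mp hFdvd
  rw [hc] at hFne hmod'
  have hcb' : c < b := by
    rcases Nat.lt_or_ge c b with h | h
    · exact h
    · exfalso
      have : c = b := le_antisymm hcb h
      rw [this] at hFne
      exact hFne rfl
  have hle : 2 ^ c ≤ 2 ^ b := Nat.pow_le_pow_right (by norm_num) hcb
  have hdvd : r ∣ 2 ^ b - 2 ^ c := (Nat.modEq_iff_dvd' hle).mp hmod'.symm
  have hlt : 2 ^ c < 2 ^ b := Nat.pow_lt_pow_right (by norm_num) hcb'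
  have hb8 : 2 ^ b ≤ 2 ^ 3 := Nat.pow_le_pow_right (by norm_num) hb3
  have hr8 : r ≤ 8 := by
    have h1 := Nat.le_of_dvd (by omega) hdvd
    omega
  have hQG : Nat.card Q ∣ Nat.card G := Subgroup.card_subgroup_dvd_card Q
  rw [hb] at hQG
  rcases dec_small b (Finset.mem_range.mpr (by omega)) c (Finset.mem_range.mpr hcb') r
    (Finset.mem_range.mpr (by omega)) hrp hr2 hdvd with ⟨h3, hb2⟩ | ⟨h7, hb3'⟩
  · left
    subst h3
    have h4 : 4 ∣ Nat.card G := (pow_dvd_pow 2 hb2).trans hQG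
    exact Nat.Coprime.mul_dvd_of_dvd_of_dvd (by norm_num : Nat.Coprime 4 3) h4 hrG
  · right; right
    subst h7
    subst hb3'
    exact Nat.Coprime.mul_dvd_of_dvd_of_dvd (by norm_num : Nat.Coprime 8 7) hQG hrG

end Cfsg.Agent.S0499
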