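import Cfsg.Statements.S1337
import Cfsg.Agent.S0519
import Cfsg.Agent.S0100
import Cfsg.Agent.Lib.helper1.NormEA
import Cfsg.Agent.Lib.helper9.Generation
import Mathlib

set_option autoImplicit false
open Cfsg

namespace Cfsg.Agent.S1337

theorem ea_comm {P : Type*} [Group P] {p : ℕ} {A : Subgroup P} (hA : Cfsg.IsElementaryAbelian p A) :
    ∀ x ∈ A, ∀ y ∈ A, x * y = y * x := by
  intro x hx y hy
  haveI := hA.1
  exact congrArg Subtype.val (mul_comm' (⟨x, hx⟩ : A) ⟨y, hy⟩)

theorem ea_mk {P : Type*} [Group P] {p : ℕ} {A : Subgroup P}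
    (h : ∀ x ∈ A, ∀ y ∈ A, x * y = y * x) (h2 : ∀ a ∈ A, a ^ p = 1) :
    Cfsg.IsElementaryAbelian p A :=
  ⟨⟨⟨fun a b => Subtype.ext (h a.1 a.2 b.1 b.2)⟩⟩, h2⟩

/-- The elements of order dividing `p` in an abelian subgroup. -/
def omegaA {P : Type*} [Group P] (p : ℕ) (A : Subgroup P)
    (hA : ∀ a ∈ A, ∀ b ∈ A, a * b = b * a) : Subgroup P where
  carrier := {x | x ∈ A ∧ x ^ p = 1}
  one_mem' := ⟨A.one_mem, one_pow _⟩
  mul_mem' := by
    rintro x y ⟨hx, hx'⟩ ⟨hy, hy'⟩
    refine ⟨A.mul_mem hx hy, ?_⟩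
    have hc : Commute x y := hA x hx y hy
    rw [hc.mul_pow, hx', hy', one_mul]
  inv_mem' := by
    rintro x ⟨hx, hx'⟩
    exact ⟨A.inv_mem hx, by rw [inv_pow, hx', inv_one]⟩

theorem small_ea {G : Type*} [Group G] [Finite G] (x : G) (h : Nat.card G = 2 * orderOf x)
    (E : Subgroup G) (hE : ∀ a ∈ E, a ^ 2 = 1) : Nat.card E ≤ 4 := by
  have hC : Nat.card (Subgroup.zpowers x) = orderOf x := Nat.card_zpowers x
  have hpos : 0 < orderOf x := orderOf_pos x
  have h3 := Subgroup.card_mul_index (Subgroup.zpowers x)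
  have hCi : (Subgroup.zpowers x).index = 2 := by
    rw [hC, h] at h3
    have : orderOf x * (Subgroup.zpowers x).index = orderOf x * 2 := by rw [h3]; ring
    exact Nat.eq_of_mul_eq_mul_left hpos this
  haveI : IsCyclic ↥(E ⊓ Subgroup.zpowers x) :=
    Subgroup.isCyclic_of_le (inf_le_right : E ⊓ Subgroup.zpowers x ≤ Subgroup.zpowers x)
  obtain ⟨g, hg⟩ := IsCyclic.exists_generator (α := ↥(E ⊓ Subgroup.zpowers x))
  have hcard : orderOf g = Nat.card ↥(E ⊓ Subgroup.zpowers x) :=
    orderOf_eq_card_of_forall_mem_zpowers hg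
  have hg2 : g ^ 2 = 1 := by
    apply Subtype.ext
    have := hE g.1 g.2.1
    simpa using this
  have hle : orderOf g ≤ 2 := orderOf_le_of_pow_eq_one (by norm_num) hg2
  have h1 := Subgroup.card_mul_index E
  have h2 := Subgroup.card_mul_index (E ⊓ Subgroup.zpowers x)
  have h4 := Subgroup.index_inf_le (H := E) (K := Subgroup.zpowers x)
  have hEi : 0 < E.index := Nat.pos_of_ne_zero Subgroup.index_ne_zero_of_finite
  rw [hCi] at h4
  rw [← hcard] at h2
  have : Nat.card E * E.index ≤ 4 * E.index := by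
    rw [h1, ← h2]
    calc orderOf g * (E ⊓ Subgroup.zpowers x).index ≤ 2 * (E.index * 2) :=
          Nat.mul_le_mul hle h4
      _ = 4 * E.index := by ring
  exact Nat.le_of_mul_le_mul_right this hEi

theorem card_le_inf {G : Type*} [Group G] [Finite G] (E C : Subgroup G) (m : ℕ)
    (hC : Nat.card G ≤ m * Nat.card C) :
    Nat.card E ≤ m * Nat.card (E ⊓ C : Subgroup G) := by
  have h1 := Subgroup.card_mul_index E
  have h2 := Subgroup.card_mul_index (E ⊓ C)
  have h3 := Subgroup.card_mul_index C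
  have h4 := Subgroup.index_inf_le (H := E) (K := C)
  have hCi : C.index ≤ m := by
    have hpos : 0 < Nat.card C := Nat.card_pos
    have : Nat.card C * C.index ≤ Nat.card C * m := by rw [h3, mul_comm]; exact hC
    exact Nat.le_of_mul_le_mul_left this hpos
  have hEi : 0 < E.index := Nat.pos_of_ne_zero Subgroup.index_ne_zero_of_finite
  have : Nat.card E * E.index ≤ (m * Nat.card (E ⊓ C : Subgroup G)) * E.index := by
    rw [h1, ← h2]
    calc Nat.card (E ⊓ C : Subgroup G) * (E ⊓ C).index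
        ≤ Nat.card (E ⊓ C : Subgroup G) * (E.index * C.index) := Nat.mul_le_mul_left _ h4
      _ ≤ Nat.card (E ⊓ C : Subgroup G) * (E.index * m) :=
          Nat.mul_le_mul_left _ (Nat.mul_le_mul_left _ hCi)
      _ = m * Nat.card (E ⊓ C : Subgroup G) * E.index := by ring
  exact Nat.le_of_mul_le_mul_right this hEi

theorem sup_ea {P : Type*} [Group P] {p : ℕ} {A B : Subgroup P}
    (hA : Cfsg.IsElementaryAbelian p A) (hB : Cfsg.IsElementaryAbelian p B)
    (hc : ∀ a ∈ A, ∀ b ∈ B, a * b = b * a) : Cfsg.IsElementaryAbelian p (A ⊔ B) := by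
  have h1 : A ⊔ B ≤ Subgroup.centralizer (A : Set P) :=
    sup_le (fun x hx => Subgroup.mem_centralizer_iff.mpr (fun h hh => ea_comm hA h hh x hx))
      (fun x hx => Subgroup.mem_centralizer_iff.mpr (fun h hh => hc h hh x hx))
  have h2 : A ⊔ B ≤ Subgroup.centralizer (B : Set P) :=
    sup_le (fun x hx => Subgroup.mem_centralizer_iff.mpr (fun h hh => (hc x hx h hh).symm))
      (fun x hx => Subgroup.mem_centralizer_iff.mpr (fun h hh => ea_comm hB h hh x hx))
  have hK : A ⊔ B ≤ Subgroup.centralizer ((A ⊔ B : Subgroup P) : Set P) :=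
    sup_le (Subgroup.le_centralizer_iff.mp h1) (Subgroup.le_centralizer_iff.mp h2)
  have hcomm : ∀ x ∈ A ⊔ B, ∀ y ∈ A ⊔ B, x * y = y * x := fun x hx y hy =>
    Subgroup.mem_centralizer_iff.mp (hK hy) x hx
  refine ea_mk hcomm ?_
  intro x hx
  have hx' : x ∈ Subgroup.closure ((A : Set P) ∪ B) := by rwa [← Subgroup.sup_eq_closure]
  refine Subgroup.closure_induction (p := fun y _ => y ^ p = 1) ?_ ?_ ?_ ?_ hx'
  · rintro y (hy | hy)
    · exact hA.2 y hy
    · exact hB.2 y hy
  · exact one_pow _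
  · intro y z hy hz h1 h2
    have hyK : y ∈ A ⊔ B := by rw [Subgroup.sup_eq_closure]; exact hy
    have hzK : z ∈ A ⊔ B := by rw [Subgroup.sup_eq_closure]; exact hz
    have hyz : Commute y z := hcomm y hyK z hzK
    rw [hyz.mul_pow, h1, h2, one_mul]
  · intro y hy h1
    rw [inv_pow, h1, inv_one]

theorem rank_cent {P : Type*} [Group P] [Finite P] {p : ℕ} (X A : Subgroup P)
    (hA : Cfsg.IsElementaryAbelian p A) (hAX : A ≤ Subgroup.centralizer (X : Set P))
    (hc : p ^ 2 < Nat.card A) : ¬ Cfsg.PRankLE p 2 ↥(Subgroup.centralizer (X : Set P)) := by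
  intro h
  have h1 := h (A.subgroupOf (Subgroup.centralizer (X : Set P)))
    ⟨⟨fun a b => Subtype.ext (Subtype.ext (ea_comm hA a.1.1 (Subgroup.mem_subgroupOf.mp a.2)
      b.1.1 (Subgroup.mem_subgroupOf.mp b.2)))⟩⟩
    (by
      intro a ha
      apply Subtype.ext
      have := hA.2 a.1 (Subgroup.mem_subgroupOf.mp ha)
      simpa using this)
  have h2 : Nat.card (A.subgroupOf (Subgroup.centralizer (X : Set P))) = Nat.card A :=
    Nat.card_congr (Subgroup.subgroupOfEquivOfLe hAX).toEquiv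
  omega

theorem pow_three_le {P : Type*} [Group P] [Finite P] {p : ℕ} [Fact p.Prime] (hP : IsPGroup p P)
    (E : Subgroup P) (h : p ^ 2 < Nat.card E) : p ^ 3 ≤ Nat.card E := by
  have hpp : p.Prime := Fact.out
  obtain ⟨k, hk⟩ := IsPGroup.iff_card.mp (hP.to_subgroup E)
  rw [hk] at h ⊢
  have : 2 < k := (Nat.pow_lt_pow_iff_right hpp.one_lt).mp h
  exact Nat.pow_le_pow_right hpp.pos this

open scoped IsMulCommutative in
theorem exists_U {P : Type*} [Group P] [Finite P] (p : ℕ) [Fact p.Prime] (hP : IsPGroup p P)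
    (hrk : ¬ Cfsg.PRankLE p 2 P) :
    ∃ U : Subgroup P, U.Normal ∧ Cfsg.IsElementaryAbelian p U ∧ Nat.card ↥U = p ^ 2 := by
  have hpp : p.Prime := Fact.out
  by_contra hno
  push_neg at hno
  obtain ⟨E, hEc, hEe, hEcard⟩ : ∃ E : Subgroup P, IsMulCommutative E ∧ (∀ a ∈ E, a ^ p = 1) ∧
      p ^ 2 < Nat.card E := by
    unfold Cfsg.PRankLE at hrk
    push_neg at hrk
    exact hrk
  have hn : ∀ A : Subgroup P, A.Normal → IsMulCommutative A → IsCyclic A := by
    intro A hAn hAc
    by_contra hnc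
    obtain ⟨r, hr, q₁, q₂, h1, h2, h3, h4⟩ :=
      Cfsg.Agent.Lib.helper9.exists_rank_two_of_not_cyclic hnc
    haveI := Fact.mk hr
    have ho1 : orderOf q₁ = r := orderOf_eq_prime h1 h3
    have hrp : r = p := by
      obtain ⟨k, hk⟩ := (IsPGroup.iff_orderOf.mp hP) (q₁ : P)
      rw [Subgroup.orderOf_coe, ho1] at hk
      exact (Nat.prime_dvd_prime_iff_eq hr hpp).mp (hr.dvd_of_dvd_pow (by rw [← hk] : r ∣ p ^ k))
    rw [hrp] at h1 h2 ho1
    have hAcomm : ∀ a ∈ A, ∀ b ∈ A, a * b = b * a := fun a ha b hb =>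
      congrArg Subtype.val (mul_comm' (⟨a, ha⟩ : A) ⟨b, hb⟩)
    have hWn : (omegaA p A hAcomm).Normal :=
      ⟨fun x hx g => ⟨hAn.conj_mem x hx.1 g, by
        have hx2 : x ^ p = 1 := hx.2
        rw [conj_pow, hx2, mul_one, mul_inv_cancel]⟩⟩
    have hq1W : (q₁ : P) ∈ omegaA p A hAcomm := ⟨q₁.2, by
      have := congrArg Subtype.val h1
      simpa using this⟩
    have hq2W : (q₂ : P) ∈ omegaA p A hAcomm := ⟨q₂.2, by
      have := congrArg Subtype.val h2
      simpa using this⟩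
    have hzle : Subgroup.zpowers (q₁ : P) ≤ omegaA p A hAcomm := by
      rw [Subgroup.zpowers_le]; exact hq1W
    have hzc : Nat.card (Subgroup.zpowers (q₁ : P)) = p := by
      rw [Nat.card_zpowers, Subgroup.orderOf_coe, ho1]
    have hq2n : (q₂ : P) ∉ Subgroup.zpowers (q₁ : P) := by
      intro hmem
      apply h4
      obtain ⟨k, hk⟩ := Subgroup.mem_zpowers_iff.mp hmem
      exact Subgroup.mem_zpowers_iff.mpr ⟨k, Subtype.ext (by simpa using hk)⟩
    obtain ⟨k, hk⟩ := IsPGroup.iff_card.mp (hP.to_subgroup (omegaA p A hAcomm))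
    have hk2 : 2 ≤ k := by
      by_contra hlt
      have hk1 : k ≤ 1 := by omega
      have hle : Nat.card (omegaA p A hAcomm) ≤ Nat.card (Subgroup.zpowers (q₁ : P)) := by
        rw [hk, hzc]
        calc p ^ k ≤ p ^ 1 := Nat.pow_le_pow_right hpp.pos hk1
          _ = p := pow_one p
      have heq := Subgroup.eq_of_le_of_card_ge hzle hle
      exact hq2n (heq ▸ hq2W)
    obtain ⟨N, hNW, hNn, hNc⟩ := Cfsg.Agent.S0100.exists_normal_le_card hP 2 (k - 2)
      (omegaA p A hAcomm) hWn (by rw [hk]; congr 1; omega)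
    refine hno N hNn (ea_mk ?_ ?_) hNc
    · intro x hx y hy
      exact hAcomm x (hNW hx).1 y (hNW hy).1
    · intro x hx
      exact (hNW hx).2
  have hm : ∃ B : Subgroup P, IsMulCommutative B ∧ ¬ IsCyclic B := by
    refine ⟨E, hEc, fun hcyc => ?_⟩
    obtain ⟨g, hg⟩ := IsCyclic.exists_generator (α := ↥E)
    have hcard : orderOf g = Nat.card ↥E := orderOf_eq_card_of_forall_mem_zpowers hg
    have hgp : g ^ p = 1 := by
      apply Subtype.ext
      have := hEe g.1 g.2
      simpa using this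
    have hle : orderOf g ≤ p := orderOf_le_of_pow_eq_one hpp.pos hgp
    have : p ≤ p ^ 2 := by nlinarith [hpp.two_le]
    omega
  obtain ⟨hp2, hcases⟩ := Cfsg.Agent.S0519.result p hP hn hm
  subst hp2
  have hfin : Nat.card E ≤ 4 := by
    rcases hcases with ⟨n, ⟨e⟩⟩ | ⟨n, hn8, ⟨e⟩⟩ | ⟨n, hn3, hcard, x, y, hx, hy, hxy⟩
    · haveI : Finite (QuaternionGroup n) := Finite.of_equiv P e.toEquiv
      have hn0 : n ≠ 0 := by
        rintro rfl
        have h0 : orderOf (QuaternionGroup.a 1 : QuaternionGroup 0) = 0 := by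
          rw [QuaternionGroup.orderOf_a_one]
        exact (orderOf_pos (QuaternionGroup.a 1 : QuaternionGroup 0)).ne' h0
      haveI : NeZero n := ⟨hn0⟩
      have h := small_ea (G := QuaternionGroup n) (QuaternionGroup.a 1)
        (by rw [Nat.card_eq_fintype_card, QuaternionGroup.card, QuaternionGroup.orderOf_a_one]; ring)
        (E.map e.toMonoidHom) (by
          rintro _ ⟨b, hb, rfl⟩
          rw [← map_pow, hEe b hb, map_one])
      rwa [Subgroup.card_map_of_injective e.injective] at h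
    · haveI : Finite (DihedralGroup n) := Finite.of_equiv P e.toEquiv
      have h := small_ea (G := DihedralGroup n) (DihedralGroup.r 1)
        (by rw [DihedralGroup.nat_card, DihedralGroup.orderOf_r_one])
        (E.map e.toMonoidHom) (by
          rintro _ ⟨b, hb, rfl⟩
          rw [← map_pow, hEe b hb, map_one])
      rwa [Subgroup.card_map_of_injective e.injective] at h
    · exact small_ea x (by rw [hcard, hx, pow_succ]; ring) E hEe
  omega

theorem result {P : Type*} [Group P] [Finite P] (p : ℕ) [Fact p.Prime] (hP : IsPGroup p P) (hrk : ¬ Cfsg.PRankLE p 2 P) : ∃ U : Subgroup P, U.Normal ∧ Cfsg.IsElementaryAbelian p U ∧ Nat.card ↥U = p ^ 2 ∧ ∀ X : Subgroup P, Cfsg.IsElementaryAbelian p X → p ^ 2 ≤ Nat.card ↥X → (Relation.ReflTransGen (fun A B : Subgroup P => Cfsg.IsElementaryAbelian p A ∧ p ^ 2 ≤ Nat.card ↥A ∧ Cfsg.IsElementaryAbelian p B ∧ p ^ 2 ≤ Nat.card ↥B ∧ ∀ a ∈ A, ∀ b ∈ B, a * b = b * a) X U ↔ ¬ Cfsg.PRankLE p 2 ↥(Subgroup.centralizer (X : Set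 P))) := by
  have hpp : p.Prime := Fact.out
  obtain ⟨U, hUn, hUe, hUc⟩ := exists_U p hP hrk
  refine ⟨U, hUn, hUe, hUc, ?_⟩
  haveI := hUn
  have hidx := Cfsg.Agent.Lib.helper1.card_le_of_normal_sq hP U hUc
  have L1 : ∀ E : Subgroup P,
      Nat.card E ≤ p * Nat.card (E ⊓ Subgroup.centralizer (U : Set P) : Subgroup P) :=
    fun E => card_le_inf E _ p hidx
  have L1' : ∀ E : Subgroup P, p ^ 2 < Nat.card E →
      p ^ 2 ≤ Nat.card (E ⊓ Subgroup.centralizer (U : Set P) : Subgroup P) := by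
    intro E hE
    have h3 := pow_three_le hP E hE
    have h4 := L1 E
    have h5 : p * p ^ 2 ≤ p * Nat.card (E ⊓ Subgroup.centralizer (U : Set P) : Subgroup P) := by
      calc p * p ^ 2 = p ^ 3 := by ring
        _ ≤ _ := h3.trans h4
    exact Nat.le_of_mul_le_mul_left h5 hpp.pos
  obtain ⟨E, hEc, hEe, hEcard⟩ : ∃ E : Subgroup P, IsMulCommutative E ∧ (∀ a ∈ E, a ^ p = 1) ∧
      p ^ 2 < Nat.card E := by
    unfold Cfsg.PRankLE at hrk
    push_neg at hrk
    exact hrk
  have hEea : Cfsg.IsElementaryAbelian p E := ⟨hEc, hEe⟩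
  have hbase : ¬ Cfsg.PRankLE p 2 ↥(Subgroup.centralizer (U : Set P)) := by
    by_cases hUE : U ≤ E
    · refine rank_cent U E hEea ?_ hEcard
      intro g hg
      exact Subgroup.mem_centralizer_iff.mpr (fun h hh => ea_comm hEea h (hUE hh) g hg)
    · have hE1 := L1' E hEcard
      have hE1ea : Cfsg.IsElementaryAbelian p (E ⊓ Subgroup.centralizer (U : Set P)) :=
        ea_mk (fun x hx y hy => ea_comm hEea x hx.1 y hy.1) (fun a ha => hEe a ha.1)
      have hcomm : ∀ a ∈ E ⊓ Subgroup.centralizer (U : Set P), ∀ b ∈ U, a * b = b * a :=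
        fun a ha b hb => (Subgroup.mem_centralizer_iff.mp ha.2 b hb).symm
      have hK := sup_ea hE1ea hUe hcomm
      refine rank_cent U _ hK ?_ ?_
      · refine sup_le inf_le_right ?_
        intro g hg
        exact Subgroup.mem_centralizer_iff.mpr (fun h hh => ea_comm hUe h hh g hg)
      · by_contra hle
        have hle' : Nat.card (E ⊓ Subgroup.centralizer (U : Set P) ⊔ U : Subgroup P) ≤
            Nat.card U := (not_lt.mp hle).trans_eq hUc.symm
        have heq := Subgroup.eq_of_le_of_card_ge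
          (le_sup_right : U ≤ E ⊓ Subgroup.centralizer (U : Set P) ⊔ U) hle'
        have hE1U : E ⊓ Subgroup.centralizer (U : Set P) ≤ U := le_sup_left.trans heq.ge
        have heq2 := Subgroup.eq_of_le_of_card_ge hE1U (hUc.le.trans hE1)
        exact hUE (heq2.ge.trans inf_le_left)
  have hfwd : ∀ X : Subgroup P, Relation.ReflTransGen (fun A B : Subgroup P =>
      Cfsg.IsElementaryAbelian p A ∧ p ^ 2 ≤ Nat.card ↥A ∧ Cfsg.IsElementaryAbelian p B ∧
      p ^ 2 ≤ Nat.card ↥B ∧ ∀ a ∈ A, ∀ b ∈ B, a * b = b * a) X U →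
      ¬ Cfsg.PRankLE p 2 ↥(Subgroup.centralizer (X : Set P)) := by
    intro X h
    refine Relation.ReflTransGen.head_induction_on
      (motive := fun (A : Subgroup P) _ => ¬ Cfsg.PRankLE p 2 ↥(Subgroup.centralizer (A : Set P))) h hbase ?_
    intro A B hAB _ ih
    obtain ⟨hA, hAc, hB, hBc, hcomm⟩ := hAB
    have hAA : A ≤ Subgroup.centralizer (A : Set P) := fun g hg =>
      Subgroup.mem_centralizer_iff.mpr (fun h hh => ea_comm hA h hh g hg)
    by_cases hBA : B ≤ A
    · by_cases hlt : p ^ 2 < Nat.card A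
      · exact rank_cent A A hA hAA hlt
      · have heq : B = A := Subgroup.eq_of_le_of_card_ge hBA ((not_lt.mp hlt).trans hBc)
        rw [← heq]; exact ih
    · have hK := sup_ea hA hB hcomm
      refine rank_cent A _ hK ?_ ?_
      · refine sup_le hAA ?_
        intro g hg
        exact Subgroup.mem_centralizer_iff.mpr (fun h hh => hcomm h hh g hg)
      · by_contra hle
        have hle' : Nat.card (A ⊔ B : Subgroup P) ≤ Nat.card A := (not_lt.mp hle).trans hAc
        have heq := Subgroup.eq_of_le_of_card_ge (le_sup_left : A ≤ A ⊔ B) hle'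
        exact hBA (le_sup_right.trans heq.ge)
  intro X hX hXc
  refine ⟨hfwd X, ?_⟩
  intro h
  obtain ⟨A₀, hA₀c, hA₀e, hA₀card⟩ : ∃ A₀ : Subgroup ↥(Subgroup.centralizer (X : Set P)),
      IsMulCommutative A₀ ∧ (∀ a ∈ A₀, a ^ p = 1) ∧ p ^ 2 < Nat.card A₀ := by
    unfold Cfsg.PRankLE at h
    push_neg at h
    exact h
  have hFle : A₀.map (Subgroup.centralizer (X : Set P)).subtype ≤ Subgroup.centralizer (X : Set P) :=
    Subgroup.map_subtype_le A₀
  have hFcard : Nat.card (A₀.map (Subgroup.centralizer (X : Set P)).subtype) = Nat.card A₀ :=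
    Subgroup.card_map_of_injective (Subgroup.subtype_injective _)
  have hFea : Cfsg.IsElementaryAbelian p (A₀.map (Subgroup.centralizer (X : Set P)).subtype) := by
    refine ea_mk ?_ ?_
    · rintro _ ⟨a, ha, rfl⟩ _ ⟨b, hb, rfl⟩
      haveI := hA₀c
      have := congrArg Subtype.val (mul_comm' (⟨a, ha⟩ : A₀) ⟨b, hb⟩)
      rw [← map_mul, ← map_mul]
      exact congrArg _ this
    · rintro _ ⟨a, ha, rfl⟩
      rw [← map_pow, hA₀e a ha, map_one]
  have hF1 := L1' _ (by rw [hFcard]; exact hA₀card)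
  have hE1ea : Cfsg.IsElementaryAbelian p
      (A₀.map (Subgroup.centralizer (X : Set P)).subtype ⊓ Subgroup.centralizer (U : Set P)) :=
    ea_mk (fun x hx y hy => ea_comm hFea x hx.1 y hy.1) (fun a ha => hFea.2 a ha.1)
  refine Relation.ReflTransGen.head (b := A₀.map (Subgroup.centralizer (X : Set P)).subtype ⊓
    Subgroup.centralizer (U : Set P)) ⟨hX, hXc, hE1ea, hF1, ?_⟩
    (Relation.ReflTransGen.single ⟨hE1ea, hF1, hUe, by rw [hUc], ?_⟩)
  · intro a ha b hb
    exact Subgroup.mem_centralizer_iff.mp (hFle hb.1) a ha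
  · intro a ha b hb
    exact (Subgroup.mem_centralizer_iff.mp ha.2 b hb).symm

end Cfsg.Agent.S1337
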