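import Cfsg.Statements.S1338
import Cfsg.Agent.S1337
import Cfsg.Agent.S0122
import Mathlib

set_option autoImplicit false
open Cfsg

namespace Cfsg.Agent.S1338

open Cfsg.Agent.S1337

theorem key3 {M : Type*} [CommGroup M] (a u v : M) (hu : u ^ 3 = 1) (hv : v ^ 3 = 1) :
    (a * v⁻¹) * (v * u⁻¹)⁻¹ * ((v * u⁻¹) * (u * a⁻¹)⁻¹)⁻¹ = 1 := by
  have h : (a * v⁻¹) * (v * u⁻¹)⁻¹ * ((v * u⁻¹) * (u * a⁻¹)⁻¹)⁻¹ = (v ^ 3)⁻¹ * u ^ 3 := by
    have h' : ∀ (a u v : Additive M),
        (a + -v) + -(v + -u) + -((v + -u) + -(u + -a)) = -(3 • v) + 3 • u := by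
      intro a u v; abel
    exact h' (Additive.ofMul a) (Additive.ofMul u) (Additive.ofMul v)
  rw [h, hu, hv, inv_one, one_mul]

theorem card_le_ker_mul_map {G H : Type*} [Group G] [Group H] [Finite G] (f : G →* H)
    (S : Subgroup G) : Nat.card S ≤ Nat.card f.ker * Nat.card (S.map f) := by
  have h1 := Subgroup.card_mul_index (f.comp S.subtype).ker
  rw [Subgroup.index_ker] at h1
  have h2 : (f.comp S.subtype).range = S.map f :=
    Subgroup.ext fun x => ⟨fun ⟨s, hs⟩ => ⟨s.1, s.2, hs⟩, fun ⟨s, hs, h⟩ => ⟨⟨s, hs⟩, h⟩⟩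
  have h3 : Nat.card (f.comp S.subtype).ker ≤ Nat.card f.ker :=
    Nat.card_le_card_of_injective (fun x : (f.comp S.subtype).ker =>
      (⟨(x.1 : G), MonoidHom.mem_ker.mpr (MonoidHom.mem_ker.mp x.2)⟩ : f.ker))
      (by
        intro a b h
        apply Subtype.ext; apply Subtype.ext
        exact congrArg (fun z : f.ker => (z : G)) h)
  rw [h2] at h1
  rw [← h1]
  exact Nat.mul_le_mul_right _ h3

theorem nil3 {M : Type*} [CommGroup M] [Finite M] (c : M →* M) (hc3 : ∀ a, c (c (c a)) = a)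
    (hexp : ∀ a : M, a ^ 3 = 1) (hcard : Nat.card M = 81) :
    9 ≤ Nat.card {a : M // c a = a} := by
  let φ : M →* M := MonoidHom.mk' (fun a => c a * a⁻¹) (by
    intro a b
    rw [map_mul, mul_inv, mul_mul_mul_comm])
  have hφ : ∀ a, φ a = c a * a⁻¹ := fun a => rfl
  have hφ3 : ∀ a, φ (φ (φ a)) = 1 := by
    intro a
    have e2 : φ (φ a) = (c (c a) * (c a)⁻¹) * (c a * a⁻¹)⁻¹ := by
      rw [hφ a, hφ, map_mul, map_inv]
    have e3 : φ (φ (φ a)) = (a * (c (c a))⁻¹) * (c (c a) * (c a)⁻¹)⁻¹ *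
        ((c (c a) * (c a)⁻¹) * (c a * a⁻¹)⁻¹)⁻¹ := by
      rw [e2, hφ, map_mul, map_inv, map_mul, map_mul, map_inv, map_inv, hc3]
    rw [e3]
    exact key3 a (c a) (c (c a)) (hexp _) (hexp _)
  have h1 := card_le_ker_mul_map φ ⊤
  have h2 := card_le_ker_mul_map φ ((⊤ : Subgroup M).map φ)
  have h3 := card_le_ker_mul_map φ (((⊤ : Subgroup M).map φ).map φ)
  have h4 : (((⊤ : Subgroup M).map φ).map φ).map φ = ⊥ := by
    rw [eq_bot_iff]
    rintro _ ⟨_, ⟨_, ⟨a, -, rfl⟩, rfl⟩, rfl⟩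
    exact Subgroup.mem_bot.mpr (hφ3 a)
  rw [h4, Subgroup.card_bot, mul_one] at h3
  rw [Subgroup.card_top, hcard] at h1
  have hdvd : Nat.card φ.ker ∣ 81 := by
    rw [← hcard]; exact Subgroup.card_subgroup_dvd_card φ.ker
  have h5 : Nat.card φ.ker ≤ Nat.card {a : M // c a = a} :=
    Nat.card_le_card_of_injective (fun x : φ.ker => (⟨x.1, by
      have hx := MonoidHom.mem_ker.mp x.2
      rw [hφ] at hx
      exact mul_inv_eq_one.mp hx⟩ : {a : M // c a = a}))
      (by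
        intro a b h
        apply Subtype.ext
        exact congrArg (fun z : {a : M // c a = a} => (z : M)) h)
  have key : 81 ≤ Nat.card φ.ker * (Nat.card φ.ker * Nat.card φ.ker) :=
    calc 81 ≤ Nat.card φ.ker * Nat.card ((⊤ : Subgroup M).map φ) := h1
      _ ≤ Nat.card φ.ker * (Nat.card φ.ker * Nat.card (((⊤ : Subgroup M).map φ).map φ)) :=
          Nat.mul_le_mul_left _ h2
      _ ≤ Nat.card φ.ker * (Nat.card φ.ker * Nat.card φ.ker) :=
          Nat.mul_le_mul_left _ (Nat.mul_le_mul_left _ h3)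
  have h6 : 9 ≤ Nat.card φ.ker := by
    obtain ⟨j, hj, hk⟩ := (Nat.dvd_prime_pow Nat.prime_three).mp
      (show Nat.card φ.ker ∣ 3 ^ 4 from hdvd)
    rw [hk] at key ⊢
    have hj2 : 2 ≤ j := by
      by_contra hlt
      have hj1 : j ≤ 1 := by omega
      have h3j : 3 ^ j ≤ 3 := by
        calc 3 ^ j ≤ 3 ^ 1 := Nat.pow_le_pow_right (by norm_num) hj1
          _ = 3 := by norm_num
      nlinarith [Nat.mul_le_mul h3j (Nat.mul_le_mul h3j h3j)]
    calc 9 = 3 ^ 2 := by norm_num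
      _ ≤ 3 ^ j := Nat.pow_le_pow_right (by norm_num) hj2
  exact h6.trans h5

theorem cent_bound {P : Type*} [Group P] [Finite P] (A : Subgroup P) (hAn : A.Normal)
    (hA : Cfsg.IsElementaryAbelian 3 A) (hAc : Nat.card A = 81) (y : P) (hy : y ^ 3 = 1) :
    9 ≤ Nat.card (A ⊓ Subgroup.centralizer ({y} : Set P) : Subgroup P) := by
  haveI := hA.1
  letI cA : CommGroup ↥A :=
    { (inferInstance : Group ↥A) with mul_comm := fun a b => mul_comm' a b }
  let c : ↥A →* ↥A := MonoidHom.mk' (fun a => ⟨y * a * y⁻¹, hAn.conj_mem a a.2 y⟩) (by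
    intro a b
    apply Subtype.ext
    show y * ((a : P) * (b : P)) * y⁻¹ = y * (a : P) * y⁻¹ * (y * (b : P) * y⁻¹)
    group)
  have hy3 : y * y * y = 1 := by rw [← hy, pow_succ, pow_two]
  have hc3 : ∀ a, c (c (c a)) = a := by
    intro a
    apply Subtype.ext
    show y * (y * (y * (a : P) * y⁻¹) * y⁻¹) * y⁻¹ = (a : P)
    have : y * (y * (y * (a : P) * y⁻¹) * y⁻¹) * y⁻¹ = (y * y * y) * (a : P) * (y * y * y)⁻¹ := by
      group
    rw [this, hy3, one_mul, inv_one, mul_one]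
  have hexp : ∀ a : ↥A, a ^ 3 = 1 := by
    intro a
    apply Subtype.ext
    exact hA.2 a.1 a.2
  have h := nil3 c hc3 hexp hAc
  refine h.trans ?_
  exact Nat.card_le_card_of_injective (fun x : {a : ↥A // c a = a} =>
    (⟨(x.1 : P), x.1.2, Subgroup.mem_centralizer_singleton_iff.mpr (by
      have hx : y * (x.1 : P) * y⁻¹ = (x.1 : P) := congrArg Subtype.val x.2
      have := mul_inv_eq_iff_eq_mul.mp hx
      exact this.symm)⟩ : ↥(A ⊓ Subgroup.centralizer ({y} : Set P))))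
    (by
      intro a b h
      apply Subtype.ext; apply Subtype.ext
      exact congrArg (fun z : ↥(A ⊓ Subgroup.centralizer ({y} : Set P)) => (z : P)) h)

theorem rtg_symm {α : Type*} {r : α → α → Prop} (hr : ∀ a b, r a b → r b a) {a b : α}
    (h : Relation.ReflTransGen r a b) : Relation.ReflTransGen r b a := by
  induction h with
  | refl => exact Relation.ReflTransGen.refl
  | tail _ hbc ih => exact Relation.ReflTransGen.head (hr _ _ hbc) ih

theorem nat3 : ∀ n : ℕ, n ∣ 9 → n ≠ 9 → 3 ≤ n → n = 3 := by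
  intro n hd hne h3
  have : n ≤ 9 := Nat.le_of_dvd (by norm_num) hd
  interval_cases n <;> omega

theorem nat9 : ∀ n : ℕ, n ∣ 9 → 3 < n → n = 9 := by
  intro n hd h3
  have : n ≤ 9 := Nat.le_of_dvd (by norm_num) hd
  interval_cases n <;> omega

theorem result {P : Type*} [Group P] [Finite P] (hP : IsPGroup 3 P) (hrk : ¬ Cfsg.PRankLE 3 3 P) : Cfsg.IsKConnected 3 2 P := by
  haveI : Fact (Nat.Prime 3) := ⟨Nat.prime_three⟩
  obtain ⟨E, hEc, hEe, hEcard⟩ : ∃ E : Subgroup P, IsMulCommutative E ∧ (∀ a ∈ E, a ^ 3 = 1) ∧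
      3 ^ 3 < Nat.card E := by
    unfold Cfsg.PRankLE at hrk
    push_neg at hrk
    exact hrk
  have hEea : Cfsg.IsElementaryAbelian 3 E := ⟨hEc, hEe⟩
  have hrk2 : ¬ Cfsg.PRankLE 3 2 P := by
    intro h
    have h1 := h E hEc hEe
    exact absurd (lt_of_lt_of_le hEcard h1) (by norm_num)
  obtain ⟨k, hk⟩ := IsPGroup.iff_card.mp (hP.to_subgroup E)
  have hk4 : 4 ≤ k := by
    rw [hk] at hEcard
    have : 3 < k := (Nat.pow_lt_pow_iff_right (by norm_num)).mp hEcard
    omega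
  obtain ⟨K, hK⟩ := Sylow.exists_subgroup_card_pow_prime 3
    (show 3 ^ 4 ∣ Nat.card ↥E by rw [hk]; exact pow_dvd_pow 3 hk4)
  have hKle : K.map E.subtype ≤ E := Subgroup.map_subtype_le K
  have hE4 : Cfsg.IsElementaryAbelian 3 (K.map E.subtype) :=
    ea_mk (fun x hx y hy => ea_comm hEea x (hKle hx) y (hKle hy)) (fun a ha => hEe a (hKle ha))
  have hE4c : Nat.card (K.map E.subtype) = 3 ^ 4 := by
    rw [Subgroup.card_map_of_injective (Subgroup.subtype_injective _), hK]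
  obtain ⟨A, hAn, hA, hAc⟩ := Cfsg.Agent.S0122.result (p := 3) (by norm_num) hP _ hE4 hE4c
  obtain ⟨U, hUn, hUe, hUc, hU⟩ := Cfsg.Agent.S1337.result 3 hP hrk2
  haveI := hAn
  obtain ⟨A₁, hA₁A, hA₁n, hA₁c⟩ := Cfsg.Agent.S0100.exists_normal_le_card hP 1 3 A hAn hAc
  haveI := hA₁n
  have hA₁cen : A₁ ≤ Subgroup.center P :=
    Cfsg.Agent.Lib.helper1.le_center_of_normal_card_prime hP A₁ (by rw [hA₁c]; norm_num)
  have hAc81 : Nat.card A = 81 := by rw [hAc]; norm_num
  have hkey : ∀ X : Subgroup P, Cfsg.IsElementaryAbelian 3 X → 3 ^ 2 ≤ Nat.card X →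
      ¬ Cfsg.PRankLE 3 2 ↥(Subgroup.centralizer (X : Set P)) := by
    intro X hX hXc
    have hXX : X ≤ Subgroup.centralizer (X : Set P) := fun g hg =>
      Subgroup.mem_centralizer_iff.mpr (fun h hh => ea_comm hX h hh g hg)
    by_cases hlt : 3 ^ 2 < Nat.card X
    · exact rank_cent X X hX hXX hlt
    have hX9 : Nat.card X = 9 := by
      have h1 := not_lt.mp hlt
      norm_num at h1 hXc ⊢
      exact le_antisymm h1 hXc
    by_cases hXA : X ≤ A
    · refine rank_cent X A hA ?_ (by rw [hAc]; norm_num)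
      intro g hg
      exact Subgroup.mem_centralizer_iff.mpr (fun h hh => ea_comm hA h (hXA hh) g hg)
    have hCXea : Cfsg.IsElementaryAbelian 3 (A ⊓ Subgroup.centralizer (X : Set P)) :=
      ea_mk (fun x hx y hy => ea_comm hA x hx.1 y hy.1) (fun a ha => hA.2 a ha.1)
    have hcomm : ∀ a ∈ X, ∀ b ∈ A ⊓ Subgroup.centralizer (X : Set P), a * b = b * a :=
      fun a ha b hb => Subgroup.mem_centralizer_iff.mp hb.2 a ha
    have hnot : ¬ (A ⊓ Subgroup.centralizer (X : Set P) ≤ X) := by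
      intro hle
      have hCD : A ⊓ Subgroup.centralizer (X : Set P) ≤ X ⊓ A := fun g hg => ⟨hle hg, hg.1⟩
      have hA₁C : A₁ ≤ A ⊓ Subgroup.centralizer (X : Set P) := fun g hg =>
        ⟨hA₁A hg, Subgroup.center_le_centralizer _ (hA₁cen hg)⟩
      have hDdvd : Nat.card (X ⊓ A : Subgroup P) ∣ 9 := by
        rw [← hX9]; exact Subgroup.card_dvd_of_le inf_le_left
      have hDne : Nat.card (X ⊓ A : Subgroup P) ≠ 9 := by
        intro h9
        have := Subgroup.eq_of_le_of_card_ge (inf_le_left : X ⊓ A ≤ X) (hX9.le.trans h9.ge)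
        exact hXA (this.ge.trans inf_le_right)
      have hD3' : 3 ≤ Nat.card (X ⊓ A : Subgroup P) := by
        have := Subgroup.card_le_of_le (hA₁C.trans hCD)
        rw [hA₁c] at this
        simpa using this
      have hD3 : Nat.card (X ⊓ A : Subgroup P) = 3 := nat3 _ hDdvd hDne hD3'
      obtain ⟨y, hyX, hyA⟩ : ∃ y, y ∈ X ∧ y ∉ A := by
        by_contra hcon
        push_neg at hcon
        exact hXA hcon
      have hy3 : y ^ 3 = 1 := hX.2 y hyX
      have hb := cent_bound A hAn hA hAc81 y hy3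
      have hTX : (X ⊓ A) ⊔ Subgroup.zpowers y ≤ X :=
        sup_le inf_le_left (by rw [Subgroup.zpowers_le]; exact hyX)
      have hTgt : 3 < Nat.card ((X ⊓ A) ⊔ Subgroup.zpowers y : Subgroup P) := by
        by_contra hle3
        have := Subgroup.eq_of_le_of_card_ge
          (le_sup_left : X ⊓ A ≤ (X ⊓ A) ⊔ Subgroup.zpowers y) ((not_lt.mp hle3).trans hD3.ge)
        have hyD : y ∈ X ⊓ A :=
          this.ge (le_sup_right (a := X ⊓ A) (Subgroup.mem_zpowers y))
        exact hyA hyD.2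
      have hTdvd : Nat.card ((X ⊓ A) ⊔ Subgroup.zpowers y : Subgroup P) ∣ 9 :=
        hX9 ▸ Subgroup.card_dvd_of_le hTX
      have hT9 : Nat.card ((X ⊓ A) ⊔ Subgroup.zpowers y : Subgroup P) = 9 := nat9 _ hTdvd hTgt
      have hTeq : (X ⊓ A) ⊔ Subgroup.zpowers y = X :=
        Subgroup.eq_of_le_of_card_ge hTX (hX9.le.trans hT9.ge)
      have hsub : A ⊓ Subgroup.centralizer ({y} : Set P) ≤
          A ⊓ Subgroup.centralizer (X : Set P) := by
        intro a ha
        refine ⟨ha.1, ?_⟩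
        have hay : a * y = y * a := Subgroup.mem_centralizer_singleton_iff.mp ha.2
        have hXle : (X ⊓ A) ⊔ Subgroup.zpowers y ≤ Subgroup.centralizer ({a} : Set P) := by
          refine sup_le ?_ ?_
          · intro d hd
            exact Subgroup.mem_centralizer_singleton_iff.mpr (ea_comm hA d hd.2 a ha.1)
          · rw [Subgroup.zpowers_le]
            exact Subgroup.mem_centralizer_singleton_iff.mpr hay.symm
        exact Subgroup.mem_centralizer_iff.mpr (fun h hh =>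
          Subgroup.mem_centralizer_singleton_iff.mp (hXle (hTeq.ge hh)))
      have h9 := Subgroup.card_le_of_le (hsub.trans hCD)
      exact absurd (hb.trans (h9.trans hD3.le)) (by norm_num)
    have hW := sup_ea hX hCXea hcomm
    refine rank_cent X _ hW (sup_le hXX inf_le_right) ?_
    by_contra hle
    have hle' : Nat.card (X ⊔ A ⊓ Subgroup.centralizer (X : Set P) : Subgroup P) ≤ Nat.card X :=
      (not_lt.mp hle).trans hXc
    have heq := Subgroup.eq_of_le_of_card_ge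
      (le_sup_left : X ≤ X ⊔ A ⊓ Subgroup.centralizer (X : Set P)) hle'
    exact hnot (le_sup_right.trans heq.ge)
  intro E₁ E₂ h1 h1c h2 h2c
  have hswap : ∀ A B : Subgroup P, (Cfsg.IsElementaryAbelian 3 A ∧
      3 ^ 2 ≤ Nat.card ↥A ∧ Cfsg.IsElementaryAbelian 3 B ∧ 3 ^ 2 ≤ Nat.card ↥B ∧
      ∀ a ∈ A, ∀ b ∈ B, a * b = b * a) → (Cfsg.IsElementaryAbelian 3 B ∧
      3 ^ 2 ≤ Nat.card ↥B ∧ Cfsg.IsElementaryAbelian 3 A ∧ 3 ^ 2 ≤ Nat.card ↥A ∧
      ∀ a ∈ B, ∀ b ∈ A, a * b = b * a) := by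
    rintro A B ⟨hA, hAc, hB, hBc, hc⟩
    exact ⟨hB, hBc, hA, hAc, fun b hb a ha => (hc a ha b hb).symm⟩
  have r1 := (hU E₁ h1 h1c).mpr (hkey E₁ h1 h1c)
  have r2 := (hU E₂ h2 h2c).mpr (hkey E₂ h2 h2c)
  exact r1.trans (rtg_symm hswap r2)

end Cfsg.Agent.S1338
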