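import Cfsg.Statements.S3788
import Mathlib
import Cfsg.Agent.Lib.helper19.S4Rec
import Cfsg.Agent.Lib.helper14.S4Inv
import Cfsg.Agent.S0199
import Cfsg.Agent.Lib.helper1.PGroup
import Cfsg.Agent.Lib.helper16.PSolv
import Cfsg.Agent.Lib.helper9.PPrimeCore
import Cfsg.Agent.Lib.helper15.PCore

set_option autoImplicit false
open Cfsg

namespace Cfsg.Agent.S3788

universe u
theorem stab2 {G : Type*} [Group G] (p n : ℕ) (hpn : Nat.Coprime n p) (c : G) (hcn : c ^ n = 1)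
    (M B : Subgroup G) (hB : ∀ b ∈ B, c * b = b * c) (hBexp : ∀ b ∈ B, b ^ p = 1)
    (hM : ∀ u ∈ M, c * u * c⁻¹ * u⁻¹ ∈ B) : ∀ u ∈ M, c * u = u * c := by
  intro u hu
  obtain ⟨b, hb⟩ : ∃ b, b = c * u * c⁻¹ * u⁻¹ := ⟨_, rfl⟩
  have hbB : b ∈ B := hb ▸ hM u hu
  have hcb : Commute c b := hB b hbB
  have hcu : c * u * c⁻¹ = b * u := by rw [hb]; group
  have key : ∀ k : ℕ, c ^ k * u * (c ^ k)⁻¹ = b ^ k * u := by
    intro k
    induction k with
    | zero => simp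
    | succ k ih =>
      have e : c ^ (k + 1) * u * (c ^ (k + 1))⁻¹ = c * (c ^ k * u * (c ^ k)⁻¹) * c⁻¹ := by
        rw [pow_succ']; group
      rw [e, ih]
      have e2 : c * (b ^ k * u) * c⁻¹ = (c * b ^ k * c⁻¹) * (c * u * c⁻¹) := by group
      have e3 : c * b ^ k * c⁻¹ = b ^ k := by
        rw [(hcb.pow_right k).eq, mul_assoc, mul_inv_cancel, mul_one]
      rw [e2, e3, hcu, ← mul_assoc, ← pow_succ]
  have h1 := key n
  rw [hcn, inv_one, mul_one, one_mul] at h1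
  have hbn : b ^ n = 1 := by
    have := congrArg (fun t => t * u⁻¹) h1
    simp only [mul_inv_cancel, mul_assoc] at this
    rw [mul_one] at this
    exact this.symm
  have hbp : b ^ p = 1 := hBexp b hbB
  have hb1 : b = 1 := by
    have h2 : orderOf b ∣ n := orderOf_dvd_of_pow_eq_one hbn
    have h3 : orderOf b ∣ p := orderOf_dvd_of_pow_eq_one hbp
    have h4 : orderOf b ∣ 1 := by
      have := Nat.dvd_gcd h2 h3
      rwa [Nat.Coprime.gcd_eq_one hpn] at this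
    exact orderOf_eq_one_iff.mp (Nat.dvd_one.mp h4)
  rw [hb1, one_mul] at hcu
  calc c * u = c * u * c⁻¹ * c := by group
    _ = u * c := by rw [hcu]

theorem closure_pred {G : Type*} [Group G] [Finite G] (Pr : G → Prop) (h1 : Pr 1)
    (hmul : ∀ a b, Pr a → Pr b → Pr (a * b)) (S : Set G) (hS : ∀ s ∈ S, Pr s) :
    ∀ h ∈ Subgroup.closure S, Pr h := by
  have hpow : ∀ a, Pr a → ∀ k : ℕ, Pr (a ^ k) := by
    intro a ha k
    induction k with
    | zero => rw [pow_zero]; exact h1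
    | succ k ih => rw [pow_succ]; exact hmul _ _ ih ha
  intro h hh
  induction hh using Subgroup.closure_induction with
  | mem x hx => exact hS x hx
  | one => exact h1
  | mul x y _ _ hx hy => exact hmul x y hx hy
  | inv x _ hx =>
    have e : x⁻¹ = x ^ (orderOf x - 1) := by
      apply inv_eq_of_mul_eq_one_right
      rw [← pow_succ', Nat.sub_add_cancel (orderOf_pos x), pow_orderOf_eq_one]
    rw [e]
    exact hpow x hx _

theorem chainP {G : Type*} [Group G] [Finite G] (p : ℕ) [Fact p.Prime] (V : Subgroup G)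
    (hVexp : ∀ v ∈ V, v ^ p = 1) (hCV : ∀ c : G, (∀ v ∈ V, c * v = v * c) → c ∈ V)
    (Z M : Subgroup G) (hZM : Z ≤ M) (hMV : M ≤ V) (S : Set G)
    (hS : ∀ s ∈ S, (∀ w ∈ Z, s * w = w * s) ∧ (∀ u ∈ M, s * u * s⁻¹ * u⁻¹ ∈ Z) ∧
      (∀ v ∈ V, s * v * s⁻¹ * v⁻¹ ∈ M)) :
    IsPGroup p (Subgroup.closure S) := by
  have hall := closure_pred (fun h : G => (∀ w ∈ Z, h * w = w * h) ∧
      (∀ u ∈ M, h * u * h⁻¹ * u⁻¹ ∈ Z) ∧ (∀ v ∈ V, h * v * h⁻¹ * v⁻¹ ∈ M))
    ⟨fun w _ => by rw [one_mul, mul_one],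
      fun u _ => by rw [one_mul, inv_one, mul_one, mul_inv_cancel]; exact one_mem _,
      fun v _ => by rw [one_mul, inv_one, mul_one, mul_inv_cancel]; exact one_mem _⟩
    (by
      rintro a b ⟨ha1, ha2, ha3⟩ ⟨hb1, hb2, hb3⟩
      refine ⟨?_, ?_, ?_⟩
      · intro w hw
        rw [mul_assoc, hb1 w hw, ← mul_assoc, ha1 w hw, mul_assoc]
      · intro u hu
        have e : a * b * u * (a * b)⁻¹ * u⁻¹ =
            (a * (b * u * b⁻¹ * u⁻¹) * a⁻¹) * (a * u * a⁻¹ * u⁻¹) := by group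
        rw [e]
        have hc := hb2 u hu
        have e2 : a * (b * u * b⁻¹ * u⁻¹) * a⁻¹ = b * u * b⁻¹ * u⁻¹ := by
          rw [ha1 _ hc, mul_assoc, mul_inv_cancel, mul_one]
        rw [e2]
        exact Z.mul_mem hc (ha2 u hu)
      · intro v hv
        have e : a * b * v * (a * b)⁻¹ * v⁻¹ =
            (a * (b * v * b⁻¹ * v⁻¹) * a⁻¹) * (a * v * a⁻¹ * v⁻¹) := by group
        rw [e]
        have hd := hb3 v hv
        have e2 : a * (b * v * b⁻¹ * v⁻¹) * a⁻¹ =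
            (a * (b * v * b⁻¹ * v⁻¹) * a⁻¹ * (b * v * b⁻¹ * v⁻¹)⁻¹) * (b * v * b⁻¹ * v⁻¹) := by
          group
        rw [e2]
        exact M.mul_mem (M.mul_mem (hZM (ha2 _ hd)) hd) (ha3 v hv))
    S hS
  intro ⟨h, hh⟩
  obtain ⟨e, n', hn', hn⟩ := Nat.exists_eq_pow_mul_and_not_dvd (orderOf_pos h).ne' p
    (Fact.out : p.Prime).ne_one
  refine ⟨e, ?_⟩
  apply Subtype.ext
  show h ^ p ^ e = 1
  obtain ⟨c, hc⟩ : ∃ c, c = h ^ p ^ e := ⟨_, rfl⟩
  rw [← hc]
  have hcS : c ∈ Subgroup.closure S := hc ▸ Subgroup.pow_mem _ hh _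
  obtain ⟨hc1, hc2, hc3⟩ := hall c hcS
  have hcn : c ^ n' = 1 := by rw [hc, ← pow_mul, ← hn, pow_orderOf_eq_one]
  have hcop : Nat.Coprime n' p :=
    ((Nat.Prime.coprime_iff_not_dvd (Fact.out : p.Prime)).mpr hn').symm
  have hcM := stab2 p n' hcop c hcn M Z hc1 (fun b hb => hVexp b (hMV (hZM hb))) hc2
  have hcV := stab2 p n' hcop c hcn V M hcM (fun b hb => hVexp b (hMV hb)) hc3
  have hcp : c ^ p = 1 := hVexp c (hCV c hcV)
  have h2 : orderOf c ∣ n' := orderOf_dvd_of_pow_eq_one hcn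
  have h3 : orderOf c ∣ p := orderOf_dvd_of_pow_eq_one hcp
  have h4 : orderOf c ∣ 1 := by
    have := Nat.dvd_gcd h2 h3
    rwa [Nat.Coprime.gcd_eq_one hcop] at this
  exact orderOf_eq_one_iff.mp (Nat.dvd_one.mp h4)

theorem main_t {G : Type*} [Group G] (V : Subgroup G)
    (hVab : ∀ u ∈ V, ∀ v ∈ V, u * v = v * u)
    (x y z z' : G) (hzV : z ∈ V) (hz'V : z' ∈ V)
    (h1 : x * z * x⁻¹ = z) (h2 : x * z' * x⁻¹ = z * z') (h3 : y * z' * y⁻¹ = z')
    (h4 : y * z * y⁻¹ = z'⁻¹ * z) :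
    (x * y * x) ^ 2 * z * ((x * y * x) ^ 2)⁻¹ = z⁻¹ ∧
      (x * y * x) ^ 2 * z' * ((x * y * x) ^ 2)⁻¹ = z'⁻¹ := by
  have hc : z * z' = z' * z := hVab z hzV z' hz'V
  have hwz : (x * y * x) * z * (x * y * x)⁻¹ = z'⁻¹ := by
    have e : (x * y * x) * z * (x * y * x)⁻¹ = x * (y * (x * z * x⁻¹) * y⁻¹) * x⁻¹ := by group
    rw [e, h1, h4]
    have e2 : x * (z'⁻¹ * z) * x⁻¹ = (x * z' * x⁻¹)⁻¹ * (x * z * x⁻¹) := by group
    rw [e2, h2, h1, mul_inv_rev, inv_mul_cancel_right]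
  have hwz' : (x * y * x) * z' * (x * y * x)⁻¹ = z := by
    have e : (x * y * x) * z' * (x * y * x)⁻¹ = x * (y * (x * z' * x⁻¹) * y⁻¹) * x⁻¹ := by group
    rw [e, h2]
    have e2 : y * (z * z') * y⁻¹ = (y * z * y⁻¹) * (y * z' * y⁻¹) := by group
    rw [e2, h4, h3]
    have e3 : z'⁻¹ * z * z' = z := by rw [mul_assoc, hc, ← mul_assoc, inv_mul_cancel, one_mul]
    rw [e3, h1]
  constructor
  · have e : (x * y * x) ^ 2 * z * ((x * y * x) ^ 2)⁻¹ =
        (x * y * x) * ((x * y * x) * z * (x * y * x)⁻¹) * (x * y * x)⁻¹ := by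
      rw [pow_two]; group
    rw [e, hwz]
    have e2 : (x * y * x) * z'⁻¹ * (x * y * x)⁻¹ = ((x * y * x) * z' * (x * y * x)⁻¹)⁻¹ := by group
    rw [e2, hwz']
  · have e : (x * y * x) ^ 2 * z' * ((x * y * x) ^ 2)⁻¹ =
        (x * y * x) * ((x * y * x) * z' * (x * y * x)⁻¹) * (x * y * x)⁻¹ := by
      rw [pow_two]; group
    rw [e, hwz', hwz]

theorem main_decomp {G : Type*} [Group G] (p : ℕ) (hp : 0 < p) (V : Subgroup G)
    (hVab : ∀ u ∈ V, ∀ v ∈ V, u * v = v * u) (hVexp : ∀ v ∈ V, v ^ p = 1)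
    (x y z z' : G) (hzV : z ∈ V) (hz'V : z' ∈ V)
    (h1 : x * z * x⁻¹ = z) (h2 : x * z' * x⁻¹ = z * z') (h3 : y * z' * y⁻¹ = z')
    (h4 : y * z * y⁻¹ = z'⁻¹ * z)
    (h5 : ∀ v ∈ V, ∃ k : ℕ, x * v * x⁻¹ * v⁻¹ = z ^ k)
    (h6 : ∀ v ∈ V, ∃ l : ℕ, y * v * y⁻¹ * v⁻¹ = z' ^ l) :
    ∀ v ∈ V, ∃ c ∈ V, ∃ i j : ℕ, v = c * (z ^ i * z' ^ j) ∧ x * c = c * x ∧ y * c = c * y := by
  intro v hv
  obtain ⟨k, hk⟩ := h5 v hv
  obtain ⟨l, hl⟩ := h6 v hv
  have hc : Commute z z' := hVab z hzV z' hz'V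
  obtain ⟨u, hu⟩ : ∃ u, u = z ^ (l * (p - 1)) * z' ^ k := ⟨_, rfl⟩
  have huV : u ∈ V := hu ▸ V.mul_mem (V.pow_mem hzV _) (V.pow_mem hz'V _)
  have hxu : x * u * x⁻¹ = z ^ k * u := by
    have e : x * u * x⁻¹ = (x * z * x⁻¹) ^ (l * (p - 1)) * (x * z' * x⁻¹) ^ k := by
      rw [hu, conj_pow, conj_pow]; group
    rw [e, h1, h2, hc.mul_pow, hu, ← mul_assoc, ← mul_assoc, pow_mul_comm z]
  have hyu : y * u * y⁻¹ = z' ^ l * u := by
    have e : y * u * y⁻¹ = (y * z * y⁻¹) ^ (l * (p - 1)) * (y * z' * y⁻¹) ^ k := by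
      rw [hu, conj_pow, conj_pow]; group
    rw [e, h4, h3]
    have hc' : Commute z'⁻¹ z := hc.symm.inv_left
    rw [hc'.mul_pow, hu]
    have e2 : z'⁻¹ ^ (l * (p - 1)) = z' ^ l := by
      rw [inv_pow, inv_eq_iff_eq_inv, eq_inv_iff_mul_eq_one, ← pow_add]
      have e3 : l * (p - 1) + l = p * l := by
        obtain ⟨q, rfl⟩ : ∃ q, p = q + 1 := ⟨p - 1, by omega⟩
        simp only [Nat.add_sub_cancel]; ring
      rw [e3, pow_mul, hVexp z' hz'V, one_pow]
    rw [e2, mul_assoc]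
  have hcV : v * u⁻¹ ∈ V := V.mul_mem hv (V.inv_mem huV)
  refine ⟨v * u⁻¹, hcV, l * (p - 1), k, ?_, ?_, ?_⟩
  · rw [← hu]; group
  · have hxv : x * v * x⁻¹ = z ^ k * v := by
      rw [← hk]; group
    have e : x * (v * u⁻¹) * x⁻¹ = (x * v * x⁻¹) * (x * u * x⁻¹)⁻¹ := by group
    have h7 : x * (v * u⁻¹) * x⁻¹ = v * u⁻¹ := by
      rw [e, hxv, hxu, mul_inv_rev]
      have hzk : z ^ k ∈ V := V.pow_mem hzV _
      have h8 : z ^ k * v * (u⁻¹ * (z ^ k)⁻¹) = z ^ k * (v * u⁻¹) * (z ^ k)⁻¹ := by group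
      rw [h8, hVab _ hzk _ hcV, mul_assoc, mul_inv_cancel, mul_one]
    calc x * (v * u⁻¹) = x * (v * u⁻¹) * x⁻¹ * x := by group
      _ = v * u⁻¹ * x := by rw [h7]
  · have hyv : y * v * y⁻¹ = z' ^ l * v := by
      rw [← hl]; group
    have e : y * (v * u⁻¹) * y⁻¹ = (y * v * y⁻¹) * (y * u * y⁻¹)⁻¹ := by group
    have h7 : y * (v * u⁻¹) * y⁻¹ = v * u⁻¹ := by
      rw [e, hyv, hyu, mul_inv_rev]
      have hzk : z' ^ l ∈ V := V.pow_mem hz'V _
      have h8 : z' ^ l * v * (u⁻¹ * (z' ^ l)⁻¹) = z' ^ l * (v * u⁻¹) * (z' ^ l)⁻¹ := by group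
      rw [h8, hVab _ hzk _ hcV, mul_assoc, mul_inv_cancel, mul_one]
    calc y * (v * u⁻¹) = y * (v * u⁻¹) * y⁻¹ * y := by group
      _ = v * u⁻¹ * y := by rw [h7]

theorem main_tx {G : Type*} [Group G] (p : ℕ) (hp : 0 < p) (V : Subgroup G) [hVn : V.Normal]
    (hVab : ∀ u ∈ V, ∀ v ∈ V, u * v = v * u) (hVexp : ∀ v ∈ V, v ^ p = 1)
    (hCV : ∀ c : G, (∀ v ∈ V, c * v = v * c) → c ∈ V)
    (x y z z' : G) (hzV : z ∈ V) (hz'V : z' ∈ V)
    (h1 : x * z * x⁻¹ = z) (h2 : x * z' * x⁻¹ = z * z') (h3 : y * z' * y⁻¹ = z')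
    (h4 : y * z * y⁻¹ = z'⁻¹ * z)
    (h5 : ∀ v ∈ V, ∃ k : ℕ, x * v * x⁻¹ * v⁻¹ = z ^ k)
    (h6 : ∀ v ∈ V, ∃ l : ℕ, y * v * y⁻¹ * v⁻¹ = z' ^ l) :
    ∃ q ∈ V, (x * y * x) ^ 2 * x * ((x * y * x) ^ 2)⁻¹ = x * q := by
  obtain ⟨ht1, ht2⟩ := main_t V hVab x y z z' hzV hz'V h1 h2 h3 h4
  have hdec := main_decomp p hp V hVab hVexp x y z z' hzV hz'V h1 h2 h3 h4 h5 h6
  obtain ⟨t, ht⟩ : ∃ t, t = (x * y * x) ^ 2 := ⟨_, rfl⟩
  rw [← ht] at ht1 ht2 ⊢
  have hc : Commute z z' := hVab z hzV z' hz'V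
  have K1 : ∀ i j : ℕ, t * (z ^ i * z' ^ j) * t⁻¹ = (z ^ i * z' ^ j)⁻¹ := by
    intro i j
    have e : t * (z ^ i * z' ^ j) * t⁻¹ = (t * z * t⁻¹) ^ i * (t * z' * t⁻¹) ^ j := by
      rw [conj_pow, conj_pow]; group
    rw [e, ht1, ht2, inv_pow, inv_pow, mul_inv_rev, ((hc.pow_pow i j).inv_inv).eq]
  have K2 : ∀ i j : ℕ, x * (z ^ i * z' ^ j) * x⁻¹ = z ^ (i + j) * z' ^ j := by
    intro i j
    have e : x * (z ^ i * z' ^ j) * x⁻¹ = (x * z * x⁻¹) ^ i * (x * z' * x⁻¹) ^ j := by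
      rw [conj_pow, conj_pow]; group
    rw [e, h1, h2, hc.mul_pow, ← mul_assoc, ← pow_add]
  have key : ∀ v ∈ V, t * x * v * x⁻¹ * t⁻¹ = x * t * v * t⁻¹ * x⁻¹ := by
    intro v hv
    obtain ⟨c, hcV, i, j, rfl, hxc, hyc⟩ := hdec v hv
    have hxc' : Commute x c := hxc
    have hyc' : Commute y c := hyc
    have htc : Commute t c := by
      rw [ht]
      exact ((hxc'.mul_left hyc').mul_left hxc').pow_left 2
    have e1 : t * x * (c * (z ^ i * z' ^ j)) * x⁻¹ * t⁻¹ =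
        (t * (x * c * x⁻¹) * t⁻¹) * (t * (x * (z ^ i * z' ^ j) * x⁻¹) * t⁻¹) := by group
    have e2 : x * t * (c * (z ^ i * z' ^ j)) * t⁻¹ * x⁻¹ =
        (x * (t * c * t⁻¹) * x⁻¹) * (x * (t * (z ^ i * z' ^ j) * t⁻¹) * x⁻¹) := by group
    have e3 : x * c * x⁻¹ = c := by rw [hxc, mul_assoc, mul_inv_cancel, mul_one]
    have e4 : t * c * t⁻¹ = c := by rw [htc.eq, mul_assoc, mul_inv_cancel, mul_one]
    rw [e1, e2, e3, e4, e3, K2, K1, K1]
    have e5 : x * (z ^ i * z' ^ j)⁻¹ * x⁻¹ = (x * (z ^ i * z' ^ j) * x⁻¹)⁻¹ := by group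
    rw [e5, K2]
  obtain ⟨q₀, hq₀⟩ : ∃ q₀, q₀ = (x * t)⁻¹ * (t * x) := ⟨_, rfl⟩
  have hq₀V : q₀ ∈ V := by
    apply hCV
    intro v hv
    have h7 : q₀ * v * q₀⁻¹ = v := by
      have e : q₀ * v * q₀⁻¹ = (x * t)⁻¹ * (t * x * v * x⁻¹ * t⁻¹) * (x * t) := by
        rw [hq₀]; group
      rw [e, key v hv]; group
    calc q₀ * v = q₀ * v * q₀⁻¹ * q₀ := by group
      _ = v * q₀ := by rw [h7]
  refine ⟨t * q₀ * t⁻¹, hVn.conj_mem q₀ hq₀V t, ?_⟩
  rw [hq₀]; group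

theorem mul_pow_twist {G : Type*} [Group G] (a b ζ : G) (haζ : Commute a ζ) (hbζ : Commute b ζ)
    (hba : b * a = a * b * ζ) (n : ℕ) :
    (a * b) ^ n = a ^ n * b ^ n * ζ ^ (∑ i ∈ Finset.range n, i) := by
  have c1 : ∀ k : ℕ, ζ ^ k * a = a * ζ ^ k := fun k => ((haζ.pow_right k).eq).symm
  have c2 : ∀ k : ℕ, ζ ^ k * b = b * ζ ^ k := fun k => ((hbζ.pow_right k).eq).symm
  have c3 : ∀ k : ℕ, ζ * b ^ k = b ^ k * ζ := fun k => ((hbζ.pow_left k).eq).symm
  have h1 : ∀ k : ℕ, b ^ k * a = a * b ^ k * ζ ^ k := by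
    intro k
    induction k with
    | zero => simp
    | succ k ih =>
      calc b ^ (k + 1) * a = b * (b ^ k * a) := by rw [pow_succ']; group
        _ = b * (a * b ^ k * ζ ^ k) := by rw [ih]
        _ = (b * a) * b ^ k * ζ ^ k := by group
        _ = a * b * ζ * b ^ k * ζ ^ k := by rw [hba]
        _ = a * b * (ζ * b ^ k) * ζ ^ k := by group
        _ = a * b * (b ^ k * ζ) * ζ ^ k := by rw [c3]
        _ = a * b ^ (k + 1) * ζ ^ (k + 1) := by rw [pow_succ' b, pow_succ' ζ]; group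
  induction n with
  | zero => simp
  | succ n ih =>
    calc (a * b) ^ (n + 1) = (a * b) ^ n * (a * b) := pow_succ _ _
      _ = a ^ n * b ^ n * ζ ^ (∑ i ∈ Finset.range n, i) * (a * b) := by rw [ih]
      _ = a ^ n * b ^ n * (ζ ^ (∑ i ∈ Finset.range n, i) * a) * b := by group
      _ = a ^ n * b ^ n * (a * ζ ^ (∑ i ∈ Finset.range n, i)) * b := by rw [c1]
      _ = a ^ n * (b ^ n * a) * (ζ ^ (∑ i ∈ Finset.range n, i) * b) := by group
      _ = a ^ n * (a * b ^ n * ζ ^ n) * (b * ζ ^ (∑ i ∈ Finset.range n, i)) := by rw [h1 n, c2]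
      _ = a ^ (n + 1) * b ^ n * (ζ ^ n * b) * ζ ^ (∑ i ∈ Finset.range n, i) := by
        rw [pow_succ a]; group
      _ = a ^ (n + 1) * b ^ n * (b * ζ ^ n) * ζ ^ (∑ i ∈ Finset.range n, i) := by rw [c2]
      _ = a ^ (n + 1) * b ^ (n + 1) * ζ ^ (∑ i ∈ Finset.range (n + 1), i) := by
        have e : ζ ^ (∑ i ∈ Finset.range (n + 1), i) =
            ζ ^ n * ζ ^ (∑ i ∈ Finset.range n, i) := by
          rw [Finset.sum_range_succ, add_comm, pow_add]
        rw [e, pow_succ b]; group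

theorem pow_mul_V {G : Type*} [Group G] (p : ℕ) [Fact p.Prime] (hp2 : p ≠ 2) (V : Subgroup G)
    (hVab : ∀ u ∈ V, ∀ v ∈ V, u * v = v * u) (hVexp : ∀ v ∈ V, v ^ p = 1)
    (x z : G) (hzV : z ∈ V) (hxz : x * z = z * x)
    (h5 : ∀ v ∈ V, ∃ k : ℕ, x * v * x⁻¹ * v⁻¹ = z ^ k) (m : ℕ) (hm : p ∣ m) :
    ∀ q ∈ V, (x * q) ^ m = x ^ m := by
  intro q hq
  have hpp : p.Prime := Fact.out
  obtain ⟨k, hk⟩ := h5 q hq
  obtain ⟨ζ, hζ⟩ : ∃ ζ, ζ = z ^ (k * (p - 1)) := ⟨_, rfl⟩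
  have hζV : ζ ∈ V := hζ ▸ V.pow_mem hzV _
  have hxζ : Commute x ζ := by rw [hζ]; exact (show Commute x z from hxz).pow_right _
  have hqζ : Commute q ζ := hVab q hq ζ hζV
  have h8 : z ^ k * ζ = 1 := by
    rw [hζ, ← pow_add]
    have e3 : k + k * (p - 1) = p * k := by
      obtain ⟨r, rfl⟩ : ∃ r, p = r + 1 := ⟨p - 1, by have := hpp.pos; omega⟩
      simp only [Nat.add_sub_cancel]; ring
    rw [e3, pow_mul, hVexp z hzV, one_pow]
  have hqx : q * x = x * q * ζ := by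
    have h7 : x * q = z ^ k * (q * x) := by rw [← hk]; group
    have hzkq : z ^ k * q = q * z ^ k := hVab _ (V.pow_mem hzV _) q hq
    have hzkx : x * z ^ k = z ^ k * x := ((show Commute x z from hxz).pow_right k).eq
    calc q * x = q * x * (z ^ k * ζ) := by rw [h8, mul_one]
      _ = q * (x * z ^ k) * ζ := by group
      _ = q * (z ^ k * x) * ζ := by rw [hzkx]
      _ = (q * z ^ k) * x * ζ := by group
      _ = (z ^ k * q) * x * ζ := by rw [hzkq]
      _ = z ^ k * (q * x) * ζ := by group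
      _ = x * q * ζ := by rw [← h7]
  have hp1 := mul_pow_twist x q ζ hxζ hqζ hqx p
  have hT : p ∣ ∑ i ∈ Finset.range p, i := by
    have h9 := Finset.sum_range_id_mul_two p
    have h10 : p ∣ (∑ i ∈ Finset.range p, i) * 2 := by rw [h9]; exact dvd_mul_right p _
    have hcop : Nat.Coprime p 2 := (Nat.coprime_primes hpp Nat.prime_two).mpr hp2
    exact hcop.dvd_of_dvd_mul_right h10
  have hxqp : (x * q) ^ p = x ^ p := by
    obtain ⟨r, hr⟩ := hT
    rw [hp1, hVexp q hq, mul_one, hr, pow_mul, hVexp ζ hζV, one_pow, mul_one]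
  obtain ⟨r, rfl⟩ := hm
  rw [pow_mul, hxqp, ← pow_mul]

theorem conj_pow_twist {G : Type*} [Group G] (x z w : G) (a : ℕ) (hxz : x * z * x⁻¹ = z)
    (h : x * w * x⁻¹ = z ^ a * w) : ∀ n : ℕ, x ^ n * w * (x ^ n)⁻¹ = z ^ (a * n) * w := by
  intro n
  induction n with
  | zero => simp
  | succ n ih =>
    have e : x ^ (n + 1) * w * (x ^ (n + 1))⁻¹ = x * (x ^ n * w * (x ^ n)⁻¹) * x⁻¹ := by
      rw [pow_succ']; group
    rw [e, ih]
    have e2 : x * (z ^ (a * n) * w) * x⁻¹ = (x * z * x⁻¹) ^ (a * n) * (x * w * x⁻¹) := by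
      rw [conj_pow]; group
    rw [e2, hxz, h, ← mul_assoc, ← pow_add, mul_add, mul_one]

theorem comm_pow_mem {G : Type*} [Group G] (V : Subgroup G) (x z : G) (hxz : x * z * x⁻¹ = z)
    (h5 : ∀ v ∈ V, ∃ k : ℕ, x * v * x⁻¹ * v⁻¹ = z ^ k) (n : ℕ) :
    ∀ v ∈ V, ∃ k : ℕ, x ^ n * v * (x ^ n)⁻¹ * v⁻¹ = z ^ k := by
  induction n with
  | zero => intro v _; exact ⟨0, by simp⟩
  | succ n ih =>
    intro v hv
    obtain ⟨k1, hk1⟩ := ih v hv
    obtain ⟨k2, hk2⟩ := h5 v hv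
    refine ⟨k1 + k2, ?_⟩
    have e : x ^ (n + 1) * v * (x ^ (n + 1))⁻¹ * v⁻¹ =
        (x * (x ^ n * v * (x ^ n)⁻¹ * v⁻¹) * x⁻¹) * (x * v * x⁻¹ * v⁻¹) := by
      rw [pow_succ']; group
    rw [e, hk1, hk2, ← conj_pow, hxz, pow_add]

theorem exists_pow_eq_self {G : Type*} [Group G] (p : ℕ) [Fact p.Prime] (z : G) (hz : z ^ p = 1)
    (a : ℕ) (ha : z ^ a ≠ 1) : ∃ i : ℕ, ¬ p ∣ i ∧ z ^ (a * i) = z := by
  have hpp : p.Prime := Fact.out
  have hpa : ¬ p ∣ a := by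
    rintro ⟨r, rfl⟩
    apply ha
    rw [pow_mul, hz, one_pow]
  have hcop : Nat.Coprime a p := ((Nat.Prime.coprime_iff_not_dvd hpp).mpr hpa).symm
  obtain ⟨i, -, hi⟩ := Nat.exists_mul_mod_eq_one_of_coprime hcop hpp.one_lt
  refine ⟨i, ?_, ?_⟩
  · rintro ⟨r, rfl⟩
    rw [← mul_assoc, mul_comm a p, mul_assoc, Nat.mul_mod_right] at hi
    exact absurd hi (by norm_num)
  · have h1 := Nat.div_add_mod (a * i) p
    rw [hi] at h1
    rw [← h1, pow_add, pow_mul, hz, one_pow, one_mul, pow_one]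

theorem odd_contra {G : Type*} [Group G] (p : ℕ) [Fact p.Prime] (hp2 : p ≠ 2) (V : Subgroup G)
    [hVn : V.Normal]
    (hVab : ∀ u ∈ V, ∀ v ∈ V, u * v = v * u) (hVexp : ∀ v ∈ V, v ^ p = 1)
    (hCV : ∀ c : G, (∀ v ∈ V, c * v = v * c) → c ∈ V)
    (x y z z' : G) (hzV : z ∈ V) (hz'V : z' ∈ V)
    (h1 : x * z * x⁻¹ = z) (h2 : x * z' * x⁻¹ = z * z') (h3 : y * z' * y⁻¹ = z')
    (h4 : y * z * y⁻¹ = z'⁻¹ * z)
    (h5 : ∀ v ∈ V, ∃ k : ℕ, x * v * x⁻¹ * v⁻¹ = z ^ k)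
    (h6 : ∀ v ∈ V, ∃ l : ℕ, y * v * y⁻¹ * v⁻¹ = z' ^ l)
    (hz1 : z ≠ 1) (m i : ℕ) (hm : p ∣ m) (hi : ¬ p ∣ i) (hxm : x ^ m = z ^ i) : False := by
  have hpp : p.Prime := Fact.out
  obtain ⟨q, hqV, hq⟩ := main_tx p hpp.pos V hVab hVexp hCV x y z z' hzV hz'V h1 h2 h3 h4 h5 h6
  obtain ⟨ht1, -⟩ := main_t V hVab x y z z' hzV hz'V h1 h2 h3 h4
  obtain ⟨t, ht⟩ : ∃ t, t = (x * y * x) ^ 2 := ⟨_, rfl⟩
  rw [← ht] at hq ht1
  have hxz : x * z = z * x := by
    calc x * z = x * z * x⁻¹ * x := by group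
      _ = z * x := by rw [h1]
  have e1 : (t * x * t⁻¹) ^ m = (z ^ i)⁻¹ := by
    rw [conj_pow, hxm, ← conj_pow, ht1, inv_pow]
  have e2 : (t * x * t⁻¹) ^ m = z ^ i := by
    rw [hq, pow_mul_V p hp2 V hVab hVexp x z hzV hxz h5 m hm q hqV, hxm]
  have e3 : z ^ (2 * i) = 1 := by
    have h7 : z ^ i = (z ^ i)⁻¹ := e2.symm.trans e1
    rw [eq_inv_iff_mul_eq_one] at h7
    rw [two_mul, pow_add, h7]
  have hcop : Nat.Coprime (2 * i) p :=
    Nat.Coprime.mul_left ((Nat.coprime_primes Nat.prime_two hpp).mpr (Ne.symm hp2))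
      ((Nat.Prime.coprime_iff_not_dvd hpp).mpr hi).symm
  have h8 : orderOf z ∣ 2 * i := orderOf_dvd_of_pow_eq_one e3
  have h9 : orderOf z ∣ p := orderOf_dvd_of_pow_eq_one (hVexp z hzV)
  have h10 : orderOf z ∣ 1 := by
    have := Nat.dvd_gcd h8 h9
    rwa [Nat.Coprime.gcd_eq_one hcop] at this
  exact hz1 (orderOf_eq_one_iff.mp (Nat.dvd_one.mp h10))

theorem klein_subgroup {E : Type*} [Group E] (a b : E) (ha : a * a = 1) (hb : b * b = 1)
    (hab : a * b = b * a) (ha1 : a ≠ 1) (hb1 : b ≠ 1) (hne : a ≠ b) :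
    ∃ U : Subgroup E, (∀ u, u ∈ U ↔ u = 1 ∨ u = a ∨ u = b ∨ u = a * b) ∧ Nat.card U = 4 := by
  classical
  have e1 : a * (a * b) = b := by rw [← mul_assoc, ha, one_mul]
  have e2 : b * (a * b) = a := by rw [← mul_assoc, ← hab, mul_assoc, hb, mul_one]
  have e3 : a * b * a = b := by rw [mul_assoc, ← hab, ← mul_assoc, ha, one_mul]
  have e4 : a * b * b = a := by rw [mul_assoc, hb, mul_one]
  have e5 : a * b * (a * b) = 1 := by rw [mul_assoc, e2, ha]
  let U : Subgroup E :=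
    { carrier := {u | u = 1 ∨ u = a ∨ u = b ∨ u = a * b}
      one_mem' := Or.inl rfl
      mul_mem' := by
        intro u v hu hv
        rcases hu with h | h | h | h <;> rcases hv with h' | h' | h' | h' <;> rw [h, h']
        · left; rw [one_mul]
        · right; left; rw [one_mul]
        · right; right; left; rw [one_mul]
        · right; right; right; rw [one_mul]
        · right; left; rw [mul_one]
        · left; exact ha
        · right; right; right; rfl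
        · right; right; left; exact e1
        · right; right; left; rw [mul_one]
        · right; right; right; exact hab.symm
        · left; exact hb
        · right; left; exact e2
        · right; right; right; rw [mul_one]
        · right; right; left; exact e3
        · right; left; exact e4
        · left; exact e5
      inv_mem' := by
        intro u hu
        rcases hu with h | h | h | h <;> rw [h]
        · left; exact inv_one
        · right; left; exact inv_eq_of_mul_eq_one_right ha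
        · right; right; left; exact inv_eq_of_mul_eq_one_right hb
        · right; right; right; exact inv_eq_of_mul_eq_one_right e5 }
  refine ⟨U, fun u => Iff.rfl, ?_⟩
  have hset : (U : Set E) = ↑({1, a, b, a * b} : Finset E) := by
    ext u
    simp only [Finset.coe_insert, Finset.coe_singleton, Set.mem_insert_iff, Set.mem_singleton_iff]
    exact Iff.rfl
  have hab1 : a * b ≠ 1 := fun h => hne (by
    have h1 : a = b⁻¹ := eq_inv_of_mul_eq_one_left h
    rw [h1, inv_eq_of_mul_eq_one_right hb])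
  have hcard : ({1, a, b, a * b} : Finset E).card = 4 := by
    rw [Finset.card_insert_of_notMem, Finset.card_insert_of_notMem,
      Finset.card_insert_of_notMem, Finset.card_singleton]
    · simp only [Finset.mem_singleton]
      intro h
      apply ha1
      have h1 := congrArg (fun t => t * b⁻¹) h
      simp only [mul_inv_cancel, mul_assoc, mul_one] at h1
      exact h1.symm
    · simp only [Finset.mem_insert, Finset.mem_singleton]
      rintro (h | h)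
      · exact hne h
      · apply hb1
        have h1 := congrArg (fun t => a⁻¹ * t) h
        simp only [inv_mul_cancel, ← mul_assoc, one_mul] at h1
        exact h1.symm
    · simp only [Finset.mem_insert, Finset.mem_singleton]
      rintro (h | h | h)
      · exact ha1 h.symm
      · exact hb1 h.symm
      · exact hab1 h.symm
  show Nat.card ↥(U : Set E) = 4
  rw [Nat.card_coe_set_eq, hset, Set.ncard_coe_finset, hcard]

def inW {G : Type*} [Group G] (z z' u : G) : Prop := u = 1 ∨ u = z ∨ u = z' ∨ u = z * z'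

theorem s4_section {G : Type u} [Group G] [Finite G] (V : Subgroup G) [hVn : V.Normal]
    (hVab : ∀ u ∈ V, ∀ v ∈ V, u * v = v * u) (hVexp : ∀ v ∈ V, v ^ 2 = 1)
    (hCV : ∀ c : G, (∀ v ∈ V, c * v = v * c) → c ∈ V)
    (x y z z' : G) (hzV : z ∈ V) (hz'V : z' ∈ V)
    (h1 : x * z * x⁻¹ = z) (h2 : x * z' * x⁻¹ = z * z') (h3 : y * z' * y⁻¹ = z')
    (h4 : y * z * y⁻¹ = z'⁻¹ * z)
    (h5 : ∀ v ∈ V, ∃ k : ℕ, x * v * x⁻¹ * v⁻¹ = z ^ k)
    (h6 : ∀ v ∈ V, ∃ l : ℕ, y * v * y⁻¹ * v⁻¹ = z' ^ l)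
    (hz1 : z ≠ 1) (hz'1 : z' ≠ 1)
    (hzK : z ∈ Subgroup.closure ({x, y} : Set G)) (hz'K : z' ∈ Subgroup.closure ({x, y} : Set G))
    (hnp : ¬ IsPGroup 2 (Subgroup.closure ({x, y} : Set G))) :
    Cfsg.Involves (Equiv.Perm (Fin 4)) G := by
  classical
  obtain ⟨K, hKdef⟩ : ∃ K : Subgroup G, K = Subgroup.closure ({x, y} : Set G) := ⟨_, rfl⟩
  rw [← hKdef] at hzK hz'K hnp
  have hxK : x ∈ K := by rw [hKdef]; exact Subgroup.subset_closure (by simp)
  have hyK : y ∈ K := by rw [hKdef]; exact Subgroup.subset_closure (by simp)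
  have zz : z * z = 1 := by rw [← pow_two]; exact hVexp z hzV
  have z'z' : z' * z' = 1 := by rw [← pow_two]; exact hVexp z' hz'V
  have hc : z * z' = z' * z := hVab z hzV z' hz'V
  have hzinv : z⁻¹ = z := inv_eq_of_mul_eq_one_right zz
  have hz'inv : z'⁻¹ = z' := inv_eq_of_mul_eq_one_right z'z'
  have h4' : y * z * y⁻¹ = z * z' := by rw [h4, hz'inv, hc]
  have hzne : z ≠ z' := by
    intro h
    rw [← h] at h2
    rw [h1, zz] at h2
    exact hz1 h2
  have hdec := main_decomp 2 (by norm_num) V hVab hVexp x y z z' hzV hz'V h1 h2 h3 h4 h5 h6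
  have hW1 : ∀ i j : ℕ, inW z z' (z ^ i * z' ^ j) := by
    have hzp : ∀ i : ℕ, z ^ i = 1 ∨ z ^ i = z := by
      intro i
      induction i with
      | zero => left; exact pow_zero z
      | succ i ih =>
        rcases ih with h | h
        · right; rw [pow_succ, h, one_mul]
        · left; rw [pow_succ, h, zz]
    have hz'p : ∀ j : ℕ, z' ^ j = 1 ∨ z' ^ j = z' := by
      intro i
      induction i with
      | zero => left; exact pow_zero z'
      | succ i ih =>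
        rcases ih with h | h
        · right; rw [pow_succ, h, one_mul]
        · left; rw [pow_succ, h, z'z']
    intro i j
    rcases hzp i with h | h <;> rcases hz'p j with h' | h' <;> rw [h, h']
    · left; rw [one_mul]
    · right; right; left; rw [one_mul]
    · right; left; rw [mul_one]
    · right; right; right; rfl
  have hWV : ∀ u, inW z z' u → u ∈ V := by
    rintro u (h | h | h | h) <;> rw [h]
    · exact V.one_mem
    · exact hzV
    · exact hz'V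
    · exact V.mul_mem hzV hz'V
  have hWK : ∀ u, inW z z' u → u ∈ K := by
    rintro u (h | h | h | h) <;> rw [h]
    · exact K.one_mem
    · exact hzK
    · exact hz'K
    · exact K.mul_mem hzK hz'K
  have hWx : ∀ u, inW z z' u → inW z z' (x * u * x⁻¹) := by
    rintro u (h | h | h | h) <;> rw [h]
    · left; group
    · right; left; exact h1
    · right; right; right; exact h2
    · right; right; left
      have e : x * (z * z') * x⁻¹ = (x * z * x⁻¹) * (x * z' * x⁻¹) := by group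
      rw [e, h1, h2, ← mul_assoc, zz, one_mul]
  have hWy : ∀ u, inW z z' u → inW z z' (y * u * y⁻¹) := by
    rintro u (h | h | h | h) <;> rw [h]
    · left; group
    · right; right; right; exact h4'
    · right; right; left; exact h3
    · right; left
      have e : y * (z * z') * y⁻¹ = (y * z * y⁻¹) * (y * z' * y⁻¹) := by group
      rw [e, h4', h3, mul_assoc, z'z', mul_one]
  have hWKc : ∀ k ∈ K, ∀ u, inW z z' u → inW z z' (k * u * k⁻¹) := by
    intro k hk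
    rw [hKdef] at hk
    refine closure_pred (fun k => ∀ u, inW z z' u → inW z z' (k * u * k⁻¹)) ?_ ?_ {x, y} ?_ k hk
    · intro u hu; rw [one_mul, inv_one, mul_one]; exact hu
    · intro a b ha hb u hu
      have e : a * b * u * (a * b)⁻¹ = a * (b * u * b⁻¹) * a⁻¹ := by group
      rw [e]; exact ha _ (hb u hu)
    · intro s hs
      rcases hs with h | h
      · rw [h]; exact hWx
      · rw [Set.mem_singleton_iff.mp h]; exact hWy
  have hKcomm : ∀ c : G, x * c = c * x → y * c = c * y → ∀ k ∈ K, k * c = c * k := by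
    intro c hxc hyc k hk
    rw [hKdef] at hk
    refine closure_pred (fun k => k * c = c * k) (by rw [one_mul, mul_one]) ?_ {x, y} ?_ k hk
    · intro a b ha hb
      show a * b * c = c * (a * b)
      rw [mul_assoc, hb, ← mul_assoc, ha, mul_assoc]
    · intro s hs
      rcases hs with h | h
      · rw [h]; exact hxc
      · rw [Set.mem_singleton_iff.mp h]; exact hyc
  obtain ⟨N, hNdef⟩ : ∃ N : Subgroup G,
      N = K ⊓ V ⊓ Subgroup.centralizer ({x, y} : Set G) := ⟨_, rfl⟩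
  have hNmem : ∀ c, c ∈ N ↔ c ∈ K ∧ c ∈ V ∧ x * c = c * x ∧ y * c = c * y := by
    intro c
    rw [hNdef, Subgroup.mem_inf, Subgroup.mem_inf, Subgroup.mem_centralizer_iff]
    constructor
    · rintro ⟨⟨hK, hV⟩, hcen⟩
      exact ⟨hK, hV, hcen x (by simp), hcen y (by simp)⟩
    · rintro ⟨hK, hV, hx, hy⟩
      refine ⟨⟨hK, hV⟩, ?_⟩
      intro s hs
      rcases hs with h | h
      · rw [h]; exact hx
      · rw [Set.mem_singleton_iff.mp h]; exact hy
  have hNW : ∀ u, inW z z' u → u ∈ N → u = 1 := by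
    intro u hu huN
    obtain ⟨-, -, hxu, hyu⟩ := (hNmem u).mp huN
    rcases hu with h | h | h | h
    · exact h
    · exfalso
      rw [h] at hyu
      have e : y * z * y⁻¹ = z := by rw [hyu, mul_assoc, mul_inv_cancel, mul_one]
      rw [h4'] at e
      exact hz'1 (mul_left_cancel (e.trans (mul_one z).symm))
    · exfalso
      rw [h] at hxu
      have e : x * z' * x⁻¹ = z' := by rw [hxu, mul_assoc, mul_inv_cancel, mul_one]
      rw [h2] at e
      exact hz1 (mul_right_cancel (e.trans (one_mul z').symm))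
    · exfalso
      rw [h] at hxu
      have e : x * (z * z') * x⁻¹ = z * z' := by rw [hxu, mul_assoc, mul_inv_cancel, mul_one]
      have e' : x * (z * z') * x⁻¹ = z' := by
        have e2 : x * (z * z') * x⁻¹ = (x * z * x⁻¹) * (x * z' * x⁻¹) := by group
        rw [e2, h1, h2, ← mul_assoc, zz, one_mul]
      rw [e'] at e
      exact hz1 (mul_right_cancel ((one_mul z').trans e)).symm
  haveI hNn : (N.subgroupOf K).Normal := by
    constructor
    intro n hn g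
    rw [Subgroup.mem_subgroupOf] at hn ⊢
    obtain ⟨-, -, hxn, hyn⟩ := (hNmem _).mp hn
    have h7 := hKcomm (n : G) hxn hyn (g : G) g.2
    have e : ((g * n * g⁻¹ : ↥K) : G) = (n : G) := by
      show (g : G) * (n : G) * (g : G)⁻¹ = (n : G)
      rw [h7, mul_assoc, mul_inv_cancel, mul_one]
    rw [e]; exact hn
  obtain ⟨π, hπdef⟩ : ∃ π : ↥K →* ↥K ⧸ N.subgroupOf K,
      π = QuotientGroup.mk' (N.subgroupOf K) := ⟨_, rfl⟩
  have hπsurj : Function.Surjective π := by rw [hπdef]; exact QuotientGroup.mk'_surjective _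
  have hπeq : ∀ a b : ↥K, π a = π b ↔ (a : G)⁻¹ * (b : G) ∈ N := by
    intro a b
    rw [hπdef]
    show (QuotientGroup.mk a : ↥K ⧸ N.subgroupOf K) = QuotientGroup.mk b ↔ _
    rw [QuotientGroup.eq, Subgroup.mem_subgroupOf]
    rfl
  have hπone : ∀ a : ↥K, π a = 1 ↔ (a : G) ∈ N := by
    intro a
    rw [← map_one π, hπeq]
    show (a : G)⁻¹ * 1 ∈ N ↔ (a : G) ∈ N
    rw [mul_one, inv_mem_iff]
  obtain ⟨zb, hzb⟩ : ∃ zb, zb = π ⟨z, hzK⟩ := ⟨_, rfl⟩
  obtain ⟨zb', hzb'⟩ : ∃ zb', zb' = π ⟨z', hz'K⟩ := ⟨_, rfl⟩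
  have hzbzb : zb * zb = 1 := by
    rw [hzb, ← map_mul, hπone]
    show z * z ∈ N
    rw [zz]; exact N.one_mem
  have hzb'zb' : zb' * zb' = 1 := by
    rw [hzb', ← map_mul, hπone]
    show z' * z' ∈ N
    rw [z'z']; exact N.one_mem
  have hzbc : zb * zb' = zb' * zb := by
    rw [hzb, hzb', ← map_mul, ← map_mul]
    congr 1
    exact Subtype.ext hc
  have hzb1 : zb ≠ 1 := by
    intro h
    rw [hzb, hπone] at h
    exact hz1 (hNW z (Or.inr (Or.inl rfl)) h)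
  have hzb'1 : zb' ≠ 1 := by
    intro h
    rw [hzb', hπone] at h
    exact hz'1 (hNW z' (Or.inr (Or.inr (Or.inl rfl))) h)
  have hzz'1 : z * z' ≠ 1 := by
    intro h
    apply hzne
    have h8 : z = z'⁻¹ := eq_inv_of_mul_eq_one_left h
    rw [h8, hz'inv]
  have hzbne : zb ≠ zb' := by
    intro h
    rw [hzb, hzb', hπeq] at h
    have h' : z⁻¹ * z' ∈ N := h
    rw [hzinv] at h'
    exact hzz'1 (hNW (z * z') (Or.inr (Or.inr (Or.inr rfl))) h')
  obtain ⟨Ub, hUbmem, hUbcard⟩ := klein_subgroup zb zb' hzbzb hzb'zb' hzbc hzb1 hzb'1 hzbne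
  have hpush : ∀ u (hu : u ∈ K), inW z z' u → π ⟨u, hu⟩ ∈ Ub := by
    intro u hu hw
    rw [hUbmem]
    rcases hw with h | h | h | h
    · left
      have e : (⟨u, hu⟩ : ↥K) = 1 := Subtype.ext h
      rw [e, map_one]
    · right; left
      have e : (⟨u, hu⟩ : ↥K) = ⟨z, hzK⟩ := Subtype.ext h
      rw [e, hzb]
    · right; right; left
      have e : (⟨u, hu⟩ : ↥K) = ⟨z', hz'K⟩ := Subtype.ext h
      rw [e, hzb']
    · right; right; right
      have e : (⟨u, hu⟩ : ↥K) = ⟨z, hzK⟩ * ⟨z', hz'K⟩ := Subtype.ext h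
      rw [e, map_mul, hzb, hzb']
  have hlift : ∀ ub ∈ Ub, ∃ u, ∃ hu : u ∈ K, inW z z' u ∧ ub = π ⟨u, hu⟩ := by
    intro ub hub
    rw [hUbmem] at hub
    rcases hub with h | h | h | h
    · exact ⟨1, K.one_mem, Or.inl rfl, by rw [h]; exact (map_one π).symm⟩
    · exact ⟨z, hzK, Or.inr (Or.inl rfl), by rw [h, hzb]⟩
    · exact ⟨z', hz'K, Or.inr (Or.inr (Or.inl rfl)), by rw [h, hzb']⟩
    · exact ⟨z * z', K.mul_mem hzK hz'K, Or.inr (Or.inr (Or.inr rfl)), by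
        rw [h, hzb, hzb', ← map_mul]; rfl⟩
  have conjf : ∀ k (hk : k ∈ K) u (hu : u ∈ K),
      π ⟨k * u * k⁻¹, K.mul_mem (K.mul_mem hk hu) (K.inv_mem hk)⟩ =
        π ⟨k, hk⟩ * π ⟨u, hu⟩ * (π ⟨k, hk⟩)⁻¹ := by
    intro k hk u hu
    rw [← map_inv, ← map_mul, ← map_mul]; rfl
  haveI hUbn : Ub.Normal := by
    constructor
    intro ub hub e
    obtain ⟨u, hu, hw, rfl⟩ := hlift ub hub
    obtain ⟨⟨k, hk⟩, rfl⟩ := hπsurj e
    rw [← conjf k hk u hu]
    exact hpush _ _ (hWKc k hk u hw)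
  have hUbexp : ∀ ub ∈ Ub, ub ^ 2 = 1 := by
    intro ub hub
    obtain ⟨u, hu, hw, rfl⟩ := hlift ub hub
    rw [← map_pow, hπone]
    show u ^ 2 ∈ N
    rw [hVexp u (hWV u hw)]; exact N.one_mem
  have hCb : ∀ e : ↥K ⧸ N.subgroupOf K, (∀ ub ∈ Ub, e * ub = ub * e) → e ∈ Ub := by
    intro e he
    obtain ⟨⟨k, hk⟩, rfl⟩ := hπsurj e
    have hfix : ∀ u (hu : u ∈ K), inW z z' u → (k * u * k⁻¹)⁻¹ * u ∈ N := by
      intro u hu hw
      have h7 : π ⟨k * u * k⁻¹, K.mul_mem (K.mul_mem hk hu) (K.inv_mem hk)⟩ = π ⟨u, hu⟩ := by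
        rw [conjf k hk u hu, he _ (hpush u hu hw), mul_assoc, mul_inv_cancel, mul_one]
      exact (hπeq _ _).mp h7
    have hkz : k * z * k⁻¹ = z := by
      have h7 := hfix z hzK (Or.inr (Or.inl rfl))
      rcases hWKc k hk z (Or.inr (Or.inl rfl)) with h | h | h | h
      · exfalso
        rw [h, inv_one, one_mul] at h7
        exact hz1 (hNW z (Or.inr (Or.inl rfl)) h7)
      · exact h
      · exfalso
        rw [h, hz'inv, ← hc] at h7
        exact hzz'1 (hNW (z * z') (Or.inr (Or.inr (Or.inr rfl))) h7)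
      · exfalso
        rw [h, mul_inv_rev, hzinv, hz'inv, mul_assoc, zz, mul_one] at h7
        exact hz'1 (hNW z' (Or.inr (Or.inr (Or.inl rfl))) h7)
    have hkz' : k * z' * k⁻¹ = z' := by
      have h7 := hfix z' hz'K (Or.inr (Or.inr (Or.inl rfl)))
      rcases hWKc k hk z' (Or.inr (Or.inr (Or.inl rfl))) with h | h | h | h
      · exfalso
        rw [h, inv_one, one_mul] at h7
        exact hz'1 (hNW z' (Or.inr (Or.inr (Or.inl rfl))) h7)
      · exfalso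
        rw [h, hzinv] at h7
        exact hzz'1 (hNW (z * z') (Or.inr (Or.inr (Or.inr rfl))) h7)
      · exact h
      · exfalso
        have e9 : (z * z')⁻¹ * z' = z := by
          rw [mul_inv_rev, hzinv, hz'inv, mul_assoc, hc, ← mul_assoc, z'z', one_mul]
        rw [h, e9] at h7
        exact hz1 (hNW z (Or.inr (Or.inl rfl)) h7)
    have hkzc : Commute k z := by
      show k * z = z * k
      calc k * z = k * z * k⁻¹ * k := by group
        _ = z * k := by rw [hkz]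
    have hkz'c : Commute k z' := by
      show k * z' = z' * k
      calc k * z' = k * z' * k⁻¹ * k := by group
        _ = z' * k := by rw [hkz']
    have hkV : k ∈ V := by
      apply hCV
      intro v hv
      obtain ⟨c, hcV, i, j, rfl, hxc, hyc⟩ := hdec v hv
      have hkc : k * c = c * k := hKcomm c hxc hyc k hk
      have hku : Commute k (z ^ i * z' ^ j) := (hkzc.pow_right i).mul_right (hkz'c.pow_right j)
      calc k * (c * (z ^ i * z' ^ j)) = (k * c) * (z ^ i * z' ^ j) := by group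
        _ = c * (k * (z ^ i * z' ^ j)) := by rw [hkc]; group
        _ = c * (z ^ i * z' ^ j) * k := by rw [hku.eq]; group
    obtain ⟨c, hcV, i, j, hkeq, hxc, hyc⟩ := hdec k hkV
    have huW := hW1 i j
    have huK : z ^ i * z' ^ j ∈ K := hWK _ huW
    have hcK : c ∈ K := by
      have e : c = k * (z ^ i * z' ^ j)⁻¹ := by rw [hkeq]; group
      rw [e]; exact K.mul_mem hk (K.inv_mem huK)
    have hcN : c ∈ N := (hNmem c).mpr ⟨hcK, hcV, hxc, hyc⟩
    have h9 : π ⟨k, hk⟩ = π ⟨z ^ i * z' ^ j, huK⟩ := by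
      rw [hπeq]
      show k⁻¹ * (z ^ i * z' ^ j) ∈ N
      have e : k⁻¹ * (z ^ i * z' ^ j) = (z ^ i * z' ^ j)⁻¹ * c⁻¹ * (z ^ i * z' ^ j) := by
        rw [hkeq]; group
      have hcomm : (z ^ i * z' ^ j)⁻¹ * c⁻¹ = c⁻¹ * (z ^ i * z' ^ j)⁻¹ :=
        hVab _ (V.inv_mem (hWV _ huW)) _ (V.inv_mem hcV)
      rw [e, hcomm, mul_assoc, inv_mul_cancel, mul_one]
      exact N.inv_mem hcN
    rw [h9]; exact hpush _ huK huW
  have h2E : ¬ IsPGroup 2 (↥K ⧸ N.subgroupOf K) := by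
    intro hE
    apply hnp
    intro ⟨k, hk⟩
    obtain ⟨a, ha⟩ := hE (π ⟨k, hk⟩)
    rw [← map_pow, hπone] at ha
    have h7 : k ^ 2 ^ a ∈ N := ha
    have h8 := hVexp _ ((hNmem _).mp h7).2.1
    refine ⟨a + 1, Subtype.ext ?_⟩
    show k ^ 2 ^ (a + 1) = 1
    rw [pow_succ, pow_mul]; exact h8
  have hgx : π ⟨x, hxK⟩ ∉ Ub := by
    intro h
    obtain ⟨u, hu, hw, hxu⟩ := hlift _ h
    rw [hπeq] at hxu
    have h7 : x⁻¹ * u ∈ N := hxu
    have h8 : x⁻¹ * u ∈ V := ((hNmem _).mp h7).2.1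
    have hxV : x ∈ V := by
      have e : x = u * (x⁻¹ * u)⁻¹ := by group
      rw [e]; exact V.mul_mem (hWV u hw) (V.inv_mem h8)
    have h9 := hVab x hxV z' hz'V
    have e : x * z' * x⁻¹ = z' := by rw [h9, mul_assoc, mul_inv_cancel, mul_one]
    rw [h2] at e
    exact hz1 (mul_right_cancel (e.trans (one_mul z').symm))
  have hgx2 : (π ⟨x, hxK⟩) ^ 2 ∈ Ub := by
    apply hCb
    intro ub hub
    obtain ⟨u, hu, hw, rfl⟩ := hlift ub hub
    rw [← map_pow, ← map_mul, ← map_mul]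
    congr 1
    apply Subtype.ext
    show x ^ 2 * u = u * x ^ 2
    have hxzc : Commute x z := by
      show x * z = z * x
      calc x * z = x * z * x⁻¹ * x := by group
        _ = z * x := by rw [h1]
    have hx2z : x ^ 2 * z = z * x ^ 2 := (hxzc.pow_left 2).eq
    have hx2z' : x ^ 2 * z' = z' * x ^ 2 := by
      have e1 : x ^ 2 * z' * (x ^ 2)⁻¹ = z' := by
        have e : x ^ 2 * z' * (x ^ 2)⁻¹ = x * (x * z' * x⁻¹) * x⁻¹ := by rw [pow_two]; group
        have e2 : x * (z * z') * x⁻¹ = (x * z * x⁻¹) * (x * z' * x⁻¹) := by group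
        rw [e, h2, e2, h1, h2, ← mul_assoc, zz, one_mul]
      calc x ^ 2 * z' = x ^ 2 * z' * (x ^ 2)⁻¹ * x ^ 2 := by group
        _ = z' * x ^ 2 := by rw [e1]
    rcases hw with h | h | h | h <;> rw [h]
    · rw [mul_one, one_mul]
    · exact hx2z
    · exact hx2z'
    · rw [← mul_assoc, hx2z, mul_assoc, hx2z', ← mul_assoc]
  obtain ⟨e⟩ := Cfsg.Agent.Lib.helper19.s4_of_klein Ub hUbcard hUbexp hCb h2E (π ⟨x, hxK⟩) hgx hgx2
  exact Cfsg.Agent.Lib.helper14.involves_of_surjective K (e.toMonoidHom.comp π)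
    (e.surjective.comp hπsurj)


theorem core_comm {G : Type*} [Group G] [Finite G] (p : ℕ) [Fact p.Prime] (V : Subgroup G)
    (hVexp : ∀ v ∈ V, v ^ p = 1) (hCV : ∀ c : G, (∀ v ∈ V, c * v = v * c) → c ∈ V)
    (x y z z' : G) (hzV : z ∈ V) (hz'V : z' ∈ V)
    (hxz : x * z = z * x) (hyz' : y * z' = z' * y)
    (h5 : ∀ v ∈ V, ∃ k : ℕ, x * v * x⁻¹ * v⁻¹ = z ^ k)
    (h6 : ∀ v ∈ V, ∃ l : ℕ, y * v * y⁻¹ * v⁻¹ = z' ^ l)
    (hxz' : x * z' = z' * x) :
    IsPGroup p (Subgroup.closure ({x, y} : Set G)) := by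
  refine chainP p V hVexp hCV (Subgroup.zpowers z') (V ⊓ Subgroup.centralizer {x}) ?_
    inf_le_left {x, y} ?_
  · rw [Subgroup.zpowers_le]
    refine Subgroup.mem_inf.mpr ⟨hz'V, ?_⟩
    rw [Subgroup.mem_centralizer_iff]
    intro s hs
    rw [Set.mem_singleton_iff.mp hs]
    exact hxz'
  · intro s hs
    rcases hs with h | h
    · rw [h]
      refine ⟨?_, ?_, ?_⟩
      · intro w hw
        obtain ⟨k, rfl⟩ := Subgroup.mem_zpowers_iff.mp hw
        exact ((show Commute x z' from hxz').zpow_right k).eq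
      · intro u hu
        have hu2 := (Subgroup.mem_inf.mp hu).2
        rw [Subgroup.mem_centralizer_iff] at hu2
        have h7 : x * u = u * x := hu2 x rfl
        have e : x * u * x⁻¹ * u⁻¹ = 1 := by rw [h7]; group
        rw [e]; exact Subgroup.one_mem _
      · intro v hv
        obtain ⟨k, hk⟩ := h5 v hv
        rw [hk]
        refine Subgroup.mem_inf.mpr ⟨V.pow_mem hzV k, ?_⟩
        rw [Subgroup.mem_centralizer_iff]
        intro s hs
        rw [Set.mem_singleton_iff.mp hs]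
        exact ((show Commute x z from hxz).pow_right k).eq
    · rw [Set.mem_singleton_iff.mp h]
      refine ⟨?_, ?_, ?_⟩
      · intro w hw
        obtain ⟨k, rfl⟩ := Subgroup.mem_zpowers_iff.mp hw
        exact ((show Commute y z' from hyz').zpow_right k).eq
      · intro u hu
        obtain ⟨l, hl⟩ := h6 u (Subgroup.mem_inf.mp hu).1
        rw [hl]; exact Subgroup.pow_mem _ (Subgroup.mem_zpowers z') l
      · intro v hv
        obtain ⟨l, hl⟩ := h6 v hv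
        rw [hl]
        refine Subgroup.mem_inf.mpr ⟨V.pow_mem hz'V l, ?_⟩
        rw [Subgroup.mem_centralizer_iff]
        intro s hs
        rw [Set.mem_singleton_iff.mp hs]
        exact ((show Commute x z' from hxz').pow_right l).eq

theorem core {G : Type u} [Group G] [Finite G] (p : ℕ) [Fact p.Prime] (V : Subgroup G)
    [hVn : V.Normal]
    (hVab : ∀ u ∈ V, ∀ v ∈ V, u * v = v * u) (hVexp : ∀ v ∈ V, v ^ p = 1)
    (hCV : ∀ c : G, (∀ v ∈ V, c * v = v * c) → c ∈ V)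
    (x : G) (hxp : ∃ e : ℕ, x ^ (p ^ e) = 1)
    (hxc : ∀ v ∈ V, x * v * x⁻¹ * v⁻¹ ∈ Subgroup.zpowers x) (g : G) :
    IsPGroup p (Subgroup.closure ({x, g * x * g⁻¹} : Set G)) ∨
      (p = 2 ∧ Cfsg.Involves (Equiv.Perm (Fin 4)) G) := by
  classical
  have hp : p.Prime := Fact.out
  by_cases hnp : IsPGroup p (Subgroup.closure ({x, g * x * g⁻¹} : Set G))
  · exact Or.inl hnp
  have hVp : IsPGroup p V := by
    rintro ⟨v, hv⟩
    refine ⟨1, Subtype.ext ?_⟩
    show v ^ p ^ 1 = 1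
    rw [pow_one]; exact hVexp v hv
  have hxV : x ∉ V := by
    intro hxV
    apply hnp
    have hle : Subgroup.closure ({x, g * x * g⁻¹} : Set G) ≤ V := by
      rw [Subgroup.closure_le]
      intro s hs
      rcases hs with h | h
      · rw [h]; exact hxV
      · rw [Set.mem_singleton_iff.mp h]; exact hVn.conj_mem x hxV g
    exact hVp.to_le hle
  obtain ⟨e, he⟩ := hxp
  have hex : ∃ k : ℕ, 0 < k ∧ x ^ k ∈ V :=
    ⟨p ^ e, pow_pos hp.pos e, by rw [he]; exact V.one_mem⟩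
  obtain ⟨m, hmdef⟩ : ∃ m, m = Nat.find hex := ⟨_, rfl⟩
  have hm0 : 0 < m := by rw [hmdef]; exact (Nat.find_spec hex).1
  have hmV : x ^ m ∈ V := by rw [hmdef]; exact (Nat.find_spec hex).2
  have hmin : ∀ k : ℕ, 0 < k → x ^ k ∈ V → m ≤ k := by
    intro k hk hkV
    rw [hmdef]; exact Nat.find_min' hex ⟨hk, hkV⟩
  have hdvd : ∀ k : ℕ, x ^ k ∈ V → m ∣ k := by
    intro k hkV
    have e2 : x ^ k = x ^ (k % m) * (x ^ m) ^ (k / m) := by
      rw [← pow_mul, ← pow_add, Nat.mod_add_div]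
    have e1 : x ^ (k % m) = x ^ k * ((x ^ m) ^ (k / m))⁻¹ := by
      rw [e2, mul_assoc, mul_inv_cancel, mul_one]
    have h7 : x ^ (k % m) ∈ V := by
      rw [e1]; exact V.mul_mem hkV (V.inv_mem (V.pow_mem hmV _))
    by_contra hnd
    have h8 : 0 < k % m := Nat.pos_of_ne_zero (fun h0 => hnd (Nat.dvd_of_mod_eq_zero h0))
    have h9 := hmin _ h8 h7
    have := Nat.mod_lt k hm0
    omega
  have hpm : p ∣ m := by
    have h7 : m ∣ p ^ e := hdvd _ (by rw [he]; exact V.one_mem)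
    obtain ⟨f, -, hf⟩ := (Nat.dvd_prime_pow hp).mp h7
    rcases Nat.eq_zero_or_pos f with h0 | h0
    · exfalso
      rw [h0, pow_zero] at hf
      rw [hf, pow_one] at hmV
      exact hxV hmV
    · rw [hf]; exact dvd_pow_self p (by omega)
  obtain ⟨z, hzdef⟩ : ∃ z, z = x ^ m := ⟨_, rfl⟩
  have hzV : z ∈ V := by rw [hzdef]; exact hmV
  have hx : ∀ v ∈ V, ∃ k : ℕ, x * v * x⁻¹ * v⁻¹ = z ^ k := by
    intro v hv
    have h7 := hxc v hv
    rw [← mem_powers_iff_mem_zpowers] at h7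
    obtain ⟨k, hk⟩ := (Submonoid.mem_powers_iff _ _).mp h7
    have h8 : x ^ k ∈ V := by
      rw [hk]
      exact V.mul_mem (hVn.conj_mem v hv x) (V.inv_mem hv)
    obtain ⟨d, hd⟩ := hdvd k h8
    exact ⟨d, by rw [← hk, hd, pow_mul, hzdef]⟩
  obtain ⟨y, hydef⟩ : ∃ y, y = g * x * g⁻¹ := ⟨_, rfl⟩
  obtain ⟨z', hz'def⟩ : ∃ z', z' = g * z * g⁻¹ := ⟨_, rfl⟩
  rw [← hydef] at hnp ⊢
  have hz'V : z' ∈ V := by rw [hz'def]; exact hVn.conj_mem z hzV g
  have hz'y : z' = y ^ m := by rw [hz'def, hydef, hzdef, conj_pow]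
  have hy : ∀ v ∈ V, ∃ l : ℕ, y * v * y⁻¹ * v⁻¹ = z' ^ l := by
    intro v hv
    have hv' : g⁻¹ * v * g ∈ V := by
      have := hVn.conj_mem v hv g⁻¹
      rwa [inv_inv] at this
    obtain ⟨k, hk⟩ := hx _ hv'
    refine ⟨k, ?_⟩
    have e1 : y * v * y⁻¹ * v⁻¹ = g * (x * (g⁻¹ * v * g) * x⁻¹ * (g⁻¹ * v * g)⁻¹) * g⁻¹ := by
      rw [hydef]; group
    rw [e1, hk, hz'def, conj_pow]
  have hxzc : x * z = z * x := by
    rw [hzdef, ← pow_succ', ← pow_succ]
  have hyz'c : y * z' = z' * y := by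
    rw [hz'y, ← pow_succ', ← pow_succ]
  have hxz1 : x * z * x⁻¹ = z := by rw [hxzc, mul_assoc, mul_inv_cancel, mul_one]
  have hyz'1 : y * z' * y⁻¹ = z' := by rw [hyz'c, mul_assoc, mul_inv_cancel, mul_one]
  obtain ⟨a, ha⟩ := hx z' hz'V
  obtain ⟨b, hb⟩ := hy z hzV
  have ha' : x * z' * x⁻¹ = z ^ a * z' := by rw [← ha]; group
  have hb' : y * z * y⁻¹ = z' ^ b * z := by rw [← hb]; group
  by_cases hza : z ^ a = 1
  · exfalso
    apply hnp
    have hxz' : x * z' = z' * x := by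
      rw [hza, one_mul] at ha'
      calc x * z' = x * z' * x⁻¹ * x := by group
        _ = z' * x := by rw [ha']
    exact core_comm p V hVexp hCV x y z z' hzV hz'V hxzc hyz'c hx hy hxz'
  by_cases hzb : z' ^ b = 1
  · exfalso
    apply hnp
    have hyz : y * z = z * y := by
      rw [hzb, one_mul] at hb'
      calc y * z = y * z * y⁻¹ * y := by group
        _ = z * y := by rw [hb']
    have h7 := core_comm p V hVexp hCV y x z' z hz'V hzV hyz'c hxzc hy hx hyz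
    rwa [Set.pair_comm] at h7
  have hz1 : z ≠ 1 := by
    intro h; apply hza; rw [h, one_pow]
  have hz'1 : z' ≠ 1 := by
    intro h; apply hzb; rw [h, one_pow]
  by_cases hp2 : p = 2
  · right
    refine ⟨hp2, ?_⟩
    subst hp2
    have zz : z * z = 1 := by rw [← pow_two]; exact hVexp z hzV
    have z'z' : z' * z' = 1 := by rw [← pow_two]; exact hVexp z' hz'V
    have hzp : ∀ i : ℕ, z ^ i = 1 ∨ z ^ i = z := by
      intro i
      induction i with
      | zero => left; exact pow_zero z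
      | succ i ih =>
        rcases ih with h | h
        · right; rw [pow_succ, h, one_mul]
        · left; rw [pow_succ, h, zz]
    have hz'p : ∀ j : ℕ, z' ^ j = 1 ∨ z' ^ j = z' := by
      intro i
      induction i with
      | zero => left; exact pow_zero z'
      | succ i ih =>
        rcases ih with h | h
        · right; rw [pow_succ, h, one_mul]
        · left; rw [pow_succ, h, z'z']
    have hza' : z ^ a = z := (hzp a).resolve_left hza
    have hzb' : z' ^ b = z' := (hz'p b).resolve_left hzb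
    have hz'inv : z'⁻¹ = z' := inv_eq_of_mul_eq_one_right z'z'
    rw [hza'] at ha'
    rw [hzb'] at hb'
    refine s4_section V hVab hVexp hCV x y z z' hzV hz'V hxz1 ha' hyz'1
      (by rw [hz'inv]; exact hb') hx hy hz1 hz'1 ?_ ?_ hnp
    · rw [hzdef]; exact Subgroup.pow_mem _ (Subgroup.subset_closure (by simp)) m
    · rw [hz'y]; exact Subgroup.pow_mem _ (Subgroup.subset_closure (by simp)) m
  · exfalso
    obtain ⟨i, hi, hzi⟩ := exists_pow_eq_self p z (hVexp z hzV) a hza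
    obtain ⟨i', hi', hzi'⟩ := exists_pow_eq_self p z' (hVexp z' hz'V) b hzb
    have h2 : x ^ i * z' * (x ^ i)⁻¹ = z * z' := by
      rw [conj_pow_twist x z z' a hxz1 ha' i, hzi]
    have hzinv' : z' ^ (b * (i' * (p - 1))) = z'⁻¹ := by
      rw [← mul_assoc, pow_mul, hzi']
      apply eq_inv_of_mul_eq_one_left
      rw [← pow_succ]
      have h7 : p - 1 + 1 = p := Nat.sub_add_cancel hp.one_le
      rw [h7]; exact hVexp z' hz'V
    have h4 : y ^ (i' * (p - 1)) * z * (y ^ (i' * (p - 1)))⁻¹ = z'⁻¹ * z := by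
      rw [conj_pow_twist y z' z b hyz'1 hb' (i' * (p - 1)), hzinv']
    have h1 : x ^ i * z * (x ^ i)⁻¹ = z := by
      have hc : Commute (x ^ i) z := (show Commute x z from hxzc).pow_left i
      rw [hc.eq, mul_assoc, mul_inv_cancel, mul_one]
    have h3 : y ^ (i' * (p - 1)) * z' * (y ^ (i' * (p - 1)))⁻¹ = z' := by
      have hc : Commute (y ^ (i' * (p - 1))) z' := (show Commute y z' from hyz'c).pow_left _
      rw [hc.eq, mul_assoc, mul_inv_cancel, mul_one]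
    have hxm : (x ^ i) ^ m = z ^ i := by
      rw [hzdef, ← pow_mul, ← pow_mul, mul_comm]
    exact odd_contra p hp2 V hVab hVexp hCV (x ^ i) (y ^ (i' * (p - 1))) z z' hzV hz'V h1 h2 h3 h4
      (comm_pow_mem V x z hxz1 hx i) (comm_pow_mem V y z' hyz'1 hy _) hz1 m i hpm hi hxm

theorem burnside_prime {G : Type*} [Group G] [Finite G] (p : ℕ) [Fact p.Prime] (R : Subgroup G)
    (hR : IsPGroup p R) (Φ : Subgroup G) (hΦ : Φ = (frattini ↥R).map R.subtype)
    (c : G) (q : ℕ) (hq : q.Prime) (hqp : q ≠ p) (hcq : c ^ q = 1)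
    (hcR : ∀ r ∈ R, c * r * c⁻¹ * r⁻¹ ∈ Φ) : ∀ r ∈ R, c * r = r * c := by
  classical
  have hp : p.Prime := Fact.out
  haveI : Fact q.Prime := ⟨hq⟩
  have hΦR : Φ ≤ R := by rw [hΦ]; exact Subgroup.map_subtype_le _
  have hconj : ∀ r ∈ R, ∀ φ ∈ Φ, r * φ * r⁻¹ ∈ Φ := by
    intro r hr φ hφ
    rw [hΦ] at hφ ⊢
    obtain ⟨φ', hφ', rfl⟩ := Subgroup.mem_map.mp hφ
    have hFn : (frattini ↥R).Normal := Subgroup.normal_of_characteristic _
    exact Subgroup.mem_map.mpr ⟨⟨r, hr⟩ * φ' * ⟨r, hr⟩⁻¹, hFn.conj_mem φ' hφ' ⟨r, hr⟩, rfl⟩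
  have hmem : ∀ r ∈ R, ∀ φ ∈ Φ, r⁻¹ * c * (r * φ) * c⁻¹ ∈ Φ := by
    intro r hr φ hφ
    have e : r⁻¹ * c * (r * φ) * c⁻¹ =
        (r⁻¹ * (c * r * c⁻¹ * r⁻¹) * r⁻¹⁻¹) * ((c * φ * c⁻¹ * φ⁻¹) * φ) := by group
    rw [e]
    exact Φ.mul_mem (hconj r⁻¹ (R.inv_mem hr) _ (hcR r hr)) (Φ.mul_mem (hcR φ (hΦR hφ)) hφ)
  have hcard : ¬ q ∣ Nat.card ↥Φ := by
    obtain ⟨n, hn⟩ := (IsPGroup.iff_card).mp (hR.to_le hΦR)
    rw [hn]
    intro h
    exact hqp ((Nat.prime_dvd_prime_iff_eq hq hp).mp (hq.dvd_of_dvd_pow h))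
  have hfix : ∀ r ∈ R, ∃ φ ∈ Φ, c * (r * φ) = (r * φ) * c := by
    intro r hr
    obtain ⟨f, hf⟩ : ∃ f : ↥Φ → ↥Φ, ∀ φ : ↥Φ,
        ((f φ : ↥Φ) : G) = r⁻¹ * c * (r * (φ : G)) * c⁻¹ :=
      ⟨fun φ => ⟨r⁻¹ * c * (r * (φ : G)) * c⁻¹, hmem r hr φ φ.2⟩, fun φ => rfl⟩
    have hinj : Function.Injective f := by
      intro a b hab
      have h7 := congrArg (fun t : ↥Φ => (t : G)) hab
      simp only [hf] at h7
      apply Subtype.ext
      have h8 := mul_left_cancel (mul_right_cancel h7)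
      exact mul_left_cancel h8
    obtain ⟨σ, hσ⟩ : ∃ σ : Equiv.Perm ↥Φ, ∀ φ, σ φ = f φ :=
      ⟨Equiv.ofBijective f (Finite.injective_iff_bijective.mp hinj), fun φ => rfl⟩
    have hpow : ∀ k : ℕ, ∀ φ : ↥Φ,
        (((σ ^ k) φ : ↥Φ) : G) = r⁻¹ * c ^ k * (r * (φ : G)) * (c ^ k)⁻¹ := by
      intro k
      induction k with
      | zero => intro φ; simp
      | succ k ih =>
        intro φ
        rw [pow_succ', Equiv.Perm.mul_apply, hσ, hf, ih φ, pow_succ']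
        group
    have hσq : σ ^ q ^ 1 = 1 := by
      ext φ
      rw [pow_one, hpow q φ, hcq]
      simp
    haveI : Fintype ↥Φ := Fintype.ofFinite _
    have hcard' : ¬ q ∣ Fintype.card ↥Φ := by rwa [← Nat.card_eq_fintype_card]
    obtain ⟨φ, hφ⟩ := Equiv.Perm.exists_fixed_point_of_prime hcard' hσq
    refine ⟨φ, φ.2, ?_⟩
    have h7 := congrArg (fun t : ↥Φ => (t : G)) hφ
    simp only [hσ, hf] at h7
    calc c * (r * (φ : G)) = r * (r⁻¹ * c * (r * (φ : G)) * c⁻¹) * c := by group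
      _ = r * (φ : G) * c := by rw [h7]
  have htop : (Subgroup.centralizer ({c} : Set G)).subgroupOf R = ⊤ := by
    apply frattini_nongenerating
    rw [eq_top_iff]
    intro ρ _
    obtain ⟨φ, hφ, hcomm⟩ := hfix ρ ρ.2
    have hφ' : φ ∈ (frattini ↥R).map R.subtype := by rw [← hΦ]; exact hφ
    obtain ⟨φ', hφ'F, hφ'eq⟩ := Subgroup.mem_map.mp hφ'
    have e : ρ = (ρ * φ') * φ'⁻¹ := by group
    rw [e]
    apply Subgroup.mul_mem_sup
    · rw [Subgroup.mem_subgroupOf, Subgroup.mem_centralizer_iff]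
      intro s hs
      rw [Set.mem_singleton_iff.mp hs]
      show c * ((ρ : G) * (φ' : G)) = (ρ : G) * (φ' : G) * c
      have h9 : (φ' : G) = φ := hφ'eq
      rw [h9]; exact hcomm
    · exact Subgroup.inv_mem _ hφ'F
  intro r hr
  have h7 : (⟨r, hr⟩ : ↥R) ∈ (Subgroup.centralizer ({c} : Set G)).subgroupOf R := by
    rw [htop]; exact Subgroup.mem_top _
  rw [Subgroup.mem_subgroupOf, Subgroup.mem_centralizer_iff] at h7
  exact h7 c rfl

open scoped commutatorElement in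
theorem redA {G : Type u} [Group G] [Finite G] (p : ℕ) [Fact p.Prime]
    (hG : Cfsg.IsPSolvable p G) (hbot : Cfsg.pPrimeCore p G = ⊥)
    (P : Sylow p G) (x : G) (hxP : x ∈ (P : Subgroup G))
    (hxn : ∀ u ∈ (P : Subgroup G), u * x * u⁻¹ ∈ Subgroup.zpowers x)
    (h : p ≠ 2 ∨ ¬ Cfsg.Involves (Equiv.Perm (Fin 4)) G) : x ∈ Cfsg.pCore p G := by
  classical
  have hp : p.Prime := Fact.out
  obtain ⟨R, hRdef⟩ : ∃ R : Subgroup G, R = Cfsg.pCore p G := ⟨_, rfl⟩
  rw [← hRdef]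
  haveI hRn : R.Normal := by rw [hRdef]; exact Cfsg.Agent.Lib.helper15.pCore_normal p G
  have hRp : IsPGroup p R := by rw [hRdef]; exact Cfsg.Agent.Lib.helper15.pCore_isPGroup p G
  have hCR : Subgroup.centralizer (R : Set G) ≤ R := by
    rw [hRdef]; exact Cfsg.Agent.Lib.helper16.centralizer_pCore_le_of_pSolvable hG hbot
  have hRP : R ≤ (P : Subgroup G) := by
    rw [hRdef]; exact Cfsg.Agent.Lib.helper15.pCore_le_sylow P
  obtain ⟨Φ, hΦdef⟩ : ∃ Φ : Subgroup G, Φ = (frattini ↥R).map R.subtype := ⟨_, rfl⟩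
  haveI hΦn : Φ.Normal := by rw [hΦdef]; infer_instance
  have hΦR : Φ ≤ R := by rw [hΦdef]; exact Subgroup.map_subtype_le _
  have hcommΦ : ∀ r ∈ R, ∀ s ∈ R, r * s * r⁻¹ * s⁻¹ ∈ Φ := by
    intro r hr s hs
    rw [hΦdef]
    refine Subgroup.mem_map.mpr ⟨⁅(⟨r, hr⟩ : ↥R), ⟨s, hs⟩⁆, ?_, ?_⟩
    · apply Cfsg.Agent.Lib.helper1.commutator_le_frattini p hRp
      rw [commutator_def]
      exact Subgroup.commutator_mem_commutator (Subgroup.mem_top _) (Subgroup.mem_top _)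
    · rw [commutatorElement_def]; rfl
  have hpowΦ : ∀ r ∈ R, r ^ p ∈ Φ := by
    intro r hr
    rw [hΦdef]
    exact Subgroup.mem_map.mpr
      ⟨(⟨r, hr⟩ : ↥R) ^ p, Cfsg.Agent.Lib.helper1.pow_mem_frattini p hRp _, rfl⟩
  obtain ⟨π, hπdef⟩ : ∃ π : G →* G ⧸ Φ, π = QuotientGroup.mk' Φ := ⟨_, rfl⟩
  have hπsurj : Function.Surjective π := by rw [hπdef]; exact QuotientGroup.mk'_surjective _
  have hπone : ∀ a : G, π a = 1 ↔ a ∈ Φ := by
    intro a
    rw [hπdef]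
    exact QuotientGroup.eq_one_iff a
  obtain ⟨V, hVdef⟩ : ∃ V : Subgroup (G ⧸ Φ), V = R.map π := ⟨_, rfl⟩
  haveI hVn : V.Normal := by rw [hVdef]; exact Subgroup.Normal.map hRn π hπsurj
  have hVmem : ∀ v, v ∈ V ↔ ∃ r ∈ R, π r = v := by
    intro v; rw [hVdef]; exact Subgroup.mem_map
  have hVab : ∀ u ∈ V, ∀ v ∈ V, u * v = v * u := by
    intro u hu v hv
    obtain ⟨r, hr, rfl⟩ := (hVmem u).mp hu
    obtain ⟨s, hs, rfl⟩ := (hVmem v).mp hv
    have h7 := (hπone _).mpr (hcommΦ r hr s hs)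
    rw [map_mul, map_mul, map_mul, map_inv, map_inv] at h7
    have h8 := mul_inv_eq_one.mp h7
    exact mul_inv_eq_iff_eq_mul.mp h8
  have hVexp : ∀ v ∈ V, v ^ p = 1 := by
    intro v hv
    obtain ⟨r, hr, rfl⟩ := (hVmem v).mp hv
    rw [← map_pow, hπone]; exact hpowΦ r hr
  have hCV : ∀ c : G ⧸ Φ, (∀ v ∈ V, c * v = v * c) → c ∈ V := by
    obtain ⟨C, hCdef⟩ : ∃ C : Subgroup G,
        C = (Subgroup.centralizer (V : Set (G ⧸ Φ))).comap π := ⟨_, rfl⟩
    haveI hCn : C.Normal := by rw [hCdef]; infer_instance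
    have hCmem : ∀ c ∈ C, ∀ r ∈ R, c * r * c⁻¹ * r⁻¹ ∈ Φ := by
      intro c hc r hr
      rw [hCdef, Subgroup.mem_comap, Subgroup.mem_centralizer_iff] at hc
      have h7 := hc (π r) ((hVmem _).mpr ⟨r, hr, rfl⟩)
      rw [← hπone, map_mul, map_mul, map_mul, map_inv, map_inv, ← h7]
      group
    have hCp : IsPGroup p C := by
      apply IsPGroup.of_card (n := (Nat.card C).primeFactorsList.length)
      apply Nat.eq_prime_pow_of_unique_prime_dvd Nat.card_pos.ne'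
      intro q hq hqd
      by_contra hne
      haveI : Fact q.Prime := ⟨hq⟩
      obtain ⟨c, hc⟩ := exists_prime_orderOf_dvd_card' q hqd
      have hcq : (c : G) ^ q = 1 := by
        have h7 := pow_orderOf_eq_one c
        rw [hc] at h7
        exact congrArg Subtype.val h7
      have hcent := burnside_prime p R hRp Φ hΦdef (c : G) q hq hne hcq (hCmem c c.2)
      have hcR : (c : G) ∈ R := by
        apply hCR
        rw [Subgroup.mem_centralizer_iff]
        intro r hr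
        exact (hcent r hr).symm
      obtain ⟨j, hj⟩ := hRp ⟨c, hcR⟩
      have hj' : (c : G) ^ p ^ j = 1 := congrArg Subtype.val hj
      have h7 : orderOf (c : G) ∣ p ^ j := orderOf_dvd_of_pow_eq_one hj'
      rw [Subgroup.orderOf_coe, hc] at h7
      exact hne ((Nat.prime_dvd_prime_iff_eq hq hp).mp (hq.dvd_of_dvd_pow h7))
    have hCle : C ≤ R := by rw [hRdef]; exact Cfsg.Agent.Lib.helper15.le_pCore hCn hCp
    intro c hc
    obtain ⟨c0, rfl⟩ := hπsurj c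
    have hc0 : c0 ∈ C := by
      rw [hCdef, Subgroup.mem_comap, Subgroup.mem_centralizer_iff]
      intro v hv
      exact (hc v hv).symm
    exact (hVmem _).mpr ⟨c0, hCle hc0, rfl⟩
  obtain ⟨e, he⟩ := P.isPGroup' ⟨x, hxP⟩
  have hxe : x ^ p ^ e = 1 := congrArg Subtype.val he
  have hxp : ∃ e : ℕ, (π x) ^ (p ^ e) = 1 := ⟨e, by rw [← map_pow, hxe, map_one]⟩
  have hxc : ∀ v ∈ V, π x * v * (π x)⁻¹ * v⁻¹ ∈ Subgroup.zpowers (π x) := by
    intro v hv
    obtain ⟨r, hr, rfl⟩ := (hVmem v).mp hv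
    have h7 := hxn r (hRP hr)
    have h8 : x * r * x⁻¹ * r⁻¹ ∈ Subgroup.zpowers x := by
      have e1 : x * r * x⁻¹ * r⁻¹ = x * (r * x * r⁻¹)⁻¹ := by group
      rw [e1]
      exact Subgroup.mul_mem _ (Subgroup.mem_zpowers x) (Subgroup.inv_mem _ h7)
    obtain ⟨k, hk⟩ := Subgroup.mem_zpowers_iff.mp h8
    rw [← map_inv, ← map_inv, ← map_mul, ← map_mul, ← map_mul, ← hk, map_zpow]
    exact Subgroup.zpow_mem _ (Subgroup.mem_zpowers _) k
  have hcore := core p V hVab hVexp hCV (π x) hxp hxc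
  have hall : ∀ g : G ⧸ Φ,
      IsPGroup p (Subgroup.closure ({π x, g * π x * g⁻¹} : Set (G ⧸ Φ))) := by
    intro g
    rcases hcore g with h7 | ⟨h2, hinv⟩
    · exact h7
    · exfalso
      rcases h with h | h
      · exact h h2
      · exact h (Cfsg.Agent.Lib.helper14.involves_of_surjective_hom π hπsurj hinv)
  have hX : IsPGroup p (Subgroup.zpowers (π x)) := by
    rintro ⟨w, hw⟩
    obtain ⟨k, rfl⟩ := Subgroup.mem_zpowers_iff.mp hw
    obtain ⟨e', he'⟩ := hxp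
    refine ⟨e', Subtype.ext ?_⟩
    show (π x ^ k) ^ p ^ e' = 1
    rw [← zpow_natCast, ← zpow_mul, mul_comm, zpow_mul, zpow_natCast, he', one_zpow]
  obtain ⟨N, hNn, hNp, hXN⟩ := Cfsg.Agent.S0199.result (Subgroup.zpowers (π x)) hX (by
    intro g
    refine (hall g).to_le ?_
    rw [sup_le_iff]
    constructor
    · rw [Subgroup.zpowers_le]
      exact Subgroup.subset_closure (by simp)
    · rw [Subgroup.map_le_iff_le_comap, Subgroup.zpowers_le, Subgroup.mem_comap]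
      show g * π x * g⁻¹ ∈ _
      exact Subgroup.subset_closure (by simp))
  have hNc : (N.comap π).Normal := hNn.comap π
  have hNcp : IsPGroup p (N.comap π) := by
    obtain ⟨n1, hn1⟩ := (IsPGroup.iff_card).mp hNp
    obtain ⟨n2, hn2⟩ := (IsPGroup.iff_card).mp (hRp.to_le hΦR)
    apply IsPGroup.of_card (n := n2 + n1)
    rw [Cfsg.Agent.Lib.helper9.card_comap_of_surjective' π hπsurj N, hn1, hπdef,
      QuotientGroup.ker_mk', hn2, pow_add]
  have hle : N.comap π ≤ R := by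
    rw [hRdef]; exact Cfsg.Agent.Lib.helper15.le_pCore hNc hNcp
  exact hle (Subgroup.mem_comap.mpr (hXN (Subgroup.mem_zpowers _)))


/-- Let G be a finite p-soluble group, P a Sylow p-subgroup of G and A a cyclic normal subgroup of P. If p is odd, or if no section of G is isomorphic to the symmetric group of degree 4, then A ≤ O_{p',p}(G). -/
theorem result {G : Type*} [Group G] [Finite G] {p : ℕ} [Fact p.Prime] (hG : Cfsg.IsPSolvable p G) (P : Sylow p G) (A : Subgroup G) (hAP : A ≤ (P : Subgroup G)) (hAn : (P : Subgroup G) ≤ Subgroup.normalizer (A : Set G)) (hA : IsCyclic A) (h : p ≠ 2 ∨ ¬ Cfsg.Involves (Equiv.Perm (Fin 4)) G) : A ≤ Cfsg.pPrimePCore p G := by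
  classical
  haveI hKn : (Cfsg.pPrimeCore p G).Normal := Cfsg.Agent.Lib.helper9.ppc_normal p G
  obtain ⟨π, hπdef⟩ : ∃ π : G →* G ⧸ Cfsg.pPrimeCore p G,
      π = QuotientGroup.mk' (Cfsg.pPrimeCore p G) := ⟨_, rfl⟩
  have hπsurj : Function.Surjective π := by rw [hπdef]; exact QuotientGroup.mk'_surjective _
  have hbot : Cfsg.pPrimeCore p (G ⧸ Cfsg.pPrimeCore p G) = ⊥ :=
    Cfsg.Agent.Lib.helper9.pPrimeCore_quotient_eq_bot p G
  have hG1 : Cfsg.IsPSolvable p (G ⧸ Cfsg.pPrimeCore p G) :=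
    Cfsg.Agent.Lib.helper16.isPSolvable_of_surjective π hπsurj hG
  obtain ⟨a, ha⟩ := hA.exists_generator
  obtain ⟨P1, hP1⟩ : ∃ P1 : Sylow p (G ⧸ Cfsg.pPrimeCore p G),
      (P1 : Subgroup (G ⧸ Cfsg.pPrimeCore p G)) = (P : Subgroup G).map π :=
    ⟨P.mapSurjective hπsurj, rfl⟩
  have hres : π (a : G) ∈ Cfsg.pCore p (G ⧸ Cfsg.pPrimeCore p G) := by
    refine redA p hG1 hbot P1 (π (a : G)) ?_ ?_ ?_
    · rw [hP1]; exact Subgroup.mem_map_of_mem π (hAP a.2)
    · intro u hu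
      rw [hP1] at hu
      obtain ⟨u0, hu0, rfl⟩ := Subgroup.mem_map.mp hu
      have h7 : u0 * (a : G) * u0⁻¹ ∈ A :=
        ((Subgroup.mem_normalizer_iff.mp (hAn hu0)) (a : G)).mp a.2
      obtain ⟨k, hk⟩ := Subgroup.mem_zpowers_iff.mp (ha ⟨_, h7⟩)
      have hk' : (a : G) ^ k = u0 * (a : G) * u0⁻¹ := by
        have h8 := congrArg Subtype.val hk
        simpa using h8
      rw [← map_inv, ← map_mul, ← map_mul, ← hk', map_zpow]
      exact Subgroup.zpow_mem _ (Subgroup.mem_zpowers _) k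
    · rcases h with h | h
      · exact Or.inl h
      · right
        intro hinv
        exact h (Cfsg.Agent.Lib.helper14.involves_of_surjective_hom π hπsurj hinv)
  intro w hw
  show w ∈ (Cfsg.pCore p (G ⧸ Cfsg.pPrimeCore p G)).comap
    (QuotientGroup.mk' (Cfsg.pPrimeCore p G))
  rw [Subgroup.mem_comap, ← hπdef]
  obtain ⟨k, hk⟩ := Subgroup.mem_zpowers_iff.mp (ha ⟨w, hw⟩)
  have hk' : (a : G) ^ k = w := by
    have h8 := congrArg Subtype.val hk
    simpa using h8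
  rw [← hk', map_zpow]
  exact Subgroup.zpow_mem _ hres k

end Cfsg.Agent.S3788
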