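import Cfsg.Statements.S0502
import Cfsg.Agent.S1338
import Cfsg.Agent.S3788
import Cfsg.Agent.Lib.helper6.QD3
import Mathlib

set_option autoImplicit false
open Cfsg

namespace Cfsg.Agent.S0502

open Cfsg.Agent.S1338 (card_le_ker_mul_map rtg_symm)

theorem nil2 {M : Type*} [CommGroup M] [Finite M] (c : M →* M) (hc2 : ∀ a, c (c a) = a)
    (hexp : ∀ a : M, a * a = 1) :
    Nat.card M ≤ Nat.card {a : M // c a = a} * Nat.card {a : M // c a = a} := by
  let φ : M →* M := MonoidHom.mk' (fun a => c a * a⁻¹) (by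
    intro a b
    rw [map_mul, mul_inv, mul_mul_mul_comm])
  have hφ : ∀ a, φ a = c a * a⁻¹ := fun a => rfl
  have hφ2 : ∀ a, φ (φ a) = 1 := by
    intro a
    rw [hφ a, hφ, map_mul, map_inv, hc2, mul_inv_rev, inv_inv]
    exact hexp _
  have h1 := card_le_ker_mul_map φ ⊤
  have h2 := card_le_ker_mul_map φ ((⊤ : Subgroup M).map φ)
  have h4 : ((⊤ : Subgroup M).map φ).map φ = ⊥ := by
    rw [eq_bot_iff]
    rintro _ ⟨_, ⟨a, -, rfl⟩, rfl⟩
    exact Subgroup.mem_bot.mpr (hφ2 a)
  rw [h4, Subgroup.card_bot, mul_one] at h2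
  rw [Subgroup.card_top] at h1
  have h5 : Nat.card φ.ker ≤ Nat.card {a : M // c a = a} :=
    Nat.card_le_card_of_injective (fun x : φ.ker => (⟨x.1, by
      have hx := MonoidHom.mem_ker.mp x.2
      rw [hφ] at hx
      exact mul_inv_eq_one.mp hx⟩ : {a : M // c a = a}))
      (by
        intro a b h
        apply Subtype.ext
        exact congrArg (fun z : {a : M // c a = a} => (z : M)) h)
  calc Nat.card M ≤ Nat.card φ.ker * Nat.card ((⊤ : Subgroup M).map φ) := h1
    _ ≤ Nat.card φ.ker * Nat.card φ.ker := Nat.mul_le_mul_left _ h2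
    _ ≤ _ := Nat.mul_le_mul h5 h5

theorem cent2 {P : Type*} [Group P] [Finite P] (B : Subgroup P)
    (hBc : ∀ a ∈ B, ∀ b ∈ B, a * b = b * a) (hBe : ∀ a ∈ B, a * a = 1) (y : P) (hy : y * y = 1)
    (hyB : ∀ b ∈ B, y * b * y⁻¹ ∈ B) :
    Nat.card B ≤ Nat.card (B ⊓ Subgroup.centralizer ({y} : Set P) : Subgroup P) *
      Nat.card (B ⊓ Subgroup.centralizer ({y} : Set P) : Subgroup P) := by
  letI cB : CommGroup ↥B :=
    { (inferInstance : Group ↥B) with mul_comm := fun a b => Subtype.ext (hBc a a.2 b b.2) }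
  let c : ↥B →* ↥B := MonoidHom.mk' (fun a => ⟨y * a * y⁻¹, hyB a a.2⟩) (by
    intro a b
    apply Subtype.ext
    show y * ((a : P) * (b : P)) * y⁻¹ = y * (a : P) * y⁻¹ * (y * (b : P) * y⁻¹)
    group)
  have hc2 : ∀ a, c (c a) = a := by
    intro a
    apply Subtype.ext
    show y * (y * (a : P) * y⁻¹) * y⁻¹ = (a : P)
    have : y * (y * (a : P) * y⁻¹) * y⁻¹ = (y * y) * (a : P) * (y * y)⁻¹ := by group
    rw [this, hy, one_mul, inv_one, mul_one]
  have hexp : ∀ a : ↥B, a * a = 1 := by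
    intro a
    apply Subtype.ext
    exact hBe a.1 a.2
  have h := nil2 c hc2 hexp
  have h5 : Nat.card {a : ↥B // c a = a} ≤
      Nat.card (B ⊓ Subgroup.centralizer ({y} : Set P) : Subgroup P) :=
    Nat.card_le_card_of_injective (fun x : {a : ↥B // c a = a} =>
      (⟨(x.1 : P), x.1.2, Subgroup.mem_centralizer_singleton_iff.mpr (by
        have hx : y * (x.1 : P) * y⁻¹ = (x.1 : P) := congrArg Subtype.val x.2
        have := mul_inv_eq_iff_eq_mul.mp hx
        exact this.symm)⟩ : ↥(B ⊓ Subgroup.centralizer ({y} : Set P))))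
      (by
        intro a b h
        apply Subtype.ext; apply Subtype.ext
        exact congrArg (fun z : ↥(B ⊓ Subgroup.centralizer ({y} : Set P)) => (z : P)) h)
  exact h.trans (Nat.mul_le_mul h5 h5)

theorem isKleinFour_of {P : Type*} [Group P] (U : Subgroup P) (hcard : Nat.card U = 4)
    (hsq : ∀ u ∈ U, u * u = 1) : IsKleinFour ↥U := by
  refine ⟨hcard, ?_⟩
  have hdvd : Monoid.exponent ↥U ∣ 2 := Monoid.exponent_dvd_of_forall_pow_eq_one (fun g => by
    rw [pow_two]; exact Subtype.ext (hsq g.1 g.2))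
  rcases (Nat.dvd_prime Nat.prime_two).mp hdvd with h | h
  · exfalso
    haveI : Subsingleton ↥U := Monoid.exp_eq_one_iff.mp h
    have h1 : Nat.card ↥U = 1 := Nat.card_of_subsingleton (1 : ↥U)
    omega
  · exact h

theorem comm_of_klein {P : Type*} [Group P] (U : Subgroup P) (a b : P)
    (hU : ∀ u, u ∈ U ↔ u = 1 ∨ u = a ∨ u = b ∨ u = a * b) (x : P) (hxa : x * a = a * x)
    (hxb : x * b = b * x) : ∀ u ∈ U, x * u = u * x := by
  intro u hu
  rcases (hU u).mp hu with h | h | h | h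
  · rw [h, mul_one, one_mul]
  · rw [h]; exact hxa
  · rw [h]; exact hxb
  · rw [h, ← mul_assoc, hxa, mul_assoc, hxb, ← mul_assoc]

theorem sq_of_klein {P : Type*} [Group P] (U : Subgroup P) (a b : P)
    (hU : ∀ u, u ∈ U ↔ u = 1 ∨ u = a ∨ u = b ∨ u = a * b) (ha : a * a = 1) (hb : b * b = 1)
    (hab : a * b = b * a) : ∀ u ∈ U, u * u = 1 := by
  intro u hu
  rcases (hU u).mp hu with h | h | h | h
  · rw [h, mul_one]
  · rw [h]; exact ha
  · rw [h]; exact hb
  · rw [h]
    calc a * b * (a * b) = a * (b * a) * b := by group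
      _ = a * (a * b) * b := by rw [hab]
      _ = (a * a) * (b * b) := by group
      _ = 1 := by rw [ha, hb, one_mul]

theorem nat4 : ∀ n : ℕ, n ∣ 4 → 2 < n → n = 4 := by
  intro n hd h3
  have : n ≤ 4 := Nat.le_of_dvd (by norm_num) hd
  interval_cases n <;> omega

theorem result {P : Type*} [Group P] [Finite P] (hP : IsPGroup 2 P)
    (E : Subgroup P) [E.Normal] (hE : IsMulCommutative E) (hE2 : ∀ e ∈ E, e ^ 2 = 1) (hE8 : 8 ≤ Nat.card E) :
    Cfsg.IsFourConnected P := by
  haveI : Fact (Nat.Prime 2) := ⟨Nat.prime_two⟩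
  have hEn : E.Normal := inferInstance
  have hEc : ∀ a ∈ E, ∀ b ∈ E, a * b = b * a := fun a ha b hb =>
    congrArg Subtype.val (mul_comm' (⟨a, ha⟩ : E) ⟨b, hb⟩)
  have hEsq : ∀ a ∈ E, a * a = 1 := fun a ha => by rw [← pow_two]; exact hE2 a ha
  have hA : ∀ v : P, v * v = 1 →
      4 ≤ Nat.card (E ⊓ Subgroup.centralizer ({v} : Set P) : Subgroup P) := by
    intro v hv
    have h := cent2 E hEc hEsq v hv (fun b hb => hEn.conj_mem b hb v)
    obtain ⟨j, hj⟩ := IsPGroup.iff_card.mp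
      (hP.to_subgroup (E ⊓ Subgroup.centralizer ({v} : Set P)))
    rw [hj] at h ⊢
    have hj2 : 2 ≤ j := by
      by_contra hlt
      have hj1 : j ≤ 1 := by omega
      have h2j : 2 ^ j ≤ 2 := by
        calc 2 ^ j ≤ 2 ^ 1 := Nat.pow_le_pow_right (by norm_num) hj1
          _ = 2 := by norm_num
      nlinarith [Nat.mul_le_mul h2j h2j]
    calc 4 = 2 ^ 2 := by norm_num
      _ ≤ 2 ^ j := Nat.pow_le_pow_right (by norm_num) hj2
  have hB : ∀ v w : P, v * v = 1 → w * w = 1 → v * w = w * v →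
      2 ≤ Nat.card (E ⊓ Subgroup.centralizer ({v} : Set P) ⊓
        Subgroup.centralizer ({w} : Set P) : Subgroup P) := by
    intro v w hv hw hvw
    have h4 := hA v hv
    have hwinv : w⁻¹ = w := inv_eq_of_mul_eq_one_left hw
    have h := cent2 (E ⊓ Subgroup.centralizer ({v} : Set P))
      (fun a ha b hb => hEc a ha.1 b hb.1) (fun a ha => hEsq a ha.1) w hw (by
        intro b hb
        refine ⟨hEn.conj_mem b hb.1 w, ?_⟩
        have hbv : b * v = v * b := Subgroup.mem_centralizer_singleton_iff.mp hb.2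
        apply Subgroup.mem_centralizer_singleton_iff.mpr
        rw [hwinv]
        calc w * b * w * v = w * (b * (w * v)) := by group
          _ = w * (b * (v * w)) := by rw [hvw]
          _ = w * ((b * v) * w) := by group
          _ = w * ((v * b) * w) := by rw [hbv]
          _ = (w * v) * (b * w) := by group
          _ = (v * w) * (b * w) := by rw [hvw]
          _ = v * (w * b * w) := by group)
    by_contra hlt
    have hk1 : Nat.card (E ⊓ Subgroup.centralizer ({v} : Set P) ⊓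
        Subgroup.centralizer ({w} : Set P) : Subgroup P) ≤ 1 := by omega
    nlinarith [Nat.mul_le_mul hk1 hk1]
  have hC : ∀ V : Subgroup P, IsKleinFour V → ∃ U₂ : Subgroup P, U₂ ≤ E ∧ IsKleinFour U₂ ∧
      Relation.ReflTransGen (fun A B : Subgroup P => IsKleinFour A ∧ IsKleinFour B ∧
        ∀ a ∈ A, ∀ b ∈ B, a * b = b * a) V U₂ := by
    intro V hV
    have hVsq : ∀ t ∈ V, t * t = 1 := fun t ht => Cfsg.Agent.Lib.helper6.klein_sq V hV t ht
    have hVc : ∀ s ∈ V, ∀ t ∈ V, s * t = t * s := fun s hs t ht =>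
      Cfsg.Agent.Lib.helper6.klein_comm V hV s t hs ht
    have hV4 : Nat.card V = 4 := hV.card_four
    obtain ⟨v, hvV, hv1'⟩ := Cfsg.Agent.S0122.exists_not_mem_of_card_lt ⊥ V
      (by rw [Subgroup.card_bot, hV4]; norm_num)
    have hv1 : v ≠ 1 := fun h => hv1' (by rw [h]; exact Subgroup.one_mem _)
    have hvo : orderOf v = 2 := orderOf_eq_prime (by rw [pow_two]; exact hVsq v hvV) hv1
    obtain ⟨w, hwV, hwz⟩ := Cfsg.Agent.S0122.exists_not_mem_of_card_lt (Subgroup.zpowers v) V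
      (by rw [Nat.card_zpowers, hvo, hV4]; norm_num)
    have hw1 : w ≠ 1 := fun h => hwz (by rw [h]; exact Subgroup.one_mem _)
    have hwv : w ≠ v := fun h => hwz (by rw [h]; exact Subgroup.mem_zpowers v)
    have h2 := hB v w (hVsq v hvV) (hVsq w hwV) (hVc v hvV w hwV)
    obtain ⟨e, heC, he1'⟩ := Cfsg.Agent.S0122.exists_not_mem_of_card_lt ⊥
      (E ⊓ Subgroup.centralizer ({v} : Set P) ⊓ Subgroup.centralizer ({w} : Set P))
      (by rw [Subgroup.card_bot]; omega)
    have he1 : e ≠ 1 := fun h => he1' (by rw [h]; exact Subgroup.one_mem _)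
    have heE : e ∈ E := heC.1.1
    have hev : e * v = v * e := Subgroup.mem_centralizer_singleton_iff.mp heC.1.2
    have hew : e * w = w * e := Subgroup.mem_centralizer_singleton_iff.mp heC.2
    have hesq : e * e = 1 := hEsq e heE
    have heo : orderOf e = 2 := orderOf_eq_prime (by rw [pow_two]; exact hesq) he1
    have heV : ∀ t ∈ V, e * t = t * e := by
      have hT : V ⊓ Subgroup.centralizer ({e} : Set P) = V := by
        apply Subgroup.eq_of_le_of_card_ge inf_le_left
        have hdvd : Nat.card (V ⊓ Subgroup.centralizer ({e} : Set P) : Subgroup P) ∣ 4 := by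
          rw [← hV4]; exact Subgroup.card_dvd_of_le inf_le_left
        have hgt : 2 < Nat.card (V ⊓ Subgroup.centralizer ({e} : Set P) : Subgroup P) := by
          by_contra hle
          have hzle : Subgroup.zpowers v ≤ V ⊓ Subgroup.centralizer ({e} : Set P) := by
            rw [Subgroup.zpowers_le]
            exact ⟨hvV, Subgroup.mem_centralizer_singleton_iff.mpr hev.symm⟩
          have hzc : Nat.card (Subgroup.zpowers v) = 2 := by rw [Nat.card_zpowers, hvo]
          have heq := Subgroup.eq_of_le_of_card_ge hzle ((not_lt.mp hle).trans hzc.ge)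
          exact hwz (heq.ge ⟨hwV, Subgroup.mem_centralizer_singleton_iff.mpr hew.symm⟩)
        exact hV4.le.trans (nat4 _ hdvd hgt).ge
      intro t ht
      have : t ∈ V ⊓ Subgroup.centralizer ({e} : Set P) := hT.ge ht
      exact (Subgroup.mem_centralizer_singleton_iff.mp this.2).symm
    obtain ⟨v', hv'V, hv'1, hv'e⟩ : ∃ v' ∈ V, v' ≠ 1 ∧ v' ≠ e := by
      by_cases h : v = e
      · exact ⟨w, hwV, hw1, fun h' => hwv (h'.trans h.symm)⟩
      · exact ⟨v, hvV, hv1, h⟩
    have hv'sq : v' * v' = 1 := hVsq v' hv'V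
    have hev' : e * v' = v' * e := heV v' hv'V
    have h4 := hA v' hv'sq
    have hzec : Nat.card (Subgroup.zpowers e) = 2 := by rw [Nat.card_zpowers, heo]
    obtain ⟨f, hfC, hfz⟩ := Cfsg.Agent.S0122.exists_not_mem_of_card_lt (Subgroup.zpowers e)
      (E ⊓ Subgroup.centralizer ({v'} : Set P)) (by rw [hzec]; omega)
    have hf1 : f ≠ 1 := fun h => hfz (by rw [h]; exact Subgroup.one_mem _)
    have hfe : e ≠ f := fun h => hfz (by rw [← h]; exact Subgroup.mem_zpowers e)
    have hfE : f ∈ E := hfC.1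
    have hfv' : f * v' = v' * f := Subgroup.mem_centralizer_singleton_iff.mp hfC.2
    obtain ⟨U₁, hU₁, hU₁c⟩ :=
      Cfsg.Agent.S3788.klein_subgroup v' e hv'sq hesq hev'.symm hv'1 he1 hv'e
    obtain ⟨U₂, hU₂, hU₂c⟩ :=
      Cfsg.Agent.S3788.klein_subgroup e f hesq (hEsq f hfE) (hEc e heE f hfE) he1 hf1 hfe
    have hU₁K : IsKleinFour U₁ :=
      isKleinFour_of U₁ hU₁c (sq_of_klein U₁ v' e hU₁ hv'sq hesq hev'.symm)
    have hU₂K : IsKleinFour U₂ :=
      isKleinFour_of U₂ hU₂c (sq_of_klein U₂ e f hU₂ hesq (hEsq f hfE) (hEc e heE f hfE))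
    have hU₂E : U₂ ≤ E := by
      intro u hu
      rcases (hU₂ u).mp hu with h | h | h | h
      · rw [h]; exact E.one_mem
      · rw [h]; exact heE
      · rw [h]; exact hfE
      · rw [h]; exact E.mul_mem heE hfE
    refine ⟨U₂, hU₂E, hU₂K, ?_⟩
    refine Relation.ReflTransGen.head (b := U₁) ⟨hV, hU₁K, ?_⟩
      (Relation.ReflTransGen.single ⟨hU₁K, hU₂K, ?_⟩)
    · intro a ha
      exact comm_of_klein U₁ v' e hU₁ a (hVc a ha v' hv'V) (heV a ha).symm
    · intro a ha b hb
      have hbv' : b * v' = v' * b :=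
        (comm_of_klein U₂ e f hU₂ v' hev'.symm hfv'.symm b hb).symm
      have hbe : b * e = e * b :=
        (comm_of_klein U₂ e f hU₂ e rfl (hEc e heE f hfE) b hb).symm
      exact (comm_of_klein U₁ v' e hU₁ b hbv' hbe a ha).symm
  intro V V' hV hV'
  obtain ⟨U₂, hU₂E, hU₂K, r1⟩ := hC V hV
  obtain ⟨U₂', hU₂'E, hU₂'K, r2⟩ := hC V' hV'
  have hswap : ∀ A B : Subgroup P, (IsKleinFour A ∧ IsKleinFour B ∧
      ∀ a ∈ A, ∀ b ∈ B, a * b = b * a) → (IsKleinFour B ∧ IsKleinFour A ∧
      ∀ a ∈ B, ∀ b ∈ A, a * b = b * a) := by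
    rintro A B ⟨hA', hB', hc⟩
    exact ⟨hB', hA', fun b hb a ha => (hc a ha b hb).symm⟩
  have r3 := rtg_symm hswap r2
  exact r1.trans (Relation.ReflTransGen.head
    ⟨hU₂K, hU₂'K, fun a ha b hb => hEc a (hU₂E ha) b (hU₂'E hb)⟩ r3)

end Cfsg.Agent.S0502
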