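import Cfsg.Statements.S0505
import Mathlib
import Cfsg.Agent.Lib.helper7.Local4
import Cfsg.Agent.Lib.helper7.PConstr
import Cfsg.Agent.Lib.helper7.Comp

set_option autoImplicit false
open Cfsg

namespace Cfsg.Agent.S0505

open Subgroup
open Cfsg.Agent.Lib.helper7

universe u

theorem fsP_of_solvable_core_bot {C : Type u} [Group C] [Finite C] (hs : Group.IsSolvable C)
    (hc : Cfsg.pPrimeCore 2 C = ⊥) :
    IsPGroup 2 ↥(Cfsg.generalizedFittingSubgroup C) := by
  haveI : Fact (Nat.Prime 2) := ⟨Nat.prime_two⟩
  have hlayer : Cfsg.layer C = ⊥ := by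
    rw [eq_bot_iff]
    apply sSup_le
    intro L hL
    exfalso
    have hsolvL : Group.IsSolvable ↥L :=
      Group.isSolvable_of_isSolvable_injective L.subtype_injective
    exact qs_not_solvable hL.2 hsolvL
  have hF := fitting_eq_pCore_of_core_bot (p := 2) hc
  have heq : Cfsg.generalizedFittingSubgroup C = Cfsg.pCore 2 C := by
    unfold Cfsg.generalizedFittingSubgroup
    rw [hlayer, bot_sup_eq, hF]
  rw [heq]
  exact pCore_isPGroup 2 C

theorem main {G : Type u} [Group G] [Finite G]
    (h2 : Even (Nat.card G))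
    (hs : ∀ t : G, orderOf t = 2 → Group.IsSolvable (Subgroup.centralizer ({t} : Set G)))
    (hc : ∀ t : G, orderOf t = 2 → Cfsg.oddCore (Subgroup.centralizer ({t} : Set G)) = ⊥) :
    Cfsg.IsCharacteristicTwoType G := by
  haveI : Fact (Nat.Prime 2) := ⟨Nat.prime_two⟩
  refine ⟨h2, ?_⟩
  intro T hT hT1
  have h1 := fsP_normalizer_of_centralizers (p := 2)
    (fun t ht => fsP_of_solvable_core_bot (hs t ht) (hc t ht)) T hT hT1
  have h3 := fsP_iff.mp h1
  unfold Cfsg.IsOfCharacteristicTwo
  rw [← h3]
  exact centralizer_genFitting_le _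

/-- Let G be a finite group of even order in which the centralizer of every involution is solvable and has trivial
core (no nontrivial normal subgroup of odd order). Then G is of characteristic 2 type. -/
theorem result {G : Type*} [Group G] [Finite G]
    (h2 : Even (Nat.card G))
    (hs : ∀ t : G, orderOf t = 2 → Group.IsSolvable (Subgroup.centralizer ({t} : Set G)))
    (hc : ∀ t : G, orderOf t = 2 → Cfsg.oddCore (Subgroup.centralizer ({t} : Set G)) = ⊥) :
    Cfsg.IsCharacteristicTwoType G := by
  exact main h2 hs hc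

end Cfsg.Agent.S0505
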