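import Cfsg.Statements.S0514
import Cfsg.Agent.Lib.helper7.DihFus2

set_option autoImplicit false
open Cfsg

namespace Cfsg.Agent.S0514

open Subgroup Cfsg.Agent.Lib.helper7 Cfsg.Agent.Lib.helper8

theorem complement_odd_index {G : Type*} [Group G] [Finite G]
    (h : Cfsg.HasNormalPComplement 2 G) :
    ∃ N : Subgroup G, N.Normal ∧ Odd (Nat.card N) ∧ ∃ k : ℕ, N.index = 2 ^ k := by
  haveI : Fact (Nat.Prime 2) := ⟨Nat.prime_two⟩
  obtain ⟨P, N, hN, hc⟩ := h
  refine ⟨N, hN, ?_, ?_⟩
  · have h1 : (P : Subgroup G).index = Nat.card N := hc.index_eq_card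
    rw [← h1, ← Nat.not_even_iff_odd, even_iff_two_dvd]
    exact P.not_dvd_index
  · obtain ⟨k, hk⟩ := IsPGroup.iff_card.mp P.isPGroup'
    exact ⟨k, by rw [hc.symm.index_eq_card, hk]⟩

/-- In a finite group whose Sylow 2-subgroups are dihedral of order at least 4, the centralizer of any involution has a
normal subgroup of odd order whose index in the centralizer is a power of 2. -/
theorem result {X : Type*} [Group X] [Finite X]
    (S : Sylow 2 X) (n : ℕ) (hn : 2 ≤ n) (hS : Nonempty ((S : Subgroup X) ≃* DihedralGroup n)) (t : X)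
    (ht : orderOf t = 2) :
    ∃ N : Subgroup (Subgroup.centralizer ({t} : Set X)), N.Normal ∧ Odd (Nat.card N) ∧ ∃ k : ℕ, N.index = 2 ^ k := by
  classical
  haveI : Fact (Nat.Prime 2) := ⟨Nat.prime_two⟩
  obtain ⟨eS⟩ := hS
  apply complement_odd_index
  have ht' := (invol_iff t).mp ht
  have htC : t ∈ Subgroup.centralizer ({t} : Set X) := by
    rw [mem_centralizer_iff]; intro h hh; rw [Set.mem_singleton_iff.mp hh]
  have hcomm : ∀ g : ↥(Subgroup.centralizer ({t} : Set X)), (g : X) * t = t * g := by
    intro g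
    have := mem_centralizer_iff.mp g.2 t rfl
    exact this.symm
  set C := Subgroup.centralizer ({t} : Set X) with hC
  let t' : ↥C := ⟨t, htC⟩
  have ht'c : ∀ g : ↥C, g * t' = t' * g := fun g => Subtype.ext (hcomm g)
  have ht't' : t' * t' = 1 := Subtype.ext ht'.1
  obtain ⟨T⟩ : Nonempty (Sylow 2 ↥C) := inferInstance
  have hTp : IsPGroup 2 ((T : Subgroup ↥C).map C.subtype) := T.isPGroup'.map C.subtype
  obtain ⟨S', hS'⟩ := hTp.exists_le_sylow
  have eS' : (S' : Subgroup X) ≃* DihedralGroup n := (S'.equiv S).trans eS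
  obtain ⟨ρ, σ, j, hD, hnj, hcard, hrel, hje⟩ := dih_data2 S' n hn eS'
  have ht'T : t' ∈ (T : Subgroup ↥C) := central_mem_sylow T t' ht't' ht'c
  have htS' : t ∈ (S' : Subgroup X) := hS' ⟨t', ht'T, rfl⟩
  have hTmem : ∀ x : ↥C, (x : X) ∈ (S' : Subgroup X) → x ∈ (T : Subgroup ↥C) := by
    intro x hx
    have hp : IsPGroup 2 ((S' : Subgroup X).subgroupOf C) := S'.isPGroup'.comap_subtype
    have hle : (T : Subgroup ↥C) ≤ (S' : Subgroup X).subgroupOf C := by
      intro y hy
      rw [Subgroup.mem_subgroupOf]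
      exact hS' ⟨y, hy, rfl⟩
    have := T.is_maximal' hp hle
    rw [← this, Subgroup.mem_subgroupOf]
    exact hx
  have hK : ∀ a : X, a ∈ C →
      (∀ x ∈ (S' : Subgroup X), x ∈ C → x = 1 ∨ x = t ∨ x = a ∨ x = t * a) →
      Cfsg.HasNormalPComplement 2 ↥C := by
    intro a ha hx
    apply k4_complement T t' ⟨a, ha⟩ ht't' ht'c
    intro y hy
    have hy' : (y : X) ∈ (S' : Subgroup X) := hS' ⟨y, hy, rfl⟩
    rcases hx y hy' y.2 with h | h | h | h
    · exact Or.inl (Subtype.ext h)
    · exact Or.inr (Or.inl (Subtype.ext h))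
    · exact Or.inr (Or.inr (Or.inl (Subtype.ext h)))
    · exact Or.inr (Or.inr (Or.inr (Subtype.ext h)))
  by_cases htQ : t ∈ zpowers ρ
  · have htz : t = ρ ^ j := hD.uniq t htQ ht'.1 ht'.2
    have hS'C : (S' : Subgroup X) ≤ C := by
      intro x hx
      rw [hC, mem_centralizer_iff]
      intro h hh
      rw [Set.mem_singleton_iff.mp hh, htz]
      exact (hD.z_central x hx).symm
    by_cases h4 : 4 ≤ n
    · have hmap : (T : Subgroup ↥C).map C.subtype = (S' : Subgroup X) := by
        apply le_antisymm hS'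
        intro x hx
        exact ⟨⟨x, hS'C hx⟩, hTmem _ hx, rfl⟩
      let eT : (T : Subgroup ↥C) ≃* DihedralGroup n :=
        ((T : Subgroup ↥C).equivMapOfInjective C.subtype C.subtype_injective).trans
          ((MulEquiv.subgroupCongr hmap).trans eS')
      exact central_dih_complement T n h4 eT t' (by rw [← Subgroup.orderOf_coe]; exact ht) ht'c
    · have hj1 : j = 1 := by omega
      apply hK σ (hS'C hD.hσ)
      intro x hx _
      have hQ : ∀ q ∈ zpowers ρ, q = 1 ∨ q = t := by
        intro q hq
        by_cases hq1 : q = 1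
        · exact Or.inl hq1
        · right
          obtain ⟨k, rfl⟩ := Subgroup.mem_zpowers_iff.mp hq
          have hρρ : ρ * ρ = 1 := by
            have := hD.zz; rw [hj1, pow_one] at this; exact this
          rcases zpow_involution ρ hρρ k with h | h
          · exact absurd h hq1
          · rw [h, htz, hj1, pow_one]
      by_cases hxQ : x ∈ zpowers ρ
      · rcases hQ x hxQ with h | h
        · exact Or.inl h
        · exact Or.inr (Or.inl h)
      · have h1 : x * σ⁻¹ ∈ zpowers ρ := hD.quot σ hD.hσ x hx hD.hσQ hxQ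
        rcases hQ _ h1 with h | h
        · right; right; left
          exact mul_inv_eq_one.mp h
        · right; right; right
          rw [← h]; group
  · have hzC : ρ ^ j ∈ C := by
      rw [hC, mem_centralizer_iff]
      intro h hh
      rw [Set.mem_singleton_iff.mp hh]
      exact hD.z_central t htS'
    apply hK (ρ ^ j) hzC
    intro x hx hxC
    have hxt : x * t = t * x := (mem_centralizer_iff.mp hxC t rfl).symm
    have hQ : ∀ q ∈ zpowers ρ, q * t = t * q → q = 1 ∨ q = ρ ^ j := by
      intro q hq hqt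
      by_cases hq1 : q = 1
      · exact Or.inl hq1
      · right
        apply hD.uniq q hq _ hq1
        have h1 := hD.inv t htS' htQ q hq
        have h2 : t * q * t⁻¹ = q := by rw [← hqt]; group
        rw [h2] at h1
        calc q * q = q * q⁻¹ := by rw [← h1]
          _ = 1 := mul_inv_cancel q
    by_cases hxQ : x ∈ zpowers ρ
    · rcases hQ x hxQ hxt with h | h
      · exact Or.inl h
      · exact Or.inr (Or.inr (Or.inl h))
    · have h1 : x * t⁻¹ ∈ zpowers ρ := hD.quot t htS' x hx htQ hxQ
      have h2 : x * t⁻¹ * t = t * (x * t⁻¹) := by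
        calc x * t⁻¹ * t = x := by group
          _ = (t * x) * t⁻¹ := by rw [← hxt]; group
          _ = t * (x * t⁻¹) := by group
      rcases hQ _ h1 h2 with h | h
      · right; left
        exact mul_inv_eq_one.mp h
      · right; right; right
        have : x = ρ ^ j * t := by rw [← h]; group
        rw [this]; exact (hD.z_central t htS').symm

end Cfsg.Agent.S0514
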