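import Cfsg.Statements.S1480

import Cfsg.Agent.Lib.helper8.Transitivity
set_option autoImplicit false
open Cfsg

namespace Cfsg.Agent.S1480

open Cfsg.Agent.Lib.helper8
open scoped commutatorElement

/-- Let G be a finite group and p a prime such that the normalizer of every nontrivial p-subgroup of G is p-constrained; if p = 2 assume also that the Sylow 2-subgroups of G have nilpotency class at most 2. Let E be an abelian p-subgroup containing an elementary abelian subgroup of order p ^ 3 and containing every element of p-power order of C_G(E). Then for every prime q ≠ p, any two maximal E-invariant q-subgroups of G are conjugate by an element of O_{p'}(C_G(E)). -/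
theorem result {G : Type*} [Group G] [Finite G] (p : ℕ) [Fact p.Prime]
    (hloc : ∀ T : Subgroup G, IsPGroup p T → T ≠ ⊥ → Cfsg.IsPConstrained p ↥(Subgroup.normalizer (T : Set G)))
    (h2 : p = 2 → ∀ S : Sylow p G, Group.IsNilpotent (S : Subgroup G) ∧ Group.nilpotencyClass (S : Subgroup G) ≤ 2)
    (E : Subgroup G) (hEp : IsPGroup p E) (hEc : IsMulCommutative E) (hE3 : ¬ Cfsg.PRankLE p 2 E)
    (hEfull : ∀ x ∈ Subgroup.centralizer (E : Set G), IsPGroup p (Subgroup.zpowers x) → x ∈ E)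
    (q : ℕ) [Fact q.Prime] (hqp : q ≠ p) :
    ∀ Q₁ ∈ Cfsg.maxInvSubgroups ⊤ E {q}, ∀ Q₂ ∈ Cfsg.maxInvSubgroups ⊤ E {q},
        ∃ k ∈ Cfsg.piCoreOf (Cfsg.primesNotDvd p) (Subgroup.centralizer (E : Set G)), Q₂ = Q₁.map (MulAut.conj k).toMonoidHom := by

  classical
  have hp : p.Prime := Fact.out
  have hq : q.Prime := Fact.out
  have hEcomm : ∀ x ∈ E, ∀ y ∈ E, x * y = y * x := by
    intro x hx y hy
    exact congrArg Subtype.val (hEc.is_comm.comm ⟨x, hx⟩ ⟨y, hy⟩)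
  have hEle : E ≤ Subgroup.centralizer (E : Set G) := by
    intro x hx
    rw [Subgroup.mem_centralizer_iff]
    intro y hy
    exact hEcomm y hy x hx
  have hcl2 : p = 2 → ∀ T : Subgroup G, IsPGroup p T → ∀ x ∈ T, ∀ y ∈ T, ∀ z ∈ T,
      (x * y * x⁻¹ * y⁻¹) * z = z * (x * y * x⁻¹ * y⁻¹) := by
    intro hp2 T hT x hx y hy z hz
    obtain ⟨S, hTS⟩ := hT.exists_le_sylow
    obtain ⟨hnil, hcl⟩ := h2 hp2 S
    have h1 : (⊤ : Subgroup ↥(S : Subgroup G)).lowerCentralSeries 2 = ⊥ := by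
      have := @Subgroup.lowerCentralSeries_nilpotencyClass _ _ hnil
      rw [eq_bot_iff, ← this]
      exact Subgroup.lowerCentralSeries_antitone _ hcl
    have h2' : ⁅⁅(⟨x, hTS hx⟩ : ↥(S : Subgroup G)), (⟨y, hTS hy⟩ : ↥(S : Subgroup G))⁆,
        (⟨z, hTS hz⟩ : ↥(S : Subgroup G))⁆ ∈
        (⊤ : Subgroup ↥(S : Subgroup G)).lowerCentralSeries 2 := by
      rw [show (2 : ℕ) = 0 + 1 + 1 from rfl, Subgroup.lowerCentralSeries_succ,
        Subgroup.lowerCentralSeries_succ, Subgroup.lowerCentralSeries_zero]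
      exact Subgroup.commutator_mem_commutator
        (Subgroup.commutator_mem_commutator (Subgroup.mem_top _) (Subgroup.mem_top _))
        (Subgroup.mem_top _)
    rw [h1, Subgroup.mem_bot] at h2'
    have h3 := congrArg Subtype.val h2'
    simp only [commutatorElement_def, Subgroup.coe_mul, Subgroup.coe_inv, Subgroup.coe_one] at h3
    have e : (x * y * x⁻¹ * y⁻¹) * z = (x * y * x⁻¹ * y⁻¹ * z * (x * y * x⁻¹ * y⁻¹)⁻¹ * z⁻¹) *
        (z * (x * y * x⁻¹ * y⁻¹)) := by group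
    rw [e, h3, one_mul]
  obtain ⟨V, hVE, hVexp, hVcard⟩ : ∃ V : Subgroup G, V ≤ E ∧ (∀ v ∈ V, v ^ p = 1) ∧
      p ^ 2 < Nat.card V := by
    unfold Cfsg.PRankLE at hE3
    push_neg at hE3
    obtain ⟨A, hAc, hAexp, hAcard⟩ := hE3
    refine ⟨A.map E.subtype, Subgroup.map_subtype_le A, ?_, ?_⟩
    · rintro v ⟨a, ha, rfl⟩
      have := hAexp a ha
      have h' := congrArg Subtype.val this
      simpa using h'
    · rw [Subgroup.card_map_of_injective E.subtype_injective]; exact hAcard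
  have hVc : ∀ x ∈ V, ∀ y ∈ V, x * y = y * x := fun x hx y hy => hEcomm x (hVE hx) y (hVE hy)
  haveI hVcomm : IsMulCommutative V := ⟨⟨fun a b => Subtype.ext (hVc a.1 a.2 b.1 b.2)⟩⟩
  have hVp : IsPGroup p V := hEp.to_le hVE
  haveI hEinst : IsMulCommutative E := hEc
  suffices Hmain : ∀ n : ℕ, ∀ Q₁ ∈ Cfsg.maxInvSubgroups ⊤ E {q},
      ∀ Q₂ ∈ Cfsg.maxInvSubgroups ⊤ E {q},
      Nat.card G - Nat.card (Q₁ ⊓ Q₂ : Subgroup G) = n →
      ∃ k ∈ Cfsg.piCoreOf (Cfsg.primesNotDvd p) (Subgroup.centralizer (E : Set G)),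
        Q₂ = Q₁.map (MulAut.conj k).toMonoidHom from
    fun Q₁ h₁ Q₂ h₂ => Hmain _ Q₁ h₁ Q₂ h₂ rfl
  intro n
  induction n using Nat.strong_induction_on with
  | _ n ih =>
  intro Q₁ h₁ Q₂ h₂ hn
  have hone : ∀ Q : Subgroup G, Q = Q.map (MulAut.conj (1 : G)).toMonoidHom := by
    intro Q; ext x; rw [mem_cmap]; simp
  by_cases h12 : Q₁ ≤ Q₂
  · have := h₁.2 Q₂ h₂.1 h12
    exact ⟨1, one_mem _, by rw [this]; exact hone Q₁⟩
  by_cases h21 : Q₂ ≤ Q₁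
  · have := h₂.2 Q₁ h₁.1 h21
    exact ⟨1, one_mem _, by rw [← this]; exact hone Q₁⟩
  have hQ₁q : IsPGroup q Q₁ := isPGroup_of_mem_inv h₁.1
  have hQ₂q : IsPGroup q Q₂ := isPGroup_of_mem_inv h₂.1
  have hEN₁ : E ≤ Subgroup.normalizer (Q₁ : Set G) := h₁.1.2.2
  have hEN₂ : E ≤ Subgroup.normalizer (Q₂ : Set G) := h₂.1.2.2
  obtain ⟨D, hDdef⟩ : ∃ D : Subgroup G, D = Q₁ ⊓ Q₂ := ⟨_, rfl⟩
  rw [← hDdef] at hn
  have hD1 : D < Q₁ := by
    rw [hDdef]
    exact lt_of_le_of_ne inf_le_left (fun h => h12 (h.symm.le.trans inf_le_right))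
  have hD2 : D < Q₂ := by
    rw [hDdef]
    exact lt_of_le_of_ne inf_le_right (fun h => h21 (h.symm.le.trans inf_le_left))
  have hED : E ≤ Subgroup.normalizer (D : Set G) := by
    rw [hDdef]; exact le_normalizer_inf hEN₁ hEN₂
  have hDq : IsPGroup q D := hQ₁q.to_le hD1.le
  have hENN : E ≤ Subgroup.normalizer ((Subgroup.normalizer (D : Set G) : Subgroup G) : Set G) :=
    hED.trans Subgroup.le_normalizer
  obtain ⟨R₁, hR₁def⟩ : ∃ R : Subgroup G, R = Q₁ ⊓ Subgroup.normalizer (D : Set G) := ⟨_, rfl⟩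
  obtain ⟨R₂, hR₂def⟩ : ∃ R : Subgroup G, R = Q₂ ⊓ Subgroup.normalizer (D : Set G) := ⟨_, rfl⟩
  have hR₁Q : R₁ ≤ Q₁ := by rw [hR₁def]; exact inf_le_left
  have hR₂Q : R₂ ≤ Q₂ := by rw [hR₂def]; exact inf_le_left
  have hR₁N : R₁ ≤ Subgroup.normalizer (D : Set G) := by rw [hR₁def]; exact inf_le_right
  have hR₂N : R₂ ≤ Subgroup.normalizer (D : Set G) := by rw [hR₂def]; exact inf_le_right
  have hDR₁ : D ≤ R₁ := by rw [hR₁def]; exact le_inf hD1.le Subgroup.le_normalizer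
  have hDR₂ : D ≤ R₂ := by rw [hR₂def]; exact le_inf hD2.le Subgroup.le_normalizer
  have hR₁D : ¬ R₁ ≤ D := by
    obtain ⟨s, hs, hsN, hsD⟩ := normalizer_grows hQ₁q hD1
    exact fun h => hsD (h (by rw [hR₁def]; exact ⟨hs, hsN⟩))
  have hR₂D : ¬ R₂ ≤ D := by
    obtain ⟨s, hs, hsN, hsD⟩ := normalizer_grows hQ₂q hD2
    exact fun h => hsD (h (by rw [hR₂def]; exact ⟨hs, hsN⟩))
  have hER₁ : E ≤ Subgroup.normalizer (R₁ : Set G) := by
    rw [hR₁def]; exact le_normalizer_inf hEN₁ hENN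
  have hER₂ : E ≤ Subgroup.normalizer (R₂ : Set G) := by
    rw [hR₂def]; exact le_normalizer_inf hEN₂ hENN
  have hR₁q : IsPGroup q R₁ := hQ₁q.to_le hR₁Q
  have hR₂q : IsPGroup q R₂ := hQ₂q.to_le hR₂Q
  have hgen : ∀ R : Subgroup G, IsPGroup q R → E ≤ Subgroup.normalizer (R : Set G) → ¬ R ≤ D →
      ∃ B : Subgroup G, B ≤ V ∧ (∃ a ∈ V, B ⊔ Subgroup.zpowers a = V) ∧
        ¬ (R ⊓ Subgroup.centralizer (B : Set G) ≤ D) := by
    intro R hRq hER hRD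
    by_contra hcon
    push_neg at hcon
    exact hRD (Cfsg.Agent.Lib.helper9.gen_main V R (hVE.trans hER)
      (coprime_card_of_isPGroup hqp.symm hVp hRq) D (fun B hB hB' => hcon B hB hB'))
  obtain ⟨B₁, hB₁V, hB₁g, hB₁⟩ := hgen R₁ hR₁q hER₁ hR₁D
  obtain ⟨B₂, hB₂V, hB₂g, hB₂⟩ := hgen R₂ hR₂q hER₂ hR₂D
  obtain ⟨a, haB, ha1⟩ := exists_ne_one_inf hp V B₁ B₂ hVc hVexp hVcard hB₁V hB₂V hB₁g hB₂g
  have haV : a ∈ V := hB₁V haB.1
  have haE : a ∈ E := hVE haV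
  obtain ⟨T, hTdef⟩ : ∃ T : Subgroup G, T = Subgroup.zpowers a := ⟨_, rfl⟩
  have hTE : T ≤ E := by rw [hTdef]; exact Subgroup.zpowers_le.mpr haE
  have hTB₁ : T ≤ B₁ := by rw [hTdef]; exact Subgroup.zpowers_le.mpr haB.1
  have hTB₂ : T ≤ B₂ := by rw [hTdef]; exact Subgroup.zpowers_le.mpr haB.2
  have hTp : IsPGroup p T := hEp.to_le hTE
  have hT1 : T ≠ ⊥ := by
    intro h
    apply ha1
    have : a ∈ T := by rw [hTdef]; exact Subgroup.mem_zpowers a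
    rw [h, Subgroup.mem_bot] at this
    exact this
  have hHpc := hloc T hTp hT1
  obtain ⟨S₁, hS₁def⟩ : ∃ S : Subgroup G, S = R₁ ⊓ Subgroup.centralizer (T : Set G) := ⟨_, rfl⟩
  obtain ⟨S₂, hS₂def⟩ : ∃ S : Subgroup G, S = R₂ ⊓ Subgroup.centralizer (T : Set G) := ⟨_, rfl⟩
  have hECT : E ≤ Subgroup.centralizer (T : Set G) := by
    intro e he
    rw [Subgroup.mem_centralizer_iff]
    intro t ht
    exact hEcomm t (hTE ht) e he
  have hCTN : Subgroup.centralizer (T : Set G) ≤ Subgroup.normalizer (T : Set G) :=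
    Subgroup.centralizer_le_normalizer _
  have hEH : E ≤ Subgroup.normalizer (T : Set G) := hECT.trans hCTN
  have hENC : E ≤ Subgroup.normalizer ((Subgroup.centralizer (T : Set G) : Subgroup G) : Set G) :=
    hECT.trans Subgroup.le_normalizer
  have hS₁R : S₁ ≤ R₁ := by rw [hS₁def]; exact inf_le_left
  have hS₂R : S₂ ≤ R₂ := by rw [hS₂def]; exact inf_le_left
  have hS₁C : S₁ ≤ Subgroup.centralizer (T : Set G) := by rw [hS₁def]; exact inf_le_right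
  have hS₂C : S₂ ≤ Subgroup.centralizer (T : Set G) := by rw [hS₂def]; exact inf_le_right
  have hcentle : ∀ B : Subgroup G, T ≤ B →
      Subgroup.centralizer (B : Set G) ≤ Subgroup.centralizer (T : Set G) := by
    intro B hTB x hx
    rw [Subgroup.mem_centralizer_iff] at hx ⊢
    intro t ht
    exact hx t (hTB ht)
  have hS₁D : ¬ S₁ ≤ D := by
    intro h
    apply hB₁
    refine le_trans ?_ h
    rw [hS₁def]
    exact inf_le_inf_left _ (hcentle B₁ hTB₁)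
  have hS₂D : ¬ S₂ ≤ D := by
    intro h
    apply hB₂
    refine le_trans ?_ h
    rw [hS₂def]
    exact inf_le_inf_left _ (hcentle B₂ hTB₂)
  have hES₁ : E ≤ Subgroup.normalizer (S₁ : Set G) := by
    rw [hS₁def]; exact le_normalizer_inf hER₁ hENC
  have hES₂ : E ≤ Subgroup.normalizer (S₂ : Set G) := by
    rw [hS₂def]; exact le_normalizer_inf hER₂ hENC
  have hS₁q : IsPGroup q S₁ := hR₁q.to_le hS₁R
  have hS₂q : IsPGroup q S₂ := hR₂q.to_le hS₂R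
  obtain ⟨O, hOdef⟩ : ∃ O : Subgroup G, O = (Cfsg.pPrimeCore p
      ↥(Subgroup.normalizer (T : Set G))).map (Subgroup.normalizer (T : Set G)).subtype := ⟨_, rfl⟩
  have hS₁O : S₁ ≤ O := by
    rw [hOdef]
    exact inv_le_pPrimeCore _ E S₁ hHpc hEH (hS₁C.trans hCTN) hEp hEfull
      (coprime_card_of_isPGroup' hqp.symm hS₁q) hES₁ hcl2
  have hS₂O : S₂ ≤ O := by
    rw [hOdef]
    exact inv_le_pPrimeCore _ E S₂ hHpc hEH (hS₂C.trans hCTN) hEp hEfull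
      (coprime_card_of_isPGroup' hqp.symm hS₂q) hES₂ hcl2
  have hOc : (Nat.card O).Coprime p := by
    rw [hOdef, Subgroup.card_map_of_injective (Subgroup.subtype_injective _)]
    exact Cfsg.Agent.Lib.helper9.pPrimeCore_coprime p _
  have hEO : E ≤ Subgroup.normalizer (O : Set G) := by
    apply le_normalizer_of_conj_mem
    intro e he x hx
    rw [hOdef] at hx ⊢
    obtain ⟨x', hx', rfl⟩ := hx
    have hn := Cfsg.Agent.Lib.helper9.ppc_normal p ↥(Subgroup.normalizer (T : Set G))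
    exact ⟨⟨e, hEH he⟩ * x' * ⟨e, hEH he⟩⁻¹, hn.conj_mem x' hx' _, rfl⟩
  obtain ⟨X₀, hX₀def⟩ : ∃ X : Subgroup G, X = D ⊔ (O ⊓ Subgroup.normalizer (D : Set G)) :=
    ⟨_, rfl⟩
  have hX₀c : (Nat.card X₀).Coprime p := by
    rw [hX₀def]
    exact coprime_card_sup_of_le_normalizer inf_le_right (coprime_card_of_isPGroup' hqp.symm hDq)
      (Nat.Coprime.coprime_dvd_left (Subgroup.card_dvd_of_le inf_le_left) hOc)
  have hEX₀ : E ≤ Subgroup.normalizer (X₀ : Set G) := by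
    rw [hX₀def]; exact le_normalizer_sup hED (le_normalizer_inf hEO hENN)
  have hcop : (Nat.card E).Coprime (Nat.card X₀) := by
    obtain ⟨k, hk⟩ := IsPGroup.iff_card.mp hEp
    rw [hk]; exact Nat.Coprime.pow_left k hX₀c.symm
  have hsolv : Group.IsSolvable E ∨ Group.IsSolvable X₀ :=
    Or.inl (isSolvable_of_isMulCommutative E)
  have hU₁ : S₁ ⊔ D ≤ X₀ := by
    rw [hX₀def]
    exact sup_le ((le_inf hS₁O (hS₁R.trans hR₁N)).trans le_sup_right) le_sup_left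
  have hU₂ : S₂ ⊔ D ≤ X₀ := by
    rw [hX₀def]
    exact sup_le ((le_inf hS₂O (hS₂R.trans hR₂N)).trans le_sup_right) le_sup_left
  have hU₁q : IsPGroup q (S₁ ⊔ D : Subgroup G) := hR₁q.to_le (sup_le hS₁R hDR₁)
  have hU₂q : IsPGroup q (S₂ ⊔ D : Subgroup G) := hR₂q.to_le (sup_le hS₂R hDR₂)
  have hEU₁ : E ≤ Subgroup.normalizer ((S₁ ⊔ D : Subgroup G) : Set G) := le_normalizer_sup hES₁ hED
  have hEU₂ : E ≤ Subgroup.normalizer ((S₂ ⊔ D : Subgroup G) : Set G) := le_normalizer_sup hES₂ hED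
  obtain ⟨P₁, hP₁U, hP₁E⟩ := exists_invariant_sylow_ge (p := q) E X₀ hEX₀ hcop hsolv (S₁ ⊔ D) hU₁
    hU₁q hEU₁
  obtain ⟨P₂, hP₂U, hP₂E⟩ := exists_invariant_sylow_ge (p := q) E X₀ hEX₀ hcop hsolv (S₂ ⊔ D) hU₂
    hU₂q hEU₂
  obtain ⟨c, hc, hcP⟩ := invariant_sylow_conj (p := q) E X₀ hEX₀ hcop hsolv P₁ P₂ hP₁E hP₂E
  have hcC : c ∈ Cfsg.piCoreOf (Cfsg.primesNotDvd p) (Subgroup.centralizer (E : Set G)) :=
    mem_piCoreOf_centralizer E hEp hEcomm hEfull c hc.2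
      (Nat.Coprime.coprime_dvd_left (Subgroup.orderOf_dvd_natCard X₀ hc.1) hX₀c)
  have hP₂q : IsPGroup q ((P₂ : Subgroup ↥X₀).map X₀.subtype) := P₂.isPGroup'.map _
  obtain ⟨Q₃, h₃, hP₂Q₃⟩ := exists_maxInv_ge E {q} _ _ (mem_inv_of_isPGroup hP₂q hP₂E) rfl
  have hlt₂ : Nat.card D < Nat.card (Q₃ ⊓ Q₂ : Subgroup G) := by
    have h1 : D < S₂ ⊔ D :=
      lt_of_le_of_ne le_sup_right (fun h => hS₂D (le_sup_left.trans h.symm.le))
    have h2 : S₂ ⊔ D ≤ Q₃ ⊓ Q₂ := le_inf (hP₂U.trans hP₂Q₃) (sup_le (hS₂R.trans hR₂Q) hD2.le)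
    exact lt_of_lt_of_le (card_lt_of_lt h1) (Subgroup.card_le_of_le h2)
  have hG₂ : Nat.card (Q₃ ⊓ Q₂ : Subgroup G) ≤ Nat.card G := Subgroup.card_le_card_group _
  obtain ⟨k₂, hk₂, hQ₂eq⟩ := ih (Nat.card G - Nat.card (Q₃ ⊓ Q₂ : Subgroup G)) (by omega)
    Q₃ h₃ Q₂ h₂ rfl
  have h₁' := cmap_mem_maxInv E {q} c hc.2 Q₁ h₁
  have hlt₁ : Nat.card D <
      Nat.card ((Q₁.map (MulAut.conj c).toMonoidHom) ⊓ Q₃ : Subgroup G) := by
    have h1 : D < S₁ ⊔ D :=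
      lt_of_le_of_ne le_sup_right (fun h => hS₁D (le_sup_left.trans h.symm.le))
    have h2 : (S₁ ⊔ D).map (MulAut.conj c).toMonoidHom ≤
        (Q₁.map (MulAut.conj c).toMonoidHom) ⊓ Q₃ := by
      apply le_inf
      · exact Subgroup.map_mono (sup_le (hS₁R.trans hR₁Q) hD1.le)
      · refine le_trans ?_ hP₂Q₃
        intro x hx
        rw [mem_cmap] at hx
        exact (hcP x).mpr (hP₁U hx)
    have h3 := card_lt_of_lt h1
    rw [← card_cmap c (S₁ ⊔ D)] at h3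
    exact lt_of_lt_of_le h3 (Subgroup.card_le_of_le h2)
  have hG₁ : Nat.card ((Q₁.map (MulAut.conj c).toMonoidHom) ⊓ Q₃ : Subgroup G) ≤ Nat.card G :=
    Subgroup.card_le_card_group _
  obtain ⟨k₁, hk₁, hQ₃eq⟩ := ih
    (Nat.card G - Nat.card ((Q₁.map (MulAut.conj c).toMonoidHom) ⊓ Q₃ : Subgroup G)) (by omega)
    _ h₁' Q₃ h₃ rfl
  refine ⟨k₂ * k₁ * c, mul_mem (mul_mem hk₂ hk₁) hcC, ?_⟩
  rw [hQ₂eq, hQ₃eq]
  ext x
  rw [mem_cmap, mem_cmap, mem_cmap, mem_cmap]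
  have e : c⁻¹ * (k₁⁻¹ * (k₂⁻¹ * x * k₂) * k₁) * c = (k₂ * k₁ * c)⁻¹ * x * (k₂ * k₁ * c) := by
    group
  rw [e]

end Cfsg.Agent.S1480
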