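import Cfsg.Statements.S0522
import Mathlib
import Cfsg.Agent.S1480
import Cfsg.Agent.Lib.helper7.Balance
import Cfsg.Agent.Lib.helper7.PConstr

set_option linter.style.haveILetI false

set_option autoImplicit false
open Cfsg

namespace Cfsg.Agent.S0522

open scoped Pointwise in
open Subgroup in
theorem pelement_mem_of_scn {G : Type*} [Group G] [Finite G] (p : ℕ) [Fact p.Prime]
    (A : Subgroup G) (P : Sylow p G) (hPN : (P : Subgroup G) ≤ normalizer (A : Set G))
    (hPC : (P : Subgroup G) ⊓ centralizer (A : Set G) = A)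
    (x : G) (hx : x ∈ centralizer (A : Set G)) (hox : IsPGroup p (zpowers x)) : x ∈ A := by
  classical
  have hxN : x ∈ normalizer (A : Set G) := Subgroup.centralizer_le_normalizer _ hx
  have hxp : IsPGroup p (zpowers (⟨x, hxN⟩ : ↥(normalizer (A : Set G)))) := by
    obtain ⟨k, hk⟩ := IsPGroup.iff_card.mp hox
    rw [Nat.card_zpowers] at hk
    apply IsPGroup.of_card (n := k)
    rw [Nat.card_zpowers, ← hk]
    exact Subgroup.orderOf_mk x hxN
  obtain ⟨Q, hQ⟩ := hxp.exists_le_sylow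
  obtain ⟨g, hg⟩ := MulAction.exists_smul_eq ↥(normalizer (A : Set G)) Q (P.subtype hPN)
  have h2 : MulAut.conj g • (⟨x, hxN⟩ : ↥(normalizer (A : Set G))) ∈
      MulAut.conj g • (Q : Subgroup ↥(normalizer (A : Set G))) :=
    Subgroup.smul_mem_pointwise_smul _ _ _ (hQ (mem_zpowers _))
  rw [← Sylow.coe_subgroup_smul, hg, Sylow.coe_subtype, Subgroup.mem_subgroupOf] at h2
  have h3 : (g : G) * x * (g : G)⁻¹ ∈ (P : Subgroup G) := by
    simpa [MulAut.smul_def] using h2
  have h4 : (g : G) * x * (g : G)⁻¹ ∈ centralizer (A : Set G) := by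
    rw [mem_centralizer_iff]
    intro a ha
    have ha' : (g : G)⁻¹ * a * (g : G) ∈ A := by
      have := (mem_normalizer_iff.mp (inv_mem g.2) a).mp ha
      simpa using this
    have hc := (mem_centralizer_iff.mp hx) _ ha'
    calc a * ((g : G) * x * (g : G)⁻¹)
        = (g : G) * (((g : G)⁻¹ * a * (g : G)) * x) * (g : G)⁻¹ := by group
      _ = (g : G) * (x * ((g : G)⁻¹ * a * (g : G))) * (g : G)⁻¹ := by rw [hc]
      _ = (g : G) * x * (g : G)⁻¹ * a := by group
  have h5 : (g : G) * x * (g : G)⁻¹ ∈ A := by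
    have h34 : (g : G) * x * (g : G)⁻¹ ∈ (P : Subgroup G) ⊓ centralizer (A : Set G) :=
      Subgroup.mem_inf.mpr ⟨h3, h4⟩
    exact (le_of_eq hPC) h34
  have h6 := (mem_normalizer_iff.mp (inv_mem g.2) _).mp h5
  have e : ((g : G)⁻¹) * ((g : G) * x * (g : G)⁻¹) * ((g : G)⁻¹)⁻¹ = x := by group
  have h6' : ((g : G)⁻¹) * ((g : G) * x * (g : G)⁻¹) * ((g : G)⁻¹)⁻¹ ∈ A := by
    simpa using h6
  rwa [e] at h6'

/-- Transitivity Theorem (odd-order setting). Let X be a finite group of odd order in which the normalizer of every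
nontrivial p-subgroup is solvable, P a Sylow p-subgroup, and B an abelian subgroup of P, normalized by P, with
C_P(B) = B and containing an elementary abelian subgroup of order p^3. Then for every prime q ≠ p, any two q-subgroups
that are maximal among the q-subgroups normalized by B are conjugate by an element of the centralizer of B. -/
theorem result {X : Type*} [Group X] [Finite X] (hX : Odd (Nat.card X)) (p : ℕ)
    [Fact p.Prime] (hloc : ∀ T : Subgroup X, IsPGroup p T → T ≠ ⊥ → Group.IsSolvable (Subgroup.normalizer (T : Set X)))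
    (P : Sylow p X) (B : Subgroup X) (hBP : B ≤ (P : Subgroup X))
    (hBn : ∀ x ∈ (P : Subgroup X), ∀ b ∈ B, x * b * x⁻¹ ∈ B) (hBa : IsMulCommutative B)
    (hBc : (P : Subgroup X) ⊓ Subgroup.centralizer (B : Set X) = B)
    (hB3 : ∃ E : Subgroup X, E ≤ B ∧ (∀ e ∈ E, e ^ p = 1) ∧ p ^ 3 ≤ Nat.card E)
    (q : ℕ) [Fact q.Prime] (hqp : q ≠ p) (Q₁ Q₂ : Subgroup X)
    (h₁ : IsPGroup q Q₁ ∧ B ≤ Subgroup.normalizer (Q₁ : Set X) ∧
      ∀ R : Subgroup X, IsPGroup q R → B ≤ Subgroup.normalizer (R : Set X) → Q₁ ≤ R → R = Q₁)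
    (h₂ : IsPGroup q Q₂ ∧ B ≤ Subgroup.normalizer (Q₂ : Set X) ∧
      ∀ R : Subgroup X, IsPGroup q R → B ≤ Subgroup.normalizer (R : Set X) → Q₂ ≤ R → R = Q₂) :
    ∃ c ∈ Subgroup.centralizer (B : Set X), Q₂ = Q₁.map (MulAut.conj c).toMonoidHom := by
  classical
  have hp : p.Prime := Fact.out
  obtain ⟨E, hEB, hEexp, hE3⟩ := hB3
  have hBp : IsPGroup p B := P.isPGroup'.to_le hBP
  have hPN : (P : Subgroup X) ≤ Subgroup.normalizer (B : Set X) := by
    intro x hx
    rw [Subgroup.mem_normalizer_iff]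
    intro b
    constructor
    · exact hBn x hx b
    · intro hb
      have h1 := hBn x⁻¹ ((P : Subgroup X).inv_mem hx) _ hb
      have e : x⁻¹ * (x * b * x⁻¹) * x⁻¹⁻¹ = b := by group
      rwa [e] at h1
  -- p is odd
  have hp2 : p ≠ 2 := by
    rintro rfl
    have hEp : IsPGroup 2 E := hBp.to_le hEB
    obtain ⟨k, hk⟩ := IsPGroup.iff_card.mp hEp
    have hk0 : k ≠ 0 := by
      rintro rfl
      rw [hk] at hE3
      norm_num at hE3
    have h2 : 2 ∣ Nat.card E := by rw [hk]; exact dvd_pow_self 2 hk0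
    have h3 : 2 ∣ Nat.card X := h2.trans (Subgroup.card_subgroup_dvd_card E)
    exact (Nat.not_even_iff_odd.mpr hX) (even_iff_two_dvd.mpr h3)
  have hloc' : ∀ T : Subgroup X, IsPGroup p T → T ≠ ⊥ →
      Cfsg.IsPConstrained p ↥(Subgroup.normalizer (T : Set X)) := by
    intro T hT hT1
    haveI := hloc T hT hT1
    exact (Cfsg.Agent.Lib.helper7.pConstrained_iff_pLayer).mpr
      Cfsg.Agent.Lib.helper7.pLayer_eq_bot_of_solvable
  have hrank : ¬ Cfsg.PRankLE p 2 B := by
    intro hr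
    have hcomm : IsMulCommutative (E.subgroupOf B) :=
      ⟨⟨fun a b => Subtype.ext (hBa.is_comm.comm (a : ↥B) (b : ↥B))⟩⟩
    have h1 := hr (E.subgroupOf B) hcomm (by
      intro a ha
      apply Subtype.ext
      rw [Subgroup.coe_pow]
      exact hEexp _ (Subgroup.mem_subgroupOf.mp ha))
    have h2 : Nat.card (E.subgroupOf B) = Nat.card E :=
      Nat.card_congr (Subgroup.subgroupOfEquivOfLe hEB).toEquiv
    rw [h2] at h1
    have h3 : p ^ 2 < p ^ 3 := Nat.pow_lt_pow_right hp.one_lt (by norm_num)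
    omega
  have hfull : ∀ x ∈ Subgroup.centralizer (B : Set X), IsPGroup p (Subgroup.zpowers x) → x ∈ B :=
    fun x hx hxp => pelement_mem_of_scn p B P hPN hBc x hx hxp
  have key := Cfsg.Agent.S1480.result p hloc' (fun h => absurd h hp2) B hBp hBa hrank hfull q hqp
  have hmem : ∀ Q : Subgroup X, IsPGroup q Q → B ≤ Subgroup.normalizer (Q : Set X) →
      (∀ R : Subgroup X, IsPGroup q R → B ≤ Subgroup.normalizer (R : Set X) → Q ≤ R → R = Q) →
      Q ∈ Cfsg.maxInvSubgroups ⊤ B {q} := by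
    intro Q hQ hBQ hmax
    have hq : q.Prime := Fact.out
    refine ⟨⟨le_top, ?_, hBQ⟩, ?_⟩
    · intro r hr hrd
      obtain ⟨k, hk⟩ := IsPGroup.iff_card.mp hQ
      rw [hk] at hrd
      exact (Nat.prime_dvd_prime_iff_eq hr hq).mp (hr.dvd_of_dvd_pow hrd)
    · rintro R ⟨-, hRπ, hBR⟩ hQR
      apply hmax R _ hBR hQR
      -- R is a q-group
      have hR0 : Nat.card R ≠ 0 := Nat.card_pos.ne'
      apply IsPGroup.of_card (n := (Nat.card R).primeFactorsList.length)
      exact Nat.eq_prime_pow_of_unique_prime_dvd hR0 (fun {r} hr hrd => hRπ r hr hrd)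
  obtain ⟨k, hk, hk2⟩ := key Q₁ (hmem Q₁ h₁.1 h₁.2.1 h₁.2.2) Q₂ (hmem Q₂ h₂.1 h₂.2.1 h₂.2.2)
  refine ⟨k, ?_, hk2⟩
  unfold Cfsg.piCoreOf at hk
  exact Subgroup.map_subtype_le _ hk

end Cfsg.Agent.S0522
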