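import Cfsg.Statements.S0524
import Mathlib
import Cfsg.Agent.Lib.helper3.Supersolvable

set_option autoImplicit false
open Cfsg

namespace Cfsg.Agent.S0524

open Cfsg.Agent.Lib.helper3

/-- The class of supersolvable groups is closed under subgroups and quotients: if a finite group has a chain of normal subgroups from the trivial subgroup to the whole group with cyclic steps, then so do each of its subgroups and each of its quotient groups. -/
theorem result {G : Type*} [Group G] [Finite G] (hG : Cfsg.IsSupersolvable G) (H N : Subgroup G) [N.Normal] : Cfsg.IsSupersolvable H ∧ Cfsg.IsSupersolvable (G ⧸ N) := by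
  exact ⟨isSupersolvable_of_injective H.subtype H.subtype_injective hG,
    isSupersolvable_of_surjective (QuotientGroup.mk' N) (QuotientGroup.mk'_surjective N) hG⟩

end Cfsg.Agent.S0524
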