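import Cfsg.Statements.S0526
import Mathlib
import Cfsg.Agent.Lib.helper3.Supersolvable
import Cfsg.Agent.Lib.helper3.Cyclic

set_option autoImplicit false
open Cfsg

namespace Cfsg.Agent.S0526

open Cfsg.Agent.Lib.helper3
open scoped commutatorElement

universe u

theorem step_comm {G : Type u} [Group G] (H : Subgroup G) [hH : H.Normal] (g : G)
    (hK : (H ⊔ Subgroup.zpowers g).Normal) :
    ⁅H ⊔ Subgroup.zpowers g, commutator G⁆ ≤ H := by
  set π : G →* G ⧸ H := QuotientGroup.mk' H with hπ
  have hmap : (H ⊔ Subgroup.zpowers g).map π = Subgroup.zpowers (π g) := by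
    rw [Subgroup.map_sup, MonoidHom.map_zpowers, hπ, QuotientGroup.map_mk'_self, bot_sup_eq]
  have hn : (Subgroup.zpowers (π g)).Normal := by
    rw [← hmap]; exact hK.map π (QuotientGroup.mk'_surjective H)
  have hcent := commutator_le_centralizer_of_cyclic_normal (Subgroup.zpowers (π g))
  rw [Subgroup.commutator_le]
  intro k hk s hs
  have hs' : π s ∈ commutator (G ⧸ H) := by
    have h1 : π s ∈ (commutator G).map π := Subgroup.mem_map_of_mem π hs
    rw [commutator_def, Subgroup.map_commutator] at h1
    rw [commutator_def]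
    exact Subgroup.commutator_mono le_top le_top h1
  have hk' : π k ∈ Subgroup.zpowers (π g) := by
    rw [← hmap]; exact Subgroup.mem_map_of_mem π hk
  have hc := Subgroup.mem_centralizer_iff.mp (hcent hs') (π k) hk'
  have : π ⁅k, s⁆ = 1 := by
    rw [map_commutatorElement, commutatorElement_eq_one_iff_mul_comm]
    exact hc
  exact (QuotientGroup.eq_one_iff _).mp this

/-- In a finite supersolvable group the commutator subgroup is nilpotent. -/
theorem result {G : Type*} [Group G] [Finite G] (hG : Cfsg.IsSupersolvable G) : Group.IsNilpotent (commutator G) := by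
  rw [isSupersolvable_iff_reach] at hG
  have key : ∀ K : Subgroup G, Reach K → ∃ m : ℕ, ∀ X : Subgroup G, X ≤ K →
      (fun Y : Subgroup G => ⁅Y, commutator G⁆)^[m] X = ⊥ := by
    intro K hK
    induction hK with
    | bot =>
      refine ⟨0, fun X hX => ?_⟩
      rw [Function.iterate_zero, id]
      exact le_bot_iff.mp hX
    | step H g hH hN ih =>
      obtain ⟨m, hm⟩ := ih
      refine ⟨m + 1, fun X hX => ?_⟩
      rw [Function.iterate_succ_apply]
      apply hm
      have := hH.normal
      exact (Subgroup.commutator_mono hX le_rfl).trans (step_comm H g hN)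
  obtain ⟨m, hm⟩ := key ⊤ hG
  have hlcs : ∀ j : ℕ, (commutator G).lowerCentralSeries j =
      (fun Y : Subgroup G => ⁅Y, commutator G⁆)^[j] (commutator G) := by
    intro j
    induction j with
    | zero => rfl
    | succ j ih =>
      rw [Subgroup.lowerCentralSeries_succ, ih, Function.iterate_succ_apply']
  rw [Subgroup.isNilpotent_iff_lowerCentralSeries]
  exact ⟨m, by rw [hlcs]; exact hm _ le_top⟩

end Cfsg.Agent.S0526
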