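import Cfsg.Statements.S0527
import Mathlib
import Cfsg.Agent.Lib.helper3.Supersolvable
import Cfsg.Agent.Lib.helper3.Basic

set_option autoImplicit false
open Cfsg

namespace Cfsg.Agent.S0527

open Cfsg.Agent.Lib.helper3

universe u

theorem key : ∀ (n : ℕ) (G : Type u) [Group G] [Finite G], Nat.card G = n →
    Cfsg.IsSupersolvable G → ∀ M : Subgroup G, IsCoatom M → M.index.Prime := by
  intro n
  induction n using Nat.strong_induction_on with
  | _ n ih =>
    intro G _ _ hn hG M hM
    have hnt : Nontrivial G := by
      by_contra h
      rw [not_nontrivial_iff_subsingleton] at h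
      exact hM.1 (Subsingleton.elim _ _)
    obtain ⟨N, hNn, hNp⟩ := exists_normal_prime_card hG
    by_cases hNM : N ≤ M
    · have hNbot : N ≠ ⊥ := by
        intro h
        rw [h, Subgroup.card_bot] at hNp
        exact Nat.not_prime_one hNp
      have hlt := card_quotient_lt N hNbot
      have hQ : Cfsg.IsSupersolvable (G ⧸ N) :=
        isSupersolvable_of_surjective (QuotientGroup.mk' N) (QuotientGroup.mk'_surjective N) hG
      have hker : (QuotientGroup.mk' N).ker ≤ M := by
        rw [QuotientGroup.ker_mk']; exact hNM
      have hM' := isCoatom_map_of_ker_le (QuotientGroup.mk' N) (QuotientGroup.mk'_surjective N) hker hM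
      have := ih (Nat.card (G ⧸ N)) (hn ▸ hlt) (G ⧸ N) rfl hQ _ hM'
      rwa [Subgroup.index_map_eq M (QuotientGroup.mk'_surjective N) hker] at this
    · have hsup : M ⊔ N = ⊤ := by
        apply hM.2
        apply lt_of_le_of_ne le_sup_left
        intro h
        apply hNM
        rw [h]
        exact le_sup_right
      have hinf : Nat.card (M ⊓ N : Subgroup G) = 1 := by
        have hdvd : Nat.card (M ⊓ N : Subgroup G) ∣ Nat.card N := Subgroup.card_dvd_of_le inf_le_right
        rcases (Nat.dvd_prime hNp).mp hdvd with h | h
        · exact h
        · exfalso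
          apply hNM
          have : M ⊓ N = N := Subgroup.eq_of_le_of_card_ge inf_le_right (le_of_eq h.symm)
          rw [← this]
          exact inf_le_left
      have h1 := card_sup_mul_card_inf_of_normal M N
      rw [hsup, hinf, mul_one, Subgroup.card_top] at h1
      have h2 := Subgroup.card_mul_index M
      rw [h1] at h2
      have hMpos : 0 < Nat.card M := Nat.card_pos
      have : M.index = Nat.card N := Nat.eq_of_mul_eq_mul_left hMpos h2
      rw [this]
      exact hNp

/-- In a finite supersolvable group the index of any maximal subgroup is a prime number. -/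
theorem result {G : Type*} [Group G] [Finite G] (hG : Cfsg.IsSupersolvable G) (M : Subgroup G) (hM : IsCoatom M) : M.index.Prime := by
  exact key (Nat.card G) G rfl hG M hM

end Cfsg.Agent.S0527
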