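import Mathlib
import Cfsg.Statements.S0530
import Cfsg.Agent.Lib.helper3.Supersolvable
import Cfsg.Agent.Lib.helper3.Basic

set_option autoImplicit false
set_option linter.style.haveILetI false
open Cfsg

namespace Cfsg.Agent.S0530

open Cfsg.Agent.Lib.helper3

universe u

theorem normal_zpowers_of_conj_mem {G : Type u} [Group G] {g : G}
    (h : ∀ x : G, x * g * x⁻¹ ∈ Subgroup.zpowers g) : (Subgroup.zpowers g).Normal := by
  constructor
  rintro _ ⟨k, rfl⟩ x
  have : x * g ^ k * x⁻¹ = (x * g * x⁻¹) ^ k := by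
    rw [conj_zpow]
  rw [this]
  exact zpow_mem (h x) k

theorem exists_cyclic_normal {G : Type u} [Group G] [Finite G] (p n : ℕ)
    (hp : p.Prime) (hG : Nat.card G ∣ 2 * p ^ n) (hnc : ¬ IsCyclic G) :
    ∃ g : G, g ≠ 1 ∧ (Subgroup.zpowers g).Normal := by
  haveI : Fact p.Prime := ⟨hp⟩
  haveI : Nontrivial G := by
    by_contra hnt
    rw [not_nontrivial_iff_subsingleton] at hnt
    exact hnc inferInstance
  obtain ⟨P⟩ : Nonempty (Sylow p G) := inferInstance
  have hidx : (P : Subgroup G).index ∣ 2 := by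
    have h1 : ¬ p ∣ (P : Subgroup G).index := P.not_dvd_index
    have h2 : (P : Subgroup G).index ∣ 2 * p ^ n := (Subgroup.index_dvd_card _).trans hG
    have hc : Nat.Coprime (P : Subgroup G).index (p ^ n) :=
      Nat.Coprime.pow_right n ((Nat.Prime.coprime_iff_not_dvd hp).mpr h1).symm
    exact hc.dvd_of_dvd_mul_right h2
  rcases (Nat.dvd_prime Nat.prime_two).mp hidx with h1 | h2
  · have hPtop : (P : Subgroup G) = ⊤ := Subgroup.index_eq_one.mp h1
    have hpg : IsPGroup p G := by
      intro g
      obtain ⟨k, hk⟩ := P.isPGroup' ⟨g, hPtop ▸ Subgroup.mem_top g⟩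
      exact ⟨k, by simpa [Subtype.ext_iff] using hk⟩
    haveI := hpg.center_nontrivial
    obtain ⟨⟨z, hz⟩, hz1⟩ := exists_ne (1 : Subgroup.center G)
    refine ⟨z, fun h => hz1 (by simp [Subtype.ext_iff, h]), normal_zpowers_of_conj_mem ?_⟩
    intro x
    have := Subgroup.mem_center_iff.mp hz x
    rw [this]
    simp
  · haveI hPn : (P : Subgroup G).Normal := Subgroup.normal_of_index_eq_two h2
    have hPne : (P : Subgroup G) ≠ ⊥ := by
      intro hb
      apply hnc
      have hc : Nat.card G = 2 := by
        have := (P : Subgroup G).card_mul_index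
        rw [h2, hb, Subgroup.card_bot] at this
        omega
      haveI : Fact (Nat.Prime 2) := ⟨Nat.prime_two⟩
      exact isCyclic_of_prime_card hc
    haveI : Nontrivial (P : Subgroup G) := (Subgroup.nontrivial_iff_ne_bot _).mpr hPne
    haveI := (P.isPGroup').center_nontrivial
    obtain ⟨⟨⟨z, hzP⟩, hz⟩, hz1⟩ := exists_ne (1 : Subgroup.center (P : Subgroup G))
    have hzc : ∀ x ∈ (P : Subgroup G), x * z = z * x := by
      intro x hx
      have := Subgroup.mem_center_iff.mp hz ⟨x, hx⟩
      simpa [Subtype.ext_iff] using this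
    have hzne : z ≠ 1 := by
      intro h; apply hz1; simp [Subtype.ext_iff, h]
    obtain ⟨t, ht⟩ : ∃ t, t ∉ (P : Subgroup G) := by
      by_contra hall; push Not at hall
      have : (P : Subgroup G) = ⊤ := by ext x; simp [hall x]
      rw [this, Subgroup.index_top] at h2; omega
    have htt : t * t ∈ (P : Subgroup G) := (Subgroup.mul_mem_iff_of_index_two h2).mpr Iff.rfl
    have hgen : ∀ g : G, g ∈ (P : Subgroup G) ∨ t⁻¹ * g ∈ (P : Subgroup G) := by
      intro g
      by_cases hg : g ∈ (P : Subgroup G)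
      · exact Or.inl hg
      · right
        rw [Subgroup.mul_mem_iff_of_index_two h2]
        simp [hg, ht]
    set z' := t * z * t⁻¹ with hz'
    have hz'P : z' ∈ (P : Subgroup G) := hPn.conj_mem z hzP t
    have hz'c : ∀ x ∈ (P : Subgroup G), x * z' = z' * x := by
      intro x hx
      have h3 : t⁻¹ * x * t ∈ (P : Subgroup G) := by
        have := hPn.conj_mem x hx t⁻¹
        simpa using this
      have h4 := hzc _ h3
      calc x * z' = t * ((t⁻¹ * x * t) * z) * t⁻¹ := by simp [hz', mul_assoc]
        _ = t * (z * (t⁻¹ * x * t)) * t⁻¹ := by rw [h4]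
        _ = z' * x := by simp [hz', mul_assoc]
    by_cases hw : z * z' = 1
    · refine ⟨z, hzne, normal_zpowers_of_conj_mem ?_⟩
      intro g
      have key : ∀ x ∈ (P : Subgroup G), x * z * x⁻¹ = z := by
        intro x hx; rw [hzc x hx]; simp
      rcases hgen g with hg | hg
      · rw [key g hg]; exact Subgroup.mem_zpowers z
      · have h6 : g * z * g⁻¹ = t * ((t⁻¹ * g) * z * (t⁻¹ * g)⁻¹) * t⁻¹ := by simp [mul_assoc]
        rw [h6, key _ hg]
        have h7 : t * z * t⁻¹ = z⁻¹ := by
          rw [← hz']; exact (eq_inv_of_mul_eq_one_right hw)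
        rw [h7]; exact inv_mem (Subgroup.mem_zpowers z)
    · refine ⟨z * z', hw, normal_zpowers_of_conj_mem ?_⟩
      intro g
      have key : ∀ x ∈ (P : Subgroup G), x * (z * z') * x⁻¹ = z * z' := by
        intro x hx
        rw [← mul_assoc, hzc x hx, mul_assoc z x z', hz'c x hx]; simp [mul_assoc]
      have keyt : t * (z * z') * t⁻¹ = z * z' := by
        have h5 : t * z' * t⁻¹ = z := by
          have := hzc _ htt
          calc t * z' * t⁻¹ = (t * t * z) * t⁻¹ * t⁻¹ := by simp [hz', mul_assoc]
            _ = z := by rw [this]; simp [mul_assoc]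
        calc t * (z * z') * t⁻¹ = (t * z * t⁻¹) * (t * z' * t⁻¹) := by simp [mul_assoc]
          _ = z' * z := by rw [h5]
          _ = z * z' := (hzc z' hz'P)
      rcases hgen g with hg | hg
      · rw [key g hg]; exact Subgroup.mem_zpowers _
      · have h6 : g * (z * z') * g⁻¹ = t * ((t⁻¹ * g) * (z * z') * (t⁻¹ * g)⁻¹) * t⁻¹ := by
          simp [mul_assoc]
        rw [h6, key _ hg, keyt]; exact Subgroup.mem_zpowers _

theorem aux (p n : ℕ) (hp : p.Prime) : ∀ (m : ℕ) (G : Type u) [Group G] [Finite G],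
    Nat.card G = m → Nat.card G ∣ 2 * p ^ n → Cfsg.IsSupersolvable G := by
  intro m
  induction m using Nat.strong_induction_on with
  | _ m ih =>
    intro G _ _ hm hdvd
    by_cases hc : IsCyclic G
    · exact isSupersolvable_of_isCyclic
    obtain ⟨g, hg1, hgn⟩ := exists_cyclic_normal p n hp hdvd hc
    haveI := hgn
    have hne : Subgroup.zpowers g ≠ ⊥ := by simpa using hg1
    have hlt := card_quotient_lt (Subgroup.zpowers g) hne
    have hq : Cfsg.IsSupersolvable (G ⧸ Subgroup.zpowers g) := by
      apply ih _ (hm ▸ hlt) _ rfl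
      exact (Subgroup.card_quotient_dvd_card _).trans hdvd
    exact isSupersolvable_of_extension _ (reach_of_isCyclic_normal _) hq

/-- A finite group whose order is twice a prime power is supersolvable. -/
theorem result {G : Type*} [Group G] [Finite G] (p n : ℕ) (hp : p.Prime) (hG : Nat.card G = 2 * p ^ n) : Cfsg.IsSupersolvable G := by
  exact aux p n hp _ G rfl (hG ▸ dvd_rfl)

end Cfsg.Agent.S0530
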