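import Mathlib
import Cfsg.Statements.S0537
import Cfsg.Agent.Lib.helper3.SchmidtC
import Cfsg.Agent.Lib.helper3.Frattini
import Cfsg.Agent.Lib.helper3.Thompson

set_option autoImplicit false
set_option linter.style.haveILetI false
open Cfsg

namespace Cfsg.Agent.S0537

open Cfsg.Agent.Lib.helper3

/-- A finite non-abelian group in which every proper subgroup is abelian is either of prime-power order, or is generated by a cyclic Sylow p-subgroup and a normal Sylow q-subgroup that is elementary abelian, for distinct primes p and q. -/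
theorem result {G : Type*} [Group G] [Finite G] (hna : ¬ IsMulCommutative G) (h : ∀ H : Subgroup G, H ≠ ⊤ → IsMulCommutative H) : (∃ p : ℕ, p.Prime ∧ IsPGroup p G) ∨ ∃ p q : ℕ, p.Prime ∧ q.Prime ∧ p ≠ q ∧ ∃ (P : Sylow p G) (Q : Sylow q G), IsCyclic P ∧ (Q : Subgroup G).Normal ∧ Cfsg.IsElementaryAbelian q (Q : Subgroup G) ∧ (P : Subgroup G) ⊔ Q = ⊤ := by
  classical
  have hprop : PropNil G := fun H hH => by
    haveI := h H hH; exact isNilpotent_of_isMulCommutative
  have hna' : ¬ ∀ a b : G, a * b = b * a := fun hc => hna ⟨⟨hc⟩⟩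
  have hsyl : ∀ (p : ℕ) [Fact p.Prime] (P : Sylow p G), (P : Subgroup G) = ⊤ → IsPGroup p G := by
    intro p _ P ht g
    obtain ⟨k, hk⟩ := P.isPGroup' ⟨g, ht ▸ Subgroup.mem_top g⟩
    exact ⟨k, by simpa [Subtype.ext_iff] using hk⟩
  by_cases hnil : Group.IsNilpotent G
  · left
    by_contra hcon
    push Not at hcon
    apply hna'
    haveI := hnil
    apply comm_of_nilpotent_of_sylow_comm
    intro p _ P x hx y hy
    have hPne : (P : Subgroup G) ≠ ⊤ := fun ht => hcon p Fact.out (hsyl p P ht)
    haveI := h _ hPne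
    exact setLike_mul_comm hx hy
  · right
    obtain ⟨p, q, hp, hq, hpq, P, Q, hPc, hQn, hPQ⟩ := schmidt_structure hnil hprop
    haveI : Fact p.Prime := ⟨hp⟩
    haveI : Fact q.Prime := ⟨hq⟩
    haveI := hQn
    refine ⟨p, q, hp, hq, hpq, P, Q, hPc, hQn, ?_, hPQ⟩
    have hQne : (Q : Subgroup G) ≠ ⊤ := fun ht => hnil (hsyl q Q ht).isNilpotent
    have hPne : (P : Subgroup G) ≠ ⊤ := fun ht => hnil (hsyl p P ht).isNilpotent
    have hQab : ∀ x ∈ (Q : Subgroup G), ∀ y ∈ (Q : Subgroup G), x * y = y * x := by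
      haveI := h _ hQne; exact fun x hx y hy => setLike_mul_comm hx hy
    have hPab : ∀ x ∈ (P : Subgroup G), ∀ y ∈ (P : Subgroup G), x * y = y * x := by
      haveI := h _ hPne; exact fun x hx y hy => setLike_mul_comm hx hy
    rw [isEA_iff]
    refine ⟨hQab, ?_⟩
    let Ω : Subgroup G :=
      { carrier := {y | y ∈ (Q : Subgroup G) ∧ y ^ q = 1}
        mul_mem' := by
          rintro a b ⟨ha, ha1⟩ ⟨hb, hb1⟩
          refine ⟨mul_mem ha hb, ?_⟩
          rw [(show Commute a b from hQab a ha b hb).mul_pow, ha1, hb1, one_mul]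
        one_mem' := ⟨one_mem _, one_pow _⟩
        inv_mem' := by
          rintro a ⟨ha, ha1⟩
          exact ⟨inv_mem ha, by rw [inv_pow, ha1, inv_one]⟩ }
    have hΩQ : Ω ≤ Q := fun y hy => hy.1
    haveI hΩn : Ω.Normal := by
      constructor
      rintro y ⟨hy, hy1⟩ g
      refine ⟨hQn.conj_mem y hy g, ?_⟩
      rw [conj_pow, hy1]; simp
    have hdisj : (P : Subgroup G) ⊓ Q = ⊥ :=
      disjoint_iff.mp (IsPGroup.disjoint_of_ne p q hpq _ _ P.isPGroup' Q.isPGroup')
    have hcardG : Nat.card P * Nat.card Q = Nat.card G := by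
      have h2 := card_sup_mul_card_inf_of_normal (P : Subgroup G) (Q : Subgroup G)
      rw [hPQ, hdisj, Subgroup.card_bot, Subgroup.card_top, mul_one] at h2
      exact h2.symm
    by_cases hH : (P : Subgroup G) ⊔ Ω = ⊤
    · have hdisj' : (P : Subgroup G) ⊓ Ω = ⊥ := by
        rw [eq_bot_iff, ← hdisj]; exact inf_le_inf_left _ hΩQ
      have h2 := card_sup_mul_card_inf_of_normal (P : Subgroup G) Ω
      rw [hH, hdisj', Subgroup.card_bot, Subgroup.card_top, mul_one] at h2
      have hle : Nat.card Q ≤ Nat.card Ω := by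
        have hPpos := Nat.card_pos (α := (P : Subgroup G))
        have h3 : Nat.card P * Nat.card Q = Nat.card P * Nat.card Ω := by rw [hcardG, h2]
        exact (Nat.eq_of_mul_eq_mul_left hPpos h3).le
      have hΩeq : Ω = Q := Subgroup.eq_of_le_of_card_ge hΩQ hle
      intro a ha
      have haΩ : a ∈ Ω := hΩeq ▸ ha
      exact haΩ.2
    · exfalso
      apply hna'
      haveI := h _ hH
      have hPΩ : ∀ x ∈ (P : Subgroup G), ∀ y ∈ Ω, x * y = y * x := fun x hx y hy =>
        setLike_mul_comm (Subgroup.mem_sup_left hx) (Subgroup.mem_sup_right hy)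
      have hPQc : ∀ x ∈ (P : Subgroup G), ∀ y ∈ (Q : Subgroup G), x * y = y * x := by
        intro x hx y hy
        have hxn : x ^ Nat.card P = 1 := by
          have h4 : (⟨x, hx⟩ : (P : Subgroup G)) ^ Nat.card (P : Subgroup G) = 1 :=
            pow_card_eq_one'
          have h5 := congrArg Subtype.val h4
          rwa [Subgroup.coe_pow] at h5
        have hcop : Nat.Coprime (Nat.card P) q := by
          rw [P.card_eq_multiplicity]
          exact Nat.Coprime.pow_left _ ((Nat.coprime_primes hp hq).mpr hpq)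
        obtain ⟨k, hk⟩ := Q.isPGroup' ⟨y, hy⟩
        have hyk : y ^ q ^ k = 1 := by simpa [Subtype.ext_iff] using hk
        have h5 := conj_eq_of_trivial_on_omega hcop (Q : Subgroup G) hQab x hxn
          (fun y hy => hQn.conj_mem y hy x)
          (fun y hy hy1 => by rw [hPΩ x hx y ⟨hy, hy1⟩]; simp) k y hy hyk
        calc x * y = (x * y * x⁻¹) * x := by group
          _ = y * x := by rw [h5]
      have hcl : (P : Subgroup G) ⊔ Q = Subgroup.closure (((P : Subgroup G) : Set G) ∪ ((Q : Subgroup G) : Set G)) := by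
        rw [Subgroup.closure_union, Subgroup.closure_eq, Subgroup.closure_eq]
      have hc : IsMulCommutative (Subgroup.closure (((P : Subgroup G) : Set G) ∪ ((Q : Subgroup G) : Set G))) := by
        apply Subgroup.isMulCommutative_closure
        rintro a (ha | ha) b (hb | hb)
        · exact hPab a ha b hb
        · exact hPQc a ha b hb
        · exact (hPQc b hb a ha).symm
        · exact hQab a ha b hb
      intro a b
      have ha : a ∈ Subgroup.closure (((P : Subgroup G) : Set G) ∪ ((Q : Subgroup G) : Set G)) := by rw [← hcl, hPQ]; trivial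
      have hb : b ∈ Subgroup.closure (((P : Subgroup G) : Set G) ∪ ((Q : Subgroup G) : Set G)) := by rw [← hcl, hPQ]; trivial
      exact setLike_mul_comm ha hb

end Cfsg.Agent.S0537
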