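import Cfsg.Statements.S0548
import Mathlib
import Cfsg.Agent.Lib.helper3.PrimSolv

set_option linter.style.haveILetI false

set_option autoImplicit false
open Cfsg

namespace Cfsg.Agent.S0548

/-- Let a finite solvable group G act faithfully and primitively on a set, let M be a minimal normal subgroup and H the stabilizer of a point. Then H is a complement to M, no non-identity element of H centralizes M, and the only subgroups of M normalized by H are the trivial subgroup and M. -/
theorem result {G : Type*} [Group G] [Finite G] [Group.IsSolvable G] {Ω : Type*} [MulAction G Ω] [FaithfulSMul G Ω] (hprim : MulAction.IsPreprimitive G Ω) (M : Subgroup G) [M.Normal] (hM : M ≠ ⊥) (hmin : ∀ K : Subgroup G, K.Normal → K ≤ M → K = ⊥ ∨ K = M) (ω : Ω) : Subgroup.IsComplement' M (MulAction.stabilizer G ω) ∧ MulAction.stabilizer G ω ⊓ Subgroup.centralizer (M : Set G) = ⊥ ∧ ∀ K : Subgroup G, K ≤ M → MulAction.stabilizer G ω ≤ Subgroup.normalizer (K : Set G) → K = ⊥ ∨ K = M := by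
  classical
  obtain ⟨hMab, htrans, hcen, p, hp, hMp⟩ := Cfsg.Agent.Lib.helper3.prim_minNormal hprim M hM hmin
  haveI := htrans
  have hdec : ∀ g : G, ∃ m ∈ M, ∃ s ∈ MulAction.stabilizer G ω, g = m * s := by
    intro g
    obtain ⟨n, hn⟩ := MulAction.exists_smul_eq M ω (g • ω)
    have hn' : (n : G) • ω = g • ω := hn
    refine ⟨n, n.2, (n : G)⁻¹ * g, ?_, by group⟩
    rw [MulAction.mem_stabilizer_iff, mul_smul, ← hn', ← mul_smul, inv_mul_cancel, one_smul]
  refine ⟨?_, ?_, ?_⟩
  · apply Subgroup.isComplement'_of_disjoint_and_mul_eq_univ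
    · rw [disjoint_iff, eq_bot_iff]
      intro x hx
      rw [Subgroup.mem_bot]
      apply hcen ω x hx.2
      rw [Subgroup.mem_centralizer_iff]; intro b hb; exact hMab b hb x hx.1
    · ext g
      simp only [Set.mem_univ, iff_true]
      obtain ⟨m, hm, s, hs, rfl⟩ := hdec g
      exact Set.mul_mem_mul hm hs
  · rw [eq_bot_iff]
    intro x hx
    rw [Subgroup.mem_bot]
    exact hcen ω x hx.1 hx.2
  · intro K hKM hK
    apply hmin K _ hKM
    constructor
    intro k hk g
    obtain ⟨m, hm, s, hs, rfl⟩ := hdec g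
    have h1 : s * k * s⁻¹ ∈ K := (Subgroup.mem_normalizer_iff.mp (hK hs) k).mp hk
    have h2 : m * s * k * (m * s)⁻¹ = m * (s * k * s⁻¹) * m⁻¹ := by group
    rw [h2, hMab m hm _ (hKM h1)]
    simpa using h1

end Cfsg.Agent.S0548
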