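import Cfsg.Statements.S0549
import Mathlib

set_option autoImplicit false
open Cfsg

namespace Cfsg.Agent.S0549

open Pointwise

theorem exists_mul_of_sup_top {G : Type*} [Group G] (U K : Subgroup G) [K.Normal]
    (h : U ⊔ K = ⊤) (g : G) : ∃ u ∈ U, ∃ k ∈ K, g = u * k := by
  have hg : g ∈ ((U ⊔ K : Subgroup G) : Set G) := by rw [h]; trivial
  rw [Subgroup.mul_normal] at hg
  obtain ⟨u, hu, k, hk, rfl⟩ := Set.mem_mul.mp hg
  exact ⟨u, hu, k, hk, rfl⟩

theorem sup_top_of_normal {G : Type*} [Group G] (U : Subgroup G) (hU : IsCoatom U)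
    (hcore : U.normalCore = ⊥) (K : Subgroup G) [K.Normal] (hK : K ≠ ⊥) : U ⊔ K = ⊤ := by
  by_contra hne
  have h1 : U ⊔ K = U := by
    rcases eq_or_lt_of_le (le_sup_left : U ≤ U ⊔ K) with h | h
    · exact h.symm
    · exact absurd (hU.2 _ h) hne
  have h2 : K ≤ U := by rw [← h1]; exact le_sup_right
  have h3 : K ≤ U.normalCore := Subgroup.normal_le_normalCore.mpr h2
  rw [hcore] at h3
  exact hK (le_bot_iff.mp h3)

/-- Let U be a maximal subgroup of a finite group G whose normal core is trivial, and N a nontrivial normal subgroup with centralizer C. Then C ∩ U = 1, and either C = 1 or C is a minimal normal subgroup of G. -/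
theorem result {G : Type*} [Group G] [Finite G] (U : Subgroup G) (hU : IsCoatom U) (hcore : U.normalCore = ⊥) (N : Subgroup G) [N.Normal] (hN : N ≠ ⊥) : Subgroup.centralizer (N : Set G) ⊓ U = ⊥ ∧ (Subgroup.centralizer (N : Set G) = ⊥ ∨ (Subgroup.centralizer (N : Set G) ≠ ⊥ ∧ ∀ K : Subgroup G, K.Normal → K ≤ Subgroup.centralizer (N : Set G) → K = ⊥ ∨ K = Subgroup.centralizer (N : Set G))) := by
  have hUN : U ⊔ N = ⊤ := sup_top_of_normal U hU hcore N hN
  have hCn : (Subgroup.centralizer (N : Set G)).Normal := inferInstance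
  have hD : Subgroup.centralizer (N : Set G) ⊓ U = ⊥ := by
    have hnorm : (Subgroup.centralizer (N : Set G) ⊓ U).Normal := by
      constructor
      intro d hd g
      obtain ⟨u, hu, n, hn, rfl⟩ := exists_mul_of_sup_top U N hUN g
      have hdn : n * d = d * n := by
        have := Subgroup.mem_centralizer_iff.mp hd.1 n hn
        exact this
      have e : u * n * d * (u * n)⁻¹ = u * d * u⁻¹ := by
        rw [mul_assoc u n d, hdn]; group
      rw [e]
      exact ⟨hCn.conj_mem d hd.1 u, U.mul_mem (U.mul_mem hu hd.2) (U.inv_mem hu)⟩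
    have h3 : Subgroup.centralizer (N : Set G) ⊓ U ≤ U.normalCore :=
      Subgroup.normal_le_normalCore.mpr inf_le_right
    rw [hcore] at h3
    exact le_bot_iff.mp h3
  refine ⟨hD, ?_⟩
  by_cases hC : Subgroup.centralizer (N : Set G) = ⊥
  · exact Or.inl hC
  · refine Or.inr ⟨hC, ?_⟩
    intro K hKn hKC
    by_cases hK : K = ⊥
    · exact Or.inl hK
    · right
      haveI := hKn
      have hUK : U ⊔ K = ⊤ := sup_top_of_normal U hU hcore K hK
      apply le_antisymm hKC
      intro c hc
      obtain ⟨u, hu, k, hk, rfl⟩ := exists_mul_of_sup_top U K hUK c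
      have hu' : u ∈ Subgroup.centralizer (N : Set G) := by
        have : u = u * k * k⁻¹ := by group
        rw [this]
        exact Subgroup.mul_mem _ hc (Subgroup.inv_mem _ (hKC hk))
      have : u ∈ Subgroup.centralizer (N : Set G) ⊓ U := ⟨hu', hu⟩
      rw [hD, Subgroup.mem_bot] at this
      rw [this, one_mul]; exact hk

end Cfsg.Agent.S0549
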