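import Mathlib
import Cfsg.Statements.S0550
import Cfsg.Agent.Lib.helper3.Primitive

set_option autoImplicit false
set_option linter.style.haveILetI false
open Cfsg

namespace Cfsg.Agent.S0550

open Cfsg.Agent.Lib.helper3

/-- Let U be a maximal subgroup with trivial normal core in a finite group G, and A ≠ B two minimal normal subgroups. Then A is the centralizer of B and B that of A, U complements each of them, A and B are non-abelian, and A, B and (A ⊔ B) ∩ U are pairwise isomorphic. -/
theorem result {G : Type*} [Group G] [Finite G] (U : Subgroup G) (hU : IsCoatom U) (hcore : U.normalCore = ⊥) (A B : Subgroup G) [A.Normal] [B.Normal] (hA : A ≠ ⊥) (hB : B ≠ ⊥) (hAmin : ∀ K : Subgroup G, K.Normal → K ≤ A → K = ⊥ ∨ K = A) (hBmin : ∀ K : Subgroup G, K.Normal → K ≤ B → K = ⊥ ∨ K = B) (hAB : A ≠ B) : Subgroup.centralizer (B : Set G) = A ∧ Subgroup.centralizer (A : Set G) = B ∧ Subgroup.IsComplement' A U ∧ Subgroup.IsComplement' B U ∧ ¬ IsMulCommutative A ∧ Nonempty (A ≃* B) ∧ Nonempty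 (A ≃* ↥((A ⊔ B) ⊓ U)) := by
  have hdisj : A ⊓ B = ⊥ := by
    rcases hAmin (A ⊓ B) inferInstance inf_le_left with h | h
    · exact h
    · exfalso
      have hAB' : A ≤ B := inf_eq_left.mp h
      rcases hBmin A inferInstance hAB' with h2 | h2
      · exact hA h2
      · exact hAB h2
  have hdisj' : B ⊓ A = ⊥ := by rw [inf_comm]; exact hdisj
  have hCA : Subgroup.centralizer (A : Set G) = B :=
    centralizer_eq_of_core_eq_bot U hU hcore A B hA hB hdisj
  have hCB : Subgroup.centralizer (B : Set G) = A :=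
    centralizer_eq_of_core_eq_bot U hU hcore B A hB hA hdisj'
  have hAU : A ⊔ U = ⊤ := sup_eq_top_of_coatom_of_not_le hU (not_le_of_core_eq_bot hcore hA)
  have hBU : B ⊔ U = ⊤ := sup_eq_top_of_coatom_of_not_le hU (not_le_of_core_eq_bot hcore hB)
  have hAUd : A ⊓ U = ⊥ := by
    have := centralizer_inf_eq_bot hcore hBU
    rwa [hCB] at this
  have hBUd : B ⊓ U = ⊥ := by
    have := centralizer_inf_eq_bot hcore hAU
    rwa [hCA] at this
  obtain ⟨e1⟩ := nonempty_equiv_sup_inf U A B hBU hdisj hBUd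
  obtain ⟨e2⟩ := nonempty_equiv_sup_inf U B A hAU hdisj' hAUd
  refine ⟨hCB, hCA, ?_, ?_, ?_, ?_, ⟨e1⟩⟩
  · exact Subgroup.isComplement'_of_disjoint_and_mul_eq_univ (disjoint_iff.mpr hAUd)
      (by rw [← Subgroup.normal_mul, hAU]; rfl)
  · exact Subgroup.isComplement'_of_disjoint_and_mul_eq_univ (disjoint_iff.mpr hBUd)
      (by rw [← Subgroup.normal_mul, hBU]; rfl)
  · intro hcomm
    have h1 : A ≤ B := by
      rw [← hCA]
      intro a ha x hx
      exact setLike_mul_comm hx ha
    have h2 : A ≤ A ⊓ B := le_inf le_rfl h1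
    rw [hdisj, le_bot_iff] at h2
    exact hA h2
  · exact ⟨e1.trans ((MulEquiv.subgroupCongr (by rw [sup_comm])).trans e2.symm)⟩

end Cfsg.Agent.S0550
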