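import Mathlib
import Cfsg.Statements.S0551
import Cfsg.Agent.Lib.helper3.Basic
import Cfsg.Agent.Lib.helper3.Primitive
import Cfsg.Agent.Lib.helper3.SolvableMin

set_option autoImplicit false
set_option linter.style.haveILetI false
open Cfsg

namespace Cfsg.Agent.S0551

open Cfsg.Agent.Lib.helper3
open Pointwise

/-- In a finite solvable group all core-free maximal subgroups are conjugate. -/
theorem result {G : Type*} [Group G] [Finite G] [Group.IsSolvable G] (U V : Subgroup G) (hU : IsCoatom U) (hV : IsCoatom V) (hUc : U.normalCore = ⊥) (hVc : V.normalCore = ⊥) : ∃ g : G, MulAut.conj g • U = V := by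
  haveI : Nontrivial G := by
    by_contra hnt
    rw [not_nontrivial_iff_subsingleton] at hnt
    exact hU.1 (Subsingleton.elim _ _)
  obtain ⟨p, hp, A, hAmin, hAp, hAab⟩ := exists_minNormal_abelian_pgroup G
  haveI := hAmin.1
  haveI : Fact p.Prime := ⟨hp⟩
  have hAne := hAmin.2.1
  have hAU : A ⊔ U = ⊤ := sup_eq_top_of_coatom_of_not_le hU (not_le_of_core_eq_bot hUc hAne)
  have hAV : A ⊔ V = ⊤ := sup_eq_top_of_coatom_of_not_le hV (not_le_of_core_eq_bot hVc hAne)
  have hCU := centralizer_inf_eq_bot hUc hAU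
  have hCV := centralizer_inf_eq_bot hVc hAV
  have hAUd : A ⊓ U = ⊥ := le_bot_iff.mp (hCU ▸ inf_le_inf_right U hAab)
  have hAVd : A ⊓ V = ⊥ := le_bot_iff.mp (hCV ▸ inf_le_inf_right V hAab)
  have hCA : Subgroup.centralizer (A : Set G) = A := by
    apply le_antisymm _ hAab
    intro c hc
    obtain ⟨a, ha, u, hu, rfl⟩ := exists_mul_of_sup_eq_top A U hAU c
    have huC : u ∈ Subgroup.centralizer (A : Set G) := by
      have := mul_mem (inv_mem (hAab ha)) hc
      simpa using this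
    have h5 : u ∈ Subgroup.centralizer (A : Set G) ⊓ U := ⟨huC, hu⟩
    rw [hCU, Subgroup.mem_bot] at h5
    rw [h5, mul_one]; exact ha
  by_cases hAtop : A = ⊤
  · refine ⟨1, ?_⟩
    have hU0 : U = ⊥ := by rw [hAtop, top_inf_eq] at hAUd; exact hAUd
    have hV0 : V = ⊥ := by rw [hAtop, top_inf_eq] at hAVd; exact hAVd
    rw [hU0, hV0]; simp
  haveI : Nontrivial (G ⧸ A) := QuotientGroup.nontrivial_iff.mpr hAtop
  obtain ⟨q, hq, Nb, hNbn, hNbq, hNbne⟩ := exists_normal_pgroup_ne_bot' (G ⧸ A)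
  haveI : Fact q.Prime := ⟨hq⟩
  haveI := hNbn
  set π := QuotientGroup.mk' A with hπ
  have hπ1 : ∀ a ∈ A, π a = 1 := fun a ha => (QuotientGroup.eq_one_iff a).mpr ha
  set L := Nb.comap π with hL
  haveI hLn : L.Normal := hNbn.comap π
  have hAL : A ≤ L := by
    intro a ha
    show π a ∈ Nb
    rw [hπ1 a ha]; exact one_mem _
  have hLneA : L ≠ A := by
    intro h
    apply hNbne
    have h1 : Nb = L.map π :=
      (Subgroup.map_comap_eq_self_of_surjective (QuotientGroup.mk'_surjective A) Nb).symm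
    rw [h1, h, eq_bot_iff]
    rintro _ ⟨a, ha, rfl⟩
    exact hπ1 a ha
  have key : ∀ W : Subgroup G, A ⊔ W = ⊤ → A ⊓ W = ⊥ →
      IsPGroup q ↥(L ⊓ W) ∧ Nat.card ↥(L ⊓ W) * Nat.card A = Nat.card L := by
    intro W hAW hAWd
    constructor
    · rintro ⟨x, hx⟩
      obtain ⟨k, hk⟩ := hNbq ⟨π x, hx.1⟩
      refine ⟨k, ?_⟩
      have h1 : π (x ^ q ^ k) = 1 := by
        rw [map_pow]; exact congrArg Subtype.val hk
      have h2 : x ^ q ^ k ∈ A := (QuotientGroup.eq_one_iff _).mp h1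
      have h3 : x ^ q ^ k ∈ A ⊓ W := ⟨h2, pow_mem hx.2 _⟩
      rw [hAWd, Subgroup.mem_bot] at h3
      exact Subtype.ext h3
    · have h1 : (L ⊓ W) ⊔ A = L := by
        apply le_antisymm (sup_le inf_le_left hAL)
        intro l hl
        obtain ⟨a, ha, w, hw, rfl⟩ := exists_mul_of_sup_eq_top A W hAW l
        have hwL : w ∈ L := by
          have := mul_mem (inv_mem (hAL ha)) hl
          simpa using this
        exact mul_mem (Subgroup.mem_sup_right ha) (Subgroup.mem_sup_left ⟨hwL, hw⟩)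
      have h2 : (L ⊓ W) ⊓ A = ⊥ := by
        rw [eq_bot_iff, ← hAWd]
        exact le_inf inf_le_right (inf_le_left.trans inf_le_right)
      have h3 := card_sup_mul_card_inf_of_normal (L ⊓ W) A
      rw [h1, h2, Subgroup.card_bot, mul_one] at h3
      exact h3.symm
  obtain ⟨hQ1q, hQ1c⟩ := key U hAU hAUd
  obtain ⟨hQ2q, hQ2c⟩ := key V hAV hAVd
  have hqp : q ≠ p := by
    rintro rfl
    have hLp : IsPGroup q L := by
      obtain ⟨k1, hk1⟩ := hQ1q.exists_card_eq
      obtain ⟨k2, hk2⟩ := hAp.exists_card_eq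
      exact IsPGroup.of_card (n := k1 + k2) (by rw [← hQ1c, hk1, hk2, pow_add])
    obtain ⟨a, ha, ha1, hac⟩ := exists_ne_one_comm_of_pgroup L A hLp hAp hAne
    have hZn : (A ⊓ Subgroup.centralizer (L : Set G)).Normal := inferInstance
    have hZ : A ⊓ Subgroup.centralizer (L : Set G) = A := by
      refine (hAmin.2.2 _ hZn inf_le_left).resolve_left ?_
      intro hb
      have : a ∈ A ⊓ Subgroup.centralizer (L : Set G) := ⟨ha, fun l hl => hac l hl⟩
      rw [hb, Subgroup.mem_bot] at this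
      exact ha1 this
    have hAC : A ≤ Subgroup.centralizer (L : Set G) := inf_eq_left.mp hZ
    have hLA : L ≤ A := by
      rw [← hCA]
      intro l hl a' ha'
      exact (hAC ha' l hl).symm
    exact hLneA (le_antisymm hLA hAL)
  obtain ⟨S1, hS1⟩ := hQ1q.exists_le_sylow
  obtain ⟨S2, hS2⟩ := hQ2q.exists_le_sylow
  have keyS : ∀ (W : Subgroup G) (S : Sylow q G), IsPGroup q ↥(L ⊓ W) →
      Nat.card ↥(L ⊓ W) * Nat.card A = Nat.card L → L ⊓ W ≤ S →
      L ⊓ W = (S : Subgroup G) ⊓ L := by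
    intro W S hWq hWc hWS
    apply Subgroup.eq_of_le_of_card_ge (le_inf hWS inf_le_left)
    have hd : ((S : Subgroup G) ⊓ L) ⊓ A = ⊥ := by
      have := IsPGroup.disjoint_of_ne q p hqp ((S : Subgroup G) ⊓ L) A
        (S.isPGroup'.to_le inf_le_left) hAp
      exact disjoint_iff.mp this
    have h3 := card_sup_mul_card_inf_of_normal ((S : Subgroup G) ⊓ L) A
    rw [hd, Subgroup.card_bot, mul_one] at h3
    have h4 : Nat.card (((S : Subgroup G) ⊓ L) ⊔ A : Subgroup G) ≤ Nat.card L :=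
      Subgroup.card_le_of_le (sup_le inf_le_right hAL)
    have hApos := Nat.card_pos (α := A)
    have h6 : Nat.card ((S : Subgroup G) ⊓ L : Subgroup G) * Nat.card A ≤
        Nat.card ↥(L ⊓ W) * Nat.card A := by rw [← h3, hWc]; exact h4
    exact Nat.le_of_mul_le_mul_right h6 hApos
  have e1 := keyS U S1 hQ1q hQ1c hS1
  have e2 := keyS V S2 hQ2q hQ2c hS2
  obtain ⟨g, hg⟩ := MulAction.exists_smul_eq G S1 S2
  refine ⟨g, ?_⟩
  have hf : ∀ x ∈ L ⊓ U, g * x * g⁻¹ ∈ L ⊓ V := by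
    intro x hx
    rw [e1] at hx
    rw [e2]
    exact ⟨(sylow_smul_mem_iff hg).mp hx.1, hLn.conj_mem x hx.2 g⟩
  have hb : ∀ y ∈ L ⊓ V, g⁻¹ * y * g ∈ L ⊓ U := by
    intro y hy
    rw [e2] at hy
    rw [e1]
    refine ⟨(sylow_smul_mem_iff hg).mpr ?_, ?_⟩
    · have : g * (g⁻¹ * y * g) * g⁻¹ = y := by group
      rw [this]; exact hy.1
    · have := hLn.conj_mem y hy.2 g⁻¹
      simpa using this
  set N := Subgroup.normalizer ((L ⊓ V : Subgroup G) : Set G) with hN
  have hVN : V ≤ N := le_normalizer_of_conj_mem (fun v hv a ha =>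
    Subgroup.mem_inf.mpr ⟨hLn.conj_mem a (Subgroup.mem_inf.mp ha).1 v,
      V.mul_mem (V.mul_mem hv (Subgroup.mem_inf.mp ha).2) (V.inv_mem hv)⟩)
  have hNtop : N ≠ ⊤ := by
    intro ht
    have hQn : (L ⊓ V).Normal := Subgroup.normalizer_eq_top_iff.mp ht
    have hQA : A ⊓ (L ⊓ V) = ⊥ := by
      rw [eq_bot_iff, ← hAVd]
      exact le_inf inf_le_left (inf_le_right.trans inf_le_right)
    have hQle : L ⊓ V ≤ A := by
      rw [← hCA]
      intro x hx a ha
      exact (Subgroup.commute_of_normal_of_disjoint A (L ⊓ V) inferInstance hQn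
        (disjoint_iff.mpr hQA) a x ha hx).eq
    have hQbot : L ⊓ V = ⊥ := by
      rw [eq_bot_iff, ← hQA]; exact le_inf hQle le_rfl
    rw [hQbot, Subgroup.card_bot, one_mul] at hQ2c
    exact hLneA (Subgroup.eq_of_le_of_card_ge hAL hQ2c.ge).symm
  have hVeq : V = N := by
    by_contra hne
    exact hNtop (hV.2 N (lt_of_le_of_ne hVN hne))
  have hU'N : MulAut.conj g • U ≤ N := by
    apply le_normalizer_of_conj_mem
    intro w hw y hy
    rw [mem_conj_smul] at hw
    have h1 := hb y hy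
    have h2 : (g⁻¹ * w * g) * (g⁻¹ * y * g) * (g⁻¹ * w * g)⁻¹ ∈ L ⊓ U :=
      Subgroup.mem_inf.mpr ⟨hLn.conj_mem _ (Subgroup.mem_inf.mp h1).1 _,
        U.mul_mem (U.mul_mem hw (Subgroup.mem_inf.mp h1).2) (U.inv_mem hw)⟩
    have h3 := hf _ h2
    have h4 : g * ((g⁻¹ * w * g) * (g⁻¹ * y * g) * (g⁻¹ * w * g)⁻¹) * g⁻¹ = w * y * w⁻¹ := by
      group
    rwa [h4] at h3
  rw [Subgroup.pointwise_smul_subset_iff] at hU'N
  have hN'top : (MulAut.conj g)⁻¹ • N ≠ ⊤ := by
    intro ht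
    apply hNtop
    rw [eq_top_iff]
    intro x _
    have : (MulAut.conj g)⁻¹ • x ∈ (MulAut.conj g)⁻¹ • N := by rw [ht]; trivial
    exact Subgroup.smul_mem_pointwise_smul_iff.mp this
  have hUeq : U = (MulAut.conj g)⁻¹ • N := by
    by_contra hne
    exact hN'top (hU.2 _ (lt_of_le_of_ne hU'N hne))
  rw [hUeq, smul_inv_smul, ← hVeq]

end Cfsg.Agent.S0551
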