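import Cfsg.Statements.S0552
import Mathlib
import Cfsg.Agent.Lib.helper1.Solv

set_option linter.style.haveILetI false

set_option autoImplicit false
open Cfsg

namespace Cfsg.Agent.S0552

/-- Let σ be an automorphism of a finite solvable group G fixing every element of the Fitting subgroup. If σ is not the identity then the order of σ and the order of G have a common prime factor. -/
theorem result {G : Type*} [Group G] [Finite G] [Group.IsSolvable G] (σ : G ≃* G) (hσ : ∀ x ∈ Cfsg.fittingSubgroup G, σ x = x) (hne : σ ≠ MulEquiv.refl G) : ¬ (orderOf σ).Coprime (Nat.card G) := by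
  intro hcop
  apply hne
  haveI hFn : (Cfsg.fittingSubgroup G).Normal := Cfsg.Agent.Lib.helper1.fitting_normal G
  have hCF := Cfsg.Agent.Lib.helper1.centralizer_fitting_le G
  have hz : ∀ g : G, g⁻¹ * σ g ∈ Cfsg.fittingSubgroup G := by
    intro g
    apply hCF
    rw [Subgroup.mem_centralizer_iff]
    intro f hf
    have h1 : g * f * g⁻¹ ∈ Cfsg.fittingSubgroup G := hFn.conj_mem f hf g
    have h2 := hσ _ h1
    rw [map_mul, map_mul, map_inv, hσ f hf] at h2
    calc f * (g⁻¹ * σ g) = g⁻¹ * (g * f * g⁻¹) * σ g := by group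
      _ = g⁻¹ * (σ g * f * (σ g)⁻¹) * σ g := by rw [h2]
      _ = g⁻¹ * σ g * f := by group
  have hpow : ∀ (k : ℕ) (g : G), (σ ^ k) g = g * (g⁻¹ * σ g) ^ k := by
    intro k
    induction k with
    | zero => intro g; simp
    | succ k ih =>
      intro g
      rw [pow_succ', MulAut.mul_apply, ih, map_mul, map_pow, hσ _ (hz g), pow_succ']
      simp only [mul_assoc, mul_inv_cancel_left]
  ext g
  have h1 := hpow (orderOf σ) g
  rw [pow_orderOf_eq_one, MulAut.one_apply] at h1
  have h2 : (g⁻¹ * σ g) ^ orderOf σ = 1 := by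
    have := congrArg (fun t => g⁻¹ * t) h1
    simpa using this.symm
  have h3 : (g⁻¹ * σ g) ^ Nat.card G = 1 := pow_card_eq_one'
  have h4 : orderOf (g⁻¹ * σ g) ∣ 1 := by
    have := Nat.dvd_gcd (orderOf_dvd_of_pow_eq_one h2) (orderOf_dvd_of_pow_eq_one h3)
    rwa [hcop] at this
  have h5 : g⁻¹ * σ g = 1 := orderOf_eq_one_iff.mp (Nat.dvd_one.mp h4)
  have h6 : σ g = g := by
    have := congrArg (fun t => g * t) h5
    simpa using this
  simpa using h6

end Cfsg.Agent.S0552
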