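import Mathlib
import Cfsg.Statements.S0553
import Cfsg.Agent.Lib.helper3.Basic
import Cfsg.Agent.Lib.helper3.SupersolvablePrime
import Cfsg.Agent.Lib.helper3.Maximal
import Cfsg.Agent.Lib.helper3.Solvable

set_option autoImplicit false
set_option linter.style.haveILetI false
open Cfsg

namespace Cfsg.Agent.S0553

open Cfsg.Agent.Lib.helper3

universe u

theorem aux : ∀ (n : ℕ) (G : Type u) [Group G] [Finite G] [Group.IsSolvable G] [Nontrivial G],
    Nat.card G = n →
    (∀ M : Subgroup G, IsCoatom M → (Nat.card M).Coprime M.index) →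
    ∃ p : ℕ, p.Prime ∧ p ∣ Nat.card G ∧ ∀ P : Sylow p G, (P : Subgroup G).Normal := by
  intro n
  induction n using Nat.strong_induction_on with
  | _ n ih =>
    intro G _ _ _ _ hn h
    obtain ⟨p, hp, N, hNn, hNp, hNne⟩ := exists_normal_pgroup_ne_bot' G
    haveI := hNn
    haveI : Fact p.Prime := ⟨hp⟩
    have hpN : p ∣ Nat.card N := by
      rcases hNp.card_eq_or_dvd with h1 | h1
      · exact absurd (Subgroup.card_eq_one.mp h1) hNne
      · exact h1
    have hpG : p ∣ Nat.card G := hpN.trans (Subgroup.card_subgroup_dvd_card N)
    by_cases hcase : ∃ M : Subgroup G, IsCoatom M ∧ ¬ N ≤ M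
    · obtain ⟨M, hM, hNM⟩ := hcase
      have hsup : M ⊔ N = ⊤ := by
        by_contra hne
        have hlt : M < M ⊔ N := by
          refine lt_of_le_of_ne le_sup_left ?_
          intro heq
          exact hNM (heq ▸ le_sup_right)
        exact hne (hM.2 _ hlt)
      have h1 := card_sup_mul_card_inf_of_normal M N
      rw [hsup, Subgroup.card_top] at h1
      have h2 := M.card_mul_index
      have h3 := N.card_mul_index
      -- M.index * |M ⊓ N| = |N|
      have h4 : M.index * Nat.card (M ⊓ N : Subgroup G) = Nat.card N := by
        have hMpos := Nat.card_pos (α := M)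
        have : Nat.card M * (M.index * Nat.card (M ⊓ N : Subgroup G)) =
            Nat.card M * Nat.card N := by
          rw [← h1, ← h2]; ring
        exact Nat.eq_of_mul_eq_mul_left hMpos this
      -- N.index * |M ⊓ N| = |M|
      have h5 : N.index * Nat.card (M ⊓ N : Subgroup G) = Nat.card M := by
        have hNpos := Nat.card_pos (α := N)
        have : Nat.card N * (N.index * Nat.card (M ⊓ N : Subgroup G)) =
            Nat.card N * Nat.card M := by
          rw [← mul_assoc, h3, h1]; ring
        exact Nat.eq_of_mul_eq_mul_left hNpos this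
      have hMidx : M.index ≠ 1 := by
        intro h1'; exact hM.1 (Subgroup.index_eq_one.mp h1')
      -- p ∣ M.index
      have hpM : p ∣ M.index := by
        obtain ⟨k, hk⟩ := hNp.exists_card_eq
        have hdvd : M.index ∣ p ^ k := hk ▸ Dvd.intro _ h4
        obtain ⟨j, hj, hj2⟩ := (Nat.dvd_prime_pow hp).mp hdvd
        rw [hj2]
        have : j ≠ 0 := by
          intro h0; rw [h0, pow_zero] at hj2; exact hMidx hj2
        exact dvd_pow_self p this
      have hpM' : ¬ p ∣ Nat.card M := by
        intro hdv
        have hg := Nat.dvd_gcd hdv hpM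
        rw [Nat.Coprime.gcd_eq_one (h M hM)] at hg
        exact hp.one_lt.ne' (Nat.dvd_one.mp hg)
      have hNidx : ¬ p ∣ N.index := fun hd => hpM' (hd.trans (Dvd.intro _ h5))
      exact ⟨p, hp, hpG, all_sylow_normal_of_normal (hNp.toSylow hNidx) hNn⟩
    · push Not at hcase
      by_cases hNtop : N = ⊤
      · have hNidx : ¬ p ∣ N.index := by
          rw [hNtop, Subgroup.index_top]
          exact fun hd => hp.one_lt.ne' (Nat.dvd_one.mp hd)
        exact ⟨p, hp, hpG, all_sylow_normal_of_normal (hNp.toSylow hNidx) hNn⟩
      · haveI : Nontrivial (G ⧸ N) := QuotientGroup.nontrivial_iff.mpr hNtop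
        have hlt := card_quotient_lt N hNne
        have hq : ∀ M : Subgroup (G ⧸ N), IsCoatom M → (Nat.card M).Coprime M.index := by
          intro M hM
          have hco := isCoatom_comap_of_surjective (QuotientGroup.mk' N)
            (QuotientGroup.mk'_surjective N) hM
          have h6 := h _ hco
          rw [Subgroup.index_comap_of_surjective _ (QuotientGroup.mk'_surjective _),
            card_comap_mk'] at h6
          exact Nat.Coprime.coprime_dvd_left (Dvd.intro _ rfl) h6
        obtain ⟨r, hr, hrdvd, hrn⟩ := ih _ (hn ▸ hlt) (G ⧸ N) rfl hq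
        haveI : Fact r.Prime := ⟨hr⟩
        obtain ⟨Q⟩ : Nonempty (Sylow r G) := inferInstance
        have hQbar := hrn (Q.mapSurjective (QuotientGroup.mk'_surjective N))
        rw [Sylow.coe_mapSurjective] at hQbar
        haveI hRn : ((Q : Subgroup G) ⊔ N).Normal := by
          have h7 := hQbar.comap (QuotientGroup.mk' N)
          rwa [Subgroup.comap_map_eq, QuotientGroup.ker_mk'] at h7
        have hfr := Sylow.normalizer_sup_eq_top' Q
          (le_sup_left : (Q : Subgroup G) ≤ (Q : Subgroup G) ⊔ N)
        have hnorm : Subgroup.normalizer (Q : Set G) = ⊤ := by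
          by_contra hne
          obtain ⟨M, hMco, hMle⟩ := (eq_top_or_exists_le_coatom _).resolve_left hne
          have h8 : (⊤ : Subgroup G) ≤ M := by
            rw [← hfr]
            exact sup_le hMle (sup_le (Subgroup.le_normalizer.trans hMle) (hcase M hMco))
          exact hMco.1 (top_le_iff.mp h8)
        have hQn : (Q : Subgroup G).Normal := Subgroup.normalizer_eq_top_iff.mp hnorm
        exact ⟨r, hr, hrdvd.trans (Subgroup.card_quotient_dvd_card N),
          all_sylow_normal_of_normal Q hQn⟩

/-- Let G be a nontrivial finite solvable group in which every maximal subgroup has order coprime to its index. Then for some prime p dividing the order of G the Sylow p-subgroups of G are normal. -/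
theorem result {G : Type*} [Group G] [Finite G] [Group.IsSolvable G] [Nontrivial G] (h : ∀ M : Subgroup G, IsCoatom M → (Nat.card M).Coprime M.index) : ∃ p : ℕ, p.Prime ∧ p ∣ Nat.card G ∧ ∀ P : Sylow p G, (P : Subgroup G).Normal := by
  exact aux _ G rfl h

end Cfsg.Agent.S0553
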