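import Mathlib
import Cfsg.Statements.S0555
import Cfsg.Agent.Lib.helper3.Cyclic

set_option autoImplicit false
set_option linter.style.haveILetI false
open Cfsg

namespace Cfsg.Agent.S0555

open Cfsg.Agent.Lib.helper3
open scoped commutatorElement

universe u

theorem exists_gen {G : Type u} [Group G] (A B : Subgroup G) [hN : (B.subgroupOf A).Normal]
    (h : IsCyclic (↥A ⧸ B.subgroupOf A)) :
    ∃ a₀ ∈ A, ∀ a ∈ A, ∃ k : ℤ, a₀ ^ (-k) * a ∈ B := by
  obtain ⟨g, hg⟩ := h.exists_generator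
  obtain ⟨a₀, rfl⟩ := QuotientGroup.mk_surjective g
  refine ⟨a₀, a₀.2, fun a ha => ?_⟩
  obtain ⟨k, hk⟩ := Subgroup.mem_zpowers_iff.mp (hg (QuotientGroup.mk ⟨a, ha⟩))
  refine ⟨k, ?_⟩
  have h1 : (a₀ ^ k)⁻¹ * ⟨a, ha⟩ ∈ B.subgroupOf A := by
    rw [← QuotientGroup.eq]
    simpa using hk
  rw [Subgroup.mem_subgroupOf] at h1
  simpa [zpow_neg] using h1

/-- Let i ≥ 1. If in the derived series of a group the quotient of the i-th term by the (i+1)-st and the quotient of the (i+1)-st by the (i+2)-nd are both cyclic, then the (i+1)-st and (i+2)-nd terms coincide. -/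
theorem result {G : Type*} [Group G] (i : ℕ) (hi : 1 ≤ i) (h₁ : IsCyclic (↥(derivedSeries G i) ⧸ (derivedSeries G (i + 1)).subgroupOf (derivedSeries G i))) (h₂ : IsCyclic (↥(derivedSeries G (i + 1)) ⧸ (derivedSeries G (i + 2)).subgroupOf (derivedSeries G (i + 1)))) : derivedSeries G (i + 1) = derivedSeries G (i + 2) := by
  obtain ⟨a₀, ha₀, hAgen⟩ := exists_gen _ _ h₁
  obtain ⟨b₀, hb₀, hBgen⟩ := exists_gen _ _ h₂
  apply le_antisymm _ (derivedSeries_antitone G (by omega))
  haveI hCn : (derivedSeries G (i + 2)).Normal := derivedSeries_normal G (i + 2)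
  set π := QuotientGroup.mk' (derivedSeries G (i + 2)) with hπ
  set α := π a₀ with hα'
  set β := π b₀ with hβ'
  have hBπ : ∀ b ∈ derivedSeries G (i + 1), π b ∈ Subgroup.zpowers β := by
    intro b hb
    obtain ⟨k, hk⟩ := hBgen b hb
    have h1 : π (b₀ ^ (-k) * b) = 1 := (QuotientGroup.eq_one_iff _).mpr hk
    rw [map_mul, map_zpow] at h1
    refine ⟨k, ?_⟩
    show β ^ k = π b
    have h3 : π b = (β ^ (-k))⁻¹ := eq_inv_of_mul_eq_one_right h1
    rw [h3, zpow_neg, inv_inv]
  have hNeq : (derivedSeries G (i + 1)).map π = Subgroup.zpowers β := by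
    apply le_antisymm
    · rintro _ ⟨b, hb, rfl⟩; exact hBπ b hb
    · rw [Subgroup.zpowers_le]; exact ⟨b₀, hb₀, rfl⟩
  haveI hBn : (derivedSeries G (i + 1)).Normal := derivedSeries_normal G (i + 1)
  haveI hNn : ((derivedSeries G (i + 1)).map π).Normal :=
    hBn.map π (QuotientGroup.mk'_surjective _)
  haveI hNc : IsCyclic ((derivedSeries G (i + 1)).map π) :=
    (Subgroup.isCyclic_iff_exists_zpowers_eq_top _).mpr ⟨β, hNeq.symm⟩
  have hcent := commutator_le_centralizer_of_cyclic_normal ((derivedSeries G (i + 1)).map π)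
  have hα : α ∈ commutator (G ⧸ derivedSeries G (i + 2)) := by
    have h1 : α ∈ (derivedSeries G i).map π := ⟨a₀, ha₀, rfl⟩
    have h2 := map_derivedSeries_le_derivedSeries π i h1
    have h3 : derivedSeries (G ⧸ derivedSeries G (i + 2)) i ≤
        derivedSeries (G ⧸ derivedSeries G (i + 2)) 1 := derivedSeries_antitone _ hi
    exact h3 h2
  have hαβ : Commute α β := by
    have := hcent hα β (by rw [SetLike.mem_coe, hNeq]; exact Subgroup.mem_zpowers β)
    exact this.symm
  have hAπ : ∀ a ∈ derivedSeries G i, ∃ k l : ℤ, π a = α ^ k * β ^ l := by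
    intro a ha
    obtain ⟨k, hk⟩ := hAgen a ha
    obtain ⟨l, hl⟩ := hBπ _ hk
    refine ⟨k, l, ?_⟩
    have h4 : β ^ l = α ^ (-k) * π a := by
      rw [show β ^ l = π (a₀ ^ (-k) * a) from hl, map_mul, map_zpow]
    rw [h4, zpow_neg, mul_inv_cancel_left]
  rw [derivedSeries_succ, Subgroup.commutator_le]
  intro x hx y hy
  have h5 : π ⁅x, y⁆ = 1 := by
    rw [map_commutatorElement, commutatorElement_eq_one_iff_mul_comm]
    obtain ⟨k, l, h1⟩ := hAπ x hx
    obtain ⟨k', l', h2⟩ := hAπ y hy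
    rw [h1, h2]
    have haa : Commute (α ^ k) (α ^ k') := (Commute.refl α).zpow_zpow k k'
    have hab : Commute (α ^ k) (β ^ l') := hαβ.zpow_zpow k l'
    have hba : Commute (β ^ l) (α ^ k') := hαβ.symm.zpow_zpow l k'
    have hbb : Commute (β ^ l) (β ^ l') := (Commute.refl β).zpow_zpow l l'
    exact ((haa.mul_right hab).mul_left (hba.mul_right hbb))
  exact (QuotientGroup.eq_one_iff _).mp h5

end Cfsg.Agent.S0555
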