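import Mathlib
import Cfsg.Statements.S0556
import Cfsg.Agent.Lib.helper1.FrobConj
import Cfsg.Agent.Lib.helper1.Misc
import Cfsg.Agent.Lib.helper1.SZ
import Cfsg.Agent.Lib.helper1.Carter
import Cfsg.Agent.S0023

set_option autoImplicit false
open Cfsg

namespace Cfsg.Agent.S0556

open Cfsg.Agent.Lib.helper1
open Pointwise
open scoped commutatorElement

theorem comm_eq_bot_of_le_abelian {G : Type*} [Group G] (B D : Subgroup G)
    (hB : ∀ a ∈ B, ∀ b ∈ B, a * b = b * a) (hD : D ≤ B) : ⁅D, D⁆ = ⊥ := by
  rw [eq_bot_iff, Subgroup.commutator_le]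
  intro a ha b hb
  rw [Subgroup.mem_bot, commutatorElement_def, hB a (hD ha) b (hD hb)]
  group

/-- A fixed-point-free abelian maximal complement forces an abelian kernel. -/
theorem kernel_abelian {X : Type*} [Group X] [Finite X] (N A : Subgroup X) [N.Normal]
    (hc : Subgroup.IsComplement' N A) (hN : N ≠ ⊥)
    (hfpf : ∀ h ∈ A, h ≠ 1 → N ⊓ Subgroup.centralizer {h} = ⊥)
    (hAab : ∀ a ∈ A, ∀ b ∈ A, a * b = b * a) (hAco : IsCoatom A) :
    ∀ a ∈ N, ∀ b ∈ N, a * b = b * a := by
  have hAN : A ≤ Subgroup.normalizer (N : Set X) := by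
    rw [Subgroup.normalizer_eq_top]; exact le_top
  have hcop : (Nat.card A).Coprime (Nat.card N) :=
    fpf_coprime (fpfHom hAN) (isFpf_fpfHom hAN hfpf)
  have hNA : N ⊓ A = ⊥ := disjoint_iff.mp hc.disjoint
  -- invariant nontrivial subgroups of N are everything
  have hkey : ∀ M : Subgroup X, M ≤ N → A ≤ Subgroup.normalizer (M : Set X) → M ≠ ⊥ →
      M = N := by
    intro M hMN hAM hM
    apply le_antisymm hMN
    have h1 : A ⊔ M = ⊤ := by
      apply hAco.2
      apply lt_of_le_of_ne le_sup_left
      intro h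
      have h2 : M ≤ A := by rw [h]; exact le_sup_right
      apply hM
      rw [eq_bot_iff, ← hNA]
      exact le_inf hMN h2
    intro n hn
    have h2 : n ∈ ((A ⊔ M : Subgroup X) : Set X) := by rw [h1]; trivial
    rw [Subgroup.coe_mul_of_left_le_normalizer_right A M hAM] at h2
    obtain ⟨a, ha, m, hm, ham⟩ := h2
    have ha' : a ∈ N ⊓ A := by
      refine ⟨?_, ha⟩
      have : a = n * m⁻¹ := by rw [← ham]; group
      rw [this]
      exact N.mul_mem hn (N.inv_mem (hMN hm))
    rw [hNA, Subgroup.mem_bot] at ha'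
    have : n = m := by rw [← ham]; simp [ha']
    rw [this]; exact hm
  have hAsolv : Group.IsSolvable A :=
    Group.isSolvable_of_comm (fun a b => Subtype.ext (hAab a a.2 b b.2))
  have hN1 : Nat.card N ≠ 1 := fun h => hN (Subgroup.eq_bot_of_card_eq N h)
  obtain ⟨p, hp, hpN⟩ := Nat.exists_prime_and_dvd hN1
  haveI : Fact p.Prime := ⟨hp⟩
  obtain ⟨P, hP⟩ := Cfsg.Agent.S0023.result A N hAN hcop (Or.inl hAsolv) p
  have hPN : (P : Subgroup N).map N.subtype = N := by
    apply hkey _ (Subgroup.map_subtype_le _) hP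
    intro h
    have h2 : (P : Subgroup N) = ⊥ := by
      rw [eq_bot_iff]
      intro x hx
      have : (x : X) ∈ (P : Subgroup N).map N.subtype := Subgroup.mem_map_of_mem _ hx
      rw [h, Subgroup.mem_bot] at this
      rw [Subgroup.mem_bot]
      exact Subtype.ext this
    exact P.ne_bot_of_dvd_card hpN h2
  have hNp : IsPGroup p N := by
    have h1 : (P : Subgroup N) = ⊤ := by
      rw [eq_top_iff]
      intro x _
      have : (x : X) ∈ (P : Subgroup N).map N.subtype := by rw [hPN]; exact x.2
      obtain ⟨y, hy, hyx⟩ := Subgroup.mem_map.mp this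
      have : y = x := Subtype.ext hyx
      rw [← this]; exact hy
    have h2 := P.isPGroup'
    intro g
    obtain ⟨k, hk⟩ := h2 ⟨g, h1 ▸ Subgroup.mem_top g⟩
    exact ⟨k, by simpa using congrArg Subtype.val hk⟩
  -- the centre of N
  set M₂ : Subgroup X := (Subgroup.center N).map N.subtype with hM₂
  have hM₂N : M₂ ≤ N := Subgroup.map_subtype_le _
  have hmemM₂ : ∀ z : X, z ∈ M₂ ↔ z ∈ N ∧ ∀ n ∈ N, n * z = z * n := by
    intro z
    rw [hM₂, Subgroup.mem_map]
    constructor
    · rintro ⟨z₀, hz₀, rfl⟩
      refine ⟨z₀.2, fun n hn => ?_⟩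
      have := Subgroup.mem_center_iff.mp hz₀ ⟨n, hn⟩
      exact congrArg Subtype.val this
    · rintro ⟨hz, hcomm⟩
      refine ⟨⟨z, hz⟩, ?_, rfl⟩
      rw [Subgroup.mem_center_iff]
      intro n
      exact Subtype.ext (hcomm n n.2)
  have hM₂A : A ≤ Subgroup.normalizer (M₂ : Set X) := by
    intro a _
    apply mem_normalizer_of_forall_conj_mem
    intro z hz
    rw [hmemM₂] at hz ⊢
    refine ⟨‹N.Normal›.conj_mem z hz.1 a, fun n hn => ?_⟩
    have h1 : a⁻¹ * n * a ∈ N := by
      have := ‹N.Normal›.conj_mem n hn a⁻¹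
      simpa using this
    have h2 := hz.2 _ h1
    calc n * (a * z * a⁻¹) = a * ((a⁻¹ * n * a) * z) * a⁻¹ := by group
      _ = a * (z * (a⁻¹ * n * a)) * a⁻¹ := by rw [h2]
      _ = a * z * a⁻¹ * n := by group
  have hM₂ne : M₂ ≠ ⊥ := by
    haveI : Nontrivial N := (Subgroup.nontrivial_iff_ne_bot N).mpr hN
    have h1 := hNp.bot_lt_center
    intro h
    have h2 : Subgroup.center N = ⊥ := by
      rw [eq_bot_iff]
      intro x hx
      have : (x : X) ∈ M₂ := Subgroup.mem_map_of_mem _ hx
      rw [h, Subgroup.mem_bot] at this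
      rw [Subgroup.mem_bot]
      exact Subtype.ext this
    rw [h2] at h1
    exact lt_irrefl _ h1
  have hM₂eq := hkey M₂ hM₂N hM₂A hM₂ne
  intro a ha b hb
  have hb' : b ∈ M₂ := by rw [hM₂eq]; exact hb
  exact ((hmemM₂ b).mp hb').2 a ha

/-- If a finite group has a maximal subgroup that is abelian, then the third term of its derived series is trivial (so the group is solvable of derived length at most three). -/
theorem result {G : Type*} [Group G] [Finite G] (A : Subgroup G) (hA : IsCoatom A) [IsMulCommutative A] : derivedSeries G 3 = ⊥ := by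
  have hAab : ∀ a ∈ A, ∀ b ∈ A, a * b = b * a := by
    intro a ha b hb
    have := mul_comm' (⟨a, ha⟩ : A) ⟨b, hb⟩
    exact congrArg Subtype.val this
  by_cases hAn : A.Normal
  · -- normal case
    obtain ⟨g, hg⟩ : ∃ g : G, g ∉ A := by
      by_contra hcon
      push Not at hcon
      exact hA.1 (eq_top_iff.mpr (fun x _ => hcon x))
    have hsup : A ⊔ Subgroup.zpowers g = ⊤ := by
      apply hA.2
      apply lt_of_le_of_ne le_sup_left
      intro h
      apply hg
      rw [h]
      exact Subgroup.mem_sup_right (Subgroup.mem_zpowers g)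
    have hdec : ∀ x : G, ∃ a ∈ A, ∃ k : ℤ, x = a * g ^ k := by
      intro x
      have hx : x ∈ A ⊔ Subgroup.zpowers g := by rw [hsup]; trivial
      obtain ⟨a, ha, z, hz, rfl⟩ := Subgroup.mem_sup_of_normal_left.mp hx
      obtain ⟨k, rfl⟩ := Subgroup.mem_zpowers_iff.mp hz
      exact ⟨a, ha, k, rfl⟩
    have h1 : derivedSeries G 1 ≤ A := by
      rw [derivedSeries_succ, derivedSeries_zero, Subgroup.commutator_le]
      intro x _ y _
      obtain ⟨a, ha, k, rfl⟩ := hdec x
      obtain ⟨b, hb, l, rfl⟩ := hdec y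
      have ha1 : QuotientGroup.mk' A a = 1 := (QuotientGroup.eq_one_iff a).mpr ha
      have hb1 : QuotientGroup.mk' A b = 1 := (QuotientGroup.eq_one_iff b).mpr hb
      have : QuotientGroup.mk' A ⁅a * g ^ k, b * g ^ l⁆ = 1 := by
        rw [commutatorElement_def]
        simp only [map_mul, map_inv, map_zpow, ha1, hb1, one_mul]
        have hc : Commute ((QuotientGroup.mk' A g) ^ k) ((QuotientGroup.mk' A g) ^ l) :=
          (Commute.refl _).zpow_zpow k l
        rw [hc.eq]
        group
      exact (QuotientGroup.eq_one_iff _).mp this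
    have h2 : derivedSeries G 2 = ⊥ := by
      rw [derivedSeries_succ]
      exact comm_eq_bot_of_le_abelian A _ hAab h1
    rw [derivedSeries_succ, h2]
    exact Subgroup.commutator_bot_left ⊥
  · -- non-normal case
    set Z : Subgroup G := Subgroup.center G with hZ
    have hnormA : Subgroup.normalizer (A : Set G) = A := by
      by_contra hne
      have h1 : A < Subgroup.normalizer (A : Set G) :=
        lt_of_le_of_ne Subgroup.le_normalizer (Ne.symm hne)
      have h2 := hA.2 _ h1
      exact hAn (Subgroup.normalizer_eq_top_iff.mp h2)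
    have hZA : Z ≤ A := by
      by_contra hne
      have h1 : A ⊔ Z = ⊤ := by
        apply hA.2
        apply lt_of_le_of_ne le_sup_left
        intro h
        apply hne
        rw [h]; exact le_sup_right
      apply hAn
      constructor
      intro x hx g
      have hg : g ∈ A ⊔ Z := by rw [h1]; trivial
      obtain ⟨a, ha, z, hz, rfl⟩ := Subgroup.mem_sup_of_normal_right.mp hg
      have hz' : ∀ y : G, y * z = z * y := fun y => Subgroup.mem_center_iff.mp hz y
      have : a * z * x * (a * z)⁻¹ = a * x * a⁻¹ := by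
        calc a * z * x * (a * z)⁻¹ = a * (z * x) * z⁻¹ * a⁻¹ := by group
          _ = a * (x * z) * z⁻¹ * a⁻¹ := by rw [hz' x]
          _ = a * x * a⁻¹ := by group
      rw [this]
      exact A.mul_mem (A.mul_mem ha hx) (A.inv_mem ha)
    set π := QuotientGroup.mk' Z with hπ
    have hπs : Function.Surjective π := QuotientGroup.mk'_surjective Z
    set Abar : Subgroup (G ⧸ Z) := A.map π with hAbar
    have hcomap : Abar.comap π = A := by
      rw [hAbar, Subgroup.comap_map_eq, hπ, QuotientGroup.ker_mk']
      exact sup_eq_left.mpr hZA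
    have hAbarco : IsCoatom Abar := isCoatom_of_comap π hπs Abar (by rw [hcomap]; exact hA)
    have hmemA : ∀ x : G, π x ∈ Abar ↔ x ∈ A := by
      intro x
      rw [← Subgroup.mem_comap, hcomap]
    have hAbarab : ∀ a ∈ Abar, ∀ b ∈ Abar, a * b = b * a := by
      intro a ha b hb
      obtain ⟨a', ha', rfl⟩ := Subgroup.mem_map.mp ha
      obtain ⟨b', hb', rfl⟩ := Subgroup.mem_map.mp hb
      rw [← map_mul, ← map_mul, hAab a' ha' b' hb']
    have hfrob : Cfsg.IsFrobeniusComplement Abar := by
      refine ⟨?_, hAbarco.1, ?_⟩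
      · intro h
        apply hAn
        have hAZ : A ≤ Z := by
          intro a ha
          have h1 : π a ∈ Abar := Subgroup.mem_map_of_mem _ ha
          rw [h, Subgroup.mem_bot] at h1
          exact (QuotientGroup.eq_one_iff a).mp h1
        constructor
        intro x hx g
        have hx' := Subgroup.mem_center_iff.mp (hAZ hx) g
        have : g * x * g⁻¹ = x := by rw [hx']; group
        rw [this]; exact hx
      · intro gbar hgbar
        obtain ⟨g, rfl⟩ := hπs gbar
        have hgA : g ∉ A := fun h => hgbar ((hmemA g).mpr h)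
        rw [eq_bot_iff]
        intro xbar hxbar
        obtain ⟨x, rfl⟩ := hπs xbar
        have hxA : x ∈ A := (hmemA x).mp hxbar.1
        have hx2 : π x ∈ MulAut.conj (π g) • Abar := hxbar.2
        rw [mem_conj_smul] at hx2
        have hx3 : g⁻¹ * x * g ∈ A := by
          rw [← hmemA]
          simpa using hx2
        -- A ⊔ conj g • A = ⊤
        have hsup : A ⊔ MulAut.conj g • A = ⊤ := by
          apply hA.2
          apply lt_of_le_of_ne le_sup_left
          intro h
          have h1 : MulAut.conj g • A ≤ A := by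
            have h0 : MulAut.conj g • A ≤ A ⊔ MulAut.conj g • A := le_sup_right
            rw [← h] at h0
            exact h0
          have h2 : MulAut.conj g • A = A :=
            Subgroup.eq_of_le_of_card_ge h1 (by rw [card_conj_smul])
          have h3 : g ∈ Subgroup.normalizer (A : Set G) :=
            (mem_normalizer_iff_conj_smul g A).mpr h2
          rw [hnormA] at h3
          exact hgA h3
        have hcent : (⊤ : Subgroup G) ≤ Subgroup.centralizer {x} := by
          rw [← hsup]
          apply sup_le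
          · intro a ha
            rw [Subgroup.mem_centralizer_iff]
            intro y hy
            rw [Set.mem_singleton_iff] at hy
            rw [hy]
            exact hAab x hxA a ha
          · intro a ha
            rw [mem_conj_smul] at ha
            rw [Subgroup.mem_centralizer_iff]
            intro y hy
            rw [Set.mem_singleton_iff] at hy
            rw [hy]
            have h1 := hAab _ hx3 _ ha
            calc x * a = g * ((g⁻¹ * x * g) * (g⁻¹ * a * g)) * g⁻¹ := by group
              _ = g * ((g⁻¹ * a * g) * (g⁻¹ * x * g)) * g⁻¹ := by rw [h1]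
              _ = a * x := by group
        have hxZ : x ∈ Z := by
          rw [hZ, Subgroup.mem_center_iff]
          intro y
          have := Subgroup.mem_centralizer_iff.mp (hcent (Subgroup.mem_top y)) x rfl
          exact this.symm
        rw [Subgroup.mem_bot]
        exact (QuotientGroup.eq_one_iff x).mpr hxZ
    obtain ⟨N, -, hNn, hc, hN, hfpf⟩ := frob_pair Abar hfrob
    haveI := hNn
    have hNab := kernel_abelian N Abar hc hN hfpf hAbarab hAbarco
    -- derived series of the quotient
    have hd1 : derivedSeries (G ⧸ Z) 1 ≤ N := by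
      rw [derivedSeries_succ, derivedSeries_zero, Subgroup.commutator_le]
      intro x _ y _
      obtain ⟨⟨n₁, a₁⟩, h1⟩ := hc.2 x
      obtain ⟨⟨n₂, a₂⟩, h2⟩ := hc.2 y
      have h1' : (n₁ : G ⧸ Z) * (a₁ : G ⧸ Z) = x := h1
      have h2' : (n₂ : G ⧸ Z) * (a₂ : G ⧸ Z) = y := h2
      have hn1 : QuotientGroup.mk' N (n₁ : G ⧸ Z) = 1 := (QuotientGroup.eq_one_iff _).mpr n₁.2
      have hn2 : QuotientGroup.mk' N (n₂ : G ⧸ Z) = 1 := (QuotientGroup.eq_one_iff _).mpr n₂.2
      have : QuotientGroup.mk' N ⁅x, y⁆ = 1 := by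
        rw [← h1', ← h2', commutatorElement_def]
        simp only [map_mul, map_inv, hn1, hn2, one_mul]
        have hcm : (a₁ : G ⧸ Z) * (a₂ : G ⧸ Z) = (a₂ : G ⧸ Z) * (a₁ : G ⧸ Z) :=
          hAbarab _ a₁.2 _ a₂.2
        have hcm' : QuotientGroup.mk' N (a₁ : G ⧸ Z) * QuotientGroup.mk' N (a₂ : G ⧸ Z) =
            QuotientGroup.mk' N (a₂ : G ⧸ Z) * QuotientGroup.mk' N (a₁ : G ⧸ Z) := by
          rw [← map_mul, ← map_mul, hcm]
        rw [hcm']
        group
      exact (QuotientGroup.eq_one_iff _).mp this
    have hd2 : derivedSeries (G ⧸ Z) 2 = ⊥ := by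
      rw [derivedSeries_succ]
      exact comm_eq_bot_of_le_abelian N _ hNab hd1
    have hd2G : derivedSeries G 2 ≤ Z := by
      have h1 := map_derivedSeries_eq hπs 2
      rw [hd2] at h1
      intro x hx
      have h2 : π x ∈ (derivedSeries G 2).map π := Subgroup.mem_map_of_mem _ hx
      rw [h1, Subgroup.mem_bot] at h2
      exact (QuotientGroup.eq_one_iff x).mp h2
    rw [derivedSeries_succ]
    apply comm_eq_bot_of_le_abelian Z _ _ hd2G
    intro a ha b _
    exact (Subgroup.mem_center_iff.mp ha b).symm

end Cfsg.Agent.S0556
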