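import Mathlib
import Cfsg.Statements.S0558
import Cfsg.Agent.Lib.helper1.HallCompl
import Cfsg.Agent.Lib.helper1.Carter
import Cfsg.Agent.Lib.lead.PNil
import Cfsg.Agent.S0071

set_option autoImplicit false
open Cfsg

namespace Cfsg.Agent.S0558

open Cfsg.Agent.Lib.helper1 Cfsg.Agent.Lib.lead
open Pointwise

/-- Let H be a subgroup of a finite group G that is not a Sylow subgroup of G for any prime, and suppose that for every prime p dividing the order of H and every Sylow p-subgroup P of H the normalizer of P in G is exactly H. Then some normal subgroup of G is a complement to H. -/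
theorem result {G : Type*} [Group G] [Finite G] (H : Subgroup G) (hnot : ∀ p : ℕ, p.Prime → ∀ P : Sylow p G, (P : Subgroup G) ≠ H) (hnorm : ∀ p : ℕ, p.Prime → p ∣ Nat.card H → ∀ P : Sylow p H, Subgroup.normalizer (((P : Subgroup H).map H.subtype : Subgroup G) : Set G) = H) : ∃ N : Subgroup G, N.Normal ∧ Subgroup.IsComplement' N H := by
  -- Sylow subgroups of H are Sylow in G
  have hSyl : ∀ (p : ℕ) [Fact p.Prime], p ∣ Nat.card H → ∀ P : Sylow p H,
      ∃ S : Sylow p G, (S : Subgroup G) = (P : Subgroup H).map H.subtype := by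
    intro p _ hpH P
    have hp : p.Prime := Fact.out
    set P' : Subgroup G := (P : Subgroup H).map H.subtype with hP'
    have hP'p : IsPGroup p P' := P.isPGroup'.map H.subtype
    obtain ⟨a, ha⟩ := IsPGroup.iff_card.mp hP'p
    have h1 := Sylow.card_quotient_normalizer_modEq_card_quotient (H := P') ha
    have h2 : Nat.card (↥(Subgroup.normalizer (P' : Set G)) ⧸
        Subgroup.comap (Subgroup.normalizer (P' : Set G)).subtype P') =
        P'.relIndex (Subgroup.normalizer (P' : Set G)) := rfl
    rw [h2, hnorm p hp hpH P] at h1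
    have h3 : P'.relIndex H = (P : Subgroup H).index := by
      have : P'.subgroupOf H = (P : Subgroup H) :=
        Subgroup.comap_map_eq_self_of_injective H.subtype_injective _
      rw [Subgroup.relIndex, this]
    have h4 : Nat.card (G ⧸ P') = P'.index := rfl
    rw [h3, h4] at h1
    have h5 : ¬ p ∣ P'.index := by
      intro hd
      exact P.not_dvd_index ((Nat.ModEq.dvd_iff h1 (dvd_refl p)).mpr hd)
    exact ⟨hP'p.toSylow h5, rfl⟩
  -- H is a Hall subgroup
  have hHall : (Nat.card H).Coprime H.index := by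
    apply Nat.Coprime.symm
    apply Nat.coprime_of_dvd
    intro p hp hpi hpH
    haveI : Fact p.Prime := ⟨hp⟩
    obtain ⟨P⟩ : Nonempty (Sylow p H) := inferInstance
    obtain ⟨S, hS⟩ := hSyl p hpH P
    have h1 : (S : Subgroup G) ≤ H := by rw [hS]; exact Subgroup.map_subtype_le _
    exact S.not_dvd_index (hpi.trans (Subgroup.index_dvd_of_le h1))
  -- Sylow subgroups of H are normal in H
  have hnormalH : ∀ (r : ℕ) [Fact r.Prime] (S : Sylow r H), (S : Subgroup H).Normal := by
    intro r _ S
    have hr : r.Prime := Fact.out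
    by_cases hrH : r ∣ Nat.card H
    · constructor
      intro x hx h
      have h1 : (h : G) ∈ Subgroup.normalizer (((S : Subgroup H).map H.subtype : Subgroup G) : Set G) := by
        rw [hnorm r hr hrH S]; exact h.2
      have h2 := (Subgroup.mem_normalizer_iff.mp h1 (x : G)).mp (Subgroup.mem_map_of_mem _ hx)
      obtain ⟨y, hy, hyeq⟩ := Subgroup.mem_map.mp h2
      have : h * x * h⁻¹ = y := by
        apply Subtype.ext
        simpa using hyeq.symm
      rw [this]; exact hy
    · have : (S : Subgroup H) = ⊥ := by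
        apply Subgroup.eq_bot_of_card_eq
        obtain ⟨a, ha⟩ := IsPGroup.iff_card.mp S.isPGroup'
        rcases Nat.eq_zero_or_pos a with h0 | h0
        · rw [ha, h0, pow_zero]
        · exfalso
          apply hrH
          have : r ∣ Nat.card (S : Subgroup H) := by rw [ha]; exact dvd_pow_self r h0.ne'
          exact this.trans (Subgroup.card_subgroup_dvd_card _)
      rw [this]; infer_instance
  apply hall_complement_of_pcomplements H hHall
  intro p hp hpH
  haveI : Fact p.Prime := ⟨hp⟩
  obtain ⟨P⟩ : Nonempty (Sylow p H) := inferInstance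
  obtain ⟨S, hS⟩ := hSyl p hpH P
  obtain ⟨a, ha⟩ := IsPGroup.iff_card.mp P.isPGroup'
  -- another prime q
  have hq : ∃ q : ℕ, q.Prime ∧ q ≠ p ∧ q ∣ Nat.card H := by
    by_contra hcon
    push Not at hcon
    -- H is a p-group
    have hHp : Nat.card H = Nat.card (P : Subgroup H) := by
      have h1 := (P : Subgroup H).card_mul_index
      have h2 : (P : Subgroup H).index = 1 := by
        by_contra hne
        obtain ⟨q, hq, hqd⟩ := Nat.exists_prime_and_dvd hne
        have hqH : q ∣ Nat.card H := hqd.trans (Subgroup.index_dvd_card _)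
        by_cases hqp : q = p
        · rw [hqp] at hqd; exact P.not_dvd_index hqd
        · exact hcon q hq hqp hqH
      rw [h2, mul_one] at h1
      exact h1.symm
    have hPtop : (P : Subgroup H) = ⊤ := Subgroup.eq_top_of_card_eq _ hHp.symm
    apply hnot p hp S
    rw [hS, hPtop, ← MonoidHom.range_eq_map, Subgroup.range_subtype]
  obtain ⟨q, hqp, hqne, hqH⟩ := hq
  haveI : Fact q.Prime := ⟨hqp⟩
  obtain ⟨Q⟩ : Nonempty (Sylow q H) := inferInstance
  obtain ⟨T, hT⟩ := hSyl q hqH Q
  have hTnorm : Subgroup.normalizer ((T : Subgroup G) : Set G) = H := by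
    rw [hT]; exact hnorm q hqp hqH Q
  -- T centralizes S
  have hTS : ∀ t ∈ (T : Subgroup G), ∀ s ∈ (S : Subgroup G), s * t = t * s := by
    intro t ht s hs
    rw [hT, Subgroup.mem_map] at ht
    rw [hS, Subgroup.mem_map] at hs
    obtain ⟨t₀, ht₀, rfl⟩ := ht
    obtain ⟨s₀, hs₀, rfl⟩ := hs
    have hcop : (orderOf t₀).Coprime p := by
      obtain ⟨b, hb⟩ := IsPGroup.iff_card.mp Q.isPGroup'
      have h1 : orderOf t₀ ∣ q ^ b := by
        rw [← hb]
        have := orderOf_dvd_natCard (⟨t₀, ht₀⟩ : (Q : Subgroup H))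
        rwa [Subgroup.orderOf_mk] at this
      exact Nat.Coprime.coprime_dvd_left h1
        (Nat.Coprime.pow_left b ((Nat.coprime_primes hqp hp).mpr hqne))
    have h2 := Subgroup.mem_centralizer_iff.mp
      (mem_centralizer_sylow_of_normal hnormalH P t₀ hcop) s₀ hs₀
    exact congrArg Subtype.val h2
  -- Frobenius criterion
  have hfrob : ∀ R : Subgroup G, R ≤ (S : Subgroup G) →
      ∀ g ∈ Subgroup.normalizer (R : Set G), Nat.Coprime (orderOf g) p →
      g ∈ Subgroup.centralizer (R : Set G) := by
    intro R hRS g hg hcop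
    set C : Subgroup G := Subgroup.centralizer (R : Set G) with hC
    have hTC : (T : Subgroup G) ≤ C := by
      intro t ht
      rw [hC, Subgroup.mem_centralizer_iff]
      intro r hr
      exact hTS t ht r (hRS hr)
    -- g T g⁻¹ ≤ C
    have hgTC : MulAut.conj g • (T : Subgroup G) ≤ C := by
      intro x hx
      rw [mem_conj_smul] at hx
      have h1 := hTC hx
      rw [hC, Subgroup.mem_centralizer_iff] at h1 ⊢
      intro r hr
      have hr' : g⁻¹ * r * g ∈ R := by
        have h2 : g⁻¹ ∈ Subgroup.normalizer (R : Set G) := Subgroup.inv_mem _ hg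
        have := (Subgroup.mem_normalizer_iff.mp h2 r).mp hr
        simpa using this
      have h3 := h1 _ hr'
      calc r * x = g * ((g⁻¹ * r * g) * (g⁻¹ * x * g)) * g⁻¹ := by group
        _ = g * ((g⁻¹ * x * g) * (g⁻¹ * r * g)) * g⁻¹ := by rw [h3]
        _ = x * r := by group
    -- Sylow conjugacy inside C
    let T₁ : Sylow q C := T.subtype hTC
    have hgTC' : ((g • T : Sylow q G) : Subgroup G) ≤ C := hgTC
    let T₂ : Sylow q C := (g • T).subtype hgTC'
    obtain ⟨c, hc⟩ := MulAction.exists_smul_eq C T₂ T₁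
    have hc0 : ((c • T₂ : Sylow q C) : Subgroup C) = (T₁ : Subgroup C) :=
      congrArg (fun X : Sylow q C => (X : Subgroup C)) hc
    rw [Sylow.coe_subgroup_smul] at hc0
    have hc' : MulAut.conj c • ((MulAut.conj g • (T : Subgroup G)).subgroupOf C) =
        (T : Subgroup G).subgroupOf C := hc0
    have hcg := conj_of_conj_subgroupOf C _ _ hgTC hTC c hc'
    have hh : (c : G) * g ∈ H := by
      rw [← hTnorm, mem_normalizer_iff_conj_smul, conj_mul_smul]
      exact hcg
    set h : G := (c : G) * g with hhdef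
    have hgeq : g = (c : G)⁻¹ * h := by rw [hhdef]; group
    have hhN : h ∈ Subgroup.normalizer (R : Set G) :=
      Subgroup.mul_mem _ (Subgroup.centralizer_le_normalizer _ c.2) hg
    -- h normalizes C
    have hhC : ∀ c' ∈ C, h * c' * h⁻¹ ∈ C := by
      intro c' hc'
      rw [hC, Subgroup.mem_centralizer_iff] at hc' ⊢
      intro r hr
      have hr' : h⁻¹ * r * h ∈ R := by
        have h2 : h⁻¹ ∈ Subgroup.normalizer (R : Set G) := Subgroup.inv_mem _ hhN
        have := (Subgroup.mem_normalizer_iff.mp h2 r).mp hr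
        simpa using this
      have h3 := hc' _ hr'
      calc r * (h * c' * h⁻¹) = h * ((h⁻¹ * r * h) * c') * h⁻¹ := by group
        _ = h * (c' * (h⁻¹ * r * h)) * h⁻¹ := by rw [h3]
        _ = h * c' * h⁻¹ * r := by group
    have hpow : ∀ k : ℕ, ∃ c' ∈ C, g ^ k = c' * h ^ k := by
      intro k
      induction k with
      | zero => exact ⟨1, C.one_mem, by simp⟩
      | succ k ihk =>
        obtain ⟨c', hc'C, hc'eq⟩ := ihk
        refine ⟨(c : G)⁻¹ * (h * c' * h⁻¹), C.mul_mem (C.inv_mem c.2) (hhC c' hc'C), ?_⟩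
        rw [pow_succ', hc'eq, pow_succ']
        conv_lhs => rw [hgeq]
        group
    -- h ^ (p ^ a) centralizes R
    have hx : h ^ (p ^ a) ∈ C := by
      have hcop' : (orderOf ((⟨h, hh⟩ : H) ^ (p ^ a))).Coprime p := by
        have h1 : ((⟨h, hh⟩ : H) ^ (p ^ a)) ^ (P : Subgroup H).index = 1 := by
          rw [← pow_mul, ← ha, (P : Subgroup H).card_mul_index]
          exact pow_card_eq_one'
        have h2 := orderOf_dvd_of_pow_eq_one h1
        exact Nat.Coprime.coprime_dvd_left h2
          ((Nat.Prime.coprime_iff_not_dvd hp).mpr P.not_dvd_index).symm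
      have h3 := mem_centralizer_sylow_of_normal hnormalH P _ hcop'
      rw [hC, Subgroup.mem_centralizer_iff]
      intro r hr
      have hrS := hRS hr
      rw [hS, Subgroup.mem_map] at hrS
      obtain ⟨s₀, hs₀, rfl⟩ := hrS
      have h4 := Subgroup.mem_centralizer_iff.mp h3 s₀ hs₀
      have h5 := congrArg Subtype.val h4
      simpa using h5
    obtain ⟨c', hc'C, hc'eq⟩ := hpow (p ^ a)
    have hgp : g ^ (p ^ a) ∈ C := by rw [hc'eq]; exact C.mul_mem hc'C hx
    obtain ⟨m, hm⟩ := exists_pow_eq_self_of_coprime (x := g) (n := p ^ a)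
      (Nat.Coprime.pow_left a hcop.symm)
    rw [← hm]
    exact C.pow_mem hgp m
  obtain ⟨N, hNn, hNc⟩ := (Cfsg.Agent.S0071.result S).mpr hfrob
  haveI := hNn
  refine ⟨N, hNn, ?_, ?_⟩
  · intro g hcop
    have hidx : N.index = Nat.card (S : Subgroup G) := hNc.symm.index_eq_card
    obtain ⟨b, hb⟩ := IsPGroup.iff_card.mp S.isPGroup'
    have h1 : (QuotientGroup.mk' N g) ^ N.index = 1 := pow_card_eq_one' (G := G ⧸ N)
    rw [← map_pow, QuotientGroup.mk'_apply, QuotientGroup.eq_one_iff] at h1
    obtain ⟨m, hm⟩ := exists_pow_eq_self_of_coprime (x := g) (n := N.index)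
      (by rw [hidx, hb]; exact Nat.Coprime.pow_left b hcop.symm)
    rw [← hm]
    exact N.pow_mem h1 m
  · rw [← hNc.index_eq_card]
    exact ((Nat.Prime.coprime_iff_not_dvd hp).mpr S.not_dvd_index).symm

end Cfsg.Agent.S0558
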