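import Cfsg.Statements.S0559
import Mathlib

set_option autoImplicit false
open Cfsg

namespace Cfsg.Agent.S0559

open Pointwise

/-- Let G = HK be a finite group (every element a product of an element of H and an element of K), and let A and B be conjugates of H and K. Then every element is a product of an element of A and one of B, and there is g with A = gHg⁻¹ and B = gKg⁻¹ simultaneously. -/
theorem result {G : Type*} [Group G] [Finite G] (H K A B : Subgroup G) (hHK : ∀ g : G, ∃ h ∈ H, ∃ k ∈ K, g = h * k) (hA : ∃ x : G, A = MulAut.conj x • H) (hB : ∃ y : G, B = MulAut.conj y • K) : (∀ g : G, ∃ a ∈ A, ∃ b ∈ B, g = a * b) ∧ ∃ g : G, A = MulAut.conj g • H ∧ B = MulAut.conj g • K := by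
  obtain ⟨x, rfl⟩ := hA
  obtain ⟨y, rfl⟩ := hB
  obtain ⟨h, hh, k, hk, hxy⟩ := hHK (x⁻¹ * y)
  have e1 : MulAut.conj x • H = MulAut.conj (x * h) • H := by
    rw [map_mul, mul_smul, Subgroup.conj_smul_eq_self_of_mem hh]
  have e2 : MulAut.conj y • K = MulAut.conj (x * h) • K := by
    have : y = x * h * k := by
      rw [mul_assoc, ← hxy]; group
    rw [this, map_mul, mul_smul, Subgroup.conj_smul_eq_self_of_mem hk]
  refine ⟨?_, x * h, e1, e2⟩
  intro g'
  rw [e1, e2]
  set g := x * h with hg
  obtain ⟨h', hh', k', hk', he⟩ := hHK (g⁻¹ * g' * g)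
  refine ⟨g * h' * g⁻¹, ?_, g * k' * g⁻¹, ?_, ?_⟩
  · have := Subgroup.smul_mem_pointwise_smul h' (MulAut.conj g) H hh'
    simpa [MulAut.smul_def] using this
  · have := Subgroup.smul_mem_pointwise_smul k' (MulAut.conj g) K hk'
    simpa [MulAut.smul_def] using this
  · have : g * h' * g⁻¹ * (g * k' * g⁻¹) = g * (h' * k') * g⁻¹ := by group
    rw [this, ← he]; group

end Cfsg.Agent.S0559
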