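import Cfsg.Statements.S0560
import Mathlib
import Cfsg.Agent.Lib.helper3.ProdFormula
import Cfsg.Agent.Lib.helper3.Conj

set_option linter.style.haveILetI false

set_option autoImplicit false
open Pointwise
open Cfsg

namespace Cfsg.Agent.S0560

/-- Let the finite group G be the product HK of two subgroups and p a prime. Then there are Sylow p-subgroups P of H and Q of K and a Sylow p-subgroup R of G whose underlying set is the product set of P and Q. -/
theorem result {G : Type*} [Group G] [Finite G] (H K : Subgroup G) (hHK : ∀ g : G, ∃ h ∈ H, ∃ k ∈ K, g = h * k) (p : ℕ) [Fact p.Prime] : ∃ (P : Sylow p H) (Q : Sylow p K) (R : Sylow p G), ((R : Subgroup G) : Set G) = (((P : Subgroup H).map H.subtype : Subgroup G) : Set G) * (((Q : Subgroup K).map K.subtype : Subgroup G) : Set G) := by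
  classical
  obtain ⟨P₀⟩ := (inferInstance : Nonempty (Sylow p H))
  obtain ⟨Q₀⟩ := (inferInstance : Nonempty (Sylow p K))
  obtain ⟨R₀, hR₀⟩ := (P₀.isPGroup'.map H.subtype).exists_le_sylow
  obtain ⟨R₁, hR₁⟩ := (Q₀.isPGroup'.map K.subtype).exists_le_sylow
  obtain ⟨x, hx⟩ := MulAction.exists_smul_eq G R₀ R₁
  obtain ⟨h, hh, k, hk, hxhk⟩ := hHK x⁻¹
  have hxe : x = k⁻¹ * h⁻¹ := by
    rw [← inv_inv x, hxhk]; group
  let P : Sylow p H := (⟨h, hh⟩ : H)⁻¹ • P₀
  let Q : Sylow p K := (⟨k, hk⟩ : K) • Q₀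
  let R : Sylow p G := h⁻¹ • R₀
  have hPR : (P : Subgroup H).map H.subtype ≤ R := by
    rintro _ ⟨y, hy, rfl⟩
    have h1 : (⟨h, hh⟩ : H) * y * (⟨h, hh⟩ : H)⁻¹ ∈ P₀ := by
      rw [Cfsg.Agent.Lib.helper3.sylow_smul_mem_iff (rfl : (⟨h, hh⟩ : H)⁻¹ • P₀ = P)]
      have : (⟨h, hh⟩ : H)⁻¹ * ((⟨h, hh⟩ : H) * y * (⟨h, hh⟩ : H)⁻¹) * (⟨h, hh⟩ : H)⁻¹⁻¹ = y := by
        group
      rw [this]; exact hy
    have h2 : h * (y : G) * h⁻¹ ∈ R₀ := hR₀ ⟨_, h1, rfl⟩
    rw [Cfsg.Agent.Lib.helper3.sylow_smul_mem_iff (rfl : h⁻¹ • R₀ = R)] at h2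
    have : h⁻¹ * (h * (y : G) * h⁻¹) * h⁻¹⁻¹ = y := by group
    rw [this] at h2
    exact h2
  have hQR : (Q : Subgroup K).map K.subtype ≤ R := by
    rintro _ ⟨y, hy, rfl⟩
    have h1 : (⟨k, hk⟩ : K)⁻¹ * y * (⟨k, hk⟩ : K) ∈ Q₀ := by
      rw [Cfsg.Agent.Lib.helper3.sylow_smul_mem_iff (rfl : (⟨k, hk⟩ : K) • Q₀ = Q)]
      have : (⟨k, hk⟩ : K) * ((⟨k, hk⟩ : K)⁻¹ * y * (⟨k, hk⟩ : K)) * (⟨k, hk⟩ : K)⁻¹ = y := by
        group
      rw [this]; exact hy
    have h2 : k⁻¹ * (y : G) * k ∈ R₁ := hR₁ ⟨_, h1, rfl⟩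
    have h3 : h * (y : G) * h⁻¹ ∈ R₀ := by
      rw [Cfsg.Agent.Lib.helper3.sylow_smul_mem_iff hx]
      have : x * (h * (y : G) * h⁻¹) * x⁻¹ = k⁻¹ * (y : G) * k := by
        rw [hxe]; group
      rw [this]; exact h2
    rw [Cfsg.Agent.Lib.helper3.sylow_smul_mem_iff (rfl : h⁻¹ • R₀ = R)] at h3
    have : h⁻¹ * (h * (y : G) * h⁻¹) * h⁻¹⁻¹ = y := by group
    rw [this] at h3
    exact h3
  refine ⟨P, Q, R, ?_⟩
  set Pm : Subgroup G := (P : Subgroup H).map H.subtype with hPm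
  set Qm : Subgroup G := (Q : Subgroup K).map K.subtype with hQm
  have hsub : (Pm : Set G) * (Qm : Set G) ⊆ ((R : Subgroup G) : Set G) := by
    rintro _ ⟨a, ha, b, hb, rfl⟩; exact mul_mem (hPR ha) (hQR hb)
  symm
  apply Set.eq_of_subset_of_ncard_le hsub _ (Set.toFinite _)
  -- cardinalities
  have hp : p.Prime := Fact.out
  have cP : Nat.card Pm = p ^ (Nat.card H).factorization p := by
    rw [hPm, Subgroup.card_map_of_injective (Subgroup.subtype_injective _)]
    exact P.card_eq_multiplicity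
  have cQ : Nat.card Qm = p ^ (Nat.card K).factorization p := by
    rw [hQm, Subgroup.card_map_of_injective (Subgroup.subtype_injective _)]
    exact Q.card_eq_multiplicity
  have cR : Nat.card (R : Subgroup G) = p ^ (Nat.card G).factorization p := R.card_eq_multiplicity
  have hform := Cfsg.Agent.Lib.helper3.card_mul_card_inf_of_factorization H K hHK
  have hfac : (Nat.card G).factorization p + (Nat.card (H ⊓ K : Subgroup G)).factorization p
      = (Nat.card H).factorization p + (Nat.card K).factorization p := by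
    have := congrArg (fun n => n.factorization p) hform
    rw [Nat.factorization_mul Nat.card_pos.ne' Nat.card_pos.ne',
      Nat.factorization_mul Nat.card_pos.ne' Nat.card_pos.ne'] at this
    simpa using this
  have hform2 := Cfsg.Agent.Lib.helper3.card_setMul_mul_card_inf Pm Qm
  -- |Pm ⊓ Qm| ≤ p^(v_p |H ⊓ K|)
  have hd : Nat.card (Pm ⊓ Qm : Subgroup G) ≤ p ^ (Nat.card (H ⊓ K : Subgroup G)).factorization p := by
    have hle : Pm ⊓ Qm ≤ H ⊓ K := by
      apply inf_le_inf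
      · rintro _ ⟨y, -, rfl⟩; exact y.2
      · rintro _ ⟨y, -, rfl⟩; exact y.2
    have hpg : IsPGroup p (Pm ⊓ Qm : Subgroup G) :=
      (P.isPGroup'.map H.subtype).to_le inf_le_left
    obtain ⟨m, hm⟩ := IsPGroup.iff_card.mp hpg
    have hdvd : p ^ m ∣ Nat.card (H ⊓ K : Subgroup G) := by
      rw [← hm]; exact Subgroup.card_dvd_of_le hle
    rw [hm]
    exact Nat.pow_le_pow_right hp.pos
      ((hp.pow_dvd_iff_le_factorization Nat.card_pos.ne').mp hdvd)
  have hdpos : 0 < Nat.card (Pm ⊓ Qm : Subgroup G) := Nat.card_pos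
  rw [← Nat.card_coe_set_eq, ← Nat.card_coe_set_eq]
  change Nat.card (R : Subgroup G) ≤ _
  rw [cR]
  rw [cP, cQ, ← pow_add, ← hfac, pow_add] at hform2
  by_contra hlt
  push Not at hlt
  have h1 : Nat.card ↑((Pm : Set G) * (Qm : Set G)) * Nat.card (Pm ⊓ Qm : Subgroup G)
      < p ^ (Nat.card G).factorization p * p ^ (Nat.card (H ⊓ K : Subgroup G)).factorization p :=
    Nat.mul_lt_mul_of_lt_of_le hlt hd (pow_pos hp.pos _)
  exact absurd hform2 h1.ne

end Cfsg.Agent.S0560
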