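import Cfsg.Statements.S0561
import Mathlib
import Cfsg.Agent.Lib.helper1.Hall
import Cfsg.Agent.Lib.helper3.Conj
import Cfsg.Agent.Lib.helper3.ProdFormula

set_option linter.style.haveILetI false

set_option autoImplicit false
open Pointwise
open Cfsg

namespace Cfsg.Agent.S0561

open Pointwise

/-- Let the finite solvable group G be the product HK of subgroups, and let A be normal in H and B normal in K, where A and B are Hall subgroups of G (order coprime to index). Then for all x, y the product set of xAx⁻¹ and yBy⁻¹ is a subgroup of G. -/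
theorem result {G : Type*} [Group G] [Finite G] [Group.IsSolvable G] (H K A B : Subgroup G) (hHK : ∀ g : G, ∃ h ∈ H, ∃ k ∈ K, g = h * k) (hA : A ≤ H) (hAn : (A.subgroupOf H).Normal) (hB : B ≤ K) (hBn : (B.subgroupOf K).Normal) (hAh : (Nat.card A).Coprime A.index) (hBh : (Nat.card B).Coprime B.index) (x y : G) : ∃ S : Subgroup G, (S : Set G) = ((MulAut.conj x • A : Subgroup G) : Set G) * ((MulAut.conj y • B : Subgroup G) : Set G) := by
  classical
  -- numerics
  set a := Nat.card A with ha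
  set b := Nat.card B with hb
  have haN : a * A.index = Nat.card G := A.card_mul_index
  have hbN : b * B.index = Nat.card G := B.card_mul_index
  have hadvd : a ∣ Nat.card G := Dvd.intro _ haN
  have hbdvd : b ∣ Nat.card G := Dvd.intro _ hbN
  have hmdvd : Nat.lcm a b ∣ Nat.card G := Nat.lcm_dvd hadvd hbdvd
  obtain ⟨n, hn⟩ := hmdvd
  have hapos : 0 < a := Nat.card_pos
  have hbpos : 0 < b := Nat.card_pos
  have hnA : n ∣ A.index := by
    obtain ⟨c, hc⟩ := Nat.dvd_lcm_left a b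
    refine ⟨c, ?_⟩
    have : a * A.index = a * (n * c) := by rw [haN, hn, hc]; ring
    exact Nat.eq_of_mul_eq_mul_left hapos this
  have hnB : n ∣ B.index := by
    obtain ⟨c, hc⟩ := Nat.dvd_lcm_right a b
    refine ⟨c, ?_⟩
    have : b * B.index = b * (n * c) := by rw [hbN, hn, hc]; ring
    exact Nat.eq_of_mul_eq_mul_left hbpos this
  have han : a.Coprime n := Nat.Coprime.coprime_dvd_right hnA hAh
  have hbn : b.Coprime n := Nat.Coprime.coprime_dvd_right hnB hBh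
  have hmn : (Nat.lcm a b).Coprime n :=
    Nat.Coprime.coprime_dvd_left (Nat.lcm_dvd_mul a b) (Nat.Coprime.mul_left han hbn)
  have hcardsmul : ∀ (t : G) (U : Subgroup G),
      Nat.card (MulAut.conj t • U : Subgroup G) = Nat.card U := by
    intro t U
    rw [Subgroup.pointwise_smul_def]
    exact Subgroup.card_map_of_injective (MulAut.conj t).injective
  obtain ⟨M, hM⟩ := Cfsg.Agent.Lib.helper1.hall_exists (Nat.lcm a b) n hn hmn
  obtain ⟨g₁, hg₁⟩ := Cfsg.Agent.Lib.helper1.hall_dominance (Nat.lcm a b) n hn hmn M A hM han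
  have hM₁ : Nat.card (MulAut.conj g₁ • M : Subgroup G) = Nat.lcm a b := by
    rw [hcardsmul, hM]
  obtain ⟨g, hg⟩ := Cfsg.Agent.Lib.helper1.hall_dominance (Nat.lcm a b) n hn hmn
    (MulAut.conj g₁ • M) B hM₁ hbn
  set M₁ : Subgroup G := MulAut.conj g₁ • M with hM₁def
  -- normality facts
  have hAnorm : ∀ h ∈ H, ∀ z ∈ A, h * z * h⁻¹ ∈ A := by
    intro h hh z hz
    have := hAn.conj_mem ⟨z, hA hz⟩ (by rw [Subgroup.mem_subgroupOf]; exact hz) ⟨h, hh⟩
    rw [Subgroup.mem_subgroupOf] at this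
    simpa using this
  have hBnorm : ∀ k ∈ K, ∀ z ∈ B, k * z * k⁻¹ ∈ B := by
    intro k hk z hz
    have := hBn.conj_mem ⟨z, hB hz⟩ (by rw [Subgroup.mem_subgroupOf]; exact hz) ⟨k, hk⟩
    rw [Subgroup.mem_subgroupOf] at this
    simpa using this
  -- g = k h
  obtain ⟨h', hh', k', hk', hgi⟩ := hHK g⁻¹
  have hge : g = k'⁻¹ * h'⁻¹ := by rw [← inv_inv g, hgi]; group
  set h := h'⁻¹ with hh
  set k := k'⁻¹ with hk
  have hhH : h ∈ H := H.inv_mem hh'
  have hkK : k ∈ K := K.inv_mem hk'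
  set M' : Subgroup G := MulAut.conj h • M₁ with hM'def
  have hM'card : Nat.card M' = Nat.lcm a b := by
    rw [hM'def, hcardsmul, hM₁]
  have hAM' : A ≤ M' := by
    intro z hz
    rw [hM'def, Cfsg.Agent.Lib.helper3.mem_conj_smul]
    apply hg₁
    have := hAnorm h⁻¹ (H.inv_mem hhH) z hz
    simpa using this
  have hBM' : B ≤ M' := by
    intro z hz
    rw [hM'def, Cfsg.Agent.Lib.helper3.mem_conj_smul]
    have h1 : k * z * k⁻¹ ∈ B := hBnorm k hkK z hz
    have h2 := hg h1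
    rw [Cfsg.Agent.Lib.helper3.mem_conj_smul, hge] at h2
    have h3 : (k * h)⁻¹ * (k * z * k⁻¹) * (k * h) = h⁻¹ * z * h := by group
    rw [h3] at h2
    exact h2
  -- M' = A * B as sets
  have hsub : (A : Set G) * (B : Set G) ⊆ (M' : Set G) := by
    rintro _ ⟨u, hu, v, hv, rfl⟩
    exact M'.mul_mem (hAM' hu) (hBM' hv)
  have hAB : (M' : Set G) = (A : Set G) * (B : Set G) := by
    symm
    apply Set.eq_of_subset_of_ncard_le hsub _ (Set.toFinite _)
    rw [← Nat.card_coe_set_eq, ← Nat.card_coe_set_eq]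
    change Nat.card M' ≤ _
    rw [hM'card]
    have hform := Cfsg.Agent.Lib.helper3.card_setMul_mul_card_inf A B
    have hinf : Nat.card (A ⊓ B : Subgroup G) ∣ Nat.gcd a b :=
      Nat.dvd_gcd (Subgroup.card_dvd_of_le inf_le_left) (Subgroup.card_dvd_of_le inf_le_right)
    have hinfle : Nat.card (A ⊓ B : Subgroup G) ≤ Nat.gcd a b :=
      Nat.le_of_dvd (Nat.gcd_pos_of_pos_left _ hapos) hinf
    have hgl : Nat.gcd a b * Nat.lcm a b = a * b := Nat.gcd_mul_lcm a b
    by_contra hlt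
    push Not at hlt
    have h1 : Nat.card ↑((A : Set G) * (B : Set G)) * Nat.card (A ⊓ B : Subgroup G)
        < Nat.lcm a b * Nat.gcd a b :=
      Nat.mul_lt_mul_of_lt_of_le hlt hinfle (Nat.gcd_pos_of_pos_left _ hapos)
    rw [hform, mul_comm (Nat.lcm a b), hgl] at h1
    exact lt_irrefl _ h1
  -- reduce x, y to a common conjugator
  obtain ⟨h₂, hh₂, k₂, hk₂, hxy⟩ := hHK (x⁻¹ * y)
  -- x⁻¹ y = h₂ k₂, so x h₂ = y k₂⁻¹
  set g₀ : G := x * h₂ with hg₀
  have hg₀' : g₀ = y * k₂⁻¹ := by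
    rw [hg₀]
    have : y = x * (x⁻¹ * y) := by group
    rw [this, hxy]; group
  have hAx : (MulAut.conj x • A : Subgroup G) = MulAut.conj g₀ • A := by
    ext z
    rw [Cfsg.Agent.Lib.helper3.mem_conj_smul, Cfsg.Agent.Lib.helper3.mem_conj_smul, hg₀]
    constructor
    · intro hz
      have := hAnorm h₂⁻¹ (H.inv_mem hh₂) _ hz
      have e : h₂⁻¹ * (x⁻¹ * z * x) * h₂⁻¹⁻¹ = (x * h₂)⁻¹ * z * (x * h₂) := by group
      rw [e] at this; exact this
    · intro hz
      have := hAnorm h₂ hh₂ _ hz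
      have e : h₂ * ((x * h₂)⁻¹ * z * (x * h₂)) * h₂⁻¹ = x⁻¹ * z * x := by group
      rw [e] at this; exact this
  have hBy : (MulAut.conj y • B : Subgroup G) = MulAut.conj g₀ • B := by
    ext z
    rw [Cfsg.Agent.Lib.helper3.mem_conj_smul, Cfsg.Agent.Lib.helper3.mem_conj_smul, hg₀']
    constructor
    · intro hz
      have := hBnorm k₂ hk₂ _ hz
      have e : k₂ * (y⁻¹ * z * y) * k₂⁻¹ = (y * k₂⁻¹)⁻¹ * z * (y * k₂⁻¹) := by group
      rw [e] at this; exact this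
    · intro hz
      have := hBnorm k₂⁻¹ (K.inv_mem hk₂) _ hz
      have e : k₂⁻¹ * ((y * k₂⁻¹)⁻¹ * z * (y * k₂⁻¹)) * k₂⁻¹⁻¹ = y⁻¹ * z * y := by group
      rw [e] at this; exact this
  refine ⟨MulAut.conj g₀ • M', ?_⟩
  rw [hAx, hBy]
  ext z
  constructor
  · intro hz
    have hz' : g₀⁻¹ * z * g₀ ∈ (M' : Set G) := Cfsg.Agent.Lib.helper3.mem_conj_smul.mp hz
    rw [hAB] at hz'
    obtain ⟨u, hu, v, hv, huv⟩ := hz'
    refine ⟨g₀ * u * g₀⁻¹, ?_, g₀ * v * g₀⁻¹, ?_, ?_⟩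
    · exact Cfsg.Agent.Lib.helper3.conj_mem_conj_smul.mpr hu
    · exact Cfsg.Agent.Lib.helper3.conj_mem_conj_smul.mpr hv
    · have e : g₀ * u * g₀⁻¹ * (g₀ * v * g₀⁻¹) = g₀ * (u * v) * g₀⁻¹ := by group
      show g₀ * u * g₀⁻¹ * (g₀ * v * g₀⁻¹) = z
      have huv' : u * v = g₀⁻¹ * z * g₀ := huv
      rw [e, huv']; group
  · rintro ⟨u, hu, v, hv, rfl⟩
    have hu' : g₀⁻¹ * u * g₀ ∈ A := Cfsg.Agent.Lib.helper3.mem_conj_smul.mp hu
    have hv' : g₀⁻¹ * v * g₀ ∈ B := Cfsg.Agent.Lib.helper3.mem_conj_smul.mp hv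
    apply Cfsg.Agent.Lib.helper3.mem_conj_smul.mpr
    have e : g₀⁻¹ * (u * v) * g₀ = (g₀⁻¹ * u * g₀) * (g₀⁻¹ * v * g₀) := by group
    show g₀⁻¹ * (u * v) * g₀ ∈ M'
    rw [e]
    exact M'.mul_mem (hAM' hu') (hBM' hv')

end Cfsg.Agent.S0561
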