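import Cfsg.Statements.S0562
import Mathlib

set_option autoImplicit false
open Cfsg

namespace Cfsg.Agent.S0562

/-- Let the finite group G be the product HK of subgroups, A normal in H, B normal in K, and L the normalizer of the subgroup generated by A and B. Then every element of L is a product of an element of L ∩ H and an element of L ∩ K. -/
theorem result {G : Type*} [Group G] [Finite G] (H K A B : Subgroup G) (hHK : ∀ g : G, ∃ h ∈ H, ∃ k ∈ K, g = h * k) (hA : A ≤ H) (hAn : (A.subgroupOf H).Normal) (hB : B ≤ K) (hBn : (B.subgroupOf K).Normal) : ∀ g ∈ Subgroup.normalizer ((A ⊔ B : Subgroup G) : Set G), ∃ h ∈ Subgroup.normalizer ((A ⊔ B : Subgroup G) : Set G) ⊓ H, ∃ k ∈ Subgroup.normalizer ((A ⊔ B : Subgroup G) : Set G) ⊓ K, g = h * k := by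
  intro g hg
  obtain ⟨h, hh, k, hk, rfl⟩ := hHK g
  have hAN : H ≤ Subgroup.normalizer (A : Set G) :=
    (Subgroup.normal_subgroupOf_iff_le_normalizer hA).mp hAn
  have hBN : K ≤ Subgroup.normalizer (B : Set G) :=
    (Subgroup.normal_subgroupOf_iff_le_normalizer hB).mp hBn
  have hkB : B.map (MulAut.conj k : G →* G) = B :=
    Subgroup.mem_normalizer_iff_map_conj_eq.mp (hBN hk)
  have hhA : A.map (MulAut.conj h⁻¹ : G →* G) = A :=
    Subgroup.mem_normalizer_iff_map_conj_eq.mp (hAN (H.inv_mem hh))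
  have hJ : (A ⊔ B).map (MulAut.conj (h * k) : G →* G) = A ⊔ B :=
    Subgroup.mem_normalizer_iff_map_conj_eq.mp hg
  have e1 : (A ⊔ B).map (MulAut.conj k : G →* G) = (A ⊔ B).map (MulAut.conj h⁻¹ : G →* G) := by
    have h1 : ((A ⊔ B).map (MulAut.conj k : G →* G)).map (MulAut.conj h : G →* G) = A ⊔ B := by
      rw [Subgroup.map_map]
      have : (MulAut.conj h : G →* G).comp (MulAut.conj k : G →* G) = (MulAut.conj (h * k) : G →* G) := by
        ext x; simp [mul_assoc]
      rw [this]; exact hJ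
    have h2 : (((A ⊔ B).map (MulAut.conj k : G →* G)).map (MulAut.conj h : G →* G)).map
        (MulAut.conj h⁻¹ : G →* G) = (A ⊔ B).map (MulAut.conj k : G →* G) := by
      rw [Subgroup.map_map]
      have : (MulAut.conj h⁻¹ : G →* G).comp (MulAut.conj h : G →* G) = MonoidHom.id G := by
        ext x; simp [mul_assoc]
      rw [this, Subgroup.map_id]
    rw [← h2, h1]
  have e2 : (A ⊔ B).map (MulAut.conj k : G →* G) = A.map (MulAut.conj k : G →* G) ⊔ B := by
    rw [Subgroup.map_sup, hkB]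
  have e3 : (A ⊔ B).map (MulAut.conj h⁻¹ : G →* G) = A ⊔ B.map (MulAut.conj h⁻¹ : G →* G) := by
    rw [Subgroup.map_sup, hhA]
  have hle : A ⊔ B ≤ (A ⊔ B).map (MulAut.conj k : G →* G) := by
    apply sup_le
    · rw [e1, e3]; exact le_sup_left
    · rw [e2]; exact le_sup_right
  have hcard : Nat.card ((A ⊔ B).map (MulAut.conj k : G →* G)) = Nat.card (A ⊔ B : Subgroup G) :=
    Subgroup.card_map_of_injective (MulAut.conj k).injective
  have heq : A ⊔ B = (A ⊔ B).map (MulAut.conj k : G →* G) :=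
    Subgroup.eq_of_le_of_card_ge hle (le_of_eq hcard)
  have hkN : k ∈ Subgroup.normalizer ((A ⊔ B : Subgroup G) : Set G) :=
    Subgroup.mem_normalizer_iff_map_conj_eq.mpr heq.symm
  have hhN : h⁻¹ ∈ Subgroup.normalizer ((A ⊔ B : Subgroup G) : Set G) :=
    Subgroup.mem_normalizer_iff_map_conj_eq.mpr (by rw [← e1]; exact heq.symm)
  refine ⟨h, ⟨?_, hh⟩, k, ⟨hkN, hk⟩, rfl⟩
  have := inv_mem hhN
  simpa using this

end Cfsg.Agent.S0562
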