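import Mathlib
import Cfsg.Statements.S0567
import Cfsg.Agent.Lib.helper3.Normalizer

set_option autoImplicit false
set_option linter.style.haveILetI false
open Cfsg

namespace Cfsg.Agent.S0567

open Cfsg.Agent.Lib.helper3
open scoped commutatorElement

universe u

variable {G : Type u} [Group G]

/-- The iterated commutator `[G, H, ..., H]`. -/
def gam (H : Subgroup G) (m : ℕ) : Subgroup G := (fun K : Subgroup G => ⁅K, H⁆)^[m] ⊤

theorem gam_zero (H : Subgroup G) : gam H 0 = ⊤ := rfl

theorem gam_succ (H : Subgroup G) (m : ℕ) : gam H (m + 1) = ⁅gam H m, H⁆ := by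
  unfold gam; rw [Function.iterate_succ_apply']

theorem gam_mono {H K : Subgroup G} (h : H ≤ K) (m : ℕ) : gam H m ≤ gam K m := by
  induction m with
  | zero => exact le_rfl
  | succ m ih => rw [gam_succ, gam_succ]; exact Subgroup.commutator_mono ih h

theorem forward (H : Subgroup G) (hH : H.IsSubnormal) : ∃ m, gam H m ≤ H := by
  induction hH with
  | top => exact ⟨0, le_top⟩
  | step H K hle hK hN ih =>
    obtain ⟨m, hm⟩ := ih
    refine ⟨m + 1, ?_⟩
    rw [gam_succ, Subgroup.commutator_le]
    intro x hx h hh
    have hxK : x ∈ K := hm (gam_mono hle m hx)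
    rw [Subgroup.normal_subgroupOf_iff_le_normalizer hle] at hN
    have := (Subgroup.mem_normalizer_iff.mp (hN hxK) h).mp hh
    rw [commutatorElement_def]
    exact mul_mem this (inv_mem hh)

theorem gam_conj (H : Subgroup G) (m : ℕ) :
    ∀ h ∈ H, ∀ x ∈ gam H m, h * x * h⁻¹ ∈ gam H m := by
  induction m with
  | zero => intro h _ x _; exact Subgroup.mem_top _
  | succ m ih =>
    intro h hh
    rw [gam_succ]
    exact conj_commutator_mem (ih h hh) (fun b hb => mul_mem (mul_mem hh hb) (inv_mem hh))

theorem gam_succ_le (H : Subgroup G) (m : ℕ) : gam H (m + 1) ≤ gam H m := by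
  rw [gam_succ, Subgroup.commutator_le]
  intro x hx h hh
  have : ⁅x, h⁆ = x * (h * x⁻¹ * h⁻¹) := by simp only [commutatorElement_def]; group
  rw [this]
  exact mul_mem hx (gam_conj H m h hh _ (inv_mem hx))

theorem backward (H : Subgroup G) (m : ℕ) : (H ⊔ gam H m).IsSubnormal := by
  induction m with
  | zero => rw [gam_zero, sup_top_eq]; exact Subgroup.IsSubnormal.top
  | succ m ih =>
    have hle : H ⊔ gam H (m + 1) ≤ H ⊔ gam H m := sup_le_sup_left (gam_succ_le H m) H
    refine Subgroup.IsSubnormal.step _ _ hle ih ?_
    apply Subgroup.normal_subgroupOf_of_le_normalizer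
    apply sup_le
    · apply le_normalizer_of_conj_mem
      intro g hg a ha
      have hle2 : H ⊔ gam H (m + 1) ≤
          (H ⊔ gam H (m + 1)).comap (MulAut.conj g).toMonoidHom := by
        apply sup_le
        · intro b hb
          show g * b * g⁻¹ ∈ H ⊔ gam H (m + 1)
          exact Subgroup.mem_sup_left (mul_mem (mul_mem hg hb) (inv_mem hg))
        · intro b hb
          show g * b * g⁻¹ ∈ H ⊔ gam H (m + 1)
          exact Subgroup.mem_sup_right (gam_conj H (m + 1) g hg b hb)
      exact hle2 ha
    · apply le_normalizer_of_conj_mem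
      intro g hg a ha
      have hle2 : H ⊔ gam H (m + 1) ≤
          (H ⊔ gam H (m + 1)).comap (MulAut.conj g).toMonoidHom := by
        apply sup_le
        · intro b hb
          show g * b * g⁻¹ ∈ H ⊔ gam H (m + 1)
          have : g * b * g⁻¹ = ⁅g, b⁆ * b := by simp only [commutatorElement_def]; group
          rw [this]
          apply mul_mem
          · apply Subgroup.mem_sup_right; rw [gam_succ]
            exact Subgroup.commutator_mem_commutator hg hb
          · exact Subgroup.mem_sup_left hb
        · intro b hb
          show g * b * g⁻¹ ∈ H ⊔ gam H (m + 1)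
          apply Subgroup.mem_sup_right
          rw [gam_succ] at hb ⊢
          exact conj_commutator_mem_left hg b hb
      exact hle2 ha

/-- A subgroup H of a group G is subnormal exactly when, for some m, the subgroup obtained from G by taking the commutator with H m times in succession is contained in H. -/
theorem result {G : Type*} [Group G] (H : Subgroup G) : H.IsSubnormal ↔ ∃ m : ℕ, (fun K : Subgroup G => ⁅K, H⁆)^[m] ⊤ ≤ H := by
  constructor
  · intro h; exact forward H h
  · rintro ⟨m, hm⟩
    have hm' : gam H m ≤ H := hm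
    have := backward H m
    rwa [sup_eq_left.mpr hm'] at this

end Cfsg.Agent.S0567
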