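import Cfsg.Statements.S0573
import Mathlib
import Cfsg.Agent.Lib.helper3.ItoNormal
import Cfsg.Agent.S0572

set_option linter.style.haveILetI false

set_option autoImplicit false
open Cfsg

namespace Cfsg.Agent.S0573

/-- If a nontrivial finite group G is the product AB of abelian subgroups A and B, then some nontrivial normal subgroup of G is contained in A or in B. -/
theorem result {G : Type*} [Group G] [Finite G] [Nontrivial G] (A B : Subgroup G) [IsMulCommutative A] [IsMulCommutative B] (hAB : ∀ g : G, ∃ a ∈ A, ∃ b ∈ B, g = a * b) : ∃ N : Subgroup G, N.Normal ∧ N ≠ ⊥ ∧ (N ≤ A ∨ N ≤ B) := by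
  have hA : ∀ x ∈ A, ∀ y ∈ A, x * y = y * x := fun x hx y hy => setLike_mul_comm hx hy
  have hB : ∀ x ∈ B, ∀ y ∈ B, x * y = y * x := fun x hx y hy => setLike_mul_comm hx hy
  have h2 : derivedSeries G 2 = ⊥ := Cfsg.Agent.S0572.result A B hAB
  have h3 : ⁅commutator G, commutator G⁆ = ⊥ := by
    rw [← derivedSeries_one]; exact h2
  rw [Subgroup.commutator_eq_bot_iff_le_centralizer] at h3
  have hM : ∀ x ∈ commutator G, ∀ y ∈ commutator G, x * y = y * x := by
    intro x hx y hy
    exact (Subgroup.mem_centralizer_iff.mp (h3 hy) x hx)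
  exact Cfsg.Agent.Lib.helper3.ito_normal_aux A B hA hB hAB hM

end Cfsg.Agent.S0573
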