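import Cfsg.Statements.S0575
import Mathlib

set_option autoImplicit false
open Cfsg

namespace Cfsg.Agent.S0575

open Pointwise

/-- If H is a normal subgroup of a finite group G, then the Frattini subgroup of H, viewed in G, lies in the Frattini subgroup of G. -/
theorem result {G : Type*} [Group G] [Finite G] (H : Subgroup G) [H.Normal] : (frattini ↥H).map H.subtype ≤ frattini G := by
  have hFn : ((frattini ↥H).map H.subtype).Normal := inferInstance
  have hFH : (frattini ↥H).map H.subtype ≤ H := by
    rintro _ ⟨x, -, rfl⟩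
    exact x.2
  unfold frattini Order.radical
  rw [le_iInf₂_iff]
  intro M hM
  by_contra hle
  have hM' : IsCoatom M := hM
  have htop : M ⊔ (frattini ↥H).map H.subtype = ⊤ := by
    apply hM'.2
    apply lt_of_le_of_ne le_sup_left
    intro h
    apply hle
    rw [h]
    exact le_sup_right
  have hK : M.subgroupOf H ⊔ frattini ↥H = ⊤ := by
    rw [eq_top_iff]
    intro x _
    have hx : (x : G) ∈ ((M ⊔ (frattini ↥H).map H.subtype : Subgroup G) : Set G) := by
      rw [htop]; trivial
    rw [Subgroup.mul_normal] at hx
    obtain ⟨m, hm, f, hf, hmf⟩ := Set.mem_mul.mp hx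
    obtain ⟨f', hf', rfl⟩ := hf
    have hmH : m ∈ H := by
      have : m = (x : G) * ((f' : H) : G)⁻¹ := by rw [← hmf]; simp
      rw [this]
      exact H.mul_mem x.2 (H.inv_mem f'.2)
    have hx' : x = (⟨m, hmH⟩ : H) * f' := by
      apply Subtype.ext
      exact hmf.symm
    rw [hx']
    exact Subgroup.mul_mem_sup (Subgroup.mem_subgroupOf.mpr hm) hf'
  have h1 : M.subgroupOf H = ⊤ := frattini_nongenerating hK
  have h2 : H ≤ M := Subgroup.subgroupOf_eq_top.mp h1
  exact hle (hFH.trans h2)

end Cfsg.Agent.S0575
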