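import Mathlib
import Cfsg.Statements.S0576

set_option autoImplicit false
set_option linter.style.haveILetI false
open Cfsg

namespace Cfsg.Agent.S0576

universe u

theorem le_frattini_iff {G : Type u} [Group G] (K : Subgroup G) :
    K ≤ frattini G ↔ ∀ M : Subgroup G, IsCoatom M → K ≤ M := by
  constructor
  · intro h M hM
    exact h.trans (frattini_le_coatom hM)
  · intro h
    unfold frattini Order.radical
    exact le_iInf₂ fun M hM => h M hM

/-- Let H be a normal subgroup of a finite group G with H contained in the Frattini subgroup of G. Then the group of inner automorphisms of H is contained in the Frattini subgroup of the automorphism group of H. -/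
theorem result {G : Type*} [Group G] [Finite G] (H : Subgroup G) [H.Normal] (hH : H ≤ frattini G) : (MulAut.conj : ↥H →* MulAut ↥H).range ≤ frattini (MulAut ↥H) := by
  rw [le_frattini_iff]
  intro M hM
  by_contra hnle
  set φ : G →* MulAut H := MulAut.conjNormal with hφ
  haveI hInn : (MulAut.conj : ↥H →* MulAut ↥H).range.Normal := by
    constructor
    rintro _ ⟨h, rfl⟩ α
    refine ⟨α h, ?_⟩
    ext x
    simp [MulAut.conj_apply]
  have hsup : (MulAut.conj : ↥H →* MulAut ↥H).range ⊔ M = ⊤ := by
    by_contra hne
    have hlt : M < (MulAut.conj : ↥H →* MulAut ↥H).range ⊔ M := by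
      refine lt_of_le_of_ne le_sup_right ?_
      intro heq
      exact hnle (heq ▸ le_sup_left)
    exact hne (hM.2 _ hlt)
  have hL : M.comap φ = ⊤ := by
    apply frattini_nongenerating
    rw [eq_top_iff]
    intro g _
    have hg : φ g ∈ ((MulAut.conj : ↥H →* MulAut ↥H).range ⊔ M : Subgroup (MulAut H)) := by
      rw [hsup]; trivial
    rw [← SetLike.mem_coe, Subgroup.normal_mul, Set.mem_mul] at hg
    obtain ⟨i, ⟨h, rfl⟩, m, hm, heq⟩ := hg
    have h1 : φ (h : G) = MulAut.conj h := MulAut.conjNormal_val
    have h2 : (h : G)⁻¹ * g ∈ M.comap φ := by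
      rw [Subgroup.mem_comap, map_mul, map_inv, h1, ← heq]; simpa using hm
    have h3 : g = (h : G) * ((h : G)⁻¹ * g) := by group
    rw [h3]
    exact mul_mem (Subgroup.mem_sup_right (hH h.2)) (Subgroup.mem_sup_left h2)
  apply hnle
  rintro _ ⟨h, rfl⟩
  have h4 : (h : G) ∈ M.comap φ := by rw [hL]; trivial
  rw [Subgroup.mem_comap] at h4
  rwa [show φ (h : G) = MulAut.conj h from MulAut.conjNormal_val] at h4

end Cfsg.Agent.S0576
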