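import Mathlib
import Cfsg.Statements.S0577
import Cfsg.Agent.Lib.helper3.SchmidtD
import Cfsg.Agent.Lib.helper3.Conj

set_option autoImplicit false
set_option linter.style.haveILetI false
open Cfsg

namespace Cfsg.Agent.S0577

open Cfsg.Agent.Lib.helper3
open scoped commutatorElement

/-- Let G be a finite minimal non-nilpotent group and Q a normal Sylow q-subgroup of G, and let D be the commutator subgroup of Q regarded in G (a normal subgroup). Then G modulo D is non-abelian and all its proper subgroups are abelian. -/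
theorem result {G : Type*} [Group G] [Finite G] (hG : Cfsg.IsMinimalNonNilpotent G) (q : ℕ) [Fact q.Prime] (hq : q ∣ Nat.card G) (Q : Sylow q G) (hQ : (Q : Subgroup G).Normal) (D : Subgroup G) [D.Normal] (hD : D = (commutator ↥(Q : Subgroup G)).map (Q : Subgroup G).subtype) : ¬ IsMulCommutative (G ⧸ D) ∧ ∀ K : Subgroup (G ⧸ D), K ≠ ⊤ → IsMulCommutative K := by
  obtain ⟨hnn, hprop⟩ := hG
  have hprop' : PropNil G := hprop
  obtain ⟨p, q', hp, hq', hpq, P, Q', hPc, hQ'n, hPQ'⟩ := schmidt_structure hnn hprop'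
  haveI : Fact p.Prime := ⟨hp⟩
  haveI : Fact q'.Prime := ⟨hq'⟩
  haveI := hQ'n
  have hPnn : ¬ (P : Subgroup G).Normal := fun hPn =>
    hnn (nilpotent_of_two_normal_sylow hpq P Q' hPn hQ'n hPQ')
  have hqq : q = q' := by
    by_contra hne
    have hcardG := card_eq_of_sylow_sup hpq P Q' hPQ'
    have hdv : q ∣ Nat.card P * Nat.card Q' := hcardG ▸ hq
    rw [P.card_eq_multiplicity, Q'.card_eq_multiplicity] at hdv
    have hqprime : q.Prime := Fact.out
    rcases (Nat.Prime.dvd_mul hqprime).mp hdv with h1 | h1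
    · have h2 := (Nat.prime_dvd_prime_iff_eq hqprime hp).mp (Nat.Prime.dvd_of_dvd_pow hqprime h1)
      subst h2
      exact hPnn (all_sylow_normal_of_normal Q hQ P)
    · exact hne ((Nat.prime_dvd_prime_iff_eq hqprime hq').mp
        (Nat.Prime.dvd_of_dvd_pow hqprime h1))
  subst hqq
  have hQQ' : Q' = Q := by
    haveI := Sylow.unique_of_normal Q hQ; exact Subsingleton.elim _ _
  subst hQQ'
  have hDeq : D = ⁅(Q' : Subgroup G), (Q' : Subgroup G)⁆ := by
    rw [hD, commutator_def, Subgroup.map_commutator, ← MonoidHom.range_eq_map,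
      Subgroup.range_subtype]
  have hDQ : D ≤ Q' := by rw [hDeq]; exact Subgroup.commutator_le_right _ _
  have hcardG := card_eq_of_sylow_sup hpq P Q' hPQ'
  have hPab : ∀ a ∈ (P : Subgroup G), ∀ b ∈ (P : Subgroup G), a * b = b * a := by
    intro a ha b hb
    letI : CommGroup (P : Subgroup G) := hPc.commGroup
    have := mul_comm (⟨a, ha⟩ : (P : Subgroup G)) ⟨b, hb⟩
    exact congrArg Subtype.val this
  have star : ∀ (r : ℕ) [Fact r.Prime] (R : Sylow r G), ∀ x ∈ (R : Subgroup G),
      ∀ y ∈ (R : Subgroup G), ⁅x, y⁆ ∈ D := by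
    intro r _ R x hx y hy
    by_cases hrq : r = q
    · subst hrq
      have hRQ : R = Q' := by
        haveI := Sylow.unique_of_normal Q' hQ; exact Subsingleton.elim _ _
      subst hRQ
      rw [hDeq]; exact Subgroup.commutator_mem_commutator hx hy
    by_cases hrp : r = p
    · subst hrp
      obtain ⟨g, hg⟩ := MulAction.exists_smul_eq G P R
      have hx' : g⁻¹ * x * g ∈ (P : Subgroup G) := by
        have e : g * (g⁻¹ * x * g) * g⁻¹ = x := by group
        exact (sylow_smul_mem_iff hg).mpr (by rw [e]; exact hx)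
      have hy' : g⁻¹ * y * g ∈ (P : Subgroup G) := by
        have e : g * (g⁻¹ * y * g) * g⁻¹ = y := by group
        exact (sylow_smul_mem_iff hg).mpr (by rw [e]; exact hy)
      have hc := hPab _ hx' _ hy'
      have hxy : x * y = y * x := by
        calc x * y = g * ((g⁻¹ * x * g) * (g⁻¹ * y * g)) * g⁻¹ := by group
          _ = g * ((g⁻¹ * y * g) * (g⁻¹ * x * g)) * g⁻¹ := by rw [hc]
          _ = y * x := by group
      rw [commutatorElement_eq_one_iff_mul_comm.mpr hxy]; exact one_mem _
    · have hRb := sylow_eq_bot_of_ne hpq P Q' hPQ' hrp hrq R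
      rw [hRb, Subgroup.mem_bot] at hx
      rw [hx]; simp
  constructor
  · intro hc
    have hcomm : ∀ a b : G, ⁅a, b⁆ ∈ D := by
      intro a b
      have h1 : (QuotientGroup.mk' D) ⁅a, b⁆ = 1 := by
        rw [map_commutatorElement, commutatorElement_eq_one_iff_mul_comm]
        exact mul_comm' _ _
      exact (QuotientGroup.eq_one_iff _).mp h1
    have hHn : ((P : Subgroup G) ⊔ D).Normal := by
      constructor
      intro x hx g
      have e : g * x * g⁻¹ = ⁅g, x⁆ * x := by simp [commutatorElement_def]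
      rw [e]
      exact mul_mem (Subgroup.mem_sup_right (hcomm g x)) hx
    have hHne : (P : Subgroup G) ⊔ D ≠ ⊤ := by
      intro ht
      have h3 := card_sup_mul_card_inf_of_normal (P : Subgroup G) D
      rw [ht, Subgroup.card_top] at h3
      have h4 : Nat.card Q' ≤ Nat.card D := by
        have hPpos := Nat.card_pos (α := (P : Subgroup G))
        have hIpos := Nat.card_pos (α := ((P : Subgroup G) ⊓ D : Subgroup G))
        have h5 : Nat.card P * Nat.card Q' ≤ Nat.card P * Nat.card D := by
          rw [hcardG, ← h3]; exact Nat.le_mul_of_pos_right _ hIpos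
        exact Nat.le_of_mul_le_mul_left h5 hPpos
      have hDQeq : D = Q' := Subgroup.eq_of_le_of_card_ge hDQ h4
      -- commutator of Q is everything
      have hQnt : Nontrivial (Q' : Subgroup G) := by
        rw [Subgroup.nontrivial_iff_ne_bot]
        intro hb
        have h6 := Q'.card_eq_multiplicity
        rw [hb, Subgroup.card_bot] at h6
        have hqprime : q.Prime := Fact.out
        have hf : 0 < (Nat.card G).factorization q :=
          hqprime.factorization_pos_of_dvd Nat.card_pos.ne' hq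
        have : 1 < q ^ (Nat.card G).factorization q := Nat.one_lt_pow hf.ne' hqprime.one_lt
        omega
      haveI : Group.IsNilpotent (Q' : Subgroup G) := Q'.isPGroup'.isNilpotent
      have hlt : commutator (Q' : Subgroup G) < ⊤ :=
        Group.IsSolvable.commutator_lt_top_of_nontrivial _
      apply hlt.ne
      apply Subgroup.map_injective (Q' : Subgroup G).subtype_injective
      rw [← hD, hDQeq, ← MonoidHom.range_eq_map, Subgroup.range_subtype]
    haveI := hprop _ hHne
    have hPH : (P : Subgroup G) ≤ (P : Subgroup G) ⊔ D := le_sup_left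
    have hn : ((P.subtype hPH : Sylow p ((P : Subgroup G) ⊔ D : Subgroup G)) :
        Subgroup ((P : Subgroup G) ⊔ D : Subgroup G)).Normal := inferInstance
    rw [Sylow.coe_subtype] at hn
    have hle : (P : Subgroup G) ⊔ D ≤ Subgroup.normalizer (P : Set G) :=
      (Subgroup.normal_subgroupOf_iff_le_normalizer hPH).mp hn
    haveI := hHn
    have hfr := Sylow.normalizer_sup_eq_top' P hPH
    apply hPnn
    rw [← Subgroup.normalizer_eq_top_iff, ← hfr]
    exact (sup_eq_left.mpr hle).symm
  · intro K hK
    haveI : Group.IsNilpotent K := (hprop'.quotient D) K hK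
    have key := comm_of_nilpotent_of_sylow_comm (G := K) ?_
    · exact ⟨⟨key⟩⟩
    intro r _ S u hu v hv
    have hX : IsPGroup r ((S : Subgroup K).map K.subtype) := S.isPGroup'.map _
    obtain ⟨Rb, hRb⟩ := hX.exists_le_sylow
    obtain ⟨R, hR⟩ := Sylow.mapSurjective_surjective (QuotientGroup.mk'_surjective D) r Rb
    have huR : (u : G ⧸ D) ∈ (R : Subgroup G).map (QuotientGroup.mk' D) := by
      have h1 : (u : G ⧸ D) ∈ (Rb : Subgroup (G ⧸ D)) := hRb ⟨u, hu, rfl⟩
      rw [← hR, Sylow.coe_mapSurjective] at h1; exact h1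
    have hvR : (v : G ⧸ D) ∈ (R : Subgroup G).map (QuotientGroup.mk' D) := by
      have h1 : (v : G ⧸ D) ∈ (Rb : Subgroup (G ⧸ D)) := hRb ⟨v, hv, rfl⟩
      rw [← hR, Sylow.coe_mapSurjective] at h1; exact h1
    obtain ⟨x, hx, hxu⟩ := huR
    obtain ⟨y, hy, hyv⟩ := hvR
    have hxy := star r R y⁻¹ (inv_mem hy) x⁻¹ (inv_mem hx)
    apply Subtype.ext
    show (u : G ⧸ D) * v = v * u
    rw [← hxu, ← hyv, ← map_mul, ← map_mul]
    show ((x * y : G) : G ⧸ D) = ((y * x : G) : G ⧸ D)
    rw [QuotientGroup.eq]
    have e : (x * y)⁻¹ * (y * x) = ⁅y⁻¹, x⁻¹⁆ := by simp [commutatorElement_def, mul_assoc]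
    rw [e]; exact hxy

end Cfsg.Agent.S0577
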