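import Mathlib
import Cfsg.Statements.S0578

set_option autoImplicit false
set_option linter.style.haveILetI false
open Cfsg

namespace Cfsg.Agent.S0578

universe u

open scoped commutatorElement

theorem le_normalizer_of_conj_mem {G : Type u} [Group G] {P A : Subgroup G}
    (h : ∀ g ∈ P, ∀ a ∈ A, g * a * g⁻¹ ∈ A) : P ≤ Subgroup.normalizer (A : Set G) := by
  intro g hg
  rw [Subgroup.mem_normalizer_iff]
  intro a
  constructor
  · exact h g hg a
  · intro ha
    have := h g⁻¹ (inv_mem hg) _ ha
    simpa [mul_assoc] using this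

theorem isMulCommutative_of_pgroup {G : Type u} [Group G] [Finite G]
    (h : ∀ A : Subgroup G, IsMulCommutative A →
      Subgroup.normalizer (A : Set G) = Subgroup.centralizer (A : Set G))
    {p : ℕ} [Fact p.Prime] (P : Subgroup G) (hP : IsPGroup p P) : IsMulCommutative P := by
  rw [← Subgroup.center_eq_top_iff]
  by_contra hne
  haveI : Nontrivial (P ⧸ Subgroup.center P) := QuotientGroup.nontrivial_iff.mpr hne
  have hq : IsPGroup p (P ⧸ Subgroup.center P) := hP.to_quotient _
  haveI := hq.center_nontrivial
  obtain ⟨⟨xb, hxb⟩, hxb1⟩ := exists_ne (1 : Subgroup.center (P ⧸ Subgroup.center P))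
  obtain ⟨x, rfl⟩ := QuotientGroup.mk_surjective xb
  have hxZ : x ∉ Subgroup.center P := by
    intro hx; apply hxb1
    simp [Subtype.ext_iff, (QuotientGroup.eq_one_iff x).mpr hx]
  have hcomm : ∀ g : P, g * x * g⁻¹ * x⁻¹ ∈ Subgroup.center P := by
    intro g
    have h1 := Subgroup.mem_center_iff.mp hxb (g : P ⧸ Subgroup.center P)
    rw [← QuotientGroup.eq_one_iff]
    simp only [QuotientGroup.mk_mul, QuotientGroup.mk_inv]
    rw [h1]; group
  set Z : Subgroup G := (Subgroup.center P).map P.subtype with hZ
  have hZmem : ∀ z ∈ Z, z ∈ P ∧ ∀ g ∈ P, g * z = z * g := by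
    rintro _ ⟨z, hz, rfl⟩
    refine ⟨z.2, fun g hg => ?_⟩
    have := Subgroup.mem_center_iff.mp hz ⟨g, hg⟩
    simpa [Subtype.ext_iff] using this
  set S : Set G := (Z : Set G) ∪ {(x : G)} with hS
  have hScomm : ∀ a ∈ S, ∀ b ∈ S, a * b = b * a := by
    rintro a (ha | ha) b (hb | hb)
    · exact (hZmem b hb).2 a (hZmem a ha).1
    · rw [Set.mem_singleton_iff] at hb; rw [hb]
      exact ((hZmem a ha).2 x x.2).symm
    · rw [Set.mem_singleton_iff] at ha; rw [ha]
      exact (hZmem b hb).2 x x.2
    · rw [Set.mem_singleton_iff] at ha hb; rw [ha, hb]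
  have hAc : IsMulCommutative (Subgroup.closure S) := Subgroup.isMulCommutative_closure hScomm
  have hnorm : P ≤ Subgroup.normalizer ((Subgroup.closure S : Subgroup G) : Set G) := by
    apply le_normalizer_of_conj_mem
    intro g hg a ha
    have hle : Subgroup.closure S ≤ (Subgroup.closure S).comap (MulAut.conj g).toMonoidHom := by
      rw [Subgroup.closure_le]
      rintro s (hs | hs)
      · show g * s * g⁻¹ ∈ Subgroup.closure S
        rw [(hZmem s hs).2 g hg]
        simp only [mul_inv_cancel_right]
        exact Subgroup.subset_closure (Or.inl hs)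
      · rw [Set.mem_singleton_iff] at hs; rw [hs]
        show g * (x : G) * g⁻¹ ∈ Subgroup.closure S
        have h2 : g * (x : G) * g⁻¹ = (g * x * g⁻¹ * (x : G)⁻¹) * x := by group
        rw [h2]
        apply mul_mem
        · apply Subgroup.subset_closure; left
          exact ⟨⟨g, hg⟩ * x * ⟨g, hg⟩⁻¹ * x⁻¹, hcomm ⟨g, hg⟩, by simp⟩
        · exact Subgroup.subset_closure (Or.inr rfl)
    exact hle ha
  rw [h _ hAc] at hnorm
  apply hxZ
  rw [Subgroup.mem_center_iff]
  intro g
  have := hnorm g.2 (x : G) (Subgroup.subset_closure (Or.inr rfl))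
  ext; simpa using this.symm

/-- If in a finite group the normalizer of each abelian subgroup coincides with its centralizer, then the group is abelian. -/
theorem result {G : Type*} [Group G] [Finite G] (h : ∀ A : Subgroup G, IsMulCommutative A → Subgroup.normalizer (A : Set G) = Subgroup.centralizer (A : Set G)) : IsMulCommutative G := by
  have hcomm : commutator G = ⊥ := by
    rw [← Subgroup.card_eq_one, Nat.eq_one_iff_not_exists_prime_dvd]
    intro p hp hdvd
    haveI : Fact p.Prime := ⟨hp⟩
    obtain ⟨P⟩ : Nonempty (Sylow p G) := inferInstance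
    have hPc : IsMulCommutative (P : Subgroup G) := isMulCommutative_of_pgroup h P P.isPGroup'
    have hP : Subgroup.normalizer (P : Set G) ≤ Subgroup.centralizer (P : Set G) := (h P hPc).le
    letI : CommGroup (P : Subgroup G) :=
      { (inferInstance : Group (P : Subgroup G)) with mul_comm := hPc.is_comm.comm }
    have hker : commutator G ≤ (MonoidHom.transferSylow P hP).ker :=
      Abelianization.commutator_subset_ker _
    exact MonoidHom.not_dvd_card_ker_transferSylow P hP
      (hdvd.trans (Subgroup.card_dvd_of_le hker))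
  refine ⟨⟨fun a b => ?_⟩⟩
  have : ⁅a, b⁆ ∈ commutator G := by
    rw [commutator_def]
    exact Subgroup.commutator_mem_commutator (Subgroup.mem_top a) (Subgroup.mem_top b)
  rw [hcomm, Subgroup.mem_bot] at this
  exact commutatorElement_eq_one_iff_mul_comm.mp this

end Cfsg.Agent.S0578
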