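import Mathlib
import Cfsg.Statements.S0580
import Cfsg.Agent.Lib.helper3.Basic
import Cfsg.Agent.Lib.helper3.SupersolvablePrime
import Cfsg.Agent.Lib.helper3.Maximal

set_option autoImplicit false
set_option linter.style.haveILetI false
open Cfsg

namespace Cfsg.Agent.S0580

open Cfsg.Agent.Lib.helper3

universe u

theorem aux : ∀ (m : ℕ) (G : Type u) [Group G] [Finite G], Nat.card G = m →
    (∀ M : Subgroup G, IsCoatom M → M.index.Prime) → Group.IsSolvable G := by
  intro m
  induction m using Nat.strong_induction_on with
  | _ m ih =>
    intro G _ _ hm h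
    by_cases h1 : Nat.card G = 1
    · haveI : Subsingleton G := (Nat.card_eq_one_iff_unique.mp h1).1
      infer_instance
    obtain ⟨p, hp, hpdvd, hpmax⟩ := exists_maximal_prime (n := Nat.card G)
      (by have := Nat.card_pos (α := G); omega)
    haveI : Fact p.Prime := ⟨hp⟩
    obtain ⟨P⟩ : Nonempty (Sylow p G) := inferInstance
    have hPn : (P : Subgroup G).Normal := by
      by_contra hnn
      have hne : Subgroup.normalizer (P : Set G) ≠ ⊤ := by
        intro ht; exact hnn (Subgroup.normalizer_eq_top_iff.mp ht)
      obtain ⟨M, hMco, hMle⟩ := (eq_top_or_exists_le_coatom _).resolve_left hne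
      have hq := h M hMco
      have hmod := index_modEq_one_of_normalizer_le P M hMle
      have hle : M.index ≤ p := hpmax _ hq (Subgroup.index_dvd_card M)
      have h2 := hq.two_le
      have h3 : M.index % p = 1 := by
        have := hmod; unfold Nat.ModEq at this; rwa [Nat.mod_eq_of_lt hp.one_lt] at this
      rcases hle.lt_or_eq with hlt | heq
      · rw [Nat.mod_eq_of_lt hlt] at h3; omega
      · rw [heq, Nat.mod_self] at h3; omega
    haveI := hPn
    have hPne : (P : Subgroup G) ≠ ⊥ := by
      intro hb
      have h3 := P.card_eq_multiplicity
      rw [hb, Subgroup.card_bot] at h3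
      have hf : 0 < (Nat.card G).factorization p :=
        hp.factorization_pos_of_dvd Nat.card_pos.ne' hpdvd
      have : 1 < p ^ (Nat.card G).factorization p := Nat.one_lt_pow hf.ne' hp.one_lt
      omega
    have hlt := card_quotient_lt (P : Subgroup G) hPne
    have hq : Group.IsSolvable (G ⧸ (P : Subgroup G)) := by
      apply ih _ (hm ▸ hlt) _ rfl
      intro M hM
      have hco : IsCoatom (M.comap (QuotientGroup.mk' (P : Subgroup G))) :=
        isCoatom_comap_of_surjective _ (QuotientGroup.mk'_surjective _) hM
      have := h _ hco
      rwa [Subgroup.index_comap_of_surjective _ (QuotientGroup.mk'_surjective _)] at this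
    haveI : Group.IsSolvable (P : Subgroup G) := by
      haveI := P.isPGroup'.isNilpotent
      infer_instance
    exact Group.isSolvable_of_ker_le_range (P : Subgroup G).subtype (QuotientGroup.mk' (P : Subgroup G))
      (by simp)

/-- If every maximal subgroup of a finite group has prime index, then the group is solvable. -/
theorem result {G : Type*} [Group G] [Finite G] (h : ∀ M : Subgroup G, IsCoatom M → M.index.Prime) : Group.IsSolvable G := by
  exact aux _ G rfl h

end Cfsg.Agent.S0580
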