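import Cfsg.Statements.S0584
import Mathlib
import Cfsg.Agent.Lib.helper3.PLocal

set_option linter.style.haveILetI false

set_option autoImplicit false
open Cfsg

namespace Cfsg.Agent.S0584

/-- Let B ≤ A be normal subgroups of a finite group G with B contained in the Frattini subgroup of G. If A modulo B is nilpotent then A is nilpotent. -/
theorem result {G : Type*} [Group G] [Finite G] (A B : Subgroup G) [A.Normal] [B.Normal] (hBA : B ≤ A) (hB : B ≤ frattini G) (h : Group.IsNilpotent (↥A ⧸ B.subgroupOf A)) : Group.IsNilpotent A := by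
  classical
  refine ((Group.isNilpotent_of_finite_tfae (G := A)).out 0 3).mpr ?_
  intro p hp P
  haveI := hp
  set P' : Subgroup G := (P : Subgroup A).map A.subtype with hP'
  have hP'A : P' ≤ A := by
    rintro _ ⟨x, -, rfl⟩; exact x.2
  have hP'p : IsPGroup p P' := P.isPGroup'.map _
  obtain ⟨S, hS⟩ := hP'p.exists_le_sylow
  have hSA : (S : Subgroup G) ⊓ A = P' := by
    apply le_antisymm
    · have h1 : IsPGroup p (((S : Subgroup G) ⊓ A).subgroupOf A) :=
        (S.isPGroup'.to_le inf_le_left).comap_of_injective A.subtype (Subgroup.subtype_injective _)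
      have h2 : (P : Subgroup A) ≤ ((S : Subgroup G) ⊓ A).subgroupOf A := by
        intro x hx
        rw [Subgroup.mem_subgroupOf]
        exact ⟨hS (Subgroup.mem_map_of_mem _ hx), x.2⟩
      have h3 := P.is_maximal' h1 h2
      intro x hx
      have h4 : (⟨x, hx.2⟩ : A) ∈ ((S : Subgroup G) ⊓ A).subgroupOf A := by
        rw [Subgroup.mem_subgroupOf]; exact hx
      rw [h3] at h4
      exact ⟨_, h4, rfl⟩
    · exact le_inf hS hP'A
  -- the unique Sylow of the quotient
  have hnil := ((Group.isNilpotent_of_finite_tfae (G := A ⧸ B.subgroupOf A)).out 0 3).mp h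
  let Q : Sylow p (A ⧸ B.subgroupOf A) :=
    P.mapSurjective (QuotientGroup.mk'_surjective (B.subgroupOf A))
  haveI hQn : (Q : Subgroup (A ⧸ B.subgroupOf A)).Normal := hnil p hp Q
  -- K = P' ⊔ B is normal in G
  have key : ∀ (g : G) (x : G), x ∈ P' → g * x * g⁻¹ ∈ P' ⊔ B := by
    intro g x hx
    have hxA : x ∈ A := hP'A hx
    have hyA : g * x * g⁻¹ ∈ A := ‹A.Normal›.conj_mem x hxA g
    -- zpowers of the image is a p-group
    have hpg : IsPGroup p (Subgroup.zpowers (g * x * g⁻¹)) := by
      have : Subgroup.zpowers (g * x * g⁻¹) ≤ P'.map (MulAut.conj g).toMonoidHom := by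
        rw [Subgroup.zpowers_le]
        exact ⟨x, hx, rfl⟩
      have h1 : IsPGroup p (P'.map (MulAut.conj g).toMonoidHom) := hP'p.map _
      exact h1.to_le this
    set y : A := ⟨g * x * g⁻¹, hyA⟩ with hy
    have hpy : IsPGroup p (Subgroup.zpowers y) := by
      have : Subgroup.zpowers y = (Subgroup.zpowers (g * x * g⁻¹)).subgroupOf A := by
        ext z
        rw [Subgroup.mem_subgroupOf, Subgroup.mem_zpowers_iff, Subgroup.mem_zpowers_iff]
        constructor
        · rintro ⟨k, rfl⟩; exact ⟨k, by simp [hy]⟩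
        · rintro ⟨k, hk⟩; exact ⟨k, Subtype.ext (by simpa [hy] using hk)⟩
      rw [this]
      exact hpg.comap_of_injective A.subtype (Subgroup.subtype_injective _)
    have hpy' : IsPGroup p ((Subgroup.zpowers y).map (QuotientGroup.mk' (B.subgroupOf A))) :=
      hpy.map _
    have hle : (Subgroup.zpowers y).map (QuotientGroup.mk' (B.subgroupOf A)) ≤ Q := by
      -- normal closure trick: use that Q is the unique Sylow
      obtain ⟨Q', hQ'⟩ := hpy'.exists_le_sylow
      haveI := Sylow.unique_of_normal Q hQn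
      rw [Subsingleton.elim Q Q']
      exact hQ'
    have hmem : QuotientGroup.mk' (B.subgroupOf A) y ∈ (Q : Subgroup (A ⧸ B.subgroupOf A)) :=
      hle (Subgroup.mem_map_of_mem _ (Subgroup.mem_zpowers y))
    change QuotientGroup.mk' (B.subgroupOf A) y ∈ (P : Subgroup A).map _ at hmem
    obtain ⟨x', hx', hx'y⟩ := hmem
    have hb : x'⁻¹ * y ∈ B.subgroupOf A := by
      rw [← QuotientGroup.eq]; exact hx'y
    rw [Subgroup.mem_subgroupOf] at hb
    have : g * x * g⁻¹ = (x' : G) * ((x'⁻¹ * y : A) : G) := by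
      simp [hy]
    rw [this]
    exact mul_mem (Subgroup.mem_sup_left (Subgroup.mem_map_of_mem _ hx')) (Subgroup.mem_sup_right hb)
  haveI hKn : (P' ⊔ B).Normal := by
    constructor
    intro k hk g
    have hkm : k ∈ ((P' ⊔ B : Subgroup G) : Set G) := hk
    rw [Subgroup.mul_normal] at hkm
    obtain ⟨x, hx, b, hb, rfl⟩ := hkm
    have : g * (x * b) * g⁻¹ = (g * x * g⁻¹) * (g * b * g⁻¹) := by group
    rw [this]
    exact mul_mem (key g x hx) (Subgroup.mem_sup_right (‹B.Normal›.conj_mem b hb g))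
  obtain ⟨R, hR⟩ := Cfsg.Agent.Lib.helper3.exists_sylow_map_eq_inf S (P' ⊔ B)
  have hSK : (S : Subgroup G) ⊓ (P' ⊔ B) = P' := by
    apply le_antisymm
    · have : (S : Subgroup G) ⊓ (P' ⊔ B) ≤ (S : Subgroup G) ⊓ A :=
        le_inf inf_le_left (inf_le_right.trans (sup_le hP'A hBA))
      exact this.trans hSA.le
    · exact le_inf hS le_sup_left
  rw [hSK] at hR
  have hfr := Sylow.normalizer_sup_eq_top R
  rw [hR] at hfr
  have h2 : Subgroup.normalizer (P' : Set G) ⊔ B = ⊤ := by
    rw [eq_top_iff, ← hfr]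
    exact sup_le le_sup_left (sup_le (le_sup_of_le_left Subgroup.le_normalizer) le_sup_right)
  have h3 : Subgroup.normalizer (P' : Set G) = ⊤ := by
    apply frattini_nongenerating
    rw [eq_top_iff, ← h2]
    exact sup_le_sup_left hB _
  have hP'n : P'.Normal := Subgroup.normalizer_eq_top_iff.mp h3
  constructor
  intro a ha b
  have h5 : (b : G) * a * (b : G)⁻¹ ∈ P' := hP'n.conj_mem _ (Subgroup.mem_map_of_mem _ ha) _
  obtain ⟨c, hc, hcc⟩ := h5
  have : c = b * a * b⁻¹ := Subtype.ext (by simpa using hcc)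
  rw [← this]; exact hc

end Cfsg.Agent.S0584
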