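import Cfsg.Statements.S0585
import Mathlib
import Cfsg.Agent.Lib.helper3.Frattini

set_option linter.style.haveILetI false

set_option autoImplicit false
open Cfsg

namespace Cfsg.Agent.S0585

/-- If the Frattini subgroup of a finite group G is trivial, then every abelian normal subgroup of G has a complement in G. -/
theorem result {G : Type*} [Group G] [Finite G] (hΦ : frattini G = ⊥) (A : Subgroup G) [A.Normal] [IsMulCommutative A] : ∃ H : Subgroup G, Subgroup.IsComplement' A H := by
  obtain ⟨H, h1, h2⟩ := Cfsg.Agent.Lib.helper3.exists_complement_of_abelian_normal hΦ A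
    (fun x hx y hy => setLike_mul_comm hx hy)
  refine ⟨H, Subgroup.isComplement'_of_disjoint_and_mul_eq_univ (disjoint_iff.mpr h2) ?_⟩
  rw [← Subgroup.normal_mul, h1, Subgroup.coe_top]

end Cfsg.Agent.S0585
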