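import Mathlib
import Cfsg.Statements.S0586
import Cfsg.Agent.Lib.helper1.Fitting
import Cfsg.Agent.Lib.helper3.Frattini
import Cfsg.Agent.Lib.helper3.Subnormal

set_option autoImplicit false
set_option linter.style.haveILetI false
open Cfsg

namespace Cfsg.Agent.S0586

open Cfsg.Agent.Lib.helper3
open scoped commutatorElement

/-- If the Frattini subgroup of a finite group G is trivial, then the Fitting subgroup of G equals the join of all abelian minimal normal subgroups of G. -/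
theorem result {G : Type*} [Group G] [Finite G] (hΦ : frattini G = ⊥) : Cfsg.fittingSubgroup G = sSup {N : Subgroup G | N.Normal ∧ N ≠ ⊥ ∧ IsMulCommutative N ∧ ∀ K : Subgroup G, K.Normal → K ≤ N → K = ⊥ ∨ K = N} := by
  haveI hFn : (Cfsg.fittingSubgroup G).Normal := Cfsg.Agent.Lib.helper1.fitting_normal G
  haveI hFnil : Group.IsNilpotent (Cfsg.fittingSubgroup G) :=
    Cfsg.Agent.Lib.helper1.fitting_isNilpotent G
  have hFab : ∀ x ∈ Cfsg.fittingSubgroup G, ∀ y ∈ Cfsg.fittingSubgroup G, x * y = y * x := by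
    have hDle : ⁅Cfsg.fittingSubgroup G, Cfsg.fittingSubgroup G⁆ ≤ Cfsg.fittingSubgroup G :=
      Subgroup.commutator_le_right _ _
    have hDeq : (⁅Cfsg.fittingSubgroup G, Cfsg.fittingSubgroup G⁆ : Subgroup G).subgroupOf
        (Cfsg.fittingSubgroup G) = commutator (Cfsg.fittingSubgroup G) := by
      have h1 : (commutator (Cfsg.fittingSubgroup G)).map (Cfsg.fittingSubgroup G).subtype =
          ⁅Cfsg.fittingSubgroup G, Cfsg.fittingSubgroup G⁆ := by
        rw [commutator_def, Subgroup.map_commutator, ← MonoidHom.range_eq_map,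
          Subgroup.range_subtype]
      rw [← h1]
      exact Subgroup.comap_map_eq_self_of_injective (Subgroup.subtype_injective _) _
    have hD : ⁅Cfsg.fittingSubgroup G, Cfsg.fittingSubgroup G⁆ ≤ frattini G :=
      le_frattini_of_subgroupOf_le hDle (hDeq ▸ commutator_le_frattini_of_nilpotent)
    intro x hx y hy
    have h2 := hD (Subgroup.commutator_mem_commutator hx hy)
    rw [hΦ, Subgroup.mem_bot] at h2
    exact commutatorElement_eq_one_iff_mul_comm.mp h2
  set 𝒮 := {N : Subgroup G | N.Normal ∧ N ≠ ⊥ ∧ IsMulCommutative N ∧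
    ∀ K : Subgroup G, K.Normal → K ≤ N → K = ⊥ ∨ K = N} with h𝒮
  haveI hSn : (sSup 𝒮).Normal := Subgroup.sSup_normal _ (fun N hN => hN.1)
  have hSF : sSup 𝒮 ≤ Cfsg.fittingSubgroup G := by
    apply sSup_le
    rintro N ⟨hNn, -, hNc, -⟩
    exact Cfsg.Agent.Lib.helper1.le_fitting hNn isNilpotent_of_isMulCommutative
  apply le_antisymm _ hSF
  obtain ⟨H, hH1, hH2⟩ := exists_complement_of_abelian_normal hΦ (sSup 𝒮)
    (fun x hx y hy => hFab x (hSF hx) y (hSF hy))
  have hFHn : (Cfsg.fittingSubgroup G ⊓ H).Normal := by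
    constructor
    intro x hx g
    obtain ⟨s, hs, h, hh, rfl⟩ := exists_mul_of_sup_eq_top (sSup 𝒮) H hH1 g
    have hx1 := (Subgroup.mem_inf.mp hx).1
    have hx2 := (Subgroup.mem_inf.mp hx).2
    have h1 : h * x * h⁻¹ ∈ Cfsg.fittingSubgroup G := hFn.conj_mem x hx1 h
    have h2 : h * x * h⁻¹ ∈ H := H.mul_mem (H.mul_mem hh hx2) (H.inv_mem hh)
    have h3 : s * h * x * (s * h)⁻¹ = h * x * h⁻¹ := by
      have hc := hFab s (hSF hs) _ h1
      calc s * h * x * (s * h)⁻¹ = s * (h * x * h⁻¹) * s⁻¹ := by group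
        _ = (h * x * h⁻¹) * s * s⁻¹ := by rw [hc]
        _ = h * x * h⁻¹ := by group
    rw [h3]; exact Subgroup.mem_inf.mpr ⟨h1, h2⟩
  have hFH : Cfsg.fittingSubgroup G ⊓ H = ⊥ := by
    by_contra hne
    obtain ⟨L, hL, hLle⟩ := exists_minNormal_le (Cfsg.fittingSubgroup G ⊓ H) hFHn hne
    have hLS : L ≤ sSup 𝒮 := le_sSup ⟨hL.1, hL.2.1,
      ⟨⟨fun a b => Subtype.ext (hFab a (Subgroup.mem_inf.mp (hLle a.2)).1 b
        (Subgroup.mem_inf.mp (hLle b.2)).1)⟩⟩, hL.2.2⟩
    have h4 : L ≤ sSup 𝒮 ⊓ H := le_inf hLS (hLle.trans inf_le_right)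
    rw [hH2, le_bot_iff] at h4
    exact hL.2.1 h4
  intro f hf
  obtain ⟨s, hs, h, hh, rfl⟩ := exists_mul_of_sup_eq_top (sSup 𝒮) H hH1 f
  have hhF : h ∈ Cfsg.fittingSubgroup G := by
    have := mul_mem (inv_mem (hSF hs)) hf
    simpa using this
  have h5 : h ∈ Cfsg.fittingSubgroup G ⊓ H := Subgroup.mem_inf.mpr ⟨hhF, hh⟩
  rw [hFH, Subgroup.mem_bot] at h5
  rw [h5, mul_one]; exact hs

end Cfsg.Agent.S0586
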