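import Cfsg.Statements.S0587
import Mathlib
import Cfsg.Agent.Lib.helper3.PLocal
import Cfsg.Agent.Lib.helper3.Primitive
import Cfsg.Agent.Lib.helper3.Thompson

set_option linter.style.haveILetI false

set_option autoImplicit false
open Cfsg

namespace Cfsg.Agent.S0587

/-- Let G be a finite group whose largest normal p-subgroup L is nontrivial, and M a maximal subgroup of G with trivial normal core. Then L is elementary abelian, M is a complement to L, L is a minimal normal subgroup of G, the centralizer of L is L, and for every prime q such that the largest normal q-subgroup of M is nontrivial, the order of L is congruent to 1 modulo q and q ≠ p. -/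
theorem result {G : Type*} [Group G] [Finite G] (p : ℕ) [Fact p.Prime] (hL : Cfsg.pCore p G ≠ ⊥) (M : Subgroup G) (hM : IsCoatom M) (hcore : M.normalCore = ⊥) : Cfsg.IsElementaryAbelian p (Cfsg.pCore p G) ∧ Subgroup.IsComplement' (Cfsg.pCore p G) M ∧ (∀ K : Subgroup G, K.Normal → K ≤ Cfsg.pCore p G → K = ⊥ ∨ K = Cfsg.pCore p G) ∧ Subgroup.centralizer ((Cfsg.pCore p G : Subgroup G) : Set G) = Cfsg.pCore p G ∧ ∀ (q : ℕ) [Fact q.Prime], Cfsg.pCore q ↥M ≠ ⊥ → Nat.card (Cfsg.pCore p G) % q = 1 % q ∧ q ≠ p := by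
  classical
  set L := Cfsg.pCore p G with hLdef
  haveI hLn : L.Normal := Cfsg.Agent.Lib.helper3.pCore_normal3 p G
  have hLp : IsPGroup p L := Cfsg.Agent.Lib.helper3.pCore_isPGroup3 p G
  have keyB : ∀ A : Subgroup G, A.Normal → A ≠ ⊥ → (∀ a ∈ A, ∀ b ∈ A, a * b = b * a) →
      Subgroup.centralizer (A : Set G) = A ∧ A ⊓ M = ⊥ ∧ A ⊔ M = ⊤ := by
    intro A hAn hA hab
    haveI := hAn
    have hAU : A ⊔ M = ⊤ := Cfsg.Agent.Lib.helper3.sup_eq_top_of_coatom_of_not_le hM
      (Cfsg.Agent.Lib.helper3.not_le_of_core_eq_bot hcore hA)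
    have hCM := Cfsg.Agent.Lib.helper3.centralizer_inf_eq_bot hcore hAU
    have hAC : A ≤ Subgroup.centralizer (A : Set G) := by
      intro a ha
      rw [Subgroup.mem_centralizer_iff]
      intro b hb
      exact hab b hb a ha
    have hCA : Subgroup.centralizer (A : Set G) = A := by
      apply le_antisymm _ hAC
      intro x hx
      obtain ⟨a, ha, m, hm, rfl⟩ := Cfsg.Agent.Lib.helper3.exists_mul_of_sup_eq_top A M hAU x
      have hm' : m ∈ Subgroup.centralizer (A : Set G) := by
        have := mul_mem (inv_mem (hAC ha)) hx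
        simpa using this
      have : m ∈ Subgroup.centralizer (A : Set G) ⊓ M := ⟨hm', hm⟩
      rw [hCM, Subgroup.mem_bot] at this
      rw [this, mul_one]; exact ha
    refine ⟨hCA, ?_, hAU⟩
    rw [eq_bot_iff, ← hCM]
    exact inf_le_inf_right _ hAC
  haveI hLnt : Nontrivial L := (Subgroup.nontrivial_iff_ne_bot L).mpr hL
  have hZnt : Nontrivial (Subgroup.center L) := hLp.center_nontrivial
  set Z' : Subgroup G := (Subgroup.center L).map L.subtype with hZ'
  haveI hZ'n : Z'.Normal := inferInstance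
  have hZ'ne : Z' ≠ ⊥ := by
    intro h
    rw [hZ', Subgroup.map_eq_bot_iff_of_injective _ (Subgroup.subtype_injective _)] at h
    exact (Subgroup.nontrivial_iff_ne_bot _).mp hZnt h
  have hZ'ab : ∀ a ∈ Z', ∀ b ∈ Z', a * b = b * a := by
    rintro _ ⟨a, ha, rfl⟩ _ ⟨b, hb, rfl⟩
    have := Subgroup.mem_center_iff.mp ha b
    have h2 := congrArg (Subtype.val) this
    simpa using h2.symm
  obtain ⟨hCZ, -, -⟩ := keyB Z' hZ'n hZ'ne hZ'ab
  have hLZ : L ≤ Z' := by
    rw [← hCZ]
    intro x hx
    rw [Subgroup.mem_centralizer_iff]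
    rintro _ ⟨a, ha, rfl⟩
    have := Subgroup.mem_center_iff.mp ha ⟨x, hx⟩
    have h2 := congrArg (Subtype.val) this
    simpa using h2.symm
  have hLab : ∀ a ∈ L, ∀ b ∈ L, a * b = b * a := fun a ha b hb => hZ'ab a (hLZ ha) b (hLZ hb)
  obtain ⟨hCL, hLM, hLMtop⟩ := keyB L hLn hL hLab
  have hmin : ∀ K : Subgroup G, K.Normal → K ≤ L → K = ⊥ ∨ K = L := by
    intro K hKn hKL
    by_cases hK : K = ⊥
    · exact Or.inl hK
    right
    obtain ⟨hCK, -, -⟩ := keyB K hKn hK (fun a ha b hb => hLab a (hKL ha) b (hKL hb))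
    apply le_antisymm hKL
    rw [← hCK]
    intro x hx
    rw [Subgroup.mem_centralizer_iff]
    intro k hk
    exact hLab k (hKL hk) x hx
  have hdvd : p ∣ Nat.card L := by
    obtain ⟨n, hn⟩ := IsPGroup.iff_card.mp hLp
    rw [hn]
    have : n ≠ 0 := by
      rintro rfl
      rw [pow_zero] at hn
      exact hL (Subgroup.eq_bot_of_card_eq L hn)
    exact dvd_pow_self p this
  have hexp : ∀ a ∈ L, a ^ p = 1 := by
    let K : Subgroup G :=
      { carrier := {x | x ∈ L ∧ x ^ p = 1}
        one_mem' := ⟨one_mem _, one_pow _⟩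
        mul_mem' := by
          rintro a b ⟨ha, ha'⟩ ⟨hb, hb'⟩
          refine ⟨mul_mem ha hb, ?_⟩
          rw [Commute.mul_pow (show Commute a b from hLab a ha b hb), ha', hb', one_mul]
        inv_mem' := by
          rintro a ⟨ha, ha'⟩
          exact ⟨inv_mem ha, by rw [inv_pow, ha', inv_one]⟩ }
    have hKn : K.Normal := by
      constructor
      rintro a ⟨ha, ha'⟩ g
      refine ⟨hLn.conj_mem a ha g, ?_⟩
      rw [conj_pow, ha']; simp
    have hKL : K ≤ L := fun x hx => hx.1
    have hKne : K ≠ ⊥ := by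
      obtain ⟨x, hx⟩ := exists_prime_orderOf_dvd_card' p hdvd
      intro hbot
      have hxK : (x : G) ∈ K := by
        refine ⟨x.2, ?_⟩
        have := pow_orderOf_eq_one x
        rw [hx] at this
        have h2 := congrArg Subtype.val this
        simpa using h2
      rw [hbot, Subgroup.mem_bot] at hxK
      have hx1 : x = 1 := Subtype.ext hxK
      rw [hx1, orderOf_one] at hx
      exact (Fact.out : p.Prime).one_lt.ne hx
    rcases hmin K hKn hKL with h | h
    · exact absurd h hKne
    · intro a ha; rw [← h] at ha; exact ha.2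
  refine ⟨(Cfsg.Agent.Lib.helper3.isEA_iff p L).mpr ⟨hLab, hexp⟩, ?_, hmin, hCL, ?_⟩
  · apply Subgroup.isComplement'_of_disjoint_and_mul_eq_univ (disjoint_iff.mpr hLM)
    rw [← Subgroup.normal_mul, hLMtop]; rfl
  · intro q hq hQ
    haveI := hq
    set Q' : Subgroup G := (Cfsg.pCore q M).map M.subtype with hQ'
    have hQ'M : Q' ≤ M := by rintro _ ⟨x, -, rfl⟩; exact x.2
    have hQ'q : IsPGroup q Q' := (Cfsg.Agent.Lib.helper3.pCore_isPGroup3 q M).map _
    have hQ'ne : Q' ≠ ⊥ := by
      intro h
      rw [hQ', Subgroup.map_eq_bot_iff_of_injective _ (Subgroup.subtype_injective _)] at h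
      exact hQ h
    have hQ'n : ∀ m ∈ M, ∀ y ∈ Q', m * y * m⁻¹ ∈ Q' := by
      rintro m hm _ ⟨y, hy, rfl⟩
      have := (Cfsg.Agent.Lib.helper3.pCore_normal3 q M).conj_mem y hy ⟨m, hm⟩
      exact ⟨_, this, by simp⟩
    -- C_L(Q') normal
    set C : Subgroup G := L ⊓ Subgroup.centralizer (Q' : Set G) with hC
    have hCn : C.Normal := by
      constructor
      intro x hx g
      obtain ⟨l, hl, m, hm, rfl⟩ := Cfsg.Agent.Lib.helper3.exists_mul_of_sup_eq_top L M hLMtop g
      have h1 : m * x * m⁻¹ ∈ C := by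
        refine ⟨hLn.conj_mem x hx.1 m, ?_⟩
        refine Subgroup.mem_centralizer_iff.mpr ?_
        intro y hy
        have h2 := hQ'n m⁻¹ (inv_mem hm) y hy
        rw [inv_inv] at h2
        have h3 := (Subgroup.mem_centralizer_iff.mp hx.2) _ h2
        -- h3 : m⁻¹ * y * m * x = x * (m⁻¹ * y * m)
        calc y * (m * x * m⁻¹) = m * ((m⁻¹ * y * m) * x) * m⁻¹ := by group
          _ = m * (x * (m⁻¹ * y * m)) * m⁻¹ := by rw [h3]
          _ = m * x * m⁻¹ * y := by group
      have h4 : l * m * x * (l * m)⁻¹ = l * (m * x * m⁻¹) * l⁻¹ := by group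
      rw [h4]
      have h5 : l * (m * x * m⁻¹) * l⁻¹ = m * x * m⁻¹ := by
        rw [hLab l hl _ h1.1]; group
      rw [h5]; exact h1
    have hCbot : C = ⊥ := by
      rcases hmin C hCn inf_le_left with h | h
      · exact h
      · exfalso
        have h1 : Q' ≤ Subgroup.centralizer (L : Set G) := by
          intro y hy
          rw [Subgroup.mem_centralizer_iff]
          intro x hx
          have hx' : x ∈ C := by rw [h]; exact hx
          exact ((Subgroup.mem_centralizer_iff.mp hx'.2) y hy).symm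
        rw [hCL] at h1
        have h2 : Q' ≤ L ⊓ M := le_inf h1 hQ'M
        rw [hLM, le_bot_iff] at h2
        exact hQ'ne h2
    -- action
    letI act : MulAction ↥Q' ↥L :=
      MulAction.compHom ↥L ((ConjAct.toConjAct (G := G)).toMonoidHom.comp Q'.subtype)
    have hsm : ∀ (g : ↥Q') (x : ↥L), ((g • x : ↥L) : G) = (g : G) * x * (g : G)⁻¹ := by
      intro g x; rfl
    have hfix : Nat.card (MulAction.fixedPoints ↥Q' ↥L) = 1 := by
      rw [Nat.card_eq_one_iff_unique]
      constructor
      · constructor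
        rintro ⟨a, ha⟩ ⟨b, hb⟩
        have key : ∀ x : ↥L, x ∈ MulAction.fixedPoints ↥Q' ↥L → x = 1 := by
          intro x hx
          have hxC : (x : G) ∈ C := by
            refine ⟨x.2, ?_⟩
            refine Subgroup.mem_centralizer_iff.mpr ?_
            intro y hy
            have h1 := hx ⟨y, hy⟩
            have h2 := congrArg Subtype.val h1
            rw [hsm] at h2
            -- h2 : y * x * y⁻¹ = x
            calc y * (x : G) = (y * x * y⁻¹) * y := by group
              _ = x * y := by rw [h2]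
          rw [hCbot, Subgroup.mem_bot] at hxC
          exact Subtype.ext hxC
        exact Subtype.ext ((key a ha).trans (key b hb).symm)
      · refine ⟨⟨1, ?_⟩⟩
        intro g
        apply Subtype.ext
        rw [hsm]; simp
    have hQ'q' : IsPGroup q ↥Q' := hQ'q
    have hmod := hQ'q'.card_modEq_card_fixedPoints ↥L
    rw [hfix] at hmod
    refine ⟨hmod, ?_⟩
    rintro rfl
    have h1 : Nat.card L % q = 0 := Nat.mod_eq_zero_of_dvd hdvd
    have h2 : Nat.card L % q = 1 % q := hmod
    rw [h1, Nat.mod_eq_of_lt (Fact.out : q.Prime).one_lt] at h2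
    exact absurd h2 (by norm_num)

end Cfsg.Agent.S0587
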