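import Cfsg.Statements.S0588
import Mathlib

set_option linter.style.haveILetI false

set_option autoImplicit false
open Cfsg

namespace Cfsg.Agent.S0588

/-- If a subgroup H of a finite group G contains the centralizer of every non-identity element of H, then the order of H is coprime to its index. -/
theorem result {G : Type*} [Group G] [Finite G] (H : Subgroup G) (h : ∀ x ∈ H, x ≠ 1 → Subgroup.centralizer ({x} : Set G) ≤ H) : (Nat.card H).Coprime H.index := by
  apply Nat.coprime_of_dvd
  intro p hp hpH hpI
  haveI : Fact p.Prime := ⟨hp⟩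
  obtain ⟨x, hx⟩ := exists_prime_orderOf_dvd_card' (G := H) p hpH
  have hx1 : (x : G) ≠ 1 := by
    intro h1
    have : x = 1 := Subtype.ext h1
    rw [this, orderOf_one] at hx
    exact hp.one_lt.ne hx
  have hxo : orderOf (x : G) = p := by rw [Subgroup.orderOf_coe, hx]
  have hzp : IsPGroup p (Subgroup.zpowers (x : G)) := by
    apply IsPGroup.of_card (n := 1)
    rw [Nat.card_zpowers, hxo, pow_one]
  obtain ⟨T, hT⟩ := hzp.exists_le_sylow
  have hxT : (x : G) ∈ (T : Subgroup G) := hT (Subgroup.mem_zpowers _)
  haveI : Nontrivial (T : Subgroup G) := ⟨⟨⟨(x : G), hxT⟩, 1, fun h => hx1 (congrArg Subtype.val h)⟩⟩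
  haveI := T.isPGroup'.center_nontrivial
  obtain ⟨z, hz⟩ := exists_ne (1 : Subgroup.center (T : Subgroup G))
  have hz1 : ((z : (T : Subgroup G)) : G) ≠ 1 := by
    intro h1
    apply hz
    apply Subtype.ext
    apply Subtype.ext
    exact h1
  have hzc : ∀ t ∈ (T : Subgroup G), t * ((z : (T : Subgroup G)) : G) = ((z : (T : Subgroup G)) : G) * t := by
    intro t ht
    have := Subgroup.mem_center_iff.mp z.2 ⟨t, ht⟩
    exact congrArg Subtype.val this
  have hzH : ((z : (T : Subgroup G)) : G) ∈ H := by
    apply h x x.2 hx1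
    rw [Subgroup.mem_centralizer_iff]
    intro y hy
    rw [Set.mem_singleton_iff] at hy
    rw [hy]
    exact hzc _ hxT
  have hTH : (T : Subgroup G) ≤ H := by
    intro t ht
    apply h _ hzH hz1
    rw [Subgroup.mem_centralizer_iff]
    intro y hy
    rw [Set.mem_singleton_iff] at hy
    rw [hy]
    exact (hzc t ht).symm
  exact T.not_dvd_index (dvd_trans hpI (Subgroup.index_dvd_of_le hTH))

end Cfsg.Agent.S0588
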