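import Mathlib
import Cfsg.Statements.S0589
import Cfsg.Agent.Lib.helper1.FrobConj
import Cfsg.Agent.Lib.helper1.SZ
import Cfsg.Agent.S0068

set_option autoImplicit false
open Pointwise
open Cfsg

namespace Cfsg.Agent.S0589

open Cfsg.Agent.Lib.helper1

/-- Let H be a Frobenius complement in a finite group G and L a subgroup of G whose order divides the order of H. Then L is contained in some conjugate of H. -/
theorem result {G : Type*} [Group G] [Finite G] (H : Subgroup G) (hH : Cfsg.IsFrobeniusComplement H) (L : Subgroup G) (hL : Nat.card L ∣ Nat.card H) : ∃ x : G, L ≤ MulAut.conj x • H := by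
  obtain ⟨N, hset, hNn, hc, hN, hfpf⟩ := frob_pair H hH
  haveI := hNn
  have hHK : H ≤ Subgroup.normalizer (N : Set G) := by
    rw [Subgroup.normalizer_eq_top]; exact le_top
  have hcopHN : (Nat.card H).Coprime (Nat.card N) :=
    fpf_coprime (fpfHom hHK) (isFpf_fpfHom hHK hfpf)
  have hcopLN : (Nat.card L).Coprime (Nat.card N) := Nat.Coprime.coprime_dvd_left hL hcopHN
  have hLN : Disjoint L N := by
    exact Subgroup.disjoint_of_coprime_natCard hcopLN
  set M : Subgroup G := L ⊔ N with hMdef
  have hNM : N ≤ M := le_sup_right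
  have hLM : L ≤ M := le_sup_left
  have hcardM : Nat.card M = Nat.card N * Nat.card L := card_sup_of_disjoint_normal L N hLN
  set H₁ : Subgroup G := H ⊓ M with hH₁def
  have hH₁M : H₁ ≤ M := inf_le_right
  have hH₁N : Disjoint H₁ N := by
    rw [disjoint_iff]
    have h1 : H ⊓ N = ⊥ := by
      have := hc.disjoint
      rw [disjoint_iff] at this
      rw [inf_comm]; exact this
    apply le_antisymm _ bot_le
    rw [← h1]
    exact inf_le_inf_right N inf_le_left
  have hsup : H₁ ⊔ N = M := by
    apply le_antisymm (sup_le hH₁M hNM)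
    intro m hm
    obtain ⟨⟨n, h⟩, hnh⟩ := hc.2 m
    have hnh' : (n : G) * (h : G) = m := hnh
    have hh : (h : G) ∈ M := by
      have : (h : G) = (n : G)⁻¹ * m := by rw [← hnh']; group
      rw [this]; exact M.mul_mem (M.inv_mem (hNM n.2)) hm
    rw [← hnh']
    exact Subgroup.mul_mem _ (Subgroup.mem_sup_right n.2) (Subgroup.mem_sup_left ⟨h.2, hh⟩)
  have hcardH₁ : Nat.card H₁ = Nat.card L := by
    have h1 : Nat.card M = Nat.card N * Nat.card H₁ := by
      rw [← hsup]; exact card_sup_of_disjoint_normal H₁ N hH₁N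
    rw [hcardM] at h1
    exact (Nat.eq_of_mul_eq_mul_left Nat.card_pos h1).symm
  -- pass to the group M
  set N' : Subgroup M := N.subgroupOf M with hN'def
  haveI : N'.Normal := by rw [hN'def]; infer_instance
  have hcardN' : Nat.card N' = Nat.card N :=
    Nat.card_congr (Subgroup.subgroupOfEquivOfLe hNM).toEquiv
  have hidx : N'.index = Nat.card L := by
    have h1 := N'.card_mul_index
    rw [hcardN', hcardM] at h1
    exact Nat.eq_of_mul_eq_mul_left Nat.card_pos h1
  have hcop' : (Nat.card N').Coprime N'.index := by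
    rw [hcardN', hidx]; exact hcopLN.symm
  have hcL' : Nat.card (L.subgroupOf M) = N'.index := by
    rw [hidx]; exact Nat.card_congr (Subgroup.subgroupOfEquivOfLe hLM).toEquiv
  have hcH' : Nat.card (H₁.subgroupOf M) = N'.index := by
    rw [hidx, ← hcardH₁]; exact Nat.card_congr (Subgroup.subgroupOfEquivOfLe hH₁M).toEquiv
  have hconj : ∃ g : M, MulAut.conj g • H₁.subgroupOf M = L.subgroupOf M := by
    by_cases heven : 2 ∣ Nat.card H
    · obtain ⟨-, hcomm⟩ := Cfsg.Agent.S0068.result N H hc hN hfpf heven
      have hsN : Group.IsSolvable N := Group.isSolvable_of_comm (fun a b => hcomm.is_comm.comm a b)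
      have hsN' : Group.IsSolvable N' :=
        Group.isSolvable_of_isSolvable_injective
          (f := (Subgroup.subgroupOfEquivOfLe hNM).toMonoidHom)
          (Subgroup.subgroupOfEquivOfLe hNM).injective
      exact sz_conj_of_solvable_normal N' hcop' hsN' _ _ hcH' hcL'
    · have hodd : Odd (Nat.card H) :=
        Nat.not_even_iff_odd.mp (fun h => heven (even_iff_two_dvd.mp h))
      haveI := frob_complement_isZGroup N H hc hN hfpf hodd
      have hle : H₁ ≤ H := inf_le_left
      have hsH' : Group.IsSolvable (H₁.subgroupOf M) :=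
        Group.isSolvable_of_isSolvable_injective
          (f := (Subgroup.inclusion hle).comp
            (Subgroup.subgroupOfEquivOfLe hH₁M).toMonoidHom)
          ((Subgroup.inclusion_injective hle).comp (Subgroup.subgroupOfEquivOfLe hH₁M).injective)
      exact sz_conj_of_solvable_compl N' hcop' _ _ hsH' hcH' hcL'
  obtain ⟨g, hg⟩ := hconj
  have h1 := conj_of_conj_subgroupOf M H₁ L hH₁M hLM g hg
  refine ⟨(g : G), ?_⟩
  rw [← h1]
  intro y hy
  rw [mem_conj_smul] at hy ⊢
  exact hy.1

end Cfsg.Agent.S0589
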