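import Cfsg.Statements.S0590
import Mathlib

set_option autoImplicit false
open Cfsg

namespace Cfsg.Agent.S0590

open scoped commutatorElement

/-- Quadratic action on an elementary abelian p-group forces the acting group modulo the kernel of the action to be elementary abelian. -/
theorem result {G : Type*} [Group G] [Finite G] {p : ℕ} [Fact p.Prime] (V H : Subgroup G) (hV : Cfsg.IsElementaryAbelian p V) (hHV : H ≤ Subgroup.normalizer (V : Set G)) (hq : ⁅⁅V, H⁆, H⁆ = ⊥) : ⁅H, H⁆ ≤ Subgroup.centralizer (V : Set G) ∧ ∀ a ∈ H, a ^ p ∈ Subgroup.centralizer (V : Set G) := by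
  constructor
  · rw [← Subgroup.commutator_eq_bot_iff_le_centralizer]
    apply Subgroup.commutator_commutator_eq_bot_of_rotate
    · rw [Subgroup.commutator_comm H V]; exact hq
    · exact hq
  · intro a ha
    rw [Subgroup.mem_centralizer_iff]
    intro v hv
    have hvV : v ∈ V := hv
    set w : G := ⁅v, a⁆ with hw
    have hwmem : w ∈ ⁅V, H⁆ := Subgroup.commutator_mem_commutator hvV ha
    have hwa : ⁅w, a⁆ = 1 := by
      have : ⁅w, a⁆ ∈ ⁅⁅V, H⁆, H⁆ := Subgroup.commutator_mem_commutator hwmem ha
      rw [hq] at this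
      exact Subgroup.mem_bot.mp this
    have hcomm : w * a = a * w := commutatorElement_eq_one_iff_mul_comm.mp hwa
    have hwV : w ∈ V := by
      have h1 : a * v⁻¹ * a⁻¹ ∈ V := by
        have := (Subgroup.mem_normalizer_iff.mp (hHV ha) v⁻¹).mp (V.inv_mem hvV)
        exact this
      have h2 : w = v * (a * v⁻¹ * a⁻¹) := by
        rw [hw, commutatorElement_def]; group
      rw [h2]; exact V.mul_mem hvV h1
    have hwp : w ^ p = 1 := hV.2 w hwV
    have hav : a * v = w⁻¹ * v * a := by
      rw [hw, commutatorElement_def]; group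
    have hcomm' : ∀ k : ℕ, a * (w⁻¹) ^ k = (w⁻¹) ^ k * a := by
      intro k
      have h1 : Commute a w := hcomm.symm
      exact (h1.inv_right.pow_right k).eq
    have key : ∀ k : ℕ, a ^ k * v = (w⁻¹) ^ k * v * a ^ k := by
      intro k
      induction k with
      | zero => simp
      | succ k ih =>
        calc a ^ (k + 1) * v = a * (a ^ k * v) := by rw [pow_succ', mul_assoc]
          _ = a * ((w⁻¹) ^ k * v * a ^ k) := by rw [ih]
          _ = (a * (w⁻¹) ^ k) * v * a ^ k := by simp only [mul_assoc]
          _ = ((w⁻¹) ^ k * a) * v * a ^ k := by rw [hcomm' k]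
          _ = (w⁻¹) ^ k * (a * v) * a ^ k := by simp only [mul_assoc]
          _ = (w⁻¹) ^ k * (w⁻¹ * v * a) * a ^ k := by rw [hav]
          _ = (w⁻¹) ^ (k + 1) * v * a ^ (k + 1) := by
            rw [pow_succ, pow_succ']; simp only [mul_assoc]
    have := key p
    rw [inv_pow, hwp, inv_one, one_mul] at this
    exact this.symm

end Cfsg.Agent.S0590
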