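import Cfsg.Statements.S0591
import Mathlib

set_option autoImplicit false
open Cfsg

namespace Cfsg.Agent.S0591

open scoped commutatorElement

theorem mem_cent_zpowers {G : Type*} [Group G] {x a : G} (h : x * a = a * x) :
    x ∈ Subgroup.centralizer (Subgroup.zpowers a : Set G) := by
  rw [Subgroup.mem_centralizer_iff]
  intro y hy
  obtain ⟨k, rfl⟩ := Subgroup.mem_zpowers_iff.mp hy
  have : Commute x a := h
  exact (this.zpow_right k).eq.symm

/-- For a quadratically acting element a on an elementary abelian p-group V, the fixed points C_V(a) have order at least the square root of the order of V. -/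
theorem result {G : Type*} [Group G] [Finite G] {p : ℕ} [Fact p.Prime] (V : Subgroup G) (hV : Cfsg.IsElementaryAbelian p V) (a : G) (ha : a ∈ Subgroup.normalizer (V : Set G)) (hq : ⁅⁅V, Subgroup.zpowers a⁆, Subgroup.zpowers a⁆ = ⊥) : Nat.card V ≤ Nat.card ↥(V ⊓ Subgroup.centralizer (Subgroup.zpowers a : Set G)) ^ 2 := by
  have hc : ∀ x ∈ V, ∀ y ∈ V, x * y = y * x := by
    intro x hx y hy
    have := hV.1.is_comm.comm (⟨x, hx⟩ : V) ⟨y, hy⟩
    exact congrArg Subtype.val this
  have hconj : ∀ v ∈ V, a * v⁻¹ * a⁻¹ ∈ V := fun v hv =>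
    (Subgroup.mem_normalizer_iff.mp ha v⁻¹).mp (V.inv_mem hv)
  have hdef : ∀ v : G, ⁅v, a⁆ = v * (a * v⁻¹ * a⁻¹) := fun v => by
    rw [commutatorElement_def]; group
  have hmem : ∀ v ∈ V, ⁅v, a⁆ ∈ V := fun v hv => by
    rw [hdef]; exact V.mul_mem hv (hconj v hv)
  let φ : V →* V :=
    { toFun := fun v => ⟨⁅(v : G), a⁆, hmem v v.2⟩
      map_one' := by
        apply Subtype.ext
        simp [commutatorElement_def]
      map_mul' := by
        intro u v
        apply Subtype.ext
        show ⁅(u : G) * (v : G), a⁆ = ⁅(u : G), a⁆ * ⁅(v : G), a⁆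
        have h1 : ⁅(u : G) * (v : G), a⁆ =
            (u : G) * (((v : G) * (a * (v : G)⁻¹ * a⁻¹)) * (a * (u : G)⁻¹ * a⁻¹)) := by
          rw [commutatorElement_def]; group
        have h2 : ⁅(u : G), a⁆ * ⁅(v : G), a⁆ =
            (u : G) * ((a * (u : G)⁻¹ * a⁻¹) * ((v : G) * (a * (v : G)⁻¹ * a⁻¹))) := by
          rw [commutatorElement_def, commutatorElement_def]; group
        rw [h1, h2, hc _ (V.mul_mem v.2 (hconj v v.2)) _ (hconj u u.2)] }
  have hφ : ∀ v : V, ((φ v : V) : G) = ⁅(v : G), a⁆ := fun v => rfl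
  have hcard : Nat.card φ.ker * Nat.card φ.range = Nat.card V := by
    rw [← Subgroup.index_ker]; exact Subgroup.card_mul_index _
  have hker : Nat.card φ.ker ≤ Nat.card ↥(V ⊓ Subgroup.centralizer (Subgroup.zpowers a : Set G)) := by
    let f : φ.ker → ↥(V ⊓ Subgroup.centralizer (Subgroup.zpowers a : Set G)) := fun v =>
      ⟨((v : V) : G), by
        refine ⟨(v : V).2, ?_⟩
        have h1 : φ (v : V) = 1 := MonoidHom.mem_ker.mp v.2
        have h2 : ⁅((v : V) : G), a⁆ = 1 := by
          rw [← hφ, h1]; rfl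
        exact mem_cent_zpowers (commutatorElement_eq_one_iff_mul_comm.mp h2)⟩
    apply Nat.card_le_card_of_injective f
    intro x y hxy
    apply Subtype.ext
    apply Subtype.ext
    exact congrArg (fun t : ↥(V ⊓ Subgroup.centralizer (Subgroup.zpowers a : Set G)) => (t : G)) hxy
  have hrange : Nat.card φ.range ≤ Nat.card ↥(V ⊓ Subgroup.centralizer (Subgroup.zpowers a : Set G)) := by
    let f : φ.range → ↥(V ⊓ Subgroup.centralizer (Subgroup.zpowers a : Set G)) := fun y =>
      ⟨((y : V) : G), by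
        refine ⟨(y : V).2, ?_⟩
        obtain ⟨v, hv⟩ := MonoidHom.mem_range.mp y.2
        have h1 : ((y : V) : G) = ⁅(v : G), a⁆ := by rw [← hv]; rfl
        have h2 : ⁅⁅(v : G), a⁆, a⁆ ∈ ⁅⁅V, Subgroup.zpowers a⁆, Subgroup.zpowers a⁆ :=
          Subgroup.commutator_mem_commutator
            (Subgroup.commutator_mem_commutator v.2 (Subgroup.mem_zpowers a))
            (Subgroup.mem_zpowers a)
        rw [hq, Subgroup.mem_bot] at h2
        rw [h1]
        exact mem_cent_zpowers (commutatorElement_eq_one_iff_mul_comm.mp h2)⟩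
    apply Nat.card_le_card_of_injective f
    intro x y hxy
    apply Subtype.ext
    apply Subtype.ext
    exact congrArg (fun t : ↥(V ⊓ Subgroup.centralizer (Subgroup.zpowers a : Set G)) => (t : G)) hxy
  rw [← hcard, pow_two]
  exact Nat.mul_le_mul hker hrange

end Cfsg.Agent.S0591
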