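import Cfsg.Statements.S0592
import Mathlib
import Cfsg.Agent.Lib.helper3.QuadPair

set_option linter.style.haveILetI false

set_option autoImplicit false
open Cfsg

namespace Cfsg.Agent.S0592

/-- Two quadratically acting generators of a linear group that is not a p-group, with the p'-part of the order of their product dividing q - 1, give a homomorphism onto a subgroup of SL(2, q) that is not a p-group. -/
theorem result {K : Type*} [Field K] [Fintype K] {p : ℕ} [Fact p.Prime] [CharP K p] {W : Type*} [AddCommGroup W] [Module K W] [FiniteDimensional K W] [Finite W] [Nontrivial W] (H : Subgroup (W ≃ₗ[K] W)) (a b : W ≃ₗ[K] W) (hH : H = Subgroup.closure {a, b}) (ha : ∀ w : W, a (a w - w) = a w - w) (hb : ∀ w : W, b (b w - w) = b w - w) (hnp : ¬ IsPGroup p H) (hk : ∃ e k : ℕ, orderOf (a * b) = p ^ e * k ∧ k ∣ Fintype.card K - 1) : ∃ φ : H →* Matrix.SpecialLinearGroup (Fin 2) K, ¬ IsPGroup p φ.range := by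
  classical
  subst hH
  obtain ⟨a', ha'⟩ : ∃ a' : ↥(Subgroup.closure ({a, b} : Set (W ≃ₗ[K] W))), (a' : W ≃ₗ[K] W) = a :=
    ⟨⟨a, Subgroup.subset_closure (by simp)⟩, rfl⟩
  obtain ⟨b', hb'⟩ : ∃ b' : ↥(Subgroup.closure ({a, b} : Set (W ≃ₗ[K] W))), (b' : W ≃ₗ[K] W) = b :=
    ⟨⟨b, Subgroup.subset_closure (by simp)⟩, rfl⟩
  have hgen : Subgroup.closure ({a', b'} : Set ↥(Subgroup.closure ({a, b} : Set (W ≃ₗ[K] W)))) = ⊤ := by
    have h1 := Subgroup.closure_closure_coe_preimage (k := ({a, b} : Set (W ≃ₗ[K] W)))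
    have h2 : (Subtype.val ⁻¹' ({a, b} : Set (W ≃ₗ[K] W)) :
        Set ↥(Subgroup.closure ({a, b} : Set (W ≃ₗ[K] W)))) = {a', b'} := by
      ext x
      simp only [Set.mem_preimage, Set.mem_insert_iff, Set.mem_singleton_iff]
      rw [Subtype.ext_iff, Subtype.ext_iff, ha', hb']
    rw [← h2]; exact h1
  obtain ⟨ρ, hρ⟩ : ∃ ρ : ↥(Subgroup.closure ({a, b} : Set (W ≃ₗ[K] W))) →* Module.End K W,
      ∀ (g : ↥(Subgroup.closure ({a, b} : Set (W ≃ₗ[K] W)))) (x : W), ρ g x = (g : W ≃ₗ[K] W) x :=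
    ⟨{ toFun := fun g => ((g : W ≃ₗ[K] W) : W →ₗ[K] W)
       map_one' := rfl
       map_mul' := fun _ _ => rfl }, fun _ _ => rfl⟩
  have hρinj : ∀ g : ↥(Subgroup.closure ({a, b} : Set (W ≃ₗ[K] W))), ρ g = 1 → g = 1 := by
    intro g hg
    apply Subtype.ext
    apply LinearEquiv.ext
    intro x
    rw [← hρ, hg]
    rfl
  have hnp' : ∃ g : ↥(Subgroup.closure ({a, b} : Set (W ≃ₗ[K] W))), ∀ j : ℕ, ρ g ^ (p ^ j) ≠ 1 := by
    by_contra hcon
    push Not at hcon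
    apply hnp
    intro g
    obtain ⟨j, hj⟩ := hcon g
    exact ⟨j, hρinj _ (by rw [map_pow]; exact hj)⟩
  obtain ⟨e, k, hek, hkK⟩ := hk
  have hord : ∃ e k : ℕ, ρ (a' * b') ^ (p ^ e * k) = 1 ∧ k ∣ Fintype.card K - 1 := by
    refine ⟨e, k, ?_, hkK⟩
    rw [← map_pow]
    have h1 : (a' * b') ^ (p ^ e * k) = 1 := by
      apply Subtype.ext
      rw [Subgroup.coe_pow, Subgroup.coe_mul, ha', hb', ← hek, pow_orderOf_eq_one]
      rfl
    rw [h1, map_one]
  obtain ⟨φ, -, g, hg⟩ := Cfsg.Agent.Lib.helper3.quad_pair_sl2 a' b' hgen (Module.finrank K W) W ρ le_rfl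
    (fun x => by rw [hρ, hρ, ha']; exact ha x) (fun x => by rw [hρ, hρ, hb']; exact hb x) hnp' hord
  refine ⟨φ, fun hP => ?_⟩
  obtain ⟨j, hj⟩ := hP ⟨φ g, ⟨g, rfl⟩⟩
  apply hg j
  have := congrArg Subtype.val hj
  simpa using this

end Cfsg.Agent.S0592
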