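import Cfsg.Statements.S0594
import Mathlib
import Cfsg.Agent.Lib.helper3.QuadPairSL23

set_option linter.style.haveILetI false

set_option autoImplicit false
open Cfsg

namespace Cfsg.Agent.S0594

/-- For odd p, two quadratic generators of a faithful group that is not a p-group, one of which acts nontrivially on a normal subgroup of order prime to p, force p = 3 and a section isomorphic to SL(2,3). -/
theorem result {G : Type*} [Group G] [Finite G] {p : ℕ} [Fact p.Prime] (hp : p ≠ 2) (V H : Subgroup G) (hV : Cfsg.IsElementaryAbelian p V) (hHV : H ≤ Subgroup.normalizer (V : Set G)) (hf : H ⊓ Subgroup.centralizer (V : Set G) = ⊥) (a b : G) (hab : H = Subgroup.closure {a, b}) (ha : ⁅⁅V, Subgroup.zpowers a⁆, Subgroup.zpowers a⁆ = ⊥) (hb : ⁅⁅V, Subgroup.zpowers b⁆, Subgroup.zpowers b⁆ = ⊥) (hnp : ¬ IsPGroup p H) (Q : Subgroup G) (hQH : Q ≤ H) (hQn : H ≤ Subgroup.normalizer (Q : Set G)) (hQ : (Nat.card Q).Coprime p) (hQa : ⁅Q, Subgroup.zpowers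 a⁆ ≠ ⊥) : p = 3 ∧ ∃ (K L : Subgroup G) (hL : (L.subgroupOf K).Normal), K ≤ H ∧ Nonempty ((K ⧸ L.subgroupOf K) ≃* Matrix.SpecialLinearGroup (Fin 2) (ZMod 3)) := by
  classical
  have hVc : ∀ x ∈ V, ∀ y ∈ V, x * y = y * x :=
    ((Cfsg.Agent.Lib.helper3.isEA_iff p V).mp hV).1
  have haH : a ∈ H := by rw [hab]; exact Subgroup.subset_closure (by simp)
  have hbH : b ∈ H := by rw [hab]; exact Subgroup.subset_closure (by simp)
  obtain ⟨q, hqQ, hqa⟩ : ∃ q ∈ Q, a * q ≠ q * a := by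
    by_contra hcon
    push Not at hcon
    apply hQa
    rw [Subgroup.commutator_eq_bot_iff_le_centralizer]
    intro q hq
    rw [Subgroup.mem_centralizer_iff]
    intro z hz
    obtain ⟨k, rfl⟩ := Subgroup.mem_zpowers_iff.mp hz
    exact ((show Commute a q from hcon q hq).zpow_left k).eq
  subst hab
  obtain ⟨hp3, K, L, hL, hK, e⟩ := Cfsg.Agent.Lib.helper3.quad_pair_sl23_subgroup hp V hVc hV.2 a
    b (hHV haH) (hHV hbH) (Cfsg.Agent.Lib.helper3.quad_of_comm_comm_eq_bot V a ha)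
    (Cfsg.Agent.Lib.helper3.quad_of_comm_comm_eq_bot V b hb) hf
    (Or.inr ⟨Q, hQH, hQn, hQ, q, hqQ, hqa⟩)
  exact ⟨hp3, K, L, hL, hK, e⟩

end Cfsg.Agent.S0594
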