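import Cfsg.Statements.S0595
import Mathlib
import Cfsg.Agent.Lib.helper3.QuadPairSylow2

set_option linter.style.haveILetI false

set_option autoImplicit false
open Cfsg

namespace Cfsg.Agent.S0595

/-- For odd p, a faithful action on an elementary abelian p-group that is not p-stable forces non-abelian Sylow 2-subgroups. -/
theorem result {G : Type*} [Group G] [Finite G] {p : ℕ} [Fact p.Prime] (hp : p ≠ 2) (V H : Subgroup G) (hV : Cfsg.IsElementaryAbelian p V) (hHV : H ≤ Subgroup.normalizer (V : Set G)) (hf : H ⊓ Subgroup.centralizer (V : Set G) = ⊥) (a : G) (haH : a ∈ H) (hq : ⁅⁅V, Subgroup.zpowers a⁆, Subgroup.zpowers a⁆ = ⊥) (hna : a ∉ (Cfsg.pCore p H).map H.subtype) (T : Sylow 2 H) : ¬ IsMulCommutative T := by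
  have hVc : ∀ x ∈ V, ∀ y ∈ V, x * y = y * x := fun x hx y hy =>
    congrArg Subtype.val (hV.1.is_comm.comm (⟨x, hx⟩ : ↥V) ⟨y, hy⟩)
  intro hTc
  obtain ⟨N, hNn, hNp, haN⟩ := Cfsg.Agent.Lib.helper3.quad_mem_normal_p_of_sylow2_comm hp V H hVc hV.2
    hHV hf a haH hq T hTc
  apply hna
  exact ⟨⟨a, haH⟩, le_sSup (show N ∈ {N : Subgroup ↥H | N.Normal ∧ IsPGroup p N} from ⟨hNn, hNp⟩) haN, rfl⟩

end Cfsg.Agent.S0595
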