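import Cfsg.Statements.S0596
import Mathlib
import Cfsg.Agent.Lib.helper3.QuadPairSL23

set_option linter.style.haveILetI false

set_option autoImplicit false
open Cfsg

namespace Cfsg.Agent.S0596

/-- For odd p, a p-separable group with a faithful action on an elementary abelian p-group that is not p-stable has p = 3 and involves SL(2,3). -/
theorem result {G : Type*} [Group G] [Finite G] {p : ℕ} [Fact p.Prime] (hp : p ≠ 2) (V H : Subgroup G) (hV : Cfsg.IsElementaryAbelian p V) (hHV : H ≤ Subgroup.normalizer (V : Set G)) (hf : H ⊓ Subgroup.centralizer (V : Set G) = ⊥) (hsep : Cfsg.IsPSolvable p H) (a : G) (haH : a ∈ H) (hq : ⁅⁅V, Subgroup.zpowers a⁆, Subgroup.zpowers a⁆ = ⊥) (hna : a ∉ (Cfsg.pCore p H).map H.subtype) : p = 3 ∧ ∃ (K L : Subgroup G) (hL : (L.subgroupOf K).Normal), K ≤ H ∧ Nonempty ((K ⧸ L.subgroupOf K) ≃* Matrix.SpecialLinearGroup (Fin 2) (ZMod 3)) := by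
  classical
  have hVc : ∀ x ∈ V, ∀ y ∈ V, x * y = y * x :=
    ((Cfsg.Agent.Lib.helper3.isEA_iff p V).mp hV).1
  have hqa := Cfsg.Agent.Lib.helper3.quad_of_comm_comm_eq_bot V a hq
  have hex : ∃ g ∈ H, ∃ h ∈ Subgroup.closure ({a, g * a * g⁻¹} : Set G),
      ∀ j : ℕ, h ^ (p ^ j) ≠ 1 := by
    by_contra hcon
    push Not at hcon
    obtain ⟨N, hNn, hNp, haN⟩ := Cfsg.Agent.Lib.helper3.mem_normal_p_of_pairs (p := p) H a haH hcon
    apply hna
    exact ⟨⟨a, haH⟩, (le_sSup (show N ∈ {N : Subgroup ↥H | N.Normal ∧ IsPGroup p N} from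
      ⟨hNn, hNp⟩)) haN, rfl⟩
  obtain ⟨g, hg, h, hh, hhj⟩ := hex
  have hle : Subgroup.closure ({a, g * a * g⁻¹} : Set G) ≤ H := by
    rw [Subgroup.closure_le]
    intro x hx
    rcases hx with rfl | hx
    · exact haH
    · rw [Set.mem_singleton_iff] at hx; subst hx
      exact H.mul_mem (H.mul_mem hg haH) (H.inv_mem hg)
  have hsol' := Cfsg.Agent.Lib.helper3.isPSolvable_of_le hle hsep
  have hf' : Subgroup.closure ({a, g * a * g⁻¹} : Set G) ⊓ Subgroup.centralizer (V : Set G) = ⊥ := by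
    rw [eq_bot_iff, ← hf]
    exact inf_le_inf_right _ hle
  obtain ⟨hp3, K, L, hL, hK, e⟩ := Cfsg.Agent.Lib.helper3.quad_pair_sl23_subgroup hp V hVc hV.2 a
    (g * a * g⁻¹) (hHV haH) (hHV (hle (Subgroup.subset_closure (by simp)))) hqa
    (Cfsg.Agent.Lib.helper3.quad_conj V a g (hHV hg) hqa) hf' (Or.inl ⟨hsol', h, hh, hhj⟩)
  exact ⟨hp3, K, L, hL, hK.trans hle, e⟩

end Cfsg.Agent.S0596
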