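import Cfsg.Statements.S0597
import Mathlib
import Cfsg.Agent.Lib.helper3.SubnormalP
import Cfsg.Agent.Lib.helper3.Thompson
import Cfsg.Agent.Lib.helper3.Normalizer

set_option linter.style.haveILetI false

set_option autoImplicit false
open Cfsg

namespace Cfsg.Agent.S0597

open scoped commutatorElement

/-- If two subnormal subgroups of a faithful group on an elementary abelian p-group satisfy [V, E₁, E₂] = 1, then their commutator lies in the largest normal p-subgroup. -/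
theorem result {G : Type*} [Group G] [Finite G] {p : ℕ} [Fact p.Prime] (V H : Subgroup G) (hV : Cfsg.IsElementaryAbelian p V) (hHV : H ≤ Subgroup.normalizer (V : Set G)) (hf : H ⊓ Subgroup.centralizer (V : Set G) = ⊥) (E₁ E₂ : Subgroup G) (h₁ : E₁ ≤ H) (h₂ : E₂ ≤ H) (hs₁ : (E₁.subgroupOf H).IsSubnormal) (hs₂ : (E₂.subgroupOf H).IsSubnormal) (hc : ⁅⁅V, E₁⁆, E₂⁆ = ⊥) : ⁅E₁, E₂⁆ ≤ (Cfsg.pCore p H).map H.subtype := by
  classical
  have hp : p.Prime := Fact.out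
  obtain ⟨hVab, hVexp⟩ := (Cfsg.Agent.Lib.helper3.isEA_iff p V).mp hV
  set W : Subgroup G := ⁅V, E₁⁆ with hW
  -- H normalizes V
  have hnV : ∀ g ∈ H, ∀ v ∈ V, g * v * g⁻¹ ∈ V := fun g hg v hv =>
    (Subgroup.mem_normalizer_iff.mp (hHV hg) v).mp hv
  have hWV : W ≤ V := by
    rw [hW, Subgroup.commutator_le]
    intro v hv e he
    rw [commutatorElement_def]
    have h1 := hnV e (h₁ he) v⁻¹ (inv_mem hv)
    have : v * e * v⁻¹ * e⁻¹ = v * (e * v⁻¹ * e⁻¹) := by group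
    rw [this]; exact mul_mem hv h1
  -- E₂ centralizes W
  have hcW : ∀ w ∈ W, ∀ e ∈ E₂, e * w = w * e := by
    intro w hw e he
    have h1 : ⁅w, e⁆ ∈ ⁅W, E₂⁆ := Subgroup.commutator_mem_commutator hw he
    rw [hc, Subgroup.mem_bot] at h1
    exact (commutatorElement_eq_one_iff_mul_comm.mp h1).symm
  -- E₁ normalizes W
  have hnW : ∀ e ∈ E₁, ∀ w ∈ W, e * w * e⁻¹ ∈ W := fun e he w hw =>
    Cfsg.Agent.Lib.helper3.conj_commutator_mem_right he w hw
  -- E₁ acts trivially on V / W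
  have htW : ∀ e ∈ E₁, ∀ v ∈ V, e * v * e⁻¹ * v⁻¹ ∈ W := by
    intro e he v hv
    have h1 : ⁅v, e⁆ ∈ W := Subgroup.commutator_mem_commutator hv he
    have h2 := inv_mem h1
    rw [commutatorElement_inv, commutatorElement_def] at h2
    exact h2
  -- the chain stabilizer
  let T : Subgroup G :=
    { carrier := {x | (∀ w ∈ W, x * w = w * x) ∧ ∀ v ∈ V, x * v * x⁻¹ * v⁻¹ ∈ W}
      one_mem' := ⟨fun w _ => by simp, fun v _ => by simp⟩
      mul_mem' := by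
        rintro x y ⟨hx1, hx2⟩ ⟨hy1, hy2⟩
        refine ⟨fun w hw => ?_, fun v hv => ?_⟩
        · rw [mul_assoc, hy1 w hw, ← mul_assoc, hx1 w hw, mul_assoc]
        · have h1 := hy2 v hv
          have h2 := hx2 v hv
          have h3 : x * y * v * (x * y)⁻¹ * v⁻¹ =
              (x * (y * v * y⁻¹ * v⁻¹) * x⁻¹) * (x * v * x⁻¹ * v⁻¹) := by group
          rw [h3, hx1 _ h1, mul_inv_cancel_right]
          exact mul_mem h1 h2
      inv_mem' := by
        rintro x ⟨hx1, hx2⟩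
        have hx1' : ∀ w ∈ W, x⁻¹ * w = w * x⁻¹ := by
          intro w hw
          have := hx1 w hw
          calc x⁻¹ * w = x⁻¹ * (w * x) * x⁻¹ := by group
            _ = x⁻¹ * (x * w) * x⁻¹ := by rw [this]
            _ = w * x⁻¹ := by group
        refine ⟨hx1', fun v hv => ?_⟩
        have h1 := inv_mem (hx2 v hv)
        have h3 : x⁻¹ * v * x⁻¹⁻¹ * v⁻¹ = x⁻¹ * (x * v * x⁻¹ * v⁻¹)⁻¹ * x := by group
        rw [h3, hx1' _ h1, inv_mul_cancel_right]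
        exact h1 }
  have hDT : ⁅E₁, E₂⁆ ≤ T := by
    rw [Subgroup.commutator_le]
    intro e₁ he₁ e₂ he₂
    rw [commutatorElement_def]
    refine ⟨fun w hw => ?_, fun v hv => ?_⟩
    · have hw' : e₁⁻¹ * w * e₁ ∈ W := by
        have := hnW e₁⁻¹ (inv_mem he₁) w hw
        simpa using this
      have h1 := hcW w hw e₂⁻¹ (inv_mem he₂)
      have h2 := hcW _ hw' e₂ he₂
      calc e₁ * e₂ * e₁⁻¹ * e₂⁻¹ * w = e₁ * e₂ * e₁⁻¹ * (e₂⁻¹ * w) := by group
        _ = e₁ * e₂ * e₁⁻¹ * (w * e₂⁻¹) := by rw [h1]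
        _ = e₁ * (e₂ * (e₁⁻¹ * w * e₁)) * e₁⁻¹ * e₂⁻¹ := by group
        _ = e₁ * ((e₁⁻¹ * w * e₁) * e₂) * e₁⁻¹ * e₂⁻¹ := by rw [h2]
        _ = w * (e₁ * e₂ * e₁⁻¹ * e₂⁻¹) := by group
    · have hv1 : e₂⁻¹ * v * e₂ ∈ V := by
        have := hnV e₂⁻¹ (h₂ (inv_mem he₂)) v hv
        simpa using this
      have hw1 : e₁⁻¹ * (e₂⁻¹ * v * e₂) * e₁ * (e₂⁻¹ * v * e₂)⁻¹ ∈ W := by
        have := htW e₁⁻¹ (inv_mem he₁) _ hv1
        simpa using this
      have hw1c := hcW _ hw1 e₂ he₂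
      have hw2 := hnW e₁ he₁ _ hw1
      have hw3 := htW e₁ he₁ v hv
      have e1 : e₁ * e₂ * e₁⁻¹ * e₂⁻¹ * v * (e₁ * e₂ * e₁⁻¹ * e₂⁻¹)⁻¹ * v⁻¹ =
          e₁ * (e₂ * (e₁⁻¹ * (e₂⁻¹ * v * e₂) * e₁ * (e₂⁻¹ * v * e₂)⁻¹)) * e₂⁻¹ * v * e₁⁻¹ * v⁻¹ := by
        group
      rw [e1, hw1c]
      have e2 : e₁ * ((e₁⁻¹ * (e₂⁻¹ * v * e₂) * e₁ * (e₂⁻¹ * v * e₂)⁻¹) * e₂) * e₂⁻¹ * v * e₁⁻¹ * v⁻¹
          = (e₁ * (e₁⁻¹ * (e₂⁻¹ * v * e₂) * e₁ * (e₂⁻¹ * v * e₂)⁻¹) * e₁⁻¹) *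
            (e₁ * v * e₁⁻¹ * v⁻¹) := by group
      rw [e2]
      exact mul_mem hw2 hw3
  have hDH : ⁅E₁, E₂⁆ ≤ H := by
    rw [Subgroup.commutator_le]
    intro a ha b hb
    rw [commutatorElement_def]
    exact mul_mem (mul_mem (mul_mem (h₁ ha) (h₂ hb)) (inv_mem (h₁ ha))) (inv_mem (h₂ hb))
  -- exponent p
  have hexp : ∀ x ∈ ⁅E₁, E₂⁆, x ^ p = 1 := by
    intro x hx
    obtain ⟨hx1, hx2⟩ := hDT hx
    have hxp : x ^ p ∈ H ⊓ Subgroup.centralizer (V : Set G) := by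
      refine ⟨pow_mem (hDH hx) p, ?_⟩
      refine Subgroup.mem_centralizer_iff.mpr ?_
      intro v hv
      have hw := hx2 v hv
      have hxw := hx1 _ hw
      have hxv : x * v = (x * v * x⁻¹ * v⁻¹) * v * x := by group
      have key : ∀ k : ℕ, x ^ k * v = (x * v * x⁻¹ * v⁻¹) ^ k * v * x ^ k := by
        intro k
        induction k with
        | zero => simp
        | succ k ih =>
          have hc1 : Commute x ((x * v * x⁻¹ * v⁻¹) ^ k) := Commute.pow_right hxw k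
          calc x ^ (k + 1) * v = x * (x ^ k * v) := by rw [pow_succ']; group
            _ = x * ((x * v * x⁻¹ * v⁻¹) ^ k * v * x ^ k) := by rw [ih]
            _ = (x * (x * v * x⁻¹ * v⁻¹) ^ k) * v * x ^ k := by group
            _ = ((x * v * x⁻¹ * v⁻¹) ^ k * x) * v * x ^ k := by rw [hc1.eq]
            _ = (x * v * x⁻¹ * v⁻¹) ^ k * (x * v) * x ^ k := by group
            _ = (x * v * x⁻¹ * v⁻¹) ^ k * ((x * v * x⁻¹ * v⁻¹) * v * x) * x ^ k := by rw [← hxv]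
            _ = (x * v * x⁻¹ * v⁻¹) ^ (k + 1) * v * x ^ (k + 1) := by
                rw [pow_succ, pow_succ']; group
      have := key p
      rw [hVexp _ (hWV hw), one_mul] at this
      exact this.symm
    rw [hf, Subgroup.mem_bot] at hxp
    exact hxp
  -- D.subgroupOf H is a subnormal p-subgroup of H
  have hDp : IsPGroup p ((⁅E₁, E₂⁆ : Subgroup G).subgroupOf H) := by
    intro x
    refine ⟨1, ?_⟩
    rw [pow_one]
    apply Subtype.ext
    apply Subtype.ext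
    have := hexp (x : H) x.2
    simpa using this
  have hJ : ((E₁ ⊔ E₂).subgroupOf H).IsSubnormal := by
    rw [Subgroup.subgroupOf_sup h₁ h₂]
    exact Cfsg.Agent.Lib.helper3.isSubnormal_sup hs₁ hs₂
  have hDJ : ⁅E₁, E₂⁆ ≤ E₁ ⊔ E₂ := by
    rw [Subgroup.commutator_le]
    intro a ha b hb
    rw [commutatorElement_def]
    have ha' : a ∈ E₁ ⊔ E₂ := Subgroup.mem_sup_left ha
    have hb' : b ∈ E₁ ⊔ E₂ := Subgroup.mem_sup_right hb
    exact mul_mem (mul_mem (mul_mem ha' hb') (inv_mem ha')) (inv_mem hb')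
  have hJn : E₁ ⊔ E₂ ≤ Subgroup.normalizer ((⁅E₁, E₂⁆ : Subgroup G) : Set G) := by
    apply sup_le
    · apply Cfsg.Agent.Lib.helper3.le_normalizer_of_conj_mem
      intro g hg a ha
      exact Cfsg.Agent.Lib.helper3.conj_commutator_mem_left hg a ha
    · apply Cfsg.Agent.Lib.helper3.le_normalizer_of_conj_mem
      intro g hg a ha
      exact Cfsg.Agent.Lib.helper3.conj_commutator_mem_right hg a ha
  have hDsub : ((⁅E₁, E₂⁆ : Subgroup G).subgroupOf H).IsSubnormal := by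
    have hle : (⁅E₁, E₂⁆ : Subgroup G).subgroupOf H ≤ (E₁ ⊔ E₂).subgroupOf H := by
      intro x hx
      rw [Subgroup.mem_subgroupOf] at hx ⊢
      exact hDJ hx
    refine Subgroup.IsSubnormal.step _ _ hle hJ ?_
    rw [Subgroup.normal_subgroupOf_iff_le_normalizer hle]
    apply Cfsg.Agent.Lib.helper3.le_normalizer_of_conj_mem
    intro g hg a ha
    rw [Subgroup.mem_subgroupOf] at hg ha ⊢
    have := (Subgroup.mem_normalizer_iff.mp (hJn hg) (a : G)).mp ha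
    simpa using this
  have hfinal := Cfsg.Agent.Lib.helper3.subnormal_pgroup_le_pCore3 hDsub hDp
  intro x hx
  exact ⟨⟨x, hDH hx⟩, hfinal (by rw [Subgroup.mem_subgroupOf]; exact hx), rfl⟩

end Cfsg.Agent.S0597
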