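import Cfsg.Statements.S0599
import Mathlib
import Cfsg.Agent.Lib.helper3.Replacement

set_option linter.style.haveILetI false

set_option autoImplicit false
open Cfsg

namespace Cfsg.Agent.S0599

/-- The Timmesfeld replacement Theorem: replacing a best offender A by C_A([U, A]) gives a best offender with fixed points [U, A]C_V(A), still nontrivial on V if A was. -/
theorem result {G : Type*} [Group G] [Finite G] {p : ℕ} [Fact p.Prime] (V A : Subgroup G) (hV : Cfsg.IsElementaryAbelian p V) (hAV : A ≤ Subgroup.normalizer (V : Set G)) (hA : Cfsg.IsBestOffenderOn p V A) (U : Subgroup G) (hU : U ≤ V) : Cfsg.IsBestOffenderOn p V (A ⊓ Subgroup.centralizer ((⁅U, A⁆ : Subgroup G) : Set G)) ∧ V ⊓ Subgroup.centralizer ((A ⊓ Subgroup.centralizer ((⁅U, A⁆ : Subgroup G) : Set G) : Subgroup G) : Set G) = ⁅U, A⁆ ⊔ (V ⊓ Subgroup.centralizer (A : Set G)) ∧ (⁅V, A⁆ ≠ ⊥ → ⁅V, A ⊓ Subgroup.centralizer ((⁅U, A⁆ : Subgroup G) : Set G)⁆ ≠ ⊥) := by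
  have hVc := ((Cfsg.Agent.Lib.helper3.isEA_iff p V).mp hV).1
  obtain ⟨hbest, hab, hAp⟩ := hA
  obtain ⟨h1, h2⟩ := Cfsg.Agent.Lib.helper3.timmesfeld_core V A hVc hAV hab hbest U hU
  refine ⟨⟨?_, ?_, ?_⟩, h2, ?_⟩
  · intro D hD
    rw [h1]
    exact hbest D (hD.trans inf_le_left)
  · exact (Subgroup.commutator_mono inf_le_left inf_le_left).trans hab
  · intro a ha
    exact hAp a (Subgroup.mem_inf.mp ha).1
  · intro hne hbot
    apply hne
    have hVB : V ≤ Subgroup.centralizer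
        ((A ⊓ Subgroup.centralizer ((⁅U, A⁆ : Subgroup G) : Set G) : Subgroup G) : Set G) :=
      Subgroup.commutator_eq_bot_iff_le_centralizer.mp hbot
    have h3 : V ≤ ⁅V, A⁆ ⊔ (V ⊓ Subgroup.centralizer (A : Set G)) := by
      have h4 : V ≤ V ⊓ Subgroup.centralizer
          ((A ⊓ Subgroup.centralizer ((⁅U, A⁆ : Subgroup G) : Set G) : Subgroup G) : Set G) :=
        le_inf le_rfl hVB
      rw [h2] at h4
      exact h4.trans (sup_le_sup_right (Subgroup.commutator_mono hU le_rfl) _)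
    exact Cfsg.Agent.Lib.helper3.commutator_eq_bot_of_exp V A
      (Cfsg.Agent.Lib.helper3.isPGroup_of_isEA hV) hVc hAV hAp h3

end Cfsg.Agent.S0599
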