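import Cfsg.Statements.S0604
import Mathlib
import Cfsg.Agent.Lib.helper3.Thompson

set_option autoImplicit false
open Cfsg

namespace Cfsg.Agent.S0604

open Cfsg.Agent.Lib.helper3
open scoped Pointwise

theorem isPGroup_of_isEA {G : Type*} [Group G] {p : ℕ} {B : Subgroup G}
    (hB : Cfsg.IsElementaryAbelian p B) : IsPGroup p B := by
  intro b
  refine ⟨1, ?_⟩
  apply Subtype.ext
  rw [pow_one]
  exact hB.2 b b.2

/-- an elementary abelian subgroup of `G` has order at most that of a maximal one of a Sylow subgroup -/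
theorem card_le_of_maxEA_sylow {G : Type*} [Group G] [Finite G] {p : ℕ} [Fact p.Prime]
    (S : Sylow p G) {A : Subgroup (S : Subgroup G)}
    (hA : A ∈ Cfsg.maxElementaryAbelianSubgroups p (S : Subgroup G))
    {B : Subgroup G} (hB : Cfsg.IsElementaryAbelian p B) : Nat.card B ≤ Nat.card A := by
  obtain ⟨S', hS'⟩ := (isPGroup_of_isEA hB).exists_le_sylow
  obtain ⟨g, hg⟩ := MulAction.exists_smul_eq G S S'
  have h1 : B ≤ MulAut.conj g • (S : Subgroup G) := by
    rw [← Sylow.coe_subgroup_smul, hg]; exact hS'
  rw [Subgroup.subset_pointwise_smul_iff] at h1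
  have hB' : Cfsg.IsElementaryAbelian p ((MulAut.conj g)⁻¹ • B) := by
    rw [Subgroup.pointwise_smul_def]
    exact isEA_map p _ hB
  have hc1 : Nat.card ((MulAut.conj g)⁻¹ • B : Subgroup G) = Nat.card B :=
    (Nat.card_congr (Subgroup.equivSMul (MulAut.conj g)⁻¹ B).toEquiv).symm
  have hB'' : Cfsg.IsElementaryAbelian p (((MulAut.conj g)⁻¹ • B).subgroupOf (S : Subgroup G)) :=
    isEA_comap p (S : Subgroup G).subtype (S : Subgroup G).subtype_injective hB'
  have hc2 : Nat.card (((MulAut.conj g)⁻¹ • B).subgroupOf (S : Subgroup G)) =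
      Nat.card ((MulAut.conj g)⁻¹ • B : Subgroup G) :=
    Nat.card_congr (Subgroup.subgroupOfEquivOfLe h1).toEquiv
  have := hA.2 _ hB''
  omega

/-- The Thompson subgroup of G is the join of the Thompson subgroups of its Sylow p-subgroups. -/
theorem result {G : Type*} [Group G] [Finite G] {p : ℕ} [Fact p.Prime] : Cfsg.thompsonSubgroup p G = ⨆ S : Sylow p G, Cfsg.thompsonSubgroupOf p (S : Subgroup G) := by
  apply le_antisymm
  · apply sSup_le
    intro A hA
    obtain ⟨S, hS⟩ := (isPGroup_of_isEA hA.1).exists_le_sylow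
    have hsub : A.subgroupOf (S : Subgroup G) ∈ Cfsg.maxElementaryAbelianSubgroups p (S : Subgroup G) := by
      refine ⟨isEA_comap p (S : Subgroup G).subtype (S : Subgroup G).subtype_injective hA.1,
        fun B hB => ?_⟩
      have h1 : Nat.card (A.subgroupOf (S : Subgroup G)) = Nat.card A :=
        Nat.card_congr (Subgroup.subgroupOfEquivOfLe hS).toEquiv
      have h2 : Nat.card (B.map (S : Subgroup G).subtype) = Nat.card B :=
        Subgroup.card_map_of_injective (S : Subgroup G).subtype_injective
      rw [h1, ← h2]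
      exact hA.2 _ (isEA_map p (S : Subgroup G).subtype hB)
    have e : A = (A.subgroupOf (S : Subgroup G)).map (S : Subgroup G).subtype :=
      (Subgroup.map_subgroupOf_eq_of_le hS).symm
    refine le_trans ?_ (le_iSup _ S)
    unfold Cfsg.thompsonSubgroupOf
    rw [e]
    exact Subgroup.map_mono (le_thompson hsub)
  · apply iSup_le
    intro S
    unfold Cfsg.thompsonSubgroupOf
    rw [Subgroup.map_le_iff_le_comap]
    apply sSup_le
    intro A hA
    rw [← Subgroup.map_le_iff_le_comap]
    apply le_thompson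
    refine ⟨isEA_map p (S : Subgroup G).subtype hA.1, fun B hB => ?_⟩
    have h2 : Nat.card (A.map (S : Subgroup G).subtype) = Nat.card A :=
      Subgroup.card_map_of_injective (S : Subgroup G).subtype_injective
    rw [h2]
    exact card_le_of_maxEA_sylow S hA hB

end Cfsg.Agent.S0604
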