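import Cfsg.Statements.S0605
import Mathlib
import Cfsg.Agent.Lib.helper3.Thompson

set_option autoImplicit false
open Cfsg

namespace Cfsg.Agent.S0605

open Cfsg.Agent.Lib.helper3

/-- Elements of order p in the centralizer of the Thompson subgroup belong to the Thompson subgroup (so to its centre). -/
theorem result {G : Type*} [Group G] [Finite G] {p : ℕ} [Fact p.Prime] (x : G) (hx : x ∈ Subgroup.centralizer (Cfsg.thompsonSubgroup p G : Set G)) (ho : orderOf x = p) : x ∈ Cfsg.thompsonSubgroup p G := by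
  obtain ⟨A, hA⟩ := exists_maxEA p G
  have hAJ : A ≤ Cfsg.thompsonSubgroup p G := le_thompson hA
  have hxp : x ^ p = 1 := by rw [← ho]; exact pow_orderOf_eq_one x
  have hc : ∀ a ∈ A, a * x = x * a := by
    intro a ha
    exact Subgroup.mem_centralizer_iff.mp hx a (hAJ ha)
  have hB : Cfsg.IsElementaryAbelian p (A ⊔ Subgroup.zpowers x) := isEA_sup_zpowers p hA.1 hxp hc
  have hcard := hA.2 _ hB
  have heq : A = A ⊔ Subgroup.zpowers x := Subgroup.eq_of_le_of_card_ge le_sup_left hcard
  apply hAJ
  rw [heq]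
  exact (le_sup_right : Subgroup.zpowers x ≤ A ⊔ Subgroup.zpowers x) (Subgroup.mem_zpowers x)

end Cfsg.Agent.S0605
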