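import Cfsg.Statements.S0609
import Mathlib
import Cfsg.Agent.Lib.helper3.ThompsonFact
import Cfsg.Agent.Lib.helper9.PPrimeCore

set_option linter.style.haveILetI false

set_option autoImplicit false
open Cfsg

namespace Cfsg.Agent.S0609

/-- Thompson factorizability passes to and from the quotient by the largest normal subgroup of order prime to p. -/
theorem result {G : Type*} [Group G] [Finite G] {p : ℕ} [Fact p.Prime] : Cfsg.IsThompsonFactorizable p G ↔ Cfsg.IsThompsonFactorizable p (G ⧸ Cfsg.pPrimeCore p G) := by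
  classical
  set N : Subgroup G := Cfsg.pPrimeCore p G with hN
  set π : G →* G ⧸ N := QuotientGroup.mk' N with hπ
  have hsurj : Function.Surjective π := QuotientGroup.mk'_surjective N
  have hkerπ : π.ker = N := QuotientGroup.ker_mk' N
  have hcop : (Nat.card π.ker).Coprime p := by
    rw [hkerπ]; exact Cfsg.Agent.Lib.helper9.pPrimeCore_coprime p G
  have hdisj : ∀ S : Sylow p G, (S : Subgroup G) ⊓ π.ker = ⊥ := by
    intro S
    apply Disjoint.eq_bot
    apply Subgroup.disjoint_of_coprime_natCard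
    obtain ⟨k, hk⟩ := IsPGroup.iff_card.mp S.isPGroup'
    rw [hk]
    exact Nat.Coprime.pow_left k hcop.symm
  constructor
  · intro hG Sb gb
    obtain ⟨S, rfl⟩ := Sylow.mapSurjective_surjective hsurj p Sb
    obtain ⟨g, rfl⟩ := hsurj gb
    obtain ⟨x, hx, c, hc, n, hn, rfl⟩ := hG S g
    refine ⟨1, one_mem _, π c, ?_, π n, ?_, ?_⟩
    · rw [Sylow.coe_mapSurjective, Cfsg.Agent.Lib.helper3.omegaOne_center_map p π _ (hdisj S)]
      rw [Subgroup.mem_centralizer_iff]
      rintro _ ⟨z, hz, rfl⟩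
      have := Subgroup.mem_centralizer_iff.mp hc z hz
      rw [← map_mul, ← map_mul, this]
    · rw [Sylow.coe_mapSurjective, Cfsg.Agent.Lib.helper3.thompsonSubgroupOf_map p π _ (hdisj S)]
      exact Subgroup.le_normalizer_map π (Subgroup.mem_map_of_mem π hn)
    · have hx1 : π x = 1 := by
        rw [← MonoidHom.mem_ker, hkerπ]; exact hx
      rw [map_mul, map_mul, hx1]
  · intro hQ S g
    obtain ⟨xb, hxb, cb, hcb, nb, hnb, hg⟩ := hQ (S.mapSurjective hsurj) (π g)
    rw [Cfsg.Agent.Lib.helper9.pPrimeCore_quotient_eq_bot p G, Subgroup.mem_bot] at hxb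
    rw [Sylow.coe_mapSurjective, Cfsg.Agent.Lib.helper3.omegaOne_center_map p π _ (hdisj S)] at hcb
    rw [Sylow.coe_mapSurjective, Cfsg.Agent.Lib.helper3.thompsonSubgroupOf_map p π _ (hdisj S)] at hnb
    obtain ⟨c₀, rfl⟩ := hsurj cb
    obtain ⟨n₀, rfl⟩ := hsurj nb
    have hZp : IsPGroup p (Cfsg.omegaOne p ((S : Subgroup G) ⊓
        Subgroup.centralizer ((S : Subgroup G) : Set G))) := by
      apply S.isPGroup'.to_le
      unfold Cfsg.omegaOne
      rw [Subgroup.closure_le]
      rintro x ⟨hx, -⟩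
      exact hx.1
    have hJp : IsPGroup p (Cfsg.thompsonSubgroupOf p (S : Subgroup G)) :=
      S.isPGroup'.to_le (Cfsg.Agent.Lib.helper3.thompsonSubgroupOf_le S)
    obtain ⟨c, hc, hcc⟩ := Cfsg.Agent.Lib.helper3.lift_centralizer π hcop _ hZp c₀ hcb
    obtain ⟨n, hn, hnn⟩ := Cfsg.Agent.Lib.helper3.lift_normalizer π hcop _ hJp n₀ hnb
    refine ⟨g * (c * n)⁻¹, ?_, c, hc, n, hn, by group⟩
    have hmem : g * (c * n)⁻¹ ∈ π.ker := by
      rw [MonoidHom.mem_ker, map_mul, map_inv, map_mul, hg, hxb, hcc, hnn]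
      group
    rw [hkerπ] at hmem
    exact hmem

end Cfsg.Agent.S0609
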