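import Cfsg.Statements.S0613
import Cfsg.Agent.Lib.helper14.FFSL2

set_option autoImplicit false
open Cfsg
open Cfsg.Agent.Lib.helper14

namespace Cfsg.Agent.S0613

/-- A minimal nontrivially-acting best offender and a conjugate of it under a non-centralizing element of the p'-core generate SL(2, p) acting naturally on a plane, and p is 2 or 3. -/
theorem result {G : Type*} [Group G] [Finite G] {p : ℕ} [Fact p.Prime] (V H : Subgroup G) (hV : Cfsg.IsElementaryAbelian p V) (hHV : H ≤ Subgroup.normalizer (V : Set G)) (hf : H ⊓ Subgroup.centralizer (V : Set G) = ⊥) (hS1 : Subgroup.centralizer (Cfsg.pPrimeCore p ↥H : Set ↥H) ≤ Cfsg.pPrimeCore p ↥H) (hS3 : H = ⨆ A : {A : Subgroup G // A ≤ H ∧ Cfsg.IsBestOffenderOn p V A}, (A : Subgroup G)) (hH1 : H ≠ ⊥) (A : Subgroup G) (hAH : A ≤ H) (hA : Cfsg.IsBestOffenderOn p V A) (hAV : ⁅V, A⁆ ≠ ⊥) (hmin : ∀ B : Subgroup G, B ≤ A → Cfsg.IsBestOffenderOn p V B → ⁅V,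 B⁆ ≠ ⊥ → B = A) (x : G) (hx : x ∈ ((Cfsg.pPrimeCore p ↥H).map H.subtype)) (hxA : x ∉ Subgroup.centralizer (A : Set G)) : (p = 2 ∨ p = 3) ∧ Nat.card ↥(⁅V, A ⊔ A.map (MulAut.conj x).toMonoidHom⁆) = p ^ 2 ∧ (A ⊔ A.map (MulAut.conj x).toMonoidHom) ⊓ Subgroup.centralizer ((⁅V, A ⊔ A.map (MulAut.conj x).toMonoidHom⁆ : Subgroup G) : Set G) = ⊥ ∧ Nonempty (↥(A ⊔ A.map (MulAut.conj x).toMonoidHom) ≃* Matrix.SpecialLinearGroup (Fin 2) (ZMod p)) := by
  classical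
  have hp : p.Prime := Fact.out
  obtain ⟨hcA, hcV, hrel, a, haA, hza⟩ :=
    Cfsg.Agent.Lib.helper3.ff_min_offender V H hV hHV hf hS1 A hAH hA hAV hmin
  have hxQ : x ∈ Cfsg.Agent.Lib.helper3.ffQ p H := hx
  have hxH : x ∈ H := Cfsg.Agent.Lib.helper3.ffQ_le H hxQ
  have haH : a ∈ H := hAH haA
  have hap : orderOf a = p := by rw [← Nat.card_zpowers, hza, hcA]
  have hxa : x * a ≠ a * x := by
    intro h
    apply hxA
    rw [Subgroup.mem_centralizer_iff]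
    intro y hy
    rw [← hza] at hy
    obtain ⟨k, rfl⟩ := Subgroup.mem_zpowers_iff.mp hy
    exact ((Commute.zpow_right (show Commute x a from h) k).eq).symm
  have hLH : A ⊔ A.map (MulAut.conj x).toMonoidHom ≤ H := by
    refine sup_le hAH ?_
    rintro _ ⟨y, hy, rfl⟩
    exact H.mul_mem (H.mul_mem hxH (hAH hy)) (H.inv_mem hxH)
  have hfL : (A ⊔ A.map (MulAut.conj x).toMonoidHom) ⊓ Subgroup.centralizer (V : Set G) = ⊥ := by
    rw [eq_bot_iff, ← hf]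
    exact inf_le_inf_right _ hLH
  exact ff_pair_core V (Cfsg.Agent.Lib.helper3.ffQ p H) hV a x (hHV haH) (hHV hxH) hap
    (by rw [hza]; exact hcV) (Cfsg.Agent.Lib.helper3.ffQ_coprime H) hxQ
    (Cfsg.Agent.Lib.helper3.ffQ_normal H haH) hxa _ (by rw [hza]) hfL

end Cfsg.Agent.S0613
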