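import Cfsg.Statements.S0614
import Cfsg.Agent.Lib.helper14.FFComm

set_option autoImplicit false
open Cfsg
open Cfsg.Agent.Lib.helper14

namespace Cfsg.Agent.S0614

/-- The commutator of the p'-core with a minimal nontrivially-acting best offender is a 3-group (when p = 2) or a non-abelian 2-group (when p = 3). -/
theorem result {G : Type*} [Group G] [Finite G] {p : ℕ} [Fact p.Prime] (V H : Subgroup G) (hV : Cfsg.IsElementaryAbelian p V) (hHV : H ≤ Subgroup.normalizer (V : Set G)) (hf : H ⊓ Subgroup.centralizer (V : Set G) = ⊥) (hS1 : Subgroup.centralizer (Cfsg.pPrimeCore p ↥H : Set ↥H) ≤ Cfsg.pPrimeCore p ↥H) (hS3 : H = ⨆ A : {A : Subgroup G // A ≤ H ∧ Cfsg.IsBestOffenderOn p V A}, (A : Subgroup G)) (hH1 : H ≠ ⊥) (A : Subgroup G) (hAH : A ≤ H) (hA : Cfsg.IsBestOffenderOn p V A) (hAV : ⁅V, A⁆ ≠ ⊥) (hmin : ∀ B : Subgroup G, B ≤ A → Cfsg.IsBestOffenderOn p V B → ⁅V, B⁆ ≠ ⊥ →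 B = A) : (p = 2 ∧ IsPGroup 3 ↥(⁅((Cfsg.pPrimeCore p ↥H).map H.subtype), A⁆)) ∨ (p = 3 ∧ IsPGroup 2 ↥(⁅((Cfsg.pPrimeCore p ↥H).map H.subtype), A⁆) ∧ ¬ IsMulCommutative ↥(⁅((Cfsg.pPrimeCore p ↥H).map H.subtype), A⁆)) := by
  classical
  have hp : p.Prime := Fact.out
  obtain ⟨hcA, hcV, hrel, a, haA, hza⟩ :=
    Cfsg.Agent.Lib.helper3.ff_min_offender V H hV hHV hf hS1 A hAH hA hAV hmin
  have haH : a ∈ H := hAH haA
  have hap : orderOf a = p := by rw [← Nat.card_zpowers, hza, hcA]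
  have hex : ∃ x₀ ∈ Cfsg.Agent.Lib.helper3.ffQ p H, x₀ * a ≠ a * x₀ := by
    by_contra hcon
    push_neg at hcon
    have haQ : a ∈ Cfsg.Agent.Lib.helper3.ffQ p H :=
      Cfsg.Agent.Lib.helper3.ffQ_self_centralizing H hS1 haH hcon
    have h1 : orderOf a ∣ Nat.card (Cfsg.Agent.Lib.helper3.ffQ p H) := by
      have := orderOf_dvd_natCard (⟨a, haQ⟩ : Cfsg.Agent.Lib.helper3.ffQ p H)
      rwa [Subgroup.orderOf_mk] at this
    rw [hap] at h1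
    have h2 : Nat.gcd (Nat.card (Cfsg.Agent.Lib.helper3.ffQ p H)) p = 1 :=
      Cfsg.Agent.Lib.helper3.ffQ_coprime (p := p) H
    have h3 : p ∣ Nat.gcd (Nat.card (Cfsg.Agent.Lib.helper3.ffQ p H)) p := Nat.dvd_gcd h1 dvd_rfl
    rw [h2] at h3
    exact hp.one_lt.ne' (Nat.dvd_one.mp h3)
  obtain ⟨x₀, hx₀, hx₀a⟩ := hex
  have key := ff_commutator_pgroup V (Cfsg.Agent.Lib.helper3.ffQ p H) hV a (hHV haH)
    ((Cfsg.Agent.Lib.helper3.ffQ_le H).trans hHV) hap (by rw [hza]; exact hcV)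
    (Cfsg.Agent.Lib.helper3.ffQ_coprime H) (Cfsg.Agent.Lib.helper3.ffQ_normal H haH)
    (by
      rw [eq_bot_iff, ← hf]
      exact inf_le_inf_right _ (sup_le (Cfsg.Agent.Lib.helper3.ffQ_le H)
        (Subgroup.zpowers_le.mpr haH))) x₀ hx₀ hx₀a
  rw [hza] at key
  exact key

end Cfsg.Agent.S0614
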