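import Cfsg.Statements.S0618
import Cfsg.Agent.S0601
import Cfsg.Agent.S0606
import Cfsg.Agent.S0608
import Cfsg.Agent.S0617
import Cfsg.Agent.Lib.helper14.Hol
import Cfsg.Agent.Lib.helper10.PSolv
import Cfsg.Agent.Lib.helper3.PSolvPair
import Cfsg.Agent.Lib.helper3.PSolvQuad
import Cfsg.Agent.Lib.helper3.PLocal
import Cfsg.Agent.Lib.helper16.PSolv

set_option autoImplicit false
open Cfsg
open Cfsg.Agent.Lib.helper14

namespace Cfsg.Agent.S0618

universe u

theorem cent_iSup_set {G : Type u} [Group G] {ι : Sort*} (K : ι → Subgroup G) :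
    Subgroup.centralizer (⨆ i, (K i : Set G)) =
      Subgroup.centralizer ((⨆ i, K i : Subgroup G) : Set G) := by
  apply le_antisymm
  · intro g hg
    have h1 : (⨆ i, K i) ≤ Subgroup.centralizer ({g} : Set G) := by
      refine iSup_le fun i x hx => ?_
      rw [Subgroup.mem_centralizer_iff]
      intro y hy
      rw [Set.mem_singleton_iff] at hy
      subst hy
      have h2 : x ∈ (⨆ i, (K i : Set G)) := by
        rw [Set.iSup_eq_iUnion]
        exact Set.mem_iUnion.mpr ⟨i, hx⟩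
      exact (Subgroup.mem_centralizer_iff.mp hg x h2).symm
    rw [Subgroup.mem_centralizer_iff]
    intro h hh
    exact (Subgroup.mem_centralizer_iff.mp (h1 hh) g rfl).symm
  · apply Subgroup.centralizer_le
    rw [Set.iSup_eq_iUnion]
    exact Set.iUnion_subset fun i => SetLike.coe_subset_coe.mpr (le_iSup K i)

theorem main {G : Type u} [Group G] [Finite G] {p : ℕ} [Fact p.Prime]
    (hsep : Cfsg.IsPSolvable p G) (V : Subgroup G) (hVn : V.Normal)
    (hVe : Cfsg.IsElementaryAbelian p V)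
    (hD : ∀ D : Subgroup G, D.Normal → Subgroup.centralizer (V : Set G) ≤ D →
      (∃ k : ℕ, (Subgroup.centralizer (V : Set G)).relIndex D = p ^ k) →
      D = Subgroup.centralizer (V : Set G))
    (hJ : ¬ Cfsg.thompsonSubgroup p G ≤ Subgroup.centralizer (V : Set G)) :
    (p = 2 ∨ p = 3) ∧ ∃ E : Subgroup G, Subgroup.centralizer (V : Set G) ≤ E ∧
      E ≤ Cfsg.thompsonSubgroup p G ⊔ Subgroup.centralizer (V : Set G) ∧
      Cfsg.thompsonSubgroup p G ⊔ Subgroup.centralizer (V : Set G) ≤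
        Subgroup.normalizer (E : Set G) ∧
      ∃ hn : ((Subgroup.centralizer (V : Set G)).subgroupOf E).Normal,
        Nonempty ((↥E ⧸ (Subgroup.centralizer (V : Set G)).subgroupOf E) ≃*
          Matrix.SpecialLinearGroup (Fin 2) (ZMod p)) := by
  classical
  have := hVn
  have hp : p.Prime := Fact.out
  have hCn0 : (Subgroup.centralizer (V : Set G)).Normal := inferInstance
  obtain ⟨J, hJdef⟩ : ∃ J : Subgroup G, J = Cfsg.thompsonSubgroup p G := ⟨_, rfl⟩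
  rw [← hJdef] at hJ ⊢
  have hJn : J.Normal := hJdef ▸ Cfsg.Agent.Lib.helper3.thompson_normal p G
  obtain ⟨C, hCdef⟩ : ∃ C : Subgroup G, C = Subgroup.centralizer (V : Set G) := ⟨_, rfl⟩
  rw [← hCdef] at hJ hD ⊢
  have hCn : C.Normal := hCdef ▸ hCn0
  obtain ⟨ψ, hψ⟩ : ∃ ψ : G →* Hol V, ψ = holHom V := ⟨_, rfl⟩
  have hker : ψ.ker = C := by rw [hψ, hCdef]; exact holHom_ker V
  obtain ⟨ℋ, hℋ⟩ : ∃ ℋ : Subgroup (Hol V), ℋ = J.map ψ := ⟨_, rfl⟩
  have h𝒱 := holV_elemAb V hVe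
  have h𝒱n := holV_normal V
  have hHV : ℋ ≤ Subgroup.normalizer (holV V : Set (Hol V)) := by
    rw [Subgroup.normalizer_eq_top]; exact le_top
  have hf : ℋ ⊓ Subgroup.centralizer (holV V : Set (Hol V)) = ⊥ := by
    rw [hℋ, hψ]; exact hol_faithful V J
  have hH1 : ℋ ≠ ⊥ := by
    intro h
    apply hJ
    rw [← hker]
    intro x hx
    rw [MonoidHom.mem_ker]
    have : ψ x ∈ ℋ := hℋ ▸ Subgroup.mem_map_of_mem _ hx
    rw [h] at this
    exact Subgroup.mem_bot.mp this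
  have hbo : ∀ A ∈ Cfsg.maxElementaryAbelianSubgroups p G,
      A.map ψ ≤ ℋ ∧ Cfsg.IsBestOffenderOn p (holV V) (A.map ψ) := by
    intro A hA
    refine ⟨hℋ ▸ Subgroup.map_mono (hJdef ▸ le_sSup hA), ?_⟩
    rw [hψ]
    exact hol_bestOffender V A (Cfsg.Agent.S0606.result V hVe A hA)
  have hS3 : ℋ = ⨆ A : {A : Subgroup (Hol V) // A ≤ ℋ ∧ Cfsg.IsBestOffenderOn p (holV V) A},
      (A : Subgroup (Hol V)) := by
    apply le_antisymm
    · have h1 : J ≤ (⨆ A : {A : Subgroup (Hol V) // A ≤ ℋ ∧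
          Cfsg.IsBestOffenderOn p (holV V) A}, (A : Subgroup (Hol V))).comap ψ := by
        rw [hJdef]
        refine sSup_le fun A hA => ?_
        rw [← Subgroup.map_le_iff_le_comap]
        exact le_iSup_of_le ⟨A.map ψ, hbo A hA⟩ le_rfl
      have h2 := Subgroup.map_le_iff_le_comap.mpr h1
      rw [← hℋ] at h2
      exact h2
    · exact iSup_le fun A => A.2.1
  have hsolJ : Cfsg.IsPSolvable p ↥J := Cfsg.Agent.Lib.helper3.isPSolvable_subgroup J hsep
  have hsolH : Cfsg.IsPSolvable p ↥ℋ := by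
    let φ : ↥J →* ↥ℋ := (ψ.comp J.subtype).codRestrict ℋ
      (fun x => hℋ ▸ Subgroup.mem_map_of_mem _ x.2)
    refine Cfsg.Agent.Lib.helper16.isPSolvable_of_surjective φ ?_ hsolJ
    rintro ⟨y, hy⟩
    obtain ⟨x, hx, rfl⟩ := (hℋ ▸ hy : y ∈ J.map ψ)
    exact ⟨⟨x, hx⟩, Subtype.ext rfl⟩
  have hcore : Cfsg.pCore p ↥ℋ = ⊥ := by
    obtain ⟨P, hP⟩ : ∃ P : Subgroup (Hol V), P = (Cfsg.pCore p ↥ℋ).map ℋ.subtype := ⟨_, rfl⟩
    have hPH : P ≤ ℋ := by rw [hP]; exact Subgroup.map_subtype_le _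
    have hgn : ∀ g : G, ψ g ∈ Subgroup.normalizer (ℋ : Set (Hol V)) := by
      intro g
      rw [hℋ]
      apply Subgroup.le_normalizer_map ψ
      refine Subgroup.mem_map_of_mem _ ?_
      rw [Subgroup.normalizer_eq_top]; exact Subgroup.mem_top g
    have hch := Cfsg.Agent.Lib.helper16.pCore_characteristic p ↥ℋ
    have hPn : ∀ g : G, ∀ x ∈ P, ψ g * x * (ψ g)⁻¹ ∈ P := by
      intro g x hx
      rw [hP] at hx ⊢
      obtain ⟨x', hx', rfl⟩ := Subgroup.mem_map.mp hx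
      have h1 := hch.fixed (Subgroup.normalizerMonoidHom ℋ ⟨ψ g, hgn g⟩)
      have h2 : x' ∈ (Cfsg.pCore p ↥ℋ).comap
          (Subgroup.normalizerMonoidHom ℋ ⟨ψ g, hgn g⟩).toMonoidHom := by rw [h1]; exact hx'
      exact Subgroup.mem_map.mpr ⟨_, h2, rfl⟩
    obtain ⟨D, hDdef⟩ : ∃ D : Subgroup G, D = P.comap ψ := ⟨_, rfl⟩
    have hDn : D.Normal := by
      constructor
      intro x hx g
      rw [hDdef] at hx ⊢
      show ψ (g * x * g⁻¹) ∈ P
      rw [map_mul, map_mul, map_inv]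
      exact hPn g (ψ x) hx
    have hCD : C ≤ D := by
      rw [← hker, hDdef]
      intro x hx
      show ψ x ∈ P
      rw [MonoidHom.mem_ker.mp hx]; exact one_mem _
    have hDmap : D.map ψ = P := by
      rw [hDdef, Subgroup.map_comap_eq, inf_eq_right]
      refine hPH.trans ?_
      rw [hℋ]
      exact Subgroup.map_le_range ψ J
    have hidx : ∃ k : ℕ, C.relIndex D = p ^ k := by
      rw [← hker, Subgroup.relIndex_ker, hDmap, hP,
        Subgroup.card_map_of_injective (Subgroup.subtype_injective ℋ)]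
      exact (Cfsg.Agent.Lib.helper3.pCore_isPGroup3 p ↥ℋ).exists_card_eq
    have hDC := hD D hDn hCD hidx
    have hPbot : P = ⊥ := by
      rw [← hDmap, hDC, ← hker]
      rw [eq_bot_iff]
      rintro _ ⟨x, hx, rfl⟩
      exact Subgroup.mem_bot.mpr (MonoidHom.mem_ker.mp hx)
    rw [hP] at hPbot
    exact (Subgroup.map_eq_bot_iff_of_injective _ (Subgroup.subtype_injective ℋ)).mp hPbot
  have hS1 := Cfsg.Agent.Lib.helper3.centralizer_pPrimeCore_le_of_pSolvable hsolH hcore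
  obtain ⟨hp23, hE, -⟩ := Cfsg.Agent.S0617.result (holV V) ℋ h𝒱 hHV hf hS1 hS3 hH1
  obtain ⟨A₀, hA₀H, hA₀, hA₀V⟩ : ∃ A₀ : Subgroup (Hol V), A₀ ≤ ℋ ∧
      Cfsg.IsBestOffenderOn p (holV V) A₀ ∧ ⁅holV V, A₀⁆ ≠ ⊥ := by
    by_contra hcon
    push_neg at hcon
    apply hH1
    rw [eq_bot_iff]
    refine le_trans hS3.le (iSup_le fun A => ?_)
    by_contra hne
    have hne' : (A : Subgroup (Hol V)) ≠ ⊥ := fun h => hne (h ▸ le_rfl)
    exact Cfsg.Agent.Lib.helper3.ff_commutator_ne_bot (holV V) ℋ hf A.1 A.2.1 hne'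
      (hcon A.1 A.2.1 A.2.2)
  obtain ⟨A, hAA₀, hA, hAV, hmin⟩ := exists_min_offender (holV V) A₀ hA₀ hA₀V
  obtain ⟨ℰ, hℰ⟩ : ∃ ℰ : Subgroup (Hol V),
      ℰ = ⁅(Cfsg.pPrimeCore p ↥ℋ).map ℋ.subtype, A⁆ ⊔ A := ⟨_, rfl⟩
  obtain ⟨hnE, ⟨e⟩, -⟩ := hE ⟨ℰ, A, hAA₀.trans hA₀H, hA, hAV, hmin, hℰ⟩
  have hℰH : ℰ ≤ ℋ := by
    rw [hℰ]
    refine sup_le ?_ (hAA₀.trans hA₀H)
    refine Subgroup.commutator_le.mpr fun x hx y hy => ?_
    have hx' : x ∈ ℋ := Subgroup.map_subtype_le _ hx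
    have hy' : y ∈ ℋ := hAA₀.trans hA₀H hy
    rw [commutatorElement_def]
    exact mul_mem (mul_mem (mul_mem hx' hy') (inv_mem hx')) (inv_mem hy')
  refine ⟨hp23, ℰ.comap ψ, ?_, ?_, ?_, ?_⟩
  · rw [← hker]
    intro x hx
    show ψ x ∈ ℰ
    rw [MonoidHom.mem_ker.mp hx]; exact one_mem _
  · intro x hx
    have h1 : ψ x ∈ J.map ψ := hℋ ▸ hℰH hx
    obtain ⟨j, hj, hjx⟩ := h1
    have h2 : j⁻¹ * x ∈ C := by
      rw [← hker, MonoidHom.mem_ker, map_mul, map_inv, hjx, inv_mul_cancel]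
    have h3 : x = j * (j⁻¹ * x) := by group
    rw [h3]
    exact mul_mem (Subgroup.mem_sup_left hj) (Subgroup.mem_sup_right h2)
  · refine le_trans ?_ (Subgroup.le_normalizer_comap ψ)
    refine sup_le ?_ ?_
    · intro x hx
      show ψ x ∈ Subgroup.normalizer (ℰ : Set (Hol V))
      exact hnE (hℋ ▸ Subgroup.mem_map_of_mem _ hx)
    · intro x hx
      show ψ x ∈ Subgroup.normalizer (ℰ : Set (Hol V))
      rw [MonoidHom.mem_ker.mp (hker ▸ hx)]; exact one_mem _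
  · refine ⟨inferInstance, ?_⟩
    let φ : ↥(ℰ.comap ψ) →* ↥ℰ := ψ.subgroupComap ℰ
    have hφs : Function.Surjective φ := by
      rintro ⟨y, hy⟩
      obtain ⟨x, hx, rfl⟩ := (hℋ ▸ hℰH hy : y ∈ J.map ψ)
      exact ⟨⟨x, hy⟩, Subtype.ext rfl⟩
    have hφk : φ.ker = C.subgroupOf (ℰ.comap ψ) := by
      ext ⟨x, hx⟩
      rw [MonoidHom.mem_ker, Subgroup.mem_subgroupOf, ← hker, MonoidHom.mem_ker]
      constructor
      · intro h; exact congrArg Subtype.val h
      · intro h; exact Subtype.ext h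
    exact ⟨(QuotientGroup.quotientMulEquivOfEq hφk.symm).trans
      ((QuotientGroup.quotientKerEquivOfSurjective φ hφs).trans e)⟩



/-- A p-separable group with trivial p'-core in which the Thompson factorization fails has p = 2 or 3, and J(G) induces on the normal closure of Ω₁(Z(S)) a group containing a normal SL(2, p). -/
theorem result {G : Type*} [Group G] [Finite G] {p : ℕ} [Fact p.Prime] (hsep : Cfsg.IsPSolvable p G) (hO : Cfsg.pPrimeCore p G = ⊥) (hnf : ¬ Cfsg.IsThompsonFactorizable p G) : (p = 2 ∨ p = 3) ∧ ∃ E : Subgroup G, Subgroup.centralizer ((⨆ S : Sylow p G, Cfsg.omegaOne p ((S : Subgroup G) ⊓ Subgroup.centralizer ((S : Subgroup G) : Set G))) : Set G) ≤ E ∧ E ≤ Cfsg.thompsonSubgroup p G ⊔ Subgroup.centralizer ((⨆ S : Sylow p G, Cfsg.omegaOne p ((S : Subgroup G) ⊓ Subgroup.centralizer ((S : Subgroup G) : Set G))) : Set G) ∧ Cfsg.thompsonSubgroup p G ⊔ Subgroup.centralizer ((⨆ S : Sylow p G, Cfsg.omegaOne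 p ((S : Subgroup G) ⊓ Subgroup.centralizer ((S : Subgroup G) : Set G))) : Set G) ≤ Subgroup.normalizer (E : Set G) ∧ ∃ hn : ((Subgroup.centralizer ((⨆ S : Sylow p G, Cfsg.omegaOne p ((S : Subgroup G) ⊓ Subgroup.centralizer ((S : Subgroup G) : Set G))) : Set G)).subgroupOf E).Normal, Nonempty ((↥E ⧸ (Subgroup.centralizer ((⨆ S : Sylow p G, Cfsg.omegaOne p ((S : Subgroup G) ⊓ Subgroup.centralizer ((S : Subgroup G) : Set G))) : Set G)).subgroupOf E) ≃* Matrix.SpecialLinearGroup (Fin 2) (ZMod p)) := by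
  have hc : Subgroup.centralizer (Cfsg.pCore p G : Set G) ≤ Cfsg.pCore p G :=
    Cfsg.Agent.Lib.helper10.centralizer_pCore_le_of_pSolvable hsep hO
  obtain ⟨hVn, hVe, hD⟩ := Cfsg.Agent.S0601.result (p := p) hc
  have hJ := (not_congr (Cfsg.Agent.S0608.result hO)).mp hnf
  rw [cent_iSup_set]
  exact main hsep _ hVn hVe hD hJ

end Cfsg.Agent.S0618
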