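import Cfsg.Statements.S0619
import Cfsg.Agent.S0606
import Cfsg.Agent.Lib.helper14.HolFF
import Cfsg.Agent.Lib.helper3.PLocal

set_option autoImplicit false
open Cfsg
open Cfsg.Agent.Lib.helper14
open scoped commutatorElement

namespace Cfsg.Agent.S0619

universe u

theorem maxEA_mem_of_commute {G : Type u} [Group G] [Finite G] {p : ℕ} {A : Subgroup G}
    (hA : A ∈ Cfsg.maxElementaryAbelianSubgroups p G) {x : G} (hx : x ^ p = 1)
    (hc : ∀ a ∈ A, a * x = x * a) : x ∈ A := by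
  have h1 := Cfsg.Agent.Lib.helper3.isEA_sup_zpowers p hA.1 hx hc
  have h2 := hA.2 _ h1
  have h3 : A = A ⊔ Subgroup.zpowers x := Subgroup.eq_of_le_of_card_ge le_sup_left h2
  rw [h3]
  exact Subgroup.mem_sup_right (Subgroup.mem_zpowers x)

theorem key {G : Type u} [Group G] [Finite G] {p : ℕ} [Fact p.Prime]
    (hsep : Cfsg.IsPSolvable p G) (V : Subgroup G) [V.Normal]
    (hV : Cfsg.IsElementaryAbelian p V)
    (hO : Cfsg.pCore p (G ⧸ Subgroup.centralizer (V : Set G)) = ⊥)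
    (A : Subgroup G) (hA : A ∈ Cfsg.maxElementaryAbelianSubgroups p G) :
    ∀ w ∈ Cfsg.omegaOne p (Cfsg.centerThompsonOf p (Subgroup.centralizer (V : Set G))),
      ∀ a ∈ A, ⁅w, a⁆ ∈ V := by
  classical
  obtain ⟨C, hCdef⟩ : ∃ C : Subgroup G, C = Subgroup.centralizer (V : Set G) := ⟨_, rfl⟩
  have hcard := hol_offender_card hsep V hV hO A (Cfsg.Agent.S0606.result V hV A hA)
  rw [← hCdef] at hcard ⊢
  have hAab : ∀ a ∈ A, ∀ b ∈ A, a * b = b * a := fun a ha b hb =>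
    congrArg Subtype.val (hA.1.1.is_comm.comm ⟨a, ha⟩ ⟨b, hb⟩)
  have hVC : V ≤ C := by
    rw [hCdef]
    intro v hv
    rw [Subgroup.mem_centralizer_iff]
    intro u hu
    exact congrArg Subtype.val (hV.1.is_comm.comm ⟨u, hu⟩ ⟨v, hv⟩)
  obtain ⟨A₀, hA₀⟩ : ∃ A₀ : Subgroup G, A₀ = C ⊓ A := ⟨_, rfl⟩
  rw [← hA₀] at hcard
  have hA₀A : A₀ ≤ A := hA₀ ▸ inf_le_right
  have hA₀C : A₀ ≤ C := hA₀ ▸ inf_le_left
  have hA₀ea : Cfsg.IsElementaryAbelian p A₀ := Cfsg.Agent.Lib.helper3.isEA_of_le p hA₀A hA.1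
  have hA₁ea : Cfsg.IsElementaryAbelian p (A₀ ⊔ V) := by
    apply Cfsg.Agent.Lib.helper3.isEA_sup p hA₀ea hV
    intro a ha v hv
    have := hA₀C ha
    rw [hCdef, Subgroup.mem_centralizer_iff] at this
    exact (this v hv).symm
  have hinf : A₀ ⊓ V ≤ V ⊓ Subgroup.centralizer (A : Set G) := by
    intro x hx
    refine ⟨hx.2, Subgroup.mem_centralizer_iff.mpr ?_⟩
    intro a ha
    exact hAab a ha x (hA₀A hx.1)
  have hcard2 : Nat.card A ≤ Nat.card ↥(A₀ ⊔ V) := by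
    have h1 := Cfsg.Agent.Lib.helper3.card_mul_card_le A₀ V
    rw [← hcard] at h1
    have h2 : Nat.card ↥(A₀ ⊓ V) ≤ Nat.card ↥(V ⊓ Subgroup.centralizer (A : Set G)) :=
      Subgroup.card_le_of_le hinf
    have h3 := h1.trans (Nat.mul_le_mul_left _ h2)
    exact Nat.le_of_mul_le_mul_right h3 Nat.card_pos
  have hA₁max : A₀ ⊔ V ∈ Cfsg.maxElementaryAbelianSubgroups p G :=
    ⟨hA₁ea, fun B hB => (hA.2 B hB).trans hcard2⟩
  have hA₁C : A₀ ⊔ V ≤ C := sup_le hA₀C hVC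
  have hA₁J : A₀ ⊔ V ≤ Cfsg.thompsonSubgroupOf p C := by
    have h1 := Cfsg.Agent.Lib.helper3.le_thompson
      (Cfsg.Agent.Lib.helper3.maxEA_subgroupOf C hA₁max hA₁C)
    have h2 := Subgroup.map_mono (f := C.subtype) h1
    rw [Subgroup.subgroupOf_map_subtype, inf_eq_left.mpr hA₁C] at h2
    exact h2
  have hW : Cfsg.omegaOne p (Cfsg.centerThompsonOf p C) ≤ A₀ ⊔ V := by
    unfold Cfsg.omegaOne
    rw [Subgroup.closure_le]
    rintro x ⟨hx1, hx2⟩
    apply maxEA_mem_of_commute hA₁max hx2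
    intro a ha
    exact Subgroup.mem_centralizer_iff.mp hx1.2 a (hA₁J ha)
  intro w hw a ha
  have hw' := hW hw
  rw [← SetLike.mem_coe, Subgroup.mul_normal] at hw'
  obtain ⟨a₀, ha₀, v, hv, rfl⟩ := Set.mem_mul.mp hw'
  have h1 : ⁅a₀ * v, a⁆ = a₀ * (v * (a * v⁻¹ * a⁻¹)) * a₀⁻¹ := by
    rw [commutatorElement_def]
    have hc : a₀ * a = a * a₀ := hAab a₀ (hA₀A ha₀) a ha
    have hc' : a₀⁻¹ * a⁻¹ = a⁻¹ * a₀⁻¹ := by
      rw [← mul_inv_rev, ← mul_inv_rev, hc]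
    calc a₀ * v * a * (a₀ * v)⁻¹ * a⁻¹ = a₀ * v * a * v⁻¹ * (a₀⁻¹ * a⁻¹) := by group
      _ = a₀ * v * a * v⁻¹ * (a⁻¹ * a₀⁻¹) := by rw [hc']
      _ = a₀ * (v * (a * v⁻¹ * a⁻¹)) * a₀⁻¹ := by group
  rw [h1]
  have hVn : V.Normal := inferInstance
  exact hVn.conj_mem _ (mul_mem hv (hVn.conj_mem _ (inv_mem hv) a)) a₀



/-- For a p-separable group and a normal elementary abelian p-subgroup V with no nontrivial normal p-subgroup modulo its centralizer C, the Thompson subgroup J(G) moves Ω₁(Z(J(C))) only inside V. -/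
theorem result {G : Type*} [Group G] [Finite G] {p : ℕ} [Fact p.Prime] (hsep : Cfsg.IsPSolvable p G) (V : Subgroup G) [V.Normal] (hV : Cfsg.IsElementaryAbelian p V) (hO : Cfsg.pCore p (G ⧸ Subgroup.centralizer (V : Set G)) = ⊥) : ⁅Cfsg.omegaOne p (Cfsg.centerThompsonOf p (Subgroup.centralizer (V : Set G))), Cfsg.thompsonSubgroup p G⁆ ≤ V := by
  have hVn : V.Normal := inferInstance
  refine Subgroup.commutator_le.mpr fun w hw g hg => ?_
  let T : Subgroup G :=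
    { carrier := {g | ⁅w, g⁆ ∈ V}
      one_mem' := by
        show ⁅w, 1⁆ ∈ V
        rw [commutatorElement_def]; simp
      mul_mem' := by
        intro g h hg hh
        show ⁅w, g * h⁆ ∈ V
        have e : ⁅w, g * h⁆ = ⁅w, g⁆ * (g * ⁅w, h⁆ * g⁻¹) := by
          simp only [commutatorElement_def]; group
        rw [e]
        exact mul_mem hg (hVn.conj_mem _ hh g)
      inv_mem' := by
        intro g hg
        show ⁅w, g⁻¹⁆ ∈ V
        have e : ⁅w, g⁻¹⁆ = g⁻¹ * ⁅w, g⁆⁻¹ * g⁻¹⁻¹ := by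
          simp only [commutatorElement_def]; group
        rw [e]
        exact hVn.conj_mem _ (inv_mem hg) g⁻¹ }
  have hJT : Cfsg.thompsonSubgroup p G ≤ T := by
    refine sSup_le fun A hA a ha => ?_
    exact key hsep V hV hO A hA w hw a ha
  exact hJT hg

end Cfsg.Agent.S0619
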