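import Cfsg.Statements.S0620
import Cfsg.Agent.S0601
import Cfsg.Agent.Lib.helper14.HolX2
import Cfsg.Agent.Lib.helper10.PSolv
import Cfsg.Agent.Lib.helper3.Replacement
import Cfsg.Agent.Lib.helper3.Conj

set_option autoImplicit false
open Cfsg
open Cfsg.Agent.Lib.helper14

namespace Cfsg.Agent.S0620

/-- Under coprime action of an elementary abelian q-group X on a p-separable group K with trivial p'-core, K is generated by the normalizer of J(S), the centralizer of Ω₁(Z(S)) and the fixed points of X. -/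
theorem result {G : Type*} [Group G] [Finite G] {p : ℕ} [Fact p.Prime] {q : ℕ} [Fact q.Prime] (K X : Subgroup G) (hXK : X ≤ Subgroup.normalizer (K : Set G)) (hX : Cfsg.IsElementaryAbelian q X) (hq : ¬ q ∣ Nat.card K) (hsep : Cfsg.IsPSolvable p ↥K) (hO : Cfsg.pPrimeCore p ↥K = ⊥) (S : Sylow p ↥K) : (Subgroup.normalizer (Cfsg.thompsonSubgroupOf p (S : Subgroup ↥K) : Set ↥K) ⊔ Subgroup.centralizer (Cfsg.omegaOne p ((S : Subgroup ↥K) ⊓ Subgroup.centralizer ((S : Subgroup ↥K) : Set ↥K)) : Set ↥K) ⊔ (Subgroup.centralizer (X : Set G)).subgroupOf K) = ⊤ := by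
  classical
  have hp : p.Prime := Fact.out
  have hqp : q.Prime := Fact.out
  have hc : Subgroup.centralizer (Cfsg.pCore p ↥K : Set ↥K) ≤ Cfsg.pCore p ↥K :=
    Cfsg.Agent.Lib.helper10.centralizer_pCore_le_of_pSolvable hsep hO
  obtain ⟨hVn, hVe, hD⟩ := Cfsg.Agent.S0601.result (p := p) hc
  obtain ⟨V₀, hV₀⟩ : ∃ V₀ : Subgroup ↥K, V₀ = ⨆ S : Sylow p ↥K, Cfsg.omegaOne p
      ((S : Subgroup ↥K) ⊓ Subgroup.centralizer ((S : Subgroup ↥K) : Set ↥K)) := ⟨_, rfl⟩
  rw [← hV₀] at hVn hVe hD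
  have hch : V₀.Characteristic := hV₀ ▸ omegaZ_characteristic p ↥K
  obtain ⟨ℋ, hℋ⟩ : ∃ ℋ : Subgroup (Hol V₀),
      ℋ = (Cfsg.thompsonSubgroup p ↥K).map (holHom V₀) := ⟨_, rfl⟩
  obtain ⟨h𝒱, hHV, hf, hS1, hS3⟩ := hol_ff_hyps hsep V₀ hVe hD ℋ hℋ
  have hJn : (Cfsg.thompsonSubgroup p ↥K).Normal := Cfsg.Agent.Lib.helper3.thompson_normal p ↥K
  obtain ⟨M₀, hM₀⟩ : ∃ M₀ : Subgroup ↥K, M₀ =
      Subgroup.normalizer (Cfsg.thompsonSubgroupOf p (S : Subgroup ↥K) : Set ↥K) ⊔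
      Subgroup.centralizer (Cfsg.omegaOne p ((S : Subgroup ↥K) ⊓
        Subgroup.centralizer ((S : Subgroup ↥K) : Set ↥K)) : Set ↥K) ⊔
      (Subgroup.centralizer (X : Set G)).subgroupOf K := ⟨_, rfl⟩
  rw [← hM₀]
  have hCM : Subgroup.centralizer (Cfsg.omegaOne p ((S : Subgroup ↥K) ⊓
        Subgroup.centralizer ((S : Subgroup ↥K) : Set ↥K)) : Set ↥K) ≤ M₀ := by
    rw [hM₀]; exact le_sup_of_le_left le_sup_right
  have hker : (holHom V₀).ker ≤ M₀ := by
    rw [holHom_ker]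
    refine le_trans (Subgroup.centralizer_le ?_) hCM
    rw [hV₀]
    exact SetLike.coe_subset_coe.mpr (le_iSup (fun S : Sylow p ↥K => Cfsg.omegaOne p
      ((S : Subgroup ↥K) ⊓ Subgroup.centralizer ((S : Subgroup ↥K) : Set ↥K))) S)
  have hSM : (S : Subgroup ↥K) ≤ M₀ := by
    refine le_trans ?_ hCM
    apply Subgroup.le_centralizer_iff.mp
    unfold Cfsg.omegaOne
    rw [Subgroup.closure_le]
    rintro x ⟨hx, -⟩
    exact hx.2
  have hXM : (Subgroup.centralizer (X : Set G)).subgroupOf K ≤ M₀ := by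
    rw [hM₀]; exact le_sup_right
  have hJM : Cfsg.thompsonSubgroup p ↥K ≤ M₀ := by
    by_cases hH1 : ℋ = ⊥
    · refine le_trans ?_ hker
      intro x hx
      rw [MonoidHom.mem_ker]
      have : holHom V₀ x ∈ ℋ := hℋ ▸ Subgroup.mem_map_of_mem _ hx
      rw [hH1] at this
      exact Subgroup.mem_bot.mp this
    · obtain ⟨a, ha⟩ := exists_transv (holV V₀) ℋ h𝒱 hHV hf hS1 hS3 hH1
      have hS := ff_setup_of (holV V₀) ℋ h𝒱 hHV hf hS1
      have hgen : ∀ Y : Subgroup (Hol V₀), (∀ b, IsTransv p (holV V₀) ℋ b → b ∈ Y) → ℋ ≤ Y :=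
        fun Y hY => ff_gen (holV V₀) ℋ h𝒱 hHV hf hS1 hS3 hH1 Y hY
      have hXq : IsPGroup q ↥X := Cfsg.Agent.Lib.helper3.isPGroup_of_isEA hX
      have hXab : ∀ x y : ↥X, x * y = y * x := fun x y => hX.1.is_comm.comm x y
      have hOp := holX_ffOp V₀ (conjOn K X hXK) hXq hXab hq ℋ hℋ hS ha
      have hcop : (Nat.card X).Coprime (Nat.card K) := by
        obtain ⟨n, hn⟩ := hXq.exists_card_eq
        rw [hn]
        exact Nat.Coprime.pow_left n ((Nat.Prime.coprime_iff_not_dvd hqp).mpr hq)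
      have : IsMulCommutative X := hX.1
      have hsolv : Group.IsSolvable ↥X := Cfsg.Agent.Lib.helper8.isSolvable_of_isMulCommutative X
      have hM1 : ℋ ⊓ Subgroup.centralizer
          ((((holAut V₀).comp (conjOn K X hXK)).range : Subgroup (Hol V₀)) : Set (Hol V₀)) ≤
          M₀.map (holHom V₀) := by
        rintro h ⟨hh, hcent⟩
        have hh' : h ∈ (Cfsg.thompsonSubgroup p ↥K).map (holHom V₀) := hℋ ▸ hh
        obtain ⟨j, hj, rfl⟩ := Subgroup.mem_map.mp hh'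
        have hj2 : ∀ x : ↥X, holAut V₀ (conjOn K X hXK x) * holHom V₀ j =
            holHom V₀ j * holAut V₀ (conjOn K X hXK x) :=
          fun x => Subgroup.mem_centralizer_iff.mp hcent _ ⟨x, rfl⟩
        obtain ⟨c, hcX, hcj⟩ := hol_lift K X hXK hcop hsolv V₀ j hj2
        rw [← hcj]
        exact Subgroup.mem_map_of_mem _ (hXM (Subgroup.mem_subgroupOf.mpr hcX))
      have hM2 : ∀ b ∈ ℋ, orderOf b = p → ∃ h ∈ ℋ, h * b * h⁻¹ ∈ M₀.map (holHom V₀) := by
        intro b hb hbp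
        obtain ⟨P, hP⟩ := Cfsg.Agent.Lib.helper3.exists_sylow_map_eq_inf S
          (Cfsg.thompsonSubgroup p ↥K)
        let φ : ↥(Cfsg.thompsonSubgroup p ↥K) →* ↥ℋ :=
          ((holHom V₀).comp (Cfsg.thompsonSubgroup p ↥K).subtype).codRestrict ℋ
            (fun x => hℋ ▸ Subgroup.mem_map_of_mem _ x.2)
        have hφ : Function.Surjective φ := by
          rintro ⟨y, hy⟩
          obtain ⟨x, hx, rfl⟩ := (hℋ ▸ hy : y ∈ (Cfsg.thompsonSubgroup p ↥K).map (holHom V₀))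
          exact ⟨⟨x, hx⟩, Subtype.ext rfl⟩
        have hbP : IsPGroup p ↥(Subgroup.zpowers (⟨b, hb⟩ : ↥ℋ)) := by
          apply IsPGroup.of_card (n := 1)
          rw [Nat.card_zpowers, pow_one, Subgroup.orderOf_mk, hbp]
        obtain ⟨P', hP'⟩ := hbP.exists_le_sylow
        obtain ⟨g, hg⟩ := MulAction.exists_smul_eq ↥ℋ P' (P.mapSurjective hφ)
        have h1 : g * ⟨b, hb⟩ * g⁻¹ ∈ P.mapSurjective hφ :=
          (Cfsg.Agent.Lib.helper3.sylow_smul_mem_iff hg).mp (hP' (Subgroup.mem_zpowers _))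
        have h2 : g * ⟨b, hb⟩ * g⁻¹ ∈ (P : Subgroup ↥(Cfsg.thompsonSubgroup p ↥K)).map φ := by
          rw [← Sylow.coe_mapSurjective hφ]; exact h1
        obtain ⟨s, hs, hsφ⟩ := Subgroup.mem_map.mp h2
        have hsS : (s : ↥K) ∈ (S : Subgroup ↥K) ⊓ Cfsg.thompsonSubgroup p ↥K := by
          rw [← hP]; exact Subgroup.mem_map_of_mem _ hs
        refine ⟨(g : Hol V₀), g.2, ?_⟩
        have h3 : (g : Hol V₀) * b * (g : Hol V₀)⁻¹ = holHom V₀ (s : ↥K) := by
          have := congrArg Subtype.val hsφ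
          exact this.symm
        rw [h3]
        exact Subgroup.mem_map_of_mem _ (hSM hsS.1)
      have hHM : ℋ ≤ M₀.map (holHom V₀) := ffX_gen hS hOp hgen _ hM1 hM2
      intro j hj
      have h1 : holHom V₀ j ∈ M₀.map (holHom V₀) := hHM (hℋ ▸ Subgroup.mem_map_of_mem _ hj)
      obtain ⟨m, hm, hmj⟩ := Subgroup.mem_map.mp h1
      have h2 : m⁻¹ * j ∈ (holHom V₀).ker := by
        rw [MonoidHom.mem_ker, map_mul, map_inv, hmj, inv_mul_cancel]
      have h3 : j = m * (m⁻¹ * j) := by group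
      rw [h3]
      exact M₀.mul_mem hm (hker h2)
  -- Frattini argument
  obtain ⟨P, hP⟩ := Cfsg.Agent.Lib.helper3.exists_sylow_map_eq_inf S (Cfsg.thompsonSubgroup p ↥K)
  have hfr := Sylow.normalizer_sup_eq_top P
  rw [hP] at hfr
  rw [eq_top_iff, ← hfr]
  refine sup_le ?_ hJM
  refine le_trans (Cfsg.Agent.Lib.helper3.normalizer_inf_thompson_le S) ?_
  rw [hM₀]
  exact le_sup_of_le_left le_sup_left

end Cfsg.Agent.S0620
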