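import Cfsg.Statements.S0621
import Cfsg.Agent.S0601
import Cfsg.Agent.S0608
import Cfsg.Agent.Lib.helper14.HolX2
import Cfsg.Agent.Lib.helper10.PSolv
import Cfsg.Agent.Lib.helper3.Replacement
import Cfsg.Agent.Lib.helper3.Conj

set_option autoImplicit false
open Cfsg
open Cfsg.Agent.Lib.helper14

namespace Cfsg.Agent.S0621

/-- Let K be p-separable with O_p'(K) = 1, normalized by an elementary abelian q-group X for a prime q not dividing the order of K. If the Thompson factorization fails in K, then p is 2 or 3 and the fixed points of X contain a plane W of order p² and a subgroup inducing SL(2, p) on it. -/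
theorem result {G : Type*} [Group G] [Finite G] {p : ℕ} [Fact p.Prime] {q : ℕ} [Fact q.Prime] (K X : Subgroup G) (hXK : X ≤ Subgroup.normalizer (K : Set G)) (hX : Cfsg.IsElementaryAbelian q X) (hq : ¬ q ∣ Nat.card K) (hsep : Cfsg.IsPSolvable p ↥K) (hO : Cfsg.pPrimeCore p ↥K = ⊥) (hnf : ¬ Cfsg.IsThompsonFactorizable p ↥K) : (p = 2 ∨ p = 3) ∧ ∃ W D : Subgroup G, W ≤ K ⊓ Subgroup.centralizer (X : Set G) ∧ D ≤ K ⊓ Subgroup.centralizer (X : Set G) ∧ Cfsg.IsElementaryAbelian p W ∧ Nat.card W = p ^ 2 ∧ D ≤ Subgroup.normalizer (W : Set G) ∧ ∃ hn : ((Subgroup.centralizer (W : Set G)).subgroupOf D).Normal, Nonempty ((↥D ⧸ (Subgroup.centralizer (W : Set G)).subgroupOf D) ≃* Matrix.SpecialLinearGroup (Fin 2) (ZMod p)) := by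
  classical
  have hp : p.Prime := Fact.out
  have hqp : q.Prime := Fact.out
  have hc : Subgroup.centralizer (Cfsg.pCore p ↥K : Set ↥K) ≤ Cfsg.pCore p ↥K :=
    Cfsg.Agent.Lib.helper10.centralizer_pCore_le_of_pSolvable hsep hO
  obtain ⟨hVn, hVe, hD⟩ := Cfsg.Agent.S0601.result (p := p) hc
  have hJ := (not_congr (Cfsg.Agent.S0608.result hO)).mp hnf
  obtain ⟨V₀, hV₀⟩ : ∃ V₀ : Subgroup ↥K, V₀ = ⨆ S : Sylow p ↥K, Cfsg.omegaOne p
      ((S : Subgroup ↥K) ⊓ Subgroup.centralizer ((S : Subgroup ↥K) : Set ↥K)) := ⟨_, rfl⟩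
  rw [← hV₀] at hVn hVe hD hJ
  have hch : V₀.Characteristic := hV₀ ▸ omegaZ_characteristic p ↥K
  obtain ⟨ℋ, hℋ⟩ : ∃ ℋ : Subgroup (Hol V₀),
      ℋ = (Cfsg.thompsonSubgroup p ↥K).map (holHom V₀) := ⟨_, rfl⟩
  obtain ⟨h𝒱, hHV, hf, hS1, hS3⟩ := hol_ff_hyps hsep V₀ hVe hD ℋ hℋ
  have hH1 : ℋ ≠ ⊥ := by
    intro h
    apply hJ
    rw [← holHom_ker V₀]
    intro x hx
    rw [MonoidHom.mem_ker]
    have : holHom V₀ x ∈ ℋ := hℋ ▸ Subgroup.mem_map_of_mem _ hx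
    rw [h] at this
    exact Subgroup.mem_bot.mp this
  obtain ⟨a, ha⟩ := exists_transv (holV V₀) ℋ h𝒱 hHV hf hS1 hS3 hH1
  have hS := ff_setup_of (holV V₀) ℋ h𝒱 hHV hf hS1
  have hgen : ∀ Y : Subgroup (Hol V₀), (∀ b, IsTransv p (holV V₀) ℋ b → b ∈ Y) → ℋ ≤ Y :=
    fun Y hY => ff_gen (holV V₀) ℋ h𝒱 hHV hf hS1 hS3 hH1 Y hY
  have hXq : IsPGroup q ↥X := Cfsg.Agent.Lib.helper3.isPGroup_of_isEA hX
  have hXab : ∀ x y : ↥X, x * y = y * x := fun x y => hX.1.is_comm.comm x y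
  have hOp := holX_ffOp V₀ (conjOn K X hXK) hXq hXab hq ℋ hℋ hS ha
  have hcop : (Nat.card X).Coprime (Nat.card K) := by
    obtain ⟨n, hn⟩ := hXq.exists_card_eq
    rw [hn]
    exact Nat.Coprime.pow_left n ((Nat.Prime.coprime_iff_not_dvd hqp).mpr hq)
  have hXc : IsMulCommutative X := hX.1
  have hsolv : Group.IsSolvable ↥X := Cfsg.Agent.Lib.helper8.isSolvable_of_isMulCommutative X
  obtain ⟨𝒳, h𝒳⟩ : ∃ 𝒳 : Subgroup (Hol V₀), 𝒳 = ((holAut V₀).comp (conjOn K X hXK)).range :=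
    ⟨_, rfl⟩
  rw [← h𝒳] at hOp
  obtain ⟨hp23, 𝒲, h𝒲le, h𝒲card, h𝒲norm, φ, hφs, hφk⟩ := ffX_sl2 hS ha hOp hgen
  -- the plane in `G`
  obtain ⟨ι, hι⟩ : ∃ ι : ↥V₀ →* G, ι = K.subtype.comp V₀.subtype := ⟨_, rfl⟩
  have hιinj : Function.Injective ι := by
    rw [hι]; exact K.subtype_injective.comp V₀.subtype_injective
  have hιv : ∀ v : ↥V₀, ι v = ((v : ↥K) : G) := fun v => by rw [hι]; rfl
  obtain ⟨W₀, hW₀⟩ : ∃ W₀ : Subgroup ↥V₀,
      W₀ = 𝒲.comap (SemidirectProduct.inl : ↥V₀ →* Hol V₀) := ⟨_, rfl⟩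
  have hW₀mem : ∀ v : ↥V₀, v ∈ W₀ ↔ (SemidirectProduct.inl v : Hol V₀) ∈ 𝒲 := by
    intro v; rw [hW₀]; rfl
  have h𝒲inl : ∀ y ∈ 𝒲, ∃ v ∈ W₀, (SemidirectProduct.inl v : Hol V₀) = y := by
    intro y hy
    obtain ⟨v, rfl⟩ := (h𝒲le hy).1
    exact ⟨v, (hW₀mem v).mpr hy, rfl⟩
  -- conjugation by elements of `K` and of `X` on the plane
  have hconjK : ∀ (k : ↥K) (v : ↥V₀) (v' : ↥V₀), ((v' : ↥K) : G) = (k : G) * ι v * (k : G)⁻¹ →
      holHom V₀ k * SemidirectProduct.inl v * (holHom V₀ k)⁻¹ = SemidirectProduct.inl v' := by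
    intro k v v' hv'
    rw [holHom_conj]
    congr 1
    apply Subtype.ext
    apply Subtype.ext
    rw [hv', hιv]; rfl
  have hWX : ∀ v ∈ W₀, ∀ x ∈ X, x * ι v = ι v * x := by
    intro v hv x hx
    have h1 : (SemidirectProduct.inl v : Hol V₀) ∈ Subgroup.centralizer (𝒳 : Set (Hol V₀)) :=
      (h𝒲le ((hW₀mem v).mp hv)).2
    have h2 := Subgroup.mem_centralizer_iff.mp h1 (holAut V₀ (conjOn K X hXK ⟨x, hx⟩))
      (h𝒳 ▸ ⟨⟨x, hx⟩, rfl⟩)
    have h3 := holAut_conj_inl V₀ (conjOn K X hXK ⟨x, hx⟩) v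
    rw [h2, mul_inv_cancel_right] at h3
    have h4 := congrArg Subtype.val (congrArg Subtype.val (SemidirectProduct.inl_injective h3))
    rw [charRes_apply, conjOn_apply] at h4
    rw [hιv]
    exact mul_inv_eq_iff_eq_mul.mp h4.symm
  -- centralizing the plane
  have hcentK : ∀ k : ↥K, holHom V₀ k ∈ Subgroup.centralizer (𝒲 : Set (Hol V₀)) ↔
      (k : G) ∈ Subgroup.centralizer ((W₀.map ι : Subgroup G) : Set G) := by
    intro k
    rw [Subgroup.mem_centralizer_iff, Subgroup.mem_centralizer_iff]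
    constructor
    · rintro h _ ⟨v, hv, rfl⟩
      have h1 := h _ ((hW₀mem v).mp hv)
      have h2 := holHom_conj V₀ k v
      rw [← h1, mul_inv_cancel_right] at h2
      have h3 := congrArg Subtype.val (congrArg Subtype.val (SemidirectProduct.inl_injective h2))
      rw [hιv]
      exact (mul_inv_eq_iff_eq_mul.mp h3.symm).symm
    · intro h y hy
      obtain ⟨v, hv, rfl⟩ := h𝒲inl y hy
      have h1 := h (ι v) (Subgroup.mem_map_of_mem _ hv)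
      have h2 := hconjK k v v (by rw [← h1, mul_inv_cancel_right, hιv])
      exact (mul_inv_eq_iff_eq_mul.mp h2).symm
  obtain ⟨D₁, hD₁⟩ : ∃ D₁ : Subgroup ↥K, D₁ = (ℋ ⊓ Subgroup.centralizer (𝒳 : Set (Hol V₀))).comap
      (holHom V₀) ⊓ (Subgroup.centralizer (X : Set G)).subgroupOf K := ⟨_, rfl⟩
  have hD₁mem : ∀ k : ↥K, k ∈ D₁ ↔ holHom V₀ k ∈ ℋ ⊓ Subgroup.centralizer (𝒳 : Set (Hol V₀)) ∧
      (k : G) ∈ Subgroup.centralizer (X : Set G) := by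
    intro k; rw [hD₁]; rfl
  refine ⟨hp23, W₀.map ι, D₁.map K.subtype, ?_, ?_, ?_, ?_, ?_, ?_⟩
  · rintro _ ⟨v, hv, rfl⟩
    refine Subgroup.mem_inf.mpr ⟨?_, Subgroup.mem_centralizer_iff.mpr fun x hx => hWX v hv x hx⟩
    rw [hιv]; exact (v : ↥K).2
  · rintro _ ⟨k, hk, rfl⟩
    exact Subgroup.mem_inf.mpr ⟨k.2, ((hD₁mem k).mp hk).2⟩
  · have hle : W₀.map ι ≤ V₀.map K.subtype := by
      rintro _ ⟨v, hv, rfl⟩
      rw [hιv]
      exact Subgroup.mem_map_of_mem _ v.2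
    exact Cfsg.Agent.Lib.helper3.isEA_of_le p hle
      (Cfsg.Agent.Lib.helper3.isEA_map p K.subtype hVe)
  · rw [Subgroup.card_map_of_injective hιinj, ← h𝒲card]
    have h1 : W₀.map (SemidirectProduct.inl : ↥V₀ →* Hol V₀) = 𝒲 := by
      rw [hW₀]
      exact Subgroup.map_comap_eq_self (fun y hy => (h𝒲le hy).1)
    rw [← h1, Subgroup.card_map_of_injective SemidirectProduct.inl_injective]
  · apply Cfsg.Agent.Lib.helper8.le_normalizer_of_conj_mem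
    rintro _ ⟨k, hk, rfl⟩ _ ⟨v, hv, rfl⟩
    have h1 : holHom V₀ k ∈ Subgroup.normalizer (𝒲 : Set (Hol V₀)) :=
      h𝒲norm ((hD₁mem k).mp hk).1
    have h2 := (Subgroup.mem_normalizer_iff.mp h1 _).mp ((hW₀mem v).mp hv)
    rw [holHom_conj] at h2
    refine Subgroup.mem_map.mpr ⟨_, (hW₀mem _).mpr h2, ?_⟩
    rw [hιv, hιv]; rfl
  · -- the quotient
    let θ : ↥(D₁.map K.subtype) ≃* ↥D₁ :=
      (D₁.equivMapOfInjective K.subtype K.subtype_injective).symm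
    have hθ : ∀ d : ↥(D₁.map K.subtype), (((θ d : ↥D₁) : ↥K) : G) = (d : G) := by
      intro d
      have h1 := Subgroup.coe_equivMapOfInjective_apply D₁ K.subtype K.subtype_injective (θ d)
      rw [MulEquiv.apply_symm_apply] at h1
      exact h1.symm
    let φ₁ : ↥D₁ →* ↥(ℋ ⊓ Subgroup.centralizer (𝒳 : Set (Hol V₀))) :=
      ((holHom V₀).comp D₁.subtype).codRestrict _ (fun d => ((hD₁mem d.1).mp d.2).1)
    have hφ₁ : ∀ d : ↥D₁, ((φ₁ d : ↥(ℋ ⊓ Subgroup.centralizer (𝒳 : Set (Hol V₀)))) : Hol V₀) =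
        holHom V₀ (d : ↥K) := fun d => rfl
    have hφ₁s : Function.Surjective φ₁ := by
      rintro ⟨h, hh⟩
      have hh' : h ∈ (Cfsg.thompsonSubgroup p ↥K).map (holHom V₀) := hℋ ▸ hh.1
      obtain ⟨j, hj, rfl⟩ := Subgroup.mem_map.mp hh'
      have hj2 : ∀ x : ↥X, holAut V₀ (conjOn K X hXK x) * holHom V₀ j =
          holHom V₀ j * holAut V₀ (conjOn K X hXK x) :=
        fun x => Subgroup.mem_centralizer_iff.mp hh.2 _ (h𝒳 ▸ ⟨x, rfl⟩)
      obtain ⟨c, hcX, hcj⟩ := hol_lift K X hXK hcop hsolv V₀ j hj2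
      have hcD : c ∈ D₁ := (hD₁mem c).mpr ⟨hcj ▸ hh, hcX⟩
      exact ⟨⟨c, hcD⟩, Subtype.ext (by rw [hφ₁]; exact hcj)⟩
    let Φ : ↥(D₁.map K.subtype) →* Matrix.SpecialLinearGroup (Fin 2) (ZMod p) :=
      φ.comp (φ₁.comp θ.toMonoidHom)
    have hΦs : Function.Surjective Φ :=
      hφs.comp (hφ₁s.comp θ.surjective)
    have hΦk : Φ.ker = (Subgroup.centralizer ((W₀.map ι : Subgroup G) : Set G)).subgroupOf
        (D₁.map K.subtype) := by
      ext d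
      rw [MonoidHom.mem_ker, Subgroup.mem_subgroupOf]
      show φ (φ₁ (θ d)) = 1 ↔ _
      rw [hφk, hφ₁, hcentK, hθ]
    have hn : ((Subgroup.centralizer ((W₀.map ι : Subgroup G) : Set G)).subgroupOf
        (D₁.map K.subtype)).Normal := hΦk ▸ MonoidHom.normal_ker Φ
    exact ⟨hn, ⟨(QuotientGroup.quotientMulEquivOfEq hΦk.symm).trans
      (QuotientGroup.quotientKerEquivOfSurjective Φ hΦs)⟩⟩

end Cfsg.Agent.S0621
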