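import Cfsg.Statements.S0632
import Cfsg.Agent.Lib.helper14.PStabQuot

set_option autoImplicit false
open Cfsg
open Cfsg.Agent.Lib.helper14

namespace Cfsg.Agent.S0632

/-- For a group with a nontrivial normal p-subgroup, p-stability passes to and from the quotient by the largest normal subgroup of order prime to p. -/
theorem result {G : Type*} [Group G] [Finite G] {p : ℕ} [Fact p.Prime] (hO : Cfsg.pCore p G ≠ ⊥) : Cfsg.IsPStable p G ↔ Cfsg.IsPStable p (G ⧸ Cfsg.pPrimeCore p G) := by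
  have hπs := QuotientGroup.mk'_surjective (Cfsg.pPrimeCore p G)
  have hker : (QuotientGroup.mk' (Cfsg.pPrimeCore p G)).ker = Cfsg.pPrimeCore p G :=
    QuotientGroup.ker_mk' _
  have hcop : (Nat.card (QuotientGroup.mk' (Cfsg.pPrimeCore p G)).ker).Coprime p := by
    rw [hker]; exact Cfsg.Agent.Lib.helper9.pPrimeCore_coprime p G
  have hF1 : Cfsg.pPrimeCore p (G ⧸ Cfsg.pPrimeCore p G) = ⊥ :=
    Cfsg.Agent.Lib.helper9.pPrimeCore_quotient_eq_bot p G
  constructor
  · intro hs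
    refine ⟨hs.1, ?_, ?_⟩
    · intro hbot
      apply hO
      rw [eq_bot_iff]
      intro x hx
      have hx' : QuotientGroup.mk' (Cfsg.pPrimeCore p G) x ∈
          Cfsg.pCore p (G ⧸ Cfsg.pPrimeCore p G) :=
        (le_sSup ⟨(Cfsg.pCore_normal p G).map _ hπs,
          (Cfsg.Agent.Lib.helper3.pCore_isPGroup3 p G).map _⟩ :
          (Cfsg.pCore p G).map (QuotientGroup.mk' (Cfsg.pPrimeCore p G)) ≤
            Cfsg.pCore p (G ⧸ Cfsg.pPrimeCore p G)) ⟨x, hx, rfl⟩
      rw [hbot, Subgroup.mem_bot] at hx'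
      exact Subgroup.mem_bot.mpr (eq_one_of_mem_of_mem_coprime (Cfsg.pCore p G) (Cfsg.pPrimeCore p G)
        (Cfsg.Agent.Lib.helper3.pCore_isPGroup3 p G) (Cfsg.Agent.Lib.helper9.pPrimeCore_coprime p G)
        hx ((QuotientGroup.eq_one_iff x).mp hx'))
    · intro Abar Pbar hAb hPb hnorm hle hnormal hquad
      have hPbn : Pbar.Normal := by rw [hF1, bot_sup_eq] at hnormal; exact hnormal
      rw [stabWit_iff p Pbar Abar (le_normalizer_of_conj_mem Pbar Abar hnorm)]
      apply stab_to_quotient (QuotientGroup.mk' (Cfsg.pPrimeCore p G)) hπs hcop ?_ Abar Pbar hAb hPb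
        hnorm hPbn hquad
      intro A P hA hP hAP hPmapn hKP hq
      rw [← stabWit_iff p P A (le_normalizer_of_conj_mem P A hAP)]
      apply hs.2.2 A P hA hP hAP ?_ (by rw [hker] at hKP; exact hKP) hq
      intro x hx
      change QuotientGroup.mk' (Cfsg.pPrimeCore p G) x ∈ Cfsg.pCore p (G ⧸ Cfsg.pPrimeCore p G)
      exact (le_sSup ⟨hPmapn, hP.map _⟩ :
        P.map (QuotientGroup.mk' (Cfsg.pPrimeCore p G)) ≤
          Cfsg.pCore p (G ⧸ Cfsg.pPrimeCore p G)) ⟨x, hx, rfl⟩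
  · intro hs
    refine ⟨hs.1, hO, ?_⟩
    intro A P hA hP hAP hle hKP hq
    rw [stabWit_iff p P A (le_normalizer_of_conj_mem P A hAP)]
    apply stab_of_quotient (QuotientGroup.mk' (Cfsg.pPrimeCore p G)) hπs hcop ?_ A P hA hP hAP
      (by rw [hker]; exact hKP) hq
    intro Abar Pbar hAb hPb hnorm hPbn hquad
    rw [← stabWit_iff p Pbar Abar (le_normalizer_of_conj_mem Pbar Abar hnorm)]
    exact hs.2.2 Abar Pbar hAb hPb hnorm (normal_pgroup_le_pPrimePCore Pbar hPbn hPb)
      (by rw [hF1, bot_sup_eq]; exact hPbn) hquad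

end Cfsg.Agent.S0632
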