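import Cfsg.Statements.S0634
import Mathlib
import Cfsg.Agent.Lib.helper16.PSolv

set_option autoImplicit false
open Cfsg

namespace Cfsg.Agent.S0634

theorem ups_succ_of_even (p : ℕ) (G : Type*) [Group G] (n : ℕ) (h : Even n) :
    (Cfsg.upperPSeries p G (n + 1)).1 =
      (Cfsg.pPrimeCore p (G ⧸ (Cfsg.upperPSeries p G n).1)).comap
        (QuotientGroup.mk' (Cfsg.upperPSeries p G n).1) := by
  have e : Cfsg.upperPSeries p G (n + 1) =
      (if Even n then
        ⟨(Cfsg.pPrimeCore p (G ⧸ (Cfsg.upperPSeries p G n).1)).comap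
          (QuotientGroup.mk' (Cfsg.upperPSeries p G n).1), inferInstance⟩
      else
        ⟨(Cfsg.pCore p (G ⧸ (Cfsg.upperPSeries p G n).1)).comap
          (QuotientGroup.mk' (Cfsg.upperPSeries p G n).1), inferInstance⟩) := rfl
  rw [e, if_pos h]

theorem ups_succ_of_not_even (p : ℕ) (G : Type*) [Group G] (n : ℕ) (h : ¬ Even n) :
    (Cfsg.upperPSeries p G (n + 1)).1 =
      (Cfsg.pCore p (G ⧸ (Cfsg.upperPSeries p G n).1)).comap
        (QuotientGroup.mk' (Cfsg.upperPSeries p G n).1) := by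
  have e : Cfsg.upperPSeries p G (n + 1) =
      (if Even n then
        ⟨(Cfsg.pPrimeCore p (G ⧸ (Cfsg.upperPSeries p G n).1)).comap
          (QuotientGroup.mk' (Cfsg.upperPSeries p G n).1), inferInstance⟩
      else
        ⟨(Cfsg.pCore p (G ⧸ (Cfsg.upperPSeries p G n).1)).comap
          (QuotientGroup.mk' (Cfsg.upperPSeries p G n).1), inferInstance⟩) := rfl
  rw [e, if_neg h]

/-- In a p-soluble group each p-factor of the upper p-series contains its own centralizer in the corresponding quotient. -/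
theorem result {G : Type*} [Group G] [Finite G] {p : ℕ} [Fact p.Prime] (hsol : Cfsg.IsPSolvable p G) (k : ℕ) : Subgroup.centralizer ((((Cfsg.upperPSeries p G (2 * k + 2)).1.map (QuotientGroup.mk' (Cfsg.upperPSeries p G (2 * k + 1)).1)) : Subgroup (G ⧸ (Cfsg.upperPSeries p G (2 * k + 1)).1)) : Set (G ⧸ (Cfsg.upperPSeries p G (2 * k + 1)).1)) ≤ (Cfsg.upperPSeries p G (2 * k + 2)).1.map (QuotientGroup.mk' (Cfsg.upperPSeries p G (2 * k + 1)).1) := by
  have h1 : (Cfsg.upperPSeries p G (2 * k + 1)).1 =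
      (Cfsg.pPrimeCore p (G ⧸ (Cfsg.upperPSeries p G (2 * k)).1)).comap
        (QuotientGroup.mk' (Cfsg.upperPSeries p G (2 * k)).1) := by
    exact ups_succ_of_even p G (2 * k) (even_two_mul k)
  have h2 : (Cfsg.upperPSeries p G (2 * k + 2)).1 =
      (Cfsg.pCore p (G ⧸ (Cfsg.upperPSeries p G (2 * k + 1)).1)).comap
        (QuotientGroup.mk' (Cfsg.upperPSeries p G (2 * k + 1)).1) := by
    exact ups_succ_of_not_even p G (2 * k + 1) (Nat.not_even_two_mul_add_one k)
  rw [h2, Subgroup.map_comap_eq_self_of_surjective (QuotientGroup.mk'_surjective _)]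
  exact Cfsg.Agent.Lib.helper16.centralizer_pCore_quot_le_of_pSolvable hsol _ _ h1

end Cfsg.Agent.S0634
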