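import Cfsg.Statements.S0635
import Mathlib
import Cfsg.Agent.Lib.helper16.PSolv
import Cfsg.Agent.S0634
import Cfsg.Agent.Lib.helper9.PPrimeCore
import Cfsg.Agent.Lib.helper15.PCore

set_option autoImplicit false
open Cfsg

namespace Cfsg.Agent.S0635

open Cfsg.Agent.Lib.helper16 Cfsg.Agent.Lib.helper9 Cfsg.Agent.Lib.helper15

theorem ucs_le {G : Type*} [Group G] [Finite G] {p : ℕ} [Fact p.Prime] (hsol : Cfsg.IsPSolvable p G)
    (S : Sylow p G) (k : ℕ) :
    ∀ z : ↥(S : Subgroup G), z ∈ Subgroup.upperCentralSeries ↥(S : Subgroup G) k →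
      (z : G) ∈ (Cfsg.upperPSeries p G (2 * k)).1 := by
  induction k with
  | zero =>
    intro z hz
    rw [Subgroup.upperCentralSeries_zero, Subgroup.mem_bot] at hz
    rw [hz]; exact one_mem _
  | succ k ih =>
    intro z hz
    have h1 : (Cfsg.upperPSeries p G (2 * k + 1)).1 =
        (Cfsg.pPrimeCore p (G ⧸ (Cfsg.upperPSeries p G (2 * k)).1)).comap
          (QuotientGroup.mk' (Cfsg.upperPSeries p G (2 * k)).1) := by
      exact Cfsg.Agent.S0634.ups_succ_of_even p G (2 * k) (even_two_mul k)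
    have h2 : (Cfsg.upperPSeries p G (2 * k + 2)).1 =
        (Cfsg.pCore p (G ⧸ (Cfsg.upperPSeries p G (2 * k + 1)).1)).comap
          (QuotientGroup.mk' (Cfsg.upperPSeries p G (2 * k + 1)).1) := by
      exact Cfsg.Agent.S0634.ups_succ_of_not_even p G (2 * k + 1) (Nat.not_even_two_mul_add_one k)
    have hUV : (Cfsg.upperPSeries p G (2 * k)).1 ≤ (Cfsg.upperPSeries p G (2 * k + 1)).1 := by
      intro u hu
      rw [h1, Subgroup.mem_comap, show QuotientGroup.mk' _ u = 1 from
        (QuotientGroup.eq_one_iff u).mpr hu]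
      exact one_mem _
    have hC := centralizer_pCore_quot_le_of_pSolvable hsol _ _ h1
    have hsurj : Function.Surjective (QuotientGroup.mk' (Cfsg.upperPSeries p G (2 * k + 1)).1) :=
      QuotientGroup.mk'_surjective _
    have hRP : pCore p (G ⧸ (Cfsg.upperPSeries p G (2 * k + 1)).1) ≤
        (S : Subgroup G).map (QuotientGroup.mk' (Cfsg.upperPSeries p G (2 * k + 1)).1) := by
      have := pCore_le_sylow (S.mapSurjective hsurj)
      rwa [Sylow.coe_mapSurjective] at this
    show (z : G) ∈ (Cfsg.upperPSeries p G (2 * k + 2)).1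
    rw [h2, Subgroup.mem_comap]
    apply hC
    rw [Subgroup.mem_centralizer_iff]
    intro r hr
    obtain ⟨s, hs, rfl⟩ := hRP hr
    have hz' := (Subgroup.mem_upperCentralSeries_succ_iff.mp hz) ⟨s, hs⟩
    have h3 := hUV (ih _ hz')
    have h3' : (z : G) * s * (z : G)⁻¹ * s⁻¹ ∈ (Cfsg.upperPSeries p G (2 * k + 1)).1 := by
      have := h3
      simpa [commutatorElement_def] using this
    have h5 : (QuotientGroup.mk' (Cfsg.upperPSeries p G (2 * k + 1)).1)
        ((z : G) * s * (z : G)⁻¹ * s⁻¹) = 1 := (QuotientGroup.eq_one_iff _).mpr h3'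
    have e : (z : G) * s = ((z : G) * s * (z : G)⁻¹ * s⁻¹) * (s * (z : G)) := by group
    rw [← map_mul, ← map_mul]
    conv_rhs => rw [e, map_mul, h5, one_mul]

/-- The p-length of a p-soluble group is at most the nilpotency class of its Sylow p-subgroups. -/
theorem result {G : Type*} [Group G] [Finite G] {p : ℕ} [Fact p.Prime] (hsol : Cfsg.IsPSolvable p G) (S : Sylow p G) : Cfsg.PLengthLE p (Group.nilpotencyClass ↥(S : Subgroup G)) G := by
  have hp : p.Prime := Fact.out
  haveI hnil : Group.IsNilpotent ↥(S : Subgroup G) := S.isPGroup'.isNilpotent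
  have hS : (S : Subgroup G) ≤
      (Cfsg.upperPSeries p G (2 * Group.nilpotencyClass ↥(S : Subgroup G))).1 := by
    intro s hs
    have := ucs_le hsol S (Group.nilpotencyClass ↥(S : Subgroup G)) ⟨s, hs⟩
      (by rw [Subgroup.upperCentralSeries_nilpotencyClass]; exact Subgroup.mem_top _)
    exact this
  unfold Cfsg.PLengthLE
  have h1 : (Cfsg.upperPSeries p G (2 * Group.nilpotencyClass ↥(S : Subgroup G) + 1)).1 =
      (Cfsg.pPrimeCore p (G ⧸ (Cfsg.upperPSeries p G (2 * Group.nilpotencyClass ↥(S : Subgroup G))).1)).comap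
        (QuotientGroup.mk' (Cfsg.upperPSeries p G (2 * Group.nilpotencyClass ↥(S : Subgroup G))).1) := by
    exact Cfsg.Agent.S0634.ups_succ_of_even p G _ (even_two_mul _)
  rw [h1]
  have hidx : ¬ p ∣ (Cfsg.upperPSeries p G (2 * Group.nilpotencyClass ↥(S : Subgroup G))).1.index :=
    fun hd => S.not_dvd_index (hd.trans (Subgroup.index_dvd_of_le hS))
  have htop : Cfsg.pPrimeCore p (G ⧸ (Cfsg.upperPSeries p G (2 * Group.nilpotencyClass ↥(S : Subgroup G))).1) = ⊤ := by
    rw [eq_top_iff]
    apply le_pPrimeCore (inferInstance : (⊤ : Subgroup _).Normal)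
    rw [Subgroup.card_top, ← Subgroup.index_eq_card]
    exact ((Nat.Prime.coprime_iff_not_dvd hp).mpr hidx).symm
  rw [htop, Subgroup.comap_top]

end Cfsg.Agent.S0635
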