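import Cfsg.Statements.S0637

import Cfsg.Agent.S0128
import Cfsg.Agent.S0096
import Mathlib
set_option autoImplicit false
open Cfsg

namespace Cfsg.Agent.S0637

open scoped commutatorElement

universe u

theorem nil_inf_center {G : Type*} [Group G] [Group.IsNilpotent G]
    (N : Subgroup G) [N.Normal] (hN : N ≠ ⊥) : N ⊓ Subgroup.center G ≠ ⊥ := by
  classical
  obtain ⟨c, hc⟩ := Group.IsNilpotent.nilpotent G
  have hex : ∃ n, N ⊓ Subgroup.upperCentralSeries G n ≠ ⊥ := ⟨c, by rw [hc, inf_top_eq]; exact hN⟩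
  let i := Nat.find hex
  have hi : N ⊓ Subgroup.upperCentralSeries G i ≠ ⊥ := Nat.find_spec hex
  have hi0 : i ≠ 0 := by
    intro h0
    apply hi
    rw [h0, Subgroup.upperCentralSeries_zero, inf_bot_eq]
  obtain ⟨j, hj⟩ := Nat.exists_eq_succ_of_ne_zero hi0
  have hjlt : j < i := by omega
  have hjbot : N ⊓ Subgroup.upperCentralSeries G j = ⊥ := by
    by_contra hne
    exact Nat.find_min hex hjlt hne
  have hi' : ∃ x ∈ N ⊓ Subgroup.upperCentralSeries G i, x ≠ 1 := by
    by_contra hcon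
    push Not at hcon
    exact hi ((Subgroup.eq_bot_iff_forall _).mpr hcon)
  obtain ⟨x, hx, hx1⟩ := hi'
  rw [hj] at hx
  obtain ⟨hxN, hxZ⟩ := Subgroup.mem_inf.mp hx
  rw [Subgroup.mem_upperCentralSeries_succ_iff] at hxZ
  intro hbot
  apply hx1
  have hxc : x ∈ N ⊓ Subgroup.center G := by
    refine Subgroup.mem_inf.mpr ⟨hxN, ?_⟩
    rw [Subgroup.mem_center_iff]
    intro g
    have h1 : x * g * x⁻¹ * g⁻¹ ∈ N ⊓ Subgroup.upperCentralSeries G j := by
      refine Subgroup.mem_inf.mpr ⟨?_, hxZ g⟩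
      have h2 : g * x⁻¹ * g⁻¹ ∈ N := Subgroup.Normal.conj_mem inferInstance _ (N.inv_mem hxN) g
      have h3 : x * g * x⁻¹ * g⁻¹ = x * (g * x⁻¹ * g⁻¹) := by group
      rw [h3]
      exact N.mul_mem hxN h2
    rw [hjbot, Subgroup.mem_bot] at h1
    have h4 : x * g = g * x := by
      have := congrArg (fun t => t * g * x) h1
      simpa [mul_assoc] using this
    exact h4.symm
  rw [hbot, Subgroup.mem_bot] at hxc
  exact hxc

theorem omega_eq {G : Type*} [Group G] (p : ℕ) :
    Cfsg.omegaOne p (⊤ : Subgroup G) = Subgroup.closure {x : G | x ^ p = 1} := by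
  unfold Cfsg.omegaOne
  congr 1
  ext x
  simp

theorem card_comap_mk {R : Type u} [Group R] [Finite R] (Z : Subgroup R) [Z.Normal]
    (S : Subgroup (R ⧸ Z)) :
    Nat.card (S.comap (QuotientGroup.mk' Z)) = Nat.card S * Nat.card Z := by
  have e1 : (S.comap (QuotientGroup.mk' Z)).index = S.index :=
    Subgroup.index_comap_of_surjective S (QuotientGroup.mk'_surjective Z)
  have e2 := Subgroup.card_mul_index (S.comap (QuotientGroup.mk' Z))
  have e3 := Subgroup.card_mul_index S
  have e4 := Subgroup.card_eq_card_quotient_mul_card_subgroup Z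
  have hpos : 0 < S.index := Nat.pos_of_ne_zero Subgroup.index_ne_zero_of_finite
  apply Nat.eq_of_mul_eq_mul_right hpos
  rw [← e1, e2, e4, ← e3, e1]; ring

theorem card_le_of_pow_hom {R : Type u} [Group R] [Finite R] {p : ℕ} [Fact p.Prime]
    (Z : Subgroup R) [Z.Normal]
    (hΩ : Nat.card (Subgroup.closure {x : R | x ^ p = 1}) ≤ p ^ 2)
    (S : Subgroup (R ⧸ Z))
    (hmul : ∀ x ∈ S.comap (QuotientGroup.mk' Z), ∀ y ∈ S.comap (QuotientGroup.mk' Z),
      (x * y) ^ p = x ^ p * y ^ p)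
    (hpz : ∀ x ∈ S.comap (QuotientGroup.mk' Z), x ^ p ∈ Z) :
    Nat.card S ≤ p ^ 2 := by
  have h4 := card_comap_mk Z S
  set V := S.comap (QuotientGroup.mk' Z) with hV
  let φ : ↥V →* ↥V :=
    { toFun := fun x => x ^ p
      map_one' := one_pow p
      map_mul' := fun x y => by
        show (x * y) ^ p = x ^ p * y ^ p
        apply Subtype.ext
        simp only [Subgroup.coe_pow, Subgroup.coe_mul]
        exact hmul x.1 x.2 y.1 y.2 }
  have h1 : Nat.card φ.ker * Nat.card φ.range = Nat.card V := by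
    rw [← Subgroup.index_ker]; exact Subgroup.card_mul_index φ.ker
  have h2 : Nat.card φ.ker ≤ p ^ 2 := by
    have hle : φ.ker.map V.subtype ≤ Subgroup.closure {x : R | x ^ p = 1} := by
      rintro _ ⟨x, hx, rfl⟩
      apply Subgroup.subset_closure
      have hx' : x ^ p = 1 := MonoidHom.mem_ker.mp hx
      show (V.subtype x) ^ p = 1
      rw [← map_pow, hx', map_one]
    calc Nat.card φ.ker = Nat.card (φ.ker.map V.subtype) :=
          (Subgroup.card_map_of_injective V.subtype_injective).symm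
      _ ≤ Nat.card (Subgroup.closure {x : R | x ^ p = 1}) := Subgroup.card_le_of_le hle
      _ ≤ p ^ 2 := hΩ
  have h3 : Nat.card φ.range ≤ Nat.card Z := by
    have hle : φ.range.map V.subtype ≤ Z := by
      rintro _ ⟨_, ⟨x, rfl⟩, rfl⟩
      show ((x ^ p : ↥V) : R) ∈ Z
      rw [Subgroup.coe_pow]
      exact hpz x.1 x.2
    calc Nat.card φ.range = Nat.card (φ.range.map V.subtype) :=
          (Subgroup.card_map_of_injective V.subtype_injective).symm
      _ ≤ Nat.card Z := Subgroup.card_le_of_le hle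
  have hZpos : 0 < Nat.card Z := Nat.card_pos
  have h5 : Nat.card S * Nat.card Z ≤ p ^ 2 * Nat.card Z := by
    rw [← h4, ← h1]
    exact Nat.mul_le_mul h2 h3
  exact Nat.le_of_mul_le_mul_right h5 hZpos

theorem rank_quot {R : Type u} [Group R] [Finite R] {p : ℕ} [Fact p.Prime] (hp : 3 < p)
    (Z : Subgroup R) [Z.Normal] (hZc : Z ≤ Subgroup.center R) (hZp : ∀ z ∈ Z, z ^ p = 1)
    (hΩ : Nat.card (Subgroup.closure {x : R | x ^ p = 1}) ≤ p ^ 2) :
    ∀ E : Subgroup (R ⧸ Z), Cfsg.IsElementaryAbelian p E → Nat.card E ≤ p ^ 2 := by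
  intro E hE
  rw [Cfsg.Agent.S0128.isEA_iff] at hE
  obtain ⟨hEc, hEp⟩ := hE
  have hpp : p.Prime := Fact.out
  have hcomm : ∀ a b : ↥(E.comap (QuotientGroup.mk' Z)),
      ((⁅a, b⁆ : ↥(E.comap (QuotientGroup.mk' Z))) : R) ∈ Z := by
    intro a b
    rw [← QuotientGroup.eq_one_iff]
    have h1 : ((((⁅a, b⁆ : ↥(E.comap (QuotientGroup.mk' Z))) : R)) : R ⧸ Z) =
        ⁅((a : R) : R ⧸ Z), ((b : R) : R ⧸ Z)⁆ := by
      simp only [commutatorElement_def, Subgroup.coe_mul, Subgroup.coe_inv, QuotientGroup.mk_mul,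
        QuotientGroup.mk_inv]
    rw [h1, commutatorElement_eq_one_iff_mul_comm]
    exact hEc _ a.2 _ b.2
  have hc : ∀ a b : ↥(E.comap (QuotientGroup.mk' Z)),
      ⁅a, b⁆ ∈ Subgroup.center ↥(E.comap (QuotientGroup.mk' Z)) := by
    intro a b
    rw [Subgroup.mem_center_iff]
    intro g
    apply Subtype.ext
    have := Subgroup.mem_center_iff.mp (hZc (hcomm a b)) (g : R)
    simpa using this
  have key : ∀ x y : ↥(E.comap (QuotientGroup.mk' Z)), (x * y) ^ p = x ^ p * y ^ p := by
    intro x y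
    have h := Cfsg.Agent.S0096.mul_pow_class_two x y hc p
    have hcp : ⁅y, x⁆ ^ p = 1 := by
      apply Subtype.ext
      have := hZp _ (hcomm y x)
      simpa using this
    obtain ⟨m, hm⟩ := hpp.dvd_choose_self (by norm_num : (2 : ℕ) ≠ 0) (by omega : 2 < p)
    rw [h, hm, pow_mul, hcp, one_pow, one_mul]
  apply card_le_of_pow_hom Z hΩ E
  · intro x hx y hy
    have := congrArg Subtype.val (key ⟨x, hx⟩ ⟨y, hy⟩)
    simpa using this
  · intro x hx
    rw [← QuotientGroup.eq_one_iff, QuotientGroup.mk_pow]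
    exact hEp _ hx

theorem central_step {R : Type u} [Group R] [Finite R] {p : ℕ} [Fact p.Prime] (hp : 3 < p)
    (hR : IsPGroup p R) (Z : Subgroup R) [Z.Normal] (hZc : Z ≤ Subgroup.center R)
    (hZcard : Nat.card Z ∣ p)
    (hΩ : Nat.card (Subgroup.closure {x : R | x ^ p = 1}) ≤ p ^ 2) :
    Nat.card (Subgroup.closure {y : R ⧸ Z | y ^ p = 1}) ≤ p ^ 2 := by
  have hpp : p.Prime := Fact.out
  have hZp : ∀ z ∈ Z, z ^ p = 1 := by
    intro z hz
    obtain ⟨m, hm⟩ := hZcard
    have h1 : (⟨z, hz⟩ : Z) ^ Nat.card Z = 1 := pow_card_eq_one'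
    have h2 : z ^ Nat.card Z = 1 := by
      have h := congrArg Subtype.val h1
      rw [Subgroup.coe_pow, Subgroup.coe_one] at h
      exact h
    rw [hm, pow_mul, h2, one_pow]
  have hQ : IsPGroup p (R ⧸ Z) := hR.to_quotient Z
  have hrkQ := rank_quot hp Z hZc hZp hΩ
  have hSexp : ∀ g ∈ Subgroup.closure {y : R ⧸ Z | y ^ p = 1}, g ^ p = 1 :=
    fun g hg => Cfsg.Agent.S0128.result hp hQ hrkQ g hg
  have hSp : IsPGroup p ↥(Subgroup.closure {y : R ⧸ Z | y ^ p = 1}) := hQ.to_subgroup _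
  have hS3 : Nat.card (Subgroup.closure {y : R ⧸ Z | y ^ p = 1}) ≤ p ^ 3 := by
    apply Cfsg.Agent.S0128.card_le_of_exponent hSp
    · intro w
      apply Subtype.ext
      have := hSexp w.1 w.2
      simpa using this
    · exact Cfsg.Agent.S0128.rank_subgroup _ hrkQ
  have hSdvd : Nat.card (Subgroup.closure {y : R ⧸ Z | y ^ p = 1}) ∣ p ^ 3 := by
    obtain ⟨k, hk⟩ := IsPGroup.iff_card.mp hSp
    rw [hk] at hS3 ⊢
    exact pow_dvd_pow p ((Nat.pow_le_pow_iff_right hpp.one_lt).mp hS3)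
  have hVcard := card_comap_mk Z (Subgroup.closure {y : R ⧸ Z | y ^ p = 1})
  have hVdvd : Nat.card ((Subgroup.closure {y : R ⧸ Z | y ^ p = 1}).comap (QuotientGroup.mk' Z))
      ∣ p ^ 4 := by
    rw [hVcard]
    have : p ^ 4 = p ^ 3 * p := by ring
    rw [this]
    exact Nat.mul_dvd_mul hSdvd hZcard
  have hVp : IsPGroup p ↥((Subgroup.closure {y : R ⧸ Z | y ^ p = 1}).comap (QuotientGroup.mk' Z)) :=
    hR.to_subgroup _
  have hcl := Cfsg.Agent.S0128.comm3_mem_center_of_card_dvd hVp hVdvd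
  have hpz : ∀ x ∈ (Subgroup.closure {y : R ⧸ Z | y ^ p = 1}).comap (QuotientGroup.mk' Z),
      x ^ p ∈ Z := by
    intro x hx
    rw [← QuotientGroup.eq_one_iff, QuotientGroup.mk_pow]
    exact hSexp _ hx
  have hpc : ∀ x : ↥((Subgroup.closure {y : R ⧸ Z | y ^ p = 1}).comap (QuotientGroup.mk' Z)),
      x ^ p ∈ Subgroup.center
        ↥((Subgroup.closure {y : R ⧸ Z | y ^ p = 1}).comap (QuotientGroup.mk' Z)) := by
    intro x
    rw [Subgroup.mem_center_iff]
    intro g
    apply Subtype.ext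
    have := Subgroup.mem_center_iff.mp (hZc (hpz x.1 x.2)) (g : R)
    simpa using this
  have hc1 : ∀ x a b : ↥((Subgroup.closure {y : R ⧸ Z | y ^ p = 1}).comap (QuotientGroup.mk' Z)),
      ⁅x, ⁅a, b⁆⁆ ^ p = 1 := by
    intro x a b
    rw [← Cfsg.Agent.S0124.comm_pow_left hcl x a b p, commutatorElement_eq_one_iff_mul_comm]
    exact (Subgroup.mem_center_iff.mp (hpc x) _).symm
  have hc2 : ∀ x y : ↥((Subgroup.closure {y : R ⧸ Z | y ^ p = 1}).comap (QuotientGroup.mk' Z)),
      ⁅x, y⁆ ^ p = 1 := by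
    intro x y
    have h := Cfsg.Agent.S0124.comm_pow_formula hcl x y p
    have hl : ⁅x ^ p, y⁆ = 1 := by
      rw [commutatorElement_eq_one_iff_mul_comm]
      exact (Subgroup.mem_center_iff.mp (hpc x) _).symm
    rw [hl, Cfsg.Agent.S0124.pow_eq_one_of_dvd' (hc1 x x y)
      (hpp.dvd_choose_self (by norm_num : (2 : ℕ) ≠ 0) (by omega : 2 < p)), one_mul] at h
    exact h.symm
  have key : ∀ x y : ↥((Subgroup.closure {y : R ⧸ Z | y ^ p = 1}).comap (QuotientGroup.mk' Z)),
      (x * y) ^ p = x ^ p * y ^ p := by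
    intro x y
    obtain ⟨d3, d2⟩ := Cfsg.Agent.S0124.dvd_choose_succ hp
    rw [Cfsg.Agent.S0124.mul_pow_class_three hcl x y p,
      Cfsg.Agent.S0124.pow_eq_one_of_dvd' (hc1 y x y) (Dvd.dvd.mul_left d3 2),
      Cfsg.Agent.S0124.pow_eq_one_of_dvd' (hc1 x x y) d3,
      Cfsg.Agent.S0124.pow_eq_one_of_dvd' (hc2 x y) d2, one_mul, one_mul, one_mul]
    exact Subgroup.mem_center_iff.mp (hpc x) _
  apply card_le_of_pow_hom Z hΩ
  · intro x hx y hy
    have := congrArg Subtype.val (key ⟨x, hx⟩ ⟨y, hy⟩)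
    simpa using this
  · exact hpz

theorem main (p : ℕ) [Fact p.Prime] (hp : 3 < p) : ∀ (n : ℕ) (R : Type u) [Group R] [Finite R],
    Nat.card R ≤ n → IsPGroup p R →
    Nat.card (Subgroup.closure {x : R | x ^ p = 1}) ≤ p ^ 2 →
    ∀ (Q : Type u) [Group Q] [Finite Q] (f : R →* Q), Function.Surjective f →
      Nat.card (Subgroup.closure {y : Q | y ^ p = 1}) ≤ p ^ 2 := by
  have hpp : p.Prime := Fact.out
  intro n
  induction n with
  | zero =>
    intro R _ _ hn
    exact absurd hn (by have := Nat.card_pos (α := R); omega)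
  | succ n ih =>
    intro R _ _ hn hR hΩ Q _ _ f hf
    by_cases hker : f.ker = ⊥
    · have hinj : Function.Injective f := (MonoidHom.ker_eq_bot_iff f).mp hker
      have hle : Subgroup.closure {y : Q | y ^ p = 1} ≤
          (Subgroup.closure {x : R | x ^ p = 1}).map f := by
        rw [Subgroup.closure_le]
        intro y hy
        obtain ⟨x, rfl⟩ := hf y
        refine ⟨x, Subgroup.subset_closure ?_, rfl⟩
        apply hinj
        rw [map_pow, map_one]
        exact hy
      calc Nat.card (Subgroup.closure {y : Q | y ^ p = 1})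
          ≤ Nat.card ((Subgroup.closure {x : R | x ^ p = 1}).map f) := Subgroup.card_le_of_le hle
        _ = Nat.card (Subgroup.closure {x : R | x ^ p = 1}) := Subgroup.card_map_of_injective hinj
        _ ≤ p ^ 2 := hΩ
    · have hnil : Group.IsNilpotent R := hR.isNilpotent
      have hne := nil_inf_center f.ker hker
      have hNp : IsPGroup p ↥(f.ker ⊓ Subgroup.center R) := hR.to_subgroup _
      have hdvd : p ∣ Nat.card ↥(f.ker ⊓ Subgroup.center R) := by
        rcases hNp.card_eq_or_dvd with h | h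
        · exact absurd (Subgroup.eq_bot_of_card_eq _ h) hne
        · exact h
      obtain ⟨z, hz⟩ := exists_prime_orderOf_dvd_card' p hdvd
      have hzo : orderOf (z : R) = p := by rw [Subgroup.orderOf_coe]; exact hz
      have hzk : (z : R) ∈ f.ker := z.2.1
      have hzc : (z : R) ∈ Subgroup.center R := z.2.2
      have hZc : Subgroup.zpowers (z : R) ≤ Subgroup.center R := by
        rw [Subgroup.zpowers_le]; exact hzc
      have hZk : Subgroup.zpowers (z : R) ≤ f.ker := by
        rw [Subgroup.zpowers_le]; exact hzk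
      have hZn : (Subgroup.zpowers (z : R)).Normal := by
        refine ⟨fun x hx g => ?_⟩
        have h1 := Subgroup.mem_center_iff.mp (hZc hx) g
        rw [h1, mul_inv_cancel_right]
        exact hx
      have hZcard : Nat.card (Subgroup.zpowers (z : R)) = p := by
        rw [Nat.card_zpowers, hzo]
      have hcard1 : Nat.card (R ⧸ Subgroup.zpowers (z : R)) ≤ n := by
        have e := Subgroup.card_eq_card_quotient_mul_card_subgroup (Subgroup.zpowers (z : R))
        rw [hZcard] at e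
        have h2 : 2 ≤ p := hpp.two_le
        have hpos : 0 < Nat.card (R ⧸ Subgroup.zpowers (z : R)) := Nat.card_pos
        nlinarith
      have hΩ1 := central_step hp hR (Subgroup.zpowers (z : R)) hZc (by rw [hZcard]) hΩ
      have hsurj : Function.Surjective (QuotientGroup.lift (Subgroup.zpowers (z : R)) f hZk) := by
        intro y
        obtain ⟨x, rfl⟩ := hf y
        exact ⟨(x : R ⧸ Subgroup.zpowers (z : R)), QuotientGroup.lift_mk _ _ x⟩
      exact ih (R ⧸ Subgroup.zpowers (z : R)) hcard1 (hR.to_quotient _) hΩ1 Q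
        (QuotientGroup.lift (Subgroup.zpowers (z : R)) f hZk) hsurj

/-- For p greater than 3, the bound p² on the order of the subgroup generated by the elements of order dividing p passes from a p-group to all its quotients. -/
theorem result {R : Type*} [Group R] [Finite R] {p : ℕ} [Fact p.Prime] (hp : 3 < p) (hR : IsPGroup p R) (hO : Nat.card ↥(Cfsg.omegaOne p (⊤ : Subgroup R)) ≤ p ^ 2) (T : Subgroup R) [T.Normal] : Nat.card ↥(Cfsg.omegaOne p (⊤ : Subgroup (R ⧸ T))) ≤ p ^ 2 := by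

  rw [omega_eq] at hO ⊢
  exact main p hp (Nat.card R) R le_rfl hR hO (R ⧸ T) (QuotientGroup.mk' T)
    (QuotientGroup.mk'_surjective T)

end Cfsg.Agent.S0637
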