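import Cfsg.Statements.S0641
-- import your own Cfsg.Agent.* helpers here

set_option autoImplicit false
open Cfsg

namespace Cfsg.Agent.S0641

/-- Regularity of a p-group passes to quotient groups. -/
theorem result {G : Type*} [Group G] {p : ℕ} [Fact p.Prime] (hG : Cfsg.IsRegularPGroup p G) (N : Subgroup G) [N.Normal] : Cfsg.IsRegularPGroup p (G ⧸ N) := by
  obtain ⟨hp, hreg⟩ := hG
  refine ⟨hp.to_quotient N, ?_⟩
  intro a' b' n
  obtain ⟨a, rfl⟩ := QuotientGroup.mk_surjective a'
  obtain ⟨b, rfl⟩ := QuotientGroup.mk_surjective b'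
  obtain ⟨c, hc, hceq⟩ := hreg a b n
  refine ⟨(QuotientGroup.mk' N) c, ?_, ?_⟩
  · have hmap : (Cfsg.powerClosure p n ⁅Subgroup.closure ({a, b} : Set G),
        Subgroup.closure ({a, b} : Set G)⁆).map (QuotientGroup.mk' N) ≤
        Cfsg.powerClosure p n ⁅Subgroup.closure ({(a : G ⧸ N), (b : G ⧸ N)} : Set (G ⧸ N)),
          Subgroup.closure ({(a : G ⧸ N), (b : G ⧸ N)} : Set (G ⧸ N))⁆ := by
      unfold Cfsg.powerClosure
      rw [MonoidHom.map_closure]
      apply Subgroup.closure_mono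
      rintro y ⟨x, ⟨z, hz, rfl⟩, rfl⟩
      refine ⟨(QuotientGroup.mk' N) z, ?_, map_pow _ _ _⟩
      have h1 : (QuotientGroup.mk' N) z ∈ (⁅Subgroup.closure ({a, b} : Set G),
          Subgroup.closure ({a, b} : Set G)⁆).map (QuotientGroup.mk' N) :=
        Subgroup.mem_map_of_mem _ hz
      rw [Subgroup.map_commutator, MonoidHom.map_closure, Set.image_pair] at h1
      exact h1
    exact hmap (Subgroup.mem_map_of_mem _ hc)
  · have := congrArg (QuotientGroup.mk' N) hceq
    simpa using this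

end Cfsg.Agent.S0641
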