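import Cfsg.Statements.S0642
-- import your own Cfsg.Agent.* helpers here
import Mathlib

set_option autoImplicit false
open Cfsg

namespace Cfsg.Agent.S0642

open scoped commutatorElement

/-- Among finite 2-groups the regular ones are exactly the abelian ones. -/
theorem result {G : Type*} [Group G] [Finite G] (hG : IsPGroup 2 G) : Cfsg.IsRegularPGroup 2 G ↔ ∀ a b : G, a * b = b * a := by
  classical
  constructor
  · rintro ⟨-, hreg⟩
    obtain ⟨P, hP⟩ : ∃ P : Subgroup G, P = ⁅(⊤ : Subgroup G), ⊤⁆ := ⟨_, rfl⟩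
    have hPnorm : ∀ g : G, ∀ x ∈ P, g * x * g⁻¹ ∈ P := by
      intro g x hx
      rw [hP] at hx ⊢
      exact (Subgroup.commutator_normal (⊤ : Subgroup G) ⊤).conj_mem x hx g
    have hpc_le : ∀ a b : G, Cfsg.powerClosure 2 1 ⁅Subgroup.closure ({a, b} : Set G),
        Subgroup.closure ({a, b} : Set G)⁆ ≤ Cfsg.powerClosure 2 1 P := by
      intro a b
      apply Subgroup.closure_mono
      rintro y ⟨x, hx, rfl⟩
      exact ⟨x, hP ▸ Subgroup.commutator_mono le_top le_top hx, rfl⟩
    have hnorm : ∀ g : G, ∀ z ∈ Cfsg.powerClosure 2 1 P, g * z * g⁻¹ ∈ Cfsg.powerClosure 2 1 P := by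
      intro g z hz
      induction hz using Subgroup.closure_induction with
      | mem z hz =>
        obtain ⟨x, hx, rfl⟩ := hz
        apply Subgroup.subset_closure
        exact ⟨g * x * g⁻¹, hPnorm g x hx, by rw [conj_pow]⟩
      | one => simp
      | mul z z' _ _ ih ih' =>
        have h : g * (z * z') * g⁻¹ = (g * z * g⁻¹) * (g * z' * g⁻¹) := by group
        rw [h]; exact mul_mem ih ih'
      | inv z _ ih =>
        have h : g * z⁻¹ * g⁻¹ = (g * z * g⁻¹)⁻¹ := by group
        rw [h]; exact inv_mem ih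
    have hle : P ≤ Cfsg.powerClosure 2 1 P := by
      rw [hP, Subgroup.commutator_le, ← hP]
      intro x _ y _
      obtain ⟨c, hc, hxy⟩ := hreg x⁻¹ y 1
      rw [pow_one, pow_two, pow_two, pow_two] at hxy
      have h2 : c = (x⁻¹ * x⁻¹ * (y * y))⁻¹ * (x⁻¹ * y * (x⁻¹ * y)) := by rw [hxy]; group
      have h3 : ⁅x, y⁆ = (y * y) * c * (y * y)⁻¹ := by
        rw [h2, commutatorElement_def]; group
      rw [h3]
      exact hnorm _ _ (hpc_le _ _ hc)
    have hbot : P = ⊥ := by
      by_contra hne
      have hPp : IsPGroup 2 P := hG.to_subgroup P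
      obtain ⟨k, hk⟩ := IsPGroup.iff_card.mp hPp
      have hk1 : 1 ≤ k := by
        rcases Nat.eq_zero_or_pos k with h0 | h0
        · exfalso
          rw [h0, pow_zero] at hk
          exact hne ((Subgroup.card_eq_one).mp hk)
        · exact h0
      have hdvd : 2 ^ (k - 1) ∣ Nat.card P := by
        rw [hk]; exact pow_dvd_pow 2 (Nat.sub_le k 1)
      have : Fact (Nat.Prime 2) := ⟨Nat.prime_two⟩
      obtain ⟨M, hM⟩ := Sylow.exists_subgroup_card_pow_prime (G := P) 2 hdvd
      have hidx : M.index = 2 := by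
        have h := Subgroup.card_mul_index M
        rw [hM, hk] at h
        have h2 : 2 ^ k = 2 ^ (k - 1) * 2 := by
          rw [← pow_succ]; congr 1; omega
        rw [h2] at h
        exact Nat.eq_of_mul_eq_mul_left (by positivity) h
      have hpc : Cfsg.powerClosure 2 1 P ≤ M.map P.subtype := by
        apply (Subgroup.closure_le _).mpr
        rintro y ⟨x, hx, rfl⟩
        refine ⟨(⟨x, hx⟩ : P) * ⟨x, hx⟩, Subgroup.mul_self_mem_of_index_two hidx _, ?_⟩
        simp [pow_two]
      have hcard : Nat.card P ≤ Nat.card (M.map P.subtype) :=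
        Subgroup.card_le_of_le (hle.trans hpc)
      rw [Subgroup.card_subtype] at hcard
      rw [hM, hk] at hcard
      have : 2 ^ (k - 1) < 2 ^ k := Nat.pow_lt_pow_right (by norm_num) (by omega)
      omega
    intro a b
    have h1 : ⁅a, b⁆ ∈ P := hP ▸ Subgroup.commutator_mem_commutator (Subgroup.mem_top a) (Subgroup.mem_top b)
    rw [hbot, Subgroup.mem_bot] at h1
    exact commutatorElement_eq_one_iff_mul_comm.mp h1
  · intro hcomm
    refine ⟨hG, fun a b n => ⟨1, one_mem _, ?_⟩⟩
    rw [mul_one]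
    exact Commute.mul_pow (hcomm a b) _

end Cfsg.Agent.S0642
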