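import Cfsg.Statements.S0643
import Cfsg.Agent.Lib.helper10.Regular

set_option autoImplicit false
open Cfsg

namespace Cfsg.Agent.S0643

open Cfsg.Agent.Lib.helper10 in

/-- Kemhadze's criterion: a finite p-group is regular exactly when (ab)^p = a^p b^p c^p always holds for some c in the derived subgroup of the subgroup generated by a and b. -/
theorem result {G : Type*} [Group G] [Finite G] {p : ℕ} [Fact p.Prime] (hG : IsPGroup p G) : Cfsg.IsRegularPGroup p G ↔ ∀ a b : G, ∃ c ∈ ⁅Subgroup.closure ({a, b} : Set G), Subgroup.closure ({a, b} : Set G)⁆, (a * b) ^ p = a ^ p * b ^ p * c ^ p := by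
  constructor
  · intro hreg a b
    obtain ⟨c, hc, h⟩ := hreg.2 a b 1
    have hR : RegAt p 1 G := fun a b => hreg.2 a b 1
    have hset := reg_pow_set_eq hG 1 hR
      ⁅Subgroup.closure ({a, b} : Set G), Subgroup.closure ({a, b} : Set G)⁆
    have hc' : c ∈ {y : G | ∃ x ∈ ⁅Subgroup.closure ({a, b} : Set G),
        Subgroup.closure ({a, b} : Set G)⁆, y = x ^ (p ^ 1)} := by
      rw [hset]; exact hc
    obtain ⟨d, hd, rfl⟩ := hc'
    refine ⟨d, hd, ?_⟩
    simpa using h
  · intro hW
    have key : ∀ n, RegAt p n G := by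
      intro n
      induction n with
      | zero =>
        intro a b
        exact ⟨1, Subgroup.one_mem _, by simp⟩
      | succ n ih =>
        intro a b
        obtain ⟨c, hc, h1⟩ := ih a b
        obtain ⟨d₁, hd₁, h2⟩ := hW (a ^ (p ^ n) * b ^ (p ^ n)) c
        obtain ⟨d₂, hd₂, h3⟩ := hW (a ^ (p ^ n)) (b ^ (p ^ n))
        have haK : a ∈ Subgroup.closure ({a, b} : Set G) := Subgroup.subset_closure (by simp)
        have hbK : b ∈ Subgroup.closure ({a, b} : Set G) := Subgroup.subset_closure (by simp)
        have hset := reg_pow_set_eq hG n ih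
          ⁅Subgroup.closure ({a, b} : Set G), Subgroup.closure ({a, b} : Set G)⁆
        have hpow : ∀ w ∈ Cfsg.powerClosure p n
            ⁅Subgroup.closure ({a, b} : Set G), Subgroup.closure ({a, b} : Set G)⁆,
            w ^ p ∈ Cfsg.powerClosure p (n + 1)
              ⁅Subgroup.closure ({a, b} : Set G), Subgroup.closure ({a, b} : Set G)⁆ := by
          intro w hw
          have hw' : w ∈ {y : G | ∃ x ∈ ⁅Subgroup.closure ({a, b} : Set G),
              Subgroup.closure ({a, b} : Set G)⁆, y = x ^ (p ^ n)} := by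
            rw [hset]; exact hw
          obtain ⟨z, hz, rfl⟩ := hw'
          rw [← pow_mul, ← pow_succ]
          exact reg_pow_mem p (n + 1) _ hz
        have hu : a ^ (p ^ n) ∈ Cfsg.powerClosure p n (Subgroup.closure ({a, b} : Set G)) :=
          reg_pow_mem p n _ haK
        have hv : b ^ (p ^ n) ∈ Cfsg.powerClosure p n (Subgroup.closure ({a, b} : Set G)) :=
          reg_pow_mem p n _ hbK
        have hcK : c ∈ Cfsg.powerClosure p n (Subgroup.closure ({a, b} : Set G)) :=
          reg_powerClosure_mono p n (reg_comm_le_self _) hc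
        have hle₂ : Subgroup.closure ({a ^ (p ^ n), b ^ (p ^ n)} : Set G) ≤
            Cfsg.powerClosure p n (Subgroup.closure ({a, b} : Set G)) := by
          rw [Subgroup.closure_le]
          rintro z (hz | hz)
          · rw [hz]; exact hu
          · rw [Set.mem_singleton_iff] at hz; rw [hz]; exact hv
        have hle₁ : Subgroup.closure ({a ^ (p ^ n) * b ^ (p ^ n), c} : Set G) ≤
            Cfsg.powerClosure p n (Subgroup.closure ({a, b} : Set G)) := by
          rw [Subgroup.closure_le]
          rintro z (hz | hz)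
          · rw [hz]; exact Subgroup.mul_mem _ hu hv
          · rw [Set.mem_singleton_iff] at hz; rw [hz]; exact hcK
        have hd₂' := reg_comm_power_le n ih _ (Subgroup.commutator_mono hle₂ hle₂ hd₂)
        have hd₁' := reg_comm_power_le n ih _ (Subgroup.commutator_mono hle₁ hle₁ hd₁)
        refine ⟨d₂ ^ p * c ^ p * d₁ ^ p, ?_, ?_⟩
        · exact Subgroup.mul_mem _ (Subgroup.mul_mem _ (hpow d₂ hd₂') (hpow c hc)) (hpow d₁ hd₁')
        · rw [pow_succ, pow_mul, pow_mul, pow_mul, h1, h2, h3]
          simp only [mul_assoc]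
    exact ⟨hG, fun a b n => key n a b⟩

end Cfsg.Agent.S0643
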