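import Cfsg.Statements.S0660
-- import your own Cfsg.Agent.* helpers here
import Mathlib

set_option autoImplicit false
open Cfsg

namespace Cfsg.Agent.S0660

theorem mem_normalizer_of_conj_mem {G : Type*} [Group G] [Finite G] (H : Subgroup G) (g : G)
    (h : ∀ x ∈ H, g * x * g⁻¹ ∈ H) : g ∈ Subgroup.normalizer (H : Set G) := by
  rw [Subgroup.mem_normalizer_iff]
  intro x
  constructor
  · exact h x
  · intro hx
    let φ : H → H := fun y => ⟨g * y * g⁻¹, h y y.2⟩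
    have hinj : Function.Injective φ := by
      intro y z hyz
      have h1 : g * (y : G) * g⁻¹ = g * (z : G) * g⁻¹ := congrArg Subtype.val hyz
      apply Subtype.ext
      have h2 : (y : G) = g⁻¹ * (g * (y : G) * g⁻¹) * g := by group
      rw [h2, h1]; group
    have hsurj := Finite.injective_iff_surjective.mp hinj
    obtain ⟨y, hy⟩ := hsurj ⟨g * x * g⁻¹, hx⟩
    have h1 : g * (y : G) * g⁻¹ = g * x * g⁻¹ := congrArg Subtype.val hy
    have hxy : (y : G) = x := by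
      have h2 : (y : G) = g⁻¹ * (g * (y : G) * g⁻¹) * g := by group
      rw [h2, h1]; group
    rw [← hxy]; exact y.2

/-- Under a coprime action on an abelian group, an invariant subgroup that is complemented admits an invariant complement. -/
theorem result {G : Type*} [Group G] [Finite G] (V A U : Subgroup G) (hVab : IsMulCommutative V) (hAV : A ≤ Subgroup.normalizer (V : Set G)) (hcop : (Nat.card A).Coprime (Nat.card V)) (hUV : U ≤ V) (hAU : A ≤ Subgroup.normalizer (U : Set G)) (W : Subgroup G) (hWV : W ≤ V) (hUW : U ⊓ W = ⊥) (hUWV : U ⊔ W = V) : ∃ W' : Subgroup G, W' ≤ V ∧ A ≤ Subgroup.normalizer (W' : Set G) ∧ U ⊓ W' = ⊥ ∧ U ⊔ W' = V := by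
  classical
  have hVc : ∀ x ∈ V, ∀ y ∈ V, x * y = y * x := fun x hx y hy =>
    congrArg Subtype.val (hVab.is_comm.comm (⟨x, hx⟩ : V) ⟨y, hy⟩)
  have hVn : ∀ a ∈ A, ∀ x ∈ V, a * x * a⁻¹ ∈ V := fun a ha x hx =>
    (Subgroup.mem_normalizer_iff.mp (hAV ha) x).mp hx
  have hUn : ∀ a ∈ A, ∀ x ∈ U, a * x * a⁻¹ ∈ U := fun a ha x hx =>
    (Subgroup.mem_normalizer_iff.mp (hAU ha) x).mp hx
  have hVn' : ∀ a ∈ A, ∀ x ∈ V, a⁻¹ * x * a ∈ V := by
    intro a ha x hx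
    have h := hVn a⁻¹ (A.inv_mem ha) x hx
    rwa [inv_inv] at h
  have hUn' : ∀ a ∈ A, ∀ x ∈ U, a⁻¹ * x * a ∈ U := by
    intro a ha x hx
    have h := hUn a⁻¹ (A.inv_mem ha) x hx
    rwa [inv_inv] at h
  have hdecomp : ∀ v ∈ V, ∃ u ∈ U, ∃ w ∈ W, v = u * w := by
    let E : Subgroup G :=
      { carrier := {x | ∃ u ∈ U, ∃ w ∈ W, x = u * w}
        mul_mem' := by
          rintro _ _ ⟨u, hu, w, hw, rfl⟩ ⟨u', hu', w', hw', rfl⟩
          refine ⟨u * u', U.mul_mem hu hu', w * w', W.mul_mem hw hw', ?_⟩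
          have hc := hVc w (hWV hw) u' (hUV hu')
          calc u * w * (u' * w') = u * (w * u') * w' := by group
            _ = u * (u' * w) * w' := by rw [hc]
            _ = u * u' * (w * w') := by group
        one_mem' := ⟨1, U.one_mem, 1, W.one_mem, by simp⟩
        inv_mem' := by
          rintro _ ⟨u, hu, w, hw, rfl⟩
          refine ⟨u⁻¹, U.inv_mem hu, w⁻¹, W.inv_mem hw, ?_⟩
          have hc := hVc w⁻¹ (hWV (W.inv_mem hw)) u⁻¹ (hUV (U.inv_mem hu))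
          rw [mul_inv_rev, hc] }
    intro v hv
    have hle : U ⊔ W ≤ E :=
      sup_le (fun u hu => ⟨u, hu, 1, W.one_mem, by simp⟩) (fun w hw => ⟨1, U.one_mem, w, hw, by simp⟩)
    rw [← hUWV] at hv
    exact hle hv
  have huniq : ∀ u ∈ U, ∀ w ∈ W, ∀ u' ∈ U, ∀ w' ∈ W, u * w = u' * w' → u = u' := by
    intro u hu w hw u' hu' w' hw' h
    have h1 : u'⁻¹ * u = w' * w⁻¹ := by
      calc u'⁻¹ * u = u'⁻¹ * (u * w) * w⁻¹ := by group
        _ = u'⁻¹ * (u' * w') * w⁻¹ := by rw [h]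
        _ = w' * w⁻¹ := by group
    have h2 : u'⁻¹ * u ∈ U ⊓ W :=
      ⟨U.mul_mem (U.inv_mem hu') hu, h1 ▸ W.mul_mem hw' (W.inv_mem hw)⟩
    rw [hUW, Subgroup.mem_bot] at h2
    exact (inv_mul_eq_one.mp h2).symm
  choose! pu hpuU pw hpwW hpuw using hdecomp
  have hpmul : ∀ v ∈ V, ∀ v' ∈ V, pu (v * v') = pu v * pu v' := by
    intro v hv v' hv'
    apply huniq _ (hpuU _ (V.mul_mem hv hv')) _ (hpwW _ (V.mul_mem hv hv')) _
      (U.mul_mem (hpuU v hv) (hpuU v' hv')) _ (W.mul_mem (hpwW v hv) (hpwW v' hv'))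
    rw [← hpuw _ (V.mul_mem hv hv')]
    have hc := hVc (pw v) (hWV (hpwW v hv)) (pu v') (hUV (hpuU v' hv'))
    calc v * v' = pu v * pw v * (pu v' * pw v') := by rw [← hpuw v hv, ← hpuw v' hv']
      _ = pu v * (pw v * pu v') * pw v' := by group
      _ = pu v * (pu v' * pw v) * pw v' := by rw [hc]
      _ = pu v * pu v' * (pw v * pw v') := by group
  have hpU : ∀ u ∈ U, pu u = u := by
    intro u hu
    exact (huniq u hu 1 W.one_mem (pu u) (hpuU u (hUV hu)) (pw u) (hpwW u (hUV hu))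
      (by rw [mul_one]; exact hpuw u (hUV hu))).symm
  let _ : CommGroup ↥V :=
    { (inferInstance : Group ↥V) with mul_comm := fun x y => hVab.is_comm.comm x y }
  have : Fintype ↥A := Fintype.ofFinite _
  let φ : ↥A → ↥V → ↥V := fun a v =>
    ⟨(a : G) * pu ((a : G)⁻¹ * (v : G) * (a : G)) * (a : G)⁻¹,
      hUV (hUn a a.2 _ (hpuU _ (hVn' a a.2 v v.2)))⟩
  have hφ : ∀ a v, ((φ a v : ↥V) : G) = (a : G) * pu ((a : G)⁻¹ * (v : G) * (a : G)) * (a : G)⁻¹ :=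
    fun a v => rfl
  have hφU : ∀ a v, ((φ a v : ↥V) : G) ∈ U := fun a v =>
    hUn a a.2 _ (hpuU _ (hVn' a a.2 v v.2))
  have hφmul : ∀ a v v', φ a (v * v') = φ a v * φ a v' := by
    intro a v v'
    apply Subtype.ext
    rw [Subgroup.coe_mul, hφ, hφ, hφ, Subgroup.coe_mul]
    have e : (a : G)⁻¹ * ((v : G) * (v' : G)) * (a : G)
        = ((a : G)⁻¹ * (v : G) * (a : G)) * ((a : G)⁻¹ * (v' : G) * (a : G)) := by group
    rw [e, hpmul _ (hVn' a a.2 v v.2) _ (hVn' a a.2 v' v'.2)]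
    group
  let Φ : ↥V →* ↥V := MonoidHom.mk' (fun v => ∏ a : ↥A, φ a v) (by
    intro v v'
    show ∏ a : ↥A, φ a (v * v') = (∏ a : ↥A, φ a v) * ∏ a : ↥A, φ a v'
    rw [← Finset.prod_mul_distrib]
    exact Finset.prod_congr rfl (fun a _ => hφmul a v v'))
  have hΦ : ∀ v, Φ v = ∏ a : ↥A, φ a v := fun v => rfl
  have hΦU : ∀ v, ((Φ v : ↥V) : G) ∈ U := by
    intro v
    have h1 : Φ v ∈ U.subgroupOf V := by
      rw [hΦ]
      exact Subgroup.prod_mem _ (fun a _ => Subgroup.mem_subgroupOf.mpr (hφU a v))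
    exact Subgroup.mem_subgroupOf.mp h1
  have hΦu : ∀ v : ↥V, (v : G) ∈ U → Φ v = v ^ Nat.card A := by
    intro v hv
    rw [hΦ]
    have h1 : ∀ a : ↥A, φ a v = v := by
      intro a
      apply Subtype.ext
      rw [hφ, hpU _ (hUn' a a.2 v hv)]
      group
    rw [Finset.prod_congr rfl (fun a _ => h1 a), Finset.prod_const, Finset.card_univ,
      Nat.card_eq_fintype_card]
  have hΦconj : ∀ (b : ↥A) (v : ↥V) (hbv : (b : G) * (v : G) * (b : G)⁻¹ ∈ V),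
      ((Φ ⟨(b : G) * v * (b : G)⁻¹, hbv⟩ : ↥V) : G) = (b : G) * ((Φ v : ↥V) : G) * (b : G)⁻¹ := by
    intro b v hbv
    let cb : ↥V →* ↥V := MonoidHom.mk' (fun x => ⟨(b : G) * x * (b : G)⁻¹, hVn b b.2 x x.2⟩) (by
      intro x y
      apply Subtype.ext
      simp [mul_assoc])
    have hcb : ∀ x, ((cb x : ↥V) : G) = (b : G) * x * (b : G)⁻¹ := fun x => rfl
    have h1 : Φ ⟨(b : G) * v * (b : G)⁻¹, hbv⟩ = cb (Φ v) := by
      rw [hΦ, hΦ, map_prod]
      apply Fintype.prod_equiv (Equiv.mulLeft b⁻¹)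
      intro a
      apply Subtype.ext
      rw [hφ, hcb, hφ]
      simp only [Equiv.coe_mulLeft, Subgroup.coe_mul, Subgroup.coe_inv]
      have e : (a : G)⁻¹ * ((b : G) * (v : G) * (b : G)⁻¹) * (a : G)
          = ((b : G)⁻¹ * (a : G))⁻¹ * (v : G) * ((b : G)⁻¹ * (a : G)) := by group
      rw [e]
      group
    rw [h1, hcb]
  refine ⟨Φ.ker.map V.subtype, Subgroup.map_subtype_le _, ?_, ?_, ?_⟩
  · intro a ha
    apply mem_normalizer_of_conj_mem
    rintro _ ⟨v, hv, rfl⟩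
    replace hv : Φ v = 1 := MonoidHom.mem_ker.mp hv
    have hbv := hVn a ha v v.2
    refine ⟨⟨a * v * a⁻¹, hbv⟩, MonoidHom.mem_ker.mpr ?_, rfl⟩
    apply Subtype.ext
    have h := hΦconj ⟨a, ha⟩ v hbv
    rw [h, hv]
    simp
  · rw [eq_bot_iff]
    rintro x ⟨hxU, v, hv, rfl⟩
    replace hv : Φ v = 1 := MonoidHom.mem_ker.mp hv
    rw [Subgroup.mem_bot]
    have h1 : v ^ Nat.card A = 1 := by rw [← hΦu v hxU, hv]
    have h2 : v ^ Nat.card V = 1 := pow_card_eq_one'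
    have h3 : orderOf v ∣ Nat.card A := orderOf_dvd_of_pow_eq_one h1
    have h4 : orderOf v ∣ Nat.card V := orderOf_dvd_of_pow_eq_one h2
    have h5 : orderOf v = 1 := Nat.eq_one_of_dvd_coprimes hcop h3 h4
    have h6 : v = 1 := orderOf_eq_one_iff.mp h5
    rw [h6]; rfl
  · apply le_antisymm (sup_le hUV (Subgroup.map_subtype_le _))
    intro x hx
    obtain ⟨v, hvx⟩ : ∃ v : ↥V, (v : G) = x := ⟨⟨x, hx⟩, rfl⟩
    -- Bezout
    have hbez : (Nat.card A : ℤ) * Nat.gcdA (Nat.card A) (Nat.card V)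
        + (Nat.card V : ℤ) * Nat.gcdB (Nat.card A) (Nat.card V) = 1 := by
      have h := Nat.gcd_eq_gcd_ab (Nat.card A) (Nat.card V)
      rw [hcop.gcd_eq_one] at h
      simpa using h.symm
    obtain ⟨s, hs⟩ : ∃ s : ℤ, s = Nat.gcdA (Nat.card A) (Nat.card V) := ⟨_, rfl⟩
    obtain ⟨t, ht⟩ : ∃ t : ℤ, t = Nat.gcdB (Nat.card A) (Nat.card V) := ⟨_, rfl⟩
    rw [← hs, ← ht] at hbez
    have hz : ∀ z : ↥V, (z ^ Nat.card A) ^ s = z := by
      intro z
      have h1 : z ^ (Nat.card V : ℤ) = 1 := by rw [zpow_natCast]; exact pow_card_eq_one'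
      calc (z ^ Nat.card A) ^ s = z ^ ((Nat.card A : ℤ) * s) := by
            rw [zpow_mul, zpow_natCast]
        _ = z ^ ((Nat.card A : ℤ) * s) * (z ^ (Nat.card V : ℤ)) ^ t := by rw [h1, one_zpow, mul_one]
        _ = z ^ ((Nat.card A : ℤ) * s + (Nat.card V : ℤ) * t) := by
            rw [zpow_add, zpow_mul z (Nat.card V : ℤ) t]
        _ = z := by rw [hbez, zpow_one]
    obtain ⟨u₀, hu₀⟩ : ∃ u₀ : ↥V, u₀ = (Φ v) ^ s := ⟨_, rfl⟩
    have hu₀U : (u₀ : G) ∈ U := by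
      have h1 : u₀ ∈ U.subgroupOf V := by
        rw [hu₀]; exact Subgroup.zpow_mem _ (Subgroup.mem_subgroupOf.mpr (hΦU v)) s
      exact Subgroup.mem_subgroupOf.mp h1
    have hΦu₀ : Φ u₀ = Φ v := by
      rw [hΦu u₀ hu₀U, hu₀, ← zpow_natCast, ← zpow_mul, mul_comm, zpow_mul, zpow_natCast]
      exact hz (Φ v)
    have hker : u₀⁻¹ * v ∈ Φ.ker := by
      rw [MonoidHom.mem_ker, map_mul, map_inv, hΦu₀, inv_mul_cancel]
    have hx' : x = (u₀ : G) * ((u₀⁻¹ * v : ↥V) : G) := by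
      rw [← hvx, Subgroup.coe_mul, Subgroup.coe_inv]; group
    rw [hx']
    exact Subgroup.mul_mem _ (Subgroup.mem_sup_left hu₀U)
      (Subgroup.mem_sup_right ⟨u₀⁻¹ * v, hker, rfl⟩)

end Cfsg.Agent.S0660
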