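import Cfsg.Statements.S0661
import Mathlib
import Cfsg.Agent.Lib.helper16.PConstr

set_option autoImplicit false
open Cfsg

namespace Cfsg.Agent.S0661

/-- If, modulo the largest normal subgroup of order prime to p, the largest normal p-subgroup contains its centralizer, then for every p-subgroup P the p'-core of N_G(P) is just O_p'(G) ∩ N_G(P). -/
theorem result {G : Type*} [Group G] [Finite G] {p : ℕ} [Fact p.Prime] (hc : Subgroup.centralizer (Cfsg.pCore p (G ⧸ Cfsg.pPrimeCore p G) : Set (G ⧸ Cfsg.pPrimeCore p G)) ≤ Cfsg.pCore p (G ⧸ Cfsg.pPrimeCore p G)) (P : Subgroup G) (hP : IsPGroup p P) : (Cfsg.pPrimeCore p ↥(Subgroup.normalizer (P : Set G))).map (Subgroup.normalizer (P : Set G)).subtype = Cfsg.pPrimeCore p G ⊓ Subgroup.normalizer (P : Set G) := by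
  apply le_antisymm
  · rintro _ ⟨x, hx, rfl⟩
    refine Subgroup.mem_inf.mpr ⟨?_, x.2⟩
    have hWN : (Nat.card ↥(Cfsg.pPrimeCore p ↥(Subgroup.normalizer (P : Set G)))).Coprime p :=
      Cfsg.Agent.Lib.helper9.pPrimeCore_coprime p _
    have hxo : (orderOf x).Coprime p :=
      Nat.Coprime.coprime_dvd_left (Subgroup.orderOf_dvd_natCard _ hx) hWN
    have hxc : QuotientGroup.mk' (Cfsg.pPrimeCore p ↥(Subgroup.normalizer (P : Set G))) x ∈
        Subgroup.centralizer ((Cfsg.pCore p (↥(Subgroup.normalizer (P : Set G)) ⧸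
          Cfsg.pPrimeCore p ↥(Subgroup.normalizer (P : Set G))) : Subgroup _) : Set _) := by
      rw [show QuotientGroup.mk' (Cfsg.pPrimeCore p ↥(Subgroup.normalizer (P : Set G))) x = 1 from
        (QuotientGroup.eq_one_iff x).mpr hx]
      exact one_mem _
    exact Cfsg.Agent.Lib.helper16.mem_pPrimeCore_of_embedding hc
      (Subgroup.normalizer (P : Set G)).subtype Subtype.coe_injective P hP
      (by rw [Subgroup.range_subtype]; exact Subgroup.centralizer_le_normalizer _)
      (by rw [Subgroup.range_subtype])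
      (Or.inl (by rw [Subgroup.range_subtype]; exact Subgroup.le_normalizer)) x hxo hxc
  · intro g hg
    obtain ⟨hgW, hgN⟩ := Subgroup.mem_inf.mp hg
    have hle := Cfsg.Agent.Lib.helper16.comap_pPrimeCore_le (p := p)
      (Subgroup.normalizer (P : Set G)).subtype Subtype.coe_injective
    exact ⟨⟨g, hgN⟩, hle hgW, rfl⟩

end Cfsg.Agent.S0661
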