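import Cfsg.Statements.S0662
import Mathlib
import Cfsg.Agent.Lib.helper1.MaxClass

set_option autoImplicit false
open Cfsg
open scoped commutatorElement

namespace Cfsg.Agent.S0662

section
variable {G : Type*} [Group G]

theorem lcs_stable (k : ℕ)
    (h : (⊤ : Subgroup G).lowerCentralSeries (k + 1) = (⊤ : Subgroup G).lowerCentralSeries k) :
    ∀ j, (⊤ : Subgroup G).lowerCentralSeries (k + j) = (⊤ : Subgroup G).lowerCentralSeries k := by
  intro j
  induction j with
  | zero => rfl
  | succ j ih =>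
    rw [← add_assoc, Subgroup.lowerCentralSeries_succ, ih, ← Subgroup.lowerCentralSeries_succ, h]

theorem lcs_lt [hnil : Group.IsNilpotent G] (k : ℕ)
    (hk : (⊤ : Subgroup G).lowerCentralSeries k ≠ ⊥) :
    (⊤ : Subgroup G).lowerCentralSeries (k + 1) < (⊤ : Subgroup G).lowerCentralSeries k := by
  refine lt_of_le_of_ne (Subgroup.lowerCentralSeries_antitone (⊤ : Subgroup G) (Nat.le_succ k)) ?_
  intro h
  obtain ⟨n, hn⟩ := Subgroup.nilpotent_iff_lowerCentralSeries.1 hnil
  have h1 := lcs_stable k h n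
  have h2 : (⊤ : Subgroup G).lowerCentralSeries (k + n) ≤ (⊤ : Subgroup G).lowerCentralSeries n :=
    Subgroup.lowerCentralSeries_antitone (⊤ : Subgroup G) (Nat.le_add_left n k)
  rw [hn, h1] at h2
  exact hk (le_bot_iff.1 h2)

theorem comm_of_cyclic {Q : Type*} [Group Q] [IsCyclic Q] (a b : Q) : a * b = b * a := by
  obtain ⟨g, hg⟩ := IsCyclic.exists_generator (α := Q)
  obtain ⟨i, rfl⟩ := Subgroup.mem_zpowers_iff.1 (hg a)
  obtain ⟨j, rfl⟩ := Subgroup.mem_zpowers_iff.1 (hg b)
  rw [← zpow_add, ← zpow_add, add_comm]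

theorem nat_aux (p t : ℕ) (hp : 2 ≤ p) (h : p ^ 2 - 1 = t * (p - 1)) : t = p + 1 := by
  obtain ⟨q, rfl⟩ := Nat.exists_eq_add_of_le hp
  have h1 : (2 + q) ^ 2 - 1 = (2 + q + 1) * (2 + q - 1) := by
    have h2 : 2 + q - 1 = q + 1 := by omega
    rw [h2, Nat.sub_eq_iff_eq_add (Nat.one_le_pow _ _ (by omega))]
    ring
  rw [h1] at h
  exact (Nat.eq_of_mul_eq_mul_right (by omega) h).symm

theorem count_index_p {A : Type*} [Group A] [Finite A] {p : ℕ} [Fact p.Prime]
    (hA : Nat.card A = p ^ 2) (hnc : ¬ IsCyclic A) :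
    Nat.card {H : Subgroup A // H.index = p} = p + 1 := by
  classical
  have hp : p.Prime := Fact.out
  have hord : ∀ a : A, a ≠ 1 → orderOf a = p := by
    intro a ha
    have h1 : orderOf a ∣ p ^ 2 := by rw [← hA]; exact orderOf_dvd_natCard a
    obtain ⟨m, hm, hm'⟩ := (Nat.dvd_prime_pow hp).1 h1
    interval_cases m
    · exact absurd (orderOf_eq_one_iff.1 (by simpa using hm')) ha
    · simpa using hm'
    · exfalso; apply hnc
      exact isCyclic_of_orderOf_eq_card a (by rw [hm', hA])
  have hidx : ∀ a : A, a ≠ 1 → (Subgroup.zpowers a).index = p := by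
    intro a ha
    have h1 := Subgroup.card_mul_index (Subgroup.zpowers a)
    rw [Nat.card_zpowers, hord a ha, hA, pow_two] at h1
    exact Nat.eq_of_mul_eq_mul_left hp.pos h1
  have hcardH : ∀ H : Subgroup A, H.index = p → Nat.card H = p := by
    intro H hH
    have h1 := Subgroup.card_mul_index H
    rw [hH, hA, pow_two] at h1
    exact Nat.eq_of_mul_eq_mul_right hp.pos h1
  have hzp : ∀ H : Subgroup A, H.index = p → ∀ a ∈ H, a ≠ 1 → Subgroup.zpowers a = H := by
    intro H hH a ha ha1
    apply Subgroup.eq_of_le_of_card_ge (Subgroup.zpowers_le.2 ha)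
    rw [hcardH H hH, Nat.card_zpowers, hord a ha1]
  let φ : (Σ H : {H : Subgroup A // H.index = p}, {a : ↥H.1 // a ≠ 1}) → {a : A // a ≠ 1} :=
    fun x => ⟨x.2.1.1, fun h => x.2.2 (Subtype.ext h)⟩
  have hφ : Function.Bijective φ := by
    constructor
    · rintro ⟨⟨H, hH⟩, ⟨a, haH⟩, ha⟩ ⟨⟨H', hH'⟩, ⟨a', haH'⟩, ha'⟩ h
      have h1 : a = a' := congrArg Subtype.val h
      subst h1
      have ha1 : a ≠ 1 := fun h => ha (Subtype.ext h)
      have h2 : H = H' := by rw [← hzp H hH a haH ha1, ← hzp H' hH' a haH' ha1]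
      subst h2
      rfl
    · rintro ⟨a, ha⟩
      exact ⟨⟨⟨Subgroup.zpowers a, hidx a ha⟩, ⟨⟨a, Subgroup.mem_zpowers a⟩,
        fun h => ha (congrArg Subtype.val h)⟩⟩, rfl⟩
  have h1 := Nat.card_congr (Equiv.ofBijective φ hφ)
  haveI : Fintype {H : Subgroup A // H.index = p} := Fintype.ofFinite _
  rw [Nat.card_sigma] at h1
  have h2 : ∀ H : {H : Subgroup A // H.index = p}, Nat.card {a : ↥H.1 // a ≠ 1} = p - 1 := by
    intro H
    haveI : Fintype ↥H.1 := Fintype.ofFinite _
    rw [Nat.card_eq_fintype_card, Fintype.card_subtype_compl, Fintype.card_subtype_eq,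
      ← Nat.card_eq_fintype_card, hcardH H.1 H.2]
  have h3 : Nat.card {a : A // a ≠ 1} = p ^ 2 - 1 := by
    haveI : Fintype A := Fintype.ofFinite _
    rw [Nat.card_eq_fintype_card, Fintype.card_subtype_compl, Fintype.card_subtype_eq,
      ← Nat.card_eq_fintype_card, hA]
  simp only [h2] at h1
  rw [Finset.sum_const, Finset.card_univ, smul_eq_mul, h3, ← Nat.card_eq_fintype_card] at h1
  exact nat_aux p _ hp.two_le h1.symm

theorem normal_of_commutator_le (N : Subgroup G) (h : _root_.commutator G ≤ N) : N.Normal := by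
  constructor
  intro n hn g
  have h1 : ⁅g, n⁆ ∈ _root_.commutator G :=
    Subgroup.commutator_mem_commutator (Subgroup.mem_top g) (Subgroup.mem_top n)
  have h2 : g * n * g⁻¹ = ⁅g, n⁆ * n := by rw [commutatorElement_def]; group
  rw [h2]; exact N.mul_mem (h h1) hn

end

theorem result {G : Type*} [Group G] [Finite G] {p : ℕ} [Fact p.Prime] (n : ℕ) (hG : Nat.card G = p ^ n) (hcl : Group.nilpotencyClass G = n - 1) (hn : 3 ≤ n) : (∀ (N : Subgroup G) [N.Normal] (r : ℕ), 2 ≤ r → N.index = p ^ r → N = (⊤ : Subgroup G).lowerCentralSeries (r - 1)) ∧ Nat.card {N : Subgroup G // N.Normal ∧ N.index = p} = p + 1 := by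
  classical
  have hp : p.Prime := Fact.out
  have hpg : IsPGroup p G := IsPGroup.of_card hG
  haveI : Group.IsNilpotent G := hpg.isNilpotent
  have hbot : (⊤ : Subgroup G).lowerCentralSeries (n - 1) = ⊥ :=
    Subgroup.lowerCentralSeries_eq_bot_iff_nilpotencyClass_le.2 (le_of_eq hcl)
  have hnb : (⊤ : Subgroup G).lowerCentralSeries (n - 2) ≠ ⊥ := by
    intro h
    have := Subgroup.lowerCentralSeries_eq_bot_iff_nilpotencyClass_le.1 h
    omega
  have hne : ∀ k, k ≤ n - 2 → (⊤ : Subgroup G).lowerCentralSeries k ≠ ⊥ := by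
    intro k hk h
    have h1 : (⊤ : Subgroup G).lowerCentralSeries (n - 2) ≤ (⊤ : Subgroup G).lowerCentralSeries k :=
      Subgroup.lowerCentralSeries_antitone (⊤ : Subgroup G) hk
    rw [h] at h1
    exact hnb (le_bot_iff.1 h1)
  have hcard : ∀ j, j ≤ n - 1 →
      p ^ j ≤ Nat.card ((⊤ : Subgroup G).lowerCentralSeries (n - 1 - j)) := by
    intro j
    induction j with
    | zero => intro _; rw [pow_zero]; exact Nat.card_pos
    | succ j ih =>
      intro hj
      have h1 := ih (by omega)
      have hk : n - 1 - j = (n - 1 - (j + 1)) + 1 := by omega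
      rw [hk] at h1
      have hlt := lcs_lt (G := G) (n - 1 - (j + 1)) (hne _ (by omega))
      set C1 := (⊤ : Subgroup G).lowerCentralSeries (n - 1 - (j + 1) + 1) with hC1
      set C0 := (⊤ : Subgroup G).lowerCentralSeries (n - 1 - (j + 1)) with hC0
      have hdvd : Nat.card C1 ∣ Nat.card C0 := Subgroup.card_dvd_of_le hlt.le
      obtain ⟨a, -, ha⟩ := (Nat.dvd_prime_pow hp).1
        (by rw [← hG]; exact Subgroup.card_subgroup_dvd_card C0 : Nat.card C0 ∣ p ^ n)
      obtain ⟨b, -, hb⟩ := (Nat.dvd_prime_pow hp).1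
        (by rw [← hG]; exact Subgroup.card_subgroup_dvd_card C1 : Nat.card C1 ∣ p ^ n)
      have hne' : Nat.card C1 ≠ Nat.card C0 := by
        intro heq
        exact hlt.ne (Subgroup.eq_of_le_of_card_ge hlt.le (le_of_eq heq.symm))
      rw [ha, hb] at hdvd hne'
      have hba : b < a := by
        have hle := (Nat.pow_dvd_pow_iff_le_right hp.one_lt).1 hdvd
        rcases Nat.lt_or_ge b a with h | h
        · exact h
        · exfalso; apply hne'; congr 1; omega
      rw [hb] at h1
      rw [ha]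
      calc p ^ (j + 1) = p ^ j * p := pow_succ p j
        _ ≤ p ^ b * p := Nat.mul_le_mul_right p h1
        _ = p ^ (b + 1) := (pow_succ p b).symm
        _ ≤ p ^ a := Nat.pow_le_pow_right hp.pos hba
  have part1 : ∀ (N : Subgroup G) [N.Normal] (r : ℕ), 2 ≤ r → N.index = p ^ r →
      N = (⊤ : Subgroup G).lowerCentralSeries (r - 1) := by
    intro N _ r hr hN
    have hrn : r ≤ n := by
      have h1 : p ^ r ∣ p ^ n := by rw [← hN, ← hG]; exact Subgroup.index_dvd_card N
      exact (Nat.pow_dvd_pow_iff_le_right hp.one_lt).1 h1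
    have hq : Nat.card (G ⧸ N) = p ^ r := by rw [← Subgroup.index_eq_card, hN]
    have hcls := Cfsg.Agent.Lib.helper1.class_le_of_card p r (G ⧸ N) hr hq
    haveI : Group.IsNilpotent (G ⧸ N) := (IsPGroup.of_card hq).isNilpotent
    have h1 : (⊤ : Subgroup (G ⧸ N)).lowerCentralSeries (r - 1) = ⊥ :=
      Subgroup.lowerCentralSeries_eq_bot_iff_nilpotencyClass_le.2 hcls
    have h2 := Subgroup.lowerCentralSeries.map (QuotientGroup.mk' N) (r - 1)
    rw [h1, le_bot_iff, Subgroup.map_eq_bot_iff, QuotientGroup.ker_mk'] at h2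
    symm
    apply Subgroup.eq_of_le_of_card_ge h2
    have h3 := hcard (n - r) (by omega)
    have h4 : n - 1 - (n - r) = r - 1 := by omega
    rw [h4] at h3
    have h5 : Nat.card N = p ^ (n - r) := by
      have h6 := Subgroup.card_mul_index N
      rw [hN, hG] at h6
      have h7 : p ^ n = p ^ (n - r) * p ^ r := by rw [← pow_add]; congr 1; omega
      rw [h7] at h6
      exact Nat.eq_of_mul_eq_mul_right (pow_pos hp.pos r) h6
    rw [h5]; exact h3
  refine ⟨part1, ?_⟩
  set D : Subgroup G := _root_.commutator G with hD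
  have hD1 : (⊤ : Subgroup G).lowerCentralSeries 1 = D := Subgroup.top_lowerCentralSeries_one
  have hDcard : p ^ (n - 2) ≤ Nat.card D := by
    have h3 := hcard (n - 2) (by omega)
    have h4 : n - 1 - (n - 2) = 1 := by omega
    rw [h4, hD1] at h3
    exact h3
  have hnc : ¬ IsCyclic (G ⧸ D) := by
    intro hc
    set C2 := (⊤ : Subgroup G).lowerCentralSeries 2 with hC2
    have hC2D : C2 ≤ D := by
      rw [← hD1]; exact Subgroup.lowerCentralSeries_antitone (⊤ : Subgroup G) (by norm_num)
    haveI : C2.Normal := inferInstance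
    let f : G ⧸ C2 →* G ⧸ D := QuotientGroup.map C2 D (MonoidHom.id G) hC2D
    have hker : f.ker ≤ Subgroup.center (G ⧸ C2) := by
      intro q hq
      obtain ⟨g, rfl⟩ := QuotientGroup.mk_surjective q
      rw [MonoidHom.mem_ker] at hq
      have hgD : g ∈ D := by
        have h0 : f (QuotientGroup.mk g) = QuotientGroup.mk g := rfl
        rw [h0, QuotientGroup.eq_one_iff] at hq
        exact hq
      rw [Subgroup.mem_center_iff]
      intro q'
      obtain ⟨g', rfl⟩ := QuotientGroup.mk_surjective q'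
      rw [← QuotientGroup.mk_mul, ← QuotientGroup.mk_mul, QuotientGroup.eq]
      have h1 : (g' * g)⁻¹ * (g * g') = ⁅g⁻¹, g'⁻¹⁆ := by rw [commutatorElement_def]; group
      rw [h1]
      show ⁅g⁻¹, g'⁻¹⁆ ∈ ⁅(⊤ : Subgroup G).lowerCentralSeries 1, ⊤⁆
      rw [hD1]
      exact Subgroup.commutator_mem_commutator (D.inv_mem hgD) (Subgroup.mem_top _)
    have hcomm := commutative_of_cyclic_center_quotient f hker
    have hDC2 : D ≤ C2 := by
      rw [hD, commutator_def, Subgroup.commutator_le]
      intro a _ b _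
      rw [← QuotientGroup.eq_one_iff (N := C2), commutatorElement_def]
      simp only [QuotientGroup.mk_mul, QuotientGroup.mk_inv]
      rw [hcomm (QuotientGroup.mk a) (QuotientGroup.mk b)]; group
    have hlt := lcs_lt (G := G) 1 (hne 1 (by omega))
    rw [hD1] at hlt
    exact absurd (le_antisymm hC2D hDC2) hlt.ne
  have hAcard : Nat.card (G ⧸ D) = p ^ 2 := by
    have h1 := Subgroup.card_eq_card_quotient_mul_card_subgroup D
    rw [hG] at h1
    obtain ⟨s, hs, hs'⟩ := (Nat.dvd_prime_pow hp).1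
      (Dvd.intro _ h1.symm : Nat.card (G ⧸ D) ∣ p ^ n)
    obtain ⟨t, ht, ht'⟩ := (Nat.dvd_prime_pow hp).1
      (Dvd.intro_left _ h1.symm : Nat.card D ∣ p ^ n)
    rw [hs', ht', ← pow_add] at h1
    have hst : n = s + t := Nat.pow_right_injective hp.two_le h1
    rw [ht'] at hDcard
    have htn : n - 2 ≤ t := (Nat.pow_le_pow_iff_right hp.one_lt).1 hDcard
    have hs2 : s ≤ 2 := by omega
    rw [hs']
    interval_cases s
    · exfalso; apply hnc
      haveI : Subsingleton (G ⧸ D) := by
        have h0 : Nat.card (G ⧸ D) = 1 := by simpa using hs'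
        exact (Nat.card_eq_one_iff_unique.1 h0).1
      exact isCyclic_of_subsingleton
    · exfalso; apply hnc
      exact isCyclic_of_prime_card (p := p) (by simpa using hs')
    · rfl
  have hcount := count_index_p hAcard hnc
  rw [← hcount]
  have hDle : ∀ N : Subgroup G, N.Normal → N.index = p → D ≤ N := by
    intro N hN hNi
    haveI := hN
    have h0 : Nat.card (G ⧸ N) = p := by rw [← Subgroup.index_eq_card, hNi]
    haveI : IsCyclic (G ⧸ N) := isCyclic_of_prime_card h0
    rw [hD, commutator_def, Subgroup.commutator_le]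
    intro a _ b _
    rw [← QuotientGroup.eq_one_iff (N := N), commutatorElement_def]
    simp only [QuotientGroup.mk_mul, QuotientGroup.mk_inv]
    rw [comm_of_cyclic (QuotientGroup.mk a : G ⧸ N) (QuotientGroup.mk b)]; group
  have hker : (QuotientGroup.mk' D).ker = D := QuotientGroup.ker_mk' D
  have hDcomap : ∀ H : Subgroup (G ⧸ D), D ≤ H.comap (QuotientGroup.mk' D) := by
    intro H x hx
    rw [Subgroup.mem_comap]
    have h0 : (QuotientGroup.mk' D) x = 1 := (QuotientGroup.eq_one_iff x).2 hx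
    rw [h0]; exact H.one_mem
  apply Nat.card_congr
  refine ⟨fun N => ⟨N.1.map (QuotientGroup.mk' D), ?_⟩,
    fun H => ⟨H.1.comap (QuotientGroup.mk' D), normal_of_commutator_le _ (hDcomap H.1), ?_⟩, ?_, ?_⟩
  · have h0 := Subgroup.index_comap_of_surjective (N.1.map (QuotientGroup.mk' D))
      (QuotientGroup.mk'_surjective D)
    rw [Subgroup.comap_map_eq_self (by rw [hker]; exact hDle N.1 N.2.1 N.2.2)] at h0
    rw [← h0]; exact N.2.2
  · rw [Subgroup.index_comap_of_surjective _ (QuotientGroup.mk'_surjective D)]; exact H.2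
  · intro N
    apply Subtype.ext
    exact Subgroup.comap_map_eq_self (by rw [hker]; exact hDle N.1 N.2.1 N.2.2)
  · intro H
    apply Subtype.ext
    exact Subgroup.map_comap_eq_self_of_surjective (QuotientGroup.mk'_surjective D) H.1

end Cfsg.Agent.S0662
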