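import Cfsg.Statements.S0663
import Mathlib
import Cfsg.Agent.Lib.helper1.Uniserial
-- import your own Cfsg.Agent.* helpers here

set_option autoImplicit false
open Cfsg

namespace Cfsg.Agent.S0663

/-- A p-group acts uniserially on a p-group N of order p^n exactly when the iterated commutator chain from N has length n; in that case the chain terms are all the invariant subgroups of N and they are normal in N. -/
theorem result {L : Type*} [Group L] [Finite L] {p : ℕ} [Fact p.Prime] (N G : Subgroup L) (hN : IsPGroup p N) (hG : IsPGroup p G) (hGN : G ≤ Subgroup.normalizer (N : Set L)) (n : ℕ) (hn : Nat.card N = p ^ n) : ((∀ H : Subgroup L, H ≤ N → G ≤ Subgroup.normalizer (H : Set L) → H ≠ ⊥ → (⁅H, G⁆).relIndex H = p) ↔ Cfsg.iterCommutator N G (n - 1) ≠ ⊥ ∨ n = 0) ∧ ((∀ H : Subgroup L, H ≤ N → G ≤ Subgroup.normalizer (H : Set L) → H ≠ ⊥ → (⁅H, G⁆).relIndex H = p) → ∀ H : Subgroup L, H ≤ N → G ≤ Subgroup.normalizer (H : Set L) → (∃ i ≤ n, H = Cfsg.iterCommutator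 N G i) ∧ N ≤ Subgroup.normalizer (H : Set L)) := by
  refine ⟨⟨fun hU => ?_, fun h H hHN hGH hH => ?_⟩, fun hU H hHN hGH => ?_⟩
  · exact Cfsg.Agent.Lib.helper1.chain_ne_bot_uni N G n
      (Cfsg.Agent.Lib.helper1.chain_of_unis_uni N G hGN n hn hU)
  · exact Cfsg.Agent.Lib.helper1.unis_of_chain_uni N G hN hG hGN n
      (Cfsg.Agent.Lib.helper1.chain_of_ne_bot_uni N G hN hG hGN n hn h) H hHN hGH hH
  · have hch := Cfsg.Agent.Lib.helper1.chain_of_unis_uni N G hGN n hn hU
    obtain ⟨i, hi, rfl⟩ := Cfsg.Agent.Lib.helper1.chain_invariant_uni N G hN hG hGN n hch H hHN hGH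
    exact ⟨⟨i, hi, rfl⟩, Cfsg.Agent.Lib.helper1.chain_normal_uni N G hN hG hGN n hch i⟩

end Cfsg.Agent.S0663
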