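import Cfsg.Statements.S0666
import Mathlib
import Cfsg.Agent.Lib.helper1.FrobConj

set_option autoImplicit false
open Cfsg

namespace Cfsg.Agent.S0666

theorem frob_abstract {F A : Type*} [Group F] [Finite F] [CommGroup A] [Finite A]
    (K H : Subgroup F) [K.Normal] (hc : Subgroup.IsComplement' K H)
    (hfpf : ∀ h ∈ H, h ≠ 1 → ∀ k ∈ K, h * k = k * h → k = 1)
    (ρ : F →* MulAut A)
    (hcop : (Nat.card A).Coprime (Nat.card K))
    (hK : ∀ a : A, (∀ k ∈ K, ρ k a = a) → a = 1)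
    (hH : ∀ a : A, (∀ h ∈ H, ρ h a = a) → a = 1) (a : A) : a = 1 := by
  classical
  letI : Fintype F := Fintype.ofFinite F
  have hρmul : ∀ (x y : F) (w : A), ρ (x * y) w = ρ x (ρ y w) := by
    intro x y w
    rw [map_mul]
    rfl
  have hAH : ∀ w : A, ∏ h : H, ρ (h : F) w = 1 := by
    intro w
    apply hH
    intro h' hh'
    rw [map_prod]
    have h1 : ∀ h : H, ρ h' (ρ (h : F) w) = ρ (((⟨h', hh'⟩ : H) * h : H) : F) w := by
      intro h
      rw [Subgroup.coe_mul, hρmul]
    simp_rw [h1]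
    exact Fintype.prod_equiv (Equiv.mulLeft (⟨h', hh'⟩ : H)) _ _ (fun h => rfl)
  have hAK : ∏ k : K, ρ (k : F) a = 1 := by
    apply hK
    intro k' hk'
    rw [map_prod]
    have h1 : ∀ k : K, ρ k' (ρ (k : F) a) = ρ (((⟨k', hk'⟩ : K) * k : K) : F) a := by
      intro k
      rw [Subgroup.coe_mul, hρmul]
    simp_rw [h1]
    exact Fintype.prod_equiv (Equiv.mulLeft (⟨k', hk'⟩ : K)) _ _ (fun k => rfl)
  have htot : ∏ x : F, ρ x a = 1 := by
    have hc' : Function.Bijective (fun p : K × H => (p.1 : F) * (p.2 : F)) := hc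
    rw [← Fintype.prod_equiv (Equiv.ofBijective _ hc') (fun p : K × H => ρ ((p.1 : F) * (p.2 : F)) a)
      (fun x => ρ x a) (fun p => rfl)]
    rw [Fintype.prod_prod_type]
    apply Finset.prod_eq_one
    intro k _
    simp_rw [hρmul]
    rw [← map_prod, hAH, map_one]
  have hsplit := Fintype.prod_subtype_mul_prod_subtype (fun x : F => x ∈ K) (fun x => ρ x a)
  have hAK' : ∏ i : {x : F // x ∈ K}, ρ (i : F) a = 1 := hAK
  rw [htot, hAK', one_mul] at hsplit
  -- the conjugates of the complement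
  have hKH : ∀ h : H, (h : F) ∈ K → h = 1 := by
    intro h hh
    have h1 : (h : F) ∈ K ⊓ H := ⟨hh, h.2⟩
    rw [(Subgroup.IsComplement'.disjoint hc).eq_bot] at h1
    exact Subtype.ext (Subgroup.mem_bot.mp h1)
  have hnotK : ∀ (k : K) (h : {h : H // h ≠ 1}),
      (k : F) * ((h : H) : F) * (k : F)⁻¹ ∉ K := by
    intro k h hmem
    apply h.2
    apply hKH
    have h1 := K.mul_mem (K.mul_mem (K.inv_mem k.2) hmem) k.2
    simpa [mul_assoc] using h1
  obtain ⟨β, hβ⟩ : ∃ β : K × {h : H // h ≠ 1} → {x : F // x ∉ K},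
      ∀ p, ((β p : {x : F // x ∉ K}) : F) = (p.1 : F) * ((p.2 : H) : F) * (p.1 : F)⁻¹ :=
    ⟨fun p => ⟨_, hnotK p.1 p.2⟩, fun _ => rfl⟩
  have hconjinj : ∀ (h : H), h ≠ 1 → ∀ k k' : K,
      (k : F) * (h : F) * (k : F)⁻¹ = (k' : F) * (h : F) * (k' : F)⁻¹ → k = k' := by
    intro h hh k k' heq
    have h1 : (h : F) * ((k' : F)⁻¹ * (k : F)) = ((k' : F)⁻¹ * (k : F)) * (h : F) := by
      have h2 : (k' : F)⁻¹ * ((k : F) * (h : F) * (k : F)⁻¹) * (k : F) =
          (k' : F)⁻¹ * ((k' : F) * (h : F) * (k' : F)⁻¹) * (k : F) := by rw [heq]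
      simp only [mul_assoc, inv_mul_cancel_left, inv_mul_cancel, mul_one] at h2
      rw [mul_assoc]
      exact h2.symm
    have h3 := hfpf h h.2 (fun h0 => hh (Subtype.ext h0)) _ (K.mul_mem (K.inv_mem k'.2) k.2) h1
    apply Subtype.ext
    have h4 : (k : F) = (k' : F) * ((k' : F)⁻¹ * (k : F)) := by group
    rw [h4, h3, mul_one]
  have hκmem : ∀ (k : K) (h : H), (k : F) * ((h : F) * (k : F)⁻¹ * (h : F)⁻¹) ∈ K := fun k h =>
    K.mul_mem k.2 (‹K.Normal›.conj_mem _ (K.inv_mem k.2) _)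
  have hκ : ∀ (k : K) (h : H), (k : F) * ((h : F) * (k : F)⁻¹ * (h : F)⁻¹) * (h : F) =
      (k : F) * (h : F) * (k : F)⁻¹ := by
    intro k h
    group
  have hβbij : Function.Bijective β := by
    constructor
    · rintro ⟨k, h⟩ ⟨k', h'⟩ heq
      have h1 : (k : F) * ((h : H) : F) * (k : F)⁻¹ = (k' : F) * ((h' : H) : F) * (k' : F)⁻¹ := by
        have h0 := congrArg (fun x : {x : F // x ∉ K} => (x : F)) heq
        simpa only [hβ] using h0
      have h2 : ((⟨_, hκmem k h⟩ : K), (h : H)) = ((⟨_, hκmem k' h'⟩ : K), (h' : H)) := by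
        apply hc.1
        show (k : F) * (((h : H) : F) * (k : F)⁻¹ * ((h : H) : F)⁻¹) * ((h : H) : F) =
          (k' : F) * (((h' : H) : F) * (k' : F)⁻¹ * ((h' : H) : F)⁻¹) * ((h' : H) : F)
        rw [hκ, hκ, h1]
      have h3 : (h : H) = (h' : H) := (Prod.ext_iff.mp h2).2
      have h4 : h = h' := Subtype.ext h3
      subst h4
      have h5 := hconjinj (h : H) h.2 k k' h1
      rw [h5]
    · rintro ⟨x, hx⟩
      obtain ⟨⟨k₀, h₀⟩, hkh⟩ := hc.2 x
      have hkh' : (k₀ : F) * (h₀ : F) = x := hkh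
      have hh₀ : h₀ ≠ 1 := by
        rintro rfl
        apply hx
        rw [← hkh', Subgroup.coe_one, mul_one]
        exact k₀.2
      have hθinj : Function.Injective (fun k : K => (⟨_, hκmem k h₀⟩ : K)) := by
        intro k k' hkk
        have h1 := congrArg (fun y : K => (y : F) * (h₀ : F)) hkk
        simp only [hκ] at h1
        exact hconjinj h₀ hh₀ k k' h1
      obtain ⟨k, hk⟩ := Finite.surjective_of_injective hθinj k₀
      refine ⟨(k, ⟨h₀, hh₀⟩), ?_⟩
      apply Subtype.ext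
      rw [hβ]
      show (k : F) * (h₀ : F) * (k : F)⁻¹ = x
      rw [← hκ, ← hkh']
      have h6 := congrArg (fun y : K => (y : F)) hk
      simp only at h6
      rw [h6]
  have hout : ∏ x : {x : F // x ∉ K}, ρ (x : F) a = (a⁻¹) ^ Nat.card K := by
    rw [← Fintype.prod_equiv (Equiv.ofBijective β hβbij)
      (fun p => ρ ((β p : {x : F // x ∉ K}) : F) a) (fun x => ρ (x : F) a) (fun p => rfl)]
    rw [Fintype.prod_prod_type]
    have hinner : ∀ k : K,
        ∏ h : {h : H // h ≠ 1}, ρ ((β (k, h) : {x : F // x ∉ K}) : F) a = a⁻¹ := by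
      intro k
      have h1 : ∀ h : {h : H // h ≠ 1}, ρ ((β (k, h) : {x : F // x ∉ K}) : F) a =
          ρ (k : F) (ρ ((h : H) : F) (ρ ((k : F)⁻¹) a)) := by
        intro h
        rw [hβ, hρmul, hρmul]
      simp_rw [h1]
      rw [← map_prod]
      have h2 : ∏ h : {h : H // h ≠ 1}, ρ ((h : H) : F) (ρ ((k : F)⁻¹) a) =
          (ρ ((k : F)⁻¹) a)⁻¹ := by
        have h3 := hAH (ρ ((k : F)⁻¹) a)
        rw [← Finset.mul_prod_erase Finset.univ _ (Finset.mem_univ (1 : H))] at h3
        rw [Subgroup.coe_one, map_one, MulAut.one_apply] at h3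
        rw [Finset.prod_subtype (Finset.univ.erase (1 : H)) (p := fun h => h ≠ 1) (by simp)] at h3
        exact eq_inv_of_mul_eq_one_right h3
      rw [h2, map_inv, ← hρmul, mul_inv_cancel, map_one, MulAut.one_apply]
    simp_rw [hinner]
    rw [Finset.prod_const, Finset.card_univ, Nat.card_eq_fintype_card]
  rw [hout] at hsplit
  have h1 : a ^ Nat.card K = 1 := by
    rw [inv_pow, inv_eq_one] at hsplit
    exact hsplit
  have h2 : orderOf a ∣ Nat.card K := orderOf_dvd_of_pow_eq_one h1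
  have h3 : orderOf a ∣ Nat.card A := orderOf_dvd_natCard a
  have h4 := Nat.dvd_gcd h3 h2
  rw [Nat.Coprime.gcd_eq_one hcop] at h4
  exact orderOf_eq_one_iff.mp (Nat.dvd_one.mp h4)


/-- A Frobenius group acting on a nontrivial abelian group of order prime to that of its kernel, with the kernel acting without nontrivial fixed points, has a complement with a nontrivial fixed point. -/
theorem result {G : Type*} [Group G] [Finite G] (V F : Subgroup G) (hVab : IsMulCommutative V) (hV1 : V ≠ ⊥) (hFV : F ≤ Subgroup.normalizer (V : Set G)) (H : Subgroup ↥F) (hH : Cfsg.IsFrobeniusComplement H) (hcop : (Nat.card V).Coprime (Nat.card (Cfsg.frobeniusKernel H))) (hCK : V ⊓ Subgroup.centralizer (Subtype.val '' Cfsg.frobeniusKernel H : Set G) = ⊥) : V ⊓ Subgroup.centralizer ((H.map F.subtype : Subgroup G) : Set G) ≠ ⊥ := by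
  classical
  intro hbot
  obtain ⟨K, hset, hKn, hc, hK1, hfpf⟩ := Cfsg.Agent.Lib.helper1.frob_pair H hH
  haveI := hKn
  haveI := hVab
  letI : CommGroup ↥V := { (inferInstance : Group ↥V) with mul_comm := fun a b => mul_comm' a b }
  obtain ⟨ρ, hρ⟩ : ∃ ρ : ↥F →* MulAut ↥V, ∀ (x : F) (v : V),
      ((ρ x v : V) : G) = (x : G) * v * (x : G)⁻¹ :=
    ⟨(V.normalizerMonoidHom).comp (Subgroup.inclusion hFV), fun x v => rfl⟩
  apply hV1
  rw [Subgroup.eq_bot_iff_forall]
  intro v hv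
  have hfpf' : ∀ h ∈ H, h ≠ 1 → ∀ k ∈ K, h * k = k * h → k = 1 := by
    intro h hh h1 k hk hcomm
    have h2' : k ∈ Subgroup.centralizer {h} := by
      rw [Subgroup.mem_centralizer_iff]
      intro y hy
      rw [Set.mem_singleton_iff] at hy
      rw [hy]
      exact hcomm
    have h2 : k ∈ K ⊓ Subgroup.centralizer {h} := ⟨hk, h2'⟩
    rw [hfpf h hh h1] at h2
    exact Subgroup.mem_bot.mp h2
  have hcop' : (Nat.card V).Coprime (Nat.card K) := by
    rw [← hset] at hcop
    exact hcop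
  have hK' : ∀ a : V, (∀ k ∈ K, ρ k a = a) → a = 1 := by
    intro a ha
    have h1 : (a : G) ∈ V ⊓ Subgroup.centralizer (Subtype.val '' Cfsg.frobeniusKernel H : Set G) := by
      suffices h0 : (a : G) ∈ Subgroup.centralizer (Subtype.val '' Cfsg.frobeniusKernel H : Set G)
        from ⟨a.2, h0⟩
      rw [Subgroup.mem_centralizer_iff]
      rintro _ ⟨k, hk, rfl⟩
      rw [← hset] at hk
      have h2 := congrArg (fun w : V => (w : G)) (ha k hk)
      simp only [hρ] at h2
      have h3 : (k : G) * a = (k : G) * a * (k : G)⁻¹ * k := by group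
      rw [h3, h2]
    rw [hCK] at h1
    exact Subtype.ext (Subgroup.mem_bot.mp h1)
  have hH' : ∀ a : V, (∀ h ∈ H, ρ h a = a) → a = 1 := by
    intro a ha
    have h1 : (a : G) ∈ V ⊓ Subgroup.centralizer ((H.map F.subtype : Subgroup G) : Set G) := by
      suffices h0 : (a : G) ∈ Subgroup.centralizer ((H.map F.subtype : Subgroup G) : Set G)
        from ⟨a.2, h0⟩
      rw [Subgroup.mem_centralizer_iff]
      rintro _ ⟨k, hk, rfl⟩
      have h2 := congrArg (fun w : V => (w : G)) (ha k hk)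
      simp only [hρ] at h2
      show ((k : ↥F) : G) * (a : G) = (a : G) * ((k : ↥F) : G)
      have h3 : ((k : ↥F) : G) * a = (k : G) * a * (k : G)⁻¹ * k := by group
      rw [h3, h2]
    rw [hbot] at h1
    exact Subtype.ext (Subgroup.mem_bot.mp h1)
  have h9 := frob_abstract K H hc hfpf' ρ hcop' hK' hH' ⟨v, hv⟩
  exact congrArg Subtype.val h9

end Cfsg.Agent.S0666
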