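import Cfsg.Statements.S0669
-- import your own Cfsg.Agent.* helpers here

set_option autoImplicit false
open Cfsg

namespace Cfsg.Agent.S0669

/-- The rank of a transitive action: orbits on ordered pairs correspond to orbits of a point stabiliser. -/
theorem result {G : Type*} [Group G] {Ω : Type*} [Finite Ω] [MulAction G Ω] [MulAction.IsPretransitive G Ω] (a : Ω) : Nat.card (MulAction.orbitRel.Quotient G (Ω × Ω)) = Nat.card (MulAction.orbitRel.Quotient (MulAction.stabilizer G a) Ω) := by
  classical
  let f : MulAction.orbitRel.Quotient (MulAction.stabilizer G a) Ω →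
      MulAction.orbitRel.Quotient G (Ω × Ω) :=
    Quotient.map' (fun b => (a, b)) (by
      intro b b' h
      rw [MulAction.orbitRel_apply] at h ⊢
      obtain ⟨g, hg⟩ := h
      refine ⟨(g : G), ?_⟩
      have hg' : (g : G) • b' = b := hg
      have hga : (g : G) • a = a := g.2
      simp [Prod.smul_mk, hg', hga])
  have hinj : Function.Injective f := by
    intro x y
    induction x using Quotient.inductionOn' with
    | h b =>
    induction y using Quotient.inductionOn' with
    | h b' =>
    intro h
    change (Quotient.mk'' (a, b) : MulAction.orbitRel.Quotient G (Ω × Ω)) = Quotient.mk'' (a, b') at h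
    rw [Quotient.eq''] at h ⊢
    rw [MulAction.orbitRel_apply] at h ⊢
    obtain ⟨g, hg⟩ := h
    have h1 : g • a = a := congrArg Prod.fst hg
    have h2 : g • b' = b := congrArg Prod.snd hg
    exact ⟨⟨g, h1⟩, h2⟩
  have hsurj : Function.Surjective f := by
    intro z
    induction z using Quotient.inductionOn' with
    | h p =>
    obtain ⟨x, y⟩ := p
    obtain ⟨g, hg⟩ := MulAction.exists_smul_eq G x a
    refine ⟨Quotient.mk'' (g • y), ?_⟩
    change (Quotient.mk'' (a, g • y) : MulAction.orbitRel.Quotient G (Ω × Ω)) = Quotient.mk'' (x, y)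
    rw [Quotient.eq'', MulAction.orbitRel_apply]
    exact ⟨g, by simp [Prod.smul_mk, hg]⟩
  exact (Nat.card_congr (Equiv.ofBijective f ⟨hinj, hsurj⟩)).symm

end Cfsg.Agent.S0669
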