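import Cfsg.Statements.S0672


set_option autoImplicit false
open Cfsg

namespace Cfsg.Agent.S0672

open MulAction
open scoped Pointwise

section
variable {G : Type*} [Group G] {K : Type*} [Field K] {Ω : Type*} [Fintype Ω] [DecidableEq Ω]
  [MulAction G Ω]

/-- The linear map attached to a weight on (point, pair) incidences. -/
noncomputable def wmap (w : Ω → Set.powersetCard Ω 2 → K) :
    (Ω → K) →ₗ[K] (Set.powersetCard Ω 2 → K) where
  toFun φ := fun π => ∑ a, w a π * φ a
  map_add' φ ψ := by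
    funext π
    simp [mul_add, Finset.sum_add_distrib]
  map_smul' c φ := by
    funext π
    simp [Finset.mul_sum, mul_left_comm]

/-- The embedding of two distinct points. -/
def emb2 {α : Type*} (a b : α) (hab : a ≠ b) : Fin 2 ↪ α :=
  ⟨![a, b], by
    intro i j h
    fin_cases i <;> fin_cases j <;> simp_all⟩

theorem key
    (h : ∀ f : Representation.IntertwiningMap (Cfsg.permSumZero K G Ω).toRepresentation
      (Cfsg.permRep K G (Set.powersetCard Ω 2)),
      (∀ v : (Cfsg.permSumZero K G Ω).toSubmodule,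
        (v : Ω → K) ∈ (Cfsg.permConstants K G Ω).toSubmodule → f v = 0) → f = 0)
    (w : Ω → Set.powersetCard Ω 2 → K)
    (hw : ∀ (g : G) (a : Ω) (π : Set.powersetCard Ω 2), w (g • a) (g • π) = w a π)
    (hsum : ∀ π, ∑ a, w a π = 0) (a b : Ω) (π : Set.powersetCard Ω 2) : w a π = w b π := by
  classical
  let f : Representation.IntertwiningMap (Cfsg.permSumZero K G Ω).toRepresentation
      (Cfsg.permRep K G (Set.powersetCard Ω 2)) :=
    LinearMap.intertwiningMap_of_isIntertwiningMap _ _
      ((wmap w).comp (Submodule.subtype _)) (by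
      intro g v
      funext π
      change ∑ x, w x π * (v : Ω → K) (g⁻¹ • x) = ∑ x, w x (g⁻¹ • π) * (v : Ω → K) x
      refine Fintype.sum_equiv (MulAction.toPerm g⁻¹) _ _ (fun x => ?_)
      change w x π * (v : Ω → K) (g⁻¹ • x) = w (g⁻¹ • x) (g⁻¹ • π) * (v : Ω → K) (g⁻¹ • x)
      rw [hw])
  have hf0 : f = 0 := by
    apply h
    intro v hv
    rw [Cfsg.permConstants, Submodule.mem_span_singleton] at hv
    obtain ⟨c, hc⟩ := hv
    funext π
    change ∑ x, w x π * (v : Ω → K) x = 0
    rw [← hc]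
    simp only [Pi.smul_apply, smul_eq_mul, mul_one]
    rw [← Finset.sum_mul, hsum, zero_mul]
  have hv0 : (∑ x, ((Pi.single a 1 - Pi.single b 1 : Ω → K)) x) = 0 := by
    simp [Finset.sum_sub_distrib]
  have h1 : f ⟨(Pi.single a 1 - Pi.single b 1 : Ω → K), hv0⟩ = 0 := by
    rw [hf0]; rfl
  have h2 := congrFun h1 π
  change ∑ x, w x π * ((Pi.single a 1 - Pi.single b 1 : Ω → K)) x = 0 at h2
  simp only [Pi.sub_apply, mul_sub, Finset.sum_sub_distrib, Pi.single_apply, mul_ite, mul_one,
    mul_zero, Finset.sum_ite_eq', Finset.mem_univ, if_true] at h2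
  exact sub_eq_zero.mp h2

theorem homog
    (h2 : MulAction.IsMultiplyPretransitive G Ω 2)
    (h : ∀ f : Representation.IntertwiningMap (Cfsg.permSumZero K G Ω).toRepresentation
      (Cfsg.permRep K G (Set.powersetCard Ω 2)),
      (∀ v : (Cfsg.permSumZero K G Ω).toSubmodule,
        (v : Ω → K) ∈ (Cfsg.permConstants K G Ω).toSubmodule → f v = 0) → f = 0)
    (a : Ω) (π₁ π₂ : Set.powersetCard Ω 2) (h1 : a ∉ (π₁ : Finset Ω))
    (h2' : a ∉ (π₂ : Finset Ω)) :
    ∃ g : G, g • a = a ∧ g • π₁ = π₂ := by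
  classical
  by_contra hcon
  let O₁ : Ω → Set.powersetCard Ω 2 → Prop := fun x π => ∃ g : G, g • a = x ∧ g • π₁ = π
  have hO_inv : ∀ (g : G) x π, O₁ (g • x) (g • π) ↔ O₁ x π := by
    intro g x π
    constructor
    · rintro ⟨k, hk1, hk2⟩
      refine ⟨g⁻¹ * k, ?_, ?_⟩
      · rw [mul_smul, hk1, inv_smul_smul]
      · rw [mul_smul, hk2, inv_smul_smul]
    · rintro ⟨k, hk1, hk2⟩
      exact ⟨g * k, by rw [mul_smul, hk1], by rw [mul_smul, hk2]⟩
  have hO_not : ∀ x π, O₁ x π → x ∉ (π : Finset Ω) := by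
    rintro x π ⟨k, rfl, rfl⟩ hx
    rw [Set.powersetCard.coe_smul, Finset.smul_mem_smul_finset_iff] at hx
    exact h1 hx
  have htr : ∀ π π' : Set.powersetCard Ω 2, ∃ g : G, g • π = π' := by
    intro π π'
    obtain ⟨x, y, hxy, hπ⟩ := Finset.card_eq_two.mp π.2
    obtain ⟨x', y', hxy', hπ'⟩ := Finset.card_eq_two.mp π'.2
    obtain ⟨g, hg⟩ := (MulAction.isMultiplyPretransitive_iff.mp h2) (emb2 x y hxy)
      (emb2 x' y' hxy')
    refine ⟨g, ?_⟩
    apply Subtype.ext
    have e0 : g • x = x' := congrArg (fun e : Fin 2 ↪ Ω => e 0) hg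
    have e1 : g • y = y' := congrArg (fun e : Fin 2 ↪ Ω => e 1) hg
    rw [Set.powersetCard.coe_smul]
    change g • (π : Finset Ω) = (π' : Finset Ω)
    have hπa : (π : Finset Ω) = {x, y} := hπ
    have hπb : (π' : Finset Ω) = {x', y'} := hπ'
    rw [hπa, hπb, Finset.smul_finset_insert, Finset.smul_finset_singleton, e0, e1]
  let cnt : Set.powersetCard Ω 2 → ℕ := fun π => (Finset.univ.filter (fun x => O₁ x π)).card
  have hcnt : ∀ π, cnt π = cnt π₁ := by
    intro π
    obtain ⟨g, hg⟩ := htr π₁ π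
    rw [← hg]
    change (Finset.univ.filter (fun x => O₁ x (g • π₁))).card
      = (Finset.univ.filter (fun x => O₁ x π₁)).card
    symm
    apply Finset.card_bij (fun x _ => g • x)
    · intro x hx
      simp only [Finset.mem_filter, Finset.mem_univ, true_and] at hx ⊢
      exact (hO_inv g x π₁).mpr hx
    · intro x _ y _ hxy
      exact MulAction.injective g hxy
    · intro y hy
      simp only [Finset.mem_filter, Finset.mem_univ, true_and] at hy
      refine ⟨g⁻¹ • y, ?_, smul_inv_smul g y⟩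
      simp only [Finset.mem_filter, Finset.mem_univ, true_and]
      rw [← hO_inv g]
      rwa [smul_inv_smul]
  obtain ⟨α, β, hαβ, hlin⟩ : ∃ α β : K, (α ≠ 0 ∨ β ≠ 0) ∧ α * (cnt π₁ : K) + β * 2 = 0 := by
    by_cases h20 : (2 : K) = 0
    · exact ⟨0, 1, Or.inr one_ne_zero, by rw [h20]; ring⟩
    · exact ⟨2, -(cnt π₁ : K), Or.inl h20, by ring⟩
  let w : Ω → Set.powersetCard Ω 2 → K := fun x π =>
    α * (if O₁ x π then 1 else 0) + β * (if x ∈ (π : Finset Ω) then 1 else 0)
  have hw : ∀ (g : G) x π, w (g • x) (g • π) = w x π := by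
    intro g x π
    change α * (if O₁ (g • x) (g • π) then 1 else 0)
      + β * (if g • x ∈ ((g • π : Set.powersetCard Ω 2) : Finset Ω) then 1 else 0) = _
    rw [Set.powersetCard.coe_smul]
    simp only [hO_inv g x π, Finset.smul_mem_smul_finset_iff]
    rfl
  have hsum : ∀ π, ∑ x, w x π = 0 := by
    intro π
    change ∑ x, (α * (if O₁ x π then 1 else 0)
      + β * (if x ∈ (π : Finset Ω) then 1 else 0)) = 0
    rw [Finset.sum_add_distrib, ← Finset.mul_sum, ← Finset.mul_sum, Finset.sum_boole,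
      Finset.sum_boole]
    have e1 : ((Finset.univ.filter (fun x => O₁ x π)).card : K) = (cnt π₁ : K) := by
      have := hcnt π
      exact congrArg (Nat.cast : ℕ → K) this
    have e2 : (Finset.univ.filter (fun x => x ∈ (π : Finset Ω))).card = 2 := by
      rw [Finset.filter_mem_eq_inter, Finset.univ_inter]; exact π.2
    rw [e1, e2]
    exact_mod_cast hlin
  have hk := key h w hw hsum
  obtain ⟨y1, hy1⟩ : ∃ y, y ∈ (π₁ : Finset Ω) :=
    Finset.card_pos.mp (by rw [π₁.2]; norm_num)
  obtain ⟨y2, hy2⟩ : ∃ y, y ∈ (π₂ : Finset Ω) :=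
    Finset.card_pos.mp (by rw [π₂.2]; norm_num)
  have hO1 : O₁ a π₁ := ⟨1, one_smul _ _, one_smul _ _⟩
  have E1 := hk a y1 π₁
  have E2 := hk a y2 π₂
  have w1 : w a π₁ = α := by
    change α * (if O₁ a π₁ then 1 else 0) + β * (if a ∈ (π₁ : Finset Ω) then 1 else 0) = α
    rw [if_pos hO1, if_neg h1]; ring
  have w2 : w y1 π₁ = β := by
    change α * (if O₁ y1 π₁ then 1 else 0) + β * (if y1 ∈ (π₁ : Finset Ω) then 1 else 0) = β
    rw [if_neg (fun hh => hO_not y1 π₁ hh hy1), if_pos hy1]; ring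
  have w3 : w a π₂ = 0 := by
    change α * (if O₁ a π₂ then 1 else 0) + β * (if a ∈ (π₂ : Finset Ω) then 1 else 0) = 0
    rw [if_neg hcon, if_neg h2']; ring
  have w4 : w y2 π₂ = β := by
    change α * (if O₁ y2 π₂ then 1 else 0) + β * (if y2 ∈ (π₂ : Finset Ω) then 1 else 0) = β
    rw [if_neg (fun hh => hO_not y2 π₂ hh hy2), if_pos hy2]; ring
  rw [w1, w2] at E1
  rw [w3, w4] at E2
  rcases hαβ with h | h
  · exact h (E1.trans E2.symm)
  · exact h E2.symm

end

/-- Let a finite group act faithfully and doubly transitively with point stabilisers of even order, and let `K` have characteristic `p` dividing the degree. If the heart of the permutation module admits no non-zero equivariant map to the permutation module on unordered pairs (phrased: every intertwining map from the sum-zero functions vanishing on the constants is zero), the action is triply transitive. -/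
theorem result {G : Type*} [Group G] [Finite G] {K : Type*} [Field K] {p : ℕ} [Fact p.Prime] [CharP K p] {Ω : Type*} [Fintype Ω] [DecidableEq Ω] [MulAction G Ω] [FaithfulSMul G Ω] (h2 : MulAction.IsMultiplyPretransitive G Ω 2) (hp : p ∣ Fintype.card Ω) (heven : ∀ a : Ω, Even (Nat.card (MulAction.stabilizer G a))) (h : ∀ f : Representation.IntertwiningMap (Cfsg.permSumZero K G Ω).toRepresentation (Cfsg.permRep K G (Set.powersetCard Ω 2)), (∀ v : (Cfsg.permSumZero K G Ω).toSubmodule, (v : Ω → K) ∈ (Cfsg.permConstants K G Ω).toSubmodule → f v = 0) → f = 0) : MulAction.IsMultiplyPretransitive G Ω 3 := by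
  classical
  rw [MulAction.isMultiplyPretransitive_iff]
  intro x y
  have : MulAction.IsMultiplyPretransitive G Ω 2 := h2
  have hpre : MulAction.IsPretransitive G Ω := MulAction.isPretransitive_of_is_two_pretransitive
  obtain ⟨g₀, hg₀⟩ := MulAction.exists_smul_eq G (x 0) (y 0)
  have hx01 : x 0 ≠ x 1 := fun hh => absurd (x.injective hh) (by decide)
  have hx02 : x 0 ≠ x 2 := fun hh => absurd (x.injective hh) (by decide)
  have hx12 : x 1 ≠ x 2 := fun hh => absurd (x.injective hh) (by decide)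
  have hy01 : y 0 ≠ y 1 := fun hh => absurd (y.injective hh) (by decide)
  have hy02 : y 0 ≠ y 2 := fun hh => absurd (y.injective hh) (by decide)
  have hy12 : y 1 ≠ y 2 := fun hh => absurd (y.injective hh) (by decide)
  have hgx12 : g₀ • x 1 ≠ g₀ • x 2 := fun hh => hx12 (MulAction.injective g₀ hh)
  let π₁ : Set.powersetCard Ω 2 := ⟨{g₀ • x 1, g₀ • x 2}, by
    rw [Set.powersetCard.mem_iff, Finset.card_pair hgx12]⟩
  let π₂ : Set.powersetCard Ω 2 := ⟨{y 1, y 2}, by
    rw [Set.powersetCard.mem_iff, Finset.card_pair hy12]⟩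
  have ha1 : y 0 ∉ (π₁ : Finset Ω) := by
    change y 0 ∉ ({g₀ • x 1, g₀ • x 2} : Finset Ω)
    rw [← hg₀]
    simp only [Finset.mem_insert, Finset.mem_singleton, not_or]
    exact ⟨fun hh => hx01 (MulAction.injective g₀ hh), fun hh => hx02 (MulAction.injective g₀ hh)⟩
  have ha2 : y 0 ∉ (π₂ : Finset Ω) := by
    change y 0 ∉ ({y 1, y 2} : Finset Ω)
    simp only [Finset.mem_insert, Finset.mem_singleton, not_or]
    exact ⟨hy01, hy02⟩
  obtain ⟨k, hka, hkπ⟩ := homog h2 h (y 0) π₁ π₂ ha1 ha2
  -- an element of the stabilizer swapping `y 1` and `y 2`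
  obtain ⟨t, hta, ht1, ht2⟩ : ∃ t : G, t • y 0 = y 0 ∧ t • y 1 = y 2 ∧ t • y 2 = y 1 := by
    obtain ⟨s, hs⟩ := exists_prime_orderOf_dvd_card' (G := MulAction.stabilizer G (y 0)) 2
      (heven (y 0)).two_dvd
    have hsa : (s : G) • y 0 = y 0 := s.2
    have hs2 : (s : G) * (s : G) = 1 := by
      have : s ^ 2 = 1 := by
        have hh := pow_orderOf_eq_one s
        rwa [hs] at hh
      have h' := congrArg (Subtype.val) this
      simpa [pow_two] using h'
    have hs1 : (s : G) ≠ 1 := by
      intro hh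
      have : s = 1 := Subtype.ext hh
      rw [this, orderOf_one] at hs
      omega
    obtain ⟨b, hb⟩ : ∃ b : Ω, (s : G) • b ≠ b := by
      by_contra hcon
      push Not at hcon
      exact hs1 (FaithfulSMul.eq_of_smul_eq_smul (α := Ω) (fun b => by rw [hcon b, one_smul]))
    have hba : b ≠ y 0 := fun hh => hb (by rw [hh]; exact hsa)
    have hca : (s : G) • b ≠ y 0 := by
      intro hh
      apply hba
      have : (s : G) • (s : G) • b = (s : G) • y 0 := by rw [hh]
      rw [← mul_smul, hs2, one_smul, hsa] at this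
      exact this
    have hsc : (s : G) • (s : G) • b = b := by rw [← mul_smul, hs2, one_smul]
    let π₀ : Set.powersetCard Ω 2 := ⟨{b, (s : G) • b}, by
      rw [Set.powersetCard.mem_iff, Finset.card_pair (Ne.symm hb)]⟩
    have ha0 : y 0 ∉ (π₀ : Finset Ω) := by
      change y 0 ∉ ({b, (s : G) • b} : Finset Ω)
      simp only [Finset.mem_insert, Finset.mem_singleton, not_or]
      exact ⟨Ne.symm hba, Ne.symm hca⟩
    obtain ⟨m, hma, hmπ⟩ := homog h2 h (y 0) π₀ π₂ ha0 ha2
    have hset : ({m • b, m • (s : G) • b} : Finset Ω) = {y 1, y 2} := by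
      have h' := congrArg (fun π : Set.powersetCard Ω 2 => (π : Finset Ω)) hmπ
      simp only [Set.powersetCard.coe_smul] at h'
      change m • ({b, (s : G) • b} : Finset Ω) = ({y 1, y 2} : Finset Ω) at h'
      rw [Finset.smul_finset_insert, Finset.smul_finset_singleton] at h'
      exact h'
    have hmb : m • b ∈ ({y 1, y 2} : Finset Ω) := by rw [← hset]; simp
    have hmc : m • (s : G) • b ∈ ({y 1, y 2} : Finset Ω) := by rw [← hset]; simp
    have hne : m • b ≠ m • (s : G) • b := fun hh => hb (MulAction.injective m hh).symm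
    have hT1 : (m * (s : G) * m⁻¹) • (m • b) = m • (s : G) • b := by
      simp only [mul_smul, inv_smul_smul]
    have hT2 : (m * (s : G) * m⁻¹) • (m • (s : G) • b) = m • b := by
      simp only [mul_smul, inv_smul_smul]
      rw [hsc]
    have hT0 : (m * (s : G) * m⁻¹) • y 0 = y 0 := by
      have : m⁻¹ • y 0 = y 0 := by rw [inv_smul_eq_iff, hma]
      rw [mul_smul, mul_smul, this, hsa, hma]
    simp only [Finset.mem_insert, Finset.mem_singleton] at hmb hmc
    rcases hmb with hb1 | hb1 <;> rcases hmc with hc1 | hc1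
    · exact absurd (hb1.trans hc1.symm) hne
    · exact ⟨m * (s : G) * m⁻¹, hT0, by rw [← hb1, hT1, hc1], by rw [← hc1, hT2, hb1]⟩
    · exact ⟨m * (s : G) * m⁻¹, hT0, by rw [← hc1, hT2, hb1], by rw [← hb1, hT1, hc1]⟩
    · exact absurd (hb1.trans hc1.symm) hne
  have hset : ({k • g₀ • x 1, k • g₀ • x 2} : Finset Ω) = {y 1, y 2} := by
    have h' := congrArg (fun π : Set.powersetCard Ω 2 => (π : Finset Ω)) hkπ
    simp only [Set.powersetCard.coe_smul] at h'
    change k • ({g₀ • x 1, g₀ • x 2} : Finset Ω) = ({y 1, y 2} : Finset Ω) at h'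
    rw [Finset.smul_finset_insert, Finset.smul_finset_singleton] at h'
    exact h'
  have hm1 : k • g₀ • x 1 ∈ ({y 1, y 2} : Finset Ω) := by rw [← hset]; simp
  have hm2 : k • g₀ • x 2 ∈ ({y 1, y 2} : Finset Ω) := by rw [← hset]; simp
  have hne : k • g₀ • x 1 ≠ k • g₀ • x 2 := fun hh => hgx12 (MulAction.injective k hh)
  have h0 : k • g₀ • x 0 = y 0 := by rw [hg₀, hka]
  simp only [Finset.mem_insert, Finset.mem_singleton] at hm1 hm2
  have fin3 : ∀ (g : G), g • x 0 = y 0 → g • x 1 = y 1 → g • x 2 = y 2 → g • x = y := by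
    intro g e0 e1 e2
    apply DFunLike.ext
    intro i
    rw [Function.Embedding.smul_apply]
    fin_cases i
    · exact e0
    · exact e1
    · exact e2
  rcases hm1 with e1 | e1 <;> rcases hm2 with e2 | e2
  · exact absurd (e1.trans e2.symm) hne
  · exact ⟨k * g₀, fin3 _ (by rw [mul_smul, h0]) (by rw [mul_smul, e1]) (by rw [mul_smul, e2])⟩
  · exact ⟨t * (k * g₀), fin3 _ (by rw [mul_smul, mul_smul, h0, hta])
      (by rw [mul_smul, mul_smul, e1, ht2]) (by rw [mul_smul, mul_smul, e2, ht1])⟩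
  · exact absurd (e1.trans e2.symm) hne

end Cfsg.Agent.S0672
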