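import Cfsg.Statements.S0676
import Mathlib
import Cfsg.Agent.Lib.helper29.PrimeDeg
import Cfsg.Agent.S0675

set_option autoImplicit false
open Cfsg

namespace Cfsg.Agent.S0676

open Cfsg.Agent.Lib.helper29

theorem three_trans {α : Type*} [Fintype α] [DecidableEq α] {p : ℕ} [Fact p.Prime] (hp2 : p ≠ 2)
    (hα : Fintype.card α = p) (G : Subgroup (Equiv.Perm α)) [MulAction.IsPretransitive G α]
    (t τ : G) (e : ZMod p ≃ α) (het : ∀ j, (t : Equiv.Perm α) (e j) = e (j + 1))
    (heτ : ∀ j, (τ : Equiv.Perm α) (e j) = e (-j))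
    (h2t : MulAction.IsMultiplyPretransitive G α 2)
    (hheart : ∀ W : Subrepresentation (Cfsg.permRep (ZMod p) G α),
      (Cfsg.permConstants (ZMod p) G α).toSubmodule ≤ W.toSubmodule →
      W.toSubmodule ≤ (Cfsg.permSumZero (ZMod p) G α).toSubmodule →
      W = Cfsg.permConstants (ZMod p) G α ∨ W = Cfsg.permSumZero (ZMod p) G α) :
    MulAction.IsMultiplyPretransitive G α 3 := by
  have hp : p.Prime := Fact.out
  have h2ne : (2 : ZMod p) ≠ 0 := by
    intro h
    have h' : ((2 : ℕ) : ZMod p) = 0 := by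
      rw [← h]
      norm_num
    rw [ZMod.natCast_eq_zero_iff] at h'
    have := Nat.le_of_dvd (by norm_num) h'
    have := hp.two_le
    omega
  have h1ne : (1 : ZMod p) ≠ 0 := one_ne_zero
  have hm1 : (-1 : ZMod p) ≠ 0 := neg_ne_zero.mpr h1ne
  have h1m1 : (1 : ZMod p) ≠ -1 := by
    intro h
    apply h2ne
    have h' : (2 : ZMod p) = 1 - (-1) := by norm_num
    rw [h', ← h, sub_self]
  have htinv : ∀ k, t⁻¹ • e k = e (k - 1) := by
    intro k
    rw [inv_smul_eq_iff]
    change _ = (t : Equiv.Perm α) (e (k - 1))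
    rw [het, sub_add_cancel]
  have hτinv : ∀ k, τ⁻¹ • e k = e (-k) := by
    intro k
    rw [inv_smul_eq_iff]
    change _ = (τ : Equiv.Perm α) (e (-k))
    rw [heτ, neg_neg]
  obtain ⟨O, hO⟩ : ∃ O : α → α → α → Prop, ∀ c a b, O c a b ↔ ∃ g : G, g • e 0 = c ∧
      ((g • e 1 = a ∧ g • e (-1) = b) ∨ (g • e 1 = b ∧ g • e (-1) = a)) :=
    ⟨_, fun _ _ _ => Iff.rfl⟩
  have hO1 : ∀ c a b, O c a b → O c b a := by
    intro c a b h
    rw [hO] at h ⊢
    obtain ⟨g, hc, h | h⟩ := h
    · exact ⟨g, hc, Or.inr h⟩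
    · exact ⟨g, hc, Or.inl h⟩
  have hO2 : ∀ (g : G) c a b, O c a b → O (g • c) (g • a) (g • b) := by
    intro g c a b h
    rw [hO] at h ⊢
    obtain ⟨g₀, hc, h | h⟩ := h
    · exact ⟨g * g₀, by rw [mul_smul, hc],
        Or.inl ⟨by rw [mul_smul, h.1], by rw [mul_smul, h.2]⟩⟩
    · exact ⟨g * g₀, by rw [mul_smul, hc],
        Or.inr ⟨by rw [mul_smul, h.1], by rw [mul_smul, h.2]⟩⟩
  have hO3 : ∀ c a b, O c a b → c ≠ a ∧ c ≠ b := by
    intro c a b h
    rw [hO] at h
    obtain ⟨g, hc, h | h⟩ := h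
    · constructor
      · rw [← hc, ← h.1]
        intro h'
        exact h1ne (e.injective (MulAction.injective g h')).symm
      · rw [← hc, ← h.2]
        intro h'
        exact hm1 (e.injective (MulAction.injective g h')).symm
    · constructor
      · rw [← hc, ← h.2]
        intro h'
        exact hm1 (e.injective (MulAction.injective g h')).symm
      · rw [← hc, ← h.1]
        intro h'
        exact h1ne (e.injective (MulAction.injective g h')).symm
  obtain ⟨w, hw1, hw0⟩ : ∃ w : α → α → α → ZMod p, (∀ c a b, O c a b → w c a b = 1) ∧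
      (∀ c a b, ¬ O c a b → w c a b = 0) := by
    classical
    exact ⟨fun c a b => if O c a b then 1 else 0, fun c a b h => if_pos h,
      fun c a b h => if_neg h⟩
  have hwsym : ∀ c a b, w c a b = w c b a := by
    intro c a b
    by_cases h : O c a b
    · rw [hw1 _ _ _ h, hw1 _ _ _ (hO1 _ _ _ h)]
    · have h' : ¬ O c b a := fun h' => h (hO1 _ _ _ h')
      rw [hw0 _ _ _ h, hw0 _ _ _ h']
  have hwinv : ∀ (g : G) c a b, w (g • c) (g • a) (g • b) = w c a b := by
    intro g c a b
    by_cases h : O c a b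
    · rw [hw1 _ _ _ h, hw1 _ _ _ (hO2 g _ _ _ h)]
    · have h' : ¬ O (g • c) (g • a) (g • b) := by
        intro h'
        apply h
        have := hO2 g⁻¹ _ _ _ h'
        rwa [inv_smul_smul, inv_smul_smul, inv_smul_smul] at this
      rw [hw0 _ _ _ h, hw0 _ _ _ h']
  obtain ⟨ψ, hψ⟩ : ∃ ψ : (α → ZMod p) →ₗ[ZMod p] (α × α → ZMod p), ∀ v ab,
      ψ v ab = ∑ c, w c ab.1 ab.2 * (v c - (v ab.1 + v ab.2) * 2⁻¹) := by
    refine ⟨{ toFun := fun v ab => ∑ c, w c ab.1 ab.2 * (v c - (v ab.1 + v ab.2) * 2⁻¹),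
              map_add' := ?_, map_smul' := ?_ }, fun _ _ => rfl⟩
    · intro v₁ v₂
      funext ab
      simp only [Pi.add_apply]
      rw [← Finset.sum_add_distrib]
      apply Finset.sum_congr rfl
      intro c _
      ring
    · intro k v
      funext ab
      simp only [Pi.smul_apply, smul_eq_mul, RingHom.id_apply]
      rw [Finset.mul_sum]
      apply Finset.sum_congr rfl
      intro c _
      ring
  have hequiv : ∀ (g : G) (v : α → ZMod p) (a b : α),
      ψ (Cfsg.permRep (ZMod p) G α g v) (a, b) = ψ v (g⁻¹ • a, g⁻¹ • b) := by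
    intro g v a b
    rw [hψ, hψ]
    have hρ : ∀ y, Cfsg.permRep (ZMod p) G α g v y = v (g⁻¹ • y) := fun _ => rfl
    simp only [hρ]
    rw [← Equiv.sum_comp (MulAction.toPerm g⁻¹)
      (fun c => w c (g⁻¹ • a) (g⁻¹ • b) * (v c - (v (g⁻¹ • a) + v (g⁻¹ • b)) * 2⁻¹))]
    apply Finset.sum_congr rfl
    intro c _
    simp only [MulAction.toPerm_apply]
    rw [hwinv]
  obtain ⟨W, hW⟩ : ∃ W : Subrepresentation (Cfsg.permRep (ZMod p) G α),
      W.toSubmodule = LinearMap.ker ψ ⊓ (Cfsg.permSumZero (ZMod p) G α).toSubmodule := by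
    refine ⟨{ toSubmodule := LinearMap.ker ψ ⊓ (Cfsg.permSumZero (ZMod p) G α).toSubmodule,
              apply_mem_toSubmodule := ?_ }, rfl⟩
    intro g v hv
    refine ⟨?_, (Cfsg.permSumZero (ZMod p) G α).apply_mem_toSubmodule g hv.2⟩
    have hv1 : ψ v = 0 := hv.1
    change ψ (Cfsg.permRep (ZMod p) G α g v) = 0
    funext ab
    obtain ⟨a, b⟩ := ab
    rw [hequiv, hv1]
    rfl
  have hone_ker : ψ (fun _ => 1) = 0 := by
    funext ab
    rw [hψ]
    apply Finset.sum_eq_zero
    intro c _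
    have : (1 : ZMod p) - (1 + 1) * 2⁻¹ = 0 := by
      have h : (1 : ZMod p) + 1 = 2 := by norm_num
      rw [h, mul_inv_cancel₀ h2ne, sub_self]
    rw [this, mul_zero]
  have hone_S : (fun _ : α => (1 : ZMod p)) ∈ (Cfsg.permSumZero (ZMod p) G α).toSubmodule := by
    change ∑ _x : α, (1 : ZMod p) = 0
    rw [Finset.sum_const, Finset.card_univ, hα, nsmul_eq_mul, mul_one, CharP.cast_eq_zero]
  have hCW : (Cfsg.permConstants (ZMod p) G α).toSubmodule ≤ W.toSubmodule := by
    rw [hW]
    change Submodule.span (ZMod p) {fun _ : α => (1 : ZMod p)} ≤ _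
    rw [Submodule.span_singleton_le_iff_mem]
    exact ⟨hone_ker, hone_S⟩
  have hWS : W.toSubmodule ≤ (Cfsg.permSumZero (ZMod p) G α).toSubmodule := by
    rw [hW]
    exact inf_le_right
  obtain ⟨x, hx⟩ : ∃ x : α → ZMod p, ∀ j, x (e j) = j :=
    ⟨fun a => e.symm a, fun j => e.symm_apply_apply j⟩
  have hxS : x ∈ (Cfsg.permSumZero (ZMod p) G α).toSubmodule := by
    change ∑ a, x a = 0
    rw [← Equiv.sum_comp e x]
    simp only [hx]
    have h1 : ∑ j : ZMod p, j = ∑ j : ZMod p, -j :=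
      (Equiv.sum_comp (Equiv.neg (ZMod p)) (fun j => j)).symm
    rw [Finset.sum_neg_distrib] at h1
    have h2 : (∑ j : ZMod p, j) * 2 = 0 := by
      rw [mul_two]
      nth_rewrite 2 [h1]
      exact add_neg_cancel _
    rcases mul_eq_zero.mp h2 with h | h
    · exact h
    · exact absurd h h2ne
  have hFsym : ∀ a b, ψ x (a, b) = ψ x (b, a) := by
    intro a b
    rw [hψ, hψ]
    apply Finset.sum_congr rfl
    intro c _
    simp only
    rw [hwsym c a b, add_comm (x a) (x b)]
  have hFt : ∀ i j : ZMod p, ψ x (e (i - 1), e (j - 1)) = ψ x (e i, e j) := by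
    intro i j
    have h1 : Cfsg.permRep (ZMod p) G α t x = x - fun _ => 1 := by
      funext a
      obtain ⟨k, rfl⟩ := e.surjective a
      change x (t⁻¹ • e k) = x (e k) - 1
      rw [htinv, hx, hx]
    have h2 := hequiv t x (e i) (e j)
    rw [h1, map_sub, hone_ker, sub_zero, htinv, htinv] at h2
    exact h2.symm
  have hFshift : ∀ (n : ℕ) (i j : ZMod p), ψ x (e (i - n), e (j - n)) = ψ x (e i, e j) := by
    intro n
    induction n with
    | zero =>
      intro i j
      simp
    | succ n ih =>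
      intro i j
      rw [Nat.cast_succ, ← sub_sub, ← sub_sub, hFt, ih]
  have hFτ : ∀ i j : ZMod p, ψ x (e (-i), e (-j)) = - ψ x (e i, e j) := by
    intro i j
    have h1 : Cfsg.permRep (ZMod p) G α τ x = -x := by
      funext a
      obtain ⟨k, rfl⟩ := e.surjective a
      change x (τ⁻¹ • e k) = - x (e k)
      rw [hτinv, hx, hx]
    have h2 := hequiv τ x (e i) (e j)
    rw [h1, map_neg, hτinv, hτinv] at h2
    exact h2.symm
  have hxker : ψ x = 0 := by
    funext ab
    obtain ⟨a, b⟩ := ab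
    obtain ⟨i, rfl⟩ := e.surjective a
    obtain ⟨j, rfl⟩ := e.surjective b
    have h1 := hFshift (i + j).val i j
    rw [ZMod.natCast_zmod_val] at h1
    have h2 : i - (i + j) = -j := by ring
    have h3 : j - (i + j) = -i := by ring
    rw [h2, h3, hFτ, hFsym] at h1
    have h4 : ψ x (e i, e j) * 2 = 0 := by
      rw [mul_two]
      nth_rewrite 1 [← h1]
      exact neg_add_cancel _
    rcases mul_eq_zero.mp h4 with h | h
    · exact h
    · exact absurd h h2ne
  have hWeq : W = Cfsg.permSumZero (ZMod p) G α := by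
    rcases hheart W hCW hWS with h | h
    · exfalso
      have hxW : x ∈ W.toSubmodule := by
        rw [hW]
        exact ⟨hxker, hxS⟩
      rw [h] at hxW
      have hxW' : x ∈ Submodule.span (ZMod p) {fun _ : α => (1 : ZMod p)} := hxW
      rw [Submodule.mem_span_singleton] at hxW'
      obtain ⟨c, hc⟩ := hxW'
      have h0 := congrFun hc (e 0)
      have h1 := congrFun hc (e 1)
      rw [hx] at h0 h1
      have h0' : c * 1 = 0 := h0
      have h1' : c * 1 = 1 := h1
      rw [h0'] at h1'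
      exact h1ne h1'.symm
    · exact h
  have hSker : ∀ v ∈ (Cfsg.permSumZero (ZMod p) G α).toSubmodule, ψ v = 0 := by
    intro v hv
    rw [← hWeq, hW] at hv
    exact hv.1
  have hclos : ∀ c c' a b, c ≠ a → c ≠ b → c' ≠ a → c' ≠ b → w c a b = w c' a b := by
    intro c c' a b hca hcb hc'a hc'b
    obtain ⟨v, hv⟩ : ∃ v : α → ZMod p, v = Pi.single c 1 - Pi.single c' 1 := ⟨_, rfl⟩
    have hvS : v ∈ (Cfsg.permSumZero (ZMod p) G α).toSubmodule := by
      change ∑ y, v y = 0
      rw [hv]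
      simp [Finset.sum_sub_distrib]
    have h1 := congrFun (hSker v hvS) (a, b)
    rw [hψ] at h1
    have hva : v a = 0 := by
      rw [hv]
      simp [Pi.single_apply, hca.symm, hc'a.symm]
    have hvb : v b = 0 := by
      rw [hv]
      simp [Pi.single_apply, hcb.symm, hc'b.symm]
    simp only [hva, hvb, add_zero, zero_mul, sub_zero] at h1
    rw [hv] at h1
    simp only [Pi.sub_apply, mul_sub, Finset.sum_sub_distrib, Pi.single_apply, mul_ite, mul_one,
      mul_zero, Finset.sum_ite_eq', Finset.mem_univ, if_true] at h1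
    exact sub_eq_zero.mp h1
  have hbase : O (e 0) (e 1) (e (-1)) :=
    (hO _ _ _).mpr ⟨1, one_smul _ _, Or.inl ⟨one_smul _ _, one_smul _ _⟩⟩
  have hall : ∀ c a b, c ≠ a → c ≠ b → a ≠ b → O c a b := by
    intro c a b hca hcb hab
    have h2t' : ∀ a b c d : α, a ≠ b → c ≠ d → ∃ g : G, g • a = c ∧ g • b = d :=
      fun a b c d h h' => MulAction.is_two_pretransitive_iff.mp h2t h h'
    obtain ⟨g, hga, hgb⟩ := h2t' (e 1) (e (-1)) a b (fun h => h1m1 (e.injective h)) hab
    have h1 := hO2 g _ _ _ hbase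
    rw [hga, hgb] at h1
    have h2 := hO3 _ _ _ h1
    have h3 := hclos c (g • e 0) a b hca hcb h2.1 h2.2
    rw [hw1 _ _ _ h1] at h3
    by_contra hnot
    rw [hw0 _ _ _ hnot] at h3
    exact h1ne h3.symm
  have hex : ∀ c a b, c ≠ a → c ≠ b → a ≠ b →
      ∃ g : G, g • e 0 = c ∧ g • e 1 = a ∧ g • e (-1) = b := by
    intro c a b hca hcb hab
    have h := (hO _ _ _).mp (hall c a b hca hcb hab)
    obtain ⟨g, hc, h | h⟩ := h
    · exact ⟨g, hc, h.1, h.2⟩
    · have e0 : τ • e 0 = e 0 := by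
        change (τ : Equiv.Perm α) (e 0) = e 0
        rw [heτ, neg_zero]
      have e1 : τ • e 1 = e (-1) := heτ 1
      have e2 : τ • e (-1) = e 1 := by
        change (τ : Equiv.Perm α) (e (-1)) = e 1
        rw [heτ, neg_neg]
      refine ⟨g * τ, ?_, ?_, ?_⟩
      · rw [mul_smul, e0, hc]
      · rw [mul_smul, e1, h.2]
      · rw [mul_smul, e2, h.1]
  rw [MulAction.isMultiplyPretransitive_iff]
  intro u v
  obtain ⟨g₁, h10, h11, h12⟩ := hex (u 0) (u 1) (u 2) (u.injective.ne (by decide))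
    (u.injective.ne (by decide)) (u.injective.ne (by decide))
  obtain ⟨g₂, h20, h21, h22⟩ := hex (v 0) (v 1) (v 2) (v.injective.ne (by decide))
    (v.injective.ne (by decide)) (v.injective.ne (by decide))
  refine ⟨g₂ * g₁⁻¹, ?_⟩
  ext i
  fin_cases i
  · change (g₂ * g₁⁻¹) • u 0 = v 0
    rw [mul_smul, ← h10, inv_smul_smul, h20]
  · change (g₂ * g₁⁻¹) • u 1 = v 1
    rw [mul_smul, ← h11, inv_smul_smul, h21]
  · change (g₂ * g₁⁻¹) • u 2 = v 2
    rw [mul_smul, ← h12, inv_smul_smul, h22]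


/-- A non-solvable transitive permutation group of prime degree `p` whose Sylow `p`-normaliser has even order is triply transitive. -/
theorem result {α : Type*} [Fintype α] [DecidableEq α] {p : ℕ} [Fact p.Prime] (hα : Fintype.card α = p) (G : Subgroup (Equiv.Perm α)) [MulAction.IsPretransitive G α] (hG : ¬ Group.IsSolvable G) (P : Sylow p G) (heven : Even (Nat.card (Subgroup.normalizer ((P : Subgroup G) : Set G)))) : MulAction.IsMultiplyPretransitive G α 3 := by
  have hp : p.Prime := Fact.out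
  have hp2 : p ≠ 2 := by
    rintro rfl
    apply hG
    haveI := Cfsg.Agent.S0675.solvable_small (α := α) (by omega)
    infer_instance
  obtain ⟨t, σ, ht, hσ, k, hk⟩ := exists_t_sigma hα G P heven
  have ht' : orderOf (t : Equiv.Perm α) = p := by
    rw [Subgroup.orderOf_coe]
    exact ht
  have hσ' : orderOf (σ : Equiv.Perm α) = 2 := by
    rw [Subgroup.orderOf_coe]
    exact hσ
  have hk' : (σ : Equiv.Perm α) * t * (σ : Equiv.Perm α)⁻¹ = (t : Equiv.Perm α) ^ k := by
    have := congrArg Subtype.val hk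
    simpa using this
  obtain ⟨e, het, heσ⟩ := exists_coords hp2 hα (t : Equiv.Perm α) σ ht' hσ' k hk'
  rcases affine_or_two_trans (K := ZMod p) hp2 hα G (t : Equiv.Perm α) t.2 e het with
    h | ⟨h2t, hheart⟩
  · exact absurd (Cfsg.Agent.S0674.solvable_of_affine G e h) hG
  · exact three_trans hp2 hα G t σ e het heσ h2t hheart

end Cfsg.Agent.S0676
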