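import Cfsg.Statements.S0677
import Mathlib
import Cfsg.Agent.Lib.helper29.PrimeDeg

set_option autoImplicit false
open Cfsg

namespace Cfsg.Agent.S0677

open Cfsg.Agent.Lib.helper29

theorem even_card_of_involution {X : Type*} [DecidableEq X] (s : Finset X) (ι : X → X)
    (hmem : ∀ x ∈ s, ι x ∈ s) (hne : ∀ x ∈ s, ι x ≠ x) (hinv : ∀ x ∈ s, ι (ι x) = x) :
    Even s.card := by
  have h := Finset.sum_involution (s := s) (f := fun _ => (1 : ZMod 2)) (fun a _ => ι a)
    (fun a ha => by decide) (fun a ha _ => hne a ha) (fun a ha => hmem a ha)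
    (fun a ha => hinv a ha)
  rw [Finset.sum_const, nsmul_eq_mul, mul_one, ZMod.natCast_eq_zero_iff] at h
  exact even_iff_two_dvd.mpr h

theorem diffset_parity {p : ℕ} [Fact p.Prime] (hp2 : p ≠ 2) (D : Finset (ZMod p))
    (hneg : ∀ d ∈ D, -d ∈ D)
    (hconst : ∀ a b a' b' : ZMod p, a ≠ b → a' ≠ b' →
      (Finset.univ.filter (fun x => a - x ∈ D ∧ b - x ∈ D)).card =
      (Finset.univ.filter (fun x => a' - x ∈ D ∧ b' - x ∈ D)).card) :
    (∀ y : ZMod p, y ≠ 0 → y ∈ D) ∨ (∀ y : ZMod p, y ≠ 0 → y ∉ D) := by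
  have hp : p.Prime := Fact.out
  have h2ne : (2 : ZMod p) ≠ 0 := by
    intro h
    have h' : ((2 : ℕ) : ZMod p) = 0 := by
      rw [← h]
      norm_num
    rw [ZMod.natCast_eq_zero_iff] at h'
    have := Nat.le_of_dvd (by norm_num) h'
    have := hp.two_le
    omega
  have key : ∀ y : ZMod p, y ≠ 0 →
      (y ∈ D ↔ Odd (Finset.univ.filter (fun x => 2 * y - x ∈ D ∧ 0 - x ∈ D)).card) := by
    intro y hy
    obtain ⟨R, hR⟩ : ∃ R : Finset (ZMod p),
        R = Finset.univ.filter (fun x => 2 * y - x ∈ D ∧ 0 - x ∈ D) := ⟨_, rfl⟩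
    rw [← hR]
    have hmemR : ∀ x, x ∈ R ↔ (2 * y - x ∈ D ∧ 0 - x ∈ D) := by
      intro x
      rw [hR]
      simp
    have hev : Even (R.erase y).card := by
      apply even_card_of_involution (R.erase y) (fun x => 2 * y - x)
      · intro x hx
        rw [Finset.mem_erase] at hx ⊢
        obtain ⟨hxy, hxR⟩ := hx
        rw [hmemR] at hxR ⊢
        refine ⟨?_, ?_, ?_⟩
        · intro h
          apply hxy
          have h' : x = 2 * y - (2 * y - x) := by ring
          rw [h', h]
          ring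
        · have h1 := hneg _ hxR.2
          have h' : 2 * y - (2 * y - x) = -(0 - x) := by ring
          rw [h']
          exact h1
        · have h1 := hneg _ hxR.1
          have h' : 0 - (2 * y - x) = -(2 * y - x) := by ring
          rw [h']
          exact h1
      · intro x hx h
        rw [Finset.mem_erase] at hx
        apply hx.1
        have h' : 2 * (y - x) = 0 := by linear_combination h
        rcases mul_eq_zero.mp h' with h'' | h''
        · exact absurd h'' h2ne
        · exact (sub_eq_zero.mp h'').symm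
      · intro x _
        ring
    constructor
    · intro hyD
      have hyR : y ∈ R := by
        rw [hmemR]
        refine ⟨?_, ?_⟩
        · have h' : 2 * y - y = y := by ring
          rw [h']
          exact hyD
        · have h' : 0 - y = -y := by ring
          rw [h']
          exact hneg y hyD
      have h1 := Finset.card_erase_add_one hyR
      rw [← h1]
      exact hev.add_one
    · intro hodd
      by_contra hyD
      have hyR : y ∉ R := by
        rw [hmemR]
        intro h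
        apply hyD
        have h' : 2 * y - y = y := by ring
        rw [h'] at h
        exact h.1
      rw [Finset.erase_eq_of_notMem hyR] at hev
      exact (Nat.not_even_iff_odd.mpr hodd) hev
  by_cases h1 : (1 : ZMod p) ∈ D
  · left
    intro y hy
    rw [key y hy]
    have h2 := (key 1 one_ne_zero).mp h1
    rw [hconst (2 * y) 0 (2 * 1) 0 (mul_ne_zero h2ne hy) (mul_ne_zero h2ne one_ne_zero)]
    exact h2
  · right
    intro y hy hyD
    apply h1
    rw [key 1 one_ne_zero]
    have h2 := (key y hy).mp hyD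
    rw [hconst (2 * 1) 0 (2 * y) 0 (mul_ne_zero h2ne one_ne_zero) (mul_ne_zero h2ne hy)]
    exact h2

theorem smul_pow_coord {α : Type*} {p : ℕ} (G : Subgroup (Equiv.Perm α)) (t : G) (e : ZMod p ≃ α)
    (het : ∀ j, (t : Equiv.Perm α) (e j) = e (j + 1)) (n : ℕ) (j : ZMod p) :
    (t ^ n) • e j = e (j + n) := by
  have h := pow_apply_coord (t : Equiv.Perm α) e het n j
  rw [← h]
  rfl

theorem ext_coord {α : Type*} {p : ℕ} (G : Subgroup (Equiv.Perm α)) (e : ZMod p ≃ α)
    (g₁ g₂ : G) (h : ∀ j, g₁ • e j = g₂ • e j) : g₁ = g₂ := by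
  apply Subtype.ext
  apply Equiv.ext
  intro x
  obtain ⟨j, rfl⟩ := e.surjective x
  exact h j

theorem pow_card_coord {α : Type*} {p : ℕ} (G : Subgroup (Equiv.Perm α)) (t : G) (e : ZMod p ≃ α)
    (het : ∀ j, (t : Equiv.Perm α) (e j) = e (j + 1)) : t ^ p = 1 := by
  apply ext_coord G e
  intro j
  rw [smul_pow_coord G t e het, one_smul, ZMod.natCast_self, add_zero]

theorem pow_mem_index_p {α : Type*} [Fintype α] [DecidableEq α] {p : ℕ} [Fact p.Prime]
    (hα : Fintype.card α = p) (G : Subgroup (Equiv.Perm α)) (t : G) (e : ZMod p ≃ α)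
    (het : ∀ j, (t : Equiv.Perm α) (e j) = e (j + 1)) (H : Subgroup G) (hH : H.index = p)
    (n : ℕ) (hn : t ^ n ∈ H) : (n : ZMod p) = 0 := by
  have hp : p.Prime := Fact.out
  by_contra hn0
  obtain ⟨m, hm⟩ : ∃ m : ℕ, m = ((n : ZMod p)⁻¹).val := ⟨_, rfl⟩
  have h1 : (t ^ n) ^ m = t := by
    apply ext_coord G e
    intro j
    rw [← pow_mul, smul_pow_coord G t e het]
    have h2 : (t • e j) = e (j + 1) := het j
    rw [h2, Nat.cast_mul, hm, ZMod.natCast_zmod_val, mul_inv_cancel₀ hn0]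
  have htH : t ∈ H := by
    rw [← h1]
    exact H.pow_mem hn m
  have htp : t ^ p = 1 := pow_card_coord G t e het
  have ht1 : t ≠ 1 := by
    intro h
    have h2 : t • e 0 = e (0 + 1) := het 0
    rw [h, one_smul, zero_add] at h2
    exact zero_ne_one (e.injective h2)
  have hord : orderOf t = p := orderOf_eq_prime htp ht1
  have hdvd : p ∣ Nat.card H := by
    have h3 : orderOf (⟨t, htH⟩ : H) = p := by
      rw [← hord]
      exact Subgroup.orderOf_mk t htH
    rw [← h3]
    exact orderOf_dvd_natCard _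
  apply sq_not_dvd_card hα G
  rw [← Subgroup.index_mul_card H, hH]
  exact Nat.mul_dvd_mul_left p hdvd

theorem fix_of_affine {α : Type*} [Fintype α] [DecidableEq α] {p : ℕ} [Fact p.Prime]
    (hα : Fintype.card α = p) (G : Subgroup (Equiv.Perm α)) (t : G) (e : ZMod p ≃ α)
    (het : ∀ j, (t : Equiv.Perm α) (e j) = e (j + 1))
    (haff : ∀ g : G, ∃ A B : ZMod p, ∀ j,
      (ZMod.cast (e.symm ((g : Equiv.Perm α) (e j))) : ZMod p) = A * ZMod.cast j + B)
    (H : Subgroup G) (hH : H.index = p) : ∃ a : α, ∀ h ∈ H, h • a = a := by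
  have hpow := smul_pow_coord G t e het
  have hTn := pow_mem_index_p hα G t e het H hH
  have haff' : ∀ g : G, ∃ A B : ZMod p, ∀ j, g • e j = e (A * j + B) := by
    intro g
    obtain ⟨A, B, hAB⟩ := haff g
    refine ⟨A, B, fun j => ?_⟩
    have h1 := hAB j
    rw [ZMod.cast_id'] at h1
    simp only [id] at h1
    rw [← h1, Equiv.apply_symm_apply]
    rfl
  by_cases htriv : ∀ h ∈ H, h = 1
  · exact ⟨e 0, fun h hh => by rw [htriv h hh, one_smul]⟩
  push Not at htriv
  obtain ⟨h₁, hh₁, hne⟩ := htriv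
  obtain ⟨A₁, B₁, hAB₁⟩ := haff' h₁
  have hA₁ : A₁ ≠ 1 := by
    intro hA
    have h1 : h₁ = t ^ B₁.val := by
      apply ext_coord G e
      intro j
      rw [hAB₁, hpow, hA, one_mul, ZMod.natCast_zmod_val]
    have h2 := hTn B₁.val (h1 ▸ hh₁)
    rw [ZMod.natCast_zmod_val] at h2
    apply hne
    apply ext_coord G e
    intro j
    rw [hAB₁, hA, h2, one_mul, add_zero, one_smul]
  have hA₁' : 1 - A₁ ≠ 0 := sub_ne_zero.mpr (Ne.symm hA₁)
  obtain ⟨x₁, hx₁⟩ : ∃ x₁ : ZMod p, x₁ = B₁ * (1 - A₁)⁻¹ := ⟨_, rfl⟩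
  have hx₁' : x₁ * (1 - A₁) = B₁ := by
    rw [hx₁, mul_assoc, inv_mul_cancel₀ hA₁', mul_one]
  refine ⟨e x₁, ?_⟩
  intro h hh
  obtain ⟨A, B, hAB⟩ := haff' h
  have hcomm : A₁ * B + B₁ = A * B₁ + B := by
    obtain ⟨n, hn⟩ : ∃ n : ℕ, n = ((A₁ * B + B₁) - (A * B₁ + B)).val := ⟨_, rfl⟩
    have h1 : h₁ * h = t ^ n * (h * h₁) := by
      apply ext_coord G e
      intro j
      rw [mul_smul, mul_smul, mul_smul, hAB, hAB₁, hAB₁, hAB, hpow, hn, ZMod.natCast_zmod_val]
      congr 1
      ring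
    have h2 : t ^ n ∈ H := by
      have h3 : t ^ n = h₁ * h * (h * h₁)⁻¹ := by
        rw [h1]
        group
      rw [h3]
      exact H.mul_mem (H.mul_mem hh₁ hh) (H.inv_mem (H.mul_mem hh hh₁))
    have h3 := hTn n h2
    rw [hn, ZMod.natCast_zmod_val] at h3
    exact sub_eq_zero.mp h3
  have h4 : (A * x₁ + B) * (1 - A₁) = B₁ := by linear_combination A * hx₁' - hcomm
  have h5 : A * x₁ + B = x₁ := by
    have h6 : (A * x₁ + B) * (1 - A₁) = x₁ * (1 - A₁) := by rw [h4, hx₁']
    exact mul_right_cancel₀ hA₁' h6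
  rw [hAB, h5]

theorem fix_of_two_trans {α : Type*} [Fintype α] [DecidableEq α] {p : ℕ} [Fact p.Prime]
    (hp2 : p ≠ 2) (hα : Fintype.card α = p) (G : Subgroup (Equiv.Perm α))
    (h2t : MulAction.IsMultiplyPretransitive G α 2)
    (t σ : G) (e : ZMod p ≃ α) (het : ∀ j, (t : Equiv.Perm α) (e j) = e (j + 1))
    (heσ : ∀ j, (σ : Equiv.Perm α) (e j) = e (-j))
    (H : Subgroup G) (hH : H.index = p) (hσH : σ ∈ H) : ∀ h ∈ H, h • e 0 = e 0 := by
  have hp : p.Prime := Fact.out
  have hpow := smul_pow_coord G t e het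
  have hTn := pow_mem_index_p hα G t e het H hH
  have htp : t ^ p = 1 := pow_card_coord G t e het
  have hcos : ∀ x y : ZMod p, (t ^ y.val)⁻¹ * t ^ x.val ∈ H → x = y := by
    intro x y h
    have hy : y.val ≤ p := (ZMod.val_lt y).le
    have h1 : (t ^ y.val)⁻¹ = t ^ (p - y.val) := by
      apply inv_eq_of_mul_eq_one_left
      rw [← pow_add, Nat.sub_add_cancel hy, htp]
    rw [h1, ← pow_add] at h
    have h2 := hTn _ h
    rw [Nat.cast_add, Nat.cast_sub hy, ZMod.natCast_self, ZMod.natCast_zmod_val,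
      ZMod.natCast_zmod_val, zero_sub] at h2
    linear_combination h2
  have hdec : ∀ g : G, ∃ y : ZMod p, (t ^ y.val)⁻¹ * g ∈ H := by
    obtain ⟨φ, hφ⟩ : ∃ φ : ZMod p → G ⧸ H, ∀ y, φ y = QuotientGroup.mk (t ^ y.val) :=
      ⟨_, fun _ => rfl⟩
    have hinj : Function.Injective φ := by
      intro x y hxy
      rw [hφ, hφ, QuotientGroup.eq] at hxy
      exact (hcos y x hxy).symm
    have hbij : Function.Bijective φ := by
      apply hinj.bijective_of_nat_card_le
      rw [← Subgroup.index_eq_card, hH, Nat.card_eq_fintype_card, ZMod.card]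
    intro g
    obtain ⟨y, hy⟩ := hbij.2 (QuotientGroup.mk g)
    rw [hφ, QuotientGroup.eq] at hy
    exact ⟨y, hy⟩
  obtain ⟨D, hD⟩ : ∃ D : Finset (ZMod p), ∀ j, j ∈ D ↔ ∃ h ∈ H, h • e 0 = e j := by
    classical
    exact ⟨Finset.univ.filter (fun j => ∃ h ∈ H, h • e 0 = e j), by simp⟩
  have h0D : (0 : ZMod p) ∈ D := (hD 0).mpr ⟨1, H.one_mem, one_smul _ _⟩
  have hneg : ∀ d ∈ D, -d ∈ D := by
    intro d hd
    obtain ⟨h, hh, hhd⟩ := (hD d).mp hd
    refine (hD _).mpr ⟨σ * h, H.mul_mem hσH hh, ?_⟩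
    rw [mul_smul, hhd]
    exact heσ d
  have hDH : ∀ h ∈ H, ∀ d ∈ D, ∃ d' ∈ D, h • e d = e d' := by
    intro h hh d hd
    obtain ⟨h₀, hh₀, hh₀d⟩ := (hD d).mp hd
    refine ⟨e.symm (h • e d), (hD _).mpr ⟨h * h₀, H.mul_mem hh hh₀, ?_⟩,
      (e.apply_symm_apply _).symm⟩
    rw [mul_smul, hh₀d, Equiv.apply_symm_apply]
  have hπ : ∀ g : G, ∃ π : ZMod p → ZMod p, Function.Injective π ∧
      ∀ x j, j - x ∈ D → ∃ d' ∈ D, g • e j = e (d' + π x) := by
    intro g
    have h1 : ∀ x : ZMod p, ∃ y : ZMod p, (t ^ y.val)⁻¹ * (g * t ^ x.val) ∈ H := fun x => hdec _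
    choose π hπ using h1
    refine ⟨π, ?_, ?_⟩
    · intro x x' hxx'
      have h2 := hπ x
      have h3 := hπ x'
      rw [← hxx'] at h3
      have h4 := H.mul_mem (H.inv_mem h2) h3
      have h5 : ((t ^ (π x).val)⁻¹ * (g * t ^ x.val))⁻¹ * ((t ^ (π x).val)⁻¹ * (g * t ^ x'.val)) =
          (t ^ x.val)⁻¹ * t ^ x'.val := by group
      rw [h5] at h4
      exact (hcos x' x h4).symm
    · intro x j hj
      obtain ⟨d', hd', hd'e⟩ := hDH _ (hπ x) (j - x) hj
      refine ⟨d', hd', ?_⟩
      have h2 : e j = t ^ x.val • e (j - x) := by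
        rw [hpow, ZMod.natCast_zmod_val, sub_add_cancel]
      have h3 : g * t ^ x.val = t ^ (π x).val * ((t ^ (π x).val)⁻¹ * (g * t ^ x.val)) := by group
      rw [h2, ← mul_smul, h3, mul_smul, hd'e, hpow, ZMod.natCast_zmod_val]
  have h2t' : ∀ a b c d : α, a ≠ b → c ≠ d → ∃ g : G, g • a = c ∧ g • b = d :=
    fun a b c d h h' => MulAction.is_two_pretransitive_iff.mp h2t h h'
  have hle : ∀ a b a' b' : ZMod p, a ≠ b → a' ≠ b' →
      (Finset.univ.filter (fun x => a - x ∈ D ∧ b - x ∈ D)).card ≤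
      (Finset.univ.filter (fun x => a' - x ∈ D ∧ b' - x ∈ D)).card := by
    intro a b a' b' hab hab'
    obtain ⟨g, hga, hgb⟩ := h2t' (e a) (e b) (e a') (e b') (fun h => hab (e.injective h))
      (fun h => hab' (e.injective h))
    obtain ⟨π, hπinj, hπ⟩ := hπ g
    apply Finset.card_le_card_of_injOn π
    · intro x hx
      simp only [Finset.coe_filter, Finset.mem_univ, true_and, Set.mem_setOf_eq] at hx ⊢
      obtain ⟨d₁, hd₁, h1⟩ := hπ x a hx.1
      obtain ⟨d₂, hd₂, h2⟩ := hπ x b hx.2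
      rw [hga] at h1
      rw [hgb] at h2
      have e1 : a' - π x = d₁ := by
        rw [e.injective h1]
        ring
      have e2 : b' - π x = d₂ := by
        rw [e.injective h2]
        ring
      rw [e1, e2]
      exact ⟨hd₁, hd₂⟩
    · exact hπinj.injOn
  have hconst : ∀ a b a' b' : ZMod p, a ≠ b → a' ≠ b' →
      (Finset.univ.filter (fun x => a - x ∈ D ∧ b - x ∈ D)).card =
      (Finset.univ.filter (fun x => a' - x ∈ D ∧ b' - x ∈ D)).card :=
    fun a b a' b' h h' => le_antisymm (hle a b a' b' h h') (hle a' b' a b h' h)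
  rcases diffset_parity hp2 D hneg hconst with hall | hnone
  · exfalso
    have horb : MulAction.orbit H (e 0) = Set.univ := by
      apply Set.eq_univ_of_forall
      intro a
      obtain ⟨j, rfl⟩ := e.surjective a
      have hj : j ∈ D := by
        by_cases hj0 : j = 0
        · rw [hj0]
          exact h0D
        · exact hall j hj0
      obtain ⟨h, hh, hhj⟩ := (hD j).mp hj
      exact ⟨⟨h, hh⟩, hhj⟩
    have h1 : (MulAction.stabilizer H (e 0)).index = p := by
      rw [MulAction.index_stabilizer, horb, Set.ncard_univ, Nat.card_eq_fintype_card, hα]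
    have hdvd : p ∣ Nat.card H := by
      rw [← h1]
      exact Subgroup.index_dvd_card _
    apply sq_not_dvd_card hα G
    rw [← Subgroup.index_mul_card H, hH]
    exact Nat.mul_dvd_mul_left p hdvd
  · intro h hh
    obtain ⟨d', hd', hd'e⟩ := hDH h hh 0 h0D
    by_cases hd0 : d' = 0
    · rw [hd'e, hd0]
    · exact absurd hd' (hnone d' hd0)


/-- In a transitive permutation group of prime degree `p` whose Sylow `p`-normaliser has even order, the point stabilisers are the only subgroups of index `p`. -/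
theorem result {α : Type*} [Fintype α] [DecidableEq α] {p : ℕ} [Fact p.Prime] (hα : Fintype.card α = p) (G : Subgroup (Equiv.Perm α)) [MulAction.IsPretransitive G α] (P : Sylow p G) (heven : Even (Nat.card (Subgroup.normalizer ((P : Subgroup G) : Set G)))) (H : Subgroup G) (hH : H.index = p) : ∃ a : α, H = MulAction.stabilizer G a := by
  have hp : p.Prime := Fact.out
  have hclose : ∀ a : α, (∀ h ∈ H, h • a = a) → H = MulAction.stabilizer G a := by
    intro a ha
    have hle : H ≤ MulAction.stabilizer G a :=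
      fun h hh => MulAction.mem_stabilizer_iff.mpr (ha h hh)
    apply Subgroup.eq_of_le_of_card_ge hle
    have h1 := Subgroup.index_mul_card H
    have h2 := Subgroup.index_mul_card (MulAction.stabilizer G a)
    rw [MulAction.index_stabilizer_of_transitive, Nat.card_eq_fintype_card, hα] at h2
    rw [hH] at h1
    have h3 : p * Nat.card H = p * Nat.card (MulAction.stabilizer G a) := by rw [h1, h2]
    exact (Nat.eq_of_mul_eq_mul_left hp.pos h3).ge
  by_cases hp2 : p = 2
  · haveI : Nonempty α := by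
      rw [← Fintype.card_pos_iff, hα]
      exact hp.pos
    obtain ⟨a⟩ := ‹Nonempty α›
    refine ⟨a, hclose a ?_⟩
    have h1 : Nat.card G ∣ Nat.card (Equiv.Perm α) := Subgroup.card_subgroup_dvd_card G
    rw [Nat.card_eq_fintype_card (α := Equiv.Perm α), Fintype.card_perm, hα, hp2] at h1
    have h2 := Subgroup.index_mul_card H
    rw [hH, hp2] at h2
    have h3 : Nat.card H = 1 := by
      rw [← h2] at h1
      have h4 : Nat.factorial 2 = 2 * 1 := rfl
      rw [h4] at h1
      exact Nat.dvd_one.mp (Nat.dvd_of_mul_dvd_mul_left (by norm_num : 0 < 2) h1)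
    intro h hh
    have h6 : H = ⊥ := Subgroup.eq_bot_of_card_eq H h3
    rw [h6, Subgroup.mem_bot] at hh
    rw [hh, one_smul]
  obtain ⟨t, σ, ht, hσ, k, hk⟩ := exists_t_sigma hα G P heven
  have ht' : orderOf (t : Equiv.Perm α) = p := by
    rw [Subgroup.orderOf_coe]
    exact ht
  have hσ' : orderOf (σ : Equiv.Perm α) = 2 := by
    rw [Subgroup.orderOf_coe]
    exact hσ
  have hk' : (σ : Equiv.Perm α) * t * (σ : Equiv.Perm α)⁻¹ = (t : Equiv.Perm α) ^ k := by
    have := congrArg Subtype.val hk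
    simpa using this
  obtain ⟨e, het, heσ⟩ := exists_coords hp2 hα (t : Equiv.Perm α) σ ht' hσ' k hk'
  obtain ⟨g, hg⟩ : ∃ g : G, g⁻¹ * σ * g ∈ H := by
    classical
    by_contra hcon
    push Not at hcon
    haveI : Fintype (G ⧸ H) := Fintype.ofFinite _
    have hσ2 : σ * σ = 1 := by
      rw [← pow_two, ← hσ]
      exact pow_orderOf_eq_one σ
    have hev := even_card_of_involution (Finset.univ : Finset (G ⧸ H)) (fun q => σ • q)
      (fun _ _ => Finset.mem_univ _) (by
        intro q _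
        induction q using QuotientGroup.induction_on with
        | H g =>
          intro h
          apply hcon g
          rw [MulAction.Quotient.smul_mk, QuotientGroup.eq] at h
          have h' : g⁻¹ * σ * g = ((σ • g)⁻¹ * g)⁻¹ := by
            rw [smul_eq_mul]
            group
          rw [h']
          exact H.inv_mem h) (by
        intro q _
        change σ • σ • q = q
        rw [← mul_smul, hσ2, one_smul])
    rw [Finset.card_univ, ← Nat.card_eq_fintype_card, ← Subgroup.index_eq_card, hH] at hev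
    exact hp2 ((Nat.Prime.even_iff hp).mp hev)
  obtain ⟨t', ht'def⟩ : ∃ t' : G, t' = g⁻¹ * t * g := ⟨_, rfl⟩
  obtain ⟨σ', hσ'def⟩ : ∃ σ' : G, σ' = g⁻¹ * σ * g := ⟨_, rfl⟩
  obtain ⟨e', he'⟩ : ∃ e' : ZMod p ≃ α, ∀ j, e' j = g⁻¹ • e j :=
    ⟨e.trans (MulAction.toPerm g⁻¹), fun _ => rfl⟩
  have het' : ∀ j, (t' : Equiv.Perm α) (e' j) = e' (j + 1) := by
    intro j
    change t' • e' j = _
    rw [he', he', ht'def, mul_smul, mul_smul, smul_inv_smul]
    congr 1
    exact het j
  have heσ' : ∀ j, (σ' : Equiv.Perm α) (e' j) = e' (-j) := by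
    intro j
    change σ' • e' j = _
    rw [he', he', hσ'def, mul_smul, mul_smul, smul_inv_smul]
    congr 1
    exact heσ j
  rcases affine_or_two_trans (K := ZMod p) hp2 hα G (t' : Equiv.Perm α) t'.2 e' het' with
    h | ⟨h2t, -⟩
  · obtain ⟨a, ha⟩ := fix_of_affine hα G t' e' het' h H hH
    exact ⟨a, hclose a ha⟩
  · exact ⟨e' 0, hclose _
      (fix_of_two_trans hp2 hα G h2t t' σ' e' het' heσ' H hH (hσ'def ▸ hg))⟩

end Cfsg.Agent.S0677
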