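import Mathlib
import Cfsg.Statements.S0678

set_option autoImplicit false
open Cfsg
open scoped Pointwise

namespace Cfsg.Agent.S0678

set_option synthInstance.maxSize 100000 in
set_option synthInstance.maxHeartbeats 1000000 in
set_option maxRecDepth 100000 in
theorem num : ∀ d < 7, ∀ k < 721, (7 * d * k ∣ 5040 ∧ ¬ 16 ∣ 7 * d * k ∧ ¬ 9 ∣ 7 * d * k ∧ d ∣ 6 ∧
    k % 7 = 1) → (k = 1 ∨ d = 1 ∨ 7 * d * k = 168 ∨ 7 * d * k = 210) := by
  decide +kernel

theorem fact_eq_one {p n : ℕ} (hp : p.Prime) (hn : n ≠ 0) (h1 : p ∣ n) (h2 : ¬ p ^ 2 ∣ n) :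
    n.factorization p = 1 := by
  have a1 : 1 ≤ n.factorization p := (hp.pow_dvd_iff_le_factorization hn).1 (by simpa using h1)
  have a2 : ¬ 2 ≤ n.factorization p := fun h => h2 ((hp.pow_dvd_iff_le_factorization hn).2 h)
  omega

theorem sylow_card_prime {G : Type*} [Group G] [Finite G] {p : ℕ} [hp : Fact p.Prime]
    (P : Sylow p G) (h1 : p ∣ Nat.card G) (h2 : ¬ p ^ 2 ∣ Nat.card G) :
    Nat.card (P : Subgroup G) = p := by
  rw [Sylow.card_eq_multiplicity, fact_eq_one hp.out Nat.card_pos.ne' h1 h2, pow_one]

/-- A subgroup of full `p`-power order contains a conjugate of every element of order `p`. -/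
theorem conj_mem_of_card {G : Type*} [Group G] [Finite G] (p : ℕ) [hp : Fact p.Prime] (c : G)
    (hc : orderOf c = p) (S : Subgroup G)
    (hS : Nat.card S = p ^ (Nat.card G).factorization p) : ∃ g : G, g * c * g⁻¹ ∈ S := by
  have hz : IsPGroup p (Subgroup.zpowers c) := by
    apply IsPGroup.of_card (n := 1)
    rw [Nat.card_zpowers, hc, pow_one]
  obtain ⟨Q, hQ⟩ := hz.exists_le_sylow
  have hcQ : c ∈ (Q : Subgroup G) := hQ (Subgroup.mem_zpowers c)
  obtain ⟨g, hg⟩ := MulAction.exists_smul_eq G Q (Sylow.ofCard S hS)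
  refine ⟨g, ?_⟩
  have h1 : MulAut.conj g • c ∈ MulAut.conj g • (Q : Subgroup G) :=
    Subgroup.smul_mem_pointwise_smul c (MulAut.conj g) (Q : Subgroup G) hcQ
  rw [← Sylow.pointwise_smul_def, ← Sylow.smul_def, hg, Sylow.coe_ofCard] at h1
  simpa [MulAut.smul_def] using h1

theorem seven_dvd {α : Type*} [Fintype α] (hα : Fintype.card α = 7) {K : Type*} [Group K]
    [MulAction K α] [MulAction.IsPretransitive K α] : 7 ∣ Nat.card K := by
  have : Nonempty α := by
    rw [← Fintype.card_pos_iff, hα]; norm_num
  obtain ⟨a⟩ := this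
  have h1 := MulAction.index_stabilizer_of_transitive K a
  have h2 := Subgroup.index_dvd_card (MulAction.stabilizer K a)
  rw [h1, Nat.card_eq_fintype_card, hα] at h2
  exact h2

theorem fact2 : (5040).factorization 2 = 4 := by
  rw [show 5040 = 2 ^ 4 * 315 by norm_num, Nat.factorization_mul (by norm_num) (by norm_num),
    Nat.Prime.factorization_pow Nat.prime_two]
  simp [Nat.factorization_eq_zero_of_not_dvd (show ¬ 2 ∣ 315 by norm_num)]

theorem fact3 : (5040).factorization 3 = 2 := by
  rw [show 5040 = 3 ^ 2 * 560 by norm_num, Nat.factorization_mul (by norm_num) (by norm_num),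
    Nat.Prime.factorization_pow Nat.prime_three]
  simp [Nat.factorization_eq_zero_of_not_dvd (show ¬ 3 ∣ 560 by norm_num)]

theorem no16 {α : Type*} [Fintype α] [DecidableEq α] (hα : Fintype.card α = 7)
    (R : Subgroup (Equiv.Perm α)) [MulAction.IsPretransitive R α]
    (hA : ¬ alternatingGroup α ≤ R) (S : Subgroup (Equiv.Perm α)) (hS : S ≤ R) :
    Nat.card S ≠ 16 := by
  classical
  intro h16
  have hcard : Nat.card (Equiv.Perm α) = 5040 := by
    rw [Nat.card_perm, Nat.card_eq_fintype_card, hα]; rfl
  have : Fact (Nat.Prime 2) := ⟨Nat.prime_two⟩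
  obtain ⟨a, b, hab⟩ := Fintype.one_lt_card_iff.1 (by rw [hα]; norm_num : 1 < Fintype.card α)
  obtain ⟨g, hg⟩ := conj_mem_of_card 2 (Equiv.swap a b)
    (Equiv.Perm.IsSwap.orderOf ⟨a, b, hab, rfl⟩) S (by rw [hcard, fact2, h16]; norm_num)
  rw [← Equiv.swap_apply_apply] at hg
  have h7 : 7 ∣ Nat.card R := seven_dvd hα
  have htop : R = ⊤ := by
    apply Equiv.Perm.subgroup_eq_top_of_swap_mem (τ := Equiv.swap (g a) (g b))
    · rw [hα]; norm_num
    · rw [hα, ← Nat.card_eq_fintype_card]; exact h7
    · exact hS hg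
    · exact ⟨g a, g b, by simpa using hab, rfl⟩
  exact hA (htop ▸ le_top)

theorem no9 {α : Type*} [Fintype α] [DecidableEq α] (hα : Fintype.card α = 7)
    (R : Subgroup (Equiv.Perm α)) [MulAction.IsPretransitive R α]
    (hA : ¬ alternatingGroup α ≤ R) (S : Subgroup (Equiv.Perm α)) (hS : S ≤ R) :
    Nat.card S ≠ 9 := by
  classical
  intro h9
  have hcard : Nat.card (Equiv.Perm α) = 5040 := by
    rw [Nat.card_perm, Nat.card_eq_fintype_card, hα]; rfl
  have : Fact (Nat.Prime 3) := ⟨Nat.prime_three⟩
  obtain ⟨a, b, c, hab, hac, hbc⟩ :=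
    Fintype.two_lt_card_iff.1 (by rw [hα]; norm_num : 2 < Fintype.card α)
  have h3 : (Equiv.swap a b * Equiv.swap a c).IsThreeCycle :=
    Equiv.Perm.isThreeCycle_swap_mul_swap_same hab hac hbc
  obtain ⟨g, hg⟩ := conj_mem_of_card 3 (Equiv.swap a b * Equiv.swap a c)
    h3.orderOf S (by rw [hcard, fact3, h9]; norm_num)
  have h3' : (g * (Equiv.swap a b * Equiv.swap a c) * g⁻¹).IsThreeCycle := by
    unfold Equiv.Perm.IsThreeCycle
    rw [Equiv.Perm.cycleType_conj]
    exact h3
  have hprim : MulAction.IsPreprimitive R α :=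
    MulAction.IsPreprimitive.of_prime_card (by rw [Nat.card_eq_fintype_card, hα]; norm_num)
  exact hA (Equiv.Perm.alternatingGroup_le_of_isPreprimitive_of_isThreeCycle_mem hprim h3' (hS hg))


section abs

variable {α : Type*} [Fintype α] [DecidableEq α] {H : Type*} [Group H] [MulAction H α]
  [FaithfulSMul H α]

theorem card_facts (hα : Fintype.card α = 7) [MulAction.IsPretransitive H α]
    (hA : ¬ alternatingGroup α ≤ (MulAction.toPermHom H α).range) :
    7 ∣ Nat.card H ∧ Nat.card H ∣ 5040 ∧ ¬ 16 ∣ Nat.card H ∧ ¬ 9 ∣ Nat.card H := by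
  have hinj : Function.Injective (MulAction.toPermHom H α) := MulAction.toPerm_injective
  have : Finite H := Finite.of_injective _ hinj
  have hR : MulAction.IsPretransitive (MulAction.toPermHom H α).range α := by
    refine ⟨fun a b => ?_⟩
    obtain ⟨g, hg⟩ := MulAction.exists_smul_eq H a b
    exact ⟨⟨MulAction.toPermHom H α g, g, rfl⟩, hg⟩
  refine ⟨seven_dvd hα, ?_, ?_, ?_⟩
  · have h1 := Subgroup.card_dvd_of_injective _ hinj
    rw [Nat.card_perm, Nat.card_eq_fintype_card (α := α), hα] at h1
    exact h1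
  · intro h16
    have : Fact (Nat.Prime 2) := ⟨Nat.prime_two⟩
    obtain ⟨K, hK⟩ := Sylow.exists_subgroup_card_pow_prime (G := H) 2 (n := 4) (by simpa using h16)
    refine no16 hα _ hA (K.map (MulAction.toPermHom H α)) (Subgroup.map_le_range _ _) ?_
    rw [Subgroup.card_map_of_injective hinj, hK]; norm_num
  · intro h9
    have : Fact (Nat.Prime 3) := ⟨Nat.prime_three⟩
    obtain ⟨K, hK⟩ := Sylow.exists_subgroup_card_pow_prime (G := H) 3 (n := 2) (by simpa using h9)
    refine no9 hα _ hA (K.map (MulAction.toPermHom H α)) (Subgroup.map_le_range _ _) ?_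
    rw [Subgroup.card_map_of_injective hinj, hK]; norm_num

theorem sylow7 (hα : Fintype.card α = 7) [MulAction.IsPretransitive H α]
    (hA : ¬ alternatingGroup α ≤ (MulAction.toPermHom H α).range) [Fact (Nat.Prime 7)]
    (P : Sylow 7 H) :
    Nat.card (P : Subgroup H) = 7 ∧ ∃ d, d ∣ 6 ∧
      Nat.card (Subgroup.normalizer ((P : Subgroup H) : Set H)) = 7 * d ∧
      Group.IsSolvable (Subgroup.normalizer ((P : Subgroup H) : Set H)) := by
  have hinj : Function.Injective (MulAction.toPermHom H α) := MulAction.toPerm_injective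
  have : Finite H := Finite.of_injective _ hinj
  obtain ⟨h7, h5040, -, -⟩ := card_facts hα hA
  have hcP : Nat.card (P : Subgroup H) = 7 := sylow_card_prime P h7 (fun h => by
    have := h.trans h5040; norm_num at this)
  have hcyc : IsCyclic (P : Subgroup H) := isCyclic_of_prime_card hcP
  have hPC : (P : Subgroup H) ≤ Subgroup.centralizer ((P : Subgroup H) : Set H) :=
    Subgroup.le_centralizer _
  have hC : Nat.card (Subgroup.centralizer ((P : Subgroup H) : Set H)) = 7 := by
    have hne : (P : Subgroup H) ≠ ⊥ := by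
      intro h; rw [h, Subgroup.card_bot] at hcP; omega
    obtain ⟨⟨t, htP⟩, ht1⟩ := (Subgroup.ne_bot_iff_exists_ne_one).1 hne
    have ht : orderOf t = 7 := by
      have h1 : orderOf t ∣ 7 := by
        have := orderOf_dvd_natCard (⟨t, htP⟩ : (P : Subgroup H))
        rw [hcP, Subgroup.orderOf_mk] at this
        exact this
      rcases (Nat.dvd_prime (by norm_num : Nat.Prime 7)).1 h1 with h | h
      · exact absurd (Subtype.ext (orderOf_eq_one_iff.1 h)) ht1
      · exact h
    have hσ : orderOf (MulAction.toPermHom H α t) = 7 := by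
      rw [orderOf_injective _ hinj, ht]
    obtain ⟨n, hn⟩ := Equiv.Perm.cycleType_prime_order (σ := MulAction.toPermHom H α t)
      (by rw [hσ]; norm_num)
    rw [hσ] at hn
    have hsum : (MulAction.toPermHom H α t).cycleType.sum ≤ 7 := by
      rw [Equiv.Perm.sum_cycleType, ← hα]
      exact Finset.card_le_univ _
    rw [hn, Multiset.sum_replicate, smul_eq_mul] at hsum
    have hn0 : n = 0 := by omega
    subst hn0
    have hcent : Nat.card (Subgroup.centralizer {MulAction.toPermHom H α t}) = 7 := by
      rw [Equiv.Perm.nat_card_centralizer, hn, hα]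
      simp
    have hle : (Subgroup.centralizer ((P : Subgroup H) : Set H)).map (MulAction.toPermHom H α) ≤
        Subgroup.centralizer {MulAction.toPermHom H α t} := by
      rintro _ ⟨x, hx, rfl⟩
      rw [Subgroup.mem_centralizer_iff]
      intro y hy
      rw [Set.mem_singleton_iff] at hy
      subst hy
      rw [← map_mul, ← map_mul, (Subgroup.mem_centralizer_iff.1 hx) t htP]
    have d1 := Subgroup.card_dvd_of_le hle
    rw [Subgroup.card_map_of_injective hinj, hcent] at d1
    have d2 := Subgroup.card_dvd_of_le hPC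
    rw [hcP] at d2
    exact Nat.dvd_antisymm d1 d2
  have hker : (P : Subgroup H).normalizerMonoidHom.ker =
      (Subgroup.centralizer ((P : Subgroup H) : Set H)).subgroupOf
        (Subgroup.normalizer ((P : Subgroup H) : Set H)) :=
    Subgroup.normalizerMonoidHom_ker _
  have hkc : Nat.card (P : Subgroup H).normalizerMonoidHom.ker = 7 := by
    rw [hker, Nat.card_congr
      (Subgroup.subgroupOfEquivOfLe (Subgroup.centralizer_le_normalizer _)).toEquiv, hC]
  have hcard : Nat.card (P : Subgroup H).normalizerMonoidHom.ker *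
      Nat.card (P : Subgroup H).normalizerMonoidHom.range =
      Nat.card (Subgroup.normalizer ((P : Subgroup H) : Set H)) := by
    rw [← Subgroup.index_ker, Subgroup.card_mul_index]
  have hr : Nat.card (P : Subgroup H).normalizerMonoidHom.range ∣ 6 := by
    have h1 := Subgroup.card_subgroup_dvd_card (P : Subgroup H).normalizerMonoidHom.range
    rw [IsCyclic.card_mulAut, hcP, Nat.totient_prime (by norm_num)] at h1
    exact h1
  refine ⟨hcP, Nat.card (P : Subgroup H).normalizerMonoidHom.range, hr, by rw [← hcard, hkc], ?_⟩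
  have : Group.IsSolvable (P : Subgroup H).normalizerMonoidHom.ker := by
    have : IsCyclic (P : Subgroup H).normalizerMonoidHom.ker := isCyclic_of_prime_card hkc
    have hc := IsCyclic.isMulCommutative (α := (P : Subgroup H).normalizerMonoidHom.ker)
    exact Group.isSolvable_of_comm (fun a b => hc.is_comm.comm a b)
  have : Group.IsSolvable (MulAut (P : Subgroup H)) :=
    Group.isSolvable_of_isSolvable_injective
      (f := (IsCyclic.mulAutMulEquiv (P : Subgroup H)).toMonoidHom) (MulEquiv.injective _)
  exact Group.isSolvable_of_ker_le_range (P : Subgroup H).normalizerMonoidHom.ker.subtype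
    (P : Subgroup H).normalizerMonoidHom (by rw [Subgroup.range_subtype])

omit [DecidableEq α] in
theorem normal_trans (hα : Fintype.card α = 7) [MulAction.IsPretransitive H α]
    (K : Subgroup H) [K.Normal] (hK : K ≠ ⊥) : MulAction.IsPretransitive K α := by
  have hprim : MulAction.IsPreprimitive H α :=
    MulAction.IsPreprimitive.of_prime_card (by rw [Nat.card_eq_fintype_card, hα]; norm_num)
  apply MulAction.IsQuasiPreprimitive.isPretransitive_of_normal
  intro hfix
  obtain ⟨⟨k, hk⟩, hk1⟩ := (Subgroup.ne_bot_iff_exists_ne_one).1 hK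
  apply hk1
  apply Subtype.ext
  show k = 1
  apply FaithfulSMul.eq_of_smul_eq_smul (α := α)
  intro a
  have ha : a ∈ MulAction.fixedPoints K α := hfix ▸ Set.mem_univ a
  rw [one_smul]
  exact ha ⟨k, hk⟩

theorem main_card (hα : Fintype.card α = 7) [MulAction.IsPretransitive H α]
    (hS : ¬ Group.IsSolvable H)
    (hA : ¬ alternatingGroup α ≤ (MulAction.toPermHom H α).range) :
    Nat.card H = 168 ∨ Nat.card H = 210 := by
  have hinj : Function.Injective (MulAction.toPermHom H α) := MulAction.toPerm_injective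
  have : Finite H := Finite.of_injective _ hinj
  have : Fact (Nat.Prime 7) := ⟨by norm_num⟩
  obtain ⟨h7, h5040, h16, h9⟩ := card_facts hα hA
  obtain ⟨P⟩ : Nonempty (Sylow 7 H) := inferInstance
  obtain ⟨hcP, d, hd6, hNd, hNsol⟩ := sylow7 hα hA P
  have hidx : Nat.card (Subgroup.normalizer ((P : Subgroup H) : Set H)) * Nat.card (Sylow 7 H)
      = Nat.card H := by
    rw [Sylow.card_eq_index_normalizer P]; exact Subgroup.card_mul_index _
  have hmod : Nat.card (Sylow 7 H) % 7 = 1 := by
    have := card_sylow_modEq_one 7 H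
    unfold Nat.ModEq at this
    rw [this]
  rw [hNd] at hidx
  have hd7 : d < 7 := by have := Nat.le_of_dvd (by norm_num) hd6; omega
  have hd1 : 1 ≤ d := Nat.pos_of_dvd_of_pos hd6 (by norm_num)
  have hk721 : Nat.card (Sylow 7 H) < 721 := by
    have h1 : 7 * d * Nat.card (Sylow 7 H) ≤ 5040 := Nat.le_of_dvd (by norm_num) (hidx ▸ h5040)
    nlinarith
  have hk1 : Nat.card (Sylow 7 H) ≠ 1 := by
    intro h
    apply hS
    have hNtop : Subgroup.normalizer ((P : Subgroup H) : Set H) = ⊤ := by
      apply Subgroup.eq_top_of_card_eq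
      rw [hNd, ← hidx, h, mul_one]
    have hsurj : Function.Surjective (Subgroup.normalizer ((P : Subgroup H) : Set H)).subtype :=
      fun x => ⟨⟨x, hNtop ▸ Subgroup.mem_top x⟩, rfl⟩
    exact Group.isSolvable_of_surjective hsurj
  rcases num d hd7 _ hk721 ⟨hidx ▸ h5040, hidx ▸ h16, hidx ▸ h9, hd6, hmod⟩ with h | h | h | h
  · exact absurd h hk1
  · exfalso
    subst h
    have hNP : Subgroup.normalizer ((P : Subgroup H) : Set H) ≤ (P : Subgroup H) := by
      have := Subgroup.eq_of_le_of_card_ge (Subgroup.le_normalizer (H := (P : Subgroup H)))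
        (by rw [hNd, hcP])
      rw [← this]
    have hcyc : IsCyclic (P : Subgroup H) := isCyclic_of_prime_card hcP
    have hNC : Subgroup.normalizer ((P : Subgroup H) : Set H) ≤
        Subgroup.centralizer ((P : Subgroup H) : Set H) := hNP.trans (Subgroup.le_centralizer _)
    have hc := MonoidHom.ker_transferSylow_isComplement' P hNC
    have hcard := hc.card_mul_card
    have hKn : (MonoidHom.transferSylow P hNC).ker.Normal := MonoidHom.normal_ker _
    have hKbot : (MonoidHom.transferSylow P hNC).ker ≠ ⊥ := by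
      intro hb
      rw [hb, Subgroup.card_bot, one_mul, hcP] at hcard
      apply hk1; omega
    have hKt := normal_trans hα (MonoidHom.transferSylow P hNC).ker hKbot
    have h7K : 7 ∣ Nat.card (MonoidHom.transferSylow P hNC).ker := seven_dvd hα
    have h49 : 7 * 7 ∣ Nat.card H := by
      rw [← hcard, hcP]; exact Nat.mul_dvd_mul h7K (dvd_refl 7)
    have := h49.trans h5040
    norm_num at this
  · left; rw [← hidx]; exact h
  · right; rw [← hidx]; exact h

theorem not210 (hα : Fintype.card α = 7) [MulAction.IsPretransitive H α]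
    (hS : ¬ Group.IsSolvable H)
    (hA : ¬ alternatingGroup α ≤ (MulAction.toPermHom H α).range) : Nat.card H ≠ 210 := by
  intro h210
  have hinj : Function.Injective (MulAction.toPermHom H α) := MulAction.toPerm_injective
  have : Finite H := Finite.of_injective _ hinj
  have : Fact (Nat.Prime 2) := ⟨Nat.prime_two⟩
  obtain ⟨Q⟩ : Nonempty (Sylow 2 H) := inferInstance
  have hcQ : Nat.card (Q : Subgroup H) = 2 :=
    sylow_card_prime Q (by rw [h210]; norm_num) (by rw [h210]; norm_num)
  have hcyc : IsCyclic (Q : Subgroup H) := isCyclic_of_prime_card hcQ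
  have hNC : Subgroup.normalizer ((Q : Subgroup H) : Set H) ≤
      Subgroup.centralizer ((Q : Subgroup H) : Set H) := by
    have hsub : Subsingleton (MulAut (Q : Subgroup H)) := by
      have : Nat.card (MulAut (Q : Subgroup H)) = 1 := by
        rw [IsCyclic.card_mulAut, hcQ, Nat.totient_two]
      exact (Nat.card_eq_one_iff_unique.1 this).1
    rw [← Subgroup.subgroupOf_eq_top, ← Subgroup.normalizerMonoidHom_ker, Subgroup.eq_top_iff']
    intro x
    exact MonoidHom.mem_ker.2 (Subsingleton.elim _ _)
  have hc := MonoidHom.ker_transferSylow_isComplement' Q hNC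
  have hcard := hc.card_mul_card
  have hK105 : Nat.card (MonoidHom.transferSylow Q hNC).ker = 105 := by
    rw [hcQ, h210] at hcard; omega
  have hKn : (MonoidHom.transferSylow Q hNC).ker.Normal := MonoidHom.normal_ker _
  have hKbot : (MonoidHom.transferSylow Q hNC).ker ≠ ⊥ := by
    intro hb; rw [hb, Subgroup.card_bot] at hK105; omega
  have hKt := normal_trans hα (MonoidHom.transferSylow Q hNC).ker hKbot
  have hKS : ¬ Group.IsSolvable (MonoidHom.transferSylow Q hNC).ker := by
    intro hKs
    apply hS
    have : Group.IsSolvable (Q : Subgroup H) := by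
      have hc := IsCyclic.isMulCommutative (α := (Q : Subgroup H))
      exact Group.isSolvable_of_comm (fun a b => hc.is_comm.comm a b)
    exact Group.isSolvable_of_ker_le_range (MonoidHom.transferSylow Q hNC).ker.subtype
      (MonoidHom.transferSylow Q hNC) (by rw [Subgroup.range_subtype])
  have hKA : ¬ alternatingGroup α ≤
      (MulAction.toPermHom (MonoidHom.transferSylow Q hNC).ker α).range := by
    intro h; apply hA; intro x hx
    obtain ⟨k, rfl⟩ := h hx
    exact ⟨(k : H), Equiv.ext fun _ => rfl⟩
  rcases main_card hα hKS hKA with h | h <;> omega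

theorem simple168 (hα : Fintype.card α = 7) [MulAction.IsPretransitive H α]
    (hS : ¬ Group.IsSolvable H)
    (hA : ¬ alternatingGroup α ≤ (MulAction.toPermHom H α).range) (h168 : Nat.card H = 168)
    (N : Subgroup H) [N.Normal] (hN : N ≠ ⊥) : N = ⊤ := by
  have hinj : Function.Injective (MulAction.toPermHom H α) := MulAction.toPerm_injective
  have : Finite H := Finite.of_injective _ hinj
  have : Fact (Nat.Prime 7) := ⟨by norm_num⟩
  have hNt := normal_trans hα N hN
  have h7N : 7 ∣ Nat.card N := seven_dvd hα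
  have hNdvd : Nat.card N ∣ 168 := h168 ▸ Subgroup.card_subgroup_dvd_card N
  obtain ⟨P₀⟩ : Nonempty (Sylow 7 N) := inferInstance
  have hcP₀ : Nat.card (P₀ : Subgroup N) = 7 := sylow_card_prime P₀ h7N (fun h => by
    have := h.trans hNdvd; norm_num at this)
  have hcQ : Nat.card ((P₀ : Subgroup N).map N.subtype) = 7 := by
    rw [Subgroup.card_map_of_injective N.subtype_injective, hcP₀]
  have hfac : (Nat.card H).factorization 7 = 1 :=
    fact_eq_one (by norm_num) (by rw [h168]; norm_num) (by rw [h168]; norm_num)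
      (by rw [h168]; norm_num)
  obtain ⟨P₁, hP₁⟩ : ∃ P₁ : Sylow 7 H, (P₁ : Subgroup H) = (P₀ : Subgroup N).map N.subtype :=
    ⟨Sylow.ofCard ((P₀ : Subgroup N).map N.subtype) (by rw [hcQ, hfac, pow_one]), rfl⟩
  obtain ⟨-, d, hd6, hNd, -⟩ := sylow7 hα hA P₁
  have hidx : Nat.card (Subgroup.normalizer ((P₁ : Subgroup H) : Set H)) * Nat.card (Sylow 7 H)
      = Nat.card H := by
    rw [Sylow.card_eq_index_normalizer P₁]; exact Subgroup.card_mul_index _
  have hmod : Nat.card (Sylow 7 H) % 7 = 1 := by
    have := card_sylow_modEq_one 7 H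
    unfold Nat.ModEq at this
    rw [this]
  rw [hP₁] at hNd hidx
  have hNor : Nat.card (Subgroup.normalizer (((P₀ : Subgroup N).map N.subtype : Subgroup H) :
      Set H)) = 21 := by
    rw [hNd, h168] at hidx
    have hd : d = 1 ∨ d = 2 ∨ d = 3 ∨ d = 6 := by
      have := Nat.le_of_dvd (by norm_num) hd6
      interval_cases d <;> simp_all
    rw [hNd]
    rcases hd with rfl | rfl | rfl | rfl <;> omega
  have hfr := Sylow.normalizer_sup_eq_top P₀
  have hidxN : N.index ∣ 3 := by
    have h1 : N.index = N.relIndex (Subgroup.normalizer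
        (((P₀ : Subgroup N).map N.subtype : Subgroup H) : Set H)) := by
      rw [← Subgroup.relIndex_top_right, ← hfr, Subgroup.relIndex_sup_right]
    have h2 : N.relIndex (Subgroup.normalizer
        (((P₀ : Subgroup N).map N.subtype : Subgroup H) : Set H)) ∣
        ((P₀ : Subgroup N).map N.subtype).relIndex (Subgroup.normalizer
        (((P₀ : Subgroup N).map N.subtype : Subgroup H) : Set H)) :=
      Subgroup.relIndex_dvd_of_le_left _ (Subgroup.map_subtype_le _)
    have h3 : Nat.card ((P₀ : Subgroup N).map N.subtype) *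
        ((P₀ : Subgroup N).map N.subtype).relIndex (Subgroup.normalizer
        (((P₀ : Subgroup N).map N.subtype : Subgroup H) : Set H)) = 21 := by
      rw [← hNor, ← Subgroup.card_mul_index (((P₀ : Subgroup N).map N.subtype).subgroupOf
        (Subgroup.normalizer (((P₀ : Subgroup N).map N.subtype : Subgroup H) : Set H))),
        Nat.card_congr (Subgroup.subgroupOfEquivOfLe Subgroup.le_normalizer).toEquiv]
      rfl
    rw [hcQ] at h3
    have h4 : ((P₀ : Subgroup N).map N.subtype).relIndex (Subgroup.normalizer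
        (((P₀ : Subgroup N).map N.subtype : Subgroup H) : Set H)) = 3 := by omega
    rw [h1]
    rw [h4] at h2
    exact h2
  have hqcard : Nat.card (H ⧸ N) ∣ 3 := by rw [← Subgroup.index_eq_card]; exact hidxN
  have : Fact (Nat.Prime 3) := ⟨Nat.prime_three⟩
  have hqc : IsCyclic (H ⧸ N) := isCyclic_of_card_dvd_prime hqcard
  have hqs : Group.IsSolvable (H ⧸ N) := by
    have hc := IsCyclic.isMulCommutative (α := H ⧸ N)
    exact Group.isSolvable_of_comm (fun a b => hc.is_comm.comm a b)
  have hNS : ¬ Group.IsSolvable N := by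
    intro hNs
    apply hS
    exact Group.isSolvable_of_ker_le_range N.subtype (QuotientGroup.mk' N)
      (by rw [QuotientGroup.ker_mk', Subgroup.range_subtype])
  have hNA : ¬ alternatingGroup α ≤ (MulAction.toPermHom N α).range := by
    intro h; apply hA; intro x hx
    obtain ⟨k, rfl⟩ := h hx
    exact ⟨(k : H), Equiv.ext fun _ => rfl⟩
  have hN168 : Nat.card N = 168 := by
    rcases main_card hα hNS hNA with h | h
    · exact h
    · exact absurd h (not210 hα hNS hNA)
  exact Subgroup.eq_top_of_card_eq N (by rw [hN168, h168])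

end abs

/-- A non-solvable transitive permutation group on 7 points that does not contain the alternating group is a simple group of order 168. -/
theorem result {α : Type*} [Fintype α] [DecidableEq α] (hα : Fintype.card α = 7) (G : Subgroup (Equiv.Perm α)) [MulAction.IsPretransitive G α] (hG : ¬ Group.IsSolvable G) (hA : ¬ alternatingGroup α ≤ G) : Nat.card G = 168 ∧ IsSimpleGroup G := by
  have hA' : ¬ alternatingGroup α ≤ (MulAction.toPermHom G α).range := by
    intro h; apply hA; intro x hx
    obtain ⟨g, rfl⟩ := h hx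
    have : MulAction.toPermHom G α g = (g : Equiv.Perm α) := Equiv.ext fun _ => rfl
    rw [this]; exact g.2
  have h168 : Nat.card G = 168 := by
    rcases main_card hα hG hA' with h | h
    · exact h
    · exact absurd h (not210 hα hG hA')
  refine ⟨h168, ?_⟩
  have : Nontrivial G := (Finite.one_lt_card_iff_nontrivial).1 (by rw [h168]; norm_num)
  exact ⟨fun N hN => by
    by_cases hb : N = ⊥
    · exact Or.inl hb
    · exact Or.inr (simple168 hα hG hA' h168 N hb)⟩

end Cfsg.Agent.S0678
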