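import Cfsg.Statements.S0680
import Mathlib

set_option autoImplicit false
open Cfsg

namespace Cfsg.Agent.S0680

open scoped Pointwise


/-- A finite sharply doubly transitive permutation group has degree a prime power `p ^ j`; a Sylow `p`-subgroup is normal, elementary abelian and regular, and consists of the identity together with the elements without fixed points. (Frobenius' Theorem is not needed.) -/
theorem result {α : Type*} [Fintype α] [DecidableEq α] (G : Subgroup (Equiv.Perm α)) [MulAction.IsMultiplyPretransitive G α 2] (hsharp : ∀ x : Fin 2 ↪ α, MulAction.stabilizer G x = ⊥) (h2 : 2 ≤ Fintype.card α) : ∃ p j : ℕ, p.Prime ∧ 1 ≤ j ∧ Fintype.card α = p ^ j ∧ ∀ (hp : Fact p.Prime) (P : Sylow p G), (P : Subgroup G).Normal ∧ IsMulCommutative (P : Subgroup G) ∧ (∀ x ∈ (P : Subgroup G), x ^ p = 1) ∧ MulAction.IsPretransitive (P : Subgroup G) α ∧ (∀ a : α, MulAction.stabilizer (P : Subgroup G) a = ⊥) ∧ ∀ g : G, g ∈ (P : Subgroup G) ↔ g = 1 ∨ ∀ a : α, g • a ≠ a := by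
  classical
  have hT : ∀ a b c d : α, a ≠ b → c ≠ d → ∃ g : G, g • a = c ∧ g • b = d := by
    intro a b c d hab hcd
    let x : Fin 2 ↪ α := ⟨![a, b], by
      intro i j hij
      fin_cases i <;> fin_cases j <;> simp_all⟩
    let y : Fin 2 ↪ α := ⟨![c, d], by
      intro i j hij
      fin_cases i <;> fin_cases j <;> simp_all⟩
    obtain ⟨g, hg⟩ := MulAction.exists_smul_eq G x y
    refine ⟨g, ?_, ?_⟩
    · have h0 : (g • x) 0 = y 0 := by rw [hg]
      exact h0
    · have h1 : (g • x) 1 = y 1 := by rw [hg]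
      exact h1
  have hU : ∀ g : G, ∀ a b : α, a ≠ b → g • a = a → g • b = b → g = 1 := by
    intro g a b hab ha hb
    let x : Fin 2 ↪ α := ⟨![a, b], by
      intro i j hij
      fin_cases i <;> fin_cases j <;> simp_all⟩
    have hmem : g ∈ MulAction.stabilizer G x := by
      rw [MulAction.mem_stabilizer_iff]
      ext i
      fin_cases i
      · exact ha
      · exact hb
    rw [hsharp x] at hmem
    exact Subgroup.mem_bot.mp hmem
  obtain ⟨a₀, b₀, hab₀⟩ := Fintype.one_lt_card_iff.mp (by omega : 1 < Fintype.card α)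
  obtain ⟨n, hn⟩ : ∃ n, n = Fintype.card α := ⟨_, rfl⟩
  have hn2 : 2 ≤ n := hn ▸ h2
  have hcardG : Nat.card G = n * (n - 1) := by
    let x₀ : Fin 2 ↪ α := ⟨![a₀, b₀], by
      intro i j hij
      fin_cases i <;> fin_cases j <;> simp_all⟩
    have hbij : Function.Bijective (fun g : G => g • x₀) := by
      constructor
      · intro g g' h
        have h' : g • x₀ = g' • x₀ := h
        have hmem : g⁻¹ * g' ∈ MulAction.stabilizer G x₀ := by
          rw [MulAction.mem_stabilizer_iff]
          calc (g⁻¹ * g') • x₀ = g⁻¹ • (g' • x₀) := mul_smul _ _ _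
            _ = g⁻¹ • (g • x₀) := congrArg (g⁻¹ • ·) h'.symm
            _ = x₀ := inv_smul_smul _ _
        rw [hsharp x₀, Subgroup.mem_bot] at hmem
        exact inv_mul_eq_one.mp hmem
      · intro y
        exact MulAction.exists_smul_eq G x₀ y
    rw [Nat.card_congr (Equiv.ofBijective _ hbij), Nat.card_eq_fintype_card,
      Fintype.card_embedding_eq, ← hn]
    simp [Nat.descFactorial, mul_comm]
  haveI : Fintype G := Fintype.ofFinite G
  haveI : MulAction.IsPretransitive G α := by
    refine ⟨fun a b => ?_⟩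
    by_cases hab : a = b
    · exact ⟨1, by rw [one_smul, hab]⟩
    · obtain ⟨g, hg, -⟩ := hT a b b a hab (Ne.symm hab)
      exact ⟨g, hg⟩
  obtain ⟨Tf, hTf⟩ : ∃ Tf : Finset G,
      Tf = Finset.univ.filter (fun g : G => ∀ a : α, g • a ≠ a) := ⟨_, rfl⟩
  have hmemT : ∀ g : G, g ∈ Tf ↔ ∀ a : α, g • a ≠ a := by intro g; rw [hTf]; simp
  have hcardT : Tf.card + 1 = n := by
    have hB := MulAction.sum_card_fixedBy_eq_card_orbits_mul_card_group G α
    have horb : Fintype.card (Quotient (MulAction.orbitRel G α)) = 1 := by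
      haveI : Subsingleton (MulAction.orbitRel.Quotient G α) :=
        (MulAction.pretransitive_iff_subsingleton_quotient G α).mp inferInstance
      apply le_antisymm
      · exact Fintype.card_le_one_iff_subsingleton.mpr ‹_›
      · exact Fintype.card_pos_iff.mpr ⟨Quotient.mk _ a₀⟩
    rw [horb, one_mul] at hB
    have h1 : Fintype.card (MulAction.fixedBy α (1 : G)) = n := by
      rw [hn]
      apply Fintype.card_of_bijective (f := fun x : MulAction.fixedBy α (1 : G) => (x : α))
      exact ⟨Subtype.val_injective, fun a => ⟨⟨a, by simp [MulAction.mem_fixedBy]⟩, rfl⟩⟩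
    have h2' : ∀ g : G, g ≠ 1 → Fintype.card (MulAction.fixedBy α g) =
        if (∀ a : α, g • a ≠ a) then 0 else 1 := by
      intro g hg
      split_ifs with hfp
      · rw [Fintype.card_eq_zero_iff]
        exact ⟨fun x => hfp x.1 x.2⟩
      · push Not at hfp
        obtain ⟨a, ha⟩ := hfp
        rw [Fintype.card_eq_one_iff]
        refine ⟨⟨a, ha⟩, fun y => ?_⟩
        by_contra hne
        apply hg
        exact hU g a y.1 (fun h => hne (Subtype.ext h.symm)) ha y.2
    have h3 : ∑ g : G, Fintype.card (MulAction.fixedBy α g) =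
        n + ((Finset.univ.erase (1:G)).filter (fun g => ¬ ∀ a : α, g • a ≠ a)).card := by
      rw [← Finset.add_sum_erase Finset.univ _ (Finset.mem_univ (1 : G)), h1]
      congr 1
      rw [Finset.card_filter]
      apply Finset.sum_congr rfl
      intro g hg
      rw [h2' g (Finset.ne_of_mem_erase hg)]
      by_cases hfp : ∀ a : α, g • a ≠ a
      · simp [hfp]
      · simp [hfp]
    have h4 : ((Finset.univ.erase (1:G)).filter (fun g => ∀ a : α, g • a ≠ a)) = Tf := by
      rw [hTf]
      ext g
      simp only [Finset.mem_filter, Finset.mem_erase, Finset.mem_univ, and_true, true_and]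
      constructor
      · exact fun h => h.2
      · intro h
        refine ⟨?_, h⟩
        rintro rfl
        exact h a₀ (one_smul _ _)
    have h5 := Finset.card_filter_add_card_filter_not (s := Finset.univ.erase (1:G))
      (fun g => ∀ a : α, g • a ≠ a)
    rw [h4, Finset.card_erase_of_mem (Finset.mem_univ _), Finset.card_univ] at h5
    have hpos : 0 < Fintype.card G := Fintype.card_pos
    omega
  have hG6 : Fintype.card G = n * (n - 1) := by rw [← Nat.card_eq_fintype_card, hcardG]
  have hfpf_conj : ∀ g k : G, (∀ a : α, k • a ≠ a) → ∀ a : α, (g * k * g⁻¹) • a ≠ a := by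
    intro g k hk a ha
    apply hk (g⁻¹ • a)
    calc k • g⁻¹ • a = g⁻¹ • ((g * k * g⁻¹) • a) := by
          simp only [← mul_smul]
          congr 1
          group
      _ = g⁻¹ • a := by rw [ha]
  have key : ∀ t : G, (∀ a : α, t • a ≠ a) →
      (∀ g ∈ Subgroup.centralizer ({t} : Set G), g ≠ 1 → ∀ a : α, g • a ≠ a) ∧
      (∀ g : G, (∀ a : α, g • a ≠ a) → g ∈ Subgroup.centralizer ({t} : Set G)) ∧
      (∀ g : G, (∀ a : α, g • a ≠ a) → ∃ h : G, g = h * t * h⁻¹) ∧
      Nat.card (Subgroup.centralizer ({t} : Set G)) = n := by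
    intro t ht
    have hi : ∀ g ∈ Subgroup.centralizer ({t} : Set G), g ≠ 1 → ∀ a : α, g • a ≠ a := by
      intro g hg hg1 a ha
      apply hg1
      have hcomm : t * g = g * t := Subgroup.mem_centralizer_iff.mp hg t rfl
      apply hU g a (t • a) (fun h => ht a h.symm) ha
      rw [← mul_smul, ← hcomm, mul_smul, ha]
    obtain ⟨Kf, hKf⟩ : ∃ Kf : Finset G, Kf = Finset.univ.filter
        (fun g : G => g ∈ Subgroup.centralizer ({t} : Set G)) := ⟨_, rfl⟩
    have hKfcard : Kf.card = Nat.card (Subgroup.centralizer ({t} : Set G)) := by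
      rw [hKf, Nat.card_eq_fintype_card, Fintype.card_subtype]
    have hsub : Kf.erase 1 ⊆ Tf := by
      intro g hg
      rw [Finset.mem_erase, hKf, Finset.mem_filter] at hg
      exact (hmemT g).mpr (hi g hg.2.2 hg.1)
    have h1mem : (1 : G) ∈ Kf := by rw [hKf]; simp
    have hKle : Kf.card ≤ n := by
      have := Finset.card_le_card hsub
      rw [Finset.card_erase_of_mem h1mem] at this
      omega
    obtain ⟨I, hI⟩ : ∃ I : Finset G, I = Finset.univ.image (fun g : G => g * t * g⁻¹) :=
      ⟨_, rfl⟩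
    have hIsub : I ⊆ Tf := by
      intro y hy
      rw [hI, Finset.mem_image] at hy
      obtain ⟨g, -, rfl⟩ := hy
      rw [hmemT]
      exact hfpf_conj g t ht
    have hfib : Fintype.card G ≤ Kf.card * I.card := by
      have := Finset.card_le_mul_card_image (f := fun g : G => g * t * g⁻¹) Finset.univ Kf.card (by
        intro y hy
        rw [Finset.mem_image] at hy
        obtain ⟨g₀, -, rfl⟩ := hy
        apply Finset.card_le_card_of_injOn (fun g => g₀⁻¹ * g)
        · intro g hg
          have hg' : g ∈ Finset.univ.filter (fun a : G => a * t * a⁻¹ = g₀ * t * g₀⁻¹) := hg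
          have hg2 : g * t * g⁻¹ = g₀ * t * g₀⁻¹ := (Finset.mem_filter.mp hg').2
          show g₀⁻¹ * g ∈ Kf
          rw [hKf, Finset.mem_filter]
          refine ⟨Finset.mem_univ _, ?_⟩
          rw [Subgroup.mem_centralizer_iff]
          intro h hh
          rw [Set.mem_singleton_iff] at hh
          subst hh
          have h3 : g₀⁻¹ * (g * h * g⁻¹) * g₀ = h := by rw [hg2]; group
          calc h * (g₀⁻¹ * g) = g₀⁻¹ * (g * h * g⁻¹) * g₀ * (g₀⁻¹ * g) := by rw [h3]
            _ = g₀⁻¹ * g * h := by group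
        · intro g _ g' _ h
          exact mul_left_cancel h)
      rw [← hI] at this
      simpa [Finset.card_univ] using this
    have hIle : I.card ≤ n - 1 := by
      have := Finset.card_le_card hIsub
      omega
    have hKeq : Kf.card = n := by
      by_contra hne
      have hlt : Kf.card ≤ n - 1 := by omega
      have h1 : Kf.card * I.card ≤ (n - 1) * (n - 1) := Nat.mul_le_mul hlt hIle
      have h2' : (n - 1) * (n - 1) < n * (n - 1) :=
        Nat.mul_lt_mul_of_pos_right (by omega) (by omega)
      omega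
    have hIeq : I.card = n - 1 := by
      by_contra hne
      have hlt : I.card ≤ n - 2 := by omega
      have h1 : Kf.card * I.card ≤ n * (n - 2) := Nat.mul_le_mul hKle hlt
      have h2' : n * (n - 2) < n * (n - 1) :=
        Nat.mul_lt_mul_of_pos_left (by omega) (by omega)
      omega
    have hItop : I = Tf := Finset.eq_of_subset_of_card_le hIsub (by omega)
    have hKT : Kf.erase 1 = Tf := Finset.eq_of_subset_of_card_le hsub
      (by rw [Finset.card_erase_of_mem h1mem]; omega)
    refine ⟨hi, ?_, ?_, ?_⟩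
    · intro g hg
      have : g ∈ Kf.erase 1 := by rw [hKT]; exact (hmemT g).mpr hg
      rw [hKf] at this
      exact (Finset.mem_filter.mp (Finset.mem_of_mem_erase this)).2
    · intro g hg
      have : g ∈ I := by rw [hItop]; exact (hmemT g).mpr hg
      rw [hI, Finset.mem_image] at this
      obtain ⟨h, -, hh⟩ := this
      exact ⟨h, hh.symm⟩
    · rw [← hKfcard, hKeq]
  have hTne : ∃ t₀ : G, ∀ a : α, t₀ • a ≠ a := by
    have : 0 < Tf.card := by omega
    obtain ⟨t₀, ht₀⟩ := Finset.card_pos.mp this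
    exact ⟨t₀, (hmemT t₀).mp ht₀⟩
  obtain ⟨t₀, ht₀⟩ := hTne
  obtain ⟨hK1, hK2, -, hK4⟩ := key t₀ ht₀
  obtain ⟨K, hK⟩ : ∃ K : Subgroup G, K = Subgroup.centralizer ({t₀} : Set G) := ⟨_, rfl⟩
  rw [← hK] at hK1 hK2 hK4
  have hKcomm : ∀ x ∈ K, ∀ y ∈ K, x * y = y * x := by
    intro x hx y hy
    by_cases hx1 : x = 1
    · rw [hx1]; simp
    by_cases hy1 : y = 1
    · rw [hy1]; simp
    have hxf := hK1 x hx hx1
    have hyf := hK1 y hy hy1
    have := (key x hxf).2.1 y hyf
    exact (Subgroup.mem_centralizer_iff.mp this x rfl)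
  have hKnormal : K.Normal := by
    constructor
    intro k hk g
    by_cases hk1 : k = 1
    · rw [hk1]; simp
    · exact hK2 _ (hfpf_conj g k (hK1 k hk hk1))
  obtain ⟨p, hp, hpn⟩ := Nat.exists_prime_and_dvd (by omega : n ≠ 1)
  haveI : Fact p.Prime := ⟨hp⟩
  obtain ⟨x, hx⟩ := exists_prime_orderOf_dvd_card' (G := K) p (by rw [hK4]; exact hpn)
  have hx1 : (x : G) ≠ 1 := by
    intro h
    have : x = 1 := Subtype.ext h
    rw [this, orderOf_one] at hx
    exact hp.one_lt.ne hx
  have hxf := hK1 x x.2 hx1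
  have hxp : (x : G) ^ p = 1 := by
    have : x ^ p = 1 := by rw [← hx]; exact pow_orderOf_eq_one x
    exact_mod_cast congrArg Subtype.val this
  have hexp : ∀ y ∈ K, y ^ p = 1 := by
    intro y hy
    by_cases hy1 : y = 1
    · rw [hy1, one_pow]
    · obtain ⟨h, hh⟩ := (key x hxf).2.2.1 y (hK1 y hy hy1)
      rw [hh, conj_pow, hxp]; group
  have hKp : IsPGroup p K := by
    intro y
    refine ⟨1, ?_⟩
    apply Subtype.ext
    simpa using hexp y y.2
  obtain ⟨j, hj⟩ := IsPGroup.iff_card.mp hKp
  rw [hK4] at hj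
  have hj1 : 1 ≤ j := by
    by_contra h
    have : j = 0 := by omega
    rw [this, pow_zero] at hj
    omega
  refine ⟨p, j, hp, hj1, hn ▸ hj, ?_⟩
  intro hp' P
  have hPK : (P : Subgroup G) = K := by
    have hle : K ≤ (P : Subgroup G) := by
      obtain ⟨Q, hQ⟩ := hKp.exists_le_sylow
      obtain ⟨g, hg⟩ := MulAction.exists_smul_eq G Q P
      intro k hk
      rw [← hg, Sylow.smul_def]
      change _ ∈ MulAut.conj g • (Q : Subgroup G)
      rw [Subgroup.mem_pointwise_smul_iff_inv_smul_mem]
      have h1 : (MulAut.conj g)⁻¹ • k = g⁻¹ * k * g⁻¹⁻¹ := by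
        rw [MulAut.smul_def, ← map_inv, MulAut.conj_apply]
      rw [h1]
      exact hQ (hKnormal.conj_mem k hk g⁻¹)
    have hcop : Nat.Coprime (Nat.card (P : Subgroup G)) (n - 1) := by
      obtain ⟨m, hm⟩ := IsPGroup.iff_card.mp P.2
      rw [hm]
      apply Nat.Coprime.pow_left
      rw [Nat.Prime.coprime_iff_not_dvd hp]
      intro hdvd
      have h3 : p ∣ n - (n - 1) := Nat.dvd_sub hpn hdvd
      have h4 : n - (n - 1) = 1 := by omega
      rw [h4] at h3
      exact hp.one_lt.ne' (Nat.dvd_one.mp h3)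
    have hdvd : Nat.card (P : Subgroup G) ∣ n * (n - 1) := by
      rw [← hcardG]; exact Subgroup.card_subgroup_dvd_card _
    have hdvd2 : Nat.card (P : Subgroup G) ∣ n := hcop.dvd_of_dvd_mul_right hdvd
    have hle2 : Nat.card (P : Subgroup G) ≤ Nat.card K := by
      rw [hK4]; exact Nat.le_of_dvd (by omega) hdvd2
    exact (Subgroup.eq_of_le_of_card_ge hle hle2).symm
  have hfinal : ∀ Q : Subgroup G, Q = K → (Q.Normal ∧ IsMulCommutative Q ∧
      (∀ x ∈ Q, x ^ p = 1) ∧ MulAction.IsPretransitive Q α ∧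
      (∀ a : α, MulAction.stabilizer Q a = ⊥) ∧
      ∀ g : G, g ∈ Q ↔ g = 1 ∨ ∀ a : α, g • a ≠ a) := by
    rintro Q rfl
    refine ⟨hKnormal, ⟨⟨fun a b => Subtype.ext (hKcomm a a.2 b b.2)⟩⟩, hexp, ?_, ?_, ?_⟩
    · refine ⟨fun a b => ?_⟩
      have hinj : Function.Injective (fun k : Q => k • a) := by
        intro k k' h
        have h' : (k : G) • a = (k' : G) • a := h
        by_contra hne
        have hne' : (k : G)⁻¹ * (k' : G) ≠ 1 := by
          intro h1
          exact hne (Subtype.ext (inv_mul_eq_one.mp h1))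
        apply hK1 _ (Q.mul_mem (Q.inv_mem k.2) k'.2) hne' a
        rw [mul_smul, ← h', inv_smul_smul]
      have hbij := hinj.bijective_of_nat_card_le (by
        rw [hK4, Nat.card_eq_fintype_card, hn])
      exact hbij.2 b
    · intro a
      rw [eq_bot_iff]
      intro g hg
      rw [Subgroup.mem_bot]
      by_contra hne
      exact hK1 (g : G) g.2 (fun h => hne (Subtype.ext h)) a (MulAction.mem_stabilizer_iff.mp hg)
    · intro g
      constructor
      · intro hg
        by_cases hg1 : g = 1
        · exact Or.inl hg1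
        · exact Or.inr (hK1 g hg hg1)
      · rintro (rfl | hg)
        · exact Q.one_mem
        · exact hK2 g hg
  exact hfinal _ hPK

end Cfsg.Agent.S0680
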