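import Cfsg.Statements.S0681
-- import your own Cfsg.Agent.* helpers here
import Mathlib

set_option autoImplicit false
open Cfsg

namespace Cfsg.Agent.S0681

/-- The affine maps `x ↦ x * a + b`, `a ≠ 0`, of a near-field form a sharply doubly transitive permutation group. -/
theorem result {F : Type*} [Cfsg.NearField F] : ∃ H : Subgroup (Equiv.Perm F), (∀ σ : Equiv.Perm F, σ ∈ H ↔ ∃ a b : F, a ≠ 0 ∧ ∀ x : F, σ x = x * a + b) ∧ MulAction.IsMultiplyPretransitive H F 2 ∧ ∀ x : Fin 2 ↪ F, MulAction.stabilizer H x = ⊥ := by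
  classical
  have hzm : ∀ c : F, 0 * c = 0 := by
    intro c
    have h := Cfsg.NearField.right_distrib (0 : F) 0 c
    rw [add_zero] at h
    exact add_eq_left.mp h.symm
  have hne : (0 : F) ≠ 1 := Cfsg.NearField.zero_ne_one
  have hneg : ∀ a c : F, (-a) * c = -(a * c) := by
    intro a c
    have h := Cfsg.NearField.right_distrib a (-a) c
    rw [add_neg_cancel, hzm] at h
    exact eq_neg_of_add_eq_zero_right h.symm
  have hsub : ∀ a b c : F, (a - b) * c = a * c - b * c := by
    intro a b c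
    rw [sub_eq_add_neg, Cfsg.NearField.right_distrib, hneg, ← sub_eq_add_neg]
  have hinvne : ∀ a b : F, a * b = 1 → a ≠ 0 ∧ b ≠ 0 := by
    intro a b hab
    constructor
    · rintro rfl
      rw [hzm] at hab
      exact hne hab
    · rintro rfl
      rw [Cfsg.NearField.mul_zero] at hab
      exact hne hab
  have hmulne : ∀ c a : F, c ≠ 0 → a ≠ 0 → c * a ≠ 0 := by
    intro c a hc ha
    obtain ⟨c', hc1, hc2⟩ := Cfsg.NearField.exists_inv c hc
    obtain ⟨a', ha1, ha2⟩ := Cfsg.NearField.exists_inv a ha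
    have h : (c * a) * (a' * c') = 1 := by
      rw [mul_assoc, ← mul_assoc a, ha1, one_mul, hc1]
    exact (hinvne _ _ h).1
  let H : Subgroup (Equiv.Perm F) :=
    { carrier := {σ | ∃ a b : F, a ≠ 0 ∧ ∀ x : F, σ x = x * a + b}
      mul_mem' := by
        rintro σ τ ⟨a, b, ha, hσ⟩ ⟨c, d, hc, hτ⟩
        refine ⟨c * a, d * a + b, hmulne c a hc ha, fun x => ?_⟩
        rw [Equiv.Perm.mul_apply, hτ, hσ, Cfsg.NearField.right_distrib, mul_assoc, add_assoc]
      one_mem' := ⟨1, 0, hne.symm, fun x => by simp⟩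
      inv_mem' := by
        rintro σ ⟨a, b, ha, hσ⟩
        obtain ⟨a', h1, h2⟩ := Cfsg.NearField.exists_inv a ha
        refine ⟨a', (-b) * a', (hinvne _ _ h1).2, fun x => ?_⟩
        apply σ.injective
        have e1 : σ (σ⁻¹ x) = x := by simp
        rw [e1, hσ, Cfsg.NearField.right_distrib, mul_assoc, mul_assoc, h2, mul_one, mul_one]
        simp }
  have hH : ∀ σ : Equiv.Perm F, σ ∈ H ↔ ∃ a b : F, a ≠ 0 ∧ ∀ x : F, σ x = x * a + b :=
    fun σ => Iff.rfl
  refine ⟨H, hH, ?_, ?_⟩
  · rw [MulAction.isMultiplyPretransitive_iff]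
    intro x y
    have hx : x 0 - x 1 ≠ 0 := by
      intro h
      have h01 : x 0 = x 1 := sub_eq_zero.mp h
      exact absurd (x.injective h01) (by decide)
    have hy : y 0 - y 1 ≠ 0 := by
      intro h
      have h01 : y 0 = y 1 := sub_eq_zero.mp h
      exact absurd (y.injective h01) (by decide)
    obtain ⟨e, he1, he2⟩ := Cfsg.NearField.exists_inv (x 0 - x 1) hx
    obtain ⟨a, ha⟩ : ∃ a, a = e * (y 0 - y 1) := ⟨_, rfl⟩
    have ha0 : a ≠ 0 := ha ▸ hmulne _ _ (hinvne _ _ he1).2 hy
    have hkey : (x 0 - x 1) * a = y 0 - y 1 := by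
      rw [ha, ← mul_assoc, he1, one_mul]
    obtain ⟨a', h1, h2⟩ := Cfsg.NearField.exists_inv a ha0
    -- the permutation x ↦ x * a + b with b = -(x 0 * a) + y 0
    obtain ⟨b, hb⟩ : ∃ b, b = -(x 0 * a) + y 0 := ⟨_, rfl⟩
    let σ : Equiv.Perm F :=
      { toFun := fun t => t * a + b
        invFun := fun t => (t - b) * a'
        left_inv := by
          intro t
          show (t * a + b - b) * a' = t
          rw [add_sub_cancel_right, mul_assoc, h1, mul_one]
        right_inv := by
          intro t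
          show (t - b) * a' * a + b = t
          rw [mul_assoc, h2, mul_one, sub_add_cancel] }
    have hσ : ∀ t, σ t = t * a + b := fun t => rfl
    refine ⟨⟨σ, (hH σ).mpr ⟨a, b, ha0, hσ⟩⟩, ?_⟩
    apply DFunLike.ext
    intro i
    rw [Function.Embedding.smul_apply]
    show σ (x i) = y i
    rw [hσ]
    fin_cases i
    · show x 0 * a + b = y 0
      rw [hb, ← add_assoc, add_neg_cancel, zero_add]
    · show x 1 * a + b = y 1
      have h3 : x 1 * a - x 0 * a = -(y 0 - y 1) := by
        rw [← hkey, hsub, neg_sub]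
      rw [hb, ← add_assoc, ← sub_eq_add_neg, h3, neg_sub, sub_add_cancel]
  · intro x
    rw [eq_bot_iff]
    rintro ⟨σ, hσH⟩ hσ
    rw [MulAction.mem_stabilizer_iff] at hσ
    rw [Subgroup.mem_bot]
    apply Subtype.ext
    show σ = 1
    obtain ⟨a, b, ha, hσab⟩ := (hH σ).mp hσH
    have h0 : σ (x 0) = x 0 := by
      have := congrArg (fun f : Fin 2 ↪ F => f 0) hσ
      exact this
    have h1 : σ (x 1) = x 1 := by
      have := congrArg (fun f : Fin 2 ↪ F => f 1) hσ
      exact this
    rw [hσab] at h0 h1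
    have hx : x 0 - x 1 ≠ 0 := by
      intro h
      have h01 : x 0 = x 1 := sub_eq_zero.mp h
      exact absurd (x.injective h01) (by decide)
    obtain ⟨e, he1, he2⟩ := Cfsg.NearField.exists_inv (x 0 - x 1) hx
    have h2 : (x 0 - x 1) * a = x 0 - x 1 := by
      rw [hsub]
      calc x 0 * a - x 1 * a = (x 0 * a + b) - (x 1 * a + b) := by
            rw [add_sub_add_right_eq_sub]
        _ = x 0 - x 1 := by rw [h0, h1]
    have ha1 : a = 1 := by
      calc a = e * ((x 0 - x 1) * a) := by rw [← mul_assoc, he2, one_mul]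
        _ = e * (x 0 - x 1) := by rw [h2]
        _ = 1 := he2
    have hb0 : b = 0 := by
      rw [ha1, mul_one] at h0
      exact add_eq_left.mp h0
    ext t
    rw [hσab, ha1, hb0, mul_one, add_zero]
    rfl

end Cfsg.Agent.S0681
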