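import Cfsg.Statements.S0682
-- import your own Cfsg.Agent.* helpers here
import Mathlib

set_option autoImplicit false
open Cfsg

namespace Cfsg.Agent.S0682

/-- A finite near-field has prime-power order; its additive group is commutative of prime exponent. -/
theorem result {F : Type*} [Cfsg.NearField F] [Finite F] : ∃ p j : ℕ, p.Prime ∧ 1 ≤ j ∧ Nat.card F = p ^ j ∧ (∀ x y : F, x + y = y + x) ∧ ∀ x : F, p • x = 0 := by
  classical
  have hzm : ∀ c : F, 0 * c = 0 := by
    intro c
    have h := Cfsg.NearField.right_distrib (0 : F) 0 c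
    rw [add_zero] at h
    exact add_eq_left.mp h.symm
  have hnm : ∀ (n : ℕ) (a c : F), (n • a) * c = n • (a * c) := by
    intro n a c
    induction n with
    | zero => simp [hzm]
    | succ n ih => rw [succ_nsmul, succ_nsmul, Cfsg.NearField.right_distrib, ih]
  have hne : (0 : F) ≠ 1 := Cfsg.NearField.zero_ne_one
  have hnt : Nontrivial F := ⟨⟨0, 1, hne⟩⟩
  have hcard2 : 1 < Nat.card F := Finite.one_lt_card
  obtain ⟨p, hp, hpd⟩ := Nat.exists_prime_and_dvd (show Nat.card F ≠ 1 by omega)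
  have hfp : Fact p.Prime := ⟨hp⟩
  obtain ⟨x₀, hx₀⟩ := exists_prime_addOrderOf_dvd_card' p hpd
  have hx₀0 : x₀ ≠ 0 := by
    rintro rfl
    rw [addOrderOf_zero] at hx₀
    exact hp.one_lt.ne' hx₀.symm
  have hpx₀ : p • x₀ = 0 := by rw [← hx₀]; exact addOrderOf_nsmul_eq_zero x₀
  have htr : ∀ z : F, z ≠ 0 → ∀ x : F, ∃ c : F, x = z * c := by
    intro z hz x
    obtain ⟨w, hw1, hw2⟩ := Cfsg.NearField.exists_inv z hz
    exact ⟨w * x, by rw [← mul_assoc, hw1, one_mul]⟩
  have hpx : ∀ x : F, p • x = 0 := by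
    intro x
    obtain ⟨c, rfl⟩ := htr x₀ hx₀0 x
    rw [← hnm, hpx₀, hzm]
  have hPG : IsPGroup p (Multiplicative F) := by
    intro g
    refine ⟨1, ?_⟩
    rw [pow_one]
    exact congrArg Multiplicative.ofAdd (hpx (Multiplicative.toAdd g))
  obtain ⟨j, hj⟩ := IsPGroup.iff_card.mp hPG
  have hcardeq : Nat.card (Multiplicative F) = Nat.card F := Nat.card_congr Multiplicative.toAdd
  rw [hcardeq] at hj
  have hj1 : 1 ≤ j := by
    rcases Nat.eq_zero_or_pos j with h0 | h0
    · rw [h0, pow_zero] at hj; omega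
    · exact h0
  have hntM : Nontrivial (Multiplicative F) :=
    ⟨⟨Multiplicative.ofAdd 0, Multiplicative.ofAdd 1, fun h => hne (Multiplicative.ofAdd.injective h)⟩⟩
  have hcn : Nontrivial (Subgroup.center (Multiplicative F)) := hPG.center_nontrivial
  obtain ⟨⟨z, hz⟩, hz1⟩ := exists_ne (1 : Subgroup.center (Multiplicative F))
  obtain ⟨z₀, hz₀def⟩ : ∃ z₀ : F, z₀ = Multiplicative.toAdd z := ⟨_, rfl⟩
  have hzc : ∀ y : F, y + z₀ = z₀ + y := fun y => by
    rw [hz₀def]
    exact congrArg Multiplicative.toAdd (Subgroup.mem_center_iff.mp hz (Multiplicative.ofAdd y))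
  have hz₀ : z₀ ≠ 0 := by
    intro h
    apply hz1
    apply Subtype.ext
    show z = 1
    rw [hz₀def] at h
    exact Multiplicative.toAdd.injective h
  refine ⟨p, j, hp, hj1, hj, ?_, hpx⟩
  intro x y
  by_cases hx : x = 0
  · rw [hx, zero_add, add_zero]
  · obtain ⟨c, rfl⟩ := htr z₀ hz₀ x
    have hc : c ≠ 0 := by
      rintro rfl
      exact hx (Cfsg.NearField.mul_zero z₀)
    obtain ⟨d, hd1, hd2⟩ := Cfsg.NearField.exists_inv c hc
    have hy : y = (y * d) * c := by rw [mul_assoc, hd2, mul_one]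
    calc z₀ * c + y = z₀ * c + (y * d) * c := by rw [← hy]
      _ = (z₀ + y * d) * c := (Cfsg.NearField.right_distrib _ _ _).symm
      _ = (y * d + z₀) * c := by rw [hzc]
      _ = (y * d) * c + z₀ * c := Cfsg.NearField.right_distrib _ _ _
      _ = y + z₀ * c := by rw [← hy]

end Cfsg.Agent.S0682
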