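import Cfsg.Statements.S0683
import Mathlib
import Cfsg.Agent.Lib.helper19.TwoTrans

set_option autoImplicit false
open Cfsg

namespace Cfsg.Agent.S0683


open Cfsg.Agent.Lib.helper19.TwoTrans



/-- A finite sharply doubly transitive permutation group is the affine group of a near-field: the permuted set carries a near-field structure for which the group consists exactly of the maps `x ↦ x * a + b` with `a ≠ 0`. -/
theorem result {α : Type*} [Fintype α] [DecidableEq α] (H : Subgroup (Equiv.Perm α)) [MulAction.IsMultiplyPretransitive H α 2] (hsharp : ∀ x : Fin 2 ↪ α, MulAction.stabilizer H x = ⊥) (h2 : 2 ≤ Fintype.card α) : ∃ _ : Cfsg.NearField α, ∀ σ : Equiv.Perm α, σ ∈ H ↔ ∃ a b : α, a ≠ 0 ∧ ∀ x : α, σ x = x * a + b := by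
  classical
  have h2' : ∀ a b c d : α, a ≠ b → c ≠ d → ∃ g ∈ H, g a = c ∧ g b = d := by
    intro a b c d hab hcd
    obtain ⟨g, hga, hgb⟩ := MulAction.is_two_pretransitive_iff.mp ‹_› hab hcd
    exact ⟨g, g.2, hga, hgb⟩
  have hsh : ∀ g ∈ H, ∀ a b : α, a ≠ b → g a = a → g b = b → g = 1 := by
    intro g hg a b hab hga hgb
    have hmem : (⟨g, hg⟩ : ↥H) ∈ MulAction.stabilizer ↥H (Function.Embedding.embFinTwo hab) := by
      rw [MulAction.mem_stabilizer_iff]
      ext i
      fin_cases i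
      · exact hga
      · exact hgb
    rw [hsharp, Subgroup.mem_bot] at hmem
    exact congrArg Subtype.val hmem
  obtain ⟨o, e, hoe⟩ := Fintype.one_lt_card_iff.mp (show 1 < Fintype.card α by omega)
  haveI : Nonempty α := ⟨o⟩
  have htr : ∀ a b : α, ∃ x ∈ H, x a = b := by
    intro a b
    by_cases hab : a = b
    · exact ⟨1, H.one_mem, by rw [hab]; rfl⟩
    · obtain ⟨g, hg, hga, _⟩ := h2' a b b a hab (Ne.symm hab)
      exact ⟨g, hg, hga⟩
  obtain ⟨K, hK, hKn, hKt, hKi⟩ := kernel H H h2'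
    (fun g hg x hx => H.mul_mem (H.mul_mem hg hx) (H.inv_mem hg)) htr
    (fun x hx hx1 a b hxa hxb => by
      by_contra hab
      exact hx1 (hsh x hx a b hab hxa hxb))
  have hKH : K ≤ H := fun x hx => ((hK x).mp hx).1
  choose τ hτK hτo using fun x => hKt o x
  have hμex : ∀ a : α, ∃ g : Equiv.Perm α, a ≠ o → (g ∈ H ∧ g o = o ∧ g e = a) := by
    intro a
    by_cases ha : a = o
    · exact ⟨1, fun h => absurd ha h⟩
    · obtain ⟨g, hg, h1, h2⟩ := h2' o e o a hoe (Ne.symm ha)
      exact ⟨g, fun _ => ⟨hg, h1, h2⟩⟩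
  choose μ hμ using hμex
  -- uniqueness facts
  have hτ2 : ∀ k ∈ K, k = τ (k o) := fun k hk => hKi k hk _ (hτK _) o (hτo _).symm
  have hτ3 : τ o = 1 := (hτ2 1 K.one_mem).symm
  have hτ4 : ∀ y z : α, τ (τ z y) = τ z * τ y := by
    intro y z
    have := hτ2 (τ z * τ y) (K.mul_mem (hτK z) (hτK y))
    rw [this]
    congr 1
    show τ z y = τ z (τ y o)
    rw [hτo]
  have hμ2 : ∀ g ∈ H, g o = o → g = μ (g e) := by
    intro g hg hgo
    have hge : g e ≠ o := by
      intro h
      exact hoe (g.injective (h.trans hgo.symm)).symm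
    obtain ⟨h1, h2, h3⟩ := hμ (g e) hge
    have : (μ (g e))⁻¹ * g = 1 := by
      apply hsh _ (H.mul_mem (H.inv_mem h1) hg) o e hoe
      · show (μ (g e))⁻¹ (g o) = o
        rw [hgo, Equiv.Perm.inv_eq_iff_eq, h2]
      · show (μ (g e))⁻¹ (g e) = e
        rw [Equiv.Perm.inv_eq_iff_eq, h3]
    calc g = μ (g e) * ((μ (g e))⁻¹ * g) := by group
      _ = μ (g e) := by rw [this, mul_one]
  have hμ3 : μ e = 1 := (hμ2 1 H.one_mem rfl).symm
  have hμne : ∀ a b : α, a ≠ o → b ≠ o → μ b a ≠ o := by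
    intro a b ha hb h
    rw [← (hμ b hb).2.1] at h
    exact ha ((μ b).injective h)
  have hμ4 : ∀ a b : α, a ≠ o → b ≠ o → μ (μ b a) = μ b * μ a := by
    intro a b ha hb
    obtain ⟨a1, a2, a3⟩ := hμ a ha
    obtain ⟨b1, b2, b3⟩ := hμ b hb
    have := hμ2 (μ b * μ a) (H.mul_mem b1 a1) (by show μ b (μ a o) = o; rw [a2, b2])
    rw [this]
    congr 1
    show μ b a = μ b (μ a e)
    rw [a3]
  have hμ5 : ∀ c y : α, c ≠ o → τ (μ c y) = μ c * τ y * (μ c)⁻¹ := by
    intro c y hc
    obtain ⟨c1, c2, c3⟩ := hμ c hc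
    have hinv : (μ c)⁻¹ o = o := by rw [Equiv.Perm.inv_eq_iff_eq, c2]
    have := hτ2 (μ c * τ y * (μ c)⁻¹) (hKn _ c1 _ (hτK y))
    rw [this]
    congr 1
    show μ c y = μ c (τ y ((μ c)⁻¹ o))
    rw [hinv, hτo]
  -- the axioms
  have hA1 : ∀ x y z : α, τ z (τ y x) = τ (τ z y) x := by
    intro x y z
    rw [hτ4]; rfl
  have hA3 : ∀ x : α, τ o x = x := by
    intro x
    rw [hτ3]; rfl
  have hA4 : ∀ x : α, τ x ((τ x)⁻¹ o) = o := fun x => app_inv _ _
  have hM1 : ∀ x a b : α, (if b = o then o else μ b (if a = o then o else μ a x)) =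
      (if (if b = o then o else μ b a) = o then o else μ (if b = o then o else μ b a) x) := by
    intro x a b
    by_cases hb : b = o
    · simp [hb]
    · by_cases ha : a = o
      · have : μ b o = o := (hμ b hb).2.1
        simp [hb, ha, this]
      · rw [if_neg hb, if_neg ha, if_neg hb, if_neg (hμne a b ha hb), hμ4 a b ha hb]
        rfl
  have hM2 : ∀ a : α, (if a = o then o else μ a e) = a := by
    intro a
    by_cases ha : a = o
    · simp [ha]
    · rw [if_neg ha]; exact (hμ a ha).2.2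
  have hM3 : ∀ x : α, (if e = o then o else μ e x) = x := by
    intro x
    rw [if_neg (Ne.symm hoe), hμ3]; rfl
  have hD : ∀ x y c : α, (if c = o then o else μ c (τ y x)) =
      τ (if c = o then o else μ c y) (if c = o then o else μ c x) := by
    intro x y c
    by_cases hc : c = o
    · simp [hc, hτo]
    · rw [if_neg hc, if_neg hc, if_neg hc, hμ5 c y hc]
      show μ c (τ y x) = μ c (τ y ((μ c)⁻¹ (μ c x)))
      rw [inv_app]
  have hI : ∀ a : α, a ≠ o → ∃ b : α, (if b = o then o else μ b a) = e ∧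
      (if a = o then o else μ a b) = e := by
    intro a ha
    obtain ⟨a1, a2, a3⟩ := hμ a ha
    have hinvo : (μ a)⁻¹ o = o := by rw [Equiv.Perm.inv_eq_iff_eq, a2]
    have hb : (μ a)⁻¹ e ≠ o := by
      intro h
      rw [Equiv.Perm.inv_eq_iff_eq, a2] at h
      exact hoe h.symm
    have hμb : (μ a)⁻¹ = μ ((μ a)⁻¹ e) := hμ2 _ (H.inv_mem a1) hinvo
    refine ⟨(μ a)⁻¹ e, ?_, ?_⟩
    · rw [if_neg hb, ← hμb, Equiv.Perm.inv_eq_iff_eq, a3]
    · rw [if_neg ha, app_inv]
  letI iadd : Add α := ⟨fun x y => τ y x⟩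
  letI izero : Zero α := ⟨o⟩
  letI ineg : Neg α := ⟨fun x => (τ x)⁻¹ o⟩
  letI iag : AddGroup α :=
    AddGroup.ofLeftAxioms (fun x y z => hA1 x y z) (fun x => hτo x) (fun x => hA4 x)
  refine ⟨{ toAddGroup := iag
            toMonoid :=
              { mul := fun x a => if a = o then o else μ a x
                one := e
                mul_assoc := fun x a b => hM1 x a b
                one_mul := fun a => hM2 a
                mul_one := fun x => hM3 x }
            right_distrib := fun x y c => hD x y c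
            mul_zero := fun x => if_pos rfl
            zero_ne_one := hoe
            exists_inv := fun a ha => hI a ha }, ?_⟩
  intro σ
  constructor
  · intro hσ
    have hg : (τ (σ o))⁻¹ * σ ∈ H := H.mul_mem (H.inv_mem (hKH (hτK _))) hσ
    have hgo : ((τ (σ o))⁻¹ * σ) o = o := by
      show (τ (σ o))⁻¹ (σ o) = o
      rw [Equiv.Perm.inv_eq_iff_eq, hτo]
    have hge : ((τ (σ o))⁻¹ * σ) e ≠ o := by
      intro h
      exact hoe (((τ (σ o))⁻¹ * σ).injective (h.trans hgo.symm)).symm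
    have hgμ := hμ2 _ hg hgo
    refine ⟨((τ (σ o))⁻¹ * σ) e, σ o, hge, fun x => ?_⟩
    show σ x = τ (σ o) (if ((τ (σ o))⁻¹ * σ) e = o then o else μ (((τ (σ o))⁻¹ * σ) e) x)
    rw [if_neg hge, ← hgμ]
    show σ x = τ (σ o) ((τ (σ o))⁻¹ (σ x))
    rw [app_inv]
  · rintro ⟨a, b, ha, hx⟩
    have ha' : a ≠ o := ha
    have : σ = τ b * μ a := by
      ext x
      rw [hx x]
      show τ b (if a = o then o else μ a x) = τ b (μ a x)
      rw [if_neg ha']
    rw [this]
    exact H.mul_mem (hKH (hτK b)) (hμ a ha').1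

end Cfsg.Agent.S0683
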