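import Cfsg.Statements.S0684
import Mathlib

set_option autoImplicit false
open Cfsg

namespace Cfsg.Agent.S0684


section
variable {p : ℕ} [Fact p.Prime] {V : Type*} [AddCommGroup V] [Module (ZMod p) V]

/-- invariance predicate -/
def Inv (H : Subgroup (V ≃ₗ[ZMod p] V)) (A : Subgroup H) (W : Submodule (ZMod p) V) : Prop :=
  ∀ a ∈ A, ∀ v ∈ W, ((a : H) : V ≃ₗ[ZMod p] V) v ∈ W

theorem min_exists [Finite V] (H : Subgroup (V ≃ₗ[ZMod p] V)) (A : Subgroup H)
    (W₀ : Submodule (ZMod p) V) (h0 : Inv H A W₀) (hne : W₀ ≠ ⊥) :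
    ∃ W : Submodule (ZMod p) V, W ≤ W₀ ∧ W ≠ ⊥ ∧ Inv H A W ∧
      ∀ W' : Submodule (ZMod p) V, W' ≤ W → Inv H A W' → W' = ⊥ ∨ W' = W := by
  classical
  haveI : Finite (Submodule (ZMod p) V) :=
    Finite.of_injective (fun W => (W : Set V)) SetLike.coe_injective
  obtain ⟨W, ⟨hW1, hW2, hW3⟩, hmin⟩ := wellFounded_lt.has_min
    {W : Submodule (ZMod p) V | W ≤ W₀ ∧ W ≠ ⊥ ∧ Inv H A W} ⟨W₀, le_rfl, hne, h0⟩
  refine ⟨W, hW1, hW2, hW3, ?_⟩
  intro W' hle hinv
  by_cases hb : W' = ⊥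
  · exact Or.inl hb
  · right
    by_contra hne'
    exact hmin W' ⟨hle.trans hW1, hb, hinv⟩ (lt_of_le_of_ne hle hne')

theorem cyc [Finite V] (H : Subgroup (V ≃ₗ[ZMod p] V))
    (hreg : ∀ v w : V, v ≠ 0 → w ≠ 0 → ∃! h : H, (h : V ≃ₗ[ZMod p] V) v = w)
    (A : Subgroup H) (hAc : IsMulCommutative A) : IsCyclic A := by
  classical
  haveI : Finite (V ≃ₗ[ZMod p] V) :=
    Finite.of_injective (fun f => (f : V → V)) DFunLike.coe_injective
  by_cases hV : (⊤ : Submodule (ZMod p) V) = ⊥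
  · have hsub : ∀ v : V, v = 0 := by
      intro v
      have : v ∈ (⊤ : Submodule (ZMod p) V) := Submodule.mem_top
      rw [hV] at this
      exact (Submodule.mem_bot _).mp this
    haveI : Subsingleton (V ≃ₗ[ZMod p] V) :=
      ⟨fun f g => LinearEquiv.ext (fun v => (hsub _).trans (hsub _).symm)⟩
    haveI : Subsingleton A := ⟨fun a b => Subtype.ext (Subtype.ext (Subsingleton.elim _ _))⟩
    exact isCyclic_of_subsingleton
  · obtain ⟨W, -, hW0, hWinv, hWmin⟩ := min_exists H A ⊤ (fun a _ v _ => Submodule.mem_top) hV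
    let ρ : A → Module.End (ZMod p) W := fun a =>
      (((a : H) : V ≃ₗ[ZMod p] V) : V →ₗ[ZMod p] V).restrict (hWinv a a.2)
    have hρmul : ∀ a b : A, ρ (a * b) = ρ a * ρ b := by
      intro a b; ext w; rfl
    have hρone : ρ 1 = 1 := by ext w; rfl
    let S : Set (Module.End (ZMod p) W) := Set.range ρ
    have hcomm : ∀ x ∈ S, ∀ y ∈ S, x * y = y * x := by
      rintro _ ⟨a, rfl⟩ _ ⟨b, rfl⟩
      rw [← hρmul, ← hρmul, mul_comm' a b]
    letI : CommRing (Algebra.adjoin (ZMod p) S) := Algebra.adjoinCommRingOfComm (ZMod p) hcomm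
    obtain ⟨w0, hw0, hw0ne⟩ : ∃ w0 : V, w0 ∈ W ∧ w0 ≠ 0 := (Submodule.ne_bot_iff W).mp hW0
    have hker : ∀ r : Algebra.adjoin (ZMod p) S, r ≠ 0 → ∀ w : W,
        (r : Module.End (ZMod p) W) w = 0 → w = 0 := by
      intro r hr w hw
      let K : Submodule (ZMod p) V := (LinearMap.ker (r : Module.End (ZMod p) W)).map W.subtype
      have hKle : K ≤ W := by
        rintro _ ⟨x, -, rfl⟩; exact x.2
      have hKinv : Inv H A K := by
        rintro a ha _ ⟨x, hx, rfl⟩
        refine ⟨ρ ⟨a, ha⟩ x, ?_, rfl⟩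
        have hc : r * ⟨ρ ⟨a, ha⟩, Algebra.subset_adjoin ⟨⟨a, ha⟩, rfl⟩⟩ =
            ⟨ρ ⟨a, ha⟩, Algebra.subset_adjoin ⟨⟨a, ha⟩, rfl⟩⟩ * r := mul_comm _ _
        have hc' : (r : Module.End (ZMod p) W) * ρ ⟨a, ha⟩ =
            ρ ⟨a, ha⟩ * (r : Module.End (ZMod p) W) := congrArg Subtype.val hc
        have h3 : (r : Module.End (ZMod p) W) (ρ ⟨a, ha⟩ x) =
            ρ ⟨a, ha⟩ ((r : Module.End (ZMod p) W) x) := by
          have := congrArg (fun f => f x) hc'; exact this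
        show (r : Module.End (ZMod p) W) (ρ ⟨a, ha⟩ x) = 0
        rw [h3, LinearMap.mem_ker.mp hx, map_zero]
      rcases hWmin K hKle hKinv with hK | hK
      · have h4 : (w : V) ∈ K := ⟨w, hw, rfl⟩
        rw [hK] at h4
        exact Subtype.ext ((Submodule.mem_bot _).mp h4)
      · exfalso; apply hr
        apply Subtype.ext
        apply LinearMap.ext
        intro x
        have h4 : (x : V) ∈ K := by rw [hK]; exact x.2
        obtain ⟨y, hy, hyx⟩ := h4
        have h5 : y = x := Subtype.ext hyx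
        rw [← h5]; exact hy
    haveI : Nontrivial (Algebra.adjoin (ZMod p) S) := by
      refine ⟨⟨1, 0, ?_⟩⟩
      intro h10
      have h1 : ((1 : Algebra.adjoin (ZMod p) S) : Module.End (ZMod p) W) =
          ((0 : Algebra.adjoin (ZMod p) S) : Module.End (ZMod p) W) := congrArg Subtype.val h10
      have h2 : ((1 : Algebra.adjoin (ZMod p) S) : Module.End (ZMod p) W) ⟨w0, hw0⟩ =
          ((0 : Algebra.adjoin (ZMod p) S) : Module.End (ZMod p) W) ⟨w0, hw0⟩ := by rw [h1]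
      exact hw0ne (congrArg Subtype.val h2)
    haveI : NoZeroDivisors (Algebra.adjoin (ZMod p) S) := by
      refine ⟨?_⟩
      intro r s hrs
      by_cases hr : r = 0
      · exact Or.inl hr
      · right
        apply Subtype.ext
        apply LinearMap.ext
        intro x
        have h1 : ((r * s : Algebra.adjoin (ZMod p) S) : Module.End (ZMod p) W) = 0 := by
          rw [hrs]; rfl
        have h2 : (r : Module.End (ZMod p) W) ((s : Module.End (ZMod p) W) x) = 0 := by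
          have := congrArg (fun f => f x) h1; exact this
        exact hker r hr _ h2
    haveI : IsDomain (Algebra.adjoin (ZMod p) S) := NoZeroDivisors.to_isDomain _
    let φ : A →* Algebra.adjoin (ZMod p) S :=
      { toFun := fun a => ⟨ρ a, Algebra.subset_adjoin ⟨a, rfl⟩⟩
        map_one' := Subtype.ext hρone
        map_mul' := fun a b => Subtype.ext (hρmul a b) }
    apply isCyclic_of_injective_ringHom φ
    intro a b hab
    have h1 : ρ a = ρ b := congrArg Subtype.val hab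
    have h2 : ((a : H) : V ≃ₗ[ZMod p] V) w0 = ((b : H) : V ≃ₗ[ZMod p] V) w0 := by
      have := congrArg (fun f => ((f ⟨w0, hw0⟩ : W) : V)) h1; exact this
    have hne : ((b : H) : V ≃ₗ[ZMod p] V) w0 ≠ 0 := by
      intro h; apply hw0ne; exact (LinearEquiv.map_eq_zero_iff _).mp h
    obtain ⟨h, -, huniq⟩ := hreg w0 (((b : H) : V ≃ₗ[ZMod p] V) w0) hw0ne hne
    have ha := huniq (a : H) h2
    have hb := huniq (b : H) rfl
    exact Subtype.ext (ha.trans hb.symm)

theorem card_dvd [Finite V] (H : Subgroup (V ≃ₗ[ZMod p] V))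
    (hreg : ∀ v w : V, v ≠ 0 → w ≠ 0 → ∃! h : H, (h : V ≃ₗ[ZMod p] V) v = w)
    (A : Subgroup H) (W : Submodule (ZMod p) V) (hWinv : Inv H A W) :
    Nat.card A ∣ p ^ Module.finrank (ZMod p) W - 1 := by
  classical
  letI : MulAction A {v : V // v ∈ W ∧ v ≠ 0} :=
    { smul := fun a x => ⟨((a : H) : V ≃ₗ[ZMod p] V) x.1, hWinv a a.2 _ x.2.1,
        fun h => x.2.2 ((LinearEquiv.map_eq_zero_iff _).mp h)⟩
      one_smul := fun x => Subtype.ext rfl
      mul_smul := fun a b x => Subtype.ext rfl }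
  have hfree : ∀ x : {v : V // v ∈ W ∧ v ≠ 0}, MulAction.stabilizer A x = ⊥ := by
    intro x
    rw [eq_bot_iff]
    intro a ha
    rw [MulAction.mem_stabilizer_iff] at ha
    have h1 : ((a : H) : V ≃ₗ[ZMod p] V) x.1 = x.1 := congrArg Subtype.val ha
    obtain ⟨h, -, huniq⟩ := hreg x.1 x.1 x.2.2 x.2.2
    have e1 := huniq (a : H) h1
    have e2 := huniq (1 : H) rfl
    rw [Subgroup.mem_bot]
    exact Subtype.ext (e1.trans e2.symm)
  have e := MulAction.selfEquivOrbitsQuotientProd hfree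
  have hcard : Nat.card {v : V // v ∈ W ∧ v ≠ 0} =
      Nat.card (Quotient (MulAction.orbitRel A {v : V // v ∈ W ∧ v ≠ 0})) * Nat.card A := by
    rw [Nat.card_congr e, Nat.card_prod]
  have hX : Nat.card {v : V // v ∈ W ∧ v ≠ 0} = p ^ Module.finrank (ZMod p) W - 1 := by
    have h1 : Nat.card {v : V // v ∈ W ∧ v ≠ 0} = Set.ncard ((W : Set V) \ {0}) := by
      rw [← Nat.card_coe_set_eq]
      apply Nat.card_congr
      exact Equiv.subtypeEquivRight (fun v => by simp)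
    rw [h1, Set.ncard_sdiff_singleton_of_mem (Submodule.zero_mem W), ← Nat.card_coe_set_eq]
    have h2 : Nat.card (W : Set V) = p ^ Module.finrank (ZMod p) W := by
      have := Module.natCard_eq_pow_finrank (K := ZMod p) (V := W)
      rw [Nat.card_zmod] at this
      exact this
    rw [h2]
  rw [← hX, hcard]
  exact dvd_mul_left _ _

end


/-- Point stabiliser of a sharply doubly transitive group not of semilinear type: a maximal normal abelian subgroup `A` of a linear group `H` that is regular on non-zero vectors and has no irreducible cyclic normal subgroup is cyclic and reducible, and the order of `A` divides `p ^ k - 1` for `k` the dimension of a minimal `A`-invariant subspace. -/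
theorem result {p : ℕ} [Fact p.Prime] {V : Type*} [AddCommGroup V] [Module (ZMod p) V] [Finite V] (H : Subgroup (V ≃ₗ[ZMod p] V)) (hreg : ∀ v w : V, v ≠ 0 → w ≠ 0 → ∃! h : H, (h : V ≃ₗ[ZMod p] V) v = w) (hI : ∀ A : Subgroup H, A.Normal → IsCyclic A → ∃ W : Submodule (ZMod p) V, W ≠ ⊥ ∧ W ≠ ⊤ ∧ ∀ a ∈ A, ∀ v ∈ W, ((a : H) : V ≃ₗ[ZMod p] V) v ∈ W) (A : Subgroup H) (hAn : A.Normal) (hAc : IsMulCommutative A) (hAmax : ∀ B : Subgroup H, B.Normal → IsMulCommutative B → A ≤ B → B = A) : IsCyclic A ∧ ∃ W : Submodule (ZMod p) V, W ≠ ⊥ ∧ W ≠ ⊤ ∧ (∀ a ∈ A, ∀ v ∈ W, ((a : H) : V ≃ₗ[ZMod p] V) v ∈ W) ∧ (∀ W' : Submodule (ZMod p) V, W' ≤ W → (∀ a ∈ A, ∀ v ∈ W', ((a : H) : V ≃ₗ[ZMod p] V) v ∈ W') → W' = ⊥ ∨ W' = W) ∧ Nat.card A ∣ p ^ Module.finrank (ZMod p) W - 1 := by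
  classical
  have hcyc : IsCyclic A := cyc H hreg A hAc
  refine ⟨hcyc, ?_⟩
  obtain ⟨W₀, hW₀bot, hW₀top, hW₀inv⟩ := hI A hAn hcyc
  obtain ⟨W, hle, hW0, hWinv, hWmin⟩ := min_exists H A W₀ hW₀inv hW₀bot
  refine ⟨W, hW0, ?_, hWinv, hWmin, card_dvd H hreg A W hWinv⟩
  intro h
  apply hW₀top
  rw [h] at hle
  exact top_le_iff.mp hle

end Cfsg.Agent.S0684
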