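import Cfsg.Statements.S0685
import Mathlib
import Cfsg.Agent.S0684
import Cfsg.Agent.Lib.helper4.SelfDual

set_option autoImplicit false
open Cfsg

namespace Cfsg.Agent.S0685


section
variable {p : ℕ} [Fact p.Prime] {V : Type*} [AddCommGroup V] [Module (ZMod p) V]

theorem aeval_restrict_apply (g : Module.End (ZMod p) V) (W : Submodule (ZMod p) V)
    (hg : ∀ v ∈ W, g v ∈ W) (q : Polynomial (ZMod p)) (w : W) :
    ((Polynomial.aeval (g.restrict hg) q w : W) : V) = Polynomial.aeval g q (w : V) := by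
  induction q using Polynomial.induction_on' with
  | add q₁ q₂ h1 h2 =>
    rw [map_add, map_add, LinearMap.add_apply, LinearMap.add_apply, Submodule.coe_add, h1, h2]
  | monomial n c =>
    rw [Polynomial.aeval_monomial, Polynomial.aeval_monomial, Module.End.pow_restrict n hg]
    rw [Module.End.mul_apply, Module.End.mul_apply, Module.algebraMap_end_apply,
      Module.algebraMap_end_apply, Submodule.coe_smul]
    rfl

theorem quot_le [Finite V] (H : Subgroup (V ≃ₗ[ZMod p] V))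
    (hreg : ∀ v w : V, v ≠ 0 → w ≠ 0 → ∃! h : H, (h : V ≃ₗ[ZMod p] V) v = w)
    (A : Subgroup H) (hAn : A.Normal) (hAc : IsMulCommutative A)
    (hC : Subgroup.centralizer (A : Set H) ≤ A)
    (W : Submodule (ZMod p) V) (hW0 : W ≠ ⊥) (hWinv : S0684.Inv H A W)
    (hWmin : ∀ W' : Submodule (ZMod p) V, W' ≤ W → S0684.Inv H A W' → W' = ⊥ ∨ W' = W)
    (a₀ : A) (hgen : ∀ a : A, a ∈ Subgroup.zpowers a₀) :
    Nat.card H ≤ Module.finrank (ZMod p) V * Nat.card A := by
  classical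
  haveI : Finite (V ≃ₗ[ZMod p] V) :=
    Finite.of_injective (fun f => (f : V → V)) DFunLike.coe_injective
  let ρ : A → Module.End (ZMod p) W := fun a =>
    (((a : H) : V ≃ₗ[ZMod p] V) : V →ₗ[ZMod p] V).restrict (hWinv a a.2)
  have hρmul : ∀ a b : A, ρ (a * b) = ρ a * ρ b := by
    intro a b; ext w; rfl
  have hρone : ρ 1 = 1 := by ext w; rfl
  have hρpow : ∀ (a : A) (j : ℕ), ρ (a ^ j) = (ρ a) ^ j := by
    intro a j
    induction j with
    | zero => rw [pow_zero, pow_zero]; exact hρone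
    | succ j ih => rw [pow_succ, pow_succ, hρmul, ih]
  obtain ⟨w0, hw0, hw0ne⟩ : ∃ w0 : V, w0 ∈ W ∧ w0 ≠ 0 := (Submodule.ne_bot_iff W).mp hW0
  haveI : Nontrivial W := ⟨⟨⟨w0, hw0⟩, 0, fun h => hw0ne (congrArg Subtype.val h)⟩⟩
  have hρinj : ∀ a b : A, ρ a = ρ b → a = b := by
    intro a b h1
    have h2 : ((a : H) : V ≃ₗ[ZMod p] V) w0 = ((b : H) : V ≃ₗ[ZMod p] V) w0 := by
      have := congrArg (fun f => ((f ⟨w0, hw0⟩ : W) : V)) h1; exact this
    have hne : ((b : H) : V ≃ₗ[ZMod p] V) w0 ≠ 0 := by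
      intro h; apply hw0ne; exact (LinearEquiv.map_eq_zero_iff _).mp h
    obtain ⟨h, -, huniq⟩ := hreg w0 (((b : H) : V ≃ₗ[ZMod p] V) w0) hw0ne hne
    have ha := huniq (a : H) h2
    have hb := huniq (b : H) rfl
    exact Subtype.ext (ha.trans hb.symm)
  have hJ : ∀ a : A, ∃ j : ℕ, a₀ ^ j = a := by
    intro a
    have h1 : a ∈ Submonoid.powers a₀ := mem_powers_iff_mem_zpowers.mpr (hgen a)
    exact (Submonoid.mem_powers_iff a a₀).mp h1
  let J : A → ℕ := fun a => Classical.choose (hJ a)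
  have hJspec : ∀ a : A, a₀ ^ J a = a := fun a => Classical.choose_spec (hJ a)
  let T : Module.End (ZMod p) W := ρ a₀
  have hT : ∀ a : A, ρ a = T ^ J a := by
    intro a
    conv_lhs => rw [← hJspec a]
    exact hρpow a₀ (J a)
  have hirr : ∀ U : Submodule (ZMod p) W, (∀ u ∈ U, T u ∈ U) → U = ⊥ ∨ U = ⊤ := by
    intro U hU
    have hinv : S0684.Inv H A (U.map W.subtype) := by
      rintro a ha _ ⟨u, hu, rfl⟩
      refine ⟨ρ ⟨a, ha⟩ u, ?_, rfl⟩
      rw [hT ⟨a, ha⟩]
      exact Module.End.pow_apply_mem_of_forall_mem (J ⟨a, ha⟩) hU u hu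
    have hle : U.map W.subtype ≤ W := by rintro _ ⟨x, -, rfl⟩; exact x.2
    rcases hWmin _ hle hinv with h1 | h1
    · left
      rw [eq_bot_iff]
      intro u hu
      have h2 : (u : V) ∈ U.map W.subtype := ⟨u, hu, rfl⟩
      rw [h1] at h2
      exact (Submodule.mem_bot _).mpr (Subtype.ext ((Submodule.mem_bot _).mp h2))
    · right
      rw [eq_top_iff]
      intro x _
      have h2 : (x : V) ∈ U.map W.subtype := by rw [h1]; exact x.2
      obtain ⟨y, hy, hyx⟩ := h2
      have h3 : y = x := Subtype.ext hyx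
      rw [← h3]; exact hy
  have hirred : Irreducible (minpoly (ZMod p) T) := Cfsg.Agent.Lib.helper4.minpoly_irred T hirr
  haveI : Fact (Irreducible (minpoly (ZMod p) T)) := ⟨hirred⟩
  -- the characteristic polynomial of the generator
  let f₀ : Module.End (ZMod p) V := (((a₀ : H) : V ≃ₗ[ZMod p] V) : V →ₗ[ZMod p] V)
  let χ : Polynomial (ZMod p) := LinearMap.charpoly f₀
  have hχdeg : χ.natDegree = Module.finrank (ZMod p) V := LinearMap.charpoly_natDegree f₀
  have hχmonic : χ.Monic := LinearMap.charpoly_monic f₀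
  have hχ0 : Polynomial.aeval f₀ χ = 0 := LinearMap.aeval_self_charpoly f₀
  let b : H → A := fun h => ⟨h * (a₀ : H) * h⁻¹, hAn.conj_mem a₀ a₀.2 h⟩
  have hroot : ∀ h : H, Polynomial.aeval (ρ (b h)) χ = 0 := by
    intro h
    have h1 : ((((b h : A) : H) : V ≃ₗ[ZMod p] V) : V →ₗ[ZMod p] V) =
        ((h : V ≃ₗ[ZMod p] V).conjAlgEquiv (ZMod p)) f₀ := by
      ext v; rfl
    have h2 : Polynomial.aeval ((((b h : A) : H) : V ≃ₗ[ZMod p] V) : V →ₗ[ZMod p] V) χ = 0 := by
      rw [h1, Polynomial.aeval_algHom_apply, hχ0, map_zero]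
    apply LinearMap.ext
    intro w
    apply Subtype.ext
    have h3 := aeval_restrict_apply ((((b h : A) : H) : V ≃ₗ[ZMod p] V) : V →ₗ[ZMod p] V) W
      (hWinv (b h) (b h).2) χ w
    rw [h2] at h3
    exact h3
  let β : H → AdjoinRoot (minpoly (ZMod p) T) := fun h =>
    AdjoinRoot.mk (minpoly (ZMod p) T) (Polynomial.X ^ J (b h))
  let χK : Polynomial (AdjoinRoot (minpoly (ZMod p) T)) :=
    χ.map (algebraMap (ZMod p) (AdjoinRoot (minpoly (ZMod p) T)))
  have hχK0 : χK ≠ 0 := (hχmonic.map _).ne_zero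
  have hβroot : ∀ h : H, β h ∈ χK.roots := by
    intro h
    rw [Polynomial.mem_roots hχK0, Polynomial.IsRoot.def, Polynomial.eval_map_algebraMap]
    have e1 : β h = Polynomial.aeval (AdjoinRoot.root (minpoly (ZMod p) T))
        (Polynomial.X ^ J (b h) : Polynomial (ZMod p)) := by
      rw [AdjoinRoot.aeval_eq]
    rw [e1, ← Polynomial.aeval_comp, AdjoinRoot.aeval_eq, AdjoinRoot.mk_eq_zero]
    apply minpoly.dvd
    rw [Polynomial.aeval_comp, map_pow, Polynomial.aeval_X, ← hT (b h)]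
    exact hroot h
  have hβinj : ∀ h h' : H, β h = β h' → b h = b h' := by
    intro h h' e
    have e1 : minpoly (ZMod p) T ∣
        (Polynomial.X ^ J (b h) - Polynomial.X ^ J (b h') : Polynomial (ZMod p)) :=
      AdjoinRoot.mk_eq_mk.mp e
    have e2 := (minpoly.dvd_iff).mp e1
    rw [map_sub, map_pow, map_pow, Polynomial.aeval_X, sub_eq_zero, ← hT, ← hT] at e2
    exact hρinj _ _ e2
  have hbeq : ∀ h h' : H, h⁻¹ * h' ∈ A → b h = b h' := by
    intro h h' hm
    apply Subtype.ext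
    show h * (a₀ : H) * h⁻¹ = h' * (a₀ : H) * h'⁻¹
    have hc : (⟨h⁻¹ * h', hm⟩ : A) * a₀ = a₀ * ⟨h⁻¹ * h', hm⟩ := mul_comm' _ _
    have hc' : h⁻¹ * h' * (a₀ : H) = (a₀ : H) * (h⁻¹ * h') := congrArg Subtype.val hc
    have e : h' * (a₀ : H) * h'⁻¹ = h * (h⁻¹ * h' * (a₀ : H)) * (h⁻¹ * h')⁻¹ * h⁻¹ := by group
    rw [e, hc']; group
  have hbinj : ∀ h h' : H, b h = b h' → h⁻¹ * h' ∈ A := by
    intro h h' hb
    apply hC
    have h1 : h * (a₀ : H) * h⁻¹ = h' * (a₀ : H) * h'⁻¹ := congrArg Subtype.val hb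
    have h2 : (a₀ : H) * (h⁻¹ * h') = h⁻¹ * h' * (a₀ : H) := by
      have e : (a₀ : H) = h⁻¹ * (h' * (a₀ : H) * h'⁻¹) * h := by rw [← h1]; group
      calc (a₀ : H) * (h⁻¹ * h') = h⁻¹ * (h' * (a₀ : H) * h'⁻¹) * h * (h⁻¹ * h') := by rw [← e]
        _ = h⁻¹ * h' * (a₀ : H) := by group
    rw [Subgroup.mem_centralizer_iff]
    intro x hx
    obtain ⟨z, hz⟩ := Subgroup.mem_zpowers_iff.mp (hgen ⟨x, hx⟩)
    have hx' : x = (a₀ : H) ^ z := by
      have e := congrArg Subtype.val hz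
      rw [Subgroup.coe_zpow] at e
      exact e.symm
    rw [hx']
    exact (Commute.zpow_left (show Commute (a₀ : H) (h⁻¹ * h') from h2) z).eq
  let Ψ : H ⧸ A → AdjoinRoot (minpoly (ZMod p) T) := Quotient.lift β (by
    intro h h' hr
    have hm : h⁻¹ * h' ∈ A := QuotientGroup.leftRel_apply.mp hr
    show AdjoinRoot.mk (minpoly (ZMod p) T) (Polynomial.X ^ J (b h)) =
      AdjoinRoot.mk (minpoly (ZMod p) T) (Polynomial.X ^ J (b h'))
    rw [hbeq h h' hm])
  have hΨinj : Function.Injective Ψ := by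
    intro x y hxy
    induction x using Quotient.inductionOn' with
    | h h =>
      induction y using Quotient.inductionOn' with
      | h h' =>
        have e1 : β h = β h' := hxy
        exact QuotientGroup.eq.mpr (hbinj h h' (hβinj h h' e1))
  have hq : Nat.card (H ⧸ A) ≤ Module.finrank (ZMod p) V := by
    have hr : Set.range Ψ ⊆ (χK.roots.toFinset : Set (AdjoinRoot (minpoly (ZMod p) T))) := by
      rintro _ ⟨x, rfl⟩
      induction x using Quotient.inductionOn' with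
      | h h => exact Finset.mem_coe.mpr (Multiset.mem_toFinset.mpr (hβroot h))
    calc Nat.card (H ⧸ A) = Nat.card (Set.range Ψ) := (Nat.card_range_of_injective hΨinj).symm
      _ = (Set.range Ψ).ncard := rfl
      _ ≤ (χK.roots.toFinset : Set (AdjoinRoot (minpoly (ZMod p) T))).ncard :=
          Set.ncard_le_ncard hr (Finset.finite_toSet _)
      _ = χK.roots.toFinset.card := Set.ncard_coe_finset _
      _ ≤ Multiset.card χK.roots := Multiset.toFinset_card_le _
      _ ≤ χK.natDegree := Polynomial.card_roots' _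
      _ ≤ χ.natDegree := Polynomial.natDegree_map_le
      _ = Module.finrank (ZMod p) V := hχdeg
  rw [Subgroup.card_eq_card_quotient_mul_card_subgroup A]
  exact Nat.mul_le_mul_right _ hq

theorem core [Finite V] (H : Subgroup (V ≃ₗ[ZMod p] V))
    (hreg : ∀ v w : V, v ≠ 0 → w ≠ 0 → ∃! h : H, (h : V ≃ₗ[ZMod p] V) v = w)
    (hI : ∀ A : Subgroup H, A.Normal → IsCyclic A → ∃ W : Submodule (ZMod p) V, W ≠ ⊥ ∧ W ≠ ⊤ ∧
      ∀ a ∈ A, ∀ v ∈ W, ((a : H) : V ≃ₗ[ZMod p] V) v ∈ W)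
    (A : Subgroup H) (hAn : A.Normal) (hAc : IsMulCommutative A)
    (hC : Subgroup.centralizer (A : Set H) ≤ A) : False := by
  classical
  haveI : Finite (V ≃ₗ[ZMod p] V) :=
    Finite.of_injective (fun f => (f : V → V)) DFunLike.coe_injective
  have hcyc : IsCyclic A := S0684.cyc H hreg A hAc
  obtain ⟨a₀, hgen⟩ := hcyc.exists_generator
  obtain ⟨W₀, hW₀bot, hW₀top, hW₀inv⟩ := hI A hAn hcyc
  obtain ⟨W, hle, hW0, hWinv, hWmin⟩ := S0684.min_exists H A W₀ hW₀inv hW₀bot
  have hWtop : W ≠ ⊤ := by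
    intro h
    apply hW₀top
    rw [h] at hle
    exact top_le_iff.mp hle
  have hdvd := S0684.card_dvd H hreg A W hWinv
  have hquot := quot_le H hreg A hAn hAc hC W hW0 hWinv hWmin a₀ hgen
  obtain ⟨w0, hw0, hw0ne⟩ : ∃ w0 : V, w0 ∈ W ∧ w0 ≠ 0 := (Submodule.ne_bot_iff W).mp hW0
  obtain ⟨v1, hv1⟩ : ∃ v1 : V, v1 ∉ W := by
    by_contra hcon
    push_neg at hcon
    exact hWtop (eq_top_iff.mpr (fun v _ => hcon v))
  have hv1ne : v1 ≠ 0 := fun h => hv1 (h ▸ W.zero_mem)
  obtain ⟨h, hh, -⟩ := hreg w0 v1 hw0ne hv1ne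
  let W' : Submodule (ZMod p) V := W.map ((h : V ≃ₗ[ZMod p] V) : V →ₗ[ZMod p] V)
  have hW'inv : S0684.Inv H A W' := by
    rintro a ha _ ⟨w, hw, rfl⟩
    have hc : h⁻¹ * a * h ∈ A := by
      have := hAn.conj_mem a ha h⁻¹
      rwa [inv_inv] at this
    refine ⟨((h⁻¹ * a * h : H) : V ≃ₗ[ZMod p] V) w, hWinv _ hc w hw, ?_⟩
    show (h : V ≃ₗ[ZMod p] V) ((h : V ≃ₗ[ZMod p] V).symm ((a : V ≃ₗ[ZMod p] V) ((h : V ≃ₗ[ZMod p] V) w))) = _
    rw [LinearEquiv.apply_symm_apply]
    rfl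
  have hfr : Module.finrank (ZMod p) W' = Module.finrank (ZMod p) W :=
    LinearEquiv.finrank_map_eq (h : V ≃ₗ[ZMod p] V) W
  have hinf : W ⊓ W' = ⊥ := by
    have hinv : S0684.Inv H A (W ⊓ W') :=
      fun a ha v hv => ⟨hWinv a ha v hv.1, hW'inv a ha v hv.2⟩
    rcases hWmin (W ⊓ W') inf_le_left hinv with h1 | h1
    · exact h1
    · exfalso
      have hle' : W ≤ W' := by
        intro v hv
        have : v ∈ W ⊓ W' := by rw [h1]; exact hv
        exact this.2
      have heq : W = W' := Submodule.eq_of_le_of_finrank_eq hle' hfr.symm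
      apply hv1
      rw [heq]
      exact ⟨w0, hw0, hh⟩
  have h2k : 2 * Module.finrank (ZMod p) W ≤ Module.finrank (ZMod p) V := by
    have h1 := Submodule.finrank_sup_add_finrank_inf_eq W W'
    rw [hinf, finrank_bot, add_zero, hfr] at h1
    have h2 := Submodule.finrank_le (W ⊔ W')
    omega
  have hk1 : 1 ≤ Module.finrank (ZMod p) W := by
    by_contra hlt
    have h0 : Module.finrank (ZMod p) W = 0 := by omega
    exact hW0 (Submodule.finrank_eq_zero.mp h0)
  have hH : p ^ Module.finrank (ZMod p) V - 1 ≤ Nat.card H := by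
    have h1 : Nat.card {v : V // v ≠ 0} ≤ Nat.card H := by
      apply Nat.card_le_card_of_injective
        (fun v : {v : V // v ≠ 0} => Classical.choose (hreg w0 v.1 hw0ne v.2).exists)
      intro v v' hvv
      have e1 := Classical.choose_spec (hreg w0 v.1 hw0ne v.2).exists
      have e2 := Classical.choose_spec (hreg w0 v'.1 hw0ne v'.2).exists
      apply Subtype.ext
      calc v.1 = ((Classical.choose (hreg w0 v.1 hw0ne v.2).exists : H) : V ≃ₗ[ZMod p] V) w0 := e1.symm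
        _ = ((Classical.choose (hreg w0 v'.1 hw0ne v'.2).exists : H) : V ≃ₗ[ZMod p] V) w0 :=
            congrArg (fun g : H => (g : V ≃ₗ[ZMod p] V) w0) hvv
        _ = v'.1 := e2
    have h2 : Nat.card {v : V // v ≠ 0} = p ^ Module.finrank (ZMod p) V - 1 := by
      have e : Nat.card {v : V // v ≠ 0} = Set.ncard ((Set.univ : Set V) \ {0}) := by
        rw [← Nat.card_coe_set_eq]
        apply Nat.card_congr
        exact Equiv.subtypeEquivRight (fun v => by simp)
      rw [e, Set.ncard_sdiff_singleton_of_mem (Set.mem_univ 0), Set.ncard_univ,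
        Module.natCard_eq_pow_finrank (K := ZMod p) (V := V), Nat.card_zmod]
    omega
  have hp2 : 2 ≤ p := (Fact.out : p.Prime).two_le
  generalize Module.finrank (ZMod p) V = n at *
  generalize Module.finrank (ZMod p) W = k at *
  have hPk : 2 ≤ p ^ k := by
    calc 2 ≤ p := hp2
      _ = p ^ 1 := (pow_one p).symm
      _ ≤ p ^ k := Nat.pow_le_pow_right (by omega) hk1
  have hA : Nat.card A ≤ p ^ k - 1 := Nat.le_of_dvd (by omega) hdvd
  have h1 : p ^ n - 1 ≤ n * (p ^ k - 1) := hH.trans (hquot.trans (Nat.mul_le_mul_left n hA))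
  have hQ : n ≤ p ^ (n - k) := by
    have e1 : 2 ^ (n - k) ≤ p ^ (n - k) := Nat.pow_le_pow_left hp2 _
    have e2 : n - k - 1 < 2 ^ (n - k - 1) := Nat.lt_two_pow_self
    have e3 : 2 ^ (n - k) = 2 * 2 ^ (n - k - 1) := by
      have e4 : n - k = (n - k - 1) + 1 := by omega
      conv_lhs => rw [e4]
      rw [pow_succ]; ring
    omega
  have hpn : p ^ n = p ^ k * p ^ (n - k) := by
    rw [← pow_add]; congr 1; omega
  obtain ⟨P', hP'⟩ : ∃ P', p ^ k = P' + 1 := ⟨p ^ k - 1, by omega⟩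
  rw [hpn, hP'] at h1
  have h3 : n * P' ≤ p ^ (n - k) * P' := Nat.mul_le_mul_right _ hQ
  have h4 : (P' + 1) * p ^ (n - k) = p ^ (n - k) * P' + p ^ (n - k) := by ring
  have h5 : P' + 1 - 1 = P' := by omega
  rw [h4, h5] at h1
  omega

end


/-- In a linear group over the prime field that is regular on non-zero vectors and has no irreducible cyclic normal subgroup, a maximal normal abelian subgroup is properly contained in its centraliser, which is non-abelian. -/
theorem result {p : ℕ} [Fact p.Prime] {V : Type*} [AddCommGroup V] [Module (ZMod p) V] [Finite V] (H : Subgroup (V ≃ₗ[ZMod p] V)) (hreg : ∀ v w : V, v ≠ 0 → w ≠ 0 → ∃! h : H, (h : V ≃ₗ[ZMod p] V) v = w) (hI : ∀ A : Subgroup H, A.Normal → IsCyclic A → ∃ W : Submodule (ZMod p) V, W ≠ ⊥ ∧ W ≠ ⊤ ∧ ∀ a ∈ A, ∀ v ∈ W, ((a : H) : V ≃ₗ[ZMod p] V) v ∈ W) (A : Subgroup H) (hAn : A.Normal) (hAc : IsMulCommutative A) (hAmax : ∀ B : Subgroup H, B.Normal → IsMulCommutative B → A ≤ B → B = A) :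 A < Subgroup.centralizer (A : Set H) ∧ ¬ IsMulCommutative (Subgroup.centralizer (A : Set H)) := by
  classical
  have hAC : A ≤ Subgroup.centralizer (A : Set H) := by
    intro a ha
    rw [Subgroup.mem_centralizer_iff]
    intro b hb
    have e : (⟨b, hb⟩ : A) * ⟨a, ha⟩ = ⟨a, ha⟩ * ⟨b, hb⟩ := mul_comm' _ _
    exact congrArg Subtype.val e
  have hnot : ¬ Subgroup.centralizer (A : Set H) ≤ A := fun hC => core H hreg hI A hAn hAc hC
  refine ⟨lt_of_le_of_ne hAC (fun h => hnot (le_of_eq h.symm)), ?_⟩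
  intro hcomm
  haveI := hAn
  have hCn : (Subgroup.centralizer (A : Set H)).Normal := Subgroup.normal_centralizer
  exact hnot (le_of_eq (hAmax _ hCn hcomm hAC))

end Cfsg.Agent.S0685
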