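import Mathlib
import Cfsg.Statements.S0691
import Cfsg.Agent.Lib.helper17.M2Ring

set_option autoImplicit false
open Cfsg

namespace Cfsg.Agent.S0691

open Cfsg.Agent.Lib.helper17.SL25

instance factp : Fact (Nat.Prime 5) := ⟨by norm_num⟩

/-- entries of an invertible matrix -/
def encG (g : Matrix.GeneralLinearGroup (Fin 2) (ZMod 5)) : M2 (ZMod 5) :=
  ⟨g.val 0 0, g.val 0 1, g.val 1 0, g.val 1 1⟩

theorem encG_one : encG 1 = 1 := by
  show (⟨_, _, _, _⟩ : M2 (ZMod 5)) = ⟨1, 0, 0, 1⟩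
  simp

theorem encG_mul (g h : Matrix.GeneralLinearGroup (Fin 2) (ZMod 5)) :
    encG (g * h) = encG g * encG h := by
  show (⟨_, _, _, _⟩ : M2 (ZMod 5)) = ⟨_, _, _, _⟩
  simp [encG, Matrix.mul_apply, Fin.sum_univ_two]

theorem encG_injective : Function.Injective encG := by
  intro A B h
  have h' : (⟨A.val 0 0, A.val 0 1, A.val 1 0, A.val 1 1⟩ : M2 (ZMod 5)) =
      ⟨B.val 0 0, B.val 0 1, B.val 1 0, B.val 1 1⟩ := h
  rw [M2.mk.injEq] at h'
  obtain ⟨h1, h2, h3, h4⟩ := h'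
  apply Units.ext
  ext i j
  fin_cases i <;> fin_cases j <;> assumption

theorem encG_inv (g : Matrix.GeneralLinearGroup (Fin 2) (ZMod 5)) (X : M2 (ZMod 5))
    (h : X * encG g = 1) : encG g⁻¹ = X := by
  have h1 : encG g * encG g⁻¹ = 1 := by rw [← encG_mul, mul_inv_cancel, encG_one]
  calc encG g⁻¹ = (X * encG g) * encG g⁻¹ := by rw [h, one_mul]
    _ = X := by rw [mul_assoc, h1, mul_one]

def Am : M2 (ZMod 5) := ⟨2, 0, 0, 3⟩
def Ai : M2 (ZMod 5) := ⟨3, 0, 0, 2⟩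
def Bm : M2 (ZMod 5) := ⟨0, 4, 1, 0⟩
def Bi : M2 (ZMod 5) := ⟨0, 1, 4, 0⟩
def Cm : M2 (ZMod 5) := ⟨1, 2, 1, 3⟩
def Ci : M2 (ZMod 5) := ⟨3, 3, 4, 1⟩

/-- the elements of the group -/
def litsQ : List (M2 (ZMod 5)) :=
  [⟨1, 0, 0, 1⟩,
   ⟨2, 0, 0, 3⟩,
   ⟨0, 4, 1, 0⟩,
   ⟨1, 2, 1, 3⟩,
   ⟨4, 0, 0, 4⟩,
   ⟨0, 3, 3, 0⟩,
   ⟨2, 4, 3, 4⟩,
   ⟨0, 2, 2, 0⟩,
   ⟨4, 2, 1, 2⟩,
   ⟨2, 1, 2, 4⟩,
   ⟨3, 3, 4, 1⟩,
   ⟨3, 0, 0, 2⟩,
   ⟨0, 1, 4, 0⟩,
   ⟨4, 3, 4, 2⟩,
   ⟨3, 4, 3, 1⟩,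
   ⟨1, 1, 2, 3⟩,
   ⟨3, 1, 2, 1⟩,
   ⟨1, 4, 3, 3⟩,
   ⟨1, 3, 4, 3⟩,
   ⟨3, 2, 1, 1⟩,
   ⟨2, 2, 1, 4⟩,
   ⟨2, 3, 4, 4⟩,
   ⟨4, 4, 3, 2⟩,
   ⟨4, 1, 2, 2⟩]

/-- parents in the breadth-first search -/
def par : List (ℕ × ℕ) :=
  [(0, 0), (0, 0), (0, 1), (0, 2), (1, 0), (1, 1), (1, 2), (2, 0), (2, 2), (3, 0), (3, 2), (4, 0), (4, 1), (4, 2), (5, 2), (6, 2), (8, 0), (8, 2), (9, 1), (9, 2), (13, 2), (14, 2), (16, 2), (18, 2)]

set_option maxRecDepth 100000 in
theorem lits_closed : ∀ q ∈ litsQ, q * Am ∈ litsQ ∧ q * Ai ∈ litsQ ∧ q * Bm ∈ litsQ ∧ q * Bi ∈ litsQ ∧ q * Cm ∈ litsQ ∧ q * Ci ∈ litsQ := by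
  decide +kernel

theorem AiAm : Ai * Am = 1 := by decide
theorem BiBm : Bi * Bm = 1 := by decide
theorem CiCm : Ci * Cm = 1 := by decide

set_option maxRecDepth 100000 in
theorem one_mem_lits : (1 : M2 (ZMod 5)) ∈ litsQ := by decide +kernel

set_option maxRecDepth 100000 in
theorem free_chk : ∀ q ∈ litsQ, q = 1 ∨ (q.a - 1) * (q.d - 1) - q.b * q.c ≠ 0 := by decide +kernel

set_option maxRecDepth 100000 in
theorem trans_chk : ∀ x y : ZMod 5, (x ≠ 0 ∨ y ≠ 0) → ∃ q ∈ litsQ, q.a = x ∧ q.c = y := by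
  decide +kernel

set_option maxRecDepth 100000 in
theorem par_chk : ∀ i < 24, i = 0 ∨ ((par.getD i (0, 0)).1 < i ∧
    litsQ.getD i 1 = litsQ.getD (par.getD i (0, 0)).1 1 * (if (par.getD i (0, 0)).2 = 0 then Am else if (par.getD i (0, 0)).2 = 1 then Bm else Cm)) := by decide +kernel

theorem lits_zero : litsQ.getD 0 1 = 1 := by decide +kernel

theorem lits_len : litsQ.length = 24 := by decide +kernel

section main

variable (A B C : Matrix.GeneralLinearGroup (Fin 2) (ZMod 5))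
  (hA : encG A = Am) (hB : encG B = Bm) (hC : encG C = Cm)

include hA hB hC in
theorem mem_S (u : Matrix.GeneralLinearGroup (Fin 2) (ZMod 5))
    (hu : u ∈ Subgroup.closure ({A, B, C} : Set (Matrix.GeneralLinearGroup (Fin 2) (ZMod 5)))) :
    encG u ∈ litsQ := by
  have key : ∀ u : Matrix.GeneralLinearGroup (Fin 2) (ZMod 5),
      u ∈ Subgroup.closure ({A, B, C} : Set (Matrix.GeneralLinearGroup (Fin 2) (ZMod 5))) →
      ∀ m ∈ litsQ, m * encG u ∈ litsQ ∧ m * encG u⁻¹ ∈ litsQ := by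
    intro u hu
    induction hu using Subgroup.closure_induction with
    | mem x hx =>
      rcases hx with rfl | rfl | rfl
      · intro q hq
        rw [encG_inv x Ai (by rw [hA]; exact AiAm), hA]
        exact ⟨(lits_closed q hq).1, (lits_closed q hq).2.1⟩
      · intro q hq
        rw [encG_inv x Bi (by rw [hB]; exact BiBm), hB]
        exact ⟨(lits_closed q hq).2.2.1, (lits_closed q hq).2.2.2.1⟩
      · intro q hq
        rw [encG_inv x Ci (by rw [hC]; exact CiCm), hC]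
        exact ⟨(lits_closed q hq).2.2.2.2.1, (lits_closed q hq).2.2.2.2.2⟩
    | one =>
      intro m hm
      rw [inv_one, encG_one, mul_one]
      exact ⟨hm, hm⟩
    | mul x y hx hy ihx ihy =>
      intro m hm
      rw [encG_mul, ← mul_assoc, mul_inv_rev, encG_mul, ← mul_assoc]
      exact ⟨(ihy _ (ihx m hm).1).1, (ihx _ (ihy m hm).2).2⟩
    | inv x hx ih =>
      intro m hm
      rw [inv_inv]
      exact ⟨(ih m hm).2, (ih m hm).1⟩
  have := (key u hu 1 one_mem_lits).1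
  rwa [one_mul] at this

theorem mulVec_eq (g : Matrix.GeneralLinearGroup (Fin 2) (ZMod 5)) (v : Fin 2 → ZMod 5) :
    Matrix.mulVec g.val v = ![(encG g).a * v 0 + (encG g).b * v 1,
      (encG g).c * v 0 + (encG g).d * v 1] := by
  ext i
  fin_cases i <;> simp [Matrix.mulVec, dotProduct, Fin.sum_univ_two, encG]

include hA hB hC in
/-- non-identity elements fix no non-zero vector -/
theorem free (g : Matrix.GeneralLinearGroup (Fin 2) (ZMod 5))
    (hg : g ∈ Subgroup.closure ({A, B, C} : Set (Matrix.GeneralLinearGroup (Fin 2) (ZMod 5))))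
    (v : Fin 2 → ZMod 5) (hv : v ≠ 0) (h : Matrix.mulVec g.val v = v) : g = 1 := by
  have hq := mem_S A B C hA hB hC g hg
  rw [mulVec_eq] at h
  obtain ⟨q, hm⟩ : ∃ q, q = encG g := ⟨_, rfl⟩
  rw [← hm] at h hq
  have h0 : q.a * v 0 + q.b * v 1 = v 0 := congrFun h 0
  have h1 : q.c * v 0 + q.d * v 1 = v 1 := congrFun h 1
  rcases free_chk q hq with h2 | h2
  · apply encG_injective
    rw [← hm, h2, encG_one]
  · exfalso
    have e0 : ((q.a - 1) * (q.d - 1) - q.b * q.c) * v 0 = 0 := by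
      linear_combination (q.d - 1) * h0 - q.b * h1
    have e1 : ((q.a - 1) * (q.d - 1) - q.b * q.c) * v 1 = 0 := by
      linear_combination (q.a - 1) * h1 - q.c * h0
    have v0 : v 0 = 0 := (mul_eq_zero.mp e0).resolve_left h2
    have v1 : v 1 = 0 := (mul_eq_zero.mp e1).resolve_left h2
    apply hv
    ext i
    fin_cases i
    · exact v0
    · exact v1

include hA hB hC in
theorem real_lits : ∀ i < 24, ∃ g ∈ Subgroup.closure ({A, B, C} :
    Set (Matrix.GeneralLinearGroup (Fin 2) (ZMod 5))), encG g = litsQ.getD i 1 := by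
  intro i
  induction i using Nat.strong_induction_on with
  | _ i ih =>
    intro hi
    rcases par_chk i hi with h0 | ⟨hlt, heq⟩
    · subst h0
      exact ⟨1, Subgroup.one_mem _, by rw [encG_one, lits_zero]⟩
    · obtain ⟨g, hg, hge⟩ := ih _ hlt (by omega)
      by_cases hc : (par.getD i (0, 0)).2 = 0
      · rw [if_pos hc] at heq
        refine ⟨g * A, Subgroup.mul_mem _ hg (Subgroup.subset_closure (by simp)), ?_⟩
        rw [encG_mul, hge, hA, heq]
      · rw [if_neg hc] at heq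
        by_cases hc1 : (par.getD i (0, 0)).2 = 1
        · rw [if_pos hc1] at heq
          refine ⟨g * B, Subgroup.mul_mem _ hg (Subgroup.subset_closure (by simp)), ?_⟩
          rw [encG_mul, hge, hB, heq]
        · rw [if_neg hc1] at heq
          refine ⟨g * C, Subgroup.mul_mem _ hg (Subgroup.subset_closure (by simp)), ?_⟩
          rw [encG_mul, hge, hC, heq]

include hA hB hC in
/-- the group is transitive on non-zero vectors -/
theorem trans0 (w : Fin 2 → ZMod 5) (hw : w ≠ 0) :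
    ∃ g ∈ Subgroup.closure ({A, B, C} : Set (Matrix.GeneralLinearGroup (Fin 2) (ZMod 5))),
      Matrix.mulVec g.val ![1, 0] = w := by
  have hw' : w 0 ≠ 0 ∨ w 1 ≠ 0 := by
    by_contra hcon
    push Not at hcon
    apply hw
    ext i
    fin_cases i
    · exact hcon.1
    · exact hcon.2
  obtain ⟨q, hq, e0, e1⟩ := trans_chk (w 0) (w 1) hw'
  obtain ⟨i, hi, rfl⟩ : ∃ i < 24, q = litsQ.getD i 1 := by
    obtain ⟨i, hi, rfl⟩ := List.getElem_of_mem hq
    refine ⟨i, by rw [← lits_len]; exact hi, ?_⟩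
    rw [List.getD_eq_getElem _ _ hi]
  obtain ⟨gq, hgq, hgqe⟩ := real_lits A B C hA hB hC i hi
  refine ⟨gq, hgq, ?_⟩
  rw [mulVec_eq, hgqe]
  ext j
  fin_cases j
  · show (litsQ.getD i 1).a * 1 + (litsQ.getD i 1).b * 0 = w 0
    rw [mul_one, mul_zero, add_zero]
    exact e0
  · show (litsQ.getD i 1).c * 1 + (litsQ.getD i 1).d * 0 = w 1
    rw [mul_one, mul_zero, add_zero]
    exact e1

end main

theorem v0_ne : (![1, 0] : Fin 2 → ZMod 5) ≠ 0 := by decide

theorem card_nz : Fintype.card {v : Fin 2 → ZMod 5 // v ≠ 0} = 24 := by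
  rw [Fintype.card_subtype_compl, Fintype.card_subtype_eq, Fintype.card_fun, Fintype.card_fin,
    ZMod.card]
  norm_num

/-- An exceptional sharply doubly transitive group of degree 5^2: the listed matrices generate a subgroup of GL(2,5) of order 24 acting regularly on the non-zero vectors. -/
theorem result (A : Matrix.GeneralLinearGroup (Fin 2) (ZMod 5)) (B : Matrix.GeneralLinearGroup (Fin 2) (ZMod 5)) (C : Matrix.GeneralLinearGroup (Fin 2) (ZMod 5)) (hA : (A : Matrix (Fin 2) (Fin 2) (ZMod 5)) = !![2, 0; 0, -2]) (hB : (B : Matrix (Fin 2) (Fin 2) (ZMod 5)) = !![0, -1; 1, 0]) (hC : (C : Matrix (Fin 2) (Fin 2) (ZMod 5)) = !![1, 2; 1, -2]) : Nat.card (Subgroup.closure ({A, B, C} : Set (Matrix.GeneralLinearGroup (Fin 2) (ZMod 5)))) = 24 ∧ ∀ v w : Fin 2 → ZMod 5, v ≠ 0 → w ≠ 0 → ∃! h : Subgroup.closure ({A, B, C} : Set (Matrix.GeneralLinearGroup (Fin 2) (ZMod 5))), Matrix.mulVec ((h : Matrix.GeneralLinearGroup (Fin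 2) (ZMod 5)) : Matrix (Fin 2) (Fin 2) (ZMod 5)) v = w := by
  have eA : encG A = Am := by
    unfold encG
    rw [hA]
    decide
  have eB : encG B = Bm := by
    unfold encG
    rw [hB]
    decide
  have eC : encG C = Cm := by
    unfold encG
    rw [hC]
    decide
  have hfree := free A B C eA eB eC
  have htrans := trans0 A B C eA eB eC
  have hinv : ∀ (g : Matrix.GeneralLinearGroup (Fin 2) (ZMod 5)) (v : Fin 2 → ZMod 5),
      Matrix.mulVec (g⁻¹).val (Matrix.mulVec g.val v) = v := by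
    intro g v
    rw [Matrix.mulVec_mulVec, ← Units.val_mul, inv_mul_cancel, Units.val_one, Matrix.one_mulVec]
  have hex : ∀ v w : Fin 2 → ZMod 5, v ≠ 0 → w ≠ 0 → ∃! h : Subgroup.closure ({A, B, C} : Set (Matrix.GeneralLinearGroup (Fin 2) (ZMod 5))), Matrix.mulVec ((h : Matrix.GeneralLinearGroup (Fin 2) (ZMod 5)) : Matrix (Fin 2) (Fin 2) (ZMod 5)) v = w := by
    intro v w hv hw
    obtain ⟨gv, hgv, hv1⟩ := htrans v hv
    obtain ⟨gw, hgw, hw1⟩ := htrans w hw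
    refine ⟨⟨gw * gv⁻¹, Subgroup.mul_mem _ hgw (Subgroup.inv_mem _ hgv)⟩, ?_, ?_⟩
    · show Matrix.mulVec (gw * gv⁻¹).val v = w
      rw [Units.val_mul, ← Matrix.mulVec_mulVec, ← hv1, hinv, hw1]
    · intro h2 hh2
      have hh2' : Matrix.mulVec (h2 : Matrix.GeneralLinearGroup (Fin 2) (ZMod 5)).val v = w := hh2
      have h3 : ((gw * gv⁻¹)⁻¹ * (h2 : Matrix.GeneralLinearGroup (Fin 2) (ZMod 5))) = 1 := by
        apply hfree _ (Subgroup.mul_mem _ (Subgroup.inv_mem _ (Subgroup.mul_mem _ hgw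
          (Subgroup.inv_mem _ hgv))) h2.2) v hv
        rw [Units.val_mul, ← Matrix.mulVec_mulVec, hh2']
        have h4 : Matrix.mulVec (gw * gv⁻¹).val v = w := by
          rw [Units.val_mul, ← Matrix.mulVec_mulVec, ← hv1, hinv, hw1]
        rw [← h4, hinv]
      apply Subtype.ext
      exact (inv_mul_eq_one.mp h3).symm
  refine ⟨?_, hex⟩
  have hne : ∀ h : Subgroup.closure ({A, B, C} : Set (Matrix.GeneralLinearGroup (Fin 2) (ZMod 5))),
      Matrix.mulVec (h : Matrix.GeneralLinearGroup (Fin 2) (ZMod 5)).val ![1, 0] ≠ 0 := by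
    intro h h0
    have := hinv (h : Matrix.GeneralLinearGroup (Fin 2) (ZMod 5)) ![1, 0]
    rw [h0, Matrix.mulVec_zero] at this
    exact v0_ne this.symm
  have hbij : Function.Bijective (fun h : Subgroup.closure ({A, B, C} : Set (Matrix.GeneralLinearGroup (Fin 2) (ZMod 5))) =>
      (⟨Matrix.mulVec (h : Matrix.GeneralLinearGroup (Fin 2) (ZMod 5)).val ![1, 0], hne h⟩ :
        {v : Fin 2 → ZMod 5 // v ≠ 0})) := by
    constructor
    · intro h1 h2 h12
      have h12' : Matrix.mulVec (h1 : Matrix.GeneralLinearGroup (Fin 2) (ZMod 5)).val ![1, 0] =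
          Matrix.mulVec (h2 : Matrix.GeneralLinearGroup (Fin 2) (ZMod 5)).val ![1, 0] :=
        congrArg Subtype.val h12
      obtain ⟨h0, -, huniq⟩ := hex ![1, 0] _ v0_ne (hne h2)
      rw [huniq h1 h12', huniq h2 rfl]
    · rintro ⟨w, hw⟩
      obtain ⟨g, hg, hgw⟩ := htrans w hw
      exact ⟨⟨g, hg⟩, Subtype.ext hgw⟩
  rw [Nat.card_congr (Equiv.ofBijective _ hbij), Nat.card_eq_fintype_card, card_nz]

end Cfsg.Agent.S0691
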