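import Mathlib
import Cfsg.Statements.S0693
import Cfsg.Agent.Lib.helper17.M2Ring

set_option autoImplicit false
open Cfsg

namespace Cfsg.Agent.S0693

open Cfsg.Agent.Lib.helper17.SL25

instance fact59 : Fact (Nat.Prime 59) := ⟨by norm_num⟩

/-- entries of an invertible matrix -/
def encG (g : Matrix.GeneralLinearGroup (Fin 2) (ZMod 59)) : M2 (ZMod 59) :=
  ⟨g.val 0 0, g.val 0 1, g.val 1 0, g.val 1 1⟩

theorem encG_one : encG 1 = 1 := by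
  show (⟨_, _, _, _⟩ : M2 (ZMod 59)) = ⟨1, 0, 0, 1⟩
  simp

theorem encG_mul (g h : Matrix.GeneralLinearGroup (Fin 2) (ZMod 59)) :
    encG (g * h) = encG g * encG h := by
  show (⟨_, _, _, _⟩ : M2 (ZMod 59)) = ⟨_, _, _, _⟩
  simp [encG, Matrix.mul_apply, Fin.sum_univ_two]

theorem encG_injective : Function.Injective encG := by
  intro A B h
  have h' : (⟨A.val 0 0, A.val 0 1, A.val 1 0, A.val 1 1⟩ : M2 (ZMod 59)) =
      ⟨B.val 0 0, B.val 0 1, B.val 1 0, B.val 1 1⟩ := h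
  rw [M2.mk.injEq] at h'
  obtain ⟨h1, h2, h3, h4⟩ := h'
  apply Units.ext
  ext i j
  fin_cases i <;> fin_cases j <;> assumption

theorem encG_inv (g : Matrix.GeneralLinearGroup (Fin 2) (ZMod 59)) (X : M2 (ZMod 59))
    (h : X * encG g = 1) : encG g⁻¹ = X := by
  have h1 : encG g * encG g⁻¹ = 1 := by rw [← encG_mul, mul_inv_cancel, encG_one]
  calc encG g⁻¹ = (X * encG g) * encG g⁻¹ := by rw [h, one_mul]
    _ = X := by rw [mul_assoc, h1, mul_one]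

/-- scalar multiples -/
def sm (z : ZMod 59) (q : M2 (ZMod 59)) : M2 (ZMod 59) := ⟨z * q.a, z * q.b, z * q.c, z * q.d⟩

theorem sm_mul (z : ZMod 59) (q r : M2 (ZMod 59)) : sm z q * r = sm z (q * r) := by
  apply M2.ext' <;> simp [sm] <;> ring

theorem mul_sm_one (z w : ZMod 59) (q : M2 (ZMod 59)) : sm z q * sm w 1 = sm (z * w) q := by
  apply M2.ext' <;> simp [sm] <;> ring

theorem sm_one_mul (z : ZMod 59) (q : M2 (ZMod 59)) : sm z 1 * q = sm z q := by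
  apply M2.ext' <;> simp [sm]

theorem sm_one_one : sm 1 (1 : M2 (ZMod 59)) = 1 := by
  apply M2.ext' <;> simp [sm]

def Am : M2 (ZMod 59) := ⟨0, 58, 1, 0⟩
def Ai : M2 (ZMod 59) := ⟨0, 1, 58, 0⟩
def Bm : M2 (ZMod 59) := ⟨9, 15, 49, 49⟩
def Bi : M2 (ZMod 59) := ⟨49, 44, 10, 9⟩

/-- the 120 elements of the group generated by the first two matrices -/
def litsQ : List (M2 (ZMod 59)) :=
  [⟨1, 0, 0, 1⟩,
   ⟨0, 58, 1, 0⟩,
   ⟨9, 15, 49, 49⟩,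
   ⟨58, 0, 0, 58⟩,
   ⟨10, 10, 9, 15⟩,
   ⟨15, 50, 49, 10⟩,
   ⟨49, 44, 10, 9⟩,
   ⟨0, 1, 58, 0⟩,
   ⟨50, 44, 10, 10⟩,
   ⟨10, 49, 15, 50⟩,
   ⟨49, 50, 49, 44⟩,
   ⟨48, 20, 46, 45⟩,
   ⟨44, 10, 9, 49⟩,
   ⟨49, 49, 50, 44⟩,
   ⟨44, 9, 10, 49⟩,
   ⟨10, 15, 49, 50⟩,
   ⟨13, 14, 48, 20⟩,
   ⟨50, 10, 44, 10⟩,
   ⟨20, 11, 45, 13⟩,
   ⟨55, 48, 23, 4⟩,
   ⟨1, 29, 4, 58⟩,
   ⟨49, 10, 44, 9⟩,
   ⟨10, 9, 10, 15⟩,
   ⟨11, 39, 13, 14⟩,
   ⟨15, 49, 50, 10⟩,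
   ⟨14, 46, 20, 11⟩,
   ⟨36, 55, 55, 48⟩,
   ⟨55, 1, 1, 29⟩,
   ⟨11, 13, 39, 14⟩,
   ⟨48, 4, 4, 36⟩,
   ⟨29, 58, 58, 55⟩,
   ⟨14, 20, 46, 11⟩,
   ⟨46, 45, 11, 39⟩,
   ⟨9, 49, 15, 49⟩,
   ⟨39, 48, 14, 46⟩,
   ⟨4, 11, 36, 55⟩,
   ⟨58, 30, 55, 1⟩,
   ⟨20, 45, 11, 13⟩,
   ⟨55, 23, 48, 4⟩,
   ⟨1, 4, 29, 58⟩,
   ⟨13, 48, 14, 20⟩,
   ⟨28, 35, 34, 32⟩,
   ⟨38, 31, 30, 54⟩,
   ⟨35, 32, 31, 25⟩,
   ⟨45, 13, 39, 48⟩,
   ⟨23, 4, 4, 11⟩,
   ⟨4, 58, 58, 30⟩,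
   ⟨48, 46, 20, 45⟩,
   ⟨11, 55, 55, 23⟩,
   ⟨30, 1, 1, 4⟩,
   ⟨45, 39, 13, 48⟩,
   ⟨25, 27, 28, 35⟩,
   ⟨29, 5, 38, 31⟩,
   ⟨28, 34, 35, 32⟩,
   ⟨35, 31, 32, 25⟩,
   ⟨31, 21, 54, 29⟩,
   ⟨32, 24, 25, 28⟩,
   ⟨54, 28, 29, 38⟩,
   ⟨39, 14, 48, 46⟩,
   ⟨4, 36, 11, 55⟩,
   ⟨58, 55, 30, 1⟩,
   ⟨46, 11, 45, 39⟩,
   ⟨31, 24, 25, 27⟩,
   ⟨21, 28, 29, 5⟩,
   ⟨24, 27, 28, 34⟩,
   ⟨27, 34, 35, 31⟩,
   ⟨5, 30, 31, 21⟩,
   ⟨34, 31, 32, 24⟩,
   ⟨30, 21, 54, 28⟩,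
   ⟨5, 38, 38, 53⟩,
   ⟨10, 19, 19, 48⟩,
   ⟨28, 5, 38, 30⟩,
   ⟨34, 32, 31, 24⟩,
   ⟨30, 54, 21, 28⟩,
   ⟨31, 25, 24, 27⟩,
   ⟨24, 28, 27, 34⟩,
   ⟨28, 38, 5, 30⟩,
   ⟨27, 35, 34, 31⟩,
   ⟨5, 31, 30, 21⟩,
   ⟨21, 6, 5, 38⟩,
   ⟨40, 11, 10, 19⟩,
   ⟨21, 29, 28, 5⟩,
   ⟨38, 54, 53, 21⟩,
   ⟨19, 49, 48, 40⟩,
   ⟨18, 19, 45, 41⟩,
   ⟨25, 16, 42, 34⟩,
   ⟨32, 25, 24, 28⟩,
   ⟨54, 29, 28, 38⟩,
   ⟨25, 28, 27, 35⟩,
   ⟨29, 38, 5, 31⟩,
   ⟨54, 21, 21, 6⟩,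
   ⟨49, 40, 40, 11⟩,
   ⟨31, 54, 21, 29⟩,
   ⟨6, 38, 38, 54⟩,
   ⟨11, 19, 19, 49⟩,
   ⟨14, 18, 18, 19⟩,
   ⟨17, 25, 25, 16⟩,
   ⟨38, 30, 31, 54⟩,
   ⟨19, 41, 41, 14⟩,
   ⟨16, 34, 34, 17⟩,
   ⟨38, 53, 54, 21⟩,
   ⟨19, 48, 49, 40⟩,
   ⟨21, 5, 6, 38⟩,
   ⟨40, 10, 11, 19⟩,
   ⟨41, 40, 14, 18⟩,
   ⟨34, 43, 17, 25⟩,
   ⟨18, 45, 19, 41⟩,
   ⟨25, 42, 16, 34⟩,
   ⟨42, 34, 34, 43⟩,
   ⟨56, 52, 52, 3⟩,
   ⟨40, 18, 18, 45⟩,
   ⟨53, 21, 21, 5⟩,
   ⟨48, 40, 40, 10⟩,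
   ⟨45, 41, 41, 40⟩,
   ⟨43, 25, 25, 42⟩,
   ⟨7, 56, 56, 52⟩,
   ⟨41, 14, 40, 18⟩,
   ⟨34, 17, 43, 25⟩,
   ⟨52, 3, 3, 7⟩,
   ⟨3, 7, 7, 56⟩]

/-- the powers of 4 -/
def pows : List (ZMod 59) :=
  [1, 4, 16, 5, 20, 21, 25, 41, 46, 7, 28, 53, 35, 22, 29, 57, 51, 27, 49, 19, 17, 9, 36, 26, 45, 3,
    12, 48, 15]

/-- parents in the breadth-first search -/
def par : List (ℕ × ℕ) :=
  [(0, 0), (0, 0), (0, 1), (1, 0), (1, 1), (2, 0), (2, 1), (3, 0), (3, 1), (4, 0), (4, 1), (5, 1), (6, 0), (7, 1), (8, 0), (8, 1), (9, 1), (10, 0), (11, 0), (11, 1), (12, 1), (13, 0), (13, 1), (14, 1), (15, 0), (16, 0), (16, 1), (17, 1), (18, 1), (19, 0), (20, 0), (20, 1), (21, 1), (22, 0), (23, 0), (23, 1), (24, 1), (25, 1), (26, 0), (27, 0), (27, 1), (28, 1), (29, 1), (30, 1), (32, 0), (32, 1), (33, 1), (34, 1), (35, 0), (36, 0), (36, 1), (37, 1), (38, 1), (39, 1), (41, 0), (42, 0), (42, 1),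 (43, 1), (44, 1), (45, 0), (46, 0), (46, 1), (47, 1), (48, 1), (49, 1), (51, 0), (52, 0), (52, 1), (53, 1), (54, 1), (55, 1), (57, 0), (58, 1), (59, 1), (60, 1), (62, 0), (63, 0), (63, 1), (64, 1), (65, 1), (66, 1), (68, 0), (69, 0), (69, 1), (70, 1), (71, 1), (72, 0), (73, 0), (73, 1), (74, 1), (75, 1), (76, 1), (78, 0), (79, 0), (79, 1), (80, 1), (81, 1), (82, 1), (84, 0), (85, 0), (86, 1), (87, 1), (90, 0), (90, 1), (91, 1), (92, 1), (95, 0), (96, 0), (97, 1), (98, 1), (99, 1), (100, 0), (100, 1), (101, 1), (105, 0), (106, 1), (107, 1), (108, 0), (109, 0), (110, 1)]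

set_option maxRecDepth 100000 in
theorem lits_closed : ∀ q ∈ litsQ, q * Am ∈ litsQ ∧ q * Bm ∈ litsQ ∧ q * Ai ∈ litsQ ∧ q * Bi ∈ litsQ := by
  decide +kernel

theorem pows_closed : ∀ z ∈ pows, z * 4 ∈ pows ∧ z * 15 ∈ pows := by decide +kernel

theorem AiAm : Ai * Am = 1 := by decide
theorem BiBm : Bi * Bm = 1 := by decide
theorem CiCm : sm 15 1 * sm 4 (1 : M2 (ZMod 59)) = 1 := by decide

set_option maxRecDepth 100000 in
theorem one_mem_lits : (1 : M2 (ZMod 59)) ∈ litsQ := by decide +kernel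

theorem one_mem_pows : (1 : ZMod 59) ∈ pows := by decide

set_option maxRecDepth 100000 in
theorem free_chk : ∀ q ∈ litsQ, ∀ z ∈ pows, sm z q = 1 ∨
    (z * q.a - 1) * (z * q.d - 1) - (z * q.b) * (z * q.c) ≠ 0 := by decide +kernel

set_option maxRecDepth 100000 in
theorem trans_chk : ∀ x y : ZMod 59, (x ≠ 0 ∨ y ≠ 0) → ∃ q ∈ litsQ, q.a * y = q.c * x ∧
    ∃ z ∈ pows, z * q.a = x ∧ z * q.c = y := by decide +kernel

set_option maxRecDepth 100000 in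
theorem par_chk : ∀ i < 120, i = 0 ∨ ((par.getD i (0, 0)).1 < i ∧
    litsQ.getD i 1 = litsQ.getD (par.getD i (0, 0)).1 1 *
      (if (par.getD i (0, 0)).2 = 0 then Am else Bm)) := by decide +kernel

theorem lits_zero : litsQ.getD 0 1 = 1 := by decide +kernel

theorem lits_len : litsQ.length = 120 := by decide +kernel

theorem pows_pow : ∀ z ∈ pows, ∃ k < 29, z = 4 ^ k := by decide +kernel

/-- membership in the set of scalar multiples of list elements -/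
def inS (m : M2 (ZMod 59)) : Prop := ∃ q ∈ litsQ, ∃ z ∈ pows, m = sm z q

section main

variable (A B C : Matrix.GeneralLinearGroup (Fin 2) (ZMod 59))
  (hA : encG A = Am) (hB : encG B = Bm) (hC : encG C = sm 4 1)

include hA hB hC in
theorem mem_S (u : Matrix.GeneralLinearGroup (Fin 2) (ZMod 59))
    (hu : u ∈ Subgroup.closure ({A, B, C} : Set (Matrix.GeneralLinearGroup (Fin 2) (ZMod 59)))) :
    inS (encG u) := by
  have key : ∀ u : Matrix.GeneralLinearGroup (Fin 2) (ZMod 59),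
      u ∈ Subgroup.closure ({A, B, C} : Set (Matrix.GeneralLinearGroup (Fin 2) (ZMod 59))) →
      ∀ m, inS m → inS (m * encG u) ∧ inS (m * encG u⁻¹) := by
    intro u hu
    induction hu using Subgroup.closure_induction with
    | mem x hx =>
      rcases hx with rfl | rfl | rfl
      · rintro m ⟨q, hq, z, hz, rfl⟩
        rw [encG_inv x Ai (by rw [hA]; exact AiAm), hA, sm_mul, sm_mul]
        exact ⟨⟨_, (lits_closed q hq).1, z, hz, rfl⟩, ⟨_, (lits_closed q hq).2.2.1, z, hz, rfl⟩⟩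
      · rintro m ⟨q, hq, z, hz, rfl⟩
        rw [encG_inv x Bi (by rw [hB]; exact BiBm), hB, sm_mul, sm_mul]
        exact ⟨⟨_, (lits_closed q hq).2.1, z, hz, rfl⟩, ⟨_, (lits_closed q hq).2.2.2, z, hz, rfl⟩⟩
      · rintro m ⟨q, hq, z, hz, rfl⟩
        rw [encG_inv x (sm 15 1) (by rw [hC]; exact CiCm), hC, mul_sm_one, mul_sm_one]
        exact ⟨⟨q, hq, _, (pows_closed z hz).1, rfl⟩, ⟨q, hq, _, (pows_closed z hz).2, rfl⟩⟩
    | one =>
      intro m hm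
      rw [inv_one, encG_one, mul_one]
      exact ⟨hm, hm⟩
    | mul x y hx hy ihx ihy =>
      intro m hm
      rw [encG_mul, ← mul_assoc, mul_inv_rev, encG_mul, ← mul_assoc]
      exact ⟨(ihy _ (ihx m hm).1).1, (ihx _ (ihy m hm).2).2⟩
    | inv x hx ih =>
      intro m hm
      rw [inv_inv]
      exact ⟨(ih m hm).2, (ih m hm).1⟩
  have := (key u hu 1 ⟨1, one_mem_lits, 1, one_mem_pows, sm_one_one.symm⟩).1
  rwa [one_mul] at this

theorem mulVec_eq (g : Matrix.GeneralLinearGroup (Fin 2) (ZMod 59)) (v : Fin 2 → ZMod 59) :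
    Matrix.mulVec g.val v = ![(encG g).a * v 0 + (encG g).b * v 1,
      (encG g).c * v 0 + (encG g).d * v 1] := by
  ext i
  fin_cases i <;> simp [Matrix.mulVec, dotProduct, Fin.sum_univ_two, encG]

include hA hB hC in
/-- non-identity elements fix no non-zero vector -/
theorem free (g : Matrix.GeneralLinearGroup (Fin 2) (ZMod 59))
    (hg : g ∈ Subgroup.closure ({A, B, C} : Set (Matrix.GeneralLinearGroup (Fin 2) (ZMod 59))))
    (v : Fin 2 → ZMod 59) (hv : v ≠ 0) (h : Matrix.mulVec g.val v = v) : g = 1 := by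
  obtain ⟨q, hq, z, hz, hm⟩ := mem_S A B C hA hB hC g hg
  rw [mulVec_eq, hm] at h
  have h0 : z * q.a * v 0 + z * q.b * v 1 = v 0 := congrFun h 0
  have h1 : z * q.c * v 0 + z * q.d * v 1 = v 1 := congrFun h 1
  rcases free_chk q hq z hz with h2 | h2
  · apply encG_injective
    rw [hm, h2, encG_one]
  · exfalso
    have e0 : ((z * q.a - 1) * (z * q.d - 1) - (z * q.b) * (z * q.c)) * v 0 = 0 := by
      linear_combination (z * q.d - 1) * h0 - (z * q.b) * h1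
    have e1 : ((z * q.a - 1) * (z * q.d - 1) - (z * q.b) * (z * q.c)) * v 1 = 0 := by
      linear_combination (z * q.a - 1) * h1 - (z * q.c) * h0
    have v0 : v 0 = 0 := (mul_eq_zero.mp e0).resolve_left h2
    have v1 : v 1 = 0 := (mul_eq_zero.mp e1).resolve_left h2
    apply hv
    ext i
    fin_cases i
    · exact v0
    · exact v1

include hA hB in
theorem real_lits : ∀ i < 120, ∃ g ∈ Subgroup.closure ({A, B, C} :
    Set (Matrix.GeneralLinearGroup (Fin 2) (ZMod 59))), encG g = litsQ.getD i 1 := by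
  intro i
  induction i using Nat.strong_induction_on with
  | _ i ih =>
    intro hi
    rcases par_chk i hi with h0 | ⟨hlt, heq⟩
    · subst h0
      exact ⟨1, Subgroup.one_mem _, by rw [encG_one, lits_zero]⟩
    · obtain ⟨g, hg, hge⟩ := ih _ hlt (by omega)
      by_cases hc : (par.getD i (0, 0)).2 = 0
      · rw [if_pos hc] at heq
        refine ⟨g * A, Subgroup.mul_mem _ hg (Subgroup.subset_closure (by simp)), ?_⟩
        rw [encG_mul, hge, hA, heq]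
      · rw [if_neg hc] at heq
        refine ⟨g * B, Subgroup.mul_mem _ hg (Subgroup.subset_closure (by simp)), ?_⟩
        rw [encG_mul, hge, hB, heq]

include hC in
theorem real_pows (k : ℕ) : encG (C ^ k) = sm (4 ^ k) 1 := by
  induction k with
  | zero => rw [pow_zero, pow_zero, encG_one, sm_one_one]
  | succ k ih => rw [pow_succ, encG_mul, ih, hC, mul_sm_one, pow_succ]

include hA hB hC in
/-- the group is transitive on non-zero vectors -/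
theorem trans0 (w : Fin 2 → ZMod 59) (hw : w ≠ 0) :
    ∃ g ∈ Subgroup.closure ({A, B, C} : Set (Matrix.GeneralLinearGroup (Fin 2) (ZMod 59))),
      Matrix.mulVec g.val ![1, 0] = w := by
  have hw' : w 0 ≠ 0 ∨ w 1 ≠ 0 := by
    by_contra hcon
    push Not at hcon
    apply hw
    ext i
    fin_cases i
    · exact hcon.1
    · exact hcon.2
  obtain ⟨q, hq, -, z, hz, e0, e1⟩ := trans_chk (w 0) (w 1) hw'
  obtain ⟨i, hi, rfl⟩ : ∃ i < 120, q = litsQ.getD i 1 := by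
    obtain ⟨i, hi, rfl⟩ := List.getElem_of_mem hq
    refine ⟨i, by rw [← lits_len]; exact hi, ?_⟩
    rw [List.getD_eq_getElem _ _ hi]
  obtain ⟨gq, hgq, hgqe⟩ := real_lits A B C hA hB i hi
  obtain ⟨k, -, rfl⟩ := pows_pow z hz
  refine ⟨C ^ k * gq, Subgroup.mul_mem _ (Subgroup.pow_mem _ (Subgroup.subset_closure (by simp)) k)
    hgq, ?_⟩
  rw [mulVec_eq, encG_mul, real_pows C hC, hgqe, sm_one_mul]
  ext j
  fin_cases j
  · show 4 ^ k * (litsQ.getD i 1).a * 1 + 4 ^ k * (litsQ.getD i 1).b * 0 = w 0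
    rw [mul_one, mul_zero, add_zero]
    exact e0
  · show 4 ^ k * (litsQ.getD i 1).c * 1 + 4 ^ k * (litsQ.getD i 1).d * 0 = w 1
    rw [mul_one, mul_zero, add_zero]
    exact e1

end main

theorem v0_ne : (![1, 0] : Fin 2 → ZMod 59) ≠ 0 := by decide

theorem card_nz : Fintype.card {v : Fin 2 → ZMod 59 // v ≠ 0} = 3480 := by
  rw [Fintype.card_subtype_compl, Fintype.card_subtype_eq, Fintype.card_fun, Fintype.card_fin,
    ZMod.card]
  norm_num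

/-- An exceptional sharply doubly transitive group of degree 59^2: the listed matrices generate a subgroup of GL(2,59) of order 3480 acting regularly on the non-zero vectors. -/
theorem result (A : Matrix.GeneralLinearGroup (Fin 2) (ZMod 59)) (B : Matrix.GeneralLinearGroup (Fin 2) (ZMod 59)) (C : Matrix.GeneralLinearGroup (Fin 2) (ZMod 59)) (hA : (A : Matrix (Fin 2) (Fin 2) (ZMod 59)) = !![0, -1; 1, 0]) (hB : (B : Matrix (Fin 2) (Fin 2) (ZMod 59)) = !![9, 15; -10, -10]) (hC : (C : Matrix (Fin 2) (Fin 2) (ZMod 59)) = !![4, 0; 0, 4]) : Nat.card (Subgroup.closure ({A, B, C} : Set (Matrix.GeneralLinearGroup (Fin 2) (ZMod 59)))) = 3480 ∧ ∀ v w : Fin 2 → ZMod 59, v ≠ 0 → w ≠ 0 → ∃! h : Subgroup.closure ({A, B, C} : Set (Matrix.GeneralLinearGroup (Fin 2) (ZMod 59))), Matrix.mulVec ((h : Matrix.GeneralLinearGroup (Fin 2) (ZMod 59)) : Matrix (Fin 2) (Fin 2) (ZMod 59)) v = w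 := by
  have eA : encG A = Am := by
    unfold encG
    rw [hA]
    decide
  have eB : encG B = Bm := by
    unfold encG
    rw [hB]
    decide
  have eC : encG C = sm 4 1 := by
    unfold encG
    rw [hC]
    decide
  have hfree := free A B C eA eB eC
  have htrans := trans0 A B C eA eB eC
  have hinv : ∀ (g : Matrix.GeneralLinearGroup (Fin 2) (ZMod 59)) (v : Fin 2 → ZMod 59),
      Matrix.mulVec (g⁻¹).val (Matrix.mulVec g.val v) = v := by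
    intro g v
    rw [Matrix.mulVec_mulVec, ← Units.val_mul, inv_mul_cancel, Units.val_one, Matrix.one_mulVec]
  have hex : ∀ v w : Fin 2 → ZMod 59, v ≠ 0 → w ≠ 0 → ∃! h : Subgroup.closure ({A, B, C} : Set (Matrix.GeneralLinearGroup (Fin 2) (ZMod 59))), Matrix.mulVec ((h : Matrix.GeneralLinearGroup (Fin 2) (ZMod 59)) : Matrix (Fin 2) (Fin 2) (ZMod 59)) v = w := by
    intro v w hv hw
    obtain ⟨gv, hgv, hv1⟩ := htrans v hv
    obtain ⟨gw, hgw, hw1⟩ := htrans w hw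
    refine ⟨⟨gw * gv⁻¹, Subgroup.mul_mem _ hgw (Subgroup.inv_mem _ hgv)⟩, ?_, ?_⟩
    · show Matrix.mulVec (gw * gv⁻¹).val v = w
      rw [Units.val_mul, ← Matrix.mulVec_mulVec, ← hv1, hinv, hw1]
    · intro h2 hh2
      have hh2' : Matrix.mulVec (h2 : Matrix.GeneralLinearGroup (Fin 2) (ZMod 59)).val v = w := hh2
      have h3 : ((gw * gv⁻¹)⁻¹ * (h2 : Matrix.GeneralLinearGroup (Fin 2) (ZMod 59))) = 1 := by
        apply hfree _ (Subgroup.mul_mem _ (Subgroup.inv_mem _ (Subgroup.mul_mem _ hgw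
          (Subgroup.inv_mem _ hgv))) h2.2) v hv
        rw [Units.val_mul, ← Matrix.mulVec_mulVec, hh2']
        have h4 : Matrix.mulVec (gw * gv⁻¹).val v = w := by
          rw [Units.val_mul, ← Matrix.mulVec_mulVec, ← hv1, hinv, hw1]
        rw [← h4, hinv]
      apply Subtype.ext
      exact (inv_mul_eq_one.mp h3).symm
  refine ⟨?_, hex⟩
  have hne : ∀ h : Subgroup.closure ({A, B, C} : Set (Matrix.GeneralLinearGroup (Fin 2) (ZMod 59))),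
      Matrix.mulVec (h : Matrix.GeneralLinearGroup (Fin 2) (ZMod 59)).val ![1, 0] ≠ 0 := by
    intro h h0
    have := hinv (h : Matrix.GeneralLinearGroup (Fin 2) (ZMod 59)) ![1, 0]
    rw [h0, Matrix.mulVec_zero] at this
    exact v0_ne this.symm
  have hbij : Function.Bijective (fun h : Subgroup.closure ({A, B, C} : Set (Matrix.GeneralLinearGroup (Fin 2) (ZMod 59))) =>
      (⟨Matrix.mulVec (h : Matrix.GeneralLinearGroup (Fin 2) (ZMod 59)).val ![1, 0], hne h⟩ :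
        {v : Fin 2 → ZMod 59 // v ≠ 0})) := by
    constructor
    · intro h1 h2 h12
      have h12' : Matrix.mulVec (h1 : Matrix.GeneralLinearGroup (Fin 2) (ZMod 59)).val ![1, 0] =
          Matrix.mulVec (h2 : Matrix.GeneralLinearGroup (Fin 2) (ZMod 59)).val ![1, 0] :=
        congrArg Subtype.val h12
      obtain ⟨h0, -, huniq⟩ := hex ![1, 0] _ v0_ne (hne h2)
      rw [huniq h1 h12', huniq h2 rfl]
    · rintro ⟨w, hw⟩
      obtain ⟨g, hg, hgw⟩ := htrans w hw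
      exact ⟨⟨g, hg⟩, Subtype.ext hgw⟩
  rw [Nat.card_congr (Equiv.ofBijective _ hbij), Nat.card_eq_fintype_card, card_nz]

end Cfsg.Agent.S0693
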