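import Cfsg.Statements.S0695
-- import your own Cfsg.Agent.* helpers here
import Mathlib

set_option autoImplicit false
open Cfsg

namespace Cfsg.Agent.S0695

open scoped Pointwise

/-- A regular normal subgroup of a doubly primitive group of finite degree at least 2 is an elementary abelian 2-group (and the degree is a power of 2), unless the degree is 3. -/
theorem result {G : Type*} [Group G] {X : Type*} [Fintype X] [MulAction G X] (hX : 2 ≤ Fintype.card X) (h2 : MulAction.IsMultiplyPreprimitive G X 2) (N : Subgroup G) [N.Normal] (htrans : MulAction.IsPretransitive N X) (hreg : ∀ x : X, MulAction.stabilizer N x = ⊥) : Fintype.card X = 3 ∨ (IsMulCommutative N ∧ (∀ n ∈ N, n ^ 2 = 1) ∧ ∃ m : ℕ, Fintype.card X = 2 ^ m) := by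
  classical
  have hne : Nonempty X := Fintype.card_pos_iff.mp (by omega)
  obtain ⟨a⟩ := hne
  have hinj : ∀ n ∈ N, ∀ n' ∈ N, n • a = n' • a → n = n' := by
    intro n hn n' hn' h
    have h1 : (⟨n'⁻¹ * n, N.mul_mem (N.inv_mem hn') hn⟩ : N) ∈ MulAction.stabilizer N a := by
      rw [MulAction.mem_stabilizer_iff]
      show (n'⁻¹ * n) • a = a
      rw [mul_smul, h, inv_smul_smul]
    rw [hreg a, Subgroup.mem_bot] at h1
    have h2 : n'⁻¹ * n = 1 := congrArg Subtype.val h1
    exact (inv_mul_eq_one.mp h2).symm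
  have hsurj : ∀ y : X, ∃ n ∈ N, n • a = y := by
    intro y
    obtain ⟨n, hn⟩ := htrans.exists_smul_eq a y
    exact ⟨n, n.2, hn⟩
  have hprim : MulAction.IsPreprimitive (fixingSubgroup G ({a} : Set X))
      (SubMulAction.ofFixingSubgroup G ({a} : Set X)) :=
    MulAction.IsMultiplyPreprimitive.isPreprimitive_ofFixingSubgroup G 2 (by
      rw [Set.encard_singleton]; rfl)
  have hblock : ∀ n ∈ N, MulAction.IsBlock (fixingSubgroup G ({a} : Set X))
      {y : SubMulAction.ofFixingSubgroup G ({a} : Set X) | (y : X) = n • a ∨ (y : X) = n⁻¹ • a} := by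
    intro n hn
    rw [MulAction.isBlock_iff_smul_eq_or_disjoint]
    intro g
    have hga : (g : G) • a = a := (mem_fixingSubgroup_iff G).mp g.2 a rfl
    have hn' : (g : G) * n * (g : G)⁻¹ ∈ N := Subgroup.Normal.conj_mem inferInstance n hn g
    have hmem : ∀ y : SubMulAction.ofFixingSubgroup G ({a} : Set X),
        y ∈ g • {y : SubMulAction.ofFixingSubgroup G ({a} : Set X) |
          (y : X) = n • a ∨ (y : X) = n⁻¹ • a} ↔
        ((y : X) = ((g : G) * n * (g : G)⁻¹) • a ∨ (y : X) = ((g : G) * n * (g : G)⁻¹)⁻¹ • a) := by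
      intro y
      rw [Set.mem_smul_set_iff_inv_smul_mem, Set.mem_setOf_eq]
      have e : ((g⁻¹ • y : SubMulAction.ofFixingSubgroup G ({a} : Set X)) : X)
          = (g : G)⁻¹ • (y : X) := rfl
      have hga' : (g : G)⁻¹ • a = a := inv_smul_eq_iff.mpr hga.symm
      have e1 : ((g : G) * n * (g : G)⁻¹) • a = (g : G) • n • a := by
        rw [mul_smul, mul_smul, hga']
      have e2 : ((g : G) * n * (g : G)⁻¹)⁻¹ • a = (g : G) • n⁻¹ • a := by
        have e3 : ((g : G) * n * (g : G)⁻¹)⁻¹ = (g : G) * n⁻¹ * (g : G)⁻¹ := by group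
        rw [e3, mul_smul, mul_smul, hga']
      rw [e, e1, e2, inv_smul_eq_iff, inv_smul_eq_iff]
    by_cases hcase : (g : G) * n * (g : G)⁻¹ = n ∨ (g : G) * n * (g : G)⁻¹ = n⁻¹
    · left
      ext y
      rw [hmem, Set.mem_setOf_eq]
      rcases hcase with h | h
      · rw [h]
      · rw [h, inv_inv]; exact or_comm
    · right
      rw [Set.disjoint_left]
      intro y hy hy'
      rw [hmem] at hy
      rw [Set.mem_setOf_eq] at hy'
      apply hcase
      rcases hy with h | h <;> rcases hy' with h' | h'
      · left; exact hinj _ hn' _ hn (h.symm.trans h')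
      · right; exact hinj _ hn' _ (N.inv_mem hn) (h.symm.trans h')
      · right
        have h3 := hinj _ (N.inv_mem hn') _ hn (h.symm.trans h')
        exact inv_eq_iff_eq_inv.mp h3
      · left
        have h3 := hinj _ (N.inv_mem hn') _ (N.inv_mem hn) (h.symm.trans h')
        exact inv_injective h3
  by_cases hall : ∀ n ∈ N, n ^ 2 = 1
  · right
    have hinv : ∀ z ∈ N, z⁻¹ = z := fun z hz => by
      have h := hall z hz
      rw [pow_two] at h
      exact (eq_inv_of_mul_eq_one_left h).symm
    have hcomm : ∀ x ∈ N, ∀ y ∈ N, x * y = y * x := by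
      intro x hx y hy
      calc x * y = (x * y)⁻¹ := (hinv _ (N.mul_mem hx hy)).symm
        _ = y⁻¹ * x⁻¹ := mul_inv_rev x y
        _ = y * x := by rw [hinv y hy, hinv x hx]
    refine ⟨⟨⟨fun x y => Subtype.ext (hcomm x x.2 y y.2)⟩⟩, hall, ?_⟩
    have hbij : Function.Bijective (fun n : N => (n : G) • a) := by
      constructor
      · intro n n' h
        exact Subtype.ext (hinj n n.2 n' n'.2 h)
      · intro y
        obtain ⟨n, hn, hny⟩ := hsurj y
        exact ⟨⟨n, hn⟩, hny⟩
    have hfin : Finite N := Finite.of_injective _ hbij.1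
    have hcard : Nat.card N = Fintype.card X := by
      rw [Nat.card_eq_of_bijective _ hbij, Nat.card_eq_fintype_card]
    have hPG : IsPGroup 2 N := by
      intro g
      refine ⟨1, ?_⟩
      apply Subtype.ext
      rw [pow_one, Subgroup.coe_pow, Subgroup.coe_one]
      exact hall g g.2
    have hfact : Fact (Nat.Prime 2) := ⟨Nat.prime_two⟩
    obtain ⟨m, hm⟩ := IsPGroup.iff_card.mp hPG
    exact ⟨m, by rw [← hm, hcard]⟩
  · left
    push Not at hall
    obtain ⟨n, hn, hn2⟩ := hall
    have htriv := hprim.isTrivialBlock_of_isBlock (hblock n hn)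
    have hn1 : n ≠ 1 := by rintro rfl; exact hn2 (one_pow 2)
    have hna : n • a ≠ a := fun h => hn1 (hinj n hn 1 N.one_mem (by rw [h, one_smul]))
    have hnia : n⁻¹ • a ≠ a := fun h =>
      hn1 (inv_eq_one.mp (hinj n⁻¹ (N.inv_mem hn) 1 N.one_mem (by rw [h, one_smul])))
    have hnn : n • a ≠ n⁻¹ • a := fun h => hn2 (by
      have h3 := hinj n hn n⁻¹ (N.inv_mem hn) h
      rw [pow_two]
      nth_rewrite 1 [h3]
      exact inv_mul_cancel n)
    have hmem1 : n • a ∈ SubMulAction.ofFixingSubgroup G ({a} : Set X) :=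
      (SubMulAction.mem_ofFixingSubgroup_iff G).mpr (by simpa using hna)
    have hmem2 : n⁻¹ • a ∈ SubMulAction.ofFixingSubgroup G ({a} : Set X) :=
      (SubMulAction.mem_ofFixingSubgroup_iff G).mpr (by simpa using hnia)
    rcases htriv with hsub | htop
    · exfalso
      have m1 : (⟨n • a, hmem1⟩ : SubMulAction.ofFixingSubgroup G ({a} : Set X)) ∈
          {y : SubMulAction.ofFixingSubgroup G ({a} : Set X) |
            (y : X) = n • a ∨ (y : X) = n⁻¹ • a} := Or.inl rfl
      have m2 : (⟨n⁻¹ • a, hmem2⟩ : SubMulAction.ofFixingSubgroup G ({a} : Set X)) ∈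
          {y : SubMulAction.ofFixingSubgroup G ({a} : Set X) |
            (y : X) = n • a ∨ (y : X) = n⁻¹ • a} := Or.inr rfl
      have h3 := hsub m1 m2
      exact hnn (congrArg Subtype.val h3)
    · have hX3 : (Finset.univ : Finset X) = {a, n • a, n⁻¹ • a} := by
        ext y
        simp only [Finset.mem_univ, true_iff, Finset.mem_insert, Finset.mem_singleton]
        by_cases hya : y = a
        · left; exact hya
        · right
          have hymem : y ∈ SubMulAction.ofFixingSubgroup G ({a} : Set X) :=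
            (SubMulAction.mem_ofFixingSubgroup_iff G).mpr (by simpa using hya)
          have hy : (⟨y, hymem⟩ : SubMulAction.ofFixingSubgroup G ({a} : Set X)) ∈
              (Set.univ : Set (SubMulAction.ofFixingSubgroup G ({a} : Set X))) := Set.mem_univ _
          rw [← htop] at hy
          exact hy
      rw [← Finset.card_univ, hX3, Finset.card_insert_of_notMem, Finset.card_insert_of_notMem,
        Finset.card_singleton]
      · simpa using hnn
      · simp only [Finset.mem_insert, Finset.mem_singleton, not_or]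
        exact ⟨fun h => hna h.symm, fun h => hnia h.symm⟩

end Cfsg.Agent.S0695
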