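import Cfsg.Statements.S0696
-- import your own Cfsg.Agent.* helpers here
import Mathlib
import Cfsg.Agent.S0695

set_option autoImplicit false
open Cfsg

namespace Cfsg.Agent.S0696

open scoped Pointwise

/-- A triply primitive group of degree at least 3 having a regular normal subgroup has degree 3 or 4. -/
theorem result {G : Type*} [Group G] {X : Type*} [Fintype X] [MulAction G X] (hX : 3 ≤ Fintype.card X) (h3 : MulAction.IsMultiplyPreprimitive G X 3) (N : Subgroup G) [N.Normal] (htrans : MulAction.IsPretransitive N X) (hreg : ∀ x : X, MulAction.stabilizer N x = ⊥) : Fintype.card X = 3 ∨ Fintype.card X = 4 := by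
  classical
  have hα : ((3 : ℕ) : ℕ∞) ≤ ENat.card X := by
    rw [ENat.card_eq_coe_fintype_card]; exact_mod_cast hX
  have h2 : MulAction.IsMultiplyPreprimitive G X 2 :=
    MulAction.isMultiplyPreprimitive_of_le G X h3 (by norm_num) hα
  rcases Cfsg.Agent.S0695.result (by omega) h2 N htrans hreg with h | ⟨hNc, hN2, -⟩
  · left; exact h
  · right
    have hne : Nonempty X := Fintype.card_pos_iff.mp (by omega)
    obtain ⟨a⟩ := hne
    have hinj : ∀ n ∈ N, ∀ n' ∈ N, n • a = n' • a → n = n' := by
      intro n hn n' hn' h
      have h1 : (⟨n'⁻¹ * n, N.mul_mem (N.inv_mem hn') hn⟩ : N) ∈ MulAction.stabilizer N a := by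
        rw [MulAction.mem_stabilizer_iff]
        show (n'⁻¹ * n) • a = a
        rw [mul_smul, h, inv_smul_smul]
      rw [hreg a, Subgroup.mem_bot] at h1
      have h2 : n'⁻¹ * n = 1 := congrArg Subtype.val h1
      exact (inv_mul_eq_one.mp h2).symm
    have hsurj : ∀ y : X, ∃ n ∈ N, n • a = y := by
      intro y
      obtain ⟨n, hn⟩ := htrans.exists_smul_eq a y
      exact ⟨n, n.2, hn⟩
    obtain ⟨b, hb⟩ : ∃ b, b ≠ a := by
      by_contra hcon
      push Not at hcon
      have h1 : Fintype.card X ≤ 1 :=
        Fintype.card_le_one_iff.mpr (fun x y => (hcon x).trans (hcon y).symm)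
      omega
    obtain ⟨c, hca, hcb⟩ : ∃ c, c ≠ a ∧ c ≠ b := by
      by_contra hcon
      push Not at hcon
      have h1 : (Finset.univ : Finset X) ⊆ {a, b} := by
        intro y _
        simp only [Finset.mem_insert, Finset.mem_singleton]
        by_cases h : y = a
        · left; exact h
        · right; exact hcon y h
      have h2' := Finset.card_le_card h1
      rw [Finset.card_univ] at h2'
      have h3' : ({a, b} : Finset X).card ≤ 2 := Finset.card_le_two
      omega
    obtain ⟨n₀, hn₀, hn₀b⟩ := hsurj b
    obtain ⟨n, hn, hnc⟩ := hsurj c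
    have hn₀1 : n₀ ≠ 1 := by
      rintro rfl
      rw [one_smul] at hn₀b
      exact hb hn₀b.symm
    have hn₀sq : n₀ * n₀ = 1 := by
      have h := hN2 n₀ hn₀
      rwa [pow_two] at h
    have hprim : MulAction.IsPreprimitive (fixingSubgroup G ({a, b} : Set X))
        (SubMulAction.ofFixingSubgroup G ({a, b} : Set X)) :=
      MulAction.IsMultiplyPreprimitive.isPreprimitive_ofFixingSubgroup G 3 (by
        rw [Set.encard_pair hb.symm]; rfl)
    obtain ⟨B, hB⟩ : ∃ B : Set (SubMulAction.ofFixingSubgroup G ({a, b} : Set X)),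
        B = {y : SubMulAction.ofFixingSubgroup G ({a, b} : Set X) |
          (y : X) = n • a ∨ (y : X) = (n₀ * n) • a} := ⟨_, rfl⟩
    have hBmem : ∀ y : SubMulAction.ofFixingSubgroup G ({a, b} : Set X),
        y ∈ B ↔ ((y : X) = n • a ∨ (y : X) = (n₀ * n) • a) := fun y => by rw [hB]; rfl
    have hblock : MulAction.IsBlock (fixingSubgroup G ({a, b} : Set X)) B := by
      rw [MulAction.isBlock_iff_smul_eq_or_disjoint]
      intro g
      have hga : (g : G) • a = a := (mem_fixingSubgroup_iff G).mp g.2 a (by simp)
      have hgb : (g : G) • b = b := (mem_fixingSubgroup_iff G).mp g.2 b (by simp)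
      have hga' : (g : G)⁻¹ • a = a := inv_smul_eq_iff.mpr hga.symm
      have hn' : (g : G) * n * (g : G)⁻¹ ∈ N := Subgroup.Normal.conj_mem inferInstance n hn g
      have hgn₀ : (g : G) * n₀ * (g : G)⁻¹ = n₀ := by
        apply hinj _ (Subgroup.Normal.conj_mem inferInstance n₀ hn₀ g) _ hn₀
        rw [mul_smul, mul_smul, hga', hn₀b, hgb]
      have hmem : ∀ y : SubMulAction.ofFixingSubgroup G ({a, b} : Set X), y ∈ g • B ↔
          ((y : X) = ((g : G) * n * (g : G)⁻¹) • a ∨
            (y : X) = (n₀ * ((g : G) * n * (g : G)⁻¹)) • a) := by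
        intro y
        rw [Set.mem_smul_set_iff_inv_smul_mem, hBmem]
        have e : ((g⁻¹ • y : SubMulAction.ofFixingSubgroup G ({a, b} : Set X)) : X)
            = (g : G)⁻¹ • (y : X) := rfl
        have e1 : ((g : G) * n * (g : G)⁻¹) • a = (g : G) • n • a := by
          rw [mul_smul, mul_smul, hga']
        have e2 : (n₀ * ((g : G) * n * (g : G)⁻¹)) • a = (g : G) • (n₀ * n) • a := by
          nth_rewrite 1 [← hgn₀]
          have e3 : (g : G) * n₀ * (g : G)⁻¹ * ((g : G) * n * (g : G)⁻¹)
              = (g : G) * (n₀ * n) * (g : G)⁻¹ := by group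
          rw [e3, mul_smul, mul_smul, hga']
        rw [e, e1, e2, inv_smul_eq_iff, inv_smul_eq_iff]
      by_cases hcase : (g : G) * n * (g : G)⁻¹ = n ∨ (g : G) * n * (g : G)⁻¹ = n₀ * n
      · left
        ext y
        rw [hmem, hBmem]
        rcases hcase with h | h
        · rw [h]
        · rw [h, ← mul_assoc, hn₀sq, one_mul]; exact or_comm
      · right
        rw [Set.disjoint_left]
        intro y hy hy'
        rw [hmem] at hy
        rw [hBmem] at hy'
        apply hcase
        rcases hy with h | h <;> rcases hy' with h' | h'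
        · left; exact hinj _ hn' _ hn (h.symm.trans h')
        · right; exact hinj _ hn' _ (N.mul_mem hn₀ hn) (h.symm.trans h')
        · right
          have h3 := hinj _ (N.mul_mem hn₀ hn') _ hn (h.symm.trans h')
          calc (g : G) * n * (g : G)⁻¹ = n₀ * (n₀ * ((g : G) * n * (g : G)⁻¹)) := by
                rw [← mul_assoc, hn₀sq, one_mul]
            _ = n₀ * n := by rw [h3]
        · left
          have h3 := hinj _ (N.mul_mem hn₀ hn') _ (N.mul_mem hn₀ hn) (h.symm.trans h')
          exact mul_left_cancel h3
    have htriv := hprim.isTrivialBlock_of_isBlock hblock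
    have hna : n • a ≠ a := by rw [hnc]; exact hca
    have hnb : n • a ≠ b := by rw [hnc]; exact hcb
    have hn1 : n ≠ 1 := by
      rintro rfl
      rw [one_smul] at hnc
      exact hca hnc.symm
    have hnn₀ : n ≠ n₀ := by
      rintro rfl
      rw [hn₀b] at hnc
      exact hcb hnc.symm
    have hn0na : (n₀ * n) • a ≠ a := by
      intro h
      have h1 := hinj _ (N.mul_mem hn₀ hn) 1 N.one_mem (by rw [h, one_smul])
      apply hnn₀
      calc n = n₀ * (n₀ * n) := by rw [← mul_assoc, hn₀sq, one_mul]
        _ = n₀ := by rw [h1, mul_one]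
    have hn0nb : (n₀ * n) • a ≠ b := by
      intro h
      have h1 := hinj _ (N.mul_mem hn₀ hn) n₀ hn₀ (by rw [h, hn₀b])
      exact hn1 (mul_left_cancel (h1.trans (mul_one n₀).symm))
    have hdist : n • a ≠ (n₀ * n) • a := by
      intro h
      have h1 := hinj _ hn _ (N.mul_mem hn₀ hn) h
      exact hn₀1 (mul_right_cancel ((one_mul n).trans h1).symm)
    have hmem1 : n • a ∈ SubMulAction.ofFixingSubgroup G ({a, b} : Set X) :=
      (SubMulAction.mem_ofFixingSubgroup_iff G).mpr (by
        simp only [Set.mem_insert_iff, Set.mem_singleton_iff, not_or]; exact ⟨hna, hnb⟩)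
    have hmem2 : (n₀ * n) • a ∈ SubMulAction.ofFixingSubgroup G ({a, b} : Set X) :=
      (SubMulAction.mem_ofFixingSubgroup_iff G).mpr (by
        simp only [Set.mem_insert_iff, Set.mem_singleton_iff, not_or]; exact ⟨hn0na, hn0nb⟩)
    rcases htriv with hsub | htop
    · exfalso
      have m1 : (⟨n • a, hmem1⟩ : SubMulAction.ofFixingSubgroup G ({a, b} : Set X)) ∈ B :=
        (hBmem _).mpr (Or.inl rfl)
      have m2 : (⟨(n₀ * n) • a, hmem2⟩ : SubMulAction.ofFixingSubgroup G ({a, b} : Set X)) ∈ B :=
        (hBmem _).mpr (Or.inr rfl)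
      have h3' := hsub m1 m2
      exact hdist (congrArg Subtype.val h3')
    · have hX4 : (Finset.univ : Finset X) = {a, b, n • a, (n₀ * n) • a} := by
        ext y
        simp only [Finset.mem_univ, true_iff, Finset.mem_insert, Finset.mem_singleton]
        by_cases hya : y = a
        · left; exact hya
        · by_cases hyb : y = b
          · right; left; exact hyb
          · right; right
            have hymem : y ∈ SubMulAction.ofFixingSubgroup G ({a, b} : Set X) :=
              (SubMulAction.mem_ofFixingSubgroup_iff G).mpr (by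
                simp only [Set.mem_insert_iff, Set.mem_singleton_iff, not_or]; exact ⟨hya, hyb⟩)
            have hy : (⟨y, hymem⟩ : SubMulAction.ofFixingSubgroup G ({a, b} : Set X)) ∈
                (Set.univ : Set (SubMulAction.ofFixingSubgroup G ({a, b} : Set X))) :=
              Set.mem_univ _
            rw [← htop] at hy
            exact (hBmem _).mp hy
      rw [← Finset.card_univ, hX4, Finset.card_insert_of_notMem, Finset.card_insert_of_notMem,
        Finset.card_insert_of_notMem, Finset.card_singleton]
      · simpa using hdist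
      · simp only [Finset.mem_insert, Finset.mem_singleton, not_or]
        exact ⟨fun h => hnb h.symm, fun h => hn0nb h.symm⟩
      · simp only [Finset.mem_insert, Finset.mem_singleton, not_or]
        exact ⟨fun h => hb h.symm, fun h => hna h.symm, fun h => hn0na h.symm⟩

end Cfsg.Agent.S0696
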