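import Cfsg.Statements.S0697
import Mathlib

set_option autoImplicit false
open Cfsg

namespace Cfsg.Agent.S0697

open MulAction SubMulAction
open scoped Pointwise

universe u

theorem exists_notMem {α : Type u} [Finite α] (S : Finset α) (h : S.card < Nat.card α) :
    ∃ x, x ∉ S := by
  classical
  by_contra hcon
  push Not at hcon
  have := Fintype.ofFinite α
  rw [Nat.card_eq_fintype_card] at h
  have h2 : S = Finset.univ := Finset.eq_univ_iff_forall.mpr hcon
  rw [h2, Finset.card_univ] at h
  exact lt_irrefl _ h

theorem full_of_trans {G : Type u} {α : Type u} [Group G] [MulAction G α] [Finite α]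
    [FaithfulSMul G α] (m : ℕ) (hm : Nat.card α ≤ m + 1) (hmα : m ≤ Nat.card α)
    (h : IsMultiplyPretransitive G α m) :
    (Nat.card α).factorial ≤ Nat.card G := by
  classical
  haveI := h
  have h1 : IsMultiplyPretransitive G α (Nat.card α - 1) :=
    isMultiplyPretransitive_of_le (n := m) (by omega) hmα
  let φ : G →* Equiv.Perm α := MulAction.toPermHom G α
  have h2 : IsMultiplyPretransitive φ.range α (Nat.card α - 1) := by
    let f : α →ₑ[φ.rangeRestrict] α := { toFun := id, map_smul' := fun g x => rfl }
    haveI := h1
    exact IsPretransitive.of_embedding (f := f) (fun x => ⟨x, rfl⟩)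
  have h3 := Equiv.Perm.eq_top_of_isMultiplyPretransitive h2
  have hinj : Function.Injective φ := MulAction.toPerm_injective
  have h4 : Nat.card G = Nat.card φ.range :=
    Nat.card_congr (MonoidHom.ofInjective hinj).toEquiv
  rw [h4, h3, Subgroup.card_top, Nat.card_perm]

theorem transport {G : Type u} {α : Type u} [Group G] [MulAction G α] (H : Subgroup G) (a : α)
    (k : ℕ) [IsPretransitive H α]
    (h : IsMultiplyPretransitive (H.subgroupOf (stabilizer G a)) (ofStabilizer G a) k) :
    IsMultiplyPretransitive H α (k + 1) := by
  rw [ofStabilizer.isMultiplyPretransitive (G := H) (a := a)]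
  let σ : (H.subgroupOf (stabilizer G a)) → stabilizer H a := fun g =>
    ⟨⟨g.1.1, g.2⟩, g.1.2⟩
  let f : (ofStabilizer G a) →ₑ[σ] (ofStabilizer H a) :=
    { toFun := fun x => ⟨x.1, x.2⟩
      map_smul' := fun g x => rfl }
  haveI := h
  exact IsPretransitive.of_embedding (f := f) (fun y => ⟨⟨y.1, y.2⟩, rfl⟩)

theorem main (k : ℕ) : ∀ {G : Type u} {α : Type u} [Group G] [MulAction G α] [Finite α]
    [FaithfulSMul G α], 1 ≤ k → k ≤ Nat.card α → IsMultiplyPreprimitive G α k →
    Nat.card G < (Nat.card α).factorial →
    ∀ (H : Subgroup G), H.Normal → H ≠ ⊥ → (k = 1 ∨ ∃ a : α, ∃ h ∈ H, h ≠ 1 ∧ h • a = a) →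
    IsMultiplyPretransitive H α k := by
  induction k with
  | zero => intro G α _ _ _ _ h1; omega
  | succ k ih =>
    intro G α _ _ _ _ h1 hk hprim hcard H hHn hH hns
    haveI := hHn
    by_cases hk0 : k = 0
    · subst hk0
      haveI hp : IsPreprimitive G α := (is_one_preprimitive_iff G α).mp hprim
      rw [is_one_pretransitive_iff]
      apply IsQuasiPreprimitive.isPretransitive_of_normal (G := G)
      intro hfix
      apply hH
      rw [Subgroup.eq_bot_iff_forall]
      intro h hh
      apply FaithfulSMul.eq_of_smul_eq_smul (α := α)
      intro x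
      have hx : x ∈ fixedPoints H α := by rw [hfix]; trivial
      rw [one_smul]; exact hx ⟨h, hh⟩
    have hk1 : 1 ≤ k := by omega
    haveI : Finite G := Finite.of_injective _ (MulAction.toPerm_injective (α := G) (β := α))
    have hex : ∃ a : α, ∃ h ∈ H, h ≠ 1 ∧ h • a = a := by
      rcases hns with h | h
      · omega
      · exact h
    have hENat : ((k + 1 : ℕ) : ℕ∞) ≤ ENat.card α := by
      rw [ENat.card_eq_coe_natCard]; exact_mod_cast hk
    have hprimk : IsMultiplyPreprimitive G α k :=
      isMultiplyPreprimitive_of_le G α hprim (Nat.le_succ k) hENat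
    have hHk : IsMultiplyPretransitive H α k :=
      ih hk1 (by omega) hprimk hcard H hHn hH (Or.inr hex)
    haveI hGt : IsMultiplyPretransitive G α (k + 1) :=
      IsMultiplyPreprimitive.isMultiplyPretransitive G α (k + 1)
    haveI hGtr : IsPretransitive G α := by
      have h := isMultiplyPretransitive_of_le (G := G) (α := α) (m := 1) (n := k + 1)
        (by omega) hk
      exact is_one_pretransitive_iff.mp h
    haveI hHtr : IsPretransitive H α := by
      haveI := hHk
      have h := isMultiplyPretransitive_of_le (G := H) (α := α) (m := 1) (n := k) hk1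
        (by omega)
      exact is_one_pretransitive_iff.mp h
    obtain ⟨a, h0, hh0, hh01, hh0a⟩ := hex
    haveI hprim' : IsMultiplyPreprimitive (stabilizer G a) (ofStabilizer G a) k :=
      isMultiplyPreprimitive_ofStabilizer (M := G) (α := α)
    haveI hfaith' : FaithfulSMul (stabilizer G a) (ofStabilizer G a) := ⟨by
      intro g1 g2 hg
      apply Subtype.ext
      apply FaithfulSMul.eq_of_smul_eq_smul (α := α)
      intro x
      by_cases hx : x = a
      · rw [hx, mem_stabilizer_iff.mp g1.2, mem_stabilizer_iff.mp g2.2]
      · have h := hg ⟨x, hx⟩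
        exact congrArg Subtype.val h⟩
    have hcα' : Nat.card (ofStabilizer G a) = Nat.card α - 1 :=
      nat_card_ofStabilizer_eq (G := G) a
    have hcG : Nat.card (stabilizer G a) * Nat.card α = Nat.card G := by
      have h := Subgroup.card_mul_index (stabilizer G a)
      rwa [index_stabilizer_of_transitive] at h
    have hcG' : Nat.card (stabilizer G a) < (Nat.card (ofStabilizer G a)).factorial := by
      rw [hcα']
      have hpos : Nat.card α ≠ 0 := by omega
      have h := Nat.mul_factorial_pred hpos
      rw [← h, ← hcG, mul_comm] at hcard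
      exact Nat.lt_of_mul_lt_mul_left hcard
    have hH' : H.subgroupOf (stabilizer G a) ≠ ⊥ := by
      intro hbot
      have hm : (⟨h0, hh0a⟩ : stabilizer G a) ∈ H.subgroupOf (stabilizer G a) :=
        Subgroup.mem_subgroupOf.mpr hh0
      rw [hbot, Subgroup.mem_bot] at hm
      exact hh01 (congrArg Subtype.val hm)
    have hn' : (H.subgroupOf (stabilizer G a)).Normal := hHn.subgroupOf _
    by_cases hB : ∃ b : α, b ≠ a ∧ ∃ h ∈ H, h ≠ 1 ∧ h • a = a ∧ h • b = b
    · obtain ⟨b, hba, h, hh, hh1, hha, hhb⟩ := hB
      have key : IsMultiplyPretransitive (H.subgroupOf (stabilizer G a)) (ofStabilizer G a) k := by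
        refine ih (G := stabilizer G a) (α := ofStabilizer G a) hk1 (by omega) hprim' hcG' _ hn' hH'
          (Or.inr ⟨⟨b, hba⟩, ⟨h, hha⟩, Subgroup.mem_subgroupOf.mpr hh, ?_, ?_⟩)
        · intro h1'
          exact hh1 (congrArg Subtype.val h1')
        · exact Subtype.ext hhb
      exact transport H a k key
    · by_cases hk' : k = 1
      · have key : IsMultiplyPretransitive (H.subgroupOf (stabilizer G a)) (ofStabilizer G a) k :=
          ih (G := stabilizer G a) (α := ofStabilizer G a) hk1 (by omega) hprim' hcG' _ hn' hH'
            (Or.inl hk')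
        exact transport H a k key
      · exfalso
        have hk2 : 2 ≤ k := by omega
        have hbig : k + 3 ≤ Nat.card α := by
          by_contra hcon
          have h := full_of_trans (G := G) (α := α) (k + 1) (by omega) hk hGt
          omega
        have hsemi : ∀ b : α, b ≠ a → ∀ h ∈ H, h • a = a → h • b = b → h = 1 := by
          intro b hba h hh hha hhb
          by_contra hne
          exact hB ⟨b, hba, h, hh, hne, hha, hhb⟩
        have hH2 : IsMultiplyPretransitive H α 2 := by
          haveI := hHk
          exact isMultiplyPretransitive_of_le (G := H) (α := α) hk2 (by omega)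
        rw [is_two_pretransitive_iff] at hH2
        classical
        obtain ⟨b, hb⟩ := exists_notMem ({a} : Finset α) (by rw [Finset.card_singleton]; omega)
        have hba : b ≠ a := by simpa using hb
        obtain ⟨t, hta, htb⟩ := hH2 (Ne.symm hba) hba
        obtain ⟨t0, ht0⟩ := t
        have hta' : t0 • a = b := hta
        have htb' : t0 • b = a := htb
        have ht2 : t0 * t0 = 1 :=
          hsemi b hba (t0 * t0) (H.mul_mem ht0 ht0) (by rw [mul_smul, hta', htb'])
            (by rw [mul_smul, htb', hta'])
        have htinv : t0⁻¹ = t0 := inv_eq_of_mul_eq_one_right ht2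
        have htt : ∀ y : α, t0 • t0 • y = y := by
          intro y; rw [← mul_smul, ht2, one_smul]
        have hcomm : ∀ g : G, g • a = a → g • b = b → g * t0 = t0 * g := by
          intro g hga hgb
          have hgia : g⁻¹ • a = a := inv_smul_eq_iff.mpr hga.symm
          have hgib : g⁻¹ • b = b := inv_smul_eq_iff.mpr hgb.symm
          have hc : g * t0 * g⁻¹ * t0⁻¹ = 1 := by
            apply hsemi b hba _ (H.mul_mem (hHn.conj_mem t0 ht0 g) (H.inv_mem ht0))
            · rw [htinv, mul_smul, mul_smul, mul_smul, hta', hgib, htb', hga]
            · rw [htinv, mul_smul, mul_smul, mul_smul, htb', hgia, hta', hgb]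
          have hc2 := mul_inv_eq_one.mp hc
          exact mul_inv_eq_iff_eq_mul.mp hc2
        let s : Set α := {a, b}
        have hprim3 : IsMultiplyPreprimitive G α 3 :=
          isMultiplyPreprimitive_of_le G α hprim (by omega) hENat
        haveI hP : IsPreprimitive (fixingSubgroup G s) (ofFixingSubgroup G s) := by
          haveI := hprim3
          apply IsMultiplyPreprimitive.isPreprimitive_ofFixingSubgroup G 3
          rw [Set.encard_pair (Ne.symm hba)]; rfl
        have hfix : ∀ g : fixingSubgroup G s, (g : G) • a = a ∧ (g : G) • b = b := by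
          intro g
          have hg := (mem_fixingSubgroup_iff G).mp g.2
          exact ⟨hg a (by simp [s]), hg b (by simp [s])⟩
        have hgt : ∀ (g : fixingSubgroup G s) (y : α), (g : G) • t0 • y = t0 • (g : G) • y := by
          intro g y
          rw [← mul_smul, ← mul_smul, hcomm g.1 (hfix g).1 (hfix g).2]
        have hts : ∀ c : α, c ∉ s → t0 • c ∉ s := by
          intro c hc hd
          rcases hd with hd | hd
          · apply hc; right
            have h : t0 • c = t0 • b := by rw [hd, htb']
            exact smul_left_cancel _ h
          · apply hc; left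
            have h : t0 • c = t0 • a := by rw [hta']; exact hd
            exact smul_left_cancel _ h
        have hmove : ∀ c : α, c ∉ s → t0 • c ≠ c := by
          intro c hc htc
          have hca : c ≠ a := fun h => hc (by simp [s, h])
          have hcb : c ≠ b := fun h => hc (by simp [s, h])
          obtain ⟨c', hc'⟩ := exists_notMem ({a, b, c} : Finset α)
            (lt_of_le_of_lt (Finset.card_le_three) (by omega))
          simp only [Finset.mem_insert, Finset.mem_singleton, not_or] at hc'
          have hc's : c' ∉ s := by
            intro h; rcases h with h | h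
            · exact hc'.1 h
            · exact hc'.2.1 h
          obtain ⟨g, hg⟩ := exists_smul_eq (fixingSubgroup G s)
            (⟨c, hc⟩ : ofFixingSubgroup G s) ⟨c', hc's⟩
          have hg' : (g : G) • c = c' := congrArg Subtype.val hg
          have htc' : t0 • c' = c' := by rw [← hg', ← hgt, htc]
          obtain ⟨h, hh⟩ := exists_smul_eq H c a
          obtain ⟨h1', hh1'⟩ := h
          have hh' : h1' • c = a := hh
          have hhi : h1'⁻¹ • a = c := inv_smul_eq_iff.mpr hh'.symm
          have hu : h1' * t0 * h1'⁻¹ = 1 := by
            apply hsemi (h1' • c') _ _ (hHn.conj_mem t0 ht0 h1')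
            · rw [mul_smul, mul_smul, hhi, htc, hh']
            · rw [mul_smul, mul_smul, inv_smul_smul, htc']
            · intro h; rw [← hh'] at h
              exact hc'.2.2 (smul_left_cancel _ h)
          have ht1 : t0 = 1 := by
            have h := mul_inv_eq_one.mp hu
            have h2 : h1' * t0 = h1' * 1 := by rw [mul_one]; exact h
            exact mul_left_cancel h2
          rw [ht1, one_smul] at hta'
          exact hba hta'.symm
        obtain ⟨c, hc⟩ := exists_notMem ({a, b} : Finset α)
          (lt_of_le_of_lt (Finset.card_le_two) (by omega))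
        simp only [Finset.mem_insert, Finset.mem_singleton, not_or] at hc
        have hcs : c ∉ s := by
          intro h; rcases h with h | h
          · exact hc.1 h
          · exact hc.2 h
        have hds : t0 • c ∉ s := hts c hcs
        have hdc : t0 • c ≠ c := hmove c hcs
        let B : Set (ofFixingSubgroup G s) := {y | (y : α) = c ∨ (y : α) = t0 • c}
        have hmemB : ∀ (g : fixingSubgroup G s) (y : ofFixingSubgroup G s),
            y ∈ g • B ↔ ((y : α) = (g : G) • c ∨ (y : α) = (g : G) • t0 • c) := by
          intro g y
          rw [Set.mem_smul_set_iff_inv_smul_mem]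
          show (((g : G)⁻¹ • (y : α)) = c ∨ ((g : G)⁻¹ • (y : α)) = t0 • c) ↔ _
          rw [inv_smul_eq_iff, inv_smul_eq_iff]
        have hblock : IsBlock (fixingSubgroup G s) B := by
          rw [isBlock_iff_smul_eq_or_disjoint]
          intro g
          by_cases hx1 : (g : G) • c = c
          · left
            ext y
            rw [hmemB, hgt, hx1]
            rfl
          · by_cases hx2 : (g : G) • c = t0 • c
            · left
              ext y
              rw [hmemB, hgt, hx2, htt]
              exact or_comm
            · right
              rw [Set.disjoint_left]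
              intro y hy hyB
              rw [hmemB, hgt] at hy
              have hyB' : (y : α) = c ∨ (y : α) = t0 • c := hyB
              rcases hy with hy | hy <;> rcases hyB' with hyB' | hyB'
              · exact hx1 (hy.symm.trans hyB')
              · exact hx2 (hy.symm.trans hyB')
              · apply hx2
                have h : t0 • (g : G) • c = c := hy.symm.trans hyB'
                have h2 : t0 • t0 • (g : G) • c = t0 • c := by rw [h]
                rwa [htt] at h2
              · apply hx1
                have h : t0 • (g : G) • c = t0 • c := hy.symm.trans hyB'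
                exact smul_left_cancel _ h
        have htriv := hP.isTrivialBlock_of_isBlock hblock
        rcases htriv with hsub | huniv
        · have h1 : (⟨c, hcs⟩ : ofFixingSubgroup G s) ∈ B := Or.inl rfl
          have h2 : (⟨t0 • c, hds⟩ : ofFixingSubgroup G s) ∈ B := Or.inr rfl
          have h3 := hsub h1 h2
          exact hdc (congrArg Subtype.val h3).symm
        · obtain ⟨e, he⟩ := exists_notMem ({a, b, c, t0 • c} : Finset α)
            (lt_of_le_of_lt (Finset.card_le_four) (by omega))
          simp only [Finset.mem_insert, Finset.mem_singleton, not_or] at he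
          have hes : e ∉ s := by
            intro h; rcases h with h | h
            · exact he.1 h
            · exact he.2.1 h
          have h1 : (⟨e, hes⟩ : ofFixingSubgroup G s) ∈ B := by rw [huniv]; trivial
          rcases h1 with h1 | h1
          · exact he.2.2.1 h1
          · exact he.2.2.2 h1


/-- In a `k`-primitive permutation group which is not the whole symmetric group, a non-trivial non-regular normal subgroup is `k`-transitive. -/
theorem result {α : Type*} [Fintype α] [DecidableEq α] (G : Subgroup (Equiv.Perm α)) {k : ℕ} (hk : 1 ≤ k) (hkn : k ≤ Fintype.card α) (hG : MulAction.IsMultiplyPreprimitive G α k) (htop : G ≠ ⊤) (H : Subgroup G) [H.Normal] (hH : H ≠ ⊥) (hnr : ∃ a : α, MulAction.stabilizer H a ≠ ⊥) : MulAction.IsMultiplyPretransitive H α k := by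
  have hcard : Nat.card G < (Nat.card α).factorial := by
    rw [← Nat.card_perm]
    have h1 : Nat.card G ≤ Nat.card (Equiv.Perm α) := Subgroup.card_le_card_group G
    rcases Nat.lt_or_ge (Nat.card G) (Nat.card (Equiv.Perm α)) with h | h
    · exact h
    · exact absurd (Subgroup.eq_top_of_card_eq G (le_antisymm h1 h)) htop
  have hns : k = 1 ∨ ∃ a : α, ∃ h ∈ H, h ≠ 1 ∧ h • a = a := by
    right
    obtain ⟨a, ha⟩ := hnr
    rw [Ne, Subgroup.eq_bot_iff_forall] at ha
    push Not at ha
    obtain ⟨x, hx, hx1⟩ := ha
    refine ⟨a, x.1, x.2, ?_, ?_⟩
    · intro h; exact hx1 (Subtype.ext h)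
    · exact MulAction.mem_stabilizer_iff.mp hx
  exact main k hk (by rw [Nat.card_eq_fintype_card]; exact hkn) hG hcard H inferInstance hH hns

end Cfsg.Agent.S0697
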