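import Cfsg.Statements.S0698
import Mathlib

set_option autoImplicit false
open Cfsg

namespace Cfsg.Agent.S0698

universe u v

lemma normal_trans {G : Type*} [Group G] {α : Type*} [MulAction G α] [FaithfulSMul G α]
    (h2 : MulAction.IsMultiplyPretransitive G α 2) (N : Subgroup G) [N.Normal] (hN : N ≠ ⊥) :
    MulAction.IsPretransitive N α := by
  haveI := MulAction.isPreprimitive_of_is_two_pretransitive h2
  apply MulAction.IsQuasiPreprimitive.isPretransitive_of_normal
  intro h
  apply hN
  rw [eq_bot_iff]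
  intro n hn
  rw [Subgroup.mem_bot]
  apply FaithfulSMul.eq_of_smul_eq_smul (α := α)
  intro x
  have hx : x ∈ MulAction.fixedPoints N α := by rw [h]; trivial
  have := hx ⟨n, hn⟩
  rw [one_smul]
  exact this

lemma exists_notMem {α : Type*} [Finite α] (s : Finset α) (h : s.card < Nat.card α) :
    ∃ e, e ∉ s := by
  classical
  by_contra hcon
  push_neg at hcon
  haveI := Fintype.ofFinite α
  have : s = Finset.univ := Finset.eq_univ_iff_forall.mpr hcon
  rw [this, Finset.card_univ, Nat.card_eq_fintype_card] at h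
  exact lt_irrefl _ h

lemma trans3 {G : Type*} [Group G] {α : Type*} [MulAction G α]
    (h : MulAction.IsMultiplyPretransitive G α 3) {a b c a' b' c' : α}
    (hab : a ≠ b) (hac : a ≠ c) (hbc : b ≠ c)
    (hab' : a' ≠ b') (hac' : a' ≠ c') (hbc' : b' ≠ c') :
    ∃ g : G, g • a = a' ∧ g • b = b' ∧ g • c = c' := by
  let x : Fin 3 ↪ α := ⟨![a, b, c], by intro i j hij; fin_cases i <;> fin_cases j <;> simp_all⟩
  let y : Fin 3 ↪ α := ⟨![a', b', c'], by intro i j hij; fin_cases i <;> fin_cases j <;> simp_all⟩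
  obtain ⟨g, hg⟩ := h.exists_smul_eq x y
  refine ⟨g, ?_, ?_, ?_⟩
  · exact DFunLike.congr_fun hg 0
  · exact DFunLike.congr_fun hg 1
  · exact DFunLike.congr_fun hg 2

lemma trans4 {G : Type*} [Group G] {α : Type*} [MulAction G α]
    (h : MulAction.IsMultiplyPretransitive G α 4) {a b c d a' b' c' d' : α}
    (hab : a ≠ b) (hac : a ≠ c) (had : a ≠ d) (hbc : b ≠ c) (hbd : b ≠ d) (hcd : c ≠ d)
    (hab' : a' ≠ b') (hac' : a' ≠ c') (had' : a' ≠ d') (hbc' : b' ≠ c') (hbd' : b' ≠ d')
    (hcd' : c' ≠ d') :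
    ∃ g : G, g • a = a' ∧ g • b = b' ∧ g • c = c' ∧ g • d = d' := by
  let x : Fin 4 ↪ α := ⟨![a, b, c, d], by
    intro i j hij; fin_cases i <;> fin_cases j <;> simp_all⟩
  let y : Fin 4 ↪ α := ⟨![a', b', c', d'], by
    intro i j hij; fin_cases i <;> fin_cases j <;> simp_all⟩
  obtain ⟨g, hg⟩ := h.exists_smul_eq x y
  refine ⟨g, ?_, ?_, ?_, ?_⟩
  · exact DFunLike.congr_fun hg 0
  · exact DFunLike.congr_fun hg 1
  · exact DFunLike.congr_fun hg 2
  · exact DFunLike.congr_fun hg 3

lemma caseB {G : Type*} [Group G] {α : Type*} [MulAction G α] [Finite α] (N : Subgroup G)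
    [hNn : N.Normal] (a : α)
    (hfree : ∀ n ∈ N, n • a = a → n = 1)
    (h3 : MulAction.IsMultiplyPretransitive G α 3) (hcard : 3 < Nat.card α) :
    ∀ n ∈ N, n ^ 2 = 1 := by
  classical
  have hreg : ∀ n ∈ N, ∀ m ∈ N, n • a = m • a → n = m := by
    intro n hn m hm h
    have h1 : (m⁻¹ * n) • a = a := by rw [mul_smul, h, inv_smul_smul]
    have h2 := hfree _ (N.mul_mem (N.inv_mem hm) hn) h1
    exact (inv_mul_eq_one.mp h2).symm
  intro n hn
  by_contra hne
  have hb : n • a ≠ a := by
    intro h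
    have := hfree n hn h
    apply hne; rw [this]; simp
  have hc : n⁻¹ • a ≠ a := by
    intro h
    have := hfree _ (N.inv_mem hn) h
    apply hne; rw [inv_eq_one.mp this]; simp
  have hbc : n • a ≠ n⁻¹ • a := by
    intro h
    have h1 := hreg n hn _ (N.inv_mem hn) h
    apply hne
    rw [pow_two]; nth_rewrite 1 [h1]; exact inv_mul_cancel n
  obtain ⟨e, he⟩ := exists_notMem ({a, n • a, n⁻¹ • a} : Finset α)
    (lt_of_le_of_lt Finset.card_le_three hcard)
  simp only [Finset.mem_insert, Finset.mem_singleton, not_or] at he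
  obtain ⟨he1, he2, he3⟩ := he
  obtain ⟨g, hg1, hg2, hg3⟩ := trans3 h3 (Ne.symm hb) (Ne.symm hc) hbc (Ne.symm hb)
    (Ne.symm he1) (Ne.symm he2)
  have hga : g⁻¹ • a = a := by rw [inv_smul_eq_iff, hg1]
  have h1 : g * n * g⁻¹ = n := by
    apply hreg _ (hNn.conj_mem n hn g) _ hn
    rw [mul_smul, mul_smul, hga, hg2]
  have h2 : g * n⁻¹ * g⁻¹ = n⁻¹ := by
    calc g * n⁻¹ * g⁻¹ = (g * n * g⁻¹)⁻¹ := by group
      _ = n⁻¹ := by rw [h1]
  have h3' : n⁻¹ • a = e := by
    have h4 : (g * n⁻¹ * g⁻¹) • a = e := by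
      rw [mul_smul, mul_smul, hga, hg3]
    rw [h2] at h4; exact h4
  exact he3 h3'.symm

lemma caseB4 {G : Type*} [Group G] {α : Type*} [MulAction G α] [Finite α] (N : Subgroup G)
    [hNn : N.Normal] (a : α)
    (hNt : ∀ b : α, ∃ n ∈ N, n • a = b)
    (hfree : ∀ n ∈ N, n • a = a → n = 1)
    (h4 : MulAction.IsMultiplyPretransitive G α 4) (hcard : 4 < Nat.card α)
    (hexp : ∀ n ∈ N, n ^ 2 = 1) : False := by
  classical
  have hreg : ∀ n ∈ N, ∀ m ∈ N, n • a = m • a → n = m := by
    intro n hn m hm h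
    have h1 : (m⁻¹ * n) • a = a := by rw [mul_smul, h, inv_smul_smul]
    have h2 := hfree _ (N.mul_mem (N.inv_mem hm) hn) h1
    exact (inv_mul_eq_one.mp h2).symm
  obtain ⟨b1, hb1⟩ := exists_notMem ({a} : Finset α) (by rw [Finset.card_singleton]; omega)
  obtain ⟨b2, hb2⟩ := exists_notMem ({a, b1} : Finset α)
    (lt_of_le_of_lt Finset.card_le_two (by omega))
  simp only [Finset.mem_insert, Finset.mem_singleton, not_or] at hb1 hb2
  obtain ⟨hb2a, hb21⟩ := hb2
  obtain ⟨n1, hn1, e1⟩ := hNt b1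
  obtain ⟨n2, hn2, e2⟩ := hNt b2
  obtain ⟨b3, hb3⟩ : ∃ b3, b3 = (n1 * n2) • a := ⟨_, rfl⟩
  have h3a : b3 ≠ a := by
    intro h
    have h1 := hfree _ (N.mul_mem hn1 hn2) (hb3 ▸ h)
    have h2 : n2 ^ 2 = 1 := hexp n2 hn2
    have h3 : n1 = n2 := by
      calc n1 = n1 * n2 ^ 2 := by rw [h2, mul_one]
        _ = (n1 * n2) * n2 := by rw [pow_two, mul_assoc]
        _ = n2 := by rw [h1, one_mul]
    apply hb21
    rw [← e1, ← e2, h3]
  have h31 : b3 ≠ b1 := by
    intro h
    have h1 := hreg _ (N.mul_mem hn1 hn2) _ hn1 (by rw [← hb3, h, e1])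
    have h2 : n2 = 1 := by simpa using h1
    apply hb2a; rw [← e2, h2, one_smul]
  have h32 : b3 ≠ b2 := by
    intro h
    have h1 := hreg _ (N.mul_mem hn1 hn2) _ hn2 (by rw [← hb3, h, e2])
    have h2 : n1 = 1 := by simpa using h1
    apply hb1; rw [← e1, h2, one_smul]
  obtain ⟨e, he⟩ := exists_notMem ({a, b1, b2, b3} : Finset α)
    (lt_of_le_of_lt Finset.card_le_four hcard)
  simp only [Finset.mem_insert, Finset.mem_singleton, not_or] at he
  obtain ⟨hea, he1, he2, he3⟩ := he
  obtain ⟨g, hg0, hg1, hg2, hg3⟩ := trans4 h4 (a := a) (b := b1) (c := b2) (d := b3)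
    (a' := a) (b' := b1) (c' := b2) (d' := e) (Ne.symm hb1) (Ne.symm hb2a) (Ne.symm h3a)
    (Ne.symm hb21) (Ne.symm h31) (Ne.symm h32) (Ne.symm hb1) (Ne.symm hb2a) (Ne.symm hea)
    (Ne.symm hb21) (Ne.symm he1) (Ne.symm he2)
  have hga : g⁻¹ • a = a := by rw [inv_smul_eq_iff, hg0]
  have c1 : g * n1 * g⁻¹ = n1 := by
    apply hreg _ (hNn.conj_mem n1 hn1 g) _ hn1
    rw [mul_smul, mul_smul, hga, e1, hg1]
  have c2 : g * n2 * g⁻¹ = n2 := by
    apply hreg _ (hNn.conj_mem n2 hn2 g) _ hn2
    rw [mul_smul, mul_smul, hga, e2, hg2]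
  have c3 : g * (n1 * n2) * g⁻¹ = n1 * n2 := by
    calc g * (n1 * n2) * g⁻¹ = (g * n1 * g⁻¹) * (g * n2 * g⁻¹) := by group
      _ = n1 * n2 := by rw [c1, c2]
  have h5 : b3 = e := by
    have h : (g * (n1 * n2) * g⁻¹) • a = e := by
      rw [mul_smul, mul_smul, hga, ← hb3, hg3]
    rw [c3] at h; rw [hb3]; exact h
  exact he3 h5.symm

lemma caseA2 {G : Type*} [Group G] {α : Type*} [MulAction G α] [Finite α] [FaithfulSMul G α]
    (N : Subgroup G) [hNn : N.Normal] (a : α)
    (hGt : MulAction.IsPretransitive G α)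
    (hexp : ∀ n ∈ N, n • a = a → n ^ 2 = 1)
    (htr : ∀ b c : α, b ≠ a → c ≠ a → ∃ n ∈ N, n • a = a ∧ n • b = c)
    (hcard : 3 < Nat.card α) : False := by
  classical
  have hcomm : ∀ n ∈ N, n • a = a → ∀ m ∈ N, m • a = a → n * m = m * n := by
    intro n hn hna m hm hma
    have h1 := hexp n hn hna
    have h2 := hexp m hm hma
    have h3 := hexp (n * m) (N.mul_mem hn hm) (by rw [mul_smul, hma, hna])
    have h1' : n * n = 1 := by rw [← pow_two]; exact h1
    have h2' : m * m = 1 := by rw [← pow_two]; exact h2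
    have h3' : n * m * (n * m) = 1 := by rw [← pow_two]; exact h3
    calc n * m = n * (n * m * (n * m)) * m := by rw [h3', mul_one]
      _ = (n * n) * (m * n) * (m * m) := by group
      _ = m * n := by rw [h1', h2', one_mul, mul_one]
  have hfree : ∀ n ∈ N, n • a = a → ∀ b : α, b ≠ a → n • b = b → n = 1 := by
    intro n hn hna b hb hnb
    apply FaithfulSMul.eq_of_smul_eq_smul (α := α)
    intro x
    rw [one_smul]
    by_cases hx : x = a
    · rw [hx]; exact hna
    · obtain ⟨m, hm, hma, hmb⟩ := htr b x hb hx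
      rw [← hmb, ← mul_smul, hcomm n hn hna m hm hma, mul_smul, hnb]
  obtain ⟨d, hd⟩ := exists_notMem ({a} : Finset α) (by rw [Finset.card_singleton]; omega)
  obtain ⟨b, hb⟩ := exists_notMem ({a, d} : Finset α)
    (lt_of_le_of_lt Finset.card_le_two (by omega))
  obtain ⟨c, hc⟩ := exists_notMem ({a, d, b} : Finset α)
    (lt_of_le_of_lt Finset.card_le_three hcard)
  simp only [Finset.mem_insert, Finset.mem_singleton, not_or] at hd hb hc
  obtain ⟨hba, hbd⟩ := hb
  obtain ⟨hca, hcd, hcb⟩ := hc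
  obtain ⟨g, hg⟩ := MulAction.exists_smul_eq G a d
  obtain ⟨x, hx, hxa, hxb⟩ := htr b c hba hca
  have hgb : g⁻¹ • b ≠ a := by
    intro h; apply hbd; rw [← hg, ← h, smul_inv_smul]
  have hgc : g⁻¹ • c ≠ a := by
    intro h; apply hcd; rw [← hg, ← h, smul_inv_smul]
  obtain ⟨y, hy, hya, hyb⟩ := htr (g⁻¹ • b) (g⁻¹ • c) hgb hgc
  obtain ⟨w, hwdef⟩ : ∃ w, w = g * y * g⁻¹ := ⟨_, rfl⟩
  have hw : w ∈ N := by rw [hwdef]; exact hNn.conj_mem y hy g
  have hwb : w • b = c := by rw [hwdef, mul_smul, mul_smul, hyb, smul_inv_smul]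
  have hw2 : w * w = 1 := by
    have h1 : y * y = 1 := by rw [← pow_two]; exact hexp y hy hya
    rw [hwdef]
    calc (g * y * g⁻¹) * (g * y * g⁻¹) = g * (y * y) * g⁻¹ := by group
      _ = 1 := by rw [h1]; group
  have hwc : w • c = b := by
    rw [← hwb, ← mul_smul, hw2, one_smul]
  have hx2 : x * x = 1 := by rw [← pow_two]; exact hexp x hx hxa
  have hxc : x • c = b := by rw [← hxb, ← mul_smul, hx2, one_smul]
  have hu : x⁻¹ * w ∈ N := N.mul_mem (N.inv_mem hx) hw
  have hub : (x⁻¹ * w) • b = b := by rw [mul_smul, hwb, inv_smul_eq_iff, hxb]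
  have huc : (x⁻¹ * w) • c = c := by rw [mul_smul, hwc, inv_smul_eq_iff, hxc]
  obtain ⟨g', hg'⟩ := MulAction.exists_smul_eq G a b
  have hv : g'⁻¹ * (x⁻¹ * w) * g' ∈ N := by
    have := hNn.conj_mem _ hu g'⁻¹
    simpa using this
  have hva : (g'⁻¹ * (x⁻¹ * w) * g') • a = a := by
    rw [mul_smul, mul_smul, hg', hub, inv_smul_eq_iff, hg']
  have hvc : (g'⁻¹ * (x⁻¹ * w) * g') • (g'⁻¹ • c) = g'⁻¹ • c := by
    rw [mul_smul, mul_smul, smul_inv_smul, huc]
  have hgc' : g'⁻¹ • c ≠ a := by
    intro h; apply hcb; rw [← hg', ← h, smul_inv_smul]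
  have hv1 := hfree _ hv hva _ hgc' hvc
  have hu1 : x⁻¹ * w = 1 := by
    calc x⁻¹ * w = g' * (g'⁻¹ * (x⁻¹ * w) * g') * g'⁻¹ := by group
      _ = 1 := by rw [hv1]; group
  have hwx : w = x := by
    rw [inv_mul_eq_one] at hu1; exact hu1.symm
  have hwa : (g * y * g⁻¹) • a = a := by rw [← hwdef, hwx]; exact hxa
  rw [mul_smul, mul_smul] at hwa
  have hy' : y • (g⁻¹ • a) = g⁻¹ • a := eq_inv_smul_iff.mpr hwa
  have hga : g⁻¹ • a ≠ a := by
    intro h
    apply hd
    rw [← hg]; rw [inv_smul_eq_iff] at h; exact h.symm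
  have hy1 := hfree y hy hya _ hga hy'
  rw [hy1, one_smul] at hyb
  exact hcb (smul_left_cancel _ hyb).symm

lemma transfer {G : Type*} [Group G] {α : Type*} [MulAction G α] (N : Subgroup G) (a : α)
    (m : ℕ)
    (h : MulAction.IsMultiplyPretransitive (N.subgroupOf (MulAction.stabilizer G a))
      (SubMulAction.ofStabilizer G a) m) :
    MulAction.IsMultiplyPretransitive (MulAction.stabilizer N a)
      (SubMulAction.ofStabilizer N a) m := by
  let σ : (N.subgroupOf (MulAction.stabilizer G a)) → (MulAction.stabilizer N a) :=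
    fun g => ⟨⟨g.1.1, Subgroup.mem_subgroupOf.mp g.2⟩, g.1.2⟩
  let f : (SubMulAction.ofStabilizer G a) →ₑ[σ] (SubMulAction.ofStabilizer N a) :=
    { toFun := fun x => ⟨x.1, x.2⟩
      map_smul' := fun g x => rfl }
  have hσ : Function.Surjective σ := by
    intro n
    exact ⟨⟨⟨n.1.1, n.2⟩, Subgroup.mem_subgroupOf.mpr n.1.2⟩, rfl⟩
  have hf : Function.Bijective f := by
    constructor
    · intro x y hxy
      have : (f x).1 = (f y).1 := congrArg Subtype.val hxy
      exact Subtype.ext this
    · intro y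
      exact ⟨⟨y.1, y.2⟩, rfl⟩
  exact (MulAction.IsPretransitive.of_embedding_congr hσ hf).mp h

theorem jordan.{w, z} (k : ℕ) (hk : 2 ≤ k) : ∀ (G : Type w) [Group G] (α : Type z)
    [MulAction G α] [Finite α] [FaithfulSMul G α] (N : Subgroup G) [N.Normal], N ≠ ⊥ →
    k < Nat.card α → MulAction.IsMultiplyPretransitive G α k →
    MulAction.IsMultiplyPretransitive N α (k - 1) ∨ (k = 3 ∧ ∀ n ∈ N, n ^ 2 = 1) := by
  induction k, hk using Nat.le_induction with
  | base =>
    intro G _ α _ _ _ N _ hN hcard h2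
    left
    haveI := normal_trans h2 N hN
    exact MulAction.is_one_pretransitive_iff.mpr inferInstance
  | succ k hk ih =>
    intro G _ α _ _ _ N hNn hN hcard hG
    haveI : MulAction.IsMultiplyPretransitive G α (k+1) := hG
    have h2 : MulAction.IsMultiplyPretransitive G α 2 :=
      MulAction.isMultiplyPretransitive_of_le (n := k+1) (by omega) (by omega)
    have h3 : MulAction.IsMultiplyPretransitive G α 3 :=
      MulAction.isMultiplyPretransitive_of_le (n := k+1) (by omega) (by omega)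
    haveI hNt : MulAction.IsPretransitive N α := normal_trans h2 N hN
    haveI hGt : MulAction.IsPretransitive G α :=
      @MulAction.isPretransitive_of_is_two_pretransitive _ _ _ _ h2
    obtain ⟨a⟩ : Nonempty α := (Nat.card_pos_iff.mp (by omega)).1
    have hGa : MulAction.IsMultiplyPretransitive (MulAction.stabilizer G a)
        (SubMulAction.ofStabilizer G a) k :=
      SubMulAction.ofStabilizer.isMultiplyPretransitive.mp hG
    have hcard' : k < Nat.card (SubMulAction.ofStabilizer G a) := by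
      rw [SubMulAction.nat_card_ofStabilizer_eq]; omega
    haveI hfaith : FaithfulSMul (MulAction.stabilizer G a) (SubMulAction.ofStabilizer G a) := by
      constructor
      intro g₁ g₂ h
      apply Subtype.ext
      apply FaithfulSMul.eq_of_smul_eq_smul (α := α)
      intro x
      by_cases hx : x = a
      · rw [hx]; exact g₁.2.trans g₂.2.symm
      · have := h ⟨x, hx⟩
        exact congrArg Subtype.val this
    by_cases hN' : N.subgroupOf (MulAction.stabilizer G a) = ⊥
    · have hfree : ∀ n ∈ N, n • a = a → n = 1 := by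
        intro n hn hna
        have hmem : (⟨n, hna⟩ : MulAction.stabilizer G a) ∈
            N.subgroupOf (MulAction.stabilizer G a) := Subgroup.mem_subgroupOf.mpr hn
        rw [hN', Subgroup.mem_bot] at hmem
        exact congrArg Subtype.val hmem
      have hexp := caseB N a hfree h3 (by omega)
      by_cases hk3 : k + 1 = 3
      · right; exact ⟨hk3, hexp⟩
      · exfalso
        have h4 : MulAction.IsMultiplyPretransitive G α 4 :=
          MulAction.isMultiplyPretransitive_of_le (n := k+1) (by omega) (by omega)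
        exact caseB4 N a (fun b => by
          obtain ⟨n, hn⟩ := MulAction.exists_smul_eq N a b
          exact ⟨n.1, n.2, hn⟩) hfree h4 (by omega) hexp
    · rcases ih (MulAction.stabilizer G a) (SubMulAction.ofStabilizer G a)
        (N.subgroupOf (MulAction.stabilizer G a)) hN' hcard' hGa with hA | ⟨hk3, hexp⟩
      · left
        have h5 := (SubMulAction.ofStabilizer.isMultiplyPretransitive (G := N) (α := α)
          (n := k - 1) (a := a)).mpr (transfer N a (k-1) hA)
        have e : (k - 1).succ = k + 1 - 1 := by omega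
        rw [e] at h5
        exact h5
      · exfalso
        have h2' : MulAction.IsMultiplyPretransitive (MulAction.stabilizer G a)
            (SubMulAction.ofStabilizer G a) 2 := by
          haveI := hGa
          exact MulAction.isMultiplyPretransitive_of_le (n := k) (by omega) (by omega)
        have hN't := normal_trans h2' (N.subgroupOf (MulAction.stabilizer G a)) hN'
        apply caseA2 N a hGt
        · intro n hn hna
          have hmem : (⟨n, hna⟩ : MulAction.stabilizer G a) ∈
              N.subgroupOf (MulAction.stabilizer G a) := Subgroup.mem_subgroupOf.mpr hn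
          have := hexp _ hmem
          exact congrArg Subtype.val this
        · intro b c hb hc
          obtain ⟨n, hn⟩ := hN't.exists_smul_eq ⟨b, hb⟩ ⟨c, hc⟩
          exact ⟨n.1.1, Subgroup.mem_subgroupOf.mp n.2, n.1.2, congrArg Subtype.val hn⟩
        · omega


/-- Jordan's Theorem on normal subgroups of multiply transitive groups: if `G` is `k`-transitive (`k > 1`) of degree greater than `k`, a non-trivial normal subgroup is `(k-1)`-transitive, except possibly for `k = 3` when it may be an elementary abelian 2-group. -/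
theorem result {α : Type*} [Fintype α] [DecidableEq α] (G : Subgroup (Equiv.Perm α)) {k : ℕ} (hk : 1 < k) (hdeg : k < Fintype.card α) (hG : MulAction.IsMultiplyPretransitive G α k) (N : Subgroup G) [N.Normal] (hN : N ≠ ⊥) : MulAction.IsMultiplyPretransitive N α (k - 1) ∨ (k = 3 ∧ IsMulCommutative N ∧ ∀ n ∈ N, n ^ 2 = 1) := by
  have hcard : k < Nat.card α := by rw [Nat.card_eq_fintype_card]; exact hdeg
  rcases jordan k hk G α N hN hcard hG with h | ⟨h3, hexp⟩
  · left; exact h
  · right
    refine ⟨h3, ?_, hexp⟩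
    constructor
    constructor
    intro x y
    have hx : x * x = 1 := by
      apply Subtype.ext
      have := hexp x.1 x.2
      rw [pow_two] at this
      exact this
    have hy : y * y = 1 := by
      apply Subtype.ext
      have := hexp y.1 y.2
      rw [pow_two] at this
      exact this
    have hxy : x * y * (x * y) = 1 := by
      apply Subtype.ext
      have := hexp (x * y).1 (x * y).2
      rw [pow_two] at this
      exact this
    calc x * y = x * (x * y * (x * y)) * y := by rw [hxy, mul_one]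
      _ = (x * x) * (y * x) * (y * y) := by group
      _ = y * x := by rw [hx, hy, one_mul, mul_one]

end Cfsg.Agent.S0698
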