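import Cfsg.Statements.S0699
import Mathlib
import Cfsg.Agent.S0698

set_option autoImplicit false
open Cfsg

namespace Cfsg.Agent.S0699

open scoped Pointwise

def T3 (G : Type*) [Group G] (Ω : Type*) [MulAction G Ω] : Prop :=
  ∀ a b c a' b' c' : Ω, a ≠ b → a ≠ c → b ≠ c → a' ≠ b' → a' ≠ c' → b' ≠ c' →
    ∃ g : G, g • a = a' ∧ g • b = b' ∧ g • c = c'

def T2N {G : Type*} [Group G] (N : Subgroup G) (Ω : Type*) [MulAction G Ω] : Prop :=
  ∀ a b a' b' : Ω, a ≠ b → a' ≠ b' → ∃ g ∈ N, g • a = a' ∧ g • b = b'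

def T3N {G : Type*} [Group G] (N : Subgroup G) (Ω : Type*) [MulAction G Ω] : Prop :=
  ∀ a b c a' b' c' : Ω, a ≠ b → a ≠ c → b ≠ c → a' ≠ b' → a' ≠ c' → b' ≠ c' →
    ∃ g ∈ N, g • a = a' ∧ g • b = b' ∧ g • c = c'

/-- `S` is a maximal `p`-subgroup of `H` (both subgroups of `G`). -/
def SylIn (p : ℕ) {G : Type*} [Group G] (S H : Subgroup G) : Prop :=
  IsPGroup p S ∧ S ≤ H ∧ ∀ R : Subgroup G, IsPGroup p R → S ≤ R → R ≤ H → R = S

lemma exists_sylIn {p : ℕ} {G : Type*} [Group G] (Q H : Subgroup G) (hQ : IsPGroup p Q)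
    (hQH : Q ≤ H) : ∃ S : Subgroup G, SylIn p S H ∧ Q ≤ S := by
  obtain ⟨P, hP⟩ := (hQ.comap_subtype (K := H)).exists_le_sylow
  refine ⟨(P : Subgroup H).map H.subtype, ⟨P.isPGroup'.map _, ?_, ?_⟩, ?_⟩
  · exact Subgroup.map_subtype_le _
  · intro R hR hSR hRH
    have h1 : R.subgroupOf H = P := by
      apply P.is_maximal' (hR.comap_subtype)
      intro x hx
      show (x : G) ∈ R
      exact hSR (Subgroup.mem_map_of_mem _ hx)
    rw [← h1, Subgroup.map_subgroupOf_eq_of_le hRH]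
  · intro q hq
    exact ⟨⟨q, hQH hq⟩, hP (show (⟨q, hQH hq⟩ : H) ∈ Q.comap H.subtype from hq), rfl⟩

lemma SylIn.conj {p : ℕ} [Fact p.Prime] {G : Type*} [Group G] [Finite G] {S L : Subgroup G}
    (hS : SylIn p S L) (Q : Subgroup G) (hQ : IsPGroup p Q) (hQL : Q ≤ L) :
    ∃ h ∈ L, ∀ q ∈ Q, h * q * h⁻¹ ∈ S := by
  let P₀ : Sylow p L :=
    { toSubgroup := S.subgroupOf L
      isPGroup' := hS.1.comap_subtype
      is_maximal' := by
        intro R' hR' hle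
        have h1 : R'.map L.subtype = S := by
          apply hS.2.2 _ (hR'.map _)
          · intro s hs
            exact ⟨⟨s, hS.2.1 hs⟩, hle (Subgroup.mem_subgroupOf.mpr hs), rfl⟩
          · exact Subgroup.map_subtype_le _
        rw [← h1]
        exact (Subgroup.comap_map_eq_self_of_injective L.subtype_injective R').symm }
  obtain ⟨Q', hQ'⟩ := (hQ.comap_subtype (K := L)).exists_le_sylow
  obtain ⟨h, hh⟩ := MulAction.exists_smul_eq L Q' P₀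
  refine ⟨h.1, h.2, ?_⟩
  intro q hq
  have h1 : (⟨q, hQL hq⟩ : L) ∈ (Q' : Subgroup L) := hQ' hq
  have h2 : h * ⟨q, hQL hq⟩ * h⁻¹ ∈ ((h • Q' : Sylow p L) : Subgroup L) := by
    rw [Sylow.smul_def]
    change _ ∈ MulAut.conj h • (Q' : Subgroup L)
    exact Subgroup.smul_mem_pointwise_smul _ _ _ h1
  rw [hh] at h2
  exact Subgroup.mem_subgroupOf.mp h2

lemma conj_inv_mem_of_conj_mem {G : Type*} [Group G] (S : Subgroup G) [Finite S] (u : G)
    (h : ∀ s ∈ S, u * s * u⁻¹ ∈ S) : ∀ s ∈ S, u⁻¹ * s * u ∈ S := by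
  intro s hs
  let f : S → S := fun x => ⟨u * x.1 * u⁻¹, h x.1 x.2⟩
  have hf : Function.Injective f := by
    intro x y hxy
    have h1 : u * x.1 * u⁻¹ = u * y.1 * u⁻¹ := congrArg Subtype.val hxy
    exact Subtype.ext (by simpa using h1)
  obtain ⟨x, hx⟩ := (Finite.injective_iff_surjective.mp hf) ⟨s, hs⟩
  have h1 : u * x.1 * u⁻¹ = s := congrArg Subtype.val hx
  have h2 : u⁻¹ * s * u = x.1 := by rw [← h1]; group
  rw [h2]; exact x.2

lemma frattini {p : ℕ} [Fact p.Prime] {G : Type*} [Group G] [Finite G] {S H : Subgroup G}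
    (hS : SylIn p S H) (L : Subgroup G) (hLH : L ≤ H) (hSL : S ≤ L) (g : G)
    (hg : ∀ s ∈ S, g * s * g⁻¹ ∈ L) :
    ∃ h ∈ L, (∀ s ∈ S, (h * g) * s * (h * g)⁻¹ ∈ S) ∧
      (∀ s ∈ S, (h * g)⁻¹ * s * (h * g) ∈ S) := by
  have hSL' : SylIn p S L :=
    ⟨hS.1, hSL, fun R hR hSR hRL => hS.2.2 R hR hSR (hRL.trans hLH)⟩
  obtain ⟨h, hh, hconj⟩ := hSL'.conj (S.map (MulAut.conj g).toMonoidHom) (hS.1.map _) (by
    rintro _ ⟨s, hs, rfl⟩
    exact hg s hs)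
  have h1 : ∀ s ∈ S, (h * g) * s * (h * g)⁻¹ ∈ S := by
    intro s hs
    have h2 := hconj (g * s * g⁻¹) ⟨s, hs, rfl⟩
    have e : (h * g) * s * (h * g)⁻¹ = h * (g * s * g⁻¹) * h⁻¹ := by group
    rw [e]; exact h2
  exact ⟨h, hh, h1, conj_inv_mem_of_conj_mem S _ h1⟩

lemma odd_fixed {G : Type*} [Group G] {Ω : Type*} [MulAction G Ω] [Finite Ω] (P : Subgroup G)
    (hP : IsPGroup 2 P) (hodd : Odd (Nat.card Ω)) :
    Odd (Nat.card (MulAction.fixedPoints P Ω)) := by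
  haveI : Fact (Nat.Prime 2) := ⟨Nat.prime_two⟩
  have h1 := hP.card_modEq_card_fixedPoints Ω
  rw [Nat.odd_iff] at hodd ⊢
  rw [← h1]; exact hodd

lemma exists_third_fixed {G : Type*} [Group G] {Ω : Type*} [MulAction G Ω] [Finite Ω]
    (P : Subgroup G) (hP : IsPGroup 2 P) (hodd : Odd (Nat.card Ω)) (a b : Ω) (hab : a ≠ b)
    (ha : ∀ s ∈ P, s • a = a) (hb : ∀ s ∈ P, s • b = b) :
    ∃ x, x ≠ a ∧ x ≠ b ∧ ∀ s ∈ P, s • x = x := by
  by_contra hcon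
  push_neg at hcon
  have hset : MulAction.fixedPoints P Ω = {a, b} := by
    ext x
    constructor
    · intro hx
      by_contra hne
      simp only [Set.mem_insert_iff, Set.mem_singleton_iff, not_or] at hne
      obtain ⟨s, hs, hsx⟩ := hcon x hne.1 hne.2
      exact hsx (hx ⟨s, hs⟩)
    · intro hx
      simp only [Set.mem_insert_iff, Set.mem_singleton_iff] at hx
      rcases hx with rfl | rfl
      · intro s; exact ha s.1 s.2
      · intro s; exact hb s.1 s.2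
  have h1 := odd_fixed P hP hodd
  rw [hset] at h1
  have h2 : Nat.card ({a, b} : Set Ω) = 2 := by
    rw [Nat.card_coe_set_eq, Set.ncard_pair hab]
  rw [h2] at h1
  exact absurd h1 (by decide)

lemma isPGroup_zpowers {G : Type*} [Group G] (v : G) (k : ℕ) (hk : v ^ 2 ^ k = 1) :
    IsPGroup 2 (Subgroup.zpowers v) := by
  rintro ⟨y, hy⟩
  obtain ⟨j, rfl⟩ := Subgroup.mem_zpowers_iff.mp hy
  refine ⟨k, Subtype.ext ?_⟩
  show (v ^ j) ^ 2 ^ k = 1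
  rw [← zpow_natCast, ← zpow_mul, mul_comm, zpow_mul, zpow_natCast, hk, one_zpow]

lemma step1 {G : Type*} [Group G] [Finite G] {Ω : Type*} [MulAction G Ω] [Finite Ω]
    (hodd : Odd (Nat.card Ω)) (hT3 : T3 G Ω) (N : Subgroup G) [hNn : N.Normal] (a b : Ω)
    (hab : a ≠ b) (S : Subgroup G)
    (hS : SylIn 2 S (N ⊓ (MulAction.stabilizer G a ⊓ MulAction.stabilizer G b))) :
    ∀ x, x ≠ a → x ≠ b → ∃ h ∈ N, h • a = a ∧ h • b = b ∧ ∀ s ∈ S, s • (h • x) = h • x := by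
  haveI : Fact (Nat.Prime 2) := ⟨Nat.prime_two⟩
  obtain ⟨K, hK⟩ : ∃ K, K = MulAction.stabilizer G a ⊓ MulAction.stabilizer G b := ⟨_, rfl⟩
  rw [← hK] at hS
  have hKa : ∀ s ∈ K, s • a = a := fun s hs => by
    rw [hK] at hs; exact (Subgroup.mem_inf.mp hs).1
  have hKb : ∀ s ∈ K, s • b = b := fun s hs => by
    rw [hK] at hs; exact (Subgroup.mem_inf.mp hs).2
  have hKmem : ∀ s : G, s • a = a → s • b = b → s ∈ K := fun s h1 h2 => by
    rw [hK]; exact Subgroup.mem_inf.mpr ⟨h1, h2⟩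
  have hSK : S ≤ K := hS.2.1.trans inf_le_right
  obtain ⟨P, hP, hSP⟩ := exists_sylIn S K hS.1 hSK
  have hPa : ∀ s ∈ P, s • a = a := fun s hs => hKa s (hP.2.1 hs)
  have hPb : ∀ s ∈ P, s • b = b := fun s hs => hKb s (hP.2.1 hs)
  obtain ⟨x₀, hx₀a, hx₀b, hx₀⟩ := exists_third_fixed P hP.1 hodd a b hab hPa hPb
  intro x hxa hxb
  obtain ⟨g, hga, hgb, hgx⟩ := hT3 a b x a b x₀ hab (Ne.symm hxa) (Ne.symm hxb) hab
    (Ne.symm hx₀a) (Ne.symm hx₀b)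
  have hg' : ∀ s ∈ S, g⁻¹ * s * g⁻¹⁻¹ ∈ N ⊓ K := by
    intro s hs
    have hsH := hS.2.1 hs
    have hsN : s ∈ N := (Subgroup.mem_inf.mp hsH).1
    have hsK : s ∈ K := (Subgroup.mem_inf.mp hsH).2
    have hsa : s • a = a := hKa s hsK
    have hsb : s • b = b := hKb s hsK
    refine Subgroup.mem_inf.mpr ⟨hNn.conj_mem s hsN g⁻¹, hKmem _ ?_ ?_⟩
    · rw [inv_inv, mul_smul, mul_smul, hga, hsa, inv_smul_eq_iff, hga]
    · rw [inv_inv, mul_smul, mul_smul, hgb, hsb, inv_smul_eq_iff, hgb]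
  obtain ⟨h, hh, hn1, hn2⟩ := frattini hS (N ⊓ K) le_rfl hS.2.1 g⁻¹ hg'
  have hhN : h ∈ N := (Subgroup.mem_inf.mp hh).1
  have hhK : h ∈ K := (Subgroup.mem_inf.mp hh).2
  refine ⟨h, hhN, hKa h hhK, hKb h hhK, ?_⟩
  intro s hs
  have e : h • x = (h * g⁻¹) • x₀ := by rw [mul_smul, ← hgx, inv_smul_smul]
  rw [e]
  have h3 := hn2 s hs
  have h4 := hx₀ _ (hSP h3)
  calc s • (h * g⁻¹) • x₀ = (h * g⁻¹) • ((h * g⁻¹)⁻¹ * s * (h * g⁻¹)) • x₀ := by
        rw [← mul_smul, ← mul_smul]; congr 1; group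
    _ = (h * g⁻¹) • x₀ := by rw [h4]

def pairStab (G : Type*) [Group G] {Ω : Type*} [MulAction G Ω] (a b : Ω) : Subgroup G where
  carrier := {g | (g • a = a ∧ g • b = b) ∨ (g • a = b ∧ g • b = a)}
  one_mem' := Or.inl ⟨one_smul _ _, one_smul _ _⟩
  mul_mem' := by
    rintro x y (⟨h1, h2⟩ | ⟨h1, h2⟩) (⟨h3, h4⟩ | ⟨h3, h4⟩)
    · left; exact ⟨by rw [mul_smul, h3, h1], by rw [mul_smul, h4, h2]⟩
    · right; exact ⟨by rw [mul_smul, h3, h2], by rw [mul_smul, h4, h1]⟩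
    · right; exact ⟨by rw [mul_smul, h3, h1], by rw [mul_smul, h4, h2]⟩
    · left; exact ⟨by rw [mul_smul, h3, h2], by rw [mul_smul, h4, h1]⟩
  inv_mem' := by
    rintro x (⟨h1, h2⟩ | ⟨h1, h2⟩)
    · left; exact ⟨by rw [inv_smul_eq_iff, h1], by rw [inv_smul_eq_iff, h2]⟩
    · right; exact ⟨by rw [inv_smul_eq_iff, h2], by rw [inv_smul_eq_iff, h1]⟩

lemma mem_pairStab {G : Type*} [Group G] {Ω : Type*} [MulAction G Ω] (a b : Ω) (g : G) :
    g ∈ pairStab G a b ↔ (g • a = a ∧ g • b = b) ∨ (g • a = b ∧ g • b = a) := Iff.rfl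

lemma case2 {G : Type*} [Group G] [Finite G] {Ω : Type*} [MulAction G Ω] [Finite Ω]
    (hodd : Odd (Nat.card Ω)) (hT3 : T3 G Ω) (N : Subgroup G) [hNn : N.Normal]
    (hT2 : T2N N Ω) (a b : Ω) (hab : a ≠ b) (S : Subgroup G)
    (hS : SylIn 2 S (N ⊓ (MulAction.stabilizer G a ⊓ MulAction.stabilizer G b)))
    (htriv : ∀ s ∈ S, ∀ x : Ω, s • x = x) :
    ∃ c₀, c₀ ≠ a ∧ c₀ ≠ b ∧
      ∀ x', x' ≠ a → x' ≠ b → ∃ h ∈ N, h • a = a ∧ h • b = b ∧ h • c₀ = x' := by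
  haveI : Fact (Nat.Prime 2) := ⟨Nat.prime_two⟩
  have h3a : ∀ v ∈ N, (∃ k : ℕ, v ^ 2 ^ k = 1) → ∀ d e : Ω, d ≠ e → v • d = d → v • e = e →
      ∀ x : Ω, v • x = x := by
    intro v hv ⟨k, hk⟩ d e hde hvd hve x
    obtain ⟨g₀, hg₀N, hg₀d, hg₀e⟩ := hT2 d e a b hde hab
    have hk' : (g₀ * v * g₀⁻¹) ^ 2 ^ k = 1 := by
      rw [conj_pow, hk]; group
    have hQ := isPGroup_zpowers (g₀ * v * g₀⁻¹) k hk'
    have hQH : Subgroup.zpowers (g₀ * v * g₀⁻¹) ≤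
        N ⊓ (MulAction.stabilizer G a ⊓ MulAction.stabilizer G b) := by
      rw [Subgroup.zpowers_le]
      refine Subgroup.mem_inf.mpr ⟨hNn.conj_mem v hv g₀, Subgroup.mem_inf.mpr ⟨?_, ?_⟩⟩
      · show (g₀ * v * g₀⁻¹) • a = a
        rw [mul_smul, mul_smul, ← hg₀d, inv_smul_smul, hvd]
      · show (g₀ * v * g₀⁻¹) • b = b
        rw [mul_smul, mul_smul, ← hg₀e, inv_smul_smul, hve]
    obtain ⟨h, hh, hconj⟩ := hS.conj _ hQ hQH
    have h1 := hconj _ (Subgroup.mem_zpowers (g₀ * v * g₀⁻¹))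
    have h2 := htriv _ h1 ((h * g₀) • x)
    have e : (h * (g₀ * v * g₀⁻¹) * h⁻¹) • ((h * g₀) • x) = (h * g₀) • (v • x) := by
      rw [← mul_smul, ← mul_smul]; congr 1; group
    rw [e] at h2
    exact smul_left_cancel _ h2
  obtain ⟨u, huN, hua, hub⟩ := hT2 a b b a hab (Ne.symm hab)
  obtain ⟨k, m, hm, hkm⟩ := Nat.exists_eq_two_pow_mul_odd (orderOf_pos u).ne'
  obtain ⟨t, ht⟩ : ∃ t, t = u ^ m := ⟨_, rfl⟩
  have htN : t ∈ N := ht ▸ N.pow_mem huN m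
  have ht2 : t ^ 2 ^ k = 1 := by
    rw [ht, ← pow_mul, mul_comm, ← hkm, pow_orderOf_eq_one]
  have hu2a : ∀ j : ℕ, (u ^ 2) ^ j • a = a := by
    intro j
    have h1 : u ^ 2 ∈ MulAction.stabilizer G a := by
      show (u ^ 2) • a = a
      rw [pow_two, mul_smul, hua, hub]
    exact (MulAction.stabilizer G a).pow_mem h1 j
  have hu2b : ∀ j : ℕ, (u ^ 2) ^ j • b = b := by
    intro j
    have h1 : u ^ 2 ∈ MulAction.stabilizer G b := by
      show (u ^ 2) • b = b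
      rw [pow_two, mul_smul, hub, hua]
    exact (MulAction.stabilizer G b).pow_mem h1 j
  have hta : t • a = b := by
    obtain ⟨j, hj⟩ := hm
    rw [ht, hj, pow_succ, pow_mul, mul_smul, hua, hu2b]
  have htb : t • b = a := by
    obtain ⟨j, hj⟩ := hm
    rw [ht, hj, pow_succ, pow_mul, mul_smul, hub, hu2a]
  have hQt := isPGroup_zpowers t k ht2
  obtain ⟨c₀, hc₀⟩ := hQt.nonempty_fixed_point_of_prime_not_dvd_card Ω hodd.not_two_dvd_nat
  have htc : t • c₀ = c₀ := hc₀ ⟨t, Subgroup.mem_zpowers t⟩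
  have hc₀a : c₀ ≠ a := by
    intro h; rw [h, hta] at htc; exact hab htc.symm
  have hc₀b : c₀ ≠ b := by
    intro h; rw [h, htb] at htc; exact hab htc
  have hle : Subgroup.zpowers t ≤ N ⊓ pairStab G a b := by
    rw [Subgroup.zpowers_le]
    exact Subgroup.mem_inf.mpr ⟨htN, Or.inr ⟨hta, htb⟩⟩
  obtain ⟨T, hT, htT'⟩ := exists_sylIn (Subgroup.zpowers t) (N ⊓ pairStab G a b) hQt hle
  have htT : t ∈ T := htT' (Subgroup.mem_zpowers t)
  have hT2el : ∀ s ∈ T, ∃ k' : ℕ, s ^ 2 ^ k' = 1 := by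
    intro s hs
    obtain ⟨k', hk'⟩ := hT.1 ⟨s, hs⟩
    exact ⟨k', congrArg Subtype.val hk'⟩
  have hTc : ∀ s ∈ T, s • c₀ = c₀ := by
    intro s hs
    have hsH := hT.2.1 hs
    have hsN : s ∈ N := (Subgroup.mem_inf.mp hsH).1
    rcases (Subgroup.mem_inf.mp hsH).2 with ⟨h1, h2⟩ | ⟨h1, h2⟩
    · exact h3a s hsN (hT2el s hs) a b hab h1 h2 c₀
    · have h3 := h3a (s * t) (N.mul_mem hsN htN) (hT2el _ (T.mul_mem hs htT)) a b hab
        (by rw [mul_smul, hta, h2]) (by rw [mul_smul, htb, h1]) c₀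
      rw [mul_smul, htc] at h3
      exact h3
  have hTuniq : ∀ y : Ω, (∀ s ∈ T, s • y = y) → y = c₀ := by
    intro y hy
    by_contra hne
    have h1 := h3a t htN ⟨k, ht2⟩ y c₀ hne (hy t htT) htc a
    rw [hta] at h1
    exact hab h1.symm
  refine ⟨c₀, hc₀a, hc₀b, ?_⟩
  intro x' hx'a hx'b
  obtain ⟨g, hga, hgb, hgc⟩ := hT3 a b c₀ a b x' hab (Ne.symm hc₀a) (Ne.symm hc₀b) hab
    (Ne.symm hx'a) (Ne.symm hx'b)
  have hgP : g ∈ pairStab G a b := Or.inl ⟨hga, hgb⟩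
  have hg' : ∀ s ∈ T, g * s * g⁻¹ ∈ N ⊓ pairStab G a b := by
    intro s hs
    have hsH := hT.2.1 hs
    exact Subgroup.mem_inf.mpr ⟨hNn.conj_mem s (Subgroup.mem_inf.mp hsH).1 g,
      (pairStab G a b).mul_mem ((pairStab G a b).mul_mem hgP (Subgroup.mem_inf.mp hsH).2)
        ((pairStab G a b).inv_mem hgP)⟩
  obtain ⟨h, hh, hn1, hn2⟩ := frattini hT (N ⊓ pairStab G a b) le_rfl hT.2.1 g hg'
  have hfix : ∀ s ∈ T, s • ((h * g) • c₀) = (h * g) • c₀ := by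
    intro s hs
    have h4 := hTc _ (hn2 s hs)
    calc s • (h * g) • c₀ = (h * g) • ((h * g)⁻¹ * s * (h * g)) • c₀ := by
          rw [← mul_smul, ← mul_smul]; congr 1; group
      _ = (h * g) • c₀ := by rw [h4]
  have h5 := hTuniq _ hfix
  rw [mul_smul, hgc] at h5
  have hhN : h ∈ N := (Subgroup.mem_inf.mp hh).1
  have h6 : h⁻¹ • c₀ = x' := by rw [inv_smul_eq_iff, h5]
  rcases (Subgroup.mem_inf.mp hh).2 with ⟨h1, h2⟩ | ⟨h1, h2⟩
  · refine ⟨h⁻¹, N.inv_mem hhN, ?_, ?_, h6⟩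
    · rw [inv_smul_eq_iff, h1]
    · rw [inv_smul_eq_iff, h2]
  · refine ⟨h⁻¹ * t, N.mul_mem (N.inv_mem hhN) htN, ?_, ?_, ?_⟩
    · rw [mul_smul, hta, inv_smul_eq_iff, h1]
    · rw [mul_smul, htb, inv_smul_eq_iff, h2]
    · rw [mul_smul, htc, h6]

def WagnerAt.{w, z} (n : ℕ) : Prop :=
  ∀ (G : Type w) [Group G] [Finite G] (Ω : Type z) [MulAction G Ω] [Finite Ω]
    (N : Subgroup G) [N.Normal],
    Nat.card Ω = n → Odd n → T3 G Ω → T2N N Ω → T3N N Ω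

lemma case1.{w, z} {G : Type w} [Group G] [Finite G] {Ω : Type z} [MulAction G Ω] [Finite Ω]
    (ih : ∀ m < Nat.card Ω, WagnerAt.{w, z} m)
    (hodd : Odd (Nat.card Ω)) (hT3 : T3 G Ω) (N : Subgroup G) [hNn : N.Normal]
    (hT2 : T2N N Ω) (a b : Ω) (hab : a ≠ b) (S : Subgroup G)
    (hS : SylIn 2 S (N ⊓ (MulAction.stabilizer G a ⊓ MulAction.stabilizer G b)))
    (hnt : ∃ x : Ω, ¬ ∀ s ∈ S, s • x = x) :
    ∀ x x', x ≠ a → x ≠ b → x' ≠ a → x' ≠ b →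
      ∃ h ∈ N, h • a = a ∧ h • b = b ∧ h • x = x' := by
  haveI : Fact (Nat.Prime 2) := ⟨Nat.prime_two⟩
  have hstep := step1 hodd hT3 N a b hab S hS
  have hSH := hS.2.1
  have hSN : ∀ s ∈ S, s ∈ N := fun s hs => (Subgroup.mem_inf.mp (hSH hs)).1
  have hSa : ∀ s ∈ S, s • a = a := fun s hs =>
    (Subgroup.mem_inf.mp (Subgroup.mem_inf.mp (hSH hs)).2).1
  have hSb : ∀ s ∈ S, s • b = b := fun s hs =>
    (Subgroup.mem_inf.mp (Subgroup.mem_inf.mp (hSH hs)).2).2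
  have hHmem : ∀ s : G, s ∈ N → s • a = a → s • b = b →
      s ∈ N ⊓ (MulAction.stabilizer G a ⊓ MulAction.stabilizer G b) := fun s h0 h1 h2 =>
    Subgroup.mem_inf.mpr ⟨h0, Subgroup.mem_inf.mpr ⟨h1, h2⟩⟩
  obtain ⟨X, hXdef⟩ : ∃ X : Subgroup G, X = Subgroup.normalizer (S : Set G) := ⟨_, rfl⟩
  have hXmem : ∀ u : G, (∀ s ∈ S, u * s * u⁻¹ ∈ S) → (∀ s ∈ S, u⁻¹ * s * u ∈ S) → u ∈ X := by
    intro u h1 h2
    rw [hXdef, Subgroup.mem_normalizer_iff]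
    intro s
    constructor
    · intro hs; exact h1 s hs
    · intro hs
      have h3 := h2 _ hs
      have e : u⁻¹ * (u * s * u⁻¹) * u = s := by group
      rw [e] at h3; exact h3
  have hXinv : ∀ u ∈ X, ∀ s ∈ S, u⁻¹ * s * u ∈ S := by
    intro u hu s hs
    rw [hXdef] at hu
    refine (Subgroup.mem_normalizer_iff.mp hu (u⁻¹ * s * u)).mpr ?_
    have e : u * (u⁻¹ * s * u) * u⁻¹ = s := by group
    rw [e]; exact hs
  let F : SubMulAction X Ω :=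
    { carrier := {c | ∀ s ∈ S, s • c = c}
      smul_mem' := by
        intro u c hc s hs
        have h1 := hc _ (hXinv u.1 u.2 s hs)
        show s • (u.1 • c) = u.1 • c
        calc s • (u.1 • c) = u.1 • ((u.1⁻¹ * s * u.1) • c) := by
              rw [← mul_smul, ← mul_smul]; congr 1; group
          _ = u.1 • c := by rw [h1] }
  have hFa : a ∈ F := fun s hs => hSa s hs
  have hFb : b ∈ F := fun s hs => hSb s hs
  obtain ⟨x₁, hx₁⟩ := hnt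
  have hx₁a : x₁ ≠ a := fun h => hx₁ (h ▸ hSa)
  have hx₁b : x₁ ≠ b := fun h => hx₁ (h ▸ hSb)
  obtain ⟨h₀, h₀N, h₀a, h₀b, h₀x⟩ := hstep x₁ hx₁a hx₁b
  obtain ⟨e₀, he₀⟩ : ∃ e₀, e₀ = h₀ • x₁ := ⟨_, rfl⟩
  have he₀F : ∀ s ∈ S, s • e₀ = e₀ := by rw [he₀]; exact h₀x
  have he₀a : e₀ ≠ a := by
    intro h; apply hx₁a
    rw [he₀] at h
    exact smul_left_cancel h₀ (h.trans h₀a.symm)
  have he₀b : e₀ ≠ b := by
    intro h; apply hx₁b
    rw [he₀] at h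
    exact smul_left_cancel h₀ (h.trans h₀b.symm)
  have W1 : ∀ c' d' : Ω, (∀ s ∈ S, s • c' = c') → (∀ s ∈ S, s • d' = d') → c' ≠ d' →
      ∃ u ∈ N, u ∈ X ∧ u • c' = a ∧ u • d' = b := by
    intro c' d' hc' hd' hcd
    obtain ⟨g₀, hg₀N, hg₀c, hg₀d⟩ := hT2 c' d' a b hcd hab
    have hg : ∀ s ∈ S, g₀ * s * g₀⁻¹ ∈
        N ⊓ (MulAction.stabilizer G a ⊓ MulAction.stabilizer G b) := by
      intro s hs
      refine hHmem _ (hNn.conj_mem s (hSN s hs) g₀) ?_ ?_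
      · rw [mul_smul, mul_smul, ← hg₀c, inv_smul_smul, hc' s hs]
      · rw [mul_smul, mul_smul, ← hg₀d, inv_smul_smul, hd' s hs]
    obtain ⟨h, hh, hn1, hn2⟩ := frattini hS _ le_rfl hSH g₀ hg
    have hhN : h ∈ N := (Subgroup.mem_inf.mp hh).1
    have hha : h • a = a := (Subgroup.mem_inf.mp (Subgroup.mem_inf.mp hh).2).1
    have hhb : h • b = b := (Subgroup.mem_inf.mp (Subgroup.mem_inf.mp hh).2).2
    refine ⟨h * g₀, N.mul_mem hhN hg₀N, hXmem _ hn1 hn2, ?_, ?_⟩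
    · rw [mul_smul, hg₀c, hha]
    · rw [mul_smul, hg₀d, hhb]
  have W2 : ∀ c' d' e' : Ω, (∀ s ∈ S, s • c' = c') → (∀ s ∈ S, s • d' = d') →
      (∀ s ∈ S, s • e' = e') → c' ≠ d' → c' ≠ e' → d' ≠ e' →
      ∃ u ∈ X, u • c' = a ∧ u • d' = b ∧ u • e' = e₀ := by
    intro c' d' e' hc' hd' he' hcd hce hde
    obtain ⟨g₀, hg₀c, hg₀d, hg₀e⟩ := hT3 c' d' e' a b e₀ hcd hce hde hab (Ne.symm he₀a)
      (Ne.symm he₀b)
    have hSL : S ≤ (N ⊓ (MulAction.stabilizer G a ⊓ MulAction.stabilizer G b)) ⊓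
        MulAction.stabilizer G e₀ := fun s hs => Subgroup.mem_inf.mpr ⟨hSH hs, he₀F s hs⟩
    have hg : ∀ s ∈ S, g₀ * s * g₀⁻¹ ∈
        (N ⊓ (MulAction.stabilizer G a ⊓ MulAction.stabilizer G b)) ⊓
          MulAction.stabilizer G e₀ := by
      intro s hs
      refine Subgroup.mem_inf.mpr ⟨hHmem _ (hNn.conj_mem s (hSN s hs) g₀) ?_ ?_, ?_⟩
      · rw [mul_smul, mul_smul, ← hg₀c, inv_smul_smul, hc' s hs]
      · rw [mul_smul, mul_smul, ← hg₀d, inv_smul_smul, hd' s hs]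
      · show (g₀ * s * g₀⁻¹) • e₀ = e₀
        rw [mul_smul, mul_smul, ← hg₀e, inv_smul_smul, he' s hs]
    obtain ⟨h, hh, hn1, hn2⟩ := frattini hS _ inf_le_left hSL g₀ hg
    have hhH := (Subgroup.mem_inf.mp hh).1
    have hhe : h • e₀ = e₀ := (Subgroup.mem_inf.mp hh).2
    have hha : h • a = a := (Subgroup.mem_inf.mp (Subgroup.mem_inf.mp hhH).2).1
    have hhb : h • b = b := (Subgroup.mem_inf.mp (Subgroup.mem_inf.mp hhH).2).2
    refine ⟨h * g₀, hXmem _ hn1 hn2, ?_, ?_, ?_⟩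
    · rw [mul_smul, hg₀c, hha]
    · rw [mul_smul, hg₀d, hhb]
    · rw [mul_smul, hg₀e, hhe]
  have hcardF : Nat.card F < Nat.card Ω := Finite.card_subtype_lt (x := x₁) hx₁
  have hoddF : Odd (Nat.card F) := by
    have h1 := odd_fixed S hS.1 hodd
    have e : Nat.card F = Nat.card (MulAction.fixedPoints S Ω) :=
      Nat.card_congr (Equiv.subtypeEquivRight
        (fun c => ⟨fun h s => h s.1 s.2, fun h s hs => h ⟨s, hs⟩⟩))
    rw [e]; exact h1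
  have hT3X : T3 X F := by
    intro c d e c' d' e' hcd hce hde hcd' hce' hde'
    obtain ⟨u₁, hu₁, h1a, h1b, h1e⟩ := W2 c.1 d.1 e.1 c.2 d.2 e.2
      (fun h => hcd (Subtype.ext h)) (fun h => hce (Subtype.ext h))
      (fun h => hde (Subtype.ext h))
    obtain ⟨u₂, hu₂, h2a, h2b, h2e⟩ := W2 c'.1 d'.1 e'.1 c'.2 d'.2 e'.2
      (fun h => hcd' (Subtype.ext h)) (fun h => hce' (Subtype.ext h))
      (fun h => hde' (Subtype.ext h))
    refine ⟨(⟨u₂, hu₂⟩ : X)⁻¹ * ⟨u₁, hu₁⟩, ?_, ?_, ?_⟩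
    · apply Subtype.ext
      show (u₂⁻¹ * u₁) • c.1 = c'.1
      rw [mul_smul, h1a, inv_smul_eq_iff, h2a]
    · apply Subtype.ext
      show (u₂⁻¹ * u₁) • d.1 = d'.1
      rw [mul_smul, h1b, inv_smul_eq_iff, h2b]
    · apply Subtype.ext
      show (u₂⁻¹ * u₁) • e.1 = e'.1
      rw [mul_smul, h1e, inv_smul_eq_iff, h2e]
  have hT2Y : T2N (N.subgroupOf X) F := by
    intro c d c' d' hcd hcd'
    obtain ⟨u₁, hu₁N, hu₁, h1a, h1b⟩ := W1 c.1 d.1 c.2 d.2 (fun h => hcd (Subtype.ext h))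
    obtain ⟨u₂, hu₂N, hu₂, h2a, h2b⟩ := W1 c'.1 d'.1 c'.2 d'.2
      (fun h => hcd' (Subtype.ext h))
    refine ⟨(⟨u₂, hu₂⟩ : X)⁻¹ * ⟨u₁, hu₁⟩, ?_, ?_, ?_⟩
    · rw [Subgroup.mem_subgroupOf]
      exact N.mul_mem (N.inv_mem hu₂N) hu₁N
    · apply Subtype.ext
      show (u₂⁻¹ * u₁) • c.1 = c'.1
      rw [mul_smul, h1a, inv_smul_eq_iff, h2a]
    · apply Subtype.ext
      show (u₂⁻¹ * u₁) • d.1 = d'.1
      rw [mul_smul, h1b, inv_smul_eq_iff, h2b]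
  have hY3 := ih (Nat.card F) hcardF X F (N.subgroupOf X) rfl hoddF hT3X hT2Y
  intro x x' hxa hxb hx'a hx'b
  obtain ⟨h₁, h₁N, h₁a, h₁b, h₁x⟩ := hstep x hxa hxb
  obtain ⟨h₂, h₂N, h₂a, h₂b, h₂x⟩ := hstep x' hx'a hx'b
  have n1 : h₁ • x ≠ a := fun h => hxa (smul_left_cancel h₁ (h.trans h₁a.symm))
  have n2 : h₁ • x ≠ b := fun h => hxb (smul_left_cancel h₁ (h.trans h₁b.symm))
  have n3 : h₂ • x' ≠ a := fun h => hx'a (smul_left_cancel h₂ (h.trans h₂a.symm))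
  have n4 : h₂ • x' ≠ b := fun h => hx'b (smul_left_cancel h₂ (h.trans h₂b.symm))
  obtain ⟨y, hyN, hya, hyb, hyx⟩ := hY3 ⟨a, hFa⟩ ⟨b, hFb⟩ ⟨h₁ • x, h₁x⟩ ⟨a, hFa⟩ ⟨b, hFb⟩
    ⟨h₂ • x', h₂x⟩ (fun h => hab (congrArg Subtype.val h))
    (fun h => n1 (congrArg Subtype.val h).symm) (fun h => n2 (congrArg Subtype.val h).symm)
    (fun h => hab (congrArg Subtype.val h))
    (fun h => n3 (congrArg Subtype.val h).symm) (fun h => n4 (congrArg Subtype.val h).symm)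
  have hya' : y.1 • a = a := congrArg Subtype.val hya
  have hyb' : y.1 • b = b := congrArg Subtype.val hyb
  have hyx' : y.1 • (h₁ • x) = h₂ • x' := congrArg Subtype.val hyx
  refine ⟨h₂⁻¹ * y.1 * h₁, N.mul_mem (N.mul_mem (N.inv_mem h₂N) (Subgroup.mem_subgroupOf.mp hyN))
    h₁N, ?_, ?_, ?_⟩
  · rw [mul_smul, mul_smul, h₁a, hya', inv_smul_eq_iff, h₂a]
  · rw [mul_smul, mul_smul, h₁b, hyb', inv_smul_eq_iff, h₂b]
  · rw [mul_smul, mul_smul, hyx', inv_smul_smul]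

theorem wagner.{w, z} (n : ℕ) : WagnerAt.{w, z} n := by
  induction n using Nat.strong_induction_on with
  | _ n ih =>
    intro G _ _ Ω _ _ N hNn hcard hodd hT3 hT2
    intro a b c a' b' c' hab hac hbc hab' hac' hbc'
    haveI : Fact (Nat.Prime 2) := ⟨Nat.prime_two⟩
    obtain ⟨S, hS, -⟩ := exists_sylIn (p := 2) (⊥ : Subgroup G)
      (N ⊓ (MulAction.stabilizer G a ⊓ MulAction.stabilizer G b)) IsPGroup.of_bot bot_le
    subst hcard
    have key : ∀ x x', x ≠ a → x ≠ b → x' ≠ a → x' ≠ b →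
        ∃ h ∈ N, h • a = a ∧ h • b = b ∧ h • x = x' := by
      by_cases hnt : ∃ x : Ω, ¬ ∀ s ∈ S, s • x = x
      · exact case1 ih hodd hT3 N hT2 a b hab S hS hnt
      · push_neg at hnt
        obtain ⟨c₀, hc₀a, hc₀b, hc₀⟩ := case2 hodd hT3 N hT2 a b hab S hS
          (fun s hs x => hnt x s hs)
        intro x x' hxa hxb hx'a hx'b
        obtain ⟨h₁, h₁N, h₁a, h₁b, h₁c⟩ := hc₀ x hxa hxb
        obtain ⟨h₂, h₂N, h₂a, h₂b, h₂c⟩ := hc₀ x' hx'a hx'b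
        refine ⟨h₂ * h₁⁻¹, N.mul_mem h₂N (N.inv_mem h₁N), ?_, ?_, ?_⟩
        · rw [mul_smul, inv_smul_eq_iff.mpr h₁a.symm, h₂a]
        · rw [mul_smul, inv_smul_eq_iff.mpr h₁b.symm, h₂b]
        · rw [mul_smul, inv_smul_eq_iff.mpr h₁c.symm, h₂c]
    obtain ⟨g₂, hg₂N, hg₂a, hg₂b⟩ := hT2 a' b' a b hab' hab
    have hc1 : g₂ • c' ≠ a := fun h => hac' (smul_left_cancel g₂ (hg₂a.trans h.symm))
    have hc2 : g₂ • c' ≠ b := fun h => hbc' (smul_left_cancel g₂ (hg₂b.trans h.symm))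
    obtain ⟨h, hhN, hha, hhb, hhc⟩ := key c (g₂ • c') (Ne.symm hac) (Ne.symm hbc) hc1 hc2
    refine ⟨g₂⁻¹ * h, N.mul_mem (N.inv_mem hg₂N) hhN, ?_, ?_, ?_⟩
    · rw [mul_smul, hha, inv_smul_eq_iff, hg₂a]
    · rw [mul_smul, hhb, inv_smul_eq_iff, hg₂b]
    · rw [mul_smul, hhc, inv_smul_smul]


/-- Wagner's Theorem: a non-trivial normal subgroup of a triply transitive permutation group of odd degree at least 5 is triply transitive. -/
theorem result {α : Type*} [Fintype α] [DecidableEq α] (G : Subgroup (Equiv.Perm α)) (hodd : Odd (Fintype.card α)) (h5 : 5 ≤ Fintype.card α) (hG : MulAction.IsMultiplyPretransitive G α 3) (N : Subgroup G) [N.Normal] (hN : N ≠ ⊥) : MulAction.IsMultiplyPretransitive N α 3 := by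
  have hcard : Nat.card α = Fintype.card α := Nat.card_eq_fintype_card
  have hodd' : Odd (Nat.card α) := by rw [hcard]; exact hodd
  haveI := hG
  have hG2 : MulAction.IsMultiplyPretransitive G α 2 :=
    MulAction.isMultiplyPretransitive_of_le (n := 3) (by norm_num) (by rw [hcard]; omega)
  have hN2 : MulAction.IsMultiplyPretransitive N α 2 := by
    rcases Cfsg.Agent.S0698.jordan 3 (by norm_num) G α N hN (by rw [hcard]; omega) hG with
      h | ⟨-, hexp⟩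
    · exact h
    · exfalso
      haveI := Cfsg.Agent.S0698.normal_trans hG2 N hN
      haveI : Fact (Nat.Prime 2) := ⟨Nat.prime_two⟩
      have hP : IsPGroup 2 N := by
        intro g
        refine ⟨1, Subtype.ext ?_⟩
        have := hexp g.1 g.2
        simpa using this
      obtain ⟨a, ha⟩ := hP.nonempty_fixed_point_of_prime_not_dvd_card α hodd'.not_two_dvd_nat
      have hall : ∀ b : α, b = a := by
        intro b
        obtain ⟨n, hn⟩ := MulAction.exists_smul_eq N a b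
        rw [← hn]; exact ha n
      have : Fintype.card α ≤ 1 :=
        Fintype.card_le_one_iff.mpr (fun x y => (hall x).trans (hall y).symm)
      omega
  have hT3 : T3 G α := fun a b c a' b' c' hab hac hbc hab' hac' hbc' =>
    Cfsg.Agent.S0698.trans3 hG hab hac hbc hab' hac' hbc'
  have hT2 : T2N N α := by
    intro a b a' b' hab hab'
    obtain ⟨g, h1, h2⟩ := MulAction.is_two_pretransitive_iff.mp hN2 hab hab'
    exact ⟨g.1, g.2, h1, h2⟩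
  have hT3N := wagner (Nat.card α) G α N rfl hodd' hT3 hT2
  constructor
  intro x y
  obtain ⟨g, hg, h0, h1, h2⟩ := hT3N (x 0) (x 1) (x 2) (y 0) (y 1) (y 2)
    (x.injective.ne (by decide)) (x.injective.ne (by decide)) (x.injective.ne (by decide))
    (y.injective.ne (by decide)) (y.injective.ne (by decide)) (y.injective.ne (by decide))
  refine ⟨⟨g, hg⟩, ?_⟩
  ext i
  fin_cases i
  · exact h0
  · exact h1
  · exact h2

end Cfsg.Agent.S0699
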