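import Cfsg.Statements.S0700
import Mathlib
import Cfsg.Agent.Lib.helper19.TwoTrans

set_option autoImplicit false
open Cfsg

namespace Cfsg.Agent.S0700


open Cfsg.Agent.Lib.helper19.TwoTrans

variable {α : Type*} [Fintype α] [DecidableEq α]

/-- Elementary block predicate for a finite set of points. -/
def IsBlk (N : Subgroup (Equiv.Perm α)) (B : Finset α) : Prop :=
  ∀ x ∈ N, ∀ b ∈ B, x b ∈ B → ∀ c ∈ B, x c ∈ B

theorem mem_map_perm (B : Finset α) (g : Equiv.Perm α) (c : α) :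
    c ∈ B.map g.toEmbedding ↔ g⁻¹ c ∈ B := by
  rw [Finset.mem_map_equiv]; rfl

theorem blk_map (G N : Subgroup (Equiv.Perm α))
    (hnorm : ∀ g ∈ G, ∀ x ∈ N, g * x * g⁻¹ ∈ N) (B : Finset α) (hB : IsBlk N B)
    (g : Equiv.Perm α) (hg : g ∈ G) : IsBlk N (B.map g.toEmbedding) := by
  intro x hx b hb hxb c hc
  rw [mem_map_perm] at hb hxb hc ⊢
  have hx' : g⁻¹ * x * g ∈ N := by
    have := hnorm g⁻¹ (G.inv_mem hg) x hx
    rwa [inv_inv] at this
  have h1 : (g⁻¹ * x * g) (g⁻¹ b) = g⁻¹ (x b) := by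
    show g⁻¹ (x (g (g⁻¹ b))) = g⁻¹ (x b)
    rw [app_inv]
  have h2 := hB _ hx' (g⁻¹ b) hb (by rw [h1]; exact hxb) (g⁻¹ c) hc
  have h3 : (g⁻¹ * x * g) (g⁻¹ c) = g⁻¹ (x c) := by
    show g⁻¹ (x (g (g⁻¹ c))) = g⁻¹ (x c)
    rw [app_inv]
  rwa [h3] at h2

theorem prim (G N : Subgroup (Equiv.Perm α))
    (h2 : ∀ a b c d : α, a ≠ b → c ≠ d → ∃ g ∈ G, g a = c ∧ g b = d)
    (hnorm : ∀ g ∈ G, ∀ x ∈ N, g * x * g⁻¹ ∈ N)
    (htr : ∀ a b : α, ∃ x ∈ N, x a = b)
    (hmin : ∀ M : Subgroup (Equiv.Perm α), M ≤ N → (∀ g ∈ G, ∀ x ∈ M, g * x * g⁻¹ ∈ M) →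
      M = ⊥ ∨ M = N)
    (x₀ : Equiv.Perm α) (hx₀ : x₀ ∈ N) (hx₀1 : x₀ ≠ 1) (a₀ : α) (hx₀a : x₀ a₀ = a₀) :
    ∀ B : Finset α, IsBlk N B → B.card ≤ 1 ∨ B = Finset.univ := by
  classical
  by_contra hcon
  push_neg at hcon
  have hP : ∃ d : ℕ, ∃ B : Finset α, IsBlk N B ∧ 1 < B.card ∧ B ≠ Finset.univ ∧ B.card = d := by
    obtain ⟨B, hB, hB1, hBu⟩ := hcon
    exact ⟨B.card, B, hB, hB1, hBu, rfl⟩
  obtain ⟨B, hB, hB1, hBu, hBd⟩ := Nat.find_spec hP
  have hdmin : ∀ I : Finset α, IsBlk N I → 1 < I.card → I ≠ Finset.univ → Nat.find hP ≤ I.card := by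
    intro I hI hI1 hIu
    by_contra hlt
    push_neg at hlt
    exact Nat.find_min hP hlt ⟨I, hI, hI1, hIu, rfl⟩
  set d := Nat.find hP with hd
  have hdn : d < Fintype.card α := by
    rw [← hBd]
    rcases (Finset.card_le_univ B).lt_or_eq with h | h
    · exact h
    · exact absurd (Finset.eq_univ_of_card B h) hBu
  -- lines
  have hL0 : ∀ g ∈ G, IsBlk N (B.map g.toEmbedding) ∧ (B.map g.toEmbedding).card = d ∧
      B.map g.toEmbedding ≠ Finset.univ := by
    intro g hg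
    refine ⟨blk_map G N hnorm B hB g hg, by rw [Finset.card_map, hBd], ?_⟩
    intro h
    have : (B.map g.toEmbedding).card = Fintype.card α := by rw [h, Finset.card_univ]
    rw [Finset.card_map, hBd] at this
    omega
  have hL1 : ∀ a b : α, a ≠ b → ∃ g ∈ G, a ∈ B.map g.toEmbedding ∧ b ∈ B.map g.toEmbedding := by
    intro a b hab
    obtain ⟨u, hu, v, hv, huv⟩ := Finset.one_lt_card.mp hB1
    obtain ⟨g, hg, hga, hgb⟩ := h2 u v a b huv hab
    refine ⟨g, hg, ?_, ?_⟩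
    · rw [mem_map_perm, ← hga, inv_app]; exact hu
    · rw [mem_map_perm, ← hgb, inv_app]; exact hv
  have hL2 : ∀ g₁ ∈ G, ∀ g₂ ∈ G, ∀ a b : α, a ≠ b → a ∈ B.map g₁.toEmbedding →
      b ∈ B.map g₁.toEmbedding → a ∈ B.map g₂.toEmbedding → b ∈ B.map g₂.toEmbedding →
      B.map g₁.toEmbedding = B.map g₂.toEmbedding := by
    intro g₁ hg₁ g₂ hg₂ a b hab ha1 hb1 ha2 hb2
    obtain ⟨hb1', hc1, hu1⟩ := hL0 g₁ hg₁
    obtain ⟨hb2', hc2, hu2⟩ := hL0 g₂ hg₂
    set L₁ := B.map g₁.toEmbedding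
    set L₂ := B.map g₂.toEmbedding
    have hI : IsBlk N (L₁ ∩ L₂) := by
      intro x hx e he hxe c hc
      rw [Finset.mem_inter] at he hxe hc ⊢
      exact ⟨hb1' x hx e he.1 hxe.1 c hc.1, hb2' x hx e he.2 hxe.2 c hc.2⟩
    have hI1 : 1 < (L₁ ∩ L₂).card :=
      Finset.one_lt_card.mpr ⟨a, Finset.mem_inter.mpr ⟨ha1, ha2⟩, b,
        Finset.mem_inter.mpr ⟨hb1, hb2⟩, hab⟩
    have hIu : L₁ ∩ L₂ ≠ Finset.univ := by
      intro h
      apply hu1
      rw [Finset.eq_univ_iff_forall] at h ⊢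
      intro c
      exact (Finset.mem_inter.mp (h c)).1
    have hle := hdmin _ hI hI1 hIu
    have e1 : L₁ ∩ L₂ = L₁ :=
      Finset.eq_of_subset_of_card_le Finset.inter_subset_left (by rw [hc1]; exact hle)
    have e2 : L₁ ∩ L₂ = L₂ :=
      Finset.eq_of_subset_of_card_le Finset.inter_subset_right (by rw [hc2]; exact hle)
    rw [← e1, e2]
  -- Frobenius property
  have hfrob : ∀ x ∈ N, x ≠ 1 → ∀ a a' : α, x a = a → x a' = a' → a = a' := by
    intro x hx hx1 a a' hxa hxa'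
    by_contra haa'
    obtain ⟨g, hg, haL, ha'L⟩ := hL1 a a' haa'
    have hsupp : ∀ (e : α), x e = e → a ≠ e → ∀ g' ∈ G, a ∈ B.map g'.toEmbedding →
        e ∈ B.map g'.toEmbedding → ∀ c : α, x c ≠ c → c ∈ B.map g'.toEmbedding := by
      intro e hxe hae g' hg' haL' heL' c hc
      have hac : a ≠ c := fun h => hc (by rw [← h]; exact hxa)
      have hec : e ≠ c := fun h => hc (by rw [← h]; exact hxe)
      obtain ⟨g₁, hg₁, h1a, h1c⟩ := hL1 a c hac
      obtain ⟨g₂, hg₂, h2e, h2c⟩ := hL1 e c hec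
      have h1xc : x c ∈ B.map g₁.toEmbedding :=
        (hL0 g₁ hg₁).1 x hx a h1a (by rw [hxa]; exact h1a) c h1c
      have h2xc : x c ∈ B.map g₂.toEmbedding :=
        (hL0 g₂ hg₂).1 x hx e h2e (by rw [hxe]; exact h2e) c h2c
      have e12 := hL2 g₁ hg₁ g₂ hg₂ c (x c) (fun h => hc h.symm) h1c h1xc h2c h2xc
      have hee : e ∈ B.map g₁.toEmbedding := by rw [e12]; exact h2e
      have e1' := hL2 g₁ hg₁ g' hg' a e hae h1a hee haL' heL'
      rw [← e1']; exact h1c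
    have hxc : ∃ c, x c ≠ c := by
      by_contra h
      push_neg at h
      exact hx1 (Equiv.ext h)
    obtain ⟨c, hc⟩ := hxc
    have hcL := hsupp a' hxa' haa' g hg haL ha'L c hc
    -- a point outside the line
    have hout : ∃ e, e ∉ B.map g.toEmbedding := by
      by_contra h
      push_neg at h
      exact (hL0 g hg).2.2 (Finset.eq_univ_iff_forall.mpr h)
    obtain ⟨e, he⟩ := hout
    have hxe : x e = e := by
      by_contra h
      exact he (hsupp a' hxa' haa' g hg haL ha'L e h)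
    have hae : a ≠ e := fun h => he (by rw [← h]; exact haL)
    obtain ⟨g₃, hg₃, h3a, h3e⟩ := hL1 a e hae
    have hc3 := hsupp e hxe hae g₃ hg₃ h3a h3e c hc
    have hac : a ≠ c := fun h => hc (by rw [← h]; exact hxa)
    have e3 := hL2 g hg g₃ hg₃ a c hac haL hcL h3a hc3
    exact he (by rw [e3]; exact h3e)
  haveI : Nonempty α := ⟨a₀⟩
  obtain ⟨K, hK, hKn, hKt, hKi⟩ := kernel G N h2 hnorm htr hfrob
  have hKN : K ≤ N := fun x hx => ((hK x).mp hx).1
  rcases hmin K hKN hKn with h | h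
  · have hxc : ∃ c, x₀ c ≠ c := by
      by_contra h'
      push_neg at h'
      exact hx₀1 (Equiv.ext h')
    obtain ⟨c, hc⟩ := hxc
    obtain ⟨k, hk, hkc⟩ := hKt c (x₀ c)
    rw [h, Subgroup.mem_bot] at hk
    rw [hk] at hkc
    exact hc hkc.symm
  · have : x₀ ∈ K := by rw [h]; exact hx₀
    rcases ((hK x₀).mp this).2 with h' | h'
    · exact hx₀1 h'
    · exact h' a₀ hx₀a

theorem simple_aux (G N : Subgroup (Equiv.Perm α))
    (h2 : ∀ a b c d : α, a ≠ b → c ≠ d → ∃ g ∈ G, g a = c ∧ g b = d)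
    (hnorm : ∀ g ∈ G, ∀ x ∈ N, g * x * g⁻¹ ∈ N)
    (hmin : ∀ M : Subgroup (Equiv.Perm α), M ≤ N → (∀ g ∈ G, ∀ x ∈ M, g * x * g⁻¹ ∈ M) →
      M = ⊥ ∨ M = N)
    (hprim : ∀ B : Finset α, IsBlk N B → B.card ≤ 1 ∨ B = Finset.univ) :
    ∀ T : Subgroup (Equiv.Perm α), T ≤ N → (∀ y ∈ N, ∀ t ∈ T, y * t * y⁻¹ ∈ T) →
      T = ⊥ ∨ T = N := by
  classical
  by_contra hcon
  push_neg at hcon
  have hP : ∃ m : ℕ, ∃ T : Subgroup (Equiv.Perm α), T ≤ N ∧
      (∀ y ∈ N, ∀ t ∈ T, y * t * y⁻¹ ∈ T) ∧ T ≠ ⊥ ∧ T ≠ N ∧ Nat.card T = m := by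
    obtain ⟨T, h1, h2, h3, h4⟩ := hcon
    exact ⟨Nat.card T, T, h1, h2, h3, h4, rfl⟩
  obtain ⟨T, hTN, hTn, hT1, hTN', hTm⟩ := Nat.find_spec hP
  have hTmin : ∀ I : Subgroup (Equiv.Perm α), I ≤ N → (∀ y ∈ N, ∀ t ∈ I, y * t * y⁻¹ ∈ I) →
      I ≠ N → I ≤ T → I ≠ T → I = ⊥ := by
    intro I hIN hIn hIN' hIT hIT'
    by_contra hI1
    have hlt : Nat.card I < Nat.find hP := by
      rw [← hTm]
      have hle := Subgroup.card_le_of_le hIT
      rcases hle.lt_or_eq with h | h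
      · exact h
      · exact absurd (Subgroup.eq_of_le_of_card_ge hIT h.ge) hIT'
    exact Nat.find_min hP hlt ⟨I, hIN, hIn, hI1, hIN', rfl⟩
  -- T is transitive
  have hTtr : ∀ a b : α, ∃ t ∈ T, t a = b := by
    have hex : ∃ t ∈ T, ∃ a : α, t a ≠ a := by
      by_contra h
      push_neg at h
      apply hT1
      rw [Subgroup.eq_bot_iff_forall]
      intro t ht
      exact Equiv.ext (h t ht)
    obtain ⟨t₀, ht₀, a, hta⟩ := hex
    set O : Finset α := Finset.univ.filter (fun c => ∃ t ∈ T, t a = c) with hO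
    have hOb : IsBlk N O := by
      intro x hx b hb hxb c hc
      rw [hO, Finset.mem_filter] at hb hxb hc ⊢
      obtain ⟨t, ht, rfl⟩ := hb.2
      obtain ⟨t', ht', hxb'⟩ := hxb.2
      obtain ⟨s, hs, rfl⟩ := hc.2
      refine ⟨Finset.mem_univ _, (x * (s * t⁻¹) * x⁻¹) * t',
        T.mul_mem (hTn x hx _ (T.mul_mem hs (T.inv_mem ht))) ht', ?_⟩
      show x (s (t⁻¹ (x⁻¹ (t' a)))) = x (s a)
      rw [hxb', inv_app, inv_app]
    have hOu : O = Finset.univ := by
      rcases hprim O hOb with h | h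
      · exfalso
        have h1 : a ∈ O := by
          rw [hO, Finset.mem_filter]; exact ⟨Finset.mem_univ _, 1, T.one_mem, rfl⟩
        have h2 : t₀ a ∈ O := by
          rw [hO, Finset.mem_filter]; exact ⟨Finset.mem_univ _, t₀, ht₀, rfl⟩
        have := Finset.one_lt_card.mpr ⟨t₀ a, h2, a, h1, hta⟩
        omega
      · exact h
    have hall : ∀ c : α, ∃ t ∈ T, t a = c := by
      intro c
      have : c ∈ O := by rw [hOu]; exact Finset.mem_univ _
      rw [hO, Finset.mem_filter] at this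
      exact this.2
    intro b c
    obtain ⟨t₁, ht₁, rfl⟩ := hall b
    obtain ⟨t₂, ht₂, rfl⟩ := hall c
    refine ⟨t₂ * t₁⁻¹, T.mul_mem ht₂ (T.inv_mem ht₁), ?_⟩
    show t₂ (t₁⁻¹ (t₁ a)) = t₂ a
    rw [inv_app]
  -- centralizer of T is semiregular
  have hcs : ∀ u : Equiv.Perm α, (∀ t ∈ T, t * u = u * t) → ∀ a, u a = a → u = 1 := by
    intro u hu a hua
    ext c
    obtain ⟨t, ht, rfl⟩ := hTtr a c
    have : (u * t) a = (t * u) a := by rw [hu t ht]
    show u (t a) = t a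
    calc u (t a) = t (u a) := this
      _ = t a := by rw [hua]
  -- a conjugate of T different from T centralizes T
  have hcomm : ∀ g' ∈ G, (∃ t ∈ T, g' * t * g'⁻¹ ∉ T) →
      ∀ t ∈ T, ∀ t' ∈ T, t * (g' * t' * g'⁻¹) = (g' * t' * g'⁻¹) * t := by
    intro g' hg' hex
    set T₃ : Subgroup (Equiv.Perm α) := T.map (MulAut.conj g').toMonoidHom with hT₃
    have hmem : ∀ s, s ∈ T₃ ↔ ∃ t ∈ T, g' * t * g'⁻¹ = s := by
      intro s
      rw [hT₃, Subgroup.mem_map]
      rfl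
    have hT₃N : T₃ ≤ N := by
      intro s hs
      obtain ⟨t, ht, rfl⟩ := (hmem s).mp hs
      exact hnorm g' hg' t (hTN ht)
    have hT₃n : ∀ y ∈ N, ∀ s ∈ T₃, y * s * y⁻¹ ∈ T₃ := by
      intro y hy s hs
      obtain ⟨t, ht, rfl⟩ := (hmem s).mp hs
      have hy' : g'⁻¹ * y * g' ∈ N := by
        have := hnorm g'⁻¹ (G.inv_mem hg') y hy
        rwa [inv_inv] at this
      refine (hmem _).mpr ⟨(g'⁻¹ * y * g') * t * (g'⁻¹ * y * g')⁻¹, hTn _ hy' t ht, ?_⟩
      group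
    have hcard : Nat.card T₃ = Nat.card T :=
      Subgroup.card_map_of_injective (MulAut.conj g').injective
    have hne : T ⊓ T₃ ≠ T := by
      intro h
      have hle : T ≤ T₃ := by rw [← h]; exact inf_le_right
      have heq : T = T₃ := Subgroup.eq_of_le_of_card_ge hle hcard.le
      obtain ⟨t, ht, htn⟩ := hex
      apply htn
      rw [heq]
      exact (hmem _).mpr ⟨t, ht, rfl⟩
    have hbot : T ⊓ T₃ = ⊥ := by
      apply hTmin _ (inf_le_left.trans hTN) _ _ inf_le_left hne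
      · intro y hy t ht
        exact ⟨hTn y hy t ht.1, hT₃n y hy t ht.2⟩
      · intro h
        apply hTN'
        exact le_antisymm hTN (by rw [← h]; exact inf_le_left)
    intro t ht t' ht'
    have hs : g' * t' * g'⁻¹ ∈ T₃ := (hmem _).mpr ⟨t', ht', rfl⟩
    set s := g' * t' * g'⁻¹ with hsdef
    have hmem2 : t * s * t⁻¹ * s⁻¹ ∈ T ⊓ T₃ := by
      constructor
      · have h1 : s * t⁻¹ * s⁻¹ ∈ T := hTn s (hT₃N hs) t⁻¹ (T.inv_mem ht)
        have : t * s * t⁻¹ * s⁻¹ = t * (s * t⁻¹ * s⁻¹) := by group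
        rw [this]
        exact T.mul_mem ht h1
      · have h1 : t * s * t⁻¹ ∈ T₃ := hT₃n t (hTN ht) s hs
        exact T₃.mul_mem h1 (T₃.inv_mem hs)
    rw [hbot, Subgroup.mem_bot] at hmem2
    calc t * s = (t * s * t⁻¹ * s⁻¹) * (s * t) := by group
      _ = s * t := by rw [hmem2, one_mul]
  -- T is not normalized by G
  have hex : ∃ g ∈ G, ∃ t ∈ T, g * t * g⁻¹ ∉ T := by
    by_contra h
    push_neg at h
    rcases hmin T hTN h with h' | h'
    · exact hT1 h'
    · exact hTN' h'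
  obtain ⟨g, hg, t₀, ht₀, ht₀n⟩ := hex
  have hcg := hcomm g hg ⟨t₀, ht₀, ht₀n⟩
  -- T is semiregular
  have hTsr : ∀ t ∈ T, ∀ a, t a = a → t = 1 := by
    intro t ht a hta
    ext c
    obtain ⟨t', ht', htc⟩ := hTtr (g⁻¹ a) (g⁻¹ c)
    have hsa : (g * t' * g⁻¹) a = c := by
      show g (t' (g⁻¹ a)) = c
      rw [htc, app_inv]
    have := hcg t ht t' ht'
    have h3 : (t * (g * t' * g⁻¹)) a = ((g * t' * g⁻¹) * t) a := by rw [this]
    show t c = c
    calc t c = t ((g * t' * g⁻¹) a) := by rw [hsa]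
      _ = (g * t' * g⁻¹) (t a) := h3
      _ = c := by rw [hta, hsa]
  -- elements of conjugates
  have hconj : ∀ g' ∈ G, ∀ t ∈ T, g' * t * g'⁻¹ ∈ T ∨
      (∀ t' ∈ T, t' * (g' * t * g'⁻¹) = (g' * t * g'⁻¹) * t') := by
    intro g' hg' t ht
    by_cases h : ∃ t ∈ T, g' * t * g'⁻¹ ∉ T
    · right
      intro t' ht'
      exact hcomm g' hg' h t' ht' t ht
    · left
      push_neg at h
      exact h t ht
  -- all nonidentity elements of T have the same order
  have hex0 : ∃ t ∈ T, ∃ a : α, t a ≠ a := by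
    by_contra h
    push_neg at h
    apply hT1
    rw [Subgroup.eq_bot_iff_forall]
    intro t ht
    exact Equiv.ext (h t ht)
  obtain ⟨_, _, a, _⟩ := hex0
  have hord : ∀ x ∈ T, ∀ y ∈ T, x ≠ 1 → y ≠ 1 → orderOf x = orderOf y := by
    intro x hx y hy hx1 hy1
    have hxa : x a ≠ a := fun h => hx1 (hTsr x hx a h)
    have hya : y a ≠ a := fun h => hy1 (hTsr y hy a h)
    obtain ⟨g', hg', hga, hgc⟩ := h2 a (x a) a (y a) (Ne.symm hxa) (Ne.symm hya)
    have hg'a : g'⁻¹ a = a := by rw [Equiv.Perm.inv_eq_iff_eq, hga]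
    set s := g' * x * g'⁻¹ with hs
    have hsa : s a = y a := by
      show g' (x (g'⁻¹ a)) = y a
      rw [hg'a, hgc]
    have hos : orderOf s = orderOf x := (MulAut.conj g').orderOf_eq x
    rw [← hos]
    rcases hconj g' hg' x hx with h | h
    · have h1 : y⁻¹ * s = 1 := by
        apply hTsr _ (T.mul_mem (T.inv_mem hy) h) a
        show y⁻¹ (s a) = a
        rw [hsa, inv_app]
      have : s = y := by
        calc s = y * (y⁻¹ * s) := by group
          _ = y := by rw [h1, mul_one]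
      rw [this]
    · have hsy : Commute s⁻¹ y := by
        have := h y hy
        show s⁻¹ * y = y * s⁻¹
        calc s⁻¹ * y = s⁻¹ * (y * s) * s⁻¹ := by group
          _ = s⁻¹ * (s * y) * s⁻¹ := by rw [this]
          _ = y * s⁻¹ := by group
      have hwa : (s⁻¹ * y) a = a := by
        show s⁻¹ (y a) = a
        rw [← hsa, inv_app]
      have hwk : ∀ k : ℕ, ((s⁻¹ * y) ^ k) a = a := fun k =>
        Equiv.Perm.pow_apply_eq_self_of_apply_eq_self hwa k
      rw [orderOf_eq_orderOf_iff]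
      intro k
      constructor
      · intro hk
        have e : (s⁻¹ * y) ^ k = y ^ k := by
          rw [hsy.mul_pow, inv_pow, hk, inv_one, one_mul]
        apply hTsr _ (T.pow_mem hy k) a
        rw [← e]; exact hwk k
      · intro hk
        have e : (s⁻¹ * y) ^ k = (s ^ k)⁻¹ := by
          rw [hsy.mul_pow, inv_pow, hk, mul_one]
        have hsc : ∀ t ∈ T, t * (s ^ k)⁻¹ = (s ^ k)⁻¹ * t := by
          intro t ht
          have hc : Commute t s := h t ht
          exact (hc.pow_right k).inv_right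
        have := hcs _ hsc a (by rw [← e]; exact hwk k)
        rwa [inv_eq_one] at this
  haveI : Finite ↥T := Finite.of_injective (fun t : ↥T => (t : Equiv.Perm α)) Subtype.val_injective
  obtain ⟨p, hp, hexp, z, hz, hz1, hzc⟩ := same_order T hT1 hord
  -- the centre of T
  set Z : Subgroup (Equiv.Perm α) := Subgroup.centralizer (T : Set (Equiv.Perm α)) ⊓ T with hZ
  have hZmem : ∀ u, u ∈ Z ↔ (∀ t ∈ T, t * u = u * t) ∧ u ∈ T := by
    intro u
    rw [hZ, Subgroup.mem_inf, Subgroup.mem_centralizer_iff]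
    rfl
  have hZT : Z ≤ T := inf_le_right
  have hZeq : Z = T := by
    by_contra hne
    have hb : Z = ⊥ := by
      apply hTmin Z (hZT.trans hTN) _ _ hZT hne
      · intro y hy u hu
        obtain ⟨huc, huT⟩ := (hZmem u).mp hu
        refine (hZmem _).mpr ⟨?_, hTn y hy u huT⟩
        intro t ht
        have hy' : y⁻¹ * t * y ∈ T := by
          have := hTn y⁻¹ (N.inv_mem hy) t ht
          rwa [inv_inv] at this
        have hc := huc _ hy'
        calc t * (y * u * y⁻¹) = y * ((y⁻¹ * t * y) * u) * y⁻¹ := by group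
          _ = y * (u * (y⁻¹ * t * y)) * y⁻¹ := by rw [hc]
          _ = y * u * y⁻¹ * t := by group
      · intro h
        apply hTN'
        exact le_antisymm hTN (by rw [← h]; exact hZT)
    have : z ∈ Z := (hZmem z).mpr ⟨fun t ht => (hzc t ht).symm, hz⟩
    rw [hb, Subgroup.mem_bot] at this
    exact hz1 this
  have hTab : ∀ t ∈ T, ∀ t' ∈ T, t' * t = t * t' := by
    intro t ht t' ht'
    have : t ∈ Z := by rw [hZeq]; exact ht
    exact ((hZmem t).mp this).1 t' ht'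
  -- final contradiction
  apply ht₀n
  set s := g * t₀ * g⁻¹ with hs
  obtain ⟨t, ht, hta⟩ := hTtr a (s a)
  have hu : t⁻¹ * s = 1 := by
    apply hcs _ _ a
    · show t⁻¹ (s a) = a
      rw [← hta, inv_app]
    · intro t' ht'
      have h1 := hcg t' ht' t₀ ht₀
      have h2 := hTab t⁻¹ (T.inv_mem ht) t' ht'
      calc t' * (t⁻¹ * s) = (t' * t⁻¹) * s := by group
        _ = (t⁻¹ * t') * s := by rw [h2]
        _ = t⁻¹ * (t' * s) := by group
        _ = t⁻¹ * (s * t') := by rw [h1]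
        _ = t⁻¹ * s * t' := by group
  have : s = t := by
    calc s = t * (t⁻¹ * s) := by group
      _ = t := by rw [hu, mul_one]
  rw [this]; exact ht


/-- Burnside's Theorem on doubly transitive groups: a minimal normal subgroup of a finite doubly transitive permutation group is elementary abelian and regular, or simple and primitive. -/
theorem result {α : Type*} [Fintype α] [DecidableEq α] (G : Subgroup (Equiv.Perm α)) (hG : MulAction.IsMultiplyPretransitive G α 2) (N : Subgroup G) [N.Normal] (hN : N ≠ ⊥) (hmin : ∀ M : Subgroup G, M.Normal → M ≤ N → M = ⊥ ∨ M = N) : (IsMulCommutative N ∧ (∃ p : ℕ, p.Prime ∧ ∀ n ∈ N, n ^ p = 1) ∧ ∀ a : α, MulAction.stabilizer N a = ⊥) ∨ (IsSimpleGroup N ∧ MulAction.IsPreprimitive N α) := by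
  classical
  set N' : Subgroup (Equiv.Perm α) := N.map G.subtype with hN'
  have hmemN' : ∀ x : Equiv.Perm α, x ∈ N' ↔ ∃ hx : x ∈ G, (⟨x, hx⟩ : ↥G) ∈ N := by
    intro x
    rw [hN', Subgroup.mem_map]
    constructor
    · rintro ⟨y, hy, rfl⟩
      exact ⟨y.2, hy⟩
    · rintro ⟨hx, h⟩
      exact ⟨⟨x, hx⟩, h, rfl⟩
  have hN'G : N' ≤ G := fun x hx => ((hmemN' x).mp hx).1
  have h2 : ∀ a b c d : α, a ≠ b → c ≠ d → ∃ g ∈ G, g a = c ∧ g b = d := by
    intro a b c d hab hcd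
    obtain ⟨g, hga, hgb⟩ := MulAction.is_two_pretransitive_iff.mp hG hab hcd
    exact ⟨g, g.2, hga, hgb⟩
  have hnorm : ∀ g ∈ G, ∀ x ∈ N', g * x * g⁻¹ ∈ N' := by
    intro g hg x hx
    obtain ⟨hxG, hxN⟩ := (hmemN' x).mp hx
    refine (hmemN' _).mpr ⟨G.mul_mem (G.mul_mem hg hxG) (G.inv_mem hg), ?_⟩
    exact ‹N.Normal›.conj_mem ⟨x, hxG⟩ hxN ⟨g, hg⟩
  have hminP : ∀ M : Subgroup (Equiv.Perm α), M ≤ N' →
      (∀ g ∈ G, ∀ x ∈ M, g * x * g⁻¹ ∈ M) → M = ⊥ ∨ M = N' := by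
    intro M hMN hMn
    have hnM : (M.subgroupOf G).Normal := ⟨fun x hx g => by
      rw [Subgroup.mem_subgroupOf] at hx ⊢
      exact hMn g g.2 x hx⟩
    have hle : M.subgroupOf G ≤ N := by
      intro x hx
      rw [Subgroup.mem_subgroupOf] at hx
      obtain ⟨_, h⟩ := (hmemN' x).mp (hMN hx)
      exact h
    rcases hmin _ hnM hle with h | h
    · left
      rw [Subgroup.eq_bot_iff_forall]
      intro x hx
      have : (⟨x, hN'G (hMN hx)⟩ : ↥G) ∈ M.subgroupOf G := by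
        rw [Subgroup.mem_subgroupOf]; exact hx
      rw [h, Subgroup.mem_bot] at this
      exact congrArg Subtype.val this
    · right
      apply le_antisymm hMN
      intro x hx
      obtain ⟨hxG, hxN⟩ := (hmemN' x).mp hx
      rw [← h, Subgroup.mem_subgroupOf] at hxN
      exact hxN
  have hex : ∃ x ∈ N', x ≠ 1 := by
    by_contra h
    push_neg at h
    apply hN
    rw [Subgroup.eq_bot_iff_forall]
    intro x hx
    have : (x : Equiv.Perm α) ∈ N' := (hmemN' _).mpr ⟨x.2, hx⟩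
    exact Subtype.ext (h _ this)
  obtain ⟨x₁, hx₁, hx₁1⟩ := hex
  have hxc : ∃ c, x₁ c ≠ c := by
    by_contra h
    push_neg at h
    exact hx₁1 (Equiv.ext h)
  obtain ⟨c₁, hc₁⟩ := hxc
  have htr : ∀ a b : α, ∃ x ∈ N', x a = b := by
    intro a b
    by_cases hab : a = b
    · exact ⟨1, N'.one_mem, by rw [hab]; rfl⟩
    · obtain ⟨g, hg, hga, hgb⟩ := h2 c₁ (x₁ c₁) a b (Ne.symm hc₁) hab
      refine ⟨g * x₁ * g⁻¹, hnorm g hg x₁ hx₁, ?_⟩
      show g (x₁ (g⁻¹ a)) = b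
      rw [← hga, inv_app, hgb]
  have hN'1 : N' ≠ ⊥ := fun h => hx₁1 (by rw [h, Subgroup.mem_bot] at hx₁; exact hx₁)
  by_cases hreg : ∀ x ∈ N', x ≠ 1 → ∀ a, x a ≠ a
  · left
    have hord : ∀ x ∈ N', ∀ y ∈ N', x ≠ 1 → y ≠ 1 → orderOf x = orderOf y := by
      intro x hx y hy hx1 hy1
      have hxa := hreg x hx hx1 c₁
      have hya := hreg y hy hy1 c₁
      obtain ⟨g, hg, hga, hgc⟩ := h2 c₁ (x c₁) c₁ (y c₁) (Ne.symm hxa) (Ne.symm hya)
      have hg'a : g⁻¹ c₁ = c₁ := by rw [Equiv.Perm.inv_eq_iff_eq, hga]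
      have hs : g * x * g⁻¹ ∈ N' := hnorm g hg x hx
      have hsa : (g * x * g⁻¹) c₁ = y c₁ := by
        show g (x (g⁻¹ c₁)) = y c₁
        rw [hg'a, hgc]
      have h1 : y⁻¹ * (g * x * g⁻¹) = 1 := by
        by_contra hne
        apply hreg _ (N'.mul_mem (N'.inv_mem hy) hs) hne c₁
        show y⁻¹ ((g * x * g⁻¹) c₁) = c₁
        rw [hsa, inv_app]
      have : g * x * g⁻¹ = y := by
        calc g * x * g⁻¹ = y * (y⁻¹ * (g * x * g⁻¹)) := by group
          _ = y := by rw [h1, mul_one]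
      rw [← this]
      exact ((MulAut.conj g).orderOf_eq x).symm
    haveI : Finite ↥N' :=
      Finite.of_injective (fun t : ↥N' => (t : Equiv.Perm α)) Subtype.val_injective
    obtain ⟨p, hp, hexp, z, hz, hz1, hzc⟩ := same_order N' hN'1 hord
    set Z : Subgroup (Equiv.Perm α) := Subgroup.centralizer (N' : Set (Equiv.Perm α)) ⊓ N' with hZ
    have hZmem : ∀ u, u ∈ Z ↔ (∀ t ∈ N', t * u = u * t) ∧ u ∈ N' := by
      intro u
      rw [hZ, Subgroup.mem_inf, Subgroup.mem_centralizer_iff]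
      rfl
    have hZn : ∀ y ∈ G, ∀ u ∈ Z, y * u * y⁻¹ ∈ Z := by
      intro y hy u hu
      obtain ⟨huc, huT⟩ := (hZmem u).mp hu
      refine (hZmem _).mpr ⟨?_, hnorm y hy u huT⟩
      intro t ht
      have hy' : y⁻¹ * t * y ∈ N' := by
        have := hnorm y⁻¹ (G.inv_mem hy) t ht
        rwa [inv_inv] at this
      have hc := huc _ hy'
      calc t * (y * u * y⁻¹) = y * ((y⁻¹ * t * y) * u) * y⁻¹ := by group
        _ = y * (u * (y⁻¹ * t * y)) * y⁻¹ := by rw [hc]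
        _ = y * u * y⁻¹ * t := by group
    have hZeq : Z = N' := by
      rcases hminP Z inf_le_right hZn with h | h
      · exfalso
        have : z ∈ Z := (hZmem z).mpr ⟨fun t ht => (hzc t ht).symm, hz⟩
        rw [h, Subgroup.mem_bot] at this
        exact hz1 this
      · exact h
    have hab : ∀ t ∈ N', ∀ t' ∈ N', t' * t = t * t' := by
      intro t ht t' ht'
      have : t ∈ Z := by rw [hZeq]; exact ht
      exact ((hZmem t).mp this).1 t' ht'
    refine ⟨⟨⟨fun a b => ?_⟩⟩, ⟨p, hp, fun n hn => ?_⟩, fun a => ?_⟩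
    · apply Subtype.ext
      apply Subtype.ext
      exact hab _ ((hmemN' _).mpr ⟨b.1.2, b.2⟩) _ ((hmemN' _).mpr ⟨a.1.2, a.2⟩)
    · apply Subtype.ext
      rw [Subgroup.coe_pow]
      exact hexp _ ((hmemN' _).mpr ⟨n.2, hn⟩)
    · rw [Subgroup.eq_bot_iff_forall]
      intro x hx
      by_contra hne
      have hx' : (x : ↥G).1 ∈ N' := (hmemN' _).mpr ⟨x.1.2, x.2⟩
      apply hreg _ hx' (fun h => hne (Subtype.ext (Subtype.ext h))) a
      exact hx
  · right
    push_neg at hreg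
    obtain ⟨x₀, hx₀, hx₀1, a₀, hx₀a⟩ := hreg
    have hprim := prim G N' h2 hnorm htr hminP x₀ hx₀ hx₀1 a₀ hx₀a
    have hsimp := simple_aux G N' h2 hnorm hminP hprim
    constructor
    · refine { toNontrivial := (Subgroup.nontrivial_iff_ne_bot N).mpr hN,
               eq_bot_or_eq_top_of_normal := ?_ }
      intro H hH
      set T : Subgroup (Equiv.Perm α) := (H.map N.subtype).map G.subtype with hT
      have hTmem : ∀ x : Equiv.Perm α, x ∈ T ↔
          ∃ (hx : x ∈ G) (hxN : (⟨x, hx⟩ : ↥G) ∈ N), (⟨⟨x, hx⟩, hxN⟩ : ↥N) ∈ H := by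
        intro x
        rw [hT, Subgroup.mem_map]
        constructor
        · rintro ⟨y, hy, rfl⟩
          rw [Subgroup.mem_map] at hy
          obtain ⟨w, hw, rfl⟩ := hy
          exact ⟨w.1.2, w.2, hw⟩
        · rintro ⟨hx, hxN, h⟩
          exact ⟨⟨x, hx⟩, Subgroup.mem_map.mpr ⟨⟨⟨x, hx⟩, hxN⟩, h, rfl⟩, rfl⟩
      have hTN : T ≤ N' := by
        intro x hx
        obtain ⟨hxG, hxN, _⟩ := (hTmem x).mp hx
        exact (hmemN' x).mpr ⟨hxG, hxN⟩
      have hTn : ∀ y ∈ N', ∀ t ∈ T, y * t * y⁻¹ ∈ T := by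
        intro y hy t ht
        obtain ⟨hyG, hyN⟩ := (hmemN' y).mp hy
        obtain ⟨htG, htN, htH⟩ := (hTmem t).mp ht
        refine (hTmem _).mpr ⟨G.mul_mem (G.mul_mem hyG htG) (G.inv_mem hyG), ?_, ?_⟩
        · exact N.mul_mem (N.mul_mem hyN htN) (N.inv_mem hyN)
        · exact hH.conj_mem ⟨⟨t, htG⟩, htN⟩ htH ⟨⟨y, hyG⟩, hyN⟩
      rcases hsimp T hTN hTn with h | h
      · left
        rw [Subgroup.eq_bot_iff_forall]
        intro x hx
        have : (x : ↥G).1 ∈ T := (hTmem _).mpr ⟨x.1.2, x.2, hx⟩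
        rw [h, Subgroup.mem_bot] at this
        exact Subtype.ext (Subtype.ext this)
      · right
        rw [Subgroup.eq_top_iff']
        intro x
        have : (x : ↥G).1 ∈ T := by rw [h]; exact (hmemN' _).mpr ⟨x.1.2, x.2⟩
        obtain ⟨_, _, h3⟩ := (hTmem _).mp this
        exact h3
    · refine { toIsPretransitive := ⟨fun a b => ?_⟩, isTrivialBlock_of_isBlock := ?_ }
      · obtain ⟨x, hx, hxa⟩ := htr a b
        obtain ⟨hxG, hxN⟩ := (hmemN' x).mp hx
        exact ⟨⟨⟨x, hxG⟩, hxN⟩, hxa⟩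
      · intro B hB
        have hblk : IsBlk N' B.toFinset := by
          intro x hx b hb hxb c hc
          rw [Set.mem_toFinset] at hb hxb hc ⊢
          obtain ⟨hxG, hxN⟩ := (hmemN' x).mp hx
          have h3 := hB.smul_eq_of_mem (g := (⟨⟨x, hxG⟩, hxN⟩ : ↥N)) hb hxb
          rw [← h3]
          exact Set.smul_mem_smul_set (a := (⟨⟨x, hxG⟩, hxN⟩ : ↥N)) hc
        rcases hprim _ hblk with h | h
        · left
          intro a ha b hb
          exact Finset.card_le_one.mp h a (Set.mem_toFinset.mpr ha) b (Set.mem_toFinset.mpr hb)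
        · right
          exact Set.toFinset_eq_univ.mp h

end Cfsg.Agent.S0700
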