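import Cfsg.Statements.S0701
-- import your own Cfsg.Agent.* helpers here

set_option autoImplicit false
open Cfsg

namespace Cfsg.Agent.S0701

/-- The centraliser in the full symmetric group of a transitive permutation group `G` is semiregular, and it is transitive if and only if `G` is regular. -/
theorem result {α : Type*} (G : Subgroup (Equiv.Perm α)) [MulAction.IsPretransitive G α] : (∀ c ∈ Subgroup.centralizer (G : Set (Equiv.Perm α)), ∀ a : α, c a = a → c = 1) ∧ (MulAction.IsPretransitive (Subgroup.centralizer (G : Set (Equiv.Perm α))) α ↔ ∀ a : α, MulAction.stabilizer G a = ⊥) := by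
  classical
  have hcomm : ∀ c ∈ Subgroup.centralizer (G : Set (Equiv.Perm α)), ∀ g : G, ∀ z : α,
      c ((g : Equiv.Perm α) z) = (g : Equiv.Perm α) (c z) := by
    intro c hc g z
    have h := (Subgroup.mem_centralizer_iff.mp hc) (g : Equiv.Perm α) g.2
    have h2 := congrArg (fun σ : Equiv.Perm α => σ z) h
    simpa [Equiv.Perm.mul_apply] using h2.symm
  refine ⟨?_, ?_, ?_⟩
  · intro c hc a hca
    ext x
    obtain ⟨g, rfl⟩ := MulAction.exists_smul_eq G a x
    change c ((g : Equiv.Perm α) a) = (g : Equiv.Perm α) a
    rw [hcomm c hc g a, hca]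
  · intro htr a
    rw [eq_bot_iff]
    intro g hg
    rw [MulAction.mem_stabilizer_iff] at hg
    rw [Subgroup.mem_bot]
    apply Subtype.ext
    ext x
    obtain ⟨c, rfl⟩ := MulAction.exists_smul_eq (Subgroup.centralizer (G : Set (Equiv.Perm α))) a x
    change (g : Equiv.Perm α) ((c : Equiv.Perm α) a) = (c : Equiv.Perm α) a
    rw [← hcomm c c.2 g a]
    congr 1
  · intro hreg
    have hinj : ∀ (g h : G) (z : α), g • z = h • z → g = h := by
      intro g h z hz
      have : h⁻¹ * g ∈ MulAction.stabilizer G z := by
        rw [MulAction.mem_stabilizer_iff, mul_smul, hz, inv_smul_smul]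
      rw [hreg z, Subgroup.mem_bot] at this
      exact (inv_mul_eq_one.mp this).symm
    constructor
    intro x y
    have hex : ∀ (u : α) (z : α), ∃ g : G, g • u = z := fun u z => MulAction.exists_smul_eq G u z
    let gx : α → G := fun z => Classical.choose (hex x z)
    have hgx : ∀ z, gx z • x = z := fun z => Classical.choose_spec (hex x z)
    let gy : α → G := fun z => Classical.choose (hex y z)
    have hgy : ∀ z, gy z • y = z := fun z => Classical.choose_spec (hex y z)
    let c : Equiv.Perm α :=
      { toFun := fun z => gx z • y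
        invFun := fun z => gy z • x
        left_inv := by
          intro z
          have h1 : gy (gx z • y) = gx z := hinj _ _ y (hgy _)
          change gy (gx z • y) • x = z
          rw [h1, hgx]
        right_inv := by
          intro z
          have h1 : gx (gy z • x) = gy z := hinj _ _ x (hgx _)
          change gx (gy z • x) • y = z
          rw [h1, hgy] }
    have hc : c ∈ Subgroup.centralizer (G : Set (Equiv.Perm α)) := by
      rw [Subgroup.mem_centralizer_iff]
      intro h hh
      ext z
      have h1 : gx ((⟨h, hh⟩ : G) • z) = ⟨h, hh⟩ * gx z := by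
        apply hinj _ _ x
        rw [hgx, mul_smul, hgx]
      change h (gx z • y) = gx (h z) • y
      have h2 : gx (h z) = ⟨h, hh⟩ * gx z := h1
      rw [h2, mul_smul]
      rfl
    refine ⟨⟨c, hc⟩, ?_⟩
    change gx x • y = y
    have h1 : gx x = 1 := hinj _ _ x (by rw [hgx, one_smul])
    rw [h1, one_smul]

end Cfsg.Agent.S0701
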