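import Cfsg.Statements.S0702
-- import your own Cfsg.Agent.* helpers here
import Mathlib

set_option autoImplicit false
open Cfsg

namespace Cfsg.Agent.S0702

/-- For a transitive permutation group `G` on a finite set, the centraliser of `G` in the symmetric group is isomorphic to `N_G(G_ω)/G_ω`, and its orbit of `ω` is the set of fixed points of `G_ω`. -/
theorem result {α : Type*} [Finite α] (G : Subgroup (Equiv.Perm α)) [MulAction.IsPretransitive G α] (a : α) : Nonempty (Subgroup.centralizer (G : Set (Equiv.Perm α)) ≃* Subgroup.normalizer ((MulAction.stabilizer G a : Subgroup G) : Set G) ⧸ (MulAction.stabilizer G a).subgroupOf (Subgroup.normalizer ((MulAction.stabilizer G a : Subgroup G) : Set G))) ∧ MulAction.orbit (Subgroup.centralizer (G : Set (Equiv.Perm α))) a = MulAction.fixedPoints (MulAction.stabilizer G a) α := by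
  classical
  have hcomm : ∀ c ∈ Subgroup.centralizer (G : Set (Equiv.Perm α)), ∀ g : G, ∀ z : α,
      c (g • z) = g • c z := by
    intro c hc g z
    have h := (Subgroup.mem_centralizer_iff.mp hc) (g : Equiv.Perm α) g.2
    have h2 := congrArg (fun σ : Equiv.Perm α => σ z) h
    exact h2.symm
  have hsemi : ∀ c ∈ Subgroup.centralizer (G : Set (Equiv.Perm α)), c a = a → c = 1 := by
    intro c hc hca
    ext x
    obtain ⟨g, rfl⟩ := MulAction.exists_smul_eq G a x
    rw [hcomm c hc g a, hca]
    rfl
  have hex : ∀ x : α, ∃ k : G, k • a = x := fun x => MulAction.exists_smul_eq G a x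
  let k : α → G := fun x => Classical.choose (hex x)
  have hk : ∀ x, k x • a = x := fun x => Classical.choose_spec (hex x)
  let f : G → α → α := fun g x => k x • g⁻¹ • a
  have hf : ∀ g ∈ Subgroup.normalizer ((MulAction.stabilizer G a : Subgroup G) : Set G),
      ∀ h : G, f g (h • a) = h • g⁻¹ • a := by
    intro g hg h
    have h1 : h⁻¹ * k (h • a) ∈ MulAction.stabilizer G a := by
      rw [MulAction.mem_stabilizer_iff, mul_smul, hk, inv_smul_smul]
    have h2 := (Subgroup.mem_normalizer_iff.mp hg _).mp h1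
    rw [MulAction.mem_stabilizer_iff, mul_smul, mul_smul, smul_eq_iff_eq_inv_smul, mul_smul,
      inv_smul_eq_iff] at h2
    exact h2
  have hfmul : ∀ g ∈ Subgroup.normalizer ((MulAction.stabilizer G a : Subgroup G) : Set G),
      ∀ g' ∈ Subgroup.normalizer ((MulAction.stabilizer G a : Subgroup G) : Set G),
      ∀ x, f g (f g' x) = f (g * g') x := by
    intro g hg g' hg' x
    have e1 : f g' x = (k x * g'⁻¹) • a := by
      change k x • g'⁻¹ • a = _
      rw [mul_smul]
    rw [e1, hf g hg]
    change _ = k x • (g * g')⁻¹ • a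
    rw [mul_inv_rev, mul_smul, mul_smul]
  have hf1 : ∀ x, f 1 x = x := by
    intro x
    change k x • (1 : G)⁻¹ • a = x
    rw [inv_one, one_smul, hk]
  have hfa : ∀ g ∈ Subgroup.normalizer ((MulAction.stabilizer G a : Subgroup G) : Set G),
      f g a = g⁻¹ • a := by
    intro g hg
    have := hf g hg 1
    rwa [one_smul, one_smul] at this
  let cperm : Subgroup.normalizer ((MulAction.stabilizer G a : Subgroup G) : Set G) →
      Equiv.Perm α := fun g =>
    { toFun := f g.1
      invFun := f (g.1)⁻¹
      left_inv := fun x => by rw [hfmul _ (inv_mem g.2) _ g.2, inv_mul_cancel, hf1]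
      right_inv := fun x => by rw [hfmul _ g.2 _ (inv_mem g.2), mul_inv_cancel, hf1] }
  have hcperm : ∀ g, cperm g ∈ Subgroup.centralizer (G : Set (Equiv.Perm α)) := by
    intro g
    rw [Subgroup.mem_centralizer_iff]
    intro σ hσ
    ext x
    change σ (f g.1 x) = f g.1 (σ x)
    have e1 : σ x = ((⟨σ, hσ⟩ : G) * k x) • a := by
      rw [mul_smul, hk]; rfl
    have e2 : f g.1 x = k x • (g.1)⁻¹ • a := rfl
    rw [e1, hf g.1 g.2, mul_smul, e2]
    rfl
  let ψ : Subgroup.normalizer ((MulAction.stabilizer G a : Subgroup G) : Set G) →*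
      Subgroup.centralizer (G : Set (Equiv.Perm α)) :=
    { toFun := fun g => ⟨cperm g, hcperm g⟩
      map_one' := Subtype.ext (Equiv.ext fun x => hf1 x)
      map_mul' := fun g g' => Subtype.ext (Equiv.ext fun x =>
        (hfmul g.1 g.2 g'.1 g'.2 x).symm) }
  have hψa : ∀ g, ((ψ g : Subgroup.centralizer (G : Set (Equiv.Perm α))) : Equiv.Perm α) a =
      (g.1)⁻¹ • a := fun g => hfa g.1 g.2
  have hker : ψ.ker = (MulAction.stabilizer G a).subgroupOf
      (Subgroup.normalizer ((MulAction.stabilizer G a : Subgroup G) : Set G)) := by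
    ext g
    rw [MonoidHom.mem_ker, Subgroup.mem_subgroupOf, MulAction.mem_stabilizer_iff]
    constructor
    · intro h
      have h1 := hψa g
      rw [h] at h1
      have h2 : a = (g.1)⁻¹ • a := h1
      rw [eq_inv_smul_iff] at h2
      exact h2
    · intro h
      apply Subtype.ext
      apply hsemi _ (ψ g).2
      rw [hψa g, inv_smul_eq_iff, h]
  have hsurj : Function.Surjective ψ := by
    intro c
    have hg : (k (c.1 a))⁻¹ ∈ Subgroup.normalizer ((MulAction.stabilizer G a : Subgroup G) : Set G) := by
      rw [Subgroup.mem_normalizer_iff]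
      intro h
      rw [MulAction.mem_stabilizer_iff, MulAction.mem_stabilizer_iff, inv_inv, mul_smul, mul_smul,
        hk, inv_smul_eq_iff, hk, ← hcomm c.1 c.2 h a]
      exact ⟨fun h1 => by rw [h1], fun h1 => c.1.injective h1⟩
    refine ⟨⟨_, hg⟩, ?_⟩
    apply Subtype.ext
    have h1 := hψa ⟨_, hg⟩
    rw [inv_inv, hk] at h1
    have h2 : ((ψ ⟨_, hg⟩ : Subgroup.centralizer (G : Set (Equiv.Perm α))) : Equiv.Perm α)⁻¹ * c.1 ∈
        Subgroup.centralizer (G : Set (Equiv.Perm α)) := mul_mem (inv_mem (ψ ⟨_, hg⟩).2) c.2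
    have h3 := hsemi _ h2 (by
      rw [Equiv.Perm.mul_apply]
      exact Equiv.Perm.inv_eq_iff_eq.mpr h1.symm)
    rw [inv_mul_eq_one] at h3
    exact h3
  refine ⟨⟨((QuotientGroup.quotientMulEquivOfEq hker).symm.trans
    (QuotientGroup.quotientKerEquivOfSurjective ψ hsurj)).symm⟩, ?_⟩
  ext x
  constructor
  · rintro ⟨c, rfl⟩
    rw [MulAction.mem_fixedPoints]
    intro h
    change (h : G) • (c.1 a) = c.1 a
    rw [← hcomm c.1 c.2 h a]
    have : (h : G) • a = a := h.2
    rw [this]
  · intro hx
    rw [MulAction.mem_fixedPoints] at hx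
    have hHx : MulAction.stabilizer G a = MulAction.stabilizer G x := by
      apply Subgroup.eq_of_le_of_card_ge
      · intro h hh
        exact hx ⟨h, hh⟩
      · have e : MulAction.stabilizer G x =
            (MulAction.stabilizer G a).map (MulAut.conj (k x)).toMonoidHom := by
          rw [← MulAction.stabilizer_smul_eq_stabilizer_map_conj, hk]
        rw [e, Subgroup.card_map_of_injective (MulAut.conj (k x)).injective]
    have hg : (k x)⁻¹ ∈ Subgroup.normalizer ((MulAction.stabilizer G a : Subgroup G) : Set G) := by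
      rw [Subgroup.mem_normalizer_iff]
      intro h
      conv_lhs => rw [hHx]
      rw [MulAction.mem_stabilizer_iff, MulAction.mem_stabilizer_iff, inv_inv, mul_smul, mul_smul,
        hk, inv_smul_eq_iff, hk]
    refine ⟨ψ ⟨_, hg⟩, ?_⟩
    have h1 := hψa ⟨_, hg⟩
    rw [inv_inv, hk] at h1
    exact h1

end Cfsg.Agent.S0702
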