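import Cfsg.Statements.S0703
-- import your own Cfsg.Agent.* helpers here
import Mathlib

set_option autoImplicit false
open Cfsg

namespace Cfsg.Agent.S0703

/-- An abelian transitive minimal normal subgroup `M` of a permutation group on a finite set is self-centralising in the symmetric group, regular, elementary abelian, and is the unique minimal normal subgroup. -/
theorem result {α : Type*} [Finite α] (G : Subgroup (Equiv.Perm α)) (M : Subgroup G) [M.Normal] (hM : M ≠ ⊥) (hmin : ∀ L : Subgroup G, L.Normal → L ≤ M → L = ⊥ ∨ L = M) (hab : IsMulCommutative M) (htrans : MulAction.IsPretransitive M α) : Subgroup.centralizer ((M.map G.subtype : Subgroup (Equiv.Perm α)) : Set (Equiv.Perm α)) = M.map G.subtype ∧ (∀ a : α, MulAction.stabilizer M a = ⊥) ∧ (∃ p : ℕ, p.Prime ∧ ∀ m ∈ M, m ^ p = 1) ∧ ∀ L : Subgroup G, L.Normal → L ≠ ⊥ → (∀ L' : Subgroup G, L'.Normal → L' ≤ L → L' = ⊥ ∨ L' = L) → L = M := by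
  classical
  haveI := hab
  have hcommM : ∀ x ∈ M, ∀ y ∈ M, x * y = y * x := fun x hx y hy => setLike_mul_comm hx hy
  have htr : ∀ a b : α, ∃ m ∈ M, ((m : G) : Equiv.Perm α) a = b := by
    intro a b
    obtain ⟨m, hm⟩ := MulAction.exists_smul_eq M a b
    exact ⟨m.1, m.2, hm⟩
  have hsemi : ∀ c ∈ Subgroup.centralizer ((M.map G.subtype : Subgroup (Equiv.Perm α)) :
      Set (Equiv.Perm α)), ∀ a : α, c a = a → c = 1 := by
    intro c hc a hca
    ext x
    obtain ⟨m, hm, rfl⟩ := htr a x
    have h := (Subgroup.mem_centralizer_iff.mp hc) ((m : G) : Equiv.Perm α) ⟨m, hm, rfl⟩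
    have h2 := congrArg (fun σ : Equiv.Perm α => σ a) h
    simp only [Equiv.Perm.mul_apply] at h2
    rw [Equiv.Perm.one_apply, ← h2, hca]
  have hMle : M.map G.subtype ≤ Subgroup.centralizer ((M.map G.subtype : Subgroup (Equiv.Perm α)) :
      Set (Equiv.Perm α)) := by
    rintro σ ⟨g, hg, rfl⟩
    rw [Subgroup.mem_centralizer_iff]
    rintro τ ⟨k, hk, rfl⟩
    have := hcommM k hk g hg
    exact congrArg (fun z : G => (z : Equiv.Perm α)) this
  have hne : Nonempty α := by
    by_contra hemp
    rw [not_nonempty_iff] at hemp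
    apply hM
    rw [eq_bot_iff]
    intro m _
    rw [Subgroup.mem_bot]
    apply Subtype.ext
    ext x
    exact (hemp.false x).elim
  have hcent : Subgroup.centralizer ((M.map G.subtype : Subgroup (Equiv.Perm α)) :
      Set (Equiv.Perm α)) = M.map G.subtype := by
    apply le_antisymm _ hMle
    intro c hc
    obtain ⟨a⟩ := hne
    obtain ⟨m, hm, hma⟩ := htr a (c a)
    have hm' : ((m : G) : Equiv.Perm α) ∈ M.map G.subtype := ⟨m, hm, rfl⟩
    have h1 : ((m : G) : Equiv.Perm α)⁻¹ * c ∈ Subgroup.centralizer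
        ((M.map G.subtype : Subgroup (Equiv.Perm α)) : Set (Equiv.Perm α)) :=
      mul_mem (inv_mem (hMle hm')) hc
    have h2 := hsemi _ h1 a (by
      rw [Equiv.Perm.mul_apply, ← hma]; simp)
    have h3 : c = ((m : G) : Equiv.Perm α) := by
      rw [inv_mul_eq_one] at h2
      exact h2.symm
    rw [h3]
    exact hm'
  refine ⟨hcent, ?_, ?_, ?_⟩
  · intro a
    rw [eq_bot_iff]
    intro m hm
    rw [MulAction.mem_stabilizer_iff] at hm
    rw [Subgroup.mem_bot]
    have h1 : ((m : G) : Equiv.Perm α) = 1 :=
      hsemi _ (hMle ⟨m.1, m.2, rfl⟩) a hm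
    apply Subtype.ext
    apply Subtype.ext
    exact h1
  · haveI : Finite G := inferInstance
    have hcardM : Nat.card M ≠ 1 := by
      intro h
      apply hM
      exact Subgroup.eq_bot_of_card_eq M h
    obtain ⟨p, hp, hpdvd⟩ := Nat.exists_prime_and_dvd hcardM
    haveI : Fact p.Prime := ⟨hp⟩
    obtain ⟨x, hx⟩ := exists_prime_orderOf_dvd_card' p hpdvd
    let L : Subgroup G :=
      { carrier := {g | g ∈ M ∧ g ^ p = 1}
        mul_mem' := by
          rintro u v ⟨hu, hup⟩ ⟨hv, hvp⟩
          refine ⟨mul_mem hu hv, ?_⟩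
          have hc : Commute u v := hcommM u hu v hv
          rw [hc.mul_pow, hup, hvp, one_mul]
        one_mem' := ⟨one_mem M, one_pow p⟩
        inv_mem' := by
          rintro u ⟨hu, hup⟩
          exact ⟨inv_mem hu, by rw [inv_pow, hup, inv_one]⟩ }
    have hLn : L.Normal := by
      constructor
      rintro u ⟨hu, hup⟩ k
      refine ⟨Subgroup.Normal.conj_mem inferInstance u hu k, ?_⟩
      rw [conj_pow, hup, mul_one, mul_inv_cancel]
    have hLM : L ≤ M := fun u hu => hu.1
    have hLne : L ≠ ⊥ := by
      intro h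
      have hxL : (x : G) ∈ L := by
        refine ⟨x.2, ?_⟩
        have : x ^ p = 1 := by rw [← hx]; exact pow_orderOf_eq_one x
        exact_mod_cast congrArg (fun z : M => (z : G)) this
      rw [h, Subgroup.mem_bot] at hxL
      have hx1 : x = 1 := Subtype.ext hxL
      rw [hx1, orderOf_one] at hx
      exact hp.one_lt.ne hx
    have hLeq : L = M := (hmin L hLn hLM).resolve_left hLne
    refine ⟨p, hp, ?_⟩
    intro m hm
    have : m ∈ L := hLeq ▸ hm
    exact this.2
  · intro L hLn hLne hLmin
    haveI := hLn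
    have hinf : (L ⊓ M).Normal := inferInstance
    rcases hmin (L ⊓ M) hinf inf_le_right with h | h
    · exfalso
      apply hLne
      have hcomm : ⁅L, M⁆ = ⊥ := by
        rw [eq_bot_iff, ← h]
        exact Subgroup.commutator_le_inf L M
      rw [Subgroup.commutator_eq_bot_iff_le_centralizer] at hcomm
      have hLM : L ≤ M := by
        intro l hl
        have h1 : ((l : G) : Equiv.Perm α) ∈ Subgroup.centralizer
            ((M.map G.subtype : Subgroup (Equiv.Perm α)) : Set (Equiv.Perm α)) := by
          rw [Subgroup.mem_centralizer_iff]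
          rintro τ ⟨k, hk, rfl⟩
          have := (Subgroup.mem_centralizer_iff.mp (hcomm hl)) k hk
          exact congrArg (fun z : G => (z : Equiv.Perm α)) this
        rw [hcent] at h1
        obtain ⟨k, hk, hkl⟩ := h1
        have : k = l := Subtype.ext hkl
        rw [← this]
        exact hk
      rw [← inf_eq_left.mpr hLM, h]
    · have hML : M ≤ L := by rw [← h]; exact inf_le_left
      rcases hLmin M inferInstance hML with h' | h'
      · exact absurd h' hM
      · exact h'.symm

end Cfsg.Agent.S0703
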