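import Cfsg.Statements.S0704
-- import your own Cfsg.Agent.* helpers here
import Mathlib

set_option autoImplicit false
open Cfsg

namespace Cfsg.Agent.S0704

theorem half {α : Type*} (G : Subgroup (Equiv.Perm α)) (M N : Subgroup G)
    (hcomm : ∀ m ∈ M, ∀ n ∈ N, m * n = n * m)
    (hMt : MulAction.IsPretransitive M α) (hNt : MulAction.IsPretransitive N α) :
    Subgroup.centralizer ((M.map G.subtype : Subgroup (Equiv.Perm α)) : Set (Equiv.Perm α)) =
      N.map G.subtype ∧ ∀ a : α, MulAction.stabilizer N a = ⊥ := by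
  classical
  have htrM : ∀ a b : α, ∃ m ∈ M, ((m : G) : Equiv.Perm α) a = b := by
    intro a b
    obtain ⟨m, hm⟩ := MulAction.exists_smul_eq M a b
    exact ⟨m.1, m.2, hm⟩
  have htrN : ∀ a b : α, ∃ n ∈ N, ((n : G) : Equiv.Perm α) a = b := by
    intro a b
    obtain ⟨n, hn⟩ := MulAction.exists_smul_eq N a b
    exact ⟨n.1, n.2, hn⟩
  have hsemi : ∀ c ∈ Subgroup.centralizer ((M.map G.subtype : Subgroup (Equiv.Perm α)) :
      Set (Equiv.Perm α)), ∀ a : α, c a = a → c = 1 := by
    intro c hc a hca
    ext x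
    obtain ⟨m, hm, rfl⟩ := htrM a x
    have h := (Subgroup.mem_centralizer_iff.mp hc) ((m : G) : Equiv.Perm α) ⟨m, hm, rfl⟩
    have h2 := congrArg (fun σ : Equiv.Perm α => σ a) h
    simp only [Equiv.Perm.mul_apply] at h2
    rw [Equiv.Perm.one_apply, ← h2, hca]
  have hNle : N.map G.subtype ≤ Subgroup.centralizer
      ((M.map G.subtype : Subgroup (Equiv.Perm α)) : Set (Equiv.Perm α)) := by
    rintro σ ⟨n, hn, rfl⟩
    rw [Subgroup.mem_centralizer_iff]
    rintro τ ⟨m, hm, rfl⟩
    have := hcomm m hm n hn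
    exact congrArg (fun z : G => (z : Equiv.Perm α)) this
  refine ⟨?_, ?_⟩
  · apply le_antisymm _ hNle
    intro c hc
    rcases isEmpty_or_nonempty α with hemp | ⟨⟨a⟩⟩
    · have : c = 1 := by
        ext x
        exact (hemp.false x).elim
      rw [this]
      exact one_mem _
    · obtain ⟨n, hn, hna⟩ := htrN a (c a)
      have hn' : ((n : G) : Equiv.Perm α) ∈ N.map G.subtype := ⟨n, hn, rfl⟩
      have h1 : ((n : G) : Equiv.Perm α)⁻¹ * c ∈ Subgroup.centralizer
          ((M.map G.subtype : Subgroup (Equiv.Perm α)) : Set (Equiv.Perm α)) :=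
        mul_mem (inv_mem (hNle hn')) hc
      have h2 := hsemi _ h1 a (by
        rw [Equiv.Perm.mul_apply, ← hna]; simp)
      have h3 : c = ((n : G) : Equiv.Perm α) := by
        rw [inv_mul_eq_one] at h2
        exact h2.symm
      rw [h3]
      exact hn'
  · intro a
    rw [eq_bot_iff]
    intro n hn
    rw [MulAction.mem_stabilizer_iff] at hn
    rw [Subgroup.mem_bot]
    have h1 : ((n : G) : Equiv.Perm α) = 1 :=
      hsemi _ (hNle ⟨n.1, n.2, rfl⟩) a hn
    apply Subtype.ext
    apply Subtype.ext
    exact h1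

/-- Two distinct transitive minimal normal subgroups `M`, `N` of a permutation group are regular, non-abelian, isomorphic, each other's centraliser in the symmetric group, and the only minimal normal subgroups. -/
theorem result {α : Type*} (G : Subgroup (Equiv.Perm α)) (M N : Subgroup G) [M.Normal] [N.Normal] (hM : M ≠ ⊥) (hN : N ≠ ⊥) (hMmin : ∀ L : Subgroup G, L.Normal → L ≤ M → L = ⊥ ∨ L = M) (hNmin : ∀ L : Subgroup G, L.Normal → L ≤ N → L = ⊥ ∨ L = N) (hMN : M ≠ N) (hMt : MulAction.IsPretransitive M α) (hNt : MulAction.IsPretransitive N α) : (∀ a : α, MulAction.stabilizer M a = ⊥) ∧ (∀ a : α, MulAction.stabilizer N a = ⊥) ∧ ¬ IsMulCommutative M ∧ Nonempty (M ≃* N) ∧ Subgroup.centralizer ((M.map G.subtype : Subgroup (Equiv.Perm α)) : Set (Equiv.Perm α)) = N.map G.subtype ∧ Subgroup.centralizer ((N.map G.subtype : Subgroup (Equiv.Perm α)) : Set (Equiv.Perm α)) = M.map G.subtype ∧ ∀ L : Subgroup G, L.Normal → L ≠ ⊥ → (∀ L' : Subgroup G, L'.Normal → L' ≤ L → L' = ⊥ ∨ L' = L) → L = M ∨ L = N := by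
  classical
  have hinf : M ⊓ N = ⊥ := by
    rcases hMmin (M ⊓ N) inferInstance inf_le_left with h | h
    · exact h
    · exfalso
      have hMN' : M ≤ N := by rw [← h]; exact inf_le_right
      rcases hNmin M inferInstance hMN' with h' | h'
      · exact hM h'
      · exact hMN h'
  have hcomm : ∀ m ∈ M, ∀ n ∈ N, m * n = n * m := by
    have hc : ⁅M, N⁆ = ⊥ := by
      rw [eq_bot_iff, ← hinf]
      exact Subgroup.commutator_le_inf M N
    rw [Subgroup.commutator_eq_bot_iff_le_centralizer] at hc
    intro m hm n hn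
    exact ((Subgroup.mem_centralizer_iff.mp (hc hm)) n hn).symm
  obtain ⟨hCM, hregN⟩ := half G M N hcomm hMt hNt
  obtain ⟨hCN, hregM⟩ := half G N M (fun n hn m hm => (hcomm m hm n hn).symm) hNt hMt
  have hnab : ¬ IsMulCommutative M := by
    intro hab
    apply hM
    have hle : M ≤ N := by
      intro m hm
      have h1 : ((m : G) : Equiv.Perm α) ∈ Subgroup.centralizer
          ((M.map G.subtype : Subgroup (Equiv.Perm α)) : Set (Equiv.Perm α)) := by
        rw [Subgroup.mem_centralizer_iff]
        rintro τ ⟨k, hk, rfl⟩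
        have : k * m = m * k := setLike_mul_comm hk hm
        exact congrArg (fun z : G => (z : Equiv.Perm α)) this
      rw [hCM] at h1
      obtain ⟨k, hk, hkm⟩ := h1
      have : k = m := Subtype.ext hkm
      rw [← this]
      exact hk
    rw [← inf_eq_left.mpr hle, hinf]
  have hne : Nonempty α := by
    by_contra hemp
    rw [not_nonempty_iff] at hemp
    apply hM
    rw [eq_bot_iff]
    intro m _
    rw [Subgroup.mem_bot]
    apply Subtype.ext
    ext x
    exact (hemp.false x).elim
  obtain ⟨a⟩ := hne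
  have hinjM : ∀ (m m' : M), m • a = m' • a → m = m' := by
    intro m m' h
    have : m'⁻¹ * m ∈ MulAction.stabilizer M a := by
      rw [MulAction.mem_stabilizer_iff, mul_smul, h, inv_smul_smul]
    rw [hregM a, Subgroup.mem_bot] at this
    exact (inv_mul_eq_one.mp this).symm
  have hinjN : ∀ (n n' : N), n • a = n' • a → n = n' := by
    intro n n' h
    have : n'⁻¹ * n ∈ MulAction.stabilizer N a := by
      rw [MulAction.mem_stabilizer_iff, mul_smul, h, inv_smul_smul]
    rw [hregN a, Subgroup.mem_bot] at this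
    exact (inv_mul_eq_one.mp this).symm
  have hsmulcomm : ∀ (m : M) (n : N) (x : α), m • n • x = n • m • x := by
    intro m n x
    have h := hcomm m.1 m.2 n.1 n.2
    have h2 := congrArg (fun z : G => (z : Equiv.Perm α) x) h
    exact h2
  have hex : ∀ m : M, ∃ n : N, n • a = m • a := fun m => MulAction.exists_smul_eq N a (m • a)
  let φ : M → N := fun m => Classical.choose (hex m)
  have hφ : ∀ m : M, φ m • a = m • a := fun m => Classical.choose_spec (hex m)
  have hφmul : ∀ m m' : M, φ (m * m') = φ m' * φ m := by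
    intro m m'
    apply hinjN
    rw [hφ, mul_smul, mul_smul, hφ m, ← hsmulcomm, hφ m']
  let ψ : M →* N := MonoidHom.mk' (fun m => (φ m)⁻¹) (by
    intro m m'
    rw [hφmul, mul_inv_rev])
  have hψinj : Function.Injective ψ := by
    intro m m' h
    have h1 : φ m = φ m' := inv_injective h
    apply hinjM
    rw [← hφ m, ← hφ m', h1]
  have hψsurj : Function.Surjective ψ := by
    intro n
    obtain ⟨m, hm⟩ := MulAction.exists_smul_eq M a (n⁻¹ • a)
    refine ⟨m, ?_⟩
    have h1 : φ m = n⁻¹ := by
      apply hinjN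
      rw [hφ, hm]
    change (φ m)⁻¹ = n
    rw [h1, inv_inv]
  refine ⟨hregM, hregN, hnab, ⟨MulEquiv.ofBijective ψ ⟨hψinj, hψsurj⟩⟩, hCM, hCN, ?_⟩
  intro L hLn hLne hLmin
  haveI := hLn
  by_cases hLM : L = M
  · exact Or.inl hLM
  · right
    have hLinf : L ⊓ M = ⊥ := by
      rcases hMmin (L ⊓ M) inferInstance inf_le_right with h | h
      · exact h
      · exfalso
        have hML : M ≤ L := by rw [← h]; exact inf_le_left
        rcases hLmin M inferInstance hML with h' | h'
        · exact hM h'
        · exact hLM h'.symm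
    have hc : ⁅L, M⁆ = ⊥ := by
      rw [eq_bot_iff, ← hLinf]
      exact Subgroup.commutator_le_inf L M
    rw [Subgroup.commutator_eq_bot_iff_le_centralizer] at hc
    have hLN : L ≤ N := by
      intro l hl
      have h1 : ((l : G) : Equiv.Perm α) ∈ Subgroup.centralizer
          ((M.map G.subtype : Subgroup (Equiv.Perm α)) : Set (Equiv.Perm α)) := by
        rw [Subgroup.mem_centralizer_iff]
        rintro τ ⟨k, hk, rfl⟩
        have := (Subgroup.mem_centralizer_iff.mp (hc hl)) k hk
        exact congrArg (fun z : G => (z : Equiv.Perm α)) this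
      rw [hCM] at h1
      obtain ⟨k, hk, hkl⟩ := h1
      have : k = l := Subtype.ext hkl
      rw [← this]
      exact hk
    exact (hNmin L hLn hLN).resolve_left hLne

end Cfsg.Agent.S0704
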