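import Cfsg.Statements.S0705
-- import your own Cfsg.Agent.* helpers here
import Mathlib

set_option autoImplicit false
open scoped Pointwise
open Cfsg

namespace Cfsg.Agent.S0705

/-- A generously `k`-transitive permutation group (every `(k+1)`-subset has its full symmetric group induced by the setwise stabiliser) of degree greater than `k` is `k`-transitive, and for a `k`-subset the setwise and pointwise stabilisers have the same orbits outside it. -/
theorem result {α : Type*} [Fintype α] [DecidableEq α] (G : Subgroup (Equiv.Perm α)) {k : ℕ} (hk : k < Fintype.card α) (hgen : ∀ s : Finset α, s.card = k + 1 → ∀ σ : Equiv.Perm ↥s, ∃ g ∈ G, ∀ x : ↥s, g (x : α) = σ x) : MulAction.IsMultiplyPretransitive G α k ∧ ∀ s : Finset α, s.card = k → ∀ a b : α, a ∉ s → b ∉ s → (∃ g ∈ G, g • s = s ∧ g a = b) → ∃ g ∈ G, (∀ x ∈ s, g x = x) ∧ g a = b := by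
  classical
  have hswap : ∀ (T : Finset α), T.card = k + 1 → ∀ u ∈ T, ∀ v ∈ T,
      ∃ g ∈ G, g u = v ∧ ∀ w ∈ T, w ≠ u → w ≠ v → g w = w := by
    intro T hT u hu v hv
    obtain ⟨g, hg, hgσ⟩ := hgen T hT (Equiv.swap ⟨u, hu⟩ ⟨v, hv⟩)
    refine ⟨g, hg, ?_, ?_⟩
    · have := hgσ ⟨u, hu⟩
      rw [Equiv.swap_apply_left] at this
      exact this
    · intro w hw hwu hwv
      have := hgσ ⟨w, hw⟩
      rw [Equiv.swap_apply_of_ne_of_ne (fun h => hwu (congrArg Subtype.val h))
        (fun h => hwv (congrArg Subtype.val h))] at this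
      exact this
  have hstep : ∀ x y : Fin k ↪ α, ∀ i, x i ≠ y i →
      ∃ g ∈ G, g (x i) = y i ∧ ∀ j, x j = y j → g (x j) = x j := by
    intro x y i hi
    have hcardx : (Finset.univ.map x).card = k := by simp
    by_cases hyi : y i ∈ Finset.univ.map x
    · rw [Finset.mem_map] at hyi
      obtain ⟨j₀, -, hj₀⟩ := hyi
      obtain ⟨z, hz⟩ : ∃ z, z ∉ Finset.univ.map x := by
        by_contra hall
        push Not at hall
        have : Finset.univ.map x = Finset.univ := Finset.eq_univ_iff_forall.mpr hall
        rw [this, Finset.card_univ] at hcardx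
        omega
      have hT : (insert z (Finset.univ.map x)).card = k + 1 := by
        rw [Finset.card_insert_of_notMem hz, hcardx]
      have hxmem : ∀ j, x j ∈ insert z (Finset.univ.map x) := fun j =>
        Finset.mem_insert_of_mem (Finset.mem_map_of_mem x (Finset.mem_univ j))
      obtain ⟨g, hg, hg1, hg2⟩ := hswap _ hT (x i) (hxmem i) (x j₀) (hxmem j₀)
      refine ⟨g, hg, by rw [hg1, hj₀], ?_⟩
      intro j hj
      apply hg2 _ (hxmem j)
      · intro h
        have := x.injective h
        subst this
        exact hi hj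
      · intro h
        have := x.injective h
        subst this
        have h2 : y j = y i := hj.symm.trans hj₀
        have := y.injective h2
        subst this
        exact hi hj
    · have hT : (insert (y i) (Finset.univ.map x)).card = k + 1 := by
        rw [Finset.card_insert_of_notMem hyi, hcardx]
      have hxmem : ∀ j, x j ∈ insert (y i) (Finset.univ.map x) := fun j =>
        Finset.mem_insert_of_mem (Finset.mem_map_of_mem x (Finset.mem_univ j))
      obtain ⟨g, hg, hg1, hg2⟩ := hswap _ hT (x i) (hxmem i) (y i) (Finset.mem_insert_self _ _)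
      refine ⟨g, hg, hg1, ?_⟩
      intro j hj
      apply hg2 _ (hxmem j)
      · intro h
        have := x.injective h
        subst this
        exact hi hj
      · intro h
        exact hyi (h ▸ Finset.mem_map_of_mem x (Finset.mem_univ j))
  have hmain : ∀ n : ℕ, ∀ x y : Fin k ↪ α,
      (Finset.univ.filter (fun i => x i ≠ y i)).card = n → ∃ g : G, g • x = y := by
    intro n
    induction n using Nat.strong_induction_on with
    | _ n ih =>
      intro x y hn
      by_cases hxy : ∃ i, x i ≠ y i
      · obtain ⟨i, hi⟩ := hxy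
        obtain ⟨g, hg, hg1, hg2⟩ := hstep x y i hi
        have hlt : (Finset.univ.filter (fun j => ((⟨g, hg⟩ : G) • x) j ≠ y j)).card < n := by
          rw [← hn]
          apply Finset.card_lt_card
          rw [Finset.ssubset_iff_of_subset]
          · refine ⟨i, by simp [hi], ?_⟩
            simp only [Finset.mem_filter, Finset.mem_univ, true_and, not_not]
            exact hg1
          · intro j
            simp only [Finset.mem_filter, Finset.mem_univ, true_and]
            intro hj hxj
            apply hj
            change g (x j) = y j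
            rw [hg2 j hxj, hxj]
        obtain ⟨g', hg'⟩ := ih _ hlt ((⟨g, hg⟩ : G) • x) y rfl
        refine ⟨g' * ⟨g, hg⟩, ?_⟩
        rw [← hg']
        exact mul_smul _ _ _
      · push Not at hxy
        refine ⟨1, ?_⟩
        apply DFunLike.ext
        intro i
        rw [Function.Embedding.smul_apply, one_smul]
        exact hxy i
  refine ⟨MulAction.isMultiplyPretransitive_iff.mpr (fun x y => hmain _ x y rfl), ?_⟩
  rintro s hs a b ha hb ⟨g, hg, hgs, hgab⟩
  have hmem : ∀ x, x ∈ s ↔ g x ∈ s := by
    intro x
    constructor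
    · intro hx
      have h1 : g • x ∈ g • s := Finset.smul_mem_smul_finset hx
      rw [hgs] at h1
      exact h1
    · intro hx
      have h1 : g x ∈ g • s := by rw [hgs]; exact hx
      obtain ⟨y, hy, hyx⟩ := Finset.mem_smul_finset.mp h1
      have h2 : y = x := g.injective hyx
      rwa [← h2]
  have hinv : ∀ x ∈ s, g⁻¹ x ∈ s := fun x hx => (hmem (g⁻¹ x)).mpr (by simpa using hx)
  set τ : Equiv.Perm α := Equiv.swap a b * g⁻¹ with hτ
  have hτs : ∀ x ∈ s, τ x = g⁻¹ x := by
    intro x hx
    rw [hτ, Equiv.Perm.mul_apply]
    exact Equiv.swap_apply_of_ne_of_ne (fun h => ha (h ▸ hinv x hx)) (fun h => hb (h ▸ hinv x hx))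
  have hτb : τ b = b := by
    rw [hτ, Equiv.Perm.mul_apply]
    have h1 : g⁻¹ b = a := by rw [← hgab]; simp
    rw [h1, Equiv.swap_apply_left]
  have hT : (insert b s).card = k + 1 := by rw [Finset.card_insert_of_notMem hb, hs]
  have hτT : ∀ x, τ x ∈ insert b s ↔ x ∈ insert b s := by
    intro x
    constructor
    · intro hx
      rw [Finset.mem_insert] at hx ⊢
      rcases hx with hx | hx
      · left
        exact τ.injective (hx.trans hτb.symm)
      · right
        have h1 : τ (g (τ x)) = τ x := by
          rw [hτs _ ((hmem _).mp hx)]; simp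
        have h2 := τ.injective h1
        rw [← h2]
        exact (hmem _).mp hx
    · intro hx
      rw [Finset.mem_insert] at hx ⊢
      rcases hx with rfl | hx
      · left
        exact hτb
      · right
        rw [hτs x hx]
        exact hinv x hx
  obtain ⟨h, hh, hhσ⟩ := hgen (insert b s) hT (τ.subtypePerm hτT)
  refine ⟨h * g, mul_mem hh hg, ?_, ?_⟩
  · intro x hx
    have hgx : g x ∈ insert b s := Finset.mem_insert_of_mem ((hmem x).mp hx)
    have h1 := hhσ ⟨g x, hgx⟩
    rw [Equiv.Perm.subtypePerm_apply] at h1
    have h2 : h (g x) = τ (g x) := h1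
    rw [Equiv.Perm.mul_apply, h2, hτs _ ((hmem x).mp hx)]
    simp
  · have hbT : b ∈ insert b s := Finset.mem_insert_self b s
    have h1 := hhσ ⟨b, hbT⟩
    rw [Equiv.Perm.subtypePerm_apply] at h1
    have h2 : h b = τ b := h1
    rw [Equiv.Perm.mul_apply, hgab, h2]
    exact hτb

end Cfsg.Agent.S0705
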