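import Cfsg.Statements.S0706
import Mathlib
import Cfsg.Agent.Lib.helper3.GenTrans

set_option linter.style.haveILetI false

set_option autoImplicit false
open Cfsg

namespace Cfsg.Agent.S0706

/-- In a generously `k`-transitive permutation group, for a prime `p ≤ k` and a `k`-set `Γ`, there are no `p` points outside `Γ` lying in distinct orbits of the pointwise stabiliser of `Γ` all of length prime to `p` (at most `p - 1` such orbits). -/
theorem result {α : Type*} [Fintype α] [DecidableEq α] (G : Subgroup (Equiv.Perm α)) {k : ℕ} (hk : k < Fintype.card α) (hgen : ∀ s : Finset α, s.card = k + 1 → ∀ σ : Equiv.Perm ↥s, ∃ g ∈ G, ∀ x : ↥s, g (x : α) = σ x) {p : ℕ} (hp : p.Prime) (hpk : p ≤ k) (Γ : Finset α) (hΓ : Γ.card = k) (f : Fin p → α) (hf : ∀ i, f i ∉ Γ) (hdist : ∀ i j, i ≠ j → f j ∉ MulAction.orbit (fixingSubgroup G (Γ : Set α)) (f i)) : ∃ i, p ∣ Nat.card (MulAction.orbit (fixingSubgroup G (Γ : Set α)) (f i)) := by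
  classical
  by_contra hcon
  push_neg at hcon
  have horb : ∀ i, MulAction.orbit (fixingSubgroup G (Γ : Set α)) (f i) =
      {b : α | ∃ t ∈ G, (∀ x ∈ Γ, t x = x) ∧ t (f i) = b} := by
    intro i
    ext b
    constructor
    · rintro ⟨⟨⟨t, htG⟩, ht⟩, rfl⟩
      exact ⟨t, htG, fun x hx => (mem_fixingSubgroup_iff _).1 ht x (Finset.mem_coe.2 hx), rfl⟩
    · rintro ⟨t, htG, ht, rfl⟩
      exact ⟨⟨⟨t, htG⟩, (mem_fixingSubgroup_iff _).2 (fun x hx => ht x (Finset.mem_coe.1 hx))⟩, rfl⟩
  exact Cfsg.Agent.Lib.helper3.GenTrans.gen_orbits G hgen hp hpk Γ hΓ f hf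
    (fun i j hij h => hdist i j hij (by rw [horb i]; exact h))
    (fun i => by have := hcon i; rw [horb i] at this; exact this)

end Cfsg.Agent.S0706
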