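import Cfsg.Statements.S0707
-- import your own Cfsg.Agent.* helpers here
import Mathlib.GroupTheory.SpecificGroups.Cyclic

set_option autoImplicit false
open Cfsg

namespace Cfsg.Agent.S0707

/-- In a primitive permutation group, distinct points have distinct stabilisers unless the group is regular of prime degree. -/
theorem result {α : Type*} (G : Subgroup (Equiv.Perm α)) [MulAction.IsPreprimitive G α] (h : ¬ (Nat.card α).Prime ∨ ∃ a : α, MulAction.stabilizer G a ≠ ⊥) {a b : α} (hab : a ≠ b) : MulAction.stabilizer G a ≠ MulAction.stabilizer G b := by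
  classical
  intro heq
  haveI : Nontrivial α := ⟨a, b, hab⟩
  have hco : IsCoatom (MulAction.stabilizer G a) :=
    (MulAction.isCoatom_stabilizer_iff_preprimitive (G := G) a).mpr inferInstance
  obtain ⟨g, hg⟩ := MulAction.exists_smul_eq G a b
  have hgN : g ∈ Subgroup.normalizer (MulAction.stabilizer G a : Set G) := by
    rw [Subgroup.mem_normalizer_iff]
    intro h
    rw [MulAction.mem_stabilizer_iff]
    conv_rhs => rw [heq, MulAction.mem_stabilizer_iff, ← hg]
    rw [mul_smul, mul_smul, inv_smul_smul]
    exact (smul_left_cancel_iff g).symm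
  have hgnot : g ∉ MulAction.stabilizer G a := by
    rw [MulAction.mem_stabilizer_iff, hg]
    exact fun h => hab h.symm
  have hN : Subgroup.normalizer (MulAction.stabilizer G a : Set G) = ⊤ := by
    apply hco.2
    exact lt_of_le_of_ne Subgroup.le_normalizer (fun h => hgnot (h ▸ hgN))
  have hbot : MulAction.stabilizer G a = ⊥ := by
    rw [eq_bot_iff]
    intro h hh
    rw [Subgroup.mem_bot]
    apply Subtype.ext
    ext x
    obtain ⟨k, rfl⟩ := MulAction.exists_smul_eq G a x
    have hk : k⁻¹ ∈ Subgroup.normalizer (MulAction.stabilizer G a : Set G) := by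
      rw [hN]; exact Subgroup.mem_top _
    have h2 := (Subgroup.mem_normalizer_iff.mp hk h).mp hh
    rw [MulAction.mem_stabilizer_iff, inv_inv, mul_smul, mul_smul, inv_smul_eq_iff] at h2
    exact h2
  rw [hbot] at hco
  have hcard : Nat.card α = Nat.card G := by
    rw [← MulAction.index_stabilizer_of_transitive G a, hbot, Subgroup.index_bot]
  have hprime : (Nat.card G).Prime := by
    have hnt : Nontrivial G := by
      rw [← Subgroup.nontrivial_iff]
      exact ⟨⟨⊥, ⊤, hco.1⟩⟩
    obtain ⟨x, hx⟩ := exists_ne (1 : G)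
    have hz : Subgroup.zpowers x = ⊤ := hco.2 _ (bot_lt_iff_ne_bot.mpr (Subgroup.zpowers_ne_bot.mpr hx))
    haveI hcomm : IsMulCommutative G := ⟨⟨fun u v => by
      obtain ⟨i, rfl⟩ := Subgroup.mem_zpowers_iff.mp (hz ▸ Subgroup.mem_top u)
      obtain ⟨j, rfl⟩ := Subgroup.mem_zpowers_iff.mp (hz ▸ Subgroup.mem_top v)
      rw [← zpow_add, ← zpow_add, add_comm]⟩⟩
    haveI hsimple : IsSimpleGroup G :=
      { exists_pair_ne := hnt.exists_pair_ne
        eq_bot_or_eq_top_of_normal := fun H _ => by
          by_cases hH : H = ⊥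
          · exact Or.inl hH
          · exact Or.inr (hco.2 _ (bot_lt_iff_ne_bot.mpr hH)) }
    exact Group.is_simple_iff_prime_card.mp hsimple
  rcases h with h | ⟨c, hc⟩
  · exact h (hcard ▸ hprime)
  · apply hc
    obtain ⟨k, rfl⟩ := MulAction.exists_smul_eq G a c
    rw [MulAction.stabilizer_smul_eq_stabilizer_map_conj, hbot, Subgroup.map_bot]

end Cfsg.Agent.S0707
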