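import Cfsg.Statements.S0708


set_option autoImplicit false
open Cfsg

namespace Cfsg.Agent.S0708

theorem finite_of_no_emb {β : Type*} (k : ℕ) (h : IsEmpty (Fin (k + 1) ↪ β)) :
    Finite β ∧ Nat.card β ≤ k := by
  have hfin : Finite β := by
    by_contra hinf
    rw [not_finite_iff_infinite] at hinf
    exact h.false ((Fin.valEmbedding).trans (Infinite.natEmbedding β))
  refine ⟨hfin, ?_⟩
  by_contra hcon
  push Not at hcon
  haveI := Fintype.ofFinite β
  rw [Nat.card_eq_fintype_card] at hcon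
  obtain ⟨e⟩ := Function.Embedding.nonempty_of_card_le (α := Fin (k + 1)) (β := β)
    (by rw [Fintype.card_fin]; omega)
  exact h.false e

/-- Tits' argument: a sharply 4-transitive group (no finiteness assumed) has finite degree at most 11, and at most 6 when the degree is even. -/
theorem result {G : Type*} [Group G] {Ω : Type*} [MulAction G Ω] (h4 : MulAction.IsMultiplyPretransitive G Ω 4) (hsharp : ∀ x : Fin 4 ↪ Ω, MulAction.stabilizer G x = ⊥) (hne : Nonempty (Fin 4 ↪ Ω)) : Finite Ω ∧ Nat.card Ω ≤ 11 ∧ (Even (Nat.card Ω) → Nat.card Ω ≤ 6) := by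
  classical
  obtain ⟨x₀⟩ := hne
  have hD : ∀ a b c d : Ω, a ≠ b → a ≠ c → a ≠ d → b ≠ c → b ≠ d → c ≠ d →
      Function.Injective ![a, b, c, d] := by
    intro a b c d h1 h2 h3 h4 h5 h6 i j hij
    fin_cases i <;> fin_cases j <;> simp_all
  have h4t : ∀ a b c d a' b' c' d' : Ω, a ≠ b → a ≠ c → a ≠ d → b ≠ c → b ≠ d → c ≠ d →
      a' ≠ b' → a' ≠ c' → a' ≠ d' → b' ≠ c' → b' ≠ d' → c' ≠ d' →
      ∃ g : G, g • a = a' ∧ g • b = b' ∧ g • c = c' ∧ g • d = d' := by
    intro a b c d a' b' c' d' h1 h2 h3 h4' h5 h6 h1' h2' h3' h4'' h5' h6'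
    obtain ⟨g, hg⟩ := (MulAction.isMultiplyPretransitive_iff.mp h4)
      ⟨![a, b, c, d], hD a b c d h1 h2 h3 h4' h5 h6⟩
      ⟨![a', b', c', d'], hD a' b' c' d' h1' h2' h3' h4'' h5' h6'⟩
    exact ⟨g, congrArg (fun e : Fin 4 ↪ Ω => e 0) hg, congrArg (fun e : Fin 4 ↪ Ω => e 1) hg,
      congrArg (fun e : Fin 4 ↪ Ω => e 2) hg, congrArg (fun e : Fin 4 ↪ Ω => e 3) hg⟩
  have hsh : ∀ g : G, ∀ a b c d : Ω, a ≠ b → a ≠ c → a ≠ d → b ≠ c → b ≠ d → c ≠ d →
      g • a = a → g • b = b → g • c = c → g • d = d → g = 1 := by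
    intro g a b c d h1 h2 h3 h4' h5 h6 ha hb hc hd
    have hmem : g ∈ MulAction.stabilizer G
        (⟨![a, b, c, d], hD a b c d h1 h2 h3 h4' h5 h6⟩ : Fin 4 ↪ Ω) := by
      rw [MulAction.mem_stabilizer_iff]
      apply Function.Embedding.ext
      intro i
      fin_cases i
      · exact ha
      · exact hb
      · exact hc
      · exact hd
    rw [hsharp, Subgroup.mem_bot] at hmem
    exact hmem
  have heq : ∀ s t : G, ∀ a b c d : Ω, a ≠ b → a ≠ c → a ≠ d → b ≠ c → b ≠ d → c ≠ d →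
      s • a = t • a → s • b = t • b → s • c = t • c → s • d = t • d → s = t := by
    intro s t a b c d h1 h2 h3 h4' h5 h6 ha hb hc hd
    have h7 : t⁻¹ * s = 1 := by
      apply hsh _ a b c d h1 h2 h3 h4' h5 h6
      · rw [mul_smul, ha, inv_smul_smul]
      · rw [mul_smul, hb, inv_smul_smul]
      · rw [mul_smul, hc, inv_smul_smul]
      · rw [mul_smul, hd, inv_smul_smul]
    exact (inv_mul_eq_one.mp h7).symm
  have hx : ∀ i j : Fin 4, i ≠ j → x₀ i ≠ x₀ j := fun i j hij h => hij (x₀.injective h)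
  obtain ⟨p1, hp1⟩ : ∃ p, p = x₀ 0 := ⟨_, rfl⟩
  obtain ⟨p2, hp2⟩ : ∃ p, p = x₀ 1 := ⟨_, rfl⟩
  obtain ⟨p3, hp3⟩ : ∃ p, p = x₀ 2 := ⟨_, rfl⟩
  obtain ⟨p4, hp4⟩ : ∃ p, p = x₀ 3 := ⟨_, rfl⟩
  have h12 : p1 ≠ p2 := by rw [hp1, hp2]; exact hx _ _ (by decide)
  have h13 : p1 ≠ p3 := by rw [hp1, hp3]; exact hx _ _ (by decide)
  have h14 : p1 ≠ p4 := by rw [hp1, hp4]; exact hx _ _ (by decide)
  have h23 : p2 ≠ p3 := by rw [hp2, hp3]; exact hx _ _ (by decide)
  have h24 : p2 ≠ p4 := by rw [hp2, hp4]; exact hx _ _ (by decide)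
  have h34 : p3 ≠ p4 := by rw [hp3, hp4]; exact hx _ _ (by decide)
  obtain ⟨t, ht1, ht2, ht3, ht4⟩ := h4t p1 p2 p3 p4 p1 p2 p4 p3 h12 h13 h14 h23 h24 h34
    h12 h14 h13 h24 h23 (Ne.symm h34)
  have htt : t * t = 1 := by
    apply hsh _ p1 p2 p3 p4 h12 h13 h14 h23 h24 h34
    · rw [mul_smul, ht1, ht1]
    · rw [mul_smul, ht2, ht2]
    · rw [mul_smul, ht3, ht4]
    · rw [mul_smul, ht4, ht3]
  have htt' : ∀ y : Ω, t • t • y = y := fun y => by rw [← mul_smul, htt, one_smul]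
  have ht_ne : t ≠ 1 := by
    intro h
    rw [h, one_smul] at ht3
    exact h34 ht3
  have hF : Finite {y : Ω // t • y = y} ∧ Nat.card {y : Ω // t • y = y} ≤ 3 := by
    apply finite_of_no_emb 3
    refine ⟨fun e => ht_ne ?_⟩
    have hne' : ∀ i j : Fin 4, i ≠ j → (e i).1 ≠ (e j).1 :=
      fun i j hij h => hij (e.injective (Subtype.ext h))
    exact hsh t (e 0).1 (e 1).1 (e 2).1 (e 3).1 (hne' _ _ (by decide)) (hne' _ _ (by decide))
      (hne' _ _ (by decide)) (hne' _ _ (by decide)) (hne' _ _ (by decide)) (hne' _ _ (by decide))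
      (e 0).2 (e 1).2 (e 2).2 (e 3).2
  obtain ⟨hFfin, hFcard⟩ := hF
  have hperm : ∀ g : G, g * t = t * g →
      ∃ π : Equiv.Perm {y : Ω // t • y = y}, ∀ z, (π z).1 = g • z.1 := by
    intro g hg
    have hg' : g⁻¹ * t = t * g⁻¹ := by
      have h1 : g⁻¹ * (g * t) * g⁻¹ = g⁻¹ * (t * g) * g⁻¹ := by rw [hg]
      rw [inv_mul_cancel_left, mul_assoc, mul_assoc, mul_inv_cancel, mul_one] at h1
      exact h1.symm
    refine ⟨⟨fun z => ⟨g • z.1, by rw [← mul_smul, ← hg, mul_smul, z.2]⟩,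
      fun z => ⟨g⁻¹ • z.1, by rw [← mul_smul, ← hg', mul_smul, z.2]⟩,
      fun z => Subtype.ext (inv_smul_smul g z.1), fun z => Subtype.ext (smul_inv_smul g z.1)⟩,
      fun z => rfl⟩
  have hPm : ∃ Pm : Ω → Equiv.Perm {y : Ω // t • y = y}, ∀ y y' : Ω, t • y ≠ y → y ≠ p3 → y ≠ p4 →
      t • y' ≠ y' → y' ≠ p3 → y' ≠ p4 → Pm y = Pm y' → y = y' := by
    by_cases hR : ∃ d₀ : Ω, t • d₀ ≠ d₀ ∧ d₀ ≠ p3 ∧ d₀ ≠ p4
    · obtain ⟨d₀, hd0, hd3, hd4⟩ := hR
      have hmove : ∀ y : Ω, t • y ≠ y → y ≠ p3 → y ≠ p4 → t • y ≠ p3 ∧ t • y ≠ p4 := by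
        intro y h1 h2 h3
        constructor
        · intro h
          apply h3
          rw [← htt' y, h, ht3]
        · intro h
          apply h2
          rw [← htt' y, h, ht4]
      obtain ⟨hd5, hd6⟩ := hmove d₀ hd0 hd3 hd4
      have hγ : ∀ y : Ω, ∃ g : G, (t • y ≠ y → y ≠ p3 → y ≠ p4 →
          g • p3 = p3 ∧ g • p4 = p4 ∧ g • d₀ = y ∧ g • (t • d₀) = t • y) := by
        intro y
        by_cases hy : t • y ≠ y ∧ y ≠ p3 ∧ y ≠ p4
        · obtain ⟨hy5, hy6⟩ := hmove y hy.1 hy.2.1 hy.2.2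
          obtain ⟨g, e1, e2, e3, e4⟩ := h4t p3 p4 d₀ (t • d₀) p3 p4 y (t • y) h34 (Ne.symm hd3)
            (Ne.symm hd5) (Ne.symm hd4) (Ne.symm hd6) (Ne.symm hd0) h34 (Ne.symm hy.2.1)
            (Ne.symm hy5) (Ne.symm hy.2.2) (Ne.symm hy6) (Ne.symm hy.1)
          exact ⟨g, fun _ _ _ => ⟨e1, e2, e3, e4⟩⟩
        · exact ⟨1, fun h1 h2 h3 => absurd ⟨h1, h2, h3⟩ hy⟩
      choose γ hγ' using hγ
      have hcomm : ∀ y, t • y ≠ y → y ≠ p3 → y ≠ p4 → γ y * t = t * γ y := by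
        intro y h1 h2 h3
        obtain ⟨e1, e2, e3, e4⟩ := hγ' y h1 h2 h3
        apply heq _ _ p3 p4 d₀ (t • d₀) h34 (Ne.symm hd3) (Ne.symm hd5) (Ne.symm hd4)
          (Ne.symm hd6) (Ne.symm hd0)
        · rw [mul_smul, mul_smul, ht3, e2, e1, ht3]
        · rw [mul_smul, mul_smul, ht4, e1, e2, ht4]
        · rw [mul_smul, mul_smul, e4, e3]
        · rw [mul_smul, mul_smul, htt', e3, e4, htt']
      have hPm' : ∀ y : Ω, ∃ π : Equiv.Perm {y : Ω // t • y = y},
          (t • y ≠ y → y ≠ p3 → y ≠ p4 → ∀ z, (π z).1 = γ y • z.1) := by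
        intro y
        by_cases hy : t • y ≠ y ∧ y ≠ p3 ∧ y ≠ p4
        · obtain ⟨π, hπ⟩ := hperm (γ y) (hcomm y hy.1 hy.2.1 hy.2.2)
          exact ⟨π, fun _ _ _ => hπ⟩
        · exact ⟨1, fun h1 h2 h3 => absurd ⟨h1, h2, h3⟩ hy⟩
      choose Pm hPm'' using hPm'
      refine ⟨Pm, ?_⟩
      intro y y' h1 h2 h3 h1' h2' h3' hyy'
      obtain ⟨e1, e2, e3, e4⟩ := hγ' y h1 h2 h3
      obtain ⟨e1', e2', e3', e4'⟩ := hγ' y' h1' h2' h3'
      have hag : ∀ z : {y : Ω // t • y = y}, γ y • z.1 = γ y' • z.1 := by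
        intro z
        rw [← hPm'' y h1 h2 h3 z, ← hPm'' y' h1' h2' h3' z, hyy']
      have hg : γ y = γ y' := by
        apply heq _ _ p1 p2 p3 p4 h12 h13 h14 h23 h24 h34
        · exact hag ⟨p1, ht1⟩
        · exact hag ⟨p2, ht2⟩
        · rw [e1, e1']
        · rw [e2, e2']
      rw [← e3, ← e3', hg]
    · push Not at hR
      exact ⟨fun _ => 1, fun y y' h1 h2 h3 _ _ _ _ => absurd (hR y h1 h2) h3⟩
  obtain ⟨Pm, hPminj⟩ := hPm
  obtain ⟨J, hJdef⟩ : ∃ J : Ω → {y : Ω // t • y = y} ⊕ (Fin 2 ⊕ Equiv.Perm {y : Ω // t • y = y}),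
      J = fun y => if h : t • y = y then Sum.inl ⟨y, h⟩ else if y = p3 then Sum.inr (Sum.inl 0)
        else if y = p4 then Sum.inr (Sum.inl 1) else Sum.inr (Sum.inr (Pm y)) := ⟨_, rfl⟩
  have hJ1 : ∀ y (h : t • y = y), J y = Sum.inl ⟨y, h⟩ := by
    intro y h
    rw [hJdef]
    simp only [dif_pos h]
  have hJ2 : ∀ y, t • y ≠ y → y = p3 → J y = Sum.inr (Sum.inl 0) := by
    intro y h h'
    rw [hJdef]
    simp only [dif_neg h, if_pos h']
  have hJ3 : ∀ y, t • y ≠ y → y ≠ p3 → y = p4 → J y = Sum.inr (Sum.inl 1) := by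
    intro y h h' h''
    rw [hJdef]
    simp only [dif_neg h, if_neg h', if_pos h'']
  have hJ4 : ∀ y, t • y ≠ y → y ≠ p3 → y ≠ p4 → J y = Sum.inr (Sum.inr (Pm y)) := by
    intro y h h' h''
    rw [hJdef]
    simp only [dif_neg h, if_neg h', if_neg h'']
  have hJ : Function.Injective J := by
    intro y y' hyy'
    by_cases a1 : t • y = y <;> by_cases b1 : t • y' = y'
    · rw [hJ1 y a1, hJ1 y' b1] at hyy'
      exact congrArg Subtype.val (Sum.inl.inj hyy')
    · exfalso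
      rw [hJ1 y a1] at hyy'
      by_cases b2 : y' = p3
      · rw [hJ2 y' b1 b2] at hyy'
        exact Sum.inl_ne_inr hyy'
      · by_cases b3 : y' = p4
        · rw [hJ3 y' b1 b2 b3] at hyy'
          exact Sum.inl_ne_inr hyy'
        · rw [hJ4 y' b1 b2 b3] at hyy'
          exact Sum.inl_ne_inr hyy'
    · exfalso
      rw [hJ1 y' b1] at hyy'
      by_cases a2 : y = p3
      · rw [hJ2 y a1 a2] at hyy'
        exact Sum.inr_ne_inl hyy'
      · by_cases a3 : y = p4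
        · rw [hJ3 y a1 a2 a3] at hyy'
          exact Sum.inr_ne_inl hyy'
        · rw [hJ4 y a1 a2 a3] at hyy'
          exact Sum.inr_ne_inl hyy'
    · by_cases a2 : y = p3
      · rw [hJ2 y a1 a2] at hyy'
        by_cases b2 : y' = p3
        · rw [a2, b2]
        · exfalso
          by_cases b3 : y' = p4
          · rw [hJ3 y' b1 b2 b3] at hyy'
            have := Sum.inl.inj (Sum.inr.inj hyy')
            exact absurd this (by decide)
          · rw [hJ4 y' b1 b2 b3] at hyy'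
            exact Sum.inl_ne_inr (Sum.inr.inj hyy')
      · by_cases a3 : y = p4
        · rw [hJ3 y a1 a2 a3] at hyy'
          by_cases b2 : y' = p3
          · exfalso
            rw [hJ2 y' b1 b2] at hyy'
            have := Sum.inl.inj (Sum.inr.inj hyy')
            exact absurd this (by decide)
          · by_cases b3 : y' = p4
            · rw [a3, b3]
            · exfalso
              rw [hJ4 y' b1 b2 b3] at hyy'
              exact Sum.inl_ne_inr (Sum.inr.inj hyy')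
        · rw [hJ4 y a1 a2 a3] at hyy'
          by_cases b2 : y' = p3
          · exfalso
            rw [hJ2 y' b1 b2] at hyy'
            exact Sum.inr_ne_inl (Sum.inr.inj hyy')
          · by_cases b3 : y' = p4
            · exfalso
              rw [hJ3 y' b1 b2 b3] at hyy'
              exact Sum.inr_ne_inl (Sum.inr.inj hyy')
            · rw [hJ4 y' b1 b2 b3] at hyy'
              exact hPminj y y' a1 a2 a3 b1 b2 b3 (Sum.inr.inj (Sum.inr.inj hyy'))
  have hΩfin : Finite Ω := Finite.of_injective J hJ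
  have hcard : Nat.card Ω ≤ Nat.card {y : Ω // t • y = y}
      + (2 + (Nat.card {y : Ω // t • y = y}).factorial) := by
    have h1 := Nat.card_le_card_of_injective J hJ
    rw [Nat.card_sum, Nat.card_sum, Nat.card_perm, Nat.card_eq_fintype_card (α := Fin 2),
      Fintype.card_fin] at h1
    exact h1
  refine ⟨hΩfin, ?_, ?_⟩
  · have h1 : (Nat.card {y : Ω // t • y = y}).factorial ≤ (3 : ℕ).factorial :=
      Nat.factorial_le hFcard
    have h2 : (3 : ℕ).factorial = 6 := rfl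
    omega
  · intro hev
    haveI := Fintype.ofFinite Ω
    have hσ : (MulAction.toEndHom (M := G) (α := Ω) t) ^ 2 ^ 1 = 1 := by
      rw [← map_pow, pow_one, sq, htt, map_one]
    have hmod := Equiv.Perm.card_fixedPoints_modEq (p := 2) (n := 1) hσ
    have hFeq : Nat.card (Function.fixedPoints (MulAction.toEndHom (M := G) (α := Ω) t))
        = Nat.card {y : Ω // t • y = y} :=
      Nat.card_congr (Equiv.subtypeEquivRight (fun y => Iff.rfl))
    rw [← Nat.card_eq_fintype_card, ← Nat.card_eq_fintype_card, hFeq] at hmod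
    have hFev : Even (Nat.card {y : Ω // t • y = y}) := by
      rw [Nat.even_iff] at hev ⊢
      rw [← hmod, hev]
    have hF2 : Nat.card {y : Ω // t • y = y} = 0 ∨ Nat.card {y : Ω // t • y = y} = 2 := by
      obtain ⟨k, hk⟩ := hFev
      omega
    rcases hF2 with h | h
    · rw [h] at hcard
      have h2 : (0 : ℕ).factorial = 1 := rfl
      omega
    · rw [h] at hcard
      have h2 : (2 : ℕ).factorial = 2 := rfl
      omega

end Cfsg.Agent.S0708
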