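import Cfsg.Statements.S4216
-- import your own Cfsg.Agent.* helpers here

set_option autoImplicit false
open Cfsg

namespace Cfsg.Agent.S4216

section S4216aux

open scoped commutatorElement

theorem cntP {Q X : Type*} [Group Q] [MulAction Q X] [Fintype X] {p : ℕ} [Fact p.Prime]
    (hQ : IsPGroup p Q) (T F : Finset X) (hT : ∀ (g : Q), ∀ x ∈ T, g • x ∈ T)
    (hF : ∀ x, x ∈ F ↔ x ∈ T ∧ ∀ g : Q, g • x = x) : T.card ≡ F.card [MOD p] := by
  classical
  let _ : MulAction Q {x // x ∈ T} :=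
    { smul := fun g x => ⟨g • x.1, hT g x.1 x.2⟩
      one_smul := fun x => Subtype.ext (one_smul Q x.1)
      mul_smul := fun g h x => Subtype.ext (mul_smul g h x.1) }
  have h1 := hQ.card_modEq_card_fixedPoints {x // x ∈ T}
  have h2 : Nat.card {x // x ∈ T} = T.card := by
    rw [Nat.card_eq_fintype_card, Fintype.card_coe]
  have h3 : Nat.card (MulAction.fixedPoints Q {x // x ∈ T}) = F.card := by
    rw [← Fintype.card_coe F, ← Nat.card_eq_fintype_card]
    apply Nat.card_congr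
    exact
      { toFun := fun a => ⟨a.1.1, (hF _).mpr ⟨a.1.2, fun g => congrArg Subtype.val (a.2 g)⟩⟩
        invFun := fun x => ⟨⟨x.1, ((hF _).mp x.2).1⟩, fun g => Subtype.ext (((hF _).mp x.2).2 g)⟩
        left_inv := fun a => rfl
        right_inv := fun x => rfl }
  rw [h2, h3] at h1
  exact h1

/-- evaluation of the transfer into an abelian group on an element of a Sylow subgroup -/
theorem transfer_eval {G : Type*} [Group G] [Finite G] {p : ℕ} [Fact p.Prime] (Pg : Subgroup G)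
    (hPp : IsPGroup p ↥Pg) (hidx : ¬ p ∣ Pg.index)
    {A : Type*} [CommGroup A] (ϕ : ↥Pg →* A) (u : G) (hu : u ∈ Pg)
    (h1 : ∀ (k : G) (n : ℕ) (h : k⁻¹ * u ^ n * k ∈ Pg), n ∣ orderOf u → n ≠ 1 →
      ϕ ⟨_, h⟩ = 1)
    (h2 : ∀ (k y : G) (h : k⁻¹ * u * k ∈ Pg)
      (h' : (y * k)⁻¹ * u * (y * k) ∈ Pg), y ∈ Pg →
      ϕ ⟨_, h'⟩ = ϕ ⟨_, h⟩)
    (h3 : ∀ (k : G) (h : k⁻¹ * u * k ∈ Pg),
      k ∈ Subgroup.normalizer (Pg : Set G) → ϕ ⟨_, h⟩ = ϕ ⟨u, hu⟩)
    (h4 : ∀ (k : G) (h : k⁻¹ * u * k ∈ Pg),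
      k ∉ Subgroup.normalizer (Pg : Set G) → ϕ ⟨_, h⟩ ^ p = 1) :
    ∃ t : ℕ, ¬ p ∣ t ∧ MonoidHom.transfer ϕ u = ϕ ⟨u, hu⟩ ^ t := by
  classical
  have : Fintype (G ⧸ Pg) := Fintype.ofFinite _
  have : Fintype (Quotient (MulAction.orbitRel (Subgroup.zpowers u) (G ⧸ Pg))) := Fintype.ofFinite _
  have : Fintype (Quotient (MulAction.orbitRel ↥Pg (G ⧸ Pg))) := Fintype.ofFinite _
  -- fixed point criterion
  have hfixk : ∀ k : G, u • ((k : G) : G ⧸ Pg) = ((k : G) : G ⧸ Pg) ↔ k⁻¹ * u * k ∈ Pg := by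
    intro k
    rw [MulAction.Quotient.smul_mk, QuotientGroup.eq]
    have e : (u • k)⁻¹ * k = (k⁻¹ * u * k)⁻¹ := by
      rw [smul_eq_mul]; group
    rw [e, inv_mem_iff]
  have hfix : ∀ c : G ⧸ Pg, u • c = c ↔ c.out⁻¹ * u * c.out ∈ Pg := by
    intro c
    have := hfixk c.out
    rwa [QuotientGroup.out_eq'] at this
  have hzp : ∀ (c : G ⧸ Pg), u • c = c → ∀ y ∈ Subgroup.zpowers u, y • c = c := by
    intro c hc y hy
    have : Subgroup.zpowers u ≤ MulAction.stabilizer G c :=
      Subgroup.zpowers_le.mpr (MulAction.mem_stabilizer_iff.mpr hc)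
    exact MulAction.mem_stabilizer_iff.mp (this hy)
  let ψ : G → A := fun k => if h : k⁻¹ * u * k ∈ Pg then ϕ ⟨_, h⟩ else 1
  let g : G ⧸ Pg → A := fun c => if u • c = c then ψ c.out else 1
  have hψ1 : ∀ (k z : G), z ∈ Pg → ψ (k * z) = ψ k := by
    intro k z hz'
    by_cases h : k⁻¹ * u * k ∈ Pg
    · have h' : (k * z)⁻¹ * u * (k * z) ∈ Pg := by
        have : (k * z)⁻¹ * u * (k * z) = z⁻¹ * (k⁻¹ * u * k) * z := by group
        rw [this]; exact Pg.mul_mem (Pg.mul_mem (Pg.inv_mem hz') h) hz'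
      simp only [ψ, dif_pos h, dif_pos h']
      have : (⟨(k * z)⁻¹ * u * (k * z), h'⟩ : ↥Pg)
          = (⟨z, hz'⟩ : ↥Pg)⁻¹ * ⟨k⁻¹ * u * k, h⟩ * ⟨z, hz'⟩ := by
        apply Subtype.ext
        show (k * z)⁻¹ * u * (k * z) = z⁻¹ * (k⁻¹ * u * k) * z
        group
      rw [this, map_mul, map_mul, map_inv, mul_comm _ (ϕ ⟨k⁻¹ * u * k, h⟩), mul_assoc,
        inv_mul_cancel, mul_one]
    · have h' : ¬ (k * z)⁻¹ * u * (k * z) ∈ Pg := by
        intro h'
        apply h
        have : k⁻¹ * u * k = z * ((k * z)⁻¹ * u * (k * z)) * z⁻¹ := by group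
        rw [this]; exact Pg.mul_mem (Pg.mul_mem hz' h') (Pg.inv_mem hz')
      simp only [ψ, dif_neg h, dif_neg h']
  -- step 1
  have hT1 : MonoidHom.transfer ϕ u
      = ∏ q : Quotient (MulAction.orbitRel (Subgroup.zpowers u) (G ⧸ Pg)), g q.out := by
    rw [MonoidHom.transfer_eq_prod_quotient_orbitRel_zpowers_quot]
    apply Finset.prod_congr rfl
    intro q _
    by_cases hq : Function.minimalPeriod (u • ·) q.out = 1
    · have hfx : u • q.out = q.out := Function.minimalPeriod_eq_one_iff_isFixedPt.mp hq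
      have hm := (hfix q.out).mp hfx
      simp only [g, if_pos hfx, ψ, dif_pos hm]
      congr 1
      apply Subtype.ext
      show q.out.out⁻¹ * u ^ Function.minimalPeriod (u • ·) q.out * q.out.out = _
      rw [hq, pow_one]
    · have hfx : ¬ u • q.out = q.out :=
        fun h => hq (Function.minimalPeriod_eq_one_iff_isFixedPt.mpr h)
      simp only [g, if_neg hfx]
      apply h1 _ _ _ _ hq
      rw [← MulAction.pow_smul_eq_iff_minimalPeriod_dvd, pow_orderOf_eq_one, one_smul]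
  -- step 2
  have hT2 : ∏ q : Quotient (MulAction.orbitRel (Subgroup.zpowers u) (G ⧸ Pg)), g q.out
      = ∏ c : G ⧸ Pg, g c := by
    rw [← Finset.prod_fiberwise Finset.univ (fun c : G ⧸ Pg =>
      (Quotient.mk'' c : Quotient (MulAction.orbitRel (Subgroup.zpowers u) (G ⧸ Pg)))) g]
    apply Finset.prod_congr rfl
    intro q _
    have horb : ∀ c : G ⧸ Pg, (Quotient.mk'' c : Quotient (MulAction.orbitRel (Subgroup.zpowers u)
        (G ⧸ Pg))) = q → ∃ y ∈ Subgroup.zpowers u, y • q.out = c := by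
      intro c hc
      have h : (Quotient.mk'' c : Quotient (MulAction.orbitRel (Subgroup.zpowers u)
        (G ⧸ Pg))) = Quotient.mk'' q.out := by rw [hc, Quotient.out_eq']
      have h' := Quotient.exact' h
      obtain ⟨⟨y, hy⟩, hyc⟩ := h'
      exact ⟨y, hy, hyc⟩
    by_cases hfx : u • q.out = q.out
    · rw [Finset.prod_eq_single q.out]
      · intro c hc hne
        exfalso; apply hne
        rw [Finset.mem_filter] at hc
        obtain ⟨y, hy, hyc⟩ := horb c hc.2
        rw [← hyc, hzp _ hfx y hy]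
      · intro h; exfalso; apply h
        simp [Quotient.out_eq']
    · have hg : g q.out = 1 := by simp only [g, if_neg hfx]
      rw [hg]
      symm
      apply Finset.prod_eq_one
      intro c hc
      rw [Finset.mem_filter] at hc
      have : ¬ u • c = c := by
        intro hcf
        obtain ⟨y, hy, hyc⟩ := horb c hc.2
        apply hfx
        have h5 : y⁻¹ • c = q.out := by rw [← hyc, inv_smul_smul]
        have h6 : y⁻¹ • c = c := hzp _ hcf _ (Subgroup.inv_mem _ hy)
        rw [← h5, h6]; exact hcf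
      simp only [g, if_neg this]
  -- step 3
  let r : G ⧸ Pg → Quotient (MulAction.orbitRel ↥Pg (G ⧸ Pg)) := fun c => Quotient.mk'' c
  let fib : Quotient (MulAction.orbitRel ↥Pg (G ⧸ Pg)) → Finset (G ⧸ Pg) :=
    fun ω => Finset.univ.filter (fun c => r c = ω)
  have hfib_inv : ∀ ω (y : ↥Pg), ∀ c ∈ fib ω, y • c ∈ fib ω := by
    intro ω y c hc
    simp only [fib, Finset.mem_filter, Finset.mem_univ, true_and] at hc ⊢
    rw [← hc]
    exact Quotient.sound' (MulAction.mem_orbit c y)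
  have hfib_orb : ∀ ω, ∀ c ∈ fib ω, ∀ c' ∈ fib ω, ∃ y : ↥Pg, y • c = c' := by
    intro ω c hc c' hc'
    simp only [fib, Finset.mem_filter, Finset.mem_univ, true_and] at hc hc'
    have : r c' = r c := by rw [hc, hc']
    exact Quotient.exact' this
  have hnofix : ∀ ω, (fib ω).card ≠ 1 → ∀ c ∈ fib ω, ¬ ∀ y : ↥Pg, y • c = c := by
    intro ω hcard c hc hfixc
    apply hcard
    rw [Finset.card_eq_one]
    refine ⟨c, Finset.eq_singleton_iff_unique_mem.mpr ⟨hc, ?_⟩⟩
    intro c' hc'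
    obtain ⟨y, hy⟩ := hfib_orb ω c hc c' hc'
    rw [← hy, hfixc y]
  have hpfib : ∀ ω, (fib ω).card ≠ 1 → p ∣ (fib ω).card := by
    intro ω hcard
    have := cntP (Q := ↥Pg) hPp (fib ω) ∅ (hfib_inv ω) (by
      intro x
      simp only [Finset.notMem_empty, false_iff, not_and]
      exact fun hx => hnofix ω hcard x hx)
    rw [Finset.card_empty] at this
    exact (Nat.modEq_zero_iff_dvd).mp this
  have hnormfix : ∀ c : G ⧸ Pg, c.out ∈ Subgroup.normalizer (Pg : Set G) ↔ ∀ y : ↥Pg, y • c = c := by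
    intro c
    rw [← Sylow.mem_fixedPoints_mul_left_cosets_iff_mem_normalizer, QuotientGroup.out_eq']
    rfl
  have hω : ∀ ω, ∏ c ∈ fib ω, g c = if (fib ω).card = 1 then ϕ ⟨u, hu⟩ else 1 := by
    intro ω
    by_cases hcard : (fib ω).card = 1
    · rw [if_pos hcard]
      obtain ⟨c₁, hc₁⟩ := Finset.card_eq_one.mp hcard
      rw [hc₁, Finset.prod_singleton]
      have hmem : c₁ ∈ fib ω := by rw [hc₁]; exact Finset.mem_singleton_self _
      have hPfix : ∀ y : ↥Pg, y • c₁ = c₁ := by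
        intro y
        have := hfib_inv ω y c₁ hmem
        rw [hc₁] at this
        exact Finset.mem_singleton.mp this
      have hnorm : c₁.out ∈ Subgroup.normalizer (Pg : Set G) := (hnormfix c₁).mpr hPfix
      have hfx : u • c₁ = c₁ := hPfix ⟨u, hu⟩
      have hm := (hfix c₁).mp hfx
      simp only [g, if_pos hfx, ψ, dif_pos hm]
      exact h3 _ hm hnorm
    · rw [if_neg hcard]
      set S := (fib ω).filter (fun c => u • c = c) with hS
      have hpS : p ∣ S.card := by
        have hzpg : IsPGroup p ↥(Subgroup.zpowers (⟨u, hu⟩ : ↥Pg)) := hPp.to_subgroup _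
        have := cntP hzpg (fib ω) S (fun y c hc => hfib_inv ω (y : ↥Pg) c hc) (by
          intro x
          simp only [hS, Finset.mem_filter]
          constructor
          · rintro ⟨hx, hux⟩
            refine ⟨hx, ?_⟩
            rintro ⟨y, hy⟩
            have hy' : (y : G) ∈ Subgroup.zpowers u := by
              obtain ⟨i, hi⟩ := Subgroup.mem_zpowers_iff.mp hy
              rw [← hi]
              simp
            exact hzp x hux _ hy'
          · rintro ⟨hx, hall⟩
            exact ⟨hx, hall ⟨⟨u, hu⟩, Subgroup.mem_zpowers _⟩⟩)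
        exact (Nat.modEq_zero_iff_dvd.mp (this.symm.trans
          (Nat.modEq_zero_iff_dvd.mpr (hpfib ω hcard))))
      show ∏ c ∈ fib ω, (if u • c = c then ψ c.out else 1) = 1
      rw [← Finset.prod_filter]
      rcases S.eq_empty_or_nonempty with hSe | ⟨c₀, hc₀⟩
      · rw [← hS, hSe, Finset.prod_empty]
      · have hc₀' := Finset.mem_filter.mp hc₀
        have hm₀ := (hfix c₀).mp hc₀'.2
        have hconst : ∀ c ∈ S, ψ c.out = ψ c₀.out := by
          intro c hc
          have hc' := Finset.mem_filter.mp hc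
          obtain ⟨y, hy⟩ := hfib_orb ω c₀ hc₀'.1 c hc'.1
          have hyc : ((((y : G) * c₀.out : G)) : G ⧸ Pg) = c := by
            rw [← hy]
            conv_rhs => rw [← QuotientGroup.out_eq' c₀]
            rfl
          have hz : ((y : G) * c₀.out)⁻¹ * c.out ∈ Pg := by
            rw [← QuotientGroup.eq, QuotientGroup.out_eq', hyc]
          have hcout : c.out = (y : G) * c₀.out * (((y : G) * c₀.out)⁻¹ * c.out) := by group
          have hm' : ((y : G) * c₀.out)⁻¹ * u * ((y : G) * c₀.out) ∈ Pg := by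
            rw [← hfixk, hyc]; exact hc'.2
          rw [hcout, hψ1 _ _ hz]
          simp only [ψ, dif_pos hm', dif_pos hm₀]
          exact h2 _ _ hm₀ hm' y.2
        rw [← hS, Finset.prod_congr rfl hconst, Finset.prod_const]
        obtain ⟨m, hm⟩ := hpS
        have hnn : c₀.out ∉ Subgroup.normalizer (Pg : Set G) := by
          intro hn
          exact hnofix ω hcard c₀ hc₀'.1 ((hnormfix c₀).mp hn)
        rw [hm, pow_mul]
        simp only [ψ, dif_pos hm₀]
        rw [h4 _ hm₀ hnn, one_pow]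
  have hT3 : ∏ c : G ⧸ Pg, g c
      = ϕ ⟨u, hu⟩ ^ (Finset.univ.filter (fun ω => (fib ω).card = 1)).card := by
    rw [← Finset.prod_fiberwise Finset.univ r g]
    rw [Finset.prod_congr rfl (fun ω _ => hω ω)]
    rw [Finset.prod_ite, Finset.prod_const, Finset.prod_const_one, mul_one]
  refine ⟨(Finset.univ.filter (fun ω => (fib ω).card = 1)).card, ?_, by rw [hT1, hT2, hT3]⟩
  intro hdvd
  have h5 : Fintype.card (G ⧸ Pg) = ∑ ω, (fib ω).card := by
    rw [← Finset.card_univ]
    exact Finset.card_eq_sum_card_fiberwise (fun c _ => Finset.mem_univ (r c))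
  have h6 : ∑ ω, (fib ω).card
      = ∑ ω ∈ Finset.univ.filter (fun ω => (fib ω).card = 1), (fib ω).card
        + ∑ ω ∈ Finset.univ.filter (fun ω => ¬ (fib ω).card = 1), (fib ω).card :=
    (Finset.sum_filter_add_sum_filter_not _ _ _).symm
  have h7 : ∑ ω ∈ Finset.univ.filter (fun ω => (fib ω).card = 1), (fib ω).card
      = (Finset.univ.filter (fun ω => (fib ω).card = 1)).card := by
    rw [Finset.sum_congr rfl (fun ω hω => (Finset.mem_filter.mp hω).2), Finset.sum_const,
      smul_eq_mul, mul_one]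
  have h8 : p ∣ ∑ ω ∈ Finset.univ.filter (fun ω => ¬ (fib ω).card = 1), (fib ω).card :=
    Finset.dvd_sum (fun ω hω => hpfib ω (Finset.mem_filter.mp hω).2)
  have h9 : p ∣ Fintype.card (G ⧸ Pg) := by
    rw [h5, h6, h7]; exact Nat.dvd_add hdvd h8
  have h10 : Pg.index = Fintype.card (G ⧸ Pg) := by
    rw [Subgroup.index_eq_card, Nat.card_eq_fintype_card]
  exact hidx (h10 ▸ h9)

open scoped IsMulCommutative in
theorem grun_key {G : Type*} [Group G] [Finite G] {p : ℕ} [Fact p.Prime] (P : Sylow p G)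
    (D : Subgroup G)
    (hcomm : ⁅(P : Subgroup G), (P : Subgroup G)⁆ ≤ D)
    (hN : ∀ x ∈ Subgroup.normalizer ((P : Subgroup G) : Set G), ∀ u ∈ (P : Subgroup G),
      x⁻¹ * u * x * u⁻¹ ∈ D)
    (hz : ∀ (k w : G), w ∈ ⁅(P : Subgroup G), (P : Subgroup G)⁆ →
      k⁻¹ * w * k ∈ (P : Subgroup G) → k⁻¹ * w * k ∈ D)
    (u : G) (hu : u ∈ (P : Subgroup G)) (huc : u ∈ commutator G)
    (IH : ∀ v, v ∈ (P : Subgroup G) → v ∈ commutator G → orderOf v < orderOf u → v ∈ D) :
    u ∈ D := by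
  classical
  by_cases hu1 : u = 1
  · rw [hu1]; exact D.one_mem
  have hp : p.Prime := Fact.out
  have hc' : commutator ↥(P : Subgroup G) ≤ D.subgroupOf (P : Subgroup G) := by
    rw [Subgroup.subgroupOf, ← Subgroup.map_le_iff_le_comap, Subgroup.map_subtype_commutator]
    exact hcomm
  have hD'n : (D.subgroupOf (P : Subgroup G)).Normal := by
    constructor
    intro d hd g
    have : g * d * g⁻¹ = ⁅g, d⁆ * d := by simp [commutatorElement_def]
    rw [this]
    exact mul_mem (hc' (Subgroup.commutator_mem_commutator (Subgroup.mem_top g)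
      (Subgroup.mem_top d))) hd
  have hcq : IsMulCommutative (↥(P : Subgroup G) ⧸ D.subgroupOf (P : Subgroup G)) :=
    Subgroup.Normal.quotient_commutative_iff_commutator_le.mpr hc'
  let ϕ : ↥(P : Subgroup G) →* ↥(P : Subgroup G) ⧸ D.subgroupOf (P : Subgroup G) :=
    QuotientGroup.mk' (D.subgroupOf (P : Subgroup G))
  have hϕ1 : ∀ (w : G) (hw : w ∈ (P : Subgroup G)), w ∈ D → ϕ ⟨w, hw⟩ = 1 := by
    intro w hw hwD
    exact (QuotientGroup.eq_one_iff _).mpr (Subgroup.mem_subgroupOf.mpr hwD)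
  have hϕ1' : ∀ (w : G) (hw : w ∈ (P : Subgroup G)), ϕ ⟨w, hw⟩ = 1 → w ∈ D := by
    intro w hw h
    exact Subgroup.mem_subgroupOf.mp ((QuotientGroup.eq_one_iff _).mp h)
  have hcn : (commutator G).Normal := inferInstance
  -- order of u
  obtain ⟨j, hj⟩ : ∃ j, orderOf u = p ^ j := by
    obtain ⟨k, hk⟩ := P.2 ⟨u, hu⟩
    have hk' : u ^ p ^ k = 1 := by
      have := congrArg Subtype.val hk
      simpa using this
    obtain ⟨j, -, hj⟩ := (Nat.dvd_prime_pow hp).mp (orderOf_dvd_of_pow_eq_one hk')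
    exact ⟨j, hj⟩
  have hj0 : j ≠ 0 := by
    rintro rfl
    rw [pow_zero] at hj
    exact hu1 (orderOf_eq_one_iff.mp hj)
  have hpu : p ∣ orderOf u := by rw [hj]; exact dvd_pow_self p hj0
  have hconj_ord : ∀ (k w : G), orderOf (k⁻¹ * w * k) = orderOf w := by
    intro k w
    have : SemiconjBy k⁻¹ w (k⁻¹ * w * k) := by
      show k⁻¹ * w = k⁻¹ * w * k * k⁻¹
      group
    exact (this.orderOf_eq k⁻¹).symm
  have hpow_lt : ∀ n : ℕ, n ∣ orderOf u → n ≠ 1 → orderOf (u ^ n) < orderOf u := by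
    intro n hn hn1
    have hpos : 0 < orderOf u := orderOf_pos u
    have hn0 : n ≠ 0 := by
      rintro rfl
      rw [zero_dvd_iff] at hn
      omega
    rw [orderOf_pow' u hn0, Nat.gcd_eq_right hn]
    exact Nat.div_lt_self hpos (by omega)
  obtain ⟨t, hpt, hV⟩ := transfer_eval (P : Subgroup G) P.2 P.not_dvd_index ϕ u hu
    (by
      intro k n h hn hn1
      apply hϕ1
      apply IH _ h (hcn.conj_mem' _ (Subgroup.pow_mem _ huc n) k)
      rw [hconj_ord]
      exact hpow_lt n hn hn1)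
    (by
      intro k y h h' hy
      have he : k⁻¹ * ⁅u⁻¹, y⁻¹⁆ * k ∈ (P : Subgroup G) := by
        have : k⁻¹ * ⁅u⁻¹, y⁻¹⁆ * k = (k⁻¹ * u * k)⁻¹ * ((y * k)⁻¹ * u * (y * k)) := by
          rw [commutatorElement_def]; group
        rw [this]
        exact Subgroup.mul_mem _ (Subgroup.inv_mem _ h) h'
      have hsplit : (⟨(y * k)⁻¹ * u * (y * k), h'⟩ : ↥(P : Subgroup G))
          = ⟨k⁻¹ * u * k, h⟩ * ⟨k⁻¹ * ⁅u⁻¹, y⁻¹⁆ * k, he⟩ := by
        apply Subtype.ext
        show (y * k)⁻¹ * u * (y * k) = (k⁻¹ * u * k) * (k⁻¹ * ⁅u⁻¹, y⁻¹⁆ * k)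
        rw [commutatorElement_def]; group
      rw [hsplit, map_mul, hϕ1 _ he (hz k _ (Subgroup.commutator_mem_commutator
        (Subgroup.inv_mem _ hu) (Subgroup.inv_mem _ hy)) he), mul_one])
    (by
      intro k h hk
      have he : k⁻¹ * u * k * u⁻¹ ∈ (P : Subgroup G) :=
        Subgroup.mul_mem _ h (Subgroup.inv_mem _ hu)
      have hsplit : (⟨k⁻¹ * u * k, h⟩ : ↥(P : Subgroup G))
          = ⟨k⁻¹ * u * k * u⁻¹, he⟩ * ⟨u, hu⟩ := by
        apply Subtype.ext
        show k⁻¹ * u * k = k⁻¹ * u * k * u⁻¹ * u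
        group
      rw [hsplit, map_mul, hϕ1 _ he (hN k hk u hu), one_mul])
    (by
      intro k h _
      have he : (k⁻¹ * u * k) ^ p ∈ (P : Subgroup G) := Subgroup.pow_mem _ h p
      have h5 : (⟨k⁻¹ * u * k, h⟩ : ↥(P : Subgroup G)) ^ p = ⟨(k⁻¹ * u * k) ^ p, he⟩ := by
        apply Subtype.ext
        simp
      rw [← map_pow, h5]
      apply hϕ1
      apply IH _ he (Subgroup.pow_mem _ (hcn.conj_mem' _ huc k) p)
      have h6 : orderOf (k⁻¹ * u * k) = orderOf u := hconj_ord k u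
      rw [orderOf_pow' _ hp.ne_zero, h6, Nat.gcd_eq_right hpu]
      exact Nat.div_lt_self (orderOf_pos u) hp.one_lt)
  -- the transfer kills commutators
  have hV1 : MonoidHom.transfer ϕ u = 1 := by
    have := Abelianization.commutator_subset_ker (MonoidHom.transfer ϕ) huc
    exact MonoidHom.mem_ker.mp this
  rw [hV1] at hV
  have h7 : ϕ ⟨u, hu⟩ ^ p ^ j = 1 := by
    rw [← map_pow]
    have : (⟨u, hu⟩ : ↥(P : Subgroup G)) ^ p ^ j = 1 := by
      apply Subtype.ext
      show u ^ p ^ j = 1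
      rw [← hj, pow_orderOf_eq_one]
    rw [this, map_one]
  have h8 : orderOf (ϕ ⟨u, hu⟩) ∣ t := orderOf_dvd_of_pow_eq_one hV.symm
  have h9 : orderOf (ϕ ⟨u, hu⟩) ∣ p ^ j := orderOf_dvd_of_pow_eq_one h7
  have h10 : Nat.Coprime t (p ^ j) :=
    Nat.Coprime.pow_right j ((Nat.Prime.coprime_iff_not_dvd hp).mpr hpt).symm
  have h11 : orderOf (ϕ ⟨u, hu⟩) = 1 := Nat.eq_one_of_dvd_coprimes h10 h8 h9
  exact hϕ1' u hu (orderOf_eq_one_iff.mp h11)

end S4216aux

open scoped commutatorElement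

/-- Grün's first Theorem: if `P` is a Sylow `p`-subgroup of the finite group `G`, then `P ∩ G'` is the subgroup generated by `P ∩ N_G(P)'` together with the subgroups `P ∩ z P' z⁻¹` for all `z ∈ G`, where `'` denotes the derived subgroup and `N_G(P)` the normalizer of `P`. -/
theorem result {G : Type*} [Group G] [Finite G] {p : ℕ} [Fact p.Prime] (P : Sylow p G) : (P : Subgroup G) ⊓ commutator G = ((P : Subgroup G) ⊓ ⁅Subgroup.normalizer ((P : Subgroup G) : Set G), Subgroup.normalizer ((P : Subgroup G) : Set G)⁆) ⊔ ⨆ z : G, (P : Subgroup G) ⊓ (⁅(P : Subgroup G), (P : Subgroup G)⁆).map (MulAut.conj z).toMonoidHom := by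
  classical
  set N : Subgroup G := Subgroup.normalizer ((P : Subgroup G) : Set G) with hNdef
  set D : Subgroup G := ((P : Subgroup G) ⊓ ⁅N, N⁆) ⊔
    ⨆ z : G, (P : Subgroup G) ⊓ (⁅(P : Subgroup G), (P : Subgroup G)⁆).map (MulAut.conj z).toMonoidHom
    with hD
  have hcn : (commutator G).Normal := inferInstance
  have hPP : ⁅(P : Subgroup G), (P : Subgroup G)⁆ ≤ (P : Subgroup G) := by
    rw [Subgroup.commutator_le]
    intro a ha b hb
    rw [commutatorElement_def]
    exact Subgroup.mul_mem _ (Subgroup.mul_mem _ (Subgroup.mul_mem _ ha hb) (Subgroup.inv_mem _ ha))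
      (Subgroup.inv_mem _ hb)
  have hPPc : ⁅(P : Subgroup G), (P : Subgroup G)⁆ ≤ commutator G := by
    rw [commutator_def]
    exact Subgroup.commutator_mono le_top le_top
  have hzD : ∀ (k w : G), w ∈ ⁅(P : Subgroup G), (P : Subgroup G)⁆ →
      k⁻¹ * w * k ∈ (P : Subgroup G) → k⁻¹ * w * k ∈ D := by
    intro k w hw hk
    have h1 : k⁻¹ * w * k ∈ (P : Subgroup G) ⊓
        (⁅(P : Subgroup G), (P : Subgroup G)⁆).map (MulAut.conj k⁻¹).toMonoidHom := by
      refine ⟨hk, Subgroup.mem_map.mpr ⟨w, hw, ?_⟩⟩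
      simp [MulAut.conj_apply]
    exact (le_sup_right : _ ≤ D) ((le_iSup (fun z : G => (P : Subgroup G) ⊓
        (⁅(P : Subgroup G), (P : Subgroup G)⁆).map (MulAut.conj z).toMonoidHom) k⁻¹) h1)
  have hcomm : ⁅(P : Subgroup G), (P : Subgroup G)⁆ ≤ D := by
    intro w hw
    have := hzD 1 w hw (by simpa using hPP hw)
    simpa using this
  have hND : ∀ x ∈ N, ∀ u ∈ (P : Subgroup G), x⁻¹ * u * x * u⁻¹ ∈ D := by
    intro x hx u hu
    have hx' : x⁻¹ ∈ N := Subgroup.inv_mem _ hx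
    have h1 : x⁻¹ * u * x ∈ (P : Subgroup G) := by
      have := (Subgroup.mem_normalizer_iff.mp hx' u).mp hu
      simpa using this
    have h2 : x⁻¹ * u * x * u⁻¹ = ⁅x⁻¹, u⁆ := by rw [commutatorElement_def]; group
    refine (le_sup_left : _ ≤ D) ⟨Subgroup.mul_mem _ h1 (Subgroup.inv_mem _ hu), ?_⟩
    rw [h2]
    exact Subgroup.commutator_mem_commutator hx' (Subgroup.le_normalizer hu)
  have hmain : ∀ (n : ℕ) (u : G), orderOf u ≤ n → u ∈ (P : Subgroup G) → u ∈ commutator G →
      u ∈ D := by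
    intro n
    induction n with
    | zero =>
      intro u hn _ _
      have := orderOf_pos u
      omega
    | succ n ih =>
      intro u hn hu huc
      apply grun_key P D hcomm hND hzD u hu huc
      intro v hv hvc hlt
      exact ih v (by omega) hv hvc
  apply le_antisymm
  · rintro x ⟨hx, hxc⟩
    exact hmain _ x le_rfl hx hxc
  · apply le_inf
    · exact sup_le inf_le_left (iSup_le fun z => inf_le_left)
    · apply sup_le
      · refine inf_le_right.trans ?_
        rw [commutator_def]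
        exact Subgroup.commutator_mono le_top le_top
      · apply iSup_le
        intro z
        refine inf_le_right.trans ?_
        rintro _ ⟨w, hw, rfl⟩
        have := hcn.conj_mem w (hPPc hw) z
        simpa [MulAut.conj_apply] using this

end Cfsg.Agent.S4216
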