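import Cfsg.Statements.S0743
import Cfsg.Agent.S4216
import Mathlib

set_option autoImplicit false
open Cfsg

namespace Cfsg.Agent.S0743

theorem mt_of_fix {α : Type*} [Fintype α] [DecidableEq α] (G : Subgroup (Equiv.Perm α)) (k : ℕ)
    (H : ∀ Δ : Finset α, Δ.card < k → ∀ a b, a ∉ Δ → b ∉ Δ →
      ∃ h ∈ G, (∀ d ∈ Δ, h d = d) ∧ h a = b) :
    MulAction.IsMultiplyPretransitive G α k := by
  rw [MulAction.isMultiplyPretransitive_iff]
  intro x y
  have claim : ∀ j : ℕ, j ≤ k → ∃ g ∈ G, ∀ i : Fin k, i.val < j → g (x i) = y i := by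
    intro j
    induction j with
    | zero => intro _; exact ⟨1, G.one_mem, fun i hi => absurd hi (Nat.not_lt_zero _)⟩
    | succ j ih =>
      intro hj
      obtain ⟨g, hgG, hg⟩ := ih (by omega)
      have hΔcard : ((Finset.univ.filter (fun i : Fin k => i.val < j)).image y).card < k := by
        have h1 : (Finset.univ.filter (fun i : Fin k => i.val < j)).card ≤ (Finset.range j).card := by
          apply Finset.card_le_card_of_injOn (fun i => i.val)
          · intro i hi
            exact Finset.mem_range.mpr (Finset.mem_filter.mp hi).2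
          · intro a _ b _ hab
            exact Fin.ext hab
        rw [Finset.card_range] at h1
        have h2 := Finset.card_image_le (s := Finset.univ.filter (fun i : Fin k => i.val < j)) (f := y)
        omega
      have ha : g (x ⟨j, by omega⟩) ∉ (Finset.univ.filter (fun i : Fin k => i.val < j)).image y := by
        intro hmem
        obtain ⟨i, hi, hyi⟩ := Finset.mem_image.mp hmem
        have hi' : i.val < j := (Finset.mem_filter.mp hi).2
        have h1 := hg i hi'
        have h2 : g (x i) = g (x ⟨j, by omega⟩) := h1.trans hyi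
        have h3 : i = ⟨j, by omega⟩ := x.injective (g.injective h2)
        rw [h3] at hi'
        exact lt_irrefl _ hi'
      have hb : y ⟨j, by omega⟩ ∉ (Finset.univ.filter (fun i : Fin k => i.val < j)).image y := by
        intro hmem
        obtain ⟨i, hi, hyi⟩ := Finset.mem_image.mp hmem
        have hi' : i.val < j := (Finset.mem_filter.mp hi).2
        have h3 : i = ⟨j, by omega⟩ := y.injective hyi
        rw [h3] at hi'
        exact lt_irrefl _ hi'
      obtain ⟨h, hhG, hhΔ, hhab⟩ := H _ hΔcard _ _ ha hb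
      refine ⟨h * g, G.mul_mem hhG hgG, fun i hi => ?_⟩
      rcases Nat.lt_succ_iff_lt_or_eq.mp hi with hlt | heq
      · rw [Equiv.Perm.mul_apply, hg i hlt]
        exact hhΔ _ (Finset.mem_image.mpr ⟨i, Finset.mem_filter.mpr ⟨Finset.mem_univ _, hlt⟩, rfl⟩)
      · have hi0 : i = ⟨j, by omega⟩ := Fin.ext heq
        rw [hi0, Equiv.Perm.mul_apply]
        exact hhab
  obtain ⟨g, hgG, hg⟩ := claim k le_rfl
  refine ⟨⟨g, hgG⟩, ?_⟩
  ext i
  exact hg i i.2

theorem result {α : Type*} [Fintype α] [DecidableEq α] (G : Subgroup (Equiv.Perm α)) {p k : ℕ} (hp : p.Prime) (hk : 1 ≤ k) (hkn : k < Fintype.card α) (h : ∀ s : Finset α, s.card = k → ∃ P : Subgroup G, IsPGroup p P ∧ MulAction.fixedPoints P α = (s : Set α)) : MulAction.IsMultiplyPretransitive G α k := by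
  haveI : Fact p.Prime := ⟨hp⟩
  apply mt_of_fix
  intro Δ hΔ a b ha hb
  by_contra hno
  push_neg at hno
  have hab : a ≠ b := by
    intro hab
    exact hno 1 G.one_mem (fun d _ => rfl) hab
  obtain ⟨T, hT⟩ : ∃ T : Finset α, ∀ x, x ∈ T ↔ ∃ h ∈ G, (∀ d ∈ Δ, h d = d) ∧ h a = x := by
    classical
    exact ⟨Finset.univ.filter (fun x => ∃ h ∈ G, (∀ d ∈ Δ, h d = d) ∧ h a = x), fun x => by simp⟩
  have haT : a ∈ T := (hT a).mpr ⟨1, G.one_mem, fun d _ => rfl, rfl⟩
  have hbT : b ∉ T := fun hb' => by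
    obtain ⟨h', hG', hΔ', hab'⟩ := (hT b).mp hb'
    exact hno h' hG' hΔ' hab'
  obtain ⟨s₀, hs₀sub, hs₀t, hs₀card⟩ := Finset.exists_subsuperset_card_eq
    (s := insert b Δ) (t := Finset.univ.erase a) (n := k)
    (by
      intro x hx
      rw [Finset.mem_erase]
      refine ⟨?_, Finset.mem_univ _⟩
      rcases Finset.mem_insert.mp hx with hx | hx
      · rw [hx]; exact fun h' => hab h'.symm
      · exact fun h' => ha (h' ▸ hx))
    (by rw [Finset.card_insert_of_notMem hb]; omega)
    (by rw [Finset.card_erase_of_mem (Finset.mem_univ _), Finset.card_univ]; omega)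
  have hs₀a : a ∉ s₀ := fun h' => (Finset.mem_erase.mp (hs₀t h')).1 rfl
  have hbs₀ : b ∈ s₀ := hs₀sub (Finset.mem_insert_self b Δ)
  have hΔs₀ : Δ ⊆ s₀ := fun x hx => hs₀sub (Finset.mem_insert_of_mem hx)
  have hs₁card : (insert a (s₀.erase b)).card = k := by
    rw [Finset.card_insert_of_notMem (fun h' => hs₀a (Finset.mem_of_mem_erase h')),
      Finset.card_erase_of_mem hbs₀, hs₀card]
    omega
  have hΔs₁ : Δ ⊆ insert a (s₀.erase b) := by
    intro x hx
    refine Finset.mem_insert_of_mem (Finset.mem_erase.mpr ⟨fun h' => hb (h' ▸ hx), hΔs₀ hx⟩)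
  obtain ⟨P₀, hP₀, hfix₀⟩ := h s₀ hs₀card
  obtain ⟨P₁, hP₁, hfix₁⟩ := h _ hs₁card
  have key : ∀ (s : Finset α) (P : Subgroup G), IsPGroup p P →
      MulAction.fixedPoints P α = (s : Set α) → Δ ⊆ s → T.card ≡ (T ∩ s).card [MOD p] := by
    intro s P hP hfix hΔs
    apply Cfsg.Agent.S4216.cntP hP T (T ∩ s)
    · intro g x hx
      obtain ⟨h', hG', hΔ', hax⟩ := (hT x).mp hx
      refine (hT _).mpr ⟨((g : G) : Equiv.Perm α) * h', G.mul_mem (g : G).2 hG', ?_, ?_⟩
      · intro d hd
        rw [Equiv.Perm.mul_apply, hΔ' d hd]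
        have hdfix : d ∈ MulAction.fixedPoints P α := by
          rw [hfix]; exact hΔs hd
        exact hdfix g
      · rw [Equiv.Perm.mul_apply, hax]; rfl
    · intro x
      rw [Finset.mem_inter]
      constructor
      · rintro ⟨hxT, hxs⟩
        refine ⟨hxT, fun g => ?_⟩
        have hx : x ∈ MulAction.fixedPoints P α := by
          rw [hfix]; exact hxs
        exact hx g
      · rintro ⟨hxT, hfixx⟩
        refine ⟨hxT, ?_⟩
        have hx : x ∈ MulAction.fixedPoints P α := fun g => hfixx g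
        rw [hfix] at hx
        exact hx
  have c0 := key s₀ P₀ hP₀ hfix₀ hΔs₀
  have c1 := key _ P₁ hP₁ hfix₁ hΔs₁
  have hcard : (T ∩ insert a (s₀.erase b)).card = (T ∩ s₀).card + 1 := by
    have hEq : T ∩ insert a (s₀.erase b) = insert a (T ∩ s₀) := by
      ext x
      simp only [Finset.mem_inter, Finset.mem_insert, Finset.mem_erase]
      constructor
      · rintro ⟨hxT, hx | ⟨_, hxs⟩⟩
        · left; exact hx
        · right; exact ⟨hxT, hxs⟩
      · rintro (hx | ⟨hxT, hxs⟩)
        · rw [hx]; exact ⟨haT, Or.inl rfl⟩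
        · exact ⟨hxT, Or.inr ⟨fun hxb => hbT (hxb ▸ hxT), hxs⟩⟩
    rw [hEq, Finset.card_insert_of_notMem (fun h' => hs₀a (Finset.mem_inter.mp h').2)]
  have c2 := c0.symm.trans c1
  rw [hcard] at c2
  have hdvd : p ∣ 1 := by
    have h2 := (Nat.modEq_iff_dvd' (Nat.le_succ _)).mp c2
    simpa using h2
  exact hp.one_lt.ne' (Nat.dvd_one.mp hdvd)

end Cfsg.Agent.S0743
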