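import Cfsg.Statements.S0709
import Mathlib
import Cfsg.Agent.Lib.helper19.TwoTrans
import Cfsg.Agent.S0743

set_option autoImplicit false
open Cfsg

namespace Cfsg.Agent.S0709


open Cfsg.Agent.Lib.helper19.TwoTrans



/-- Witt's Lemma for constructing transitive extensions. Points `q 1, …, q t` (`t ≥ 2`) of a finite set are given; `G` fixes `q i` for `i ≥ 3` and is doubly transitive on the remaining points; `s 1 ∈ G` swaps `q 1, q 2`; for `2 ≤ i ≤ t-1`, `s i` swaps `q i, q (i+1)` and fixes the other `q j`; with `H` the stabiliser of `q 1, q 2` in `G`: `s i ^ 2 ∈ H`, `(s i * s (i+1)) ^ 3 ∈ H`, `(s i * s j) ^ 2 ∈ H` for `j ≥ i + 2`, and `s i` (`i ≥ 2`) normalises the stabiliser of `q 2` in `G`. Then `G` and the `s i` generate a `t`-transitive group whose pointwise stabiliser of the `q`'s is `H`. -/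
theorem result {α : Type*} [Fintype α] [DecidableEq α] (t : ℕ) (ht : 2 ≤ t) (q : ℕ → α) (hq : ∀ i j : ℕ, 1 ≤ i → i ≤ t → 1 ≤ j → j ≤ t → q i = q j → i = j) (G : Subgroup (Equiv.Perm α)) (hfix : ∀ g ∈ G, ∀ i : ℕ, 3 ≤ i → i ≤ t → g (q i) = q i) (h2 : ∀ a b c d : α, (∀ i, 3 ≤ i → i ≤ t → a ≠ q i ∧ b ≠ q i ∧ c ≠ q i ∧ d ≠ q i) → a ≠ b → c ≠ d → ∃ g ∈ G, g a = c ∧ g b = d) (s : ℕ → Equiv.Perm α) (hs1 : s 1 ∈ G) (hs1q : s 1 (q 1) = q 2 ∧ s 1 (q 2) = q 1) (hsq : ∀ i : ℕ, 2 ≤ i → i + 1 ≤ t → s i (q i) = q (i + 1) ∧ s i (q (i + 1)) = q i ∧ ∀ j : ℕ, 1 ≤ j → j ≤ t → j ≠ i → j ≠ i + 1 → s i (q j) = q j) (H : Subgroup (Equiv.Perm α)) (hH : H = G ⊓ MulAction.stabilizer (Equiv.Perm α) (q 1) ⊓ MulAction.stabilizer (Equiv.Perm α) (q 2)) (hsq2 : ∀ i : ℕ, 1 ≤ i → i + 1 ≤ t → s i ^ 2 ∈ H) (hbraid : ∀ i : ℕ, 1 ≤ i → i + 2 ≤ t → (s i * s (i + 1)) ^ 3 ∈ H) (hcomm : ∀ i j : ℕ, 1 ≤ i → i + 2 ≤ j → j + 1 ≤ t → (s i * s j) ^ 2 ∈ H ∧ (s j * s i) ^ 2 ∈ H) (hnorm : ∀ i : ℕ, 2 ≤ i →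 i + 1 ≤ t → ∀ g ∈ G ⊓ MulAction.stabilizer (Equiv.Perm α) (q 2), s i * g * (s i)⁻¹ ∈ G ⊓ MulAction.stabilizer (Equiv.Perm α) (q 2)) : MulAction.IsMultiplyPretransitive ↥(Subgroup.closure ((G : Set (Equiv.Perm α)) ∪ {x | ∃ i : ℕ, 2 ≤ i ∧ i + 1 ≤ t ∧ x = s i})) α t ∧ Subgroup.closure ((G : Set (Equiv.Perm α)) ∪ {x | ∃ i : ℕ, 2 ≤ i ∧ i + 1 ≤ t ∧ x = s i}) ⊓ fixingSubgroup (Equiv.Perm α) {x | ∃ i : ℕ, 1 ≤ i ∧ i ≤ t ∧ x = q i} = H := by
  classical
  set L : ℕ → Subgroup (Equiv.Perm α) := fun k => Subgroup.closure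
    ((G : Set (Equiv.Perm α)) ∪ {x | ∃ i : ℕ, 2 ≤ i ∧ i + 1 ≤ k ∧ x = s i}) with hL
  have hGL : ∀ k, G ≤ L k := fun k x hx => Subgroup.subset_closure (Or.inl hx)
  have hsL : ∀ k i, 2 ≤ i → i + 1 ≤ k → s i ∈ L k := fun k i h1 h2 =>
    Subgroup.subset_closure (Or.inr ⟨i, h1, h2, rfl⟩)
  have hLmono : ∀ k, L k ≤ L (k + 1) := by
    intro k
    apply Subgroup.closure_mono
    rintro x (hx | ⟨i, h1, h2, rfl⟩)
    · exact Or.inl hx
    · exact Or.inr ⟨i, h1, by omega, rfl⟩
  have hL2 : L 2 = G := by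
    have : ((G : Set (Equiv.Perm α)) ∪ {x | ∃ i : ℕ, 2 ≤ i ∧ i + 1 ≤ 2 ∧ x = s i}) =
        (G : Set (Equiv.Perm α)) := by
      ext x
      constructor
      · rintro (hx | ⟨i, h1, h2, _⟩)
        · exact hx
        · omega
      · intro hx; exact Or.inl hx
    show Subgroup.closure _ = G
    rw [this, Subgroup.closure_eq]
  have hHG : H ≤ G := by
    rw [hH]; exact inf_le_left.trans inf_le_left
  have hHmem : ∀ g ∈ G, g (q 1) = q 1 → g (q 2) = q 2 → g ∈ H := by
    intro g hg h1 h2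
    rw [hH]
    exact ⟨⟨hg, h1⟩, h2⟩
  have hHfix : ∀ h ∈ H, ∀ i, 1 ≤ i → i ≤ t → h (q i) = q i := by
    intro h hh i hi1 hit
    have hh' := hh
    rw [hH] at hh'
    obtain ⟨⟨hg, h1⟩, h2⟩ := hh'
    rcases Nat.lt_or_ge i 3 with h3 | h3
    · interval_cases i
      · exact h1
      · exact h2
    · exact hfix h hg i h3 hit
  have hqne : ∀ i j, 1 ≤ i → i ≤ t → 1 ≤ j → j ≤ t → i ≠ j → q i ≠ q j :=
    fun i j a b c d e h => e (hq i j a b c d h)
  -- Lemma A
  have hA : ∀ j, 3 ≤ j → j + 1 ≤ t → ∀ g ∈ G, s j * g * (s j)⁻¹ ∈ G := by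
    intro j hj hjt g hg
    have hn := hnorm j (by omega) hjt
    have hs1c : s j * s 1 * (s j)⁻¹ ∈ G := by
      have c2 : (s j * s 1) * (s j * s 1) ∈ H := by
        have := (hcomm 1 j le_rfl (by omega) hjt).2
        rwa [pow_two] at this
      have c3 : s j * s j ∈ H := by
        have := hsq2 j (by omega) hjt
        rwa [pow_two] at this
      have e : s j * s 1 * (s j)⁻¹ = ((s j * s 1) * (s j * s 1)) * (s 1)⁻¹ * (s j * s j)⁻¹ := by
        group
      rw [e]
      exact G.mul_mem (G.mul_mem (hHG c2) (G.inv_mem hs1)) (G.inv_mem (hHG c3))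
    by_cases hg2 : g (q 2) = q 2
    · exact (hn g ⟨hg, hg2⟩).1
    · have hc : ∀ i, 3 ≤ i → i ≤ t → g (q 2) ≠ q i := by
        intro i hi hit h
        rw [← hfix g hg i hi hit] at h
        exact hqne 2 i (by omega) (by omega) (by omega) hit (by omega) (g.injective h)
      obtain ⟨p₁, hp₁, hp₁2, hp₁1⟩ := h2 (q 2) (q 1) (q 2) (g (q 2))
        (fun i hi hit => ⟨hqne 2 i (by omega) (by omega) (by omega) hit (by omega),
          hqne 1 i (by omega) (by omega) (by omega) hit (by omega),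
          hqne 2 i (by omega) (by omega) (by omega) hit (by omega), hc i hi hit⟩)
        (hqne 2 1 (by omega) (by omega) (by omega) (by omega) (by omega)) (Ne.symm hg2)
      have hp₂ : (s 1)⁻¹ * p₁⁻¹ * g ∈ G :=
        G.mul_mem (G.mul_mem (G.inv_mem hs1) (G.inv_mem hp₁)) hg
      have hp₂2 : ((s 1)⁻¹ * p₁⁻¹ * g) (q 2) = q 2 := by
        show (s 1)⁻¹ (p₁⁻¹ (g (q 2))) = q 2
        rw [← hp₁1, inv_app, Equiv.Perm.inv_eq_iff_eq, hs1q.2]
      have e : s j * g * (s j)⁻¹ = (s j * p₁ * (s j)⁻¹) * (s j * s 1 * (s j)⁻¹) *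
          (s j * ((s 1)⁻¹ * p₁⁻¹ * g) * (s j)⁻¹) := by group
      rw [e]
      exact G.mul_mem (G.mul_mem (hn p₁ ⟨hp₁, hp₁2⟩).1 hs1c) (hn _ ⟨hp₂, hp₂2⟩).1
  -- Lemma B
  have hB : ∀ j, 3 ≤ j → j + 1 ≤ t → ∀ g ∈ L (j - 1), s j * g * (s j)⁻¹ ∈ L (j - 1) := by
    intro j hj hjt g hg
    induction hg using Subgroup.closure_induction with
    | mem x hx =>
      rcases hx with hx | ⟨i, h1, h2, rfl⟩
      · exact hGL _ (hA j hj hjt x hx)
      · have c2 : (s j * s i) * (s j * s i) ∈ H := by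
          have := (hcomm i j (by omega) (by omega) hjt).2
          rwa [pow_two] at this
        have c3 : s j * s j ∈ H := by
          have := hsq2 j (by omega) hjt
          rwa [pow_two] at this
        have e : s j * s i * (s j)⁻¹ = ((s j * s i) * (s j * s i)) * (s i)⁻¹ * (s j * s j)⁻¹ := by
          group
        rw [e]
        exact (L (j - 1)).mul_mem ((L (j - 1)).mul_mem (hGL _ (hHG c2))
          ((L (j - 1)).inv_mem (hsL _ i h1 h2))) ((L (j - 1)).inv_mem (hGL _ (hHG c3)))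
    | one => simp
    | mul x y _ _ ihx ihy =>
      have e : s j * (x * y) * (s j)⁻¹ = (s j * x * (s j)⁻¹) * (s j * y * (s j)⁻¹) := by group
      rw [e]
      exact (L (j - 1)).mul_mem ihx ihy
    | inv x _ ih =>
      have e : s j * x⁻¹ * (s j)⁻¹ = (s j * x * (s j)⁻¹)⁻¹ := by group
      rw [e]
      exact (L (j - 1)).inv_mem ih
  -- main induction
  have hmain : ∀ k, 2 ≤ k → k ≤ t →
      (∀ g ∈ L k, ∀ i, k + 1 ≤ i → i ≤ t → g (q i) = q i) ∧
      (∀ Δ : Finset α, Δ.card < k → ∀ a b, a ∉ Δ → b ∉ Δ →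
        (∀ i, k + 1 ≤ i → i ≤ t → a ≠ q i ∧ b ≠ q i ∧ q i ∉ Δ) →
        ∃ h ∈ L k, (∀ d ∈ Δ, h d = d) ∧ h a = b) ∧
      (∀ g ∈ L k, (∀ i, 1 ≤ i → i ≤ k → g (q i) = q i) → g ∈ H) ∧
      (k + 1 ≤ t → ∀ g ∈ L k, g (q k) = q k → s k * g * (s k)⁻¹ ∈ L k) := by
    intro k hk
    induction k, hk using Nat.le_induction with
    | base =>
      intro _
      rw [hL2]
      refine ⟨fun g hg i hi hit => hfix g hg i (by omega) hit, ?_, ?_, ?_⟩
      · intro Δ hΔ a b ha hb hside
        have hcard : Δ.card = 0 ∨ Δ.card = 1 := by omega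
        rcases hcard with h0 | h1
        · rw [Finset.card_eq_zero] at h0
          subst h0
          by_cases hab : a = b
          · exact ⟨1, G.one_mem, by simp, by rw [hab]; rfl⟩
          · obtain ⟨g, hg, hga, _⟩ := h2 a b b a
              (fun i hi hit => ⟨(hside i hi hit).1, (hside i hi hit).2.1, (hside i hi hit).2.1,
                (hside i hi hit).1⟩) hab (Ne.symm hab)
            exact ⟨g, hg, by simp, hga⟩
        · rw [Finset.card_eq_one] at h1
          obtain ⟨δ, rfl⟩ := h1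
          have haδ : δ ≠ a := fun h => ha (by rw [← h]; exact Finset.mem_singleton_self _)
          have hbδ : δ ≠ b := fun h => hb (by rw [← h]; exact Finset.mem_singleton_self _)
          have hδq : ∀ i, 3 ≤ i → i ≤ t → δ ≠ q i := fun i hi hit h =>
            (hside i hi hit).2.2 (by rw [← h]; exact Finset.mem_singleton_self _)
          obtain ⟨g, hg, hgδ, hga⟩ := h2 δ a δ b
            (fun i hi hit => ⟨hδq i hi hit, (hside i hi hit).1, hδq i hi hit,
              (hside i hi hit).2.1⟩) haδ hbδ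
          refine ⟨g, hg, ?_, hga⟩
          intro d hd
          rw [Finset.mem_singleton] at hd
          rw [hd]; exact hgδ
      · intro g hg hfx
        exact hHmem g hg (hfx 1 le_rfl (by omega)) (hfx 2 (by omega) le_rfl)
      · intro h3 g hg hg2
        exact (hnorm 2 le_rfl h3 g ⟨hg, hg2⟩).1
    | succ k hk ih =>
      intro hkt
      obtain ⟨iha, ihb, ihc, ihN⟩ := ih (by omega)
      have ihN' := ihN hkt
      obtain ⟨hσ1, hσ2, hσ3⟩ := hsq k hk hkt
      set σ := s k with hσdef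
      have hσsq : σ * σ ∈ H := by
        have := hsq2 k (by omega) hkt
        rwa [pow_two] at this
      have hσL : σ ∈ L (k + 1) := hsL (k + 1) k hk le_rfl
      -- u = s (k-1)
      obtain ⟨m, rfl⟩ : ∃ m, k = m + 1 := ⟨k - 1, by omega⟩
      have hm : 1 ≤ m := by omega
      have hu : s m ∈ L (m + 1) := by
        rcases Nat.lt_or_ge m 2 with h | h
        · have : m = 1 := by omega
          subst this
          exact hGL _ hs1
        · exact hsL _ m h le_rfl
      have huq : s m (q m) = q (m + 1) ∧ s m (q (m + 1)) = q m := by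
        rcases Nat.lt_or_ge m 2 with h | h
        · have : m = 1 := by omega
          subst this
          exact hs1q
        · have := hsq m h (by omega)
          exact ⟨this.1, this.2.1⟩
      set u := s m with hudef
      have hbr : (u * σ) * (u * σ) * (u * σ) ∈ H := by
        have := hbraid m hm (by omega)
        rwa [pow_succ, pow_two] at this
      have hHL : H ≤ L (m + 1) := hHG.trans (hGL _)
      have hqk : ∀ i, m + 1 + 1 ≤ i → i ≤ t → q (m + 1) ≠ q i := fun i hi hit =>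
        hqne (m + 1) i (by omega) (by omega) (by omega) hit (by omega)
      -- Claim D
      have hD : ∀ g ∈ L (m + 1), g (q (m + 1)) = q (m + 1) ∨
          ∃ p₁ ∈ L (m + 1), ∃ p₂ ∈ L (m + 1), p₁ (q (m + 1)) = q (m + 1) ∧
            p₂ (q (m + 1)) = q (m + 1) ∧ g = p₁ * u * p₂ := by
        intro g hg
        by_cases hgq : g (q (m + 1)) = q (m + 1)
        · exact Or.inl hgq
        · right
          have hc : ∀ i, m + 1 + 1 ≤ i → i ≤ t → g (q (m + 1)) ≠ q i := by
            intro i hi hit h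
            rw [← iha g hg i hi hit] at h
            exact hqk i hi hit (g.injective h)
          obtain ⟨p₁, hp₁, hp₁f, hp₁a⟩ := ihb {q (m + 1)} (by simp; omega) (q m) (g (q (m + 1)))
            (by
              rw [Finset.mem_singleton]
              exact hqne m (m + 1) hm (by omega) (by omega) (by omega) (by omega))
            (by rw [Finset.mem_singleton]; exact hgq)
            (fun i hi hit => ⟨hqne m i hm (by omega) (by omega) hit (by omega), hc i hi hit, by
              rw [Finset.mem_singleton]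
              exact (hqk i hi hit).symm⟩)
          have hp₁q : p₁ (q (m + 1)) = q (m + 1) := hp₁f _ (Finset.mem_singleton_self _)
          refine ⟨p₁, hp₁, u⁻¹ * p₁⁻¹ * g,
            (L (m + 1)).mul_mem ((L (m + 1)).mul_mem ((L (m + 1)).inv_mem hu)
              ((L (m + 1)).inv_mem hp₁)) hg, hp₁q, ?_, by group⟩
          show u⁻¹ (p₁⁻¹ (g (q (m + 1)))) = q (m + 1)
          rw [← hp₁a, inv_app, Equiv.Perm.inv_eq_iff_eq, huq.2]
      -- conjugation of the stabilizer by σ⁻¹
      have hN2 : ∀ g ∈ L (m + 1), g (q (m + 1)) = q (m + 1) → σ⁻¹ * g * σ ∈ L (m + 1) := by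
        intro g hg hgq
        have e : σ⁻¹ * g * σ = (σ * σ)⁻¹ * (σ * g * σ⁻¹) * (σ * σ) := by group
        rw [e]
        exact (L (m + 1)).mul_mem ((L (m + 1)).mul_mem ((L (m + 1)).inv_mem (hHL hσsq))
          (ihN' g hg hgq)) (hHL hσsq)
      -- Claim σ g σ
      have hS : ∀ g ∈ L (m + 1), σ * g * σ ∈ L (m + 1) ∨
          ∃ g₁ ∈ L (m + 1), ∃ g₂ ∈ L (m + 1), σ * g * σ = g₁ * σ * g₂ := by
        intro g hg
        rcases hD g hg with hgq | ⟨p₁, hp₁, p₂, hp₂, hp₁q, hp₂q, rfl⟩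
        · left
          have e : σ * g * σ = (σ * g * σ⁻¹) * (σ * σ) := by group
          rw [e]
          exact (L (m + 1)).mul_mem (ihN' g hg hgq) (hHL hσsq)
        · right
          refine ⟨(σ * p₁ * σ⁻¹) * (u⁻¹ * (σ * σ)⁻¹),
            (L (m + 1)).mul_mem (ihN' p₁ hp₁ hp₁q) ((L (m + 1)).mul_mem ((L (m + 1)).inv_mem hu)
              ((L (m + 1)).inv_mem (hHL hσsq))),
            (u⁻¹ * ((u * σ) * (u * σ) * (u * σ))) * (σ⁻¹ * p₂ * σ),
            (L (m + 1)).mul_mem ((L (m + 1)).mul_mem ((L (m + 1)).inv_mem hu) (hHL hbr))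
              (hN2 p₂ hp₂ hp₂q), ?_⟩
          group
      -- Claim M
      have hM : ∀ x ∈ L (m + 1 + 1), x ∈ L (m + 1) ∨
          ∃ g₁ ∈ L (m + 1), ∃ g₂ ∈ L (m + 1), x = g₁ * σ * g₂ := by
        intro x hx
        induction hx using Subgroup.closure_induction with
        | mem x hx =>
          rcases hx with hx | ⟨i, h1, h2, rfl⟩
          · exact Or.inl (hGL _ hx)
          · rcases Nat.lt_or_ge i (m + 1) with h | h
            · exact Or.inl (hsL _ i h1 (by omega))
            · have : i = m + 1 := by omega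
              subst this
              exact Or.inr ⟨1, (L (m + 1)).one_mem, 1, (L (m + 1)).one_mem, by simp [hσdef]⟩
        | one => exact Or.inl (L (m + 1)).one_mem
        | mul x y _ _ ihx ihy =>
          rcases ihx with hx | ⟨g₁, hg₁, g₂, hg₂, rfl⟩
          · rcases ihy with hy | ⟨g₃, hg₃, g₄, hg₄, rfl⟩
            · exact Or.inl ((L (m + 1)).mul_mem hx hy)
            · exact Or.inr ⟨x * g₃, (L (m + 1)).mul_mem hx hg₃, g₄, hg₄, by group⟩
          · rcases ihy with hy | ⟨g₃, hg₃, g₄, hg₄, rfl⟩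
            · exact Or.inr ⟨g₁, hg₁, g₂ * y, (L (m + 1)).mul_mem hg₂ hy, by group⟩
            · rcases hS (g₂ * g₃) ((L (m + 1)).mul_mem hg₂ hg₃) with hw | ⟨g₅, hg₅, g₆, hg₆, hw⟩
              · left
                have e : g₁ * σ * g₂ * (g₃ * σ * g₄) = g₁ * (σ * (g₂ * g₃) * σ) * g₄ := by group
                rw [e]
                exact (L (m + 1)).mul_mem ((L (m + 1)).mul_mem hg₁ hw) hg₄
              · right
                refine ⟨g₁ * g₅, (L (m + 1)).mul_mem hg₁ hg₅, g₆ * g₄,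
                  (L (m + 1)).mul_mem hg₆ hg₄, ?_⟩
                have e : g₁ * σ * g₂ * (g₃ * σ * g₄) = g₁ * (σ * (g₂ * g₃) * σ) * g₄ := by group
                rw [e, hw]
                group
        | inv x _ ih =>
          rcases ih with hx | ⟨g₁, hg₁, g₂, hg₂, rfl⟩
          · exact Or.inl ((L (m + 1)).inv_mem hx)
          · exact Or.inr ⟨g₂⁻¹ * (σ * σ)⁻¹, (L (m + 1)).mul_mem ((L (m + 1)).inv_mem hg₂)
              ((L (m + 1)).inv_mem (hHL hσsq)), g₁⁻¹, (L (m + 1)).inv_mem hg₁, by group⟩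
      -- (a) for k+1
      have ha' : ∀ g ∈ L (m + 1 + 1), ∀ i, m + 1 + 1 + 1 ≤ i → i ≤ t → g (q i) = q i := by
        intro g hg i hi hit
        rcases hM g hg with hg' | ⟨g₁, hg₁, g₂, hg₂, rfl⟩
        · exact iha g hg' i (by omega) hit
        · show g₁ (σ (g₂ (q i))) = q i
          rw [iha g₂ hg₂ i (by omega) hit, hσ3 i (by omega) hit (by omega) (by omega),
            iha g₁ hg₁ i (by omega) hit]
      -- (d) for k+1
      have hd' : ∀ g ∈ L (m + 1 + 1), g (q (m + 1 + 1)) = q (m + 1 + 1) → g ∈ L (m + 1) := by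
        intro g hg hgq
        rcases hM g hg with hg' | ⟨g₁, hg₁, g₂, hg₂, rfl⟩
        · exact hg'
        · exfalso
          have h1 : g₁ (σ (g₂ (q (m + 1 + 1)))) = q (m + 1 + 1) := hgq
          rw [iha g₂ hg₂ _ le_rfl hkt, hσ2] at h1
          rw [← iha g₁ hg₁ (m + 1 + 1) le_rfl hkt] at h1
          exact hqk (m + 1 + 1) le_rfl hkt (g₁.injective h1)
      -- transitivity
      have htr' : ∀ a : α, (∀ i, m + 1 + 1 + 1 ≤ i → i ≤ t → a ≠ q i) →
          ∃ g ∈ L (m + 1 + 1), g (q (m + 1 + 1)) = a := by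
        intro a haq
        by_cases ha1 : a = q (m + 1 + 1)
        · exact ⟨1, (L _).one_mem, by rw [ha1]; rfl⟩
        · obtain ⟨g₀, hg₀, _, hg₀a⟩ := ihb ∅ (by simp) (q (m + 1)) a (by simp) (by simp)
            (fun i hi hit => ⟨hqk i hi hit, by
              rcases Nat.lt_or_ge i (m + 1 + 1 + 1) with h | h
              · have : i = m + 1 + 1 := by omega
                rw [this]; exact ha1
              · exact haq i h hit, by simp⟩)
          refine ⟨g₀ * σ, (L _).mul_mem (hLmono _ hg₀) hσL, ?_⟩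
          show g₀ (σ (q (m + 1 + 1))) = a
          rw [hσ2, hg₀a]
      refine ⟨ha', ?_, ?_, ?_⟩
      · -- (b)
        intro Δ hΔ a b ha hb hside
        by_cases hΔe : Δ = ∅
        · subst hΔe
          obtain ⟨ga, hga, hga'⟩ := htr' a (fun i hi hit => (hside i hi hit).1)
          obtain ⟨gb, hgb, hgb'⟩ := htr' b (fun i hi hit => (hside i hi hit).2.1)
          refine ⟨gb * ga⁻¹, (L _).mul_mem hgb ((L _).inv_mem hga), by simp, ?_⟩
          show gb (ga⁻¹ a) = b
          rw [← hga', inv_app, hgb']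
        · obtain ⟨δ, hδ⟩ := Finset.nonempty_iff_ne_empty.mpr hΔe
          obtain ⟨g₀, hg₀, hg₀δ⟩ := htr' δ (fun i hi hit h => (hside i hi hit).2.2 (by rw [← h]; exact hδ))
          set g := g₀⁻¹ with hgdef
          have hg : g ∈ L (m + 1 + 1) := (L _).inv_mem hg₀
          have hgδ : g δ = q (m + 1 + 1) := by
            rw [hgdef, Equiv.Perm.inv_eq_iff_eq, hg₀δ]
          have hgfix : ∀ i, m + 1 + 1 + 1 ≤ i → i ≤ t → g (q i) = q i := fun i hi hit =>
            ha' g hg i hi hit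
          set Δ' : Finset α := (Δ.erase δ).image g with hΔ'
          have hΔ'card : Δ'.card < m + 1 := by
            have h1 : Δ'.card ≤ (Δ.erase δ).card := Finset.card_image_le
            have h2 := Finset.card_erase_of_mem hδ
            omega
          have hmemΔ' : ∀ x, x ∈ Δ' ↔ ∃ d ∈ Δ, d ≠ δ ∧ g d = x := by
            intro x
            rw [hΔ', Finset.mem_image]
            constructor
            · rintro ⟨d, hd, rfl⟩
              exact ⟨d, Finset.mem_of_mem_erase hd, Finset.ne_of_mem_erase hd, rfl⟩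
            · rintro ⟨d, hd, hdδ, rfl⟩
              exact ⟨d, Finset.mem_erase.mpr ⟨hdδ, hd⟩, rfl⟩
          have hnotin : ∀ x, x ∉ Δ → g x ∉ Δ' := by
            intro x hx hgx
            obtain ⟨d, hd, _, hdx⟩ := (hmemΔ' _).mp hgx
            rw [g.injective hdx] at hd
            exact hx hd
          have hside' : ∀ x, x ∉ Δ → (∀ i, m + 1 + 1 + 1 ≤ i → i ≤ t → x ≠ q i) →
              ∀ i, m + 1 + 1 ≤ i → i ≤ t → g x ≠ q i := by
            intro x hx hxq i hi hit h
            rcases Nat.lt_or_ge i (m + 1 + 1 + 1) with h' | h'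
            · have : i = m + 1 + 1 := by omega
              rw [this, ← hgδ] at h
              rw [g.injective h] at hx
              exact hx hδ
            · rw [← hgfix i h' hit] at h
              exact hxq i h' hit (g.injective h)
          have hqΔ' : ∀ i, m + 1 + 1 ≤ i → i ≤ t → q i ∉ Δ' := by
            intro i hi hit hmem
            obtain ⟨d, hd, hdδ, hdx⟩ := (hmemΔ' _).mp hmem
            rcases Nat.lt_or_ge i (m + 1 + 1 + 1) with h' | h'
            · have : i = m + 1 + 1 := by omega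
              rw [this, ← hgδ] at hdx
              exact hdδ (g.injective hdx)
            · rw [← hgfix i h' hit] at hdx
              rw [g.injective hdx] at hd
              exact (hside i h' hit).2.2 hd
          obtain ⟨h, hh, hhf, hha⟩ := ihb Δ' hΔ'card (g a) (g b) (hnotin a ha) (hnotin b hb)
            (fun i hi hit => ⟨hside' a ha (fun i hi hit => (hside i hi hit).1) i hi hit,
              hside' b hb (fun i hi hit => (hside i hi hit).2.1) i hi hit, hqΔ' i hi hit⟩)
          refine ⟨g⁻¹ * h * g, (L _).mul_mem ((L _).mul_mem ((L _).inv_mem hg) (hLmono _ hh)) hg,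
            ?_, ?_⟩
          · intro d hd
            show g⁻¹ (h (g d)) = d
            by_cases hdδ : d = δ
            · rw [hdδ, hgδ, iha h hh _ le_rfl hkt, ← hgδ, inv_app]
            · rw [hhf (g d) ((hmemΔ' _).mpr ⟨d, hd, hdδ, rfl⟩), inv_app]
          · show g⁻¹ (h (g a)) = b
            rw [hha, inv_app]
      · -- (c)
        intro g hg hfx
        have hg' := hd' g hg (hfx _ (by omega) le_rfl)
        exact ihc g hg' (fun i hi hik => hfx i hi (by omega))
      · -- (N)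
        intro hkt2 g hg hgq
        have hg' := hd' g hg hgq
        exact hLmono _ (hB (m + 1 + 1) (by omega) hkt2 g hg')
  obtain ⟨fa, fb, fc, _⟩ := hmain t ht le_rfl
  constructor
  · apply Cfsg.Agent.S0743.mt_of_fix
    intro Δ hΔ a b ha hb
    exact fb Δ hΔ a b ha hb (fun i hi hit => by omega)
  · apply le_antisymm
    · rintro g ⟨hg, hgf⟩
      apply fc g hg
      intro i hi hit
      exact (mem_fixingSubgroup_iff _).mp hgf (q i) ⟨i, hi, hit, rfl⟩
    · intro h hh
      refine ⟨hGL t (hHG hh), ?_⟩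
      show h ∈ fixingSubgroup (Equiv.Perm α) _
      rw [mem_fixingSubgroup_iff]
      rintro y ⟨i, hi, hit, rfl⟩
      exact hHfix h hh i hi hit

end Cfsg.Agent.S0709
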