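import Cfsg.Statements.S0710
-- import your own Cfsg.Agent.* helpers here
import Mathlib

set_option autoImplicit false
open Cfsg

namespace Cfsg.Agent.S0710

/-- No transitive permutation group on 13 points has order `13 * 12 * 11 * 10 * 9 * 8`. -/
theorem result {α : Type*} [Fintype α] [DecidableEq α] (hα : Fintype.card α = 13) (G : Subgroup (Equiv.Perm α)) [MulAction.IsPretransitive G α] : Nat.card G ≠ 13 * 12 * 11 * 10 * 9 * 8 := by
  classical
  intro hcard
  have hprime : Fact (Nat.Prime 13) := ⟨by norm_num⟩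
  have h13 : 13 ∣ Nat.card G := by rw [hcard]; norm_num
  obtain ⟨P⟩ : Nonempty (Sylow 13 G) := inferInstance
  have hPcard : Nat.card P = 13 := by
    obtain ⟨k, hk⟩ := IsPGroup.iff_card.mp P.isPGroup'
    have h1 : 13 ∣ Nat.card P := P.dvd_card_of_dvd_card h13
    have h2 : Nat.card P ∣ Nat.card G := Subgroup.card_subgroup_dvd_card (P : Subgroup G)
    rw [hk] at h1 h2 ⊢
    rw [hcard] at h2
    rcases k with _ | _ | k
    · norm_num at h1
    · norm_num
    · exfalso
      have h3 : 13 ^ 2 ∣ 13 * 12 * 11 * 10 * 9 * 8 := (pow_dvd_pow 13 (by omega)).trans h2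
      norm_num at h3
  have hPcyc : IsCyclic ↥(P : Subgroup G) := isCyclic_of_prime_card hPcard
  obtain ⟨τ, hτ⟩ := IsCyclic.exists_generator (α := ↥(P : Subgroup G))
  have hτord : orderOf τ = 13 := by
    rw [orderOf_eq_card_of_forall_mem_zpowers hτ, hPcard]
  obtain ⟨σ₀, hσ₀⟩ : ∃ σ₀ : Equiv.Perm α, σ₀ = ((τ : ↥G) : Equiv.Perm α) := ⟨_, rfl⟩
  have hσord : orderOf σ₀ = 13 := by
    rw [hσ₀, Subgroup.orderOf_coe, Subgroup.orderOf_coe, hτord]
  have hcyc : σ₀.IsCycle := by
    apply Equiv.Perm.isCycle_of_prime_order'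
    · rw [hσord]; norm_num
    · rw [hσord, hα]; norm_num
  have hct : σ₀.cycleType = {13} := by
    rw [hcyc.cycleType, ← hcyc.orderOf, hσord]
  have hcentS : Nat.card ↥(Subgroup.centralizer ({σ₀} : Set (Equiv.Perm α))) = 13 := by
    rw [Equiv.Perm.nat_card_centralizer, hct, hα]
    simp
  -- centralizer of P in G has order 13
  have hPcomm : ∀ x ∈ (P : Subgroup G), ∀ y ∈ (P : Subgroup G), x * y = y * x := by
    intro x hx y hy
    have hcg : ∀ a b : ↥(P : Subgroup G), a * b = b * a := by
      intro a b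
      obtain ⟨i, rfl⟩ := Subgroup.mem_zpowers_iff.mp (hτ a)
      obtain ⟨j, rfl⟩ := Subgroup.mem_zpowers_iff.mp (hτ b)
      rw [← zpow_add, ← zpow_add, add_comm]
    exact congrArg Subtype.val (hcg ⟨x, hx⟩ ⟨y, hy⟩)
  have hPC : (P : Subgroup G) ≤ Subgroup.centralizer ((P : Subgroup G) : Set ↥G) := by
    intro x hx
    rw [Subgroup.mem_centralizer_iff]
    intro y hy
    exact hPcomm y hy x hx
  have hCcard : Nat.card ↥(Subgroup.centralizer ((P : Subgroup G) : Set ↥G)) = 13 := by
    apply le_antisymm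
    · refine le_trans ?_ hcentS.le
      let ι : ↥(Subgroup.centralizer ((P : Subgroup G) : Set ↥G)) →
          ↥(Subgroup.centralizer ({σ₀} : Set (Equiv.Perm α))) := fun c =>
        ⟨((c : ↥G) : Equiv.Perm α), by
          rw [Subgroup.mem_centralizer_iff]
          intro h hh
          rw [Set.mem_singleton_iff] at hh
          rw [hh, hσ₀]
          have h1 := Subgroup.mem_centralizer_iff.mp c.2 (τ : ↥G) τ.2
          exact congrArg Subtype.val h1⟩
      apply Nat.card_le_card_of_injective ι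
      intro c c' hcc
      have h1 : ((c : ↥G) : Equiv.Perm α) = ((c' : ↥G) : Equiv.Perm α) := by
        simpa [ι] using congrArg Subtype.val hcc
      exact Subtype.ext (Subtype.ext h1)
    · exact hPcard.symm.le.trans (Subgroup.card_le_of_le hPC)
  obtain ⟨N, hN⟩ : ∃ N : Subgroup ↥G, N = Subgroup.normalizer ((P : Subgroup G) : Set ↥G) := ⟨_, rfl⟩
  obtain ⟨f, hf⟩ : ∃ f : ↥(Subgroup.normalizer ((P : Subgroup G) : Set ↥G)) →* MulAut ↥(P : Subgroup G),
      f = (P : Subgroup G).normalizerMonoidHom := ⟨_, rfl⟩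
  have hker : Nat.card f.ker = 13 := by
    rw [hf, Subgroup.normalizerMonoidHom_ker]
    refine Eq.trans ?_ hCcard
    have hle : Subgroup.centralizer ((P : Subgroup G) : Set ↥G) ≤
        Subgroup.normalizer ((P : Subgroup G) : Set ↥G) := Subgroup.centralizer_le_normalizer _
    calc Nat.card ↥((Subgroup.centralizer ((P : Subgroup G) : Set ↥G)).subgroupOf
          (Subgroup.normalizer ((P : Subgroup G) : Set ↥G)))
        = Nat.card ↥(((Subgroup.centralizer ((P : Subgroup G) : Set ↥G)).subgroupOf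
          (Subgroup.normalizer ((P : Subgroup G) : Set ↥G))).map
            (Subgroup.normalizer ((P : Subgroup G) : Set ↥G)).subtype) :=
          (Subgroup.card_map_of_injective (Subgroup.subtype_injective _)).symm
      _ = Nat.card ↥(Subgroup.centralizer ((P : Subgroup G) : Set ↥G)) := by
          rw [Subgroup.map_subgroupOf_eq_of_le hle]
  have hrange : Nat.card ↥f.range ∣ 12 := by
    have h1 : Nat.card ↥f.range ∣ Nat.card (MulAut ↥(P : Subgroup G)) :=
      Subgroup.card_subgroup_dvd_card f.range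
    rw [IsCyclic.card_mulAut, hPcard] at h1
    have h2 : Nat.totient 13 = 12 := by
      rw [Nat.totient_prime (by norm_num)]
    rwa [h2] at h1
  have hNcard : Nat.card ↥(Subgroup.normalizer ((P : Subgroup G) : Set ↥G)) = 13 * Nat.card ↥f.range := by
    have h1 := Subgroup.card_mul_index f.ker
    rw [Subgroup.index_ker, hker] at h1
    exact h1.symm
  have hsyl : Nat.card (Sylow 13 G) ≡ 1 [MOD 13] := card_sylow_modEq_one 13 G
  rw [Sylow.card_eq_index_normalizer P] at hsyl
  have hidx := Subgroup.card_mul_index (Subgroup.normalizer ((P : Subgroup G) : Set ↥G))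
  rw [hNcard, hcard] at hidx
  obtain ⟨r, hr⟩ : ∃ r, r = Nat.card ↥f.range := ⟨_, rfl⟩
  obtain ⟨n, hn⟩ : ∃ n, n = (Subgroup.normalizer ((P : Subgroup G) : Set ↥G)).index := ⟨_, rfl⟩
  rw [← hr] at hrange hidx
  rw [← hn] at hidx
  have hr12 : r ≤ 12 := Nat.le_of_dvd (by norm_num) hrange
  have hmod : n % 13 = 1 := by rw [hn]; exact hsyl
  interval_cases r <;> omega

end Cfsg.Agent.S0710
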