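import Cfsg.Statements.S0712
-- import your own Cfsg.Agent.* helpers here

set_option autoImplicit false
open Cfsg

namespace Cfsg.Agent.S0712

open MulAction SubMulAction in
theorem aux {G α : Type*} [Group G] [MulAction G α] [Finite α] (m k : ℕ) (s : Set α)
    (hs : s.ncard = m) (hG : IsMultiplyPretransitive G α m)
    (h : IsMultiplyPretransitive (fixingSubgroup G s) (ofFixingSubgroup G s) k) :
    IsMultiplyPretransitive G α (m + k) := by
  induction m generalizing G α s with
  | zero =>
    rw [Set.ncard_eq_zero] at hs
    subst hs
    rw [zero_add]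
    exact (IsPretransitive.of_embedding_congr (n := Fin k)
      (of_fixingSubgroupEmpty_mapScalars_surjective (M := G) (α := α))
      (ofFixingSubgroupEmpty_equivariantMap_bijective (M := G) (α := α))).mp h
  | succ m ih =>
    have hGX : IsPretransitive G α := by
      rw [← is_one_pretransitive_iff]
      apply isMultiplyPretransitive_of_le (n := m + 1)
      · rw [Nat.succ_le_succ_iff]; apply Nat.zero_le
      · rw [← hs, ← Set.ncard_univ]
        exact Set.ncard_le_ncard s.subset_univ Set.finite_univ
    have hne : s.Nonempty := by
      rw [← Set.ncard_pos, hs]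
      exact Nat.succ_pos m
    obtain ⟨a, has⟩ := hne
    let t : Set (SubMulAction.ofStabilizer G a) := Subtype.val ⁻¹' s
    have hat : Subtype.val '' t = s \ {a} := by
      rw [Set.image_preimage_eq_inter_range]
      simp only [Subtype.range_coe_subtype]
      rw [Set.sdiff_eq_compl_inter, Set.inter_comm]
      congr
    have hat' : s = insert a (Subtype.val '' t) := by
      rw [hat, Set.insert_sdiff_singleton, Set.insert_eq_of_mem has]
    have htcard : t.ncard = m := by
      rw [← Nat.succ_inj, Nat.succ_eq_add_one, Nat.succ_eq_add_one, ← hs, hat', eq_comm]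
      suffices ¬ a ∈ (Subtype.val '' t) by
        rw [Set.ncard_insert_of_notMem this (Set.toFinite _),
          Set.ncard_image_of_injective _ Subtype.coe_injective]
      intro h
      obtain ⟨⟨b, hb⟩, _, hb'⟩ := h
      apply hb
      simp only [← hb', Set.mem_singleton_iff]
    have e : m + 1 + k = (m + k).succ := by omega
    rw [e]
    rw [SubMulAction.ofStabilizer.isMultiplyPretransitive (a := a)]
    apply ih t htcard (SubMulAction.ofStabilizer.isMultiplyPretransitive.mp hG)
    have h1 : IsMultiplyPretransitive (fixingSubgroup G (insert a (Subtype.val '' t)))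
        (ofFixingSubgroup G (insert a (Subtype.val '' t))) k :=
      (IsPretransitive.of_embedding_congr (n := Fin k)
        (MulEquiv.surjective _)
        (ofFixingSubgroup_of_eq_bijective (M := G) (hst := hat'))).mp h
    exact (IsPretransitive.of_embedding_congr (n := Fin k)
        (MulEquiv.surjective _)
        (ofFixingSubgroup_insert_map_bijective (M := G) (a := a) (s := t))).mp h1

/-- Jordan: a primitive group in which the pointwise stabiliser of a set `s` is doubly transitive on the complement of `s` (which has at least 2 points) is `(|s| + 2)`-transitive. -/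
theorem result {α : Type*} [Fintype α] [DecidableEq α] (G : Subgroup (Equiv.Perm α)) (hG : MulAction.IsPreprimitive G α) (s : Set α) {m : ℕ} (hsm : s.ncard = m) (hm : m + 2 ≤ Fintype.card α) (h2 : MulAction.IsMultiplyPretransitive (fixingSubgroup G s) (SubMulAction.ofFixingSubgroup G s) 2) : MulAction.IsMultiplyPretransitive G α (m + 2) := by
  have hcard : Nat.card α = Fintype.card α := Nat.card_eq_fintype_card
  rcases Nat.eq_zero_or_pos m with hm0 | hmpos
  · subst hm0
    exact aux 0 2 s hsm MulAction.is_zero_pretransitive h2
  · obtain ⟨n, rfl⟩ := Nat.exists_eq_succ_of_ne_zero (Nat.pos_iff_ne_zero.mp hmpos)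
    have hprim : MulAction.IsPreprimitive (fixingSubgroup G s) (SubMulAction.ofFixingSubgroup G s) :=
      MulAction.isPreprimitive_of_is_two_pretransitive h2
    have hJ : MulAction.IsMultiplyPreprimitive G α (n + 2) :=
      hG.isMultiplyPreprimitive hsm (by rw [hcard]; omega) hprim
    have hJ' : MulAction.IsMultiplyPretransitive G α (n + 2) :=
      MulAction.IsMultiplyPreprimitive.isMultiplyPretransitive G α (n + 2)
    have hJ'' : MulAction.IsMultiplyPretransitive G α (n + 1) :=
      MulAction.isMultiplyPretransitive_of_le (n := n + 2) (by omega) (by rw [hcard]; omega)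
    exact aux (n + 1) 2 s hsm hJ'' h2

end Cfsg.Agent.S0712
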