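import Cfsg.Statements.S0714
import Mathlib

set_option autoImplicit false
open Cfsg

namespace Cfsg.Agent.S0714

open MulAction

theorem exists_notMem {α : Type*} [Fintype α] (S : Finset α) (h : S.card < Fintype.card α) :
    ∃ x, x ∉ S := by
  classical
  by_contra hcon
  push Not at hcon
  have h2 : S = Finset.univ := Finset.eq_univ_iff_forall.mpr hcon
  rw [h2, Finset.card_univ] at h
  exact lt_irrefl _ h


/-- Over any field, the permutation module of the alternating group of degree at least 5 has exactly four invariant subspaces: zero, the constant functions, the functions with coordinate sum zero, and everything. -/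
theorem result {α : Type*} [Fintype α] [DecidableEq α] (hα : 5 ≤ Fintype.card α) {K : Type*} [Field K] (W : Subrepresentation (Cfsg.permRep K (alternatingGroup α) α)) : W.toSubmodule = ⊥ ∨ W = Cfsg.permConstants K (alternatingGroup α) α ∨ W = Cfsg.permSumZero K (alternatingGroup α) α ∨ W.toSubmodule = ⊤ := by
  classical
  obtain ⟨U, hU⟩ : ∃ U, U = W.toSubmodule := ⟨_, rfl⟩
  have hrep : ∀ (g : alternatingGroup α) (v : α → K),
      (Cfsg.permRep K (alternatingGroup α) α) g v = fun x => v (g⁻¹ • x) := fun g v => rfl
  have hinvar : ∀ (g : alternatingGroup α) (v : α → K), v ∈ U → (fun x => v (g⁻¹ • x)) ∈ U := by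
    intro g v hv
    rw [hU] at hv ⊢
    have h := W.apply_mem_toSubmodule g hv
    rwa [hrep] at h
  have hinv : ∀ (σ : Equiv.Perm α), σ ∈ alternatingGroup α → ∀ v ∈ U, (fun x => v (σ x)) ∈ U := by
    intro σ hσ v hv
    have h := hinvar (⟨σ⁻¹, inv_mem hσ⟩ : alternatingGroup α) v hv
    have e : (fun x => v ((⟨σ⁻¹, inv_mem hσ⟩ : alternatingGroup α)⁻¹ • x)) = fun x => v (σ x) := by
      funext x
      rfl
    rwa [e] at h
  have hcard : 5 ≤ Fintype.card α := hα
  obtain ⟨x0⟩ : Nonempty α := by
    rw [← Fintype.card_pos_iff]; omega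
  by_cases hconst : ∀ v ∈ U, ∀ x y : α, v x = v y
  · by_cases hbot : U = ⊥
    · left; rw [← hU]; exact hbot
    · right; left
      apply Subrepresentation.toSubmodule_injective
      show W.toSubmodule = Submodule.span K {fun _ => (1 : K)}
      rw [← hU]
      obtain ⟨v, hv, hv0⟩ := (Submodule.ne_bot_iff U).mp hbot
      have hvx : v x0 ≠ 0 := by
        intro h0
        apply hv0
        funext y
        rw [hconst v hv y x0, h0]; rfl
      apply le_antisymm
      · intro u hu
        rw [Submodule.mem_span_singleton]
        refine ⟨u x0, ?_⟩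
        funext y
        rw [hconst u hu y x0]
        simp
      · rw [Submodule.span_le, Set.singleton_subset_iff]
        have h1 : (fun _ : α => (1 : K)) = (v x0)⁻¹ • v := by
          funext y
          rw [Pi.smul_apply, smul_eq_mul, hconst v hv y x0, inv_mul_cancel₀ hvx]
        rw [h1]
        exact U.smul_mem _ hv
  · right; right
    push Not at hconst
    obtain ⟨v, hv, i, j, hij⟩ := hconst
    have hij' : i ≠ j := fun h => hij (by rw [h])
    obtain ⟨l, hl⟩ := exists_notMem ({i, j} : Finset α)
      (lt_of_le_of_lt Finset.card_le_two (by omega))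
    simp only [Finset.mem_insert, Finset.mem_singleton, not_or] at hl
    obtain ⟨m, hm⟩ := exists_notMem ({i, j, l} : Finset α)
      (lt_of_le_of_lt Finset.card_le_three (by omega))
    simp only [Finset.mem_insert, Finset.mem_singleton, not_or] at hm
    obtain ⟨p, hp⟩ := exists_notMem ({i, j, l, m} : Finset α)
      (lt_of_le_of_lt Finset.card_le_four (by omega))
    simp only [Finset.mem_insert, Finset.mem_singleton, not_or] at hp
    obtain ⟨hli, hlj⟩ := hl
    obtain ⟨hmi, hmj, hml⟩ := hm
    obtain ⟨hpi, hpj, hpl, hpm⟩ := hp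
    -- the two three-cycles
    have hc_mem : (Equiv.swap i j * Equiv.swap j l) ∈ alternatingGroup α := by
      rw [Equiv.Perm.mem_alternatingGroup, Equiv.Perm.sign_mul, Equiv.Perm.sign_swap hij',
        Equiv.Perm.sign_swap (Ne.symm hlj)]; rfl
    have hπ_mem : (Equiv.swap i m * Equiv.swap m p) ∈ alternatingGroup α := by
      rw [Equiv.Perm.mem_alternatingGroup, Equiv.Perm.sign_mul, Equiv.Perm.sign_swap (Ne.symm hmi),
        Equiv.Perm.sign_swap (Ne.symm hpm)]; rfl
    obtain ⟨w, hw⟩ : ∃ w : α → K, w = v - fun x => v ((Equiv.swap i j * Equiv.swap j l) x) :=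
      ⟨_, rfl⟩
    have hwU : w ∈ U := by
      rw [hw]; exact U.sub_mem hv (hinv _ hc_mem v hv)
    have hwi : w i = v i - v j := by
      rw [hw]
      simp only [Pi.sub_apply, Equiv.Perm.mul_apply]
      rw [Equiv.swap_apply_of_ne_of_ne hij' (Ne.symm hli), Equiv.swap_apply_left]
    have hwi0 : w i ≠ 0 := by rw [hwi]; exact sub_ne_zero.mpr hij
    have hw0 : ∀ x, x ≠ i → x ≠ j → x ≠ l → w x = 0 := by
      intro x hxi hxj hxl
      rw [hw]
      simp only [Pi.sub_apply, Equiv.Perm.mul_apply]
      rw [Equiv.swap_apply_of_ne_of_ne hxj hxl, Equiv.swap_apply_of_ne_of_ne hxi hxj, sub_self]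
    have hzU : (w - fun x => w ((Equiv.swap i m * Equiv.swap m p) x)) ∈ U :=
      U.sub_mem hwU (hinv _ hπ_mem w hwU)
    have hz : (w - fun x => w ((Equiv.swap i m * Equiv.swap m p) x)) =
        w i • (Pi.single i (1 : K) - Pi.single p (1 : K) : α → K) := by
      funext x
      simp only [Pi.sub_apply, Equiv.Perm.mul_apply, Pi.smul_apply, smul_eq_mul, Pi.single_apply]
      by_cases hxi : x = i
      · subst hxi
        rw [Equiv.swap_apply_of_ne_of_ne (Ne.symm hmi) (Ne.symm hpi), Equiv.swap_apply_left,
          hw0 m hmi hmj hml, if_pos rfl, if_neg (Ne.symm hpi)]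
        ring
      · by_cases hxm : x = m
        · subst hxm
          rw [Equiv.swap_apply_left, Equiv.swap_apply_of_ne_of_ne hpi hpm,
            hw0 x hmi hmj hml, hw0 p hpi hpj hpl, if_neg hmi, if_neg (Ne.symm hpm)]
          ring
        · by_cases hxp : x = p
          · subst hxp
            rw [Equiv.swap_apply_right, Equiv.swap_apply_right, hw0 x hpi hpj hpl,
              if_neg hpi, if_pos rfl]
            ring
          · rw [Equiv.swap_apply_of_ne_of_ne hxm hxp, Equiv.swap_apply_of_ne_of_ne hxi hxm,
              if_neg hxi, if_neg hxp]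
            ring
    have hbase : (Pi.single i (1 : K) - Pi.single p (1 : K) : α → K) ∈ U := by
      have h1 : (Pi.single i (1 : K) - Pi.single p (1 : K) : α → K) =
          (w i)⁻¹ • (w i • (Pi.single i (1 : K) - Pi.single p (1 : K) : α → K)) := by
        rw [smul_smul, inv_mul_cancel₀ hwi0, one_smul]
      rw [h1, ← hz]
      exact U.smul_mem _ hzU
    -- two-transitivity
    have h2t : IsMultiplyPretransitive (alternatingGroup α) α 2 := by
      haveI := alternatingGroup.isMultiplyPretransitive α
      have hc : Nat.card α = Fintype.card α := Nat.card_eq_fintype_card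
      exact isMultiplyPretransitive_of_le (G := alternatingGroup α) (α := α)
        (n := Nat.card α - 2) (by omega) (by omega)
    rw [is_two_pretransitive_iff] at h2t
    have hdiff : ∀ x y : α, x ≠ y → (Pi.single x (1 : K) - Pi.single y (1 : K) : α → K) ∈ U := by
      intro x y hxy
      obtain ⟨g, hgi, hgp⟩ := h2t (Ne.symm hpi) hxy
      have h := hinvar g _ hbase
      have e : (fun z => (Pi.single i (1 : K) - Pi.single p (1 : K) : α → K) (g⁻¹ • z)) =
          (Pi.single x (1 : K) - Pi.single y (1 : K) : α → K) := by
        funext z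
        simp only [Pi.sub_apply, Pi.single_apply, inv_smul_eq_iff, hgi, hgp]
      rwa [e] at h
    have hS : ∀ f : α → K, ∑ x, f x = 0 → f ∈ U := by
      intro f hf
      have h1 : ∑ x, f x • (Pi.single x (1 : K) - Pi.single x0 (1 : K) : α → K) = f := by
        simp only [smul_sub, Finset.sum_sub_distrib, ← Finset.sum_smul, hf, zero_smul, sub_zero]
        funext y
        simp [Finset.sum_apply, Pi.single_apply]
      rw [← h1]
      apply Submodule.sum_mem
      intro x _
      apply U.smul_mem
      by_cases hx : x = x0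
      · rw [hx, sub_self]; exact U.zero_mem
      · exact hdiff x x0 hx
    by_cases hle : ∀ u ∈ U, ∑ x, u x = 0
    · left
      apply Subrepresentation.toSubmodule_injective
      rw [← hU]
      apply le_antisymm
      · intro u hu; exact hle u hu
      · intro f hf; exact hS f hf
    · right
      push Not at hle
      obtain ⟨u, hu, hu0⟩ := hle
      rw [← hU, eq_top_iff]
      intro f _
      have h1 : f = (f - ((∑ x, f x) / (∑ x, u x)) • u) + ((∑ x, f x) / (∑ x, u x)) • u := by
        rw [sub_add_cancel]
      rw [h1]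
      apply U.add_mem _ (U.smul_mem _ hu)
      apply hS
      simp only [Pi.sub_apply, Pi.smul_apply, smul_eq_mul, Finset.sum_sub_distrib, ← Finset.mul_sum]
      rw [div_mul_cancel₀ _ hu0, sub_self]

end Cfsg.Agent.S0714
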