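import Cfsg.Statements.S0724
-- import your own Cfsg.Agent.* helpers here
import Mathlib

set_option autoImplicit false
open Cfsg

namespace Cfsg.Agent.S0724

/-- Blichfeldt's Theorem: if a finite set `L` of natural numbers contains the number of fixed points of every non-identity element of a permutation group `G` of degree `n`, then the order of `G` divides `∏ (n - l)` over `l ∈ L`. -/
theorem result {α : Type*} [Fintype α] [DecidableEq α] (G : Subgroup (Equiv.Perm α)) (L : Finset ℕ) (hL : ∀ g ∈ G, g ≠ 1 → Nat.card (MulAction.fixedBy α g) ∈ L) : Nat.card G ∣ ∏ l ∈ L, (Fintype.card α - l) := by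
  classical
  let fx : G → ℕ := fun g => Nat.card (MulAction.fixedBy α (g : Equiv.Perm α))
  have hbase : ∀ k : ℕ, (Nat.card G : ℤ) ∣ ∑ g : G, (fx g : ℤ) ^ k := by
    intro k
    have hB := MulAction.sum_card_fixedBy_eq_card_orbits_mul_card_group G (Fin k → α)
    have hfix : ∀ g : G, Fintype.card (MulAction.fixedBy (Fin k → α) g) = fx g ^ k := by
      intro g
      have e : MulAction.fixedBy (Fin k → α) g ≃
          (Fin k → MulAction.fixedBy α (g : Equiv.Perm α)) :=
        { toFun := fun f i => ⟨f.1 i, congrFun f.2 i⟩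
          invFun := fun f => ⟨fun i => (f i).1, funext fun i => (f i).2⟩
          left_inv := fun f => rfl
          right_inv := fun f => rfl }
      rw [Fintype.card_congr e, Fintype.card_fun, Fintype.card_fin]
      simp only [fx, Nat.card_eq_fintype_card]
    have h2 : (∑ g : G, (fx g : ℤ) ^ k) =
        ((Fintype.card (Quotient (MulAction.orbitRel G (Fin k → α))) * Fintype.card G : ℕ) : ℤ) := by
      rw [← hB]
      push_cast
      exact Finset.sum_congr rfl fun g _ => by rw [hfix g]; push_cast; rfl
    rw [h2, Nat.card_eq_fintype_card]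
    push_cast
    exact dvd_mul_left _ _
  have hmain : ∀ (L : Finset ℕ) (k : ℕ),
      (Nat.card G : ℤ) ∣ ∑ g : G, (fx g : ℤ) ^ k * ∏ l ∈ L, ((fx g : ℤ) - l) := by
    intro L
    induction L using Finset.induction_on with
    | empty =>
      intro k
      simpa using hbase k
    | insert l₀ L' hl₀ ih =>
      intro k
      have e : ∀ g : G, (fx g : ℤ) ^ k * ∏ l ∈ insert l₀ L', ((fx g : ℤ) - l) =
          (fx g : ℤ) ^ (k + 1) * ∏ l ∈ L', ((fx g : ℤ) - l) -
            l₀ * ((fx g : ℤ) ^ k * ∏ l ∈ L', ((fx g : ℤ) - l)) := by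
        intro g
        rw [Finset.prod_insert hl₀]
        ring
      rw [Finset.sum_congr rfl (fun g _ => e g), Finset.sum_sub_distrib, ← Finset.mul_sum]
      exact dvd_sub (ih (k + 1)) (Dvd.dvd.mul_left (ih k) _)
  have h0 := hmain L 0
  simp only [pow_zero, one_mul] at h0
  have hsum : ∑ g : G, ∏ l ∈ L, ((fx g : ℤ) - l) = ∏ l ∈ L, ((Fintype.card α : ℤ) - l) := by
    rw [Finset.sum_eq_single (1 : G)]
    · have h1 : fx 1 = Fintype.card α := by
        have hu : MulAction.fixedBy α ((1 : G) : Equiv.Perm α) = Set.univ := by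
          ext x; simp [MulAction.mem_fixedBy]
        simp only [fx]
        rw [hu, Nat.card_univ, Nat.card_eq_fintype_card]
      rw [h1]
    · intro g _ hg
      have hg1 : (g : Equiv.Perm α) ≠ 1 := fun h => hg (Subtype.ext h)
      have hmem := hL (g : Equiv.Perm α) g.2 hg1
      exact Finset.prod_eq_zero hmem (sub_self _)
    · intro h
      exact absurd (Finset.mem_univ _) h
  rw [hsum] at h0
  by_cases hle : ∀ l ∈ L, l ≤ Fintype.card α
  · have hcast : (∏ l ∈ L, ((Fintype.card α : ℤ) - l)) =
        ((∏ l ∈ L, (Fintype.card α - l) : ℕ) : ℤ) := by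
      rw [Nat.cast_prod]
      exact Finset.prod_congr rfl fun l hl => by rw [Nat.cast_sub (hle l hl)]
    rw [hcast] at h0
    exact Int.natCast_dvd_natCast.mp h0
  · push Not at hle
    obtain ⟨l, hl, hlt⟩ := hle
    rw [Finset.prod_eq_zero hl (Nat.sub_eq_zero_of_le hlt.le)]
    exact dvd_zero _

end Cfsg.Agent.S0724
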