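import Cfsg.Statements.S0727
import Cfsg.Agent.Lib.helper2.Sharp3M

set_option autoImplicit false
open Cfsg

open Cfsg.Agent.Lib.helper2.Sharp3

namespace Cfsg.Agent.S0727

/-- A sharply triply transitive permutation group of degree `2^f + 1` is isomorphic to the projective general linear group of degree 2 over the field with `2^f` elements. -/
theorem result {α : Type*} [Fintype α] [DecidableEq α] {f : ℕ} (hf : 1 ≤ f) (hα : Fintype.card α = 2 ^ f + 1) (G : Subgroup (Equiv.Perm α)) (h3 : MulAction.IsMultiplyPretransitive G α 3) (hsharp : ∀ x : Fin 3 ↪ α, MulAction.stabilizer G x = ⊥) : ∃ (F : Type) (_ : Field F) (_ : Fintype F), Fintype.card F = 2 ^ f ∧ Nonempty (G ≃* Matrix.ProjGenLinGroup (Fin 2) F) := by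
  classical
  have h3t := three_trans_elem G h3
  have hsh : ∀ g ∈ G, ∀ a b c : α, a ≠ b → a ≠ c → b ≠ c → g a = a → g b = b → g c = c →
      g = 1 := by
    intro g hg a b c hab hac hbc ha hb hc
    have hmem : (⟨g, hg⟩ : G) ∈ MulAction.stabilizer G (emb3 a b c hab hac hbc) := by
      rw [MulAction.mem_stabilizer_iff]
      apply Function.Embedding.ext
      intro i
      fin_cases i
      · exact ha
      · exact hb
      · exact hc
    rw [hsharp, Subgroup.mem_bot] at hmem
    exact congrArg Subtype.val hmem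
  have h2f : 2 ≤ 2 ^ f := by
    calc 2 = 2 ^ 1 := by norm_num
      _ ≤ 2 ^ f := Nat.pow_le_pow_right (by norm_num) hf
  have hodd : Odd (Fintype.card α) := by
    rw [hα]
    have h2 : Even (2 ^ f) := (Nat.even_pow' (by omega)).mpr even_two
    exact h2.add_one
  obtain ⟨F, hField, hFin, hChar, hcard, ⟨e⟩⟩ := sharp3_main G hodd (by omega) h3t hsh
  obtain ⟨e'⟩ := sl2_equiv_pgl2 F
  exact ⟨F, hField, hFin, by omega, ⟨e.trans e'⟩⟩

end Cfsg.Agent.S0727
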