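import Cfsg.Statements.S0728
import Cfsg.Agent.Lib.helper2.Sharp3

set_option autoImplicit false
open Cfsg

open Cfsg.Agent.Lib.helper2.Sharp3

namespace Cfsg.Agent.S0728

/-- In a sharply triply transitive group of even degree at least 6 (degree `q + 1`, `q` odd), a two-point stabiliser has at most one subgroup of order 3. -/
theorem result {α : Type*} [Fintype α] [DecidableEq α] (heven : Even (Fintype.card α)) (h6 : 6 ≤ Fintype.card α) (G : Subgroup (Equiv.Perm α)) (h3 : MulAction.IsMultiplyPretransitive G α 3) (hsharp : ∀ x : Fin 3 ↪ α, MulAction.stabilizer G x = ⊥) {a b : α} (hab : a ≠ b) (A B : Subgroup G) (hA : A ≤ MulAction.stabilizer G a ⊓ MulAction.stabilizer G b) (hB : B ≤ MulAction.stabilizer G a ⊓ MulAction.stabilizer G b) (hA3 : Nat.card A = 3) (hB3 : Nat.card B = 3) : A = B := by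
  classical
  have h3t0 := three_trans_elem G h3
  have h3t : ∀ a b c a' b' c' : α, a ≠ b → a ≠ c → b ≠ c → a' ≠ b' → a' ≠ c' → b' ≠ c' →
      ∃ g : G, g • a = a' ∧ g • b = b' ∧ g • c = c' := by
    intro a b c a' b' c' h1 h2 h3' h4 h5 h6
    obtain ⟨g, hg, e1, e2, e3⟩ := h3t0 a b c a' b' c' h1 h2 h3' h4 h5 h6
    exact ⟨⟨g, hg⟩, e1, e2, e3⟩
  have hsh : ∀ g : G, ∀ a b c : α, a ≠ b → a ≠ c → b ≠ c → g • a = a → g • b = b → g • c = c →
      g = 1 := by
    intro g a b c hab hac hbc ha hb hc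
    have hmem : g ∈ MulAction.stabilizer G (emb3 a b c hab hac hbc) := by
      rw [MulAction.mem_stabilizer_iff]
      apply Function.Embedding.ext
      intro i
      fin_cases i
      · exact ha
      · exact hb
      · exact hc
    rw [hsharp, Subgroup.mem_bot] at hmem
    exact hmem
  have heq : ∀ s t : G, ∀ p q r : α, p ≠ q → p ≠ r → q ≠ r → s • p = t • p → s • q = t • q →
      s • r = t • r → s = t := by
    intro s t p q r hpq hpr hqr h1 h2 h3'
    have h4 : t⁻¹ * s = 1 := by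
      apply hsh _ p q r hpq hpr hqr
      · rw [mul_smul, h1, inv_smul_smul]
      · rw [mul_smul, h2, inv_smul_smul]
      · rw [mul_smul, h3', inv_smul_smul]
    exact (inv_mul_eq_one.mp h4).symm
  obtain ⟨x, hxa, hxb⟩ := exists_third (by omega) a b
  obtain ⟨v, hva, hvb, hvx⟩ := h3t a b x b a x hab (Ne.symm hxa) (Ne.symm hxb) (Ne.symm hab)
    (Ne.symm hxb) (Ne.symm hxa)
  -- facts about elements of order three fixing a and b
  have hfacts : ∀ g : G, g ^ 3 = 1 → g ≠ 1 → g • a = a → g • b = b →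
      g • x ≠ x ∧ g • g • x ≠ x ∧ g • g • x ≠ g • x ∧ g • g • g • x = x := by
    intro g hg3 hg1 hga hgb
    have h1 : g • x ≠ x := fun h => hg1 (hsh g a b x hab (Ne.symm hxa) (Ne.symm hxb) hga hgb h)
    have h3' : g • g • g • x = x := by
      rw [← mul_smul, ← mul_smul, ← pow_three', hg3, one_smul]
    refine ⟨h1, ?_, ?_, h3'⟩
    · intro h
      apply h1
      rw [h] at h3'
      exact h3'
    · intro h
      exact h1 (smul_left_cancel g h)
  have key : ∀ g₀ g : G, g₀ ^ 3 = 1 → g₀ ≠ 1 → g₀ • a = a → g₀ • b = b →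
      g ^ 3 = 1 → g ≠ 1 → g • a = a → g • b = b → g = g₀ ∨ g = v * g₀ * v⁻¹ := by
    intro g₀ g h03 h01 h0a h0b hg3 hg1 hga hgb
    obtain ⟨e1, e2, e3, e4⟩ := hfacts g₀ h03 h01 h0a h0b
    obtain ⟨f1, f2, f3, f4⟩ := hfacts g hg3 hg1 hga hgb
    obtain ⟨h, hhx, hh1, hh2⟩ := h3t x (g₀ • x) (g₀ • g₀ • x) x (g • x) (g • g • x)
      (Ne.symm e1) (Ne.symm e2) (Ne.symm e3) (Ne.symm f1) (Ne.symm f2) (Ne.symm f3)
    have hconj : h * g₀ * h⁻¹ = g := by
      apply heq _ _ x (g • x) (g • g • x) (Ne.symm f1) (Ne.symm f2) (Ne.symm f3)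
      · have : h⁻¹ • x = x := by rw [inv_smul_eq_iff, hhx]
        rw [mul_smul, mul_smul, this, hh1]
      · have : h⁻¹ • g • x = g₀ • x := by rw [inv_smul_eq_iff, hh1]
        rw [mul_smul, mul_smul, this, hh2]
      · have : h⁻¹ • g • g • x = g₀ • g₀ • x := by rw [inv_smul_eq_iff, hh2]
        rw [mul_smul, mul_smul, this, e4, hhx, f4]
    have hfixg : ∀ y : α, g₀ • y = y → g • (h • y) = h • y := by
      intro y hy
      rw [← hconj, mul_smul, mul_smul, inv_smul_smul, hy]
    have hfix2 : ∀ y : α, g • y = y → y = a ∨ y = b := by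
      intro y hy
      by_contra hcon
      push Not at hcon
      exact hg1 (hsh g a b y hab (Ne.symm hcon.1) (Ne.symm hcon.2) hga hgb hy)
    have hha := hfix2 _ (hfixg a h0a)
    have hhb := hfix2 _ (hfixg b h0b)
    have hne : h • a ≠ h • b := fun hh => hab (smul_left_cancel h hh)
    rcases hha with hha | hha
    · left
      have hhb' : h • b = b := by
        rcases hhb with hhb | hhb
        · exact absurd (hha.trans hhb.symm) hne
        · exact hhb
      have h1 : h = 1 := hsh h a b x hab (Ne.symm hxa) (Ne.symm hxb) hha hhb' hhx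
      rw [← hconj, h1, one_mul, inv_one, mul_one]
    · right
      have hhb' : h • b = a := by
        rcases hhb with hhb | hhb
        · exact hhb
        · exact absurd (hha.trans hhb.symm) hne
      have h1 : h = v := heq h v a b x hab (Ne.symm hxa) (Ne.symm hxb) (hha.trans hva.symm)
        (hhb'.trans hvb.symm) (hhx.trans hvx.symm)
      rw [← hconj, h1]
  -- a generator of A
  have hAfin : Finite A := Nat.finite_of_card_ne_zero (by omega)
  have hBfin : Finite B := Nat.finite_of_card_ne_zero (by omega)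
  have hAnt : Nontrivial A := (Finite.one_lt_card_iff_nontrivial).mp (by omega)
  obtain ⟨g₀', hg₀'⟩ := exists_ne (1 : A)
  obtain ⟨g₀, hg₀⟩ : ∃ g₀ : G, g₀ = (g₀' : G) := ⟨_, rfl⟩
  have hg₀A : g₀ ∈ A := by rw [hg₀]; exact g₀'.2
  have h01 : g₀ ≠ 1 := by
    intro h
    apply hg₀'
    apply Subtype.ext
    rw [← hg₀, h]
    rfl
  have hpow : ∀ (C : Subgroup G), Nat.card C = 3 → ∀ g ∈ C, g ^ 3 = 1 := by
    intro C hC g hg
    have h1 : (⟨g, hg⟩ : C) ^ Nat.card C = 1 := pow_card_eq_one'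
    rw [hC] at h1
    exact congrArg Subtype.val h1
  have h03 := hpow A hA3 g₀ hg₀A
  have hstab : ∀ (C : Subgroup G), C ≤ MulAction.stabilizer G a ⊓ MulAction.stabilizer G b →
      ∀ g ∈ C, g • a = a ∧ g • b = b := by
    intro C hC g hg
    have := hC hg
    rw [Subgroup.mem_inf] at this
    exact this
  obtain ⟨h0a, h0b⟩ := hstab A hA g₀ hg₀A
  have hinv3 : g₀⁻¹ ^ 3 = 1 := by rw [inv_pow, h03, inv_one]
  have hinv1 : g₀⁻¹ ≠ 1 := fun h => h01 (inv_eq_one.mp h)
  have hinvne : g₀⁻¹ ≠ g₀ := by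
    intro h
    apply h01
    have h2 : g₀ * g₀ = 1 := by
      nth_rewrite 1 [← h]
      exact inv_mul_cancel g₀
    have h3' : g₀ ^ 3 = g₀ * g₀ * g₀ := pow_three' g₀
    rw [h2, one_mul] at h3'
    rw [← h3', h03]
  obtain ⟨hia, hib⟩ := hstab A hA g₀⁻¹ (A.inv_mem hg₀A)
  have hvg : g₀⁻¹ = v * g₀ * v⁻¹ := by
    rcases key g₀ g₀⁻¹ h03 h01 h0a h0b hinv3 hinv1 hia hib with h | h
    · exact absurd h hinvne
    · exact h
  have hBA : B ≤ A := by
    intro g hg
    by_cases hg1 : g = 1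
    · rw [hg1]
      exact A.one_mem
    · obtain ⟨hga, hgb⟩ := hstab B hB g hg
      rcases key g₀ g h03 h01 h0a h0b (hpow B hB3 g hg) hg1 hga hgb with h | h
      · rw [h]
        exact hg₀A
      · rw [h, ← hvg]
        exact A.inv_mem hg₀A
  exact (Subgroup.eq_of_le_of_card_ge hBA (by rw [hA3, hB3])).symm

end Cfsg.Agent.S0728
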