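import Cfsg.Statements.S0733
-- import your own Cfsg.Agent.* helpers here
import Mathlib

set_option autoImplicit false
open Cfsg

namespace Cfsg.Agent.S0733

open scoped Pointwise

/-- A permutation group of affine type — generated by the translations of a finite vector space `V` over `ZMod p` together with a group `G₀` of linear automorphisms — is primitive on `V` if and only if `G₀` is irreducible on `V`. -/
theorem result {p : ℕ} [Fact p.Prime] {V : Type*} [AddCommGroup V] [Module (ZMod p) V] [Finite V] [Nontrivial V] (G₀ : Subgroup (V ≃ₗ[ZMod p] V)) (G : Subgroup (Equiv.Perm V)) (hG : ∀ σ : Equiv.Perm V, σ ∈ G ↔ ∃ g ∈ G₀, ∃ b : V, ∀ x : V, σ x = (g : V ≃ₗ[ZMod p] V) x + b) : MulAction.IsPreprimitive G V ↔ ∀ W : Submodule (ZMod p) V, (∀ g ∈ G₀, ∀ v ∈ W, (g : V ≃ₗ[ZMod p] V) v ∈ W) → W = ⊥ ∨ W = ⊤ := by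
  classical
  have htrans : ∀ b : V, ∃ τ : G, ∀ x : V, (τ : Equiv.Perm V) x = x + b := by
    intro b
    exact ⟨⟨Equiv.addRight b, (hG _).mpr ⟨1, G₀.one_mem, b, fun x => by simp⟩⟩, fun x => by simp⟩
  have hlin : ∀ g ∈ G₀, ∃ σ : G, ∀ x : V, (σ : Equiv.Perm V) x = (g : V ≃ₗ[ZMod p] V) x := by
    intro g hg
    exact ⟨⟨(g : V ≃ₗ[ZMod p] V).toEquiv, (hG _).mpr ⟨g, hg, 0, fun x => by simp⟩⟩, fun x => rfl⟩
  constructor
  · intro hprim W hW
    have hblock : MulAction.IsBlock G (W : Set V) := by
      rw [MulAction.isBlock_iff_smul_eq_or_disjoint]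
      intro σ
      obtain ⟨g, hg, b, hσ⟩ := (hG σ).mp σ.2
      have hmem : ∀ y, y ∈ σ • (W : Set V) ↔ y - b ∈ W := by
        intro y
        constructor
        · rintro ⟨w, hw, rfl⟩
          show (σ : Equiv.Perm V) w - b ∈ W
          rw [hσ, add_sub_cancel_right]; exact hW g hg w hw
        · intro hy
          refine ⟨(g⁻¹ : V ≃ₗ[ZMod p] V) (y - b), hW g⁻¹ (G₀.inv_mem hg) _ hy, ?_⟩
          show (σ : Equiv.Perm V) _ = y
          rw [hσ]
          have e : (g : V ≃ₗ[ZMod p] V) ((g⁻¹ : V ≃ₗ[ZMod p] V) (y - b)) = y - b := by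
            rw [← LinearEquiv.mul_apply, mul_inv_cancel]; rfl
          rw [e, sub_add_cancel]
      by_cases hb : b ∈ W
      · left
        ext y
        rw [hmem]
        exact ⟨fun h => by simpa using W.add_mem h hb, fun h => W.sub_mem h hb⟩
      · right
        rw [Set.disjoint_left]
        intro y hy hy'
        rw [hmem] at hy
        apply hb
        have h1 := W.sub_mem hy' hy
        simpa using h1
    rcases hprim.isTrivialBlock_of_isBlock hblock with hsub | htop
    · left
      rw [eq_bot_iff]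
      intro w hw
      rw [Submodule.mem_bot]
      exact hsub hw W.zero_mem
    · right
      rw [eq_top_iff]
      intro w _
      exact (htop ▸ Set.mem_univ w : w ∈ (W : Set V))
  · intro hirr
    have htr : MulAction.IsPretransitive G V := by
      constructor
      intro x y
      obtain ⟨τ, hτ⟩ := htrans (y - x)
      exact ⟨τ, by show (τ : Equiv.Perm V) x = y; rw [hτ]; abel⟩
    refine { toIsPretransitive := htr, isTrivialBlock_of_isBlock := ?_ }
    intro B hB
    by_contra hnt
    unfold MulAction.IsTrivialBlock at hnt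
    push Not at hnt
    obtain ⟨⟨b₀, hb₀, b₁, hb₁, hne⟩, hnu⟩ := hnt
    obtain ⟨τ, hτ⟩ := htrans (-b₀)
    have hB' : MulAction.IsBlock G (τ • B) := hB.translate τ
    have hmem' : ∀ y, y ∈ τ • B ↔ y + b₀ ∈ B := by
      intro y
      rw [Set.mem_smul_set_iff_inv_smul_mem]
      have e : τ⁻¹ • y = y + b₀ := by
        rw [inv_smul_eq_iff]
        show y = (τ : Equiv.Perm V) (y + b₀)
        rw [hτ]; abel
      rw [e]
    have h0 : (0 : V) ∈ τ • B := (hmem' 0).mpr (by rwa [zero_add])
    have hfix : ∀ σ : G, (σ : Equiv.Perm V) 0 ∈ τ • B → σ • (τ • B) = τ • B := by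
      intro σ hσ
      rcases MulAction.isBlock_iff_smul_eq_or_disjoint.mp hB' σ with h | h
      · exact h
      · exact absurd hσ (Set.disjoint_left.mp h (Set.smul_mem_smul_set (a := σ) h0))
    have hadd : ∀ u ∈ τ • B, ∀ v ∈ τ • B, v + u ∈ τ • B := by
      intro u hu v hv
      obtain ⟨τu, hτu⟩ := htrans u
      have h1 := hfix τu (by rw [hτu, zero_add]; exact hu)
      rw [← h1]
      have e : v + u = (τu : Equiv.Perm V) v := (hτu v).symm
      rw [e]; exact Set.smul_mem_smul_set (a := τu) hv
    have hG₀ : ∀ g ∈ G₀, ∀ v ∈ τ • B, (g : V ≃ₗ[ZMod p] V) v ∈ τ • B := by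
      intro g hg v hv
      obtain ⟨σ, hσ⟩ := hlin g hg
      have h1 := hfix σ (by rw [hσ, map_zero]; exact h0)
      rw [← h1, ← hσ]; exact Set.smul_mem_smul_set (a := σ) hv
    have hnsmul : ∀ (n : ℕ) (v : V), v ∈ τ • B → n • v ∈ τ • B := by
      intro n v hv
      induction n with
      | zero => rw [zero_smul]; exact h0
      | succ n ih => rw [succ_nsmul]; exact hadd v hv _ ih
    let W : Submodule (ZMod p) V :=
      { carrier := τ • B
        add_mem' := fun {u v} hu hv => hadd v hv u hu
        zero_mem' := h0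
        smul_mem' := by
          intro c v hv
          have e : c • v = c.val • v := by
            rw [← Nat.cast_smul_eq_nsmul (ZMod p), ZMod.natCast_zmod_val]
          rw [e]; exact hnsmul _ v hv }
    have hWmem : ∀ y, y ∈ W ↔ y ∈ τ • B := fun y => Iff.rfl
    rcases hirr W (fun g hg v hv => hG₀ g hg v hv) with hbot | htop
    · have h1 : b₁ - b₀ ∈ W := (hWmem _).mpr ((hmem' _).mpr (by rw [sub_add_cancel]; exact hb₁))
      rw [hbot, Submodule.mem_bot, sub_eq_zero] at h1
      exact hne h1.symm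
    · apply hnu
      apply Set.eq_univ_of_forall
      intro y
      have h1 : y - b₀ ∈ W := by rw [htop]; trivial
      have h2 := (hmem' _).mp ((hWmem _).mp h1)
      rwa [sub_add_cancel] at h2

end Cfsg.Agent.S0733
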