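import Cfsg.Statements.S0734
-- import your own Cfsg.Agent.* helpers here
import Mathlib

set_option autoImplicit false
open Cfsg

namespace Cfsg.Agent.S0734

open scoped Pointwise

/-- Higman's criterion for primitivity: a transitive action on a finite set is primitive if and only if every non-trivial orbital graph (edges = images of a fixed pair of distinct points) is connected. -/
theorem result {G : Type*} [Group G] {Ω : Type*} [Finite Ω] [MulAction G Ω] [MulAction.IsPretransitive G Ω] [Nontrivial Ω] : MulAction.IsPreprimitive G Ω ↔ ∀ a b : Ω, a ≠ b → (SimpleGraph.fromRel fun x y : Ω => ∃ g : G, g • a = x ∧ g • b = y).Connected := by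
  classical
  constructor
  · intro hprim a b hab
    obtain ⟨Γ, hΓ⟩ : ∃ Γ : SimpleGraph Ω,
        Γ = SimpleGraph.fromRel fun x y : Ω => ∃ g : G, g • a = x ∧ g • b = y := ⟨_, rfl⟩
    rw [← hΓ]
    have hadj : ∀ x y, Γ.Adj x y ↔ x ≠ y ∧
        ((∃ g : G, g • a = x ∧ g • b = y) ∨ (∃ g : G, g • a = y ∧ g • b = x)) := by
      intro x y; rw [hΓ, SimpleGraph.fromRel_adj]
    have hmap : ∀ (h : G) (x y : Ω), Γ.Adj x y → Γ.Adj (h • x) (h • y) := by
      intro h x y hxy
      rw [hadj] at hxy ⊢
      refine ⟨fun e => hxy.1 (MulAction.injective h e), ?_⟩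
      rcases hxy.2 with ⟨g, h1, h2⟩ | ⟨g, h1, h2⟩
      · left; exact ⟨h * g, by rw [mul_smul, h1], by rw [mul_smul, h2]⟩
      · right; exact ⟨h * g, by rw [mul_smul, h1], by rw [mul_smul, h2]⟩
    have hreach : ∀ (h : G) (x y : Ω), Γ.Reachable x y → Γ.Reachable (h • x) (h • y) := by
      intro h x y hxy
      let f : Γ →g Γ := ⟨fun z => h • z, fun {u v} huv => hmap h u v huv⟩
      exact hxy.map f
    obtain ⟨C, hCdef⟩ : ∃ C : Set Ω, C = {x | Γ.Reachable a x} := ⟨_, rfl⟩
    have hCmem : ∀ x, x ∈ C ↔ Γ.Reachable a x := fun x => by rw [hCdef]; rfl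
    have hC : MulAction.IsBlock G C := by
      rw [MulAction.isBlock_iff_smul_eq_or_disjoint]
      intro h
      by_cases hdis : Disjoint (h • C) C
      · right; exact hdis
      · left
        rw [Set.not_disjoint_iff] at hdis
        obtain ⟨z, hz1, hz2⟩ := hdis
        rw [Set.mem_smul_set_iff_inv_smul_mem, hCmem] at hz1
        rw [hCmem] at hz2
        have h1 : Γ.Reachable (h • a) z := by
          have h0 := hreach h _ _ hz1
          rwa [smul_inv_smul] at h0
        have h2 : Γ.Reachable a (h • a) := hz2.trans h1.symm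
        ext w
        rw [Set.mem_smul_set_iff_inv_smul_mem, hCmem, hCmem]
        constructor
        · intro hw
          have h0 := hreach h _ _ hw
          rw [smul_inv_smul] at h0
          exact h2.trans h0
        · intro hw
          have h3 : Γ.Reachable (h • a) w := h2.symm.trans hw
          have h0 := hreach h⁻¹ _ _ h3
          rwa [inv_smul_smul] at h0
    have hab' : Γ.Adj a b := (hadj a b).mpr ⟨hab, Or.inl ⟨1, one_smul _ _, one_smul _ _⟩⟩
    rcases hprim.isTrivialBlock_of_isBlock hC with hsub | htop
    · exact absurd (hsub ((hCmem a).mpr (SimpleGraph.Reachable.refl a))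
        ((hCmem b).mpr hab'.reachable)) hab
    · rw [SimpleGraph.connected_iff]
      refine ⟨fun u v => ?_, inferInstance⟩
      have hu : Γ.Reachable a u := (hCmem u).mp (htop ▸ Set.mem_univ u)
      have hv : Γ.Reachable a v := (hCmem v).mp (htop ▸ Set.mem_univ v)
      exact hu.symm.trans hv
  · intro hconn
    refine { toIsPretransitive := inferInstance, isTrivialBlock_of_isBlock := ?_ }
    intro B hB
    by_contra hnt
    unfold MulAction.IsTrivialBlock at hnt
    push Not at hnt
    obtain ⟨⟨a, ha, b, hb, hab⟩, hnu⟩ := hnt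
    apply hnu
    apply Set.eq_univ_of_forall
    intro y
    have hc := hconn a b hab
    have key : ∀ x y : Ω, (SimpleGraph.fromRel fun x y : Ω =>
        ∃ g : G, g • a = x ∧ g • b = y).Reachable x y → x ∈ B → y ∈ B := by
      intro x y hxy
      obtain ⟨p⟩ := hxy
      induction p with
      | nil => exact id
      | @cons u v w hadj p ih =>
        intro hx
        apply ih
        rw [SimpleGraph.fromRel_adj] at hadj
        obtain ⟨-, ⟨g, h1, h2⟩ | ⟨g, h1, h2⟩⟩ := hadj
        · have hu : u ∈ g • B := h1 ▸ Set.smul_mem_smul_set ha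
          have hgB : g • B = B := by
            rcases MulAction.isBlock_iff_smul_eq_or_disjoint.mp hB g with h | h
            · exact h
            · exact absurd hx (Set.disjoint_left.mp h hu)
          rw [← hgB, ← h2]; exact Set.smul_mem_smul_set hb
        · have hu : u ∈ g • B := h2 ▸ Set.smul_mem_smul_set hb
          have hgB : g • B = B := by
            rcases MulAction.isBlock_iff_smul_eq_or_disjoint.mp hB g with h | h
            · exact h
            · exact absurd hx (Set.disjoint_left.mp h hu)
          rw [← hgB, ← h1]; exact Set.smul_mem_smul_set ha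
    exact key a y (hc.preconnected a y) ha

end Cfsg.Agent.S0734
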