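import Cfsg.Statements.S0735
-- import your own Cfsg.Agent.* helpers here
import Mathlib

set_option autoImplicit false
open Cfsg

namespace Cfsg.Agent.S0735

open scoped Pointwise

/-- A 2-homogeneous permutation group (transitive on 2-subsets) of even order is doubly transitive; a non-trivial 2-homogeneous group is primitive. -/
theorem result {α : Type*} [Fintype α] [DecidableEq α] (G : Subgroup (Equiv.Perm α)) (h2 : MulAction.IsPretransitive G (Set.powersetCard α 2)) (hα : 3 ≤ Fintype.card α) : (Even (Nat.card G) → MulAction.IsMultiplyPretransitive G α 2) ∧ (G ≠ ⊥ → MulAction.IsPreprimitive G α) := by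
  classical
  have H : ∀ a b x y : α, a ≠ b → x ≠ y → ∃ g : G,
      ((g : Equiv.Perm α) a = x ∧ (g : Equiv.Perm α) b = y) ∨
      ((g : Equiv.Perm α) a = y ∧ (g : Equiv.Perm α) b = x) := by
    intro a b x y hab hxy
    have hs : ({a, b} : Finset α) ∈ Set.powersetCard α 2 :=
      Set.powersetCard.mem_iff.mpr (Finset.card_pair hab)
    have ht : ({x, y} : Finset α) ∈ Set.powersetCard α 2 :=
      Set.powersetCard.mem_iff.mpr (Finset.card_pair hxy)
    obtain ⟨g, hg⟩ := h2.exists_smul_eq (⟨_, hs⟩ : Set.powersetCard α 2) ⟨_, ht⟩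
    refine ⟨g, ?_⟩
    have h1 : g • ({a, b} : Finset α) = {x, y} := by
      have h0 : ((g • (⟨_, hs⟩ : Set.powersetCard α 2) : Set.powersetCard α 2) : Finset α)
          = {x, y} := congrArg Subtype.val hg
      exact h0
    have ha : (g : Equiv.Perm α) a ∈ ({x, y} : Finset α) := by
      rw [← h1]
      exact Finset.smul_mem_smul_finset (a := g) (Finset.mem_insert_self a {b})
    have hb : (g : Equiv.Perm α) b ∈ ({x, y} : Finset α) := by
      rw [← h1]
      exact Finset.smul_mem_smul_finset (a := g)
        (Finset.mem_insert_of_mem (Finset.mem_singleton_self b))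
    simp only [Finset.mem_insert, Finset.mem_singleton] at ha hb
    have hne : (g : Equiv.Perm α) a ≠ (g : Equiv.Perm α) b := fun h =>
      hab ((g : Equiv.Perm α).injective h)
    rcases ha with ha | ha <;> rcases hb with hb | hb
    · exact absurd (ha.trans hb.symm) hne
    · left; exact ⟨ha, hb⟩
    · right; exact ⟨ha, hb⟩
    · exact absurd (ha.trans hb.symm) hne
  have hthird : ∀ x y : α, ∃ z, z ≠ x ∧ z ≠ y := by
    intro x y
    by_contra hcon
    push Not at hcon
    have h1 : (Finset.univ : Finset α) ⊆ {x, y} := by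
      intro z _
      simp only [Finset.mem_insert, Finset.mem_singleton]
      by_cases h : z = x
      · left; exact h
      · right; exact hcon z h
    have h2' := Finset.card_le_card h1
    rw [Finset.card_univ] at h2'
    have h3' : ({x, y} : Finset α).card ≤ 2 := Finset.card_le_two
    omega
  constructor
  · intro heven
    have hfact : Fact (Nat.Prime 2) := ⟨Nat.prime_two⟩
    obtain ⟨t, ht⟩ := exists_prime_orderOf_dvd_card' (G := G) 2 (even_iff_two_dvd.mp heven)
    have ht1 : t ≠ 1 := by
      rintro rfl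
      rw [orderOf_one] at ht
      omega
    have ht2 : t * t = 1 := by rw [← pow_two, ← ht]; exact pow_orderOf_eq_one t
    obtain ⟨a, ha⟩ : ∃ a, (t : Equiv.Perm α) a ≠ a := by
      by_contra hcon
      push Not at hcon
      apply ht1
      apply Subtype.ext
      ext x
      exact hcon x
    obtain ⟨b, hb⟩ : ∃ b, b = (t : Equiv.Perm α) a := ⟨_, rfl⟩
    have htb : (t : Equiv.Perm α) b = a := by
      rw [hb]
      have h0 := congrArg (fun s : G => (s : Equiv.Perm α) a) ht2
      simpa using h0
    have hab : a ≠ b := by rw [hb]; exact fun h => ha h.symm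
    have K : ∀ u v : α, u ≠ v →
        ∃ g : G, (g : Equiv.Perm α) a = u ∧ (g : Equiv.Perm α) b = v := by
      intro u v huv
      obtain ⟨g, hg | hg⟩ := H a b u v hab huv
      · exact ⟨g, hg⟩
      · refine ⟨g * t, ?_, ?_⟩
        · show (g : Equiv.Perm α) ((t : Equiv.Perm α) a) = u
          rw [← hb]; exact hg.2
        · show (g : Equiv.Perm α) ((t : Equiv.Perm α) b) = v
          rw [htb]; exact hg.1
    rw [MulAction.isMultiplyPretransitive_iff]
    intro x y
    have hx : x 0 ≠ x 1 := fun h => absurd (x.injective h) (by decide)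
    have hy : y 0 ≠ y 1 := fun h => absurd (y.injective h) (by decide)
    obtain ⟨g₁, h₁a, h₁b⟩ := K _ _ hx
    obtain ⟨g₂, h₂a, h₂b⟩ := K _ _ hy
    refine ⟨g₂ * g₁⁻¹, ?_⟩
    apply DFunLike.ext
    intro i
    rw [Function.Embedding.smul_apply]
    show (g₂ : Equiv.Perm α) ((g₁ : Equiv.Perm α)⁻¹ (x i)) = y i
    fin_cases i
    · have e : (g₁ : Equiv.Perm α)⁻¹ (x 0) = a := Equiv.Perm.inv_eq_iff_eq.mpr h₁a.symm
      show (g₂ : Equiv.Perm α) ((g₁ : Equiv.Perm α)⁻¹ (x 0)) = y 0
      rw [e, h₂a]
    · have e : (g₁ : Equiv.Perm α)⁻¹ (x 1) = b := Equiv.Perm.inv_eq_iff_eq.mpr h₁b.symm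
      show (g₂ : Equiv.Perm α) ((g₁ : Equiv.Perm α)⁻¹ (x 1)) = y 1
      rw [e, h₂b]
  · intro _
    have htr : MulAction.IsPretransitive G α := by
      constructor
      intro x y
      by_cases hxy : x = y
      · exact ⟨1, by rw [hxy, one_smul]⟩
      · obtain ⟨z, hzx, hzy⟩ := hthird x y
        obtain ⟨g, hg | hg⟩ := H x z y z (Ne.symm hzx) (Ne.symm hzy)
        · exact ⟨g, hg.1⟩
        · refine ⟨g * g, ?_⟩
          show (g : Equiv.Perm α) ((g : Equiv.Perm α) x) = y
          rw [hg.1, hg.2]
    refine { toIsPretransitive := htr, isTrivialBlock_of_isBlock := ?_ }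
    intro B hB
    by_contra hnt
    unfold MulAction.IsTrivialBlock at hnt
    push Not at hnt
    obtain ⟨hns, hnu⟩ := hnt
    obtain ⟨x, hx, x', hx', hxx'⟩ := hns
    obtain ⟨y, hy⟩ : ∃ y, y ∉ B := by
      by_contra h
      push Not at h
      exact hnu (Set.eq_univ_of_forall h)
    have hxy : x ≠ y := fun h => hy (h ▸ hx)
    obtain ⟨g, hg⟩ := H x x' x y hxx' hxy
    have hmem : ∀ w ∈ B, (g : Equiv.Perm α) w ∈ g • B := fun w hw =>
      Set.smul_mem_smul_set (a := g) hw
    have hgB : g • B = B := by
      rcases (MulAction.isBlock_iff_smul_eq_or_disjoint.mp hB g) with h | h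
      · exact h
      · exfalso
        have hxgB : x ∈ g • B := by
          rcases hg with hg | hg
          · rw [← hg.1]; exact hmem x hx
          · rw [← hg.2]; exact hmem x' hx'
        exact Set.disjoint_left.mp h hxgB hx
    have hygB : y ∈ g • B := by
      rcases hg with hg | hg
      · rw [← hg.2]; exact hmem x' hx'
      · rw [← hg.1]; exact hmem x hx
    rw [hgB] at hygB
    exact hy hygB

end Cfsg.Agent.S0735
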