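import Cfsg.Statements.S0736
import Mathlib

set_option autoImplicit false
open Cfsg
open scoped Pointwise

namespace Cfsg.Agent.S0736

theorem choose_not_dvd (p : ℕ) (hp : p.Prime) : ∀ (a k : ℕ), p ^ a ∣ k →
    ¬ p ∣ Nat.choose (k + p ^ a - 1) (p ^ a - 1) := by
  intro a
  induction a with
  | zero =>
    intro k _
    rw [pow_zero, Nat.add_sub_cancel, Nat.sub_self, Nat.choose_zero_right, Nat.dvd_one]
    exact hp.ne_one
  | succ a ih =>
    intro k hk
    obtain ⟨k', rfl⟩ : ∃ k', k = p * k' := by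
      obtain ⟨c, hc⟩ := hk
      exact ⟨p ^ a * c, by rw [hc, pow_succ]; ring⟩
    have hk' : p ^ a ∣ k' := by
      rw [pow_succ, mul_comm] at hk
      exact (Nat.mul_dvd_mul_iff_left hp.pos).mp hk
    haveI : Fact p.Prime := ⟨hp⟩
    obtain ⟨s, hs⟩ : ∃ s, p = s + 1 := ⟨p - 1, by have := hp.pos; omega⟩
    obtain ⟨t, ht⟩ : ∃ t, p ^ a = t + 1 :=
      ⟨p ^ a - 1, by have := Nat.one_le_pow a p hp.pos; omega⟩
    have e1 : p * k' + p ^ (a + 1) - 1 = p * (k' + t) + s := by
      rw [pow_succ, ht]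
      apply Nat.sub_eq_of_eq_add
      rw [hs]; ring
    have e2 : p ^ (a + 1) - 1 = p * t + s := by
      rw [pow_succ, ht]
      apply Nat.sub_eq_of_eq_add
      rw [hs]; ring
    have e3 : k' + p ^ a - 1 = k' + t := by rw [ht]; rfl
    have e4 : p ^ a - 1 = t := by rw [ht]; rfl
    have hsp : s < p := by omega
    have hL := @Choose.choose_modEq_choose_mod_mul_choose_div_nat (p * (k' + t) + s) (p * t + s) p _
    rw [Nat.mul_add_mod, Nat.mul_add_mod, Nat.mod_eq_of_lt hsp, Nat.mul_add_div hp.pos,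
      Nat.mul_add_div hp.pos, Nat.div_eq_of_lt hsp, Nat.choose_self, one_mul, add_zero, add_zero]
      at hL
    rw [e1, e2]
    intro hdvd
    apply ih k' hk'
    rw [e3, e4]
    exact (Nat.ModEq.dvd_iff hL (dvd_refl p)).mp hdvd

theorem double_count {α : Type*} [DecidableEq α] (𝒯 : Finset (Finset α)) (k q c : ℕ)
    (hk : 1 ≤ k) (h𝒯 : ∀ T ∈ 𝒯, T.card = k - 1)
    (hc : ∀ S : Finset α, S.card = k → (𝒯.filter (· ⊆ S)).card = c)
    (J : Finset α) (hJ : J.card = k + q - 1) (hq : 1 ≤ q) :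
    Nat.choose (k + q - 1) k * c = q * (𝒯.filter (· ⊆ J)).card := by
  have h1 : ∑ S ∈ J.powersetCard k, (𝒯.filter (· ⊆ S)).card = Nat.choose (k + q - 1) k * c := by
    rw [Finset.sum_congr rfl (fun S hS => hc S (Finset.mem_powersetCard.mp hS).2),
      Finset.sum_const, Finset.card_powersetCard, hJ, smul_eq_mul]
  have h2 : ∑ S ∈ J.powersetCard k, (𝒯.filter (· ⊆ S)).card =
      ∑ T ∈ 𝒯, ((J.powersetCard k).filter (T ⊆ ·)).card := by
    simp only [Finset.card_filter]
    exact Finset.sum_comm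
  have h3 : ∀ T ∈ 𝒯, ((J.powersetCard k).filter (T ⊆ ·)).card = if T ⊆ J then q else 0 := by
    intro T hT
    split_ifs with hTJ
    · have hset : (J.powersetCard k).filter (T ⊆ ·) = (J \ T).image (fun b => insert b T) := by
        ext S
        simp only [Finset.mem_filter, Finset.mem_powersetCard, Finset.mem_image,
          Finset.mem_sdiff]
        constructor
        · rintro ⟨⟨hSJ, hSk⟩, hTS⟩
          obtain ⟨b, hb, rfl⟩ :=
            Finset.exists_eq_insert_iff.mpr ⟨hTS, by rw [h𝒯 T hT, hSk]; omega⟩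
          exact ⟨b, ⟨hSJ (Finset.mem_insert_self b T), hb⟩, rfl⟩
        · rintro ⟨b, ⟨hbJ, hbT⟩, rfl⟩
          refine ⟨⟨Finset.insert_subset hbJ hTJ, ?_⟩, Finset.subset_insert b T⟩
          rw [Finset.card_insert_of_notMem hbT, h𝒯 T hT]; omega
      rw [hset, Finset.card_image_of_injOn, Finset.card_sdiff_of_subset hTJ, hJ, h𝒯 T hT]
      · omega
      · intro b hb b' hb' hbb'
        have hbb'' : insert b T = insert b' T := hbb'
        simp only [Finset.coe_sdiff, Set.mem_sdiff, Finset.mem_coe] at hb hb'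
        have : b ∈ insert b' T := by rw [← hbb'']; exact Finset.mem_insert_self b T
        rcases Finset.mem_insert.mp this with h | h
        · exact h
        · exact absurd h hb.2
    · rw [Finset.card_eq_zero, Finset.filter_eq_empty_iff]
      intro S hS hTS
      exact hTJ (hTS.trans (Finset.mem_powersetCard.mp hS).1)
  rw [← h1, h2, Finset.sum_congr rfl h3, ← Finset.sum_filter, Finset.sum_const, smul_eq_mul,
    mul_comm]

theorem count_le {α : Type*} [DecidableEq α] (𝒯 : Finset (Finset α)) (g : Equiv.Perm α)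
    (hg : ∀ T ∈ 𝒯, T.image g ∈ 𝒯) (S : Finset α) :
    (𝒯.filter (· ⊆ S)).card ≤ (𝒯.filter (· ⊆ S.image g)).card := by
  apply Finset.card_le_card_of_injOn (fun T => T.image g)
  · intro T hT
    have hT' := Finset.mem_filter.mp (Finset.mem_coe.mp hT)
    exact Finset.mem_coe.mpr (Finset.mem_filter.mpr ⟨hg T hT'.1, Finset.image_subset_image hT'.2⟩)
  · intro T _ T' _ h
    exact Finset.image_injective g.injective h

theorem result {α : Type*} [Fintype α] [DecidableEq α] (G : Subgroup (Equiv.Perm α)) {k : ℕ} (hk : 2 ≤ k) (hG : MulAction.IsPretransitive G (Set.powersetCard α k)) (hq : ∀ q : ℕ, IsPrimePow q → q ∣ k → k + q - 1 ≤ Fintype.card α) : MulAction.IsPretransitive G (Set.powersetCard α (k - 1)) := by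
  classical
  obtain ⟨p₀, hp₀, hp₀k⟩ := Nat.exists_prime_and_dvd (show k ≠ 1 by omega)
  have hkn : k ≤ Fintype.card α := by
    have h1 := hq p₀ hp₀.isPrimePow hp₀k
    have h2 := hp₀.pos
    omega
  obtain ⟨S₀, -, hS₀⟩ := Finset.exists_subset_card_eq (s := (Finset.univ : Finset α)) (n := k)
    (by rw [Finset.card_univ]; exact hkn)
  obtain ⟨T₀, hT₀S, hT₀⟩ := Finset.exists_subset_card_eq (s := S₀) (n := k - 1)
    (by rw [hS₀]; omega)
  have hsm : ∀ (g : G) (T : Finset α), g • T = T.image (g : Equiv.Perm α) := fun g T => rfl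
  have key : ∀ T₁ : Finset α, T₁.card = k - 1 → ∃ g : G, g • T₁ = T₀ := by
    intro T₁ hT₁
    obtain ⟨𝒯, h𝒯def⟩ : ∃ 𝒯 : Finset (Finset α),
        𝒯 = Finset.univ.filter (fun T => ∃ g : G, g • T₁ = T) := ⟨_, rfl⟩
    have hmem : ∀ T, T ∈ 𝒯 ↔ ∃ g : G, g • T₁ = T := by intro T; rw [h𝒯def]; simp
    have hcard : ∀ T ∈ 𝒯, T.card = k - 1 := by
      intro T hT
      obtain ⟨g, rfl⟩ := (hmem T).mp hT
      rw [Finset.card_smul_finset, hT₁]
    have hinv : ∀ g : G, ∀ T ∈ 𝒯, T.image (g : Equiv.Perm α) ∈ 𝒯 := by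
      intro g T hT
      obtain ⟨g', rfl⟩ := (hmem T).mp hT
      rw [hmem]
      exact ⟨g * g', by rw [mul_smul, hsm g]⟩
    have hf : ∀ (g : G) (S : Finset α),
        (𝒯.filter (· ⊆ S.image (g : Equiv.Perm α))).card = (𝒯.filter (· ⊆ S)).card := by
      intro g S
      apply le_antisymm
      · have := count_le 𝒯 ((g⁻¹ : G) : Equiv.Perm α) (hinv g⁻¹) (S.image (g : Equiv.Perm α))
        rw [Finset.image_image] at this
        have e : (((g⁻¹ : G) : Equiv.Perm α) : α → α) ∘ ((g : Equiv.Perm α) : α → α) = id := by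
          funext a; simp
        rw [e, Finset.image_id] at this
        exact this
      · exact count_le 𝒯 (g : Equiv.Perm α) (hinv g) S
    obtain ⟨c, hcdef⟩ : ∃ c, c = (𝒯.filter (· ⊆ S₀)).card := ⟨_, rfl⟩
    have hc : ∀ S : Finset α, S.card = k → (𝒯.filter (· ⊆ S)).card = c := by
      intro S hS
      obtain ⟨g, hg⟩ := hG.exists_smul_eq
        (⟨S₀, Set.powersetCard.mem_iff.mpr hS₀⟩ : Set.powersetCard α k)
        ⟨S, Set.powersetCard.mem_iff.mpr hS⟩
      have hg' : S₀.image (g : Equiv.Perm α) = S := by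
        have h1 := congrArg Subtype.val hg
        have h2 := Set.powersetCard.coe_smul (g := g)
          (s := (⟨S₀, Set.powersetCard.mem_iff.mpr hS₀⟩ : Set.powersetCard α k))
        exact h2.symm.trans h1
      rw [← hg', hf, hcdef]
    have hcle : c ≤ k := by
      rw [hcdef]
      calc (𝒯.filter (· ⊆ S₀)).card ≤ (S₀.powersetCard (k - 1)).card := by
            apply Finset.card_le_card
            intro T hT
            rw [Finset.mem_filter] at hT
            exact Finset.mem_powersetCard.mpr ⟨hT.2, hcard T hT.1⟩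
        _ = k := by
            rw [Finset.card_powersetCard, hS₀]
            obtain ⟨k', rfl⟩ : ∃ k', k = k' + 1 := ⟨k - 1, by omega⟩
            simp
    have hcpos : 0 < c := by
      obtain ⟨S, hT₁S, -, hS⟩ := Finset.exists_subsuperset_card_eq (Finset.subset_univ T₁)
        (show T₁.card ≤ k by omega) (by rw [Finset.card_univ]; exact hkn)
      rw [← hc S hS]
      apply Finset.card_pos.mpr
      exact ⟨T₁, Finset.mem_filter.mpr ⟨(hmem T₁).mpr ⟨1, one_smul _ _⟩, hT₁S⟩⟩
    have hdvd : k ∣ c := by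
      rw [Nat.dvd_iff_prime_pow_dvd_dvd]
      intro p a hp hpk
      rcases Nat.eq_zero_or_pos a with rfl | ha
      · simp
      · have hpp : IsPrimePow (p ^ a) := ⟨p, a, hp.prime, ha, rfl⟩
        have hle := hq (p ^ a) hpp hpk
        have hqpos : 1 ≤ p ^ a := Nat.one_le_pow _ _ hp.pos
        obtain ⟨J, -, hJ⟩ := Finset.exists_subset_card_eq (s := (Finset.univ : Finset α))
          (n := k + p ^ a - 1) (by rw [Finset.card_univ]; exact hle)
        have hdc := double_count 𝒯 k (p ^ a) c (by omega) hcard hc J hJ hqpos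
        have hsymm : Nat.choose (k + p ^ a - 1) k = Nat.choose (k + p ^ a - 1) (p ^ a - 1) := by
          have : k + p ^ a - 1 = k + (p ^ a - 1) := by omega
          rw [this]; exact Nat.choose_symm_add
        rw [hsymm] at hdc
        have hnd := choose_not_dvd p hp a k hpk
        have hcop : Nat.Coprime (p ^ a) (Nat.choose (k + p ^ a - 1) (p ^ a - 1)) :=
          Nat.Coprime.pow_left a ((Nat.Prime.coprime_iff_not_dvd hp).mpr hnd)
        exact hcop.dvd_of_dvd_mul_left (Dvd.intro _ hdc.symm)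
    have hck : c = k := Nat.le_antisymm hcle (Nat.le_of_dvd hcpos hdvd)
    have hall : 𝒯.filter (· ⊆ S₀) = S₀.powersetCard (k - 1) := by
      apply Finset.eq_of_subset_of_card_le
      · intro T hT
        rw [Finset.mem_filter] at hT
        exact Finset.mem_powersetCard.mpr ⟨hT.2, hcard T hT.1⟩
      · rw [← hcdef, hck, Finset.card_powersetCard, hS₀]
        obtain ⟨k', rfl⟩ : ∃ k', k = k' + 1 := ⟨k - 1, by omega⟩
        simp
    have : T₀ ∈ 𝒯.filter (· ⊆ S₀) := by
      rw [hall]; exact Finset.mem_powersetCard.mpr ⟨hT₀S, hT₀⟩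
    exact (hmem T₀).mp (Finset.mem_filter.mp this).1
  constructor
  intro T₁ T₂
  obtain ⟨g₁, hg₁⟩ := key T₁.1 (Set.powersetCard.mem_iff.mp T₁.2)
  obtain ⟨g₂, hg₂⟩ := key T₂.1 (Set.powersetCard.mem_iff.mp T₂.2)
  refine ⟨g₂⁻¹ * g₁, ?_⟩
  apply Subtype.ext
  have h2 := Set.powersetCard.coe_smul (g := g₂⁻¹ * g₁) (s := T₁)
  refine h2.trans ?_
  rw [mul_smul, hg₁, ← hg₂, inv_smul_smul]

end Cfsg.Agent.S0736
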