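import Cfsg.Statements.S0739
import Cfsg.Agent.Lib.helper2.ZassHall

set_option autoImplicit false
open Cfsg

open Cfsg.Agent.Lib.helper2.ZassCount

namespace Cfsg.Agent.S0739

/-- In a finite Zassenhaus group whose two-point stabiliser `H = G_{a,b}` has odd order `d`, and which has no normal `q`-complement for any prime `q ∣ d`, `H` is cyclic, `C_G(H) = H`, and every element swapping `a` and `b` inverts each element of `H`. -/
theorem result {G Ω : Type*} [Group G] [Finite G] [MulAction G Ω] [Fintype Ω] (hZ : Cfsg.IsZassenhausGroup G Ω) {a b : Ω} (hab : a ≠ b) (hodd : Odd (Nat.card ↥(MulAction.stabilizer G a ⊓ MulAction.stabilizer G b))) (hnil : ∀ q : ℕ, q.Prime → q ∣ Nat.card ↥(MulAction.stabilizer G a ⊓ MulAction.stabilizer G b) → ¬ ∃ N : Subgroup G, N.Normal ∧ N.index = q ^ (Nat.card G).factorization q) : IsCyclic ↥(MulAction.stabilizer G a ⊓ MulAction.stabilizer G b) ∧ Subgroup.centralizer ((MulAction.stabilizer G a ⊓ MulAction.stabilizer G b : Subgroup G) : Set G) = MulAction.stabilizer G a ⊓ MulAction.stabilizer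 G b ∧ ∀ s : G, s • a = b → s • b = a → ∀ h ∈ MulAction.stabilizer G a ⊓ MulAction.stabilizer G b, s * h * s⁻¹ = h⁻¹ := by
  classical
  have h3 := hZ.2.2.1
  have h2t : ∀ {a b c d : Ω}, a ≠ b → c ≠ d → ∃ g : G, g • a = c ∧ g • b = d :=
    MulAction.is_two_pretransitive_iff.mp hZ.2.1
  have hEcomm := E_le_commutator hZ hab hodd hnil
  have hswap : ∀ s : G, s • a = b → s • b = a → s * s = 1 := by
    intro s hsa hsb
    apply swap_sq hZ hab hodd s hsa hsb
    intro g hg hsg
    obtain ⟨hsg', htr⟩ := transfer_E hZ hab (Abelianization.of) s hsa hsb g hg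
    have h1 : MonoidHom.transfer (Abelianization.of
        (G := ↥(MulAction.stabilizer G a ⊓ MulAction.stabilizer G b : Subgroup G))) g = 1 :=
      Abelianization.commutator_subset_ker _ (hEcomm hg)
    rw [h1] at htr
    rw [← Abelianization.ker_of, MonoidHom.mem_ker, map_mul]
    exact htr.symm
  have hinv : ∀ s : G, s • a = b → s • b = a →
      ∀ h ∈ (MulAction.stabilizer G a ⊓ MulAction.stabilizer G b : Subgroup G), s * h * s⁻¹ = h⁻¹ := by
    intro s hsa hsb h hh
    have hs2 := hswap s hsa hsb
    have hsi : s⁻¹ = s := inv_eq_of_mul_eq_one_left hs2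
    have h1 := hswap (s * h) (by rw [mul_smul, hh.1, hsa]) (by rw [mul_smul, hh.2, hsb])
    rw [hsi]
    apply eq_inv_of_mul_eq_one_left
    rw [← h1]
    group
  obtain ⟨s₀, hs₀a, hs₀b⟩ := h2t hab (Ne.symm hab)
  have hcomm : ∀ x y : G, x ∈ (MulAction.stabilizer G a ⊓ MulAction.stabilizer G b : Subgroup G) →
      y ∈ (MulAction.stabilizer G a ⊓ MulAction.stabilizer G b : Subgroup G) → x * y = y * x := by
    intro x y hx hy
    have h1 := hinv s₀ hs₀a hs₀b x hx
    have h2 := hinv s₀ hs₀a hs₀b y hy
    have h3' := hinv s₀ hs₀a hs₀b (x * y) (Subgroup.mul_mem _ hx hy)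
    have h4 : (x * y)⁻¹ = x⁻¹ * y⁻¹ := by
      rw [← h3', ← h1, ← h2]
      group
    have h5 : x * y = (x⁻¹ * y⁻¹)⁻¹ := by rw [← h4, inv_inv]
    rw [h5]
    group
  refine ⟨?_, ?_, hinv⟩
  · haveI := zass_E_zgroup hZ hab hodd
    letI : CommGroup ↥(MulAction.stabilizer G a ⊓ MulAction.stabilizer G b : Subgroup G) :=
      { (inferInstance : Group ↥(MulAction.stabilizer G a ⊓ MulAction.stabilizer G b : Subgroup G)) with
        mul_comm := fun x y => Subtype.ext (hcomm x y x.2 y.2) }
    haveI : Group.IsNilpotent ↥(MulAction.stabilizer G a ⊓ MulAction.stabilizer G b : Subgroup G) :=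
      CommGroup.isNilpotent
    infer_instance
  · apply le_antisymm
    · intro x hx
      obtain ⟨g, hg, hg1⟩ := exists_E_ne_one hZ hab
      have hxg : g * x = x * g := Subgroup.mem_centralizer_iff.mp hx g hg
      have hga : g • (x • a) = x • a := by rw [← mul_smul, hxg, mul_smul, hg.1]
      have hgb : g • (x • b) = x • b := by rw [← mul_smul, hxg, mul_smul, hg.2]
      rcases Cfsg.Agent.Lib.helper24.zass_perm_of_fix hZ hab g hg1 hg.1 hg.2 x hga hgb
        with ⟨h1, h2⟩ | ⟨h1, h2⟩
      · exact ⟨h1, h2⟩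
      · exfalso
        have h4 := hinv x h1 h2 g hg
        have h5 : x * g * x⁻¹ = g := by rw [← hxg]; group
        rw [h5] at h4
        have h6 : g * g = 1 := by
          nth_rewrite 2 [h4]
          exact mul_inv_cancel g
        have h7 : orderOf g ∣ 2 := orderOf_dvd_of_pow_eq_one (by rw [sq]; exact h6)
        have h8 : Odd (orderOf g) := by
          apply Odd.of_dvd_nat hodd
          have := orderOf_dvd_natCard
            (⟨g, hg⟩ : ↥(MulAction.stabilizer G a ⊓ MulAction.stabilizer G b : Subgroup G))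
          rwa [Subgroup.orderOf_mk] at this
        have h9 : orderOf g = 1 := by
          rcases (Nat.dvd_prime Nat.prime_two).mp h7 with h | h
          · exact h
          · rw [h] at h8
            exact absurd h8 (by decide)
        exact hg1 (orderOf_eq_one_iff.mp h9)
    · intro x hx
      rw [Subgroup.mem_centralizer_iff]
      intro y hy
      exact hcomm y x hy hx

end Cfsg.Agent.S0739
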