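import Cfsg.Statements.S0740
import Cfsg.Agent.Lib.helper2.ZassCount2
import Cfsg.Agent.Lib.helper24.ZassBasic

set_option autoImplicit false
open Cfsg

open Cfsg.Agent.Lib.helper2.ZassCount

namespace Cfsg.Agent.S0740

/-- In a finite Zassenhaus group any two points `a ≠ b` are swapped by an involution; every such involution has exactly one fixed point when the degree is odd and 0 or 2 fixed points when the degree is even; and if the two-point stabiliser has even order, some such involution has exactly 2 fixed points. -/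
theorem result {G Ω : Type*} [Group G] [Finite G] [MulAction G Ω] [Fintype Ω] (hZ : Cfsg.IsZassenhausGroup G Ω) {a b : Ω} (hab : a ≠ b) : (∃ s : G, orderOf s = 2 ∧ s • a = b ∧ s • b = a) ∧ (∀ s : G, orderOf s = 2 → s • a = b → s • b = a → (Odd (Fintype.card Ω) → Nat.card (MulAction.fixedBy Ω s) = 1) ∧ (Even (Fintype.card Ω) → Nat.card (MulAction.fixedBy Ω s) = 0 ∨ Nat.card (MulAction.fixedBy Ω s) = 2)) ∧ (Even (Fintype.card Ω) → Even (Nat.card ↥(MulAction.stabilizer G a ⊓ MulAction.stabilizer G b)) → ∃ s : G, orderOf s = 2 ∧ s • a = b ∧ s • b = a ∧ Nat.card (MulAction.fixedBy Ω s) = 2) := by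
  classical
  haveI : Fintype G := Fintype.ofFinite G
  have h2 := hZ.2.1
  have hfaith := hZ.1
  have hn2 : 2 ≤ Fintype.card Ω := Fintype.one_lt_card_iff.mpr ⟨a, b, hab⟩
  have hcG := card_G (G := G) h2 hab
  have heven : 2 ∣ Nat.card G := by
    rw [Nat.card_eq_fintype_card, hcG]
    apply Dvd.dvd.mul_right
    have : Even (Fintype.card Ω * Fintype.card Ω - Fintype.card Ω) := by
      rw [← Nat.mul_sub_one]
      exact Nat.even_mul_pred_self _
    exact even_iff_two_dvd.mp this
  haveI : Fact (Nat.Prime 2) := ⟨Nat.prime_two⟩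
  obtain ⟨t, ht⟩ := exists_prime_orderOf_dvd_card' 2 heven
  have ht1 : t ≠ 1 := by
    intro h
    rw [h, orderOf_one] at ht
    omega
  obtain ⟨c, hc⟩ : ∃ c : Ω, t • c ≠ c := by
    by_contra hno
    push Not at hno
    apply ht1
    haveI := hfaith
    apply FaithfulSMul.eq_of_smul_eq_smul (α := Ω)
    intro x
    rw [hno x, one_smul]
  obtain ⟨s₀, hs₀o, hs₀a, hs₀b, -⟩ := exists_swap_conj hZ hab ht hc
  refine ⟨⟨s₀, hs₀o, hs₀a, hs₀b⟩, ?_, ?_⟩
  · intro s hso hsa hsb
    have hs1 : s ≠ 1 := by
      intro h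
      rw [h, orderOf_one] at hso
      omega
    have hle := fixN_le_two (Ω := Ω) hZ hs1
    have hmod := fixN_modEq_two (Ω := Ω) hso
    rw [card_fixedBy_eq]
    unfold Nat.ModEq at hmod
    constructor
    · intro hodd
      have : Fintype.card Ω % 2 = 1 := Nat.odd_iff.mp hodd
      omega
    · intro hev
      have : Fintype.card Ω % 2 = 0 := Nat.even_iff.mp hev
      omega
  · intro _ heven2
    obtain ⟨t₀, ht₀⟩ := exists_prime_orderOf_dvd_card' 2
      (G := ↥(MulAction.stabilizer G a ⊓ MulAction.stabilizer G b : Subgroup G))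
      (even_iff_two_dvd.mp heven2)
    have ht₀o : orderOf (t₀ : G) = 2 := by
      rw [Subgroup.orderOf_coe]
      exact ht₀
    have ht₀1 : (t₀ : G) ≠ 1 := by
      intro h
      rw [h, orderOf_one] at ht₀o
      omega
    have ht₀m := t₀.2
    rw [Subgroup.mem_inf, MulAction.mem_stabilizer_iff, MulAction.mem_stabilizer_iff] at ht₀m
    have hfix2 := fixN_eq_two hZ ht₀1 hab ht₀m.1 ht₀m.2
    have hn3 : Fintype.card Ω ≠ 2 := Cfsg.Agent.Lib.helper24.zass_card_ne_two hZ
    obtain ⟨c', hca, hcb⟩ : ∃ c' : Ω, c' ≠ a ∧ c' ≠ b := by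
      by_contra hno
      push Not at hno
      have : Fintype.card Ω ≤ 2 := by
        rw [← Finset.card_univ]
        have hsub : (Finset.univ : Finset Ω) ⊆ {a, b} := by
          intro x _
          rw [Finset.mem_insert, Finset.mem_singleton]
          by_cases hx : x = a
          · exact Or.inl hx
          · exact Or.inr (hno x hx)
        exact (Finset.card_le_card hsub).trans Finset.card_le_two
      omega
    have hc' : (t₀ : G) • c' ≠ c' := by
      intro h
      exact ht₀1 (hZ.2.2.1 _ a b c' hab (Ne.symm hcb) (Ne.symm hca) ht₀m.1 ht₀m.2 h)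
    obtain ⟨s, hso, hsa, hsb, hsf⟩ := exists_swap_conj hZ hab ht₀o hc'
    exact ⟨s, hso, hsa, hsb, by rw [card_fixedBy_eq, hsf, hfix2]⟩

end Cfsg.Agent.S0740
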