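import Cfsg.Statements.S0744
import Cfsg.Agent.S0743
import Mathlib

set_option autoImplicit false
open Cfsg

namespace Cfsg.Agent.S0744

theorem orbit_cong {H α : Type*} [Group H] [MulAction H α] [Fintype α] [DecidableEq α] (d : ℕ) :
    ∀ (n : ℕ) (T F : Finset α), T.card = n → (∀ (g : H), ∀ x ∈ T, g • x ∈ T) →
      (∀ x, x ∈ F ↔ x ∈ T ∧ ∀ g : H, g • x = x) →
      (∀ x ∈ T, x ∉ F → d ∣ (MulAction.orbit H x).ncard) → T.card ≡ F.card [MOD d] := by
  intro n
  induction n using Nat.strong_induction_on with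
  | _ n ih =>
    intro T F hn hT hF hd
    by_cases hTF : ∀ x ∈ T, x ∈ F
    · have hEq : T = F := Finset.Subset.antisymm hTF (fun x hx => ((hF x).mp hx).1)
      rw [hEq]
    · push_neg at hTF
      obtain ⟨x, hxT, hxF⟩ := hTF
      have hfin : (MulAction.orbit H x).Finite := Set.toFinite _
      have hO : ∀ y, y ∈ hfin.toFinset ↔ y ∈ MulAction.orbit H x :=
        fun y => Set.Finite.mem_toFinset hfin
      have hOT : hfin.toFinset ⊆ T := by
        intro y hy
        obtain ⟨g, rfl⟩ := (hO y).mp hy
        exact hT g x hxT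
      have hxO : x ∈ hfin.toFinset := (hO x).mpr (MulAction.mem_orbit_self x)
      have hOcard : hfin.toFinset.card = (MulAction.orbit H x).ncard :=
        (Set.ncard_eq_toFinset_card _ hfin).symm
      have hcard := Finset.card_sdiff_add_card_eq_card hOT
      have hOpos : 0 < hfin.toFinset.card := Finset.card_pos.mpr ⟨x, hxO⟩
      have hlt : (T \ hfin.toFinset).card < n := by omega
      have ih' := ih _ hlt (T \ hfin.toFinset) F rfl (by
          intro g y hy
          rw [Finset.mem_sdiff] at hy ⊢
          refine ⟨hT g y hy.1, fun hgy => hy.2 ?_⟩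
          obtain ⟨h', hh'⟩ := (hO _).mp hgy
          have hh'' : h' • x = g • y := hh'
          refine (hO y).mpr ⟨g⁻¹ * h', ?_⟩
          show (g⁻¹ * h') • x = y
          rw [mul_smul, hh'', inv_smul_smul])
        (by
          intro y
          rw [hF y, Finset.mem_sdiff]
          constructor
          · rintro ⟨hyT, hfix⟩
            refine ⟨⟨hyT, fun hyO => hxF ?_⟩, hfix⟩
            obtain ⟨h', hh'⟩ := (hO y).mp hyO
            have hh'' : h' • x = y := hh'
            have h1 := hfix h'⁻¹
            rw [← hh'', inv_smul_smul] at h1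
            have hxy : x = y := h1.trans hh''
            rw [hxy]
            exact (hF y).mpr ⟨hyT, hfix⟩
          · rintro ⟨⟨hyT, _⟩, hfix⟩
            exact ⟨hyT, hfix⟩)
        (by
          intro y hy hyF
          exact hd y (Finset.mem_sdiff.mp hy).1 hyF)
      obtain ⟨c, hc⟩ := hd x hxT hxF
      have h1 : T.card ≡ (T \ hfin.toFinset).card [MOD d] := by
        rw [← hcard, hOcard, hc]
        exact Nat.add_mul_mod_self_left _ _ _
      exact h1.trans ih'

theorem result {α : Type*} [Fintype α] [DecidableEq α] (G : Subgroup (Equiv.Perm α)) {k : ℕ} (hk : 1 < k) (hkn : k ≤ Fintype.card α) (l m : ℕ) (hl : 1 < l) (hkm1 : ∀ s : Finset α, s.card = k - 1 → Nat.card (fixingSubgroup G (s : Set α)) = l) (hkm : ∀ s : Finset α, s.card = k → Nat.card (fixingSubgroup G (s : Set α)) = m) : MulAction.IsMultiplyPretransitive G α (k - 1) := by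
  apply Cfsg.Agent.S0743.mt_of_fix
  intro Δ hΔ a b ha hb
  by_contra hno
  push_neg at hno
  have hab : a ≠ b := fun hab => hno 1 G.one_mem (fun d _ => rfl) hab
  obtain ⟨T, hT⟩ : ∃ T : Finset α, ∀ x, x ∈ T ↔ ∃ h ∈ G, (∀ d ∈ Δ, h d = d) ∧ h a = x := by
    classical
    exact ⟨Finset.univ.filter (fun x => ∃ h ∈ G, (∀ d ∈ Δ, h d = d) ∧ h a = x), fun x => by simp⟩
  have haT : a ∈ T := (hT a).mpr ⟨1, G.one_mem, fun d _ => rfl, rfl⟩
  have hbT : b ∉ T := fun hb' => by
    obtain ⟨h', hG', hΔ', hab'⟩ := (hT b).mp hb'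
    exact hno h' hG' hΔ' hab'
  obtain ⟨s₀, hs₀sub, hs₀t, hs₀card⟩ := Finset.exists_subsuperset_card_eq
    (s := insert b Δ) (t := Finset.univ.erase a) (n := k - 1)
    (by
      intro x hx
      rw [Finset.mem_erase]
      refine ⟨?_, Finset.mem_univ _⟩
      rcases Finset.mem_insert.mp hx with hx | hx
      · rw [hx]; exact fun h' => hab h'.symm
      · exact fun h' => ha (h' ▸ hx))
    (by rw [Finset.card_insert_of_notMem hb]; omega)
    (by rw [Finset.card_erase_of_mem (Finset.mem_univ _), Finset.card_univ]; omega)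
  have hs₀a : a ∉ s₀ := fun h' => (Finset.mem_erase.mp (hs₀t h')).1 rfl
  have hbs₀ : b ∈ s₀ := hs₀sub (Finset.mem_insert_self b Δ)
  have hΔs₀ : Δ ⊆ s₀ := fun x hx => hs₀sub (Finset.mem_insert_of_mem hx)
  have hs₁card : (insert a (s₀.erase b)).card = k - 1 := by
    rw [Finset.card_insert_of_notMem (fun h' => hs₀a (Finset.mem_of_mem_erase h')),
      Finset.card_erase_of_mem hbs₀, hs₀card]
    omega
  have hΔs₁ : Δ ⊆ insert a (s₀.erase b) := by
    intro x hx
    refine Finset.mem_insert_of_mem (Finset.mem_erase.mpr ⟨fun h' => hb (h' ▸ hx), hΔs₀ hx⟩)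
  have hstab : ∀ (s : Finset α), s.card = k - 1 → ∀ x, x ∉ s →
      (MulAction.orbit ↥(fixingSubgroup G (s : Set α)) x).ncard * m = l := by
    intro s hs x hxs
    have h1 := Subgroup.card_mul_index (MulAction.stabilizer ↥(fixingSubgroup G (s : Set α)) x)
    rw [MulAction.index_stabilizer, hkm1 s hs] at h1
    have h2 : Nat.card (MulAction.stabilizer ↥(fixingSubgroup G (s : Set α)) x) = m := by
      rw [← hkm (insert x s) (by rw [Finset.card_insert_of_notMem hxs, hs]; omega)]
      apply Nat.card_congr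
      exact
        { toFun := fun h => ⟨(h.1 : G), by
            rw [mem_fixingSubgroup_iff]
            intro y hy
            rcases Finset.mem_insert.mp (Finset.mem_coe.mp hy) with hyx | hys
            · rw [hyx]; exact h.2
            · exact (mem_fixingSubgroup_iff _).mp h.1.2 y (Finset.mem_coe.mpr hys)⟩
          invFun := fun g => ⟨⟨(g : G), by
              rw [mem_fixingSubgroup_iff]
              intro y hy
              exact (mem_fixingSubgroup_iff _).mp g.2 y
                (Finset.mem_coe.mpr (Finset.mem_insert_of_mem (Finset.mem_coe.mp hy)))⟩,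
            (mem_fixingSubgroup_iff _).mp g.2 x (Finset.mem_coe.mpr (Finset.mem_insert_self x s))⟩
          left_inv := fun h => rfl
          right_inv := fun g => rfl }
    rw [h2] at h1
    rw [mul_comm]; exact h1
  have hlm : l ≠ m := by
    intro hlm
    have hc0 := hkm1 s₀ hs₀card
    have hnt : ∃ g : ↥(fixingSubgroup G (s₀ : Set α)), g ≠ 1 := by
      by_contra hcon
      push_neg at hcon
      haveI : Subsingleton ↥(fixingSubgroup G (s₀ : Set α)) :=
        ⟨fun u v => (hcon u).trans (hcon v).symm⟩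
      have h1 : Nat.card ↥(fixingSubgroup G (s₀ : Set α)) = 1 :=
        Nat.card_of_subsingleton (1 : ↥(fixingSubgroup G (s₀ : Set α)))
      omega
    obtain ⟨g, hg1⟩ := hnt
    obtain ⟨x, hx⟩ : ∃ x, ((g : G) : Equiv.Perm α) x ≠ x := by
      by_contra hcon
      push_neg at hcon
      apply hg1
      apply Subtype.ext; apply Subtype.ext
      exact Equiv.ext hcon
    have hxs : x ∉ s₀ := fun hxs =>
      hx ((mem_fixingSubgroup_iff _).mp g.2 x (Finset.mem_coe.mpr hxs))
    have hle : fixingSubgroup G ((insert x s₀ : Finset α) : Set α) ≤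
        fixingSubgroup G (s₀ : Set α) := by
      intro u hu
      rw [mem_fixingSubgroup_iff] at hu ⊢
      intro y hy
      exact hu y (Finset.mem_coe.mpr (Finset.mem_insert_of_mem (Finset.mem_coe.mp hy)))
    have heq := Subgroup.eq_of_le_of_card_ge hle (by
      rw [hkm1 s₀ hs₀card,
        hkm (insert x s₀) (by rw [Finset.card_insert_of_notMem hxs, hs₀card]; omega), hlm])
    have hg' : (g : G) ∈ fixingSubgroup G ((insert x s₀ : Finset α) : Set α) := by
      rw [heq]; exact g.2
    exact hx ((mem_fixingSubgroup_iff _).mp hg' x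
      (Finset.mem_coe.mpr (Finset.mem_insert_self x s₀)))
  have hm0 : 0 < m := by
    have h1 := hstab s₀ hs₀card a hs₀a
    rcases Nat.eq_zero_or_pos m with h0 | h0
    · rw [h0, mul_zero] at h1; omega
    · exact h0
  have key : ∀ s : Finset α, s.card = k - 1 → Δ ⊆ s →
      T.card ≡ (T ∩ s).card [MOD (l / m)] := by
    intro s hs hΔs
    apply orbit_cong (H := ↥(fixingSubgroup G (s : Set α))) (l / m) T.card T (T ∩ s) rfl
    · intro g x hx
      obtain ⟨h', hG', hΔ', hax⟩ := (hT x).mp hx
      refine (hT _).mpr ⟨((g : G) : Equiv.Perm α) * h', G.mul_mem (g : G).2 hG', ?_, ?_⟩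
      · intro d hd
        rw [Equiv.Perm.mul_apply, hΔ' d hd]
        exact (mem_fixingSubgroup_iff _).mp g.2 d (Finset.mem_coe.mpr (hΔs hd))
      · rw [Equiv.Perm.mul_apply, hax]; rfl
    · intro x
      rw [Finset.mem_inter]
      constructor
      · rintro ⟨hxT, hxs⟩
        exact ⟨hxT, fun g => (mem_fixingSubgroup_iff _).mp g.2 x (Finset.mem_coe.mpr hxs)⟩
      · rintro ⟨hxT, hfixx⟩
        refine ⟨hxT, ?_⟩
        by_contra hxs
        have hEq : fixingSubgroup G ((insert x s : Finset α) : Set α) =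
            fixingSubgroup G (s : Set α) := by
          ext u
          rw [mem_fixingSubgroup_iff, mem_fixingSubgroup_iff]
          constructor
          · intro hu y hy
            exact hu y (Finset.mem_coe.mpr (Finset.mem_insert_of_mem (Finset.mem_coe.mp hy)))
          · intro hu y hy
            rcases Finset.mem_insert.mp (Finset.mem_coe.mp hy) with hyx | hys
            · rw [hyx]
              exact hfixx ⟨u, (mem_fixingSubgroup_iff _).mpr hu⟩
            · exact hu y (Finset.mem_coe.mpr hys)
        have h1 := hkm (insert x s) (by rw [Finset.card_insert_of_notMem hxs, hs]; omega)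
        rw [hEq, hkm1 s hs] at h1
        exact hlm h1
    · intro x hxT hxF
      have hxs : x ∉ s := fun h' => hxF (Finset.mem_inter.mpr ⟨hxT, h'⟩)
      have h1 := hstab s hs x hxs
      have h2 : (MulAction.orbit ↥(fixingSubgroup G (s : Set α)) x).ncard = l / m := by
        rw [← h1, Nat.mul_div_cancel _ hm0]
      exact dvd_of_eq h2.symm
  have c0 := key s₀ hs₀card hΔs₀
  have c1 := key _ hs₁card hΔs₁
  have hcard : (T ∩ insert a (s₀.erase b)).card = (T ∩ s₀).card + 1 := by
    have hEq : T ∩ insert a (s₀.erase b) = insert a (T ∩ s₀) := by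
      ext x
      simp only [Finset.mem_inter, Finset.mem_insert, Finset.mem_erase]
      constructor
      · rintro ⟨hxT, hx | ⟨_, hxs⟩⟩
        · left; exact hx
        · right; exact ⟨hxT, hxs⟩
      · rintro (hx | ⟨hxT, hxs⟩)
        · rw [hx]; exact ⟨haT, Or.inl rfl⟩
        · exact ⟨hxT, Or.inr ⟨fun hxb => hbT (hxb ▸ hxT), hxs⟩⟩
    rw [hEq, Finset.card_insert_of_notMem (fun h' => hs₀a (Finset.mem_inter.mp h').2)]
  have c2 := c0.symm.trans c1
  rw [hcard] at c2
  have hdvd : l / m ∣ 1 := by
    have h2 := (Nat.modEq_iff_dvd' (Nat.le_succ _)).mp c2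
    simpa using h2
  have hd1 : l / m = 1 := Nat.dvd_one.mp hdvd
  have h3 := hstab s₀ hs₀card a hs₀a
  apply hlm
  have hml : m ∣ l := Dvd.intro_left _ h3
  have h4 := Nat.div_mul_cancel hml
  rw [hd1, one_mul] at h4
  exact h4.symm

end Cfsg.Agent.S0744
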