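import Cfsg.Statements.S0753
-- import your own Cfsg.Agent.* helpers here

set_option autoImplicit false
open Cfsg

namespace Cfsg.Agent.S0753

/-- If σ is a ring endomorphism of the field F other than the identity and B is a σ-sesquilinear conjugate-symmetric form with B v v = 0 for every v, then B = 0. -/
theorem result {F V : Type*} [Field F] [AddCommGroup V] [Module F V] (σ : F →+* F) (hσ : σ ≠ RingHom.id F) (B : V →ₛₗ[σ] V →ₗ[F] F) (hS : B.IsSymm) (h0 : ∀ v : V, B v v = 0) : B = 0 := by
  have key : ∀ x y : V, B x y + σ (B x y) = 0 := by
    intro x y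
    have h := h0 (x + y)
    simp only [map_add, LinearMap.add_apply, h0, zero_add, add_zero] at h
    rw [hS.eq x y, add_comm]
    exact h
  ext x y
  simp only [LinearMap.zero_apply]
  by_contra hb
  apply hσ
  ext c
  simp only [RingHom.id_apply]
  have h1 := key (c • x) y
  have h2 := key x y
  simp only [LinearMap.map_smulₛₗ, LinearMap.smul_apply, smul_eq_mul, map_mul] at h1
  have h3 : σ (B x y) = - B x y := by linear_combination h2
  rw [h3] at h1
  have h4 : (σ c - σ (σ c)) * B x y = 0 := by linear_combination h1
  rcases mul_eq_zero.mp h4 with h5 | h5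
  · have : σ c = σ (σ c) := sub_eq_zero.mp h5
    exact (σ.injective this).symm
  · exact absurd h5 hb

end Cfsg.Agent.S0753
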