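import Cfsg.Statements.S0754
-- import your own Cfsg.Agent.* helpers here
import Mathlib

set_option autoImplicit false
open Cfsg

namespace Cfsg.Agent.S0754

/-- In a field F with q^2 elements, every non-zero μ with μ^q = μ (that is, μ in the subfield of order q) has exactly q + 1 solutions λ of λ^(q+1) = μ. -/
theorem result {F : Type*} [Field F] [Fintype F] {q : ℕ} (hF : Fintype.card F = q ^ 2) (μ : F) (hμ : μ ≠ 0) (hμq : μ ^ q = μ) : Nat.card {x : F // x ^ (q + 1) = μ} = q + 1 := by
  classical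
  have hq2 : 2 ≤ q := by
    by_contra h
    have hq1 : q ≤ 1 := by omega
    have h1 : 1 < Fintype.card F := Fintype.one_lt_card
    rw [hF] at h1
    interval_cases q <;> simp at h1
  obtain ⟨r, rfl⟩ : ∃ r, q = r + 2 := ⟨q - 2, by omega⟩
  obtain ⟨g, hg⟩ := IsCyclic.exists_generator (α := Fˣ)
  have hord : orderOf g = (r + 1) * (r + 3) := by
    rw [orderOf_eq_card_of_forall_mem_zpowers hg, Nat.card_eq_fintype_card, Fintype.card_units, hF]
    have h3 : (r + 2) ^ 2 = (r + 1) * (r + 3) + 1 := by ring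
    rw [h3]
    simp
  have hprimg : IsPrimitiveRoot g ((r + 1) * (r + 3)) := hord ▸ IsPrimitiveRoot.orderOf g
  have hζ : IsPrimitiveRoot ((g : F) ^ (r + 1)) (r + 3) :=
    (IsPrimitiveRoot.coe_units_iff.mpr hprimg).pow (by positivity) rfl
  have hμ1 : μ ^ (r + 1) = 1 := by
    have h4 : μ ^ (r + 1) * μ = 1 * μ := by rw [← pow_succ, one_mul]; exact hμq
    exact mul_right_cancel₀ hμ h4
  obtain ⟨k, hk⟩ : ∃ k : ℕ, g ^ k = Units.mk0 μ hμ := by
    have h5 : Units.mk0 μ hμ ∈ Submonoid.powers g := by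
      rw [mem_powers_iff_mem_zpowers]
      exact hg _
    exact h5
  have hk' : (g : F) ^ k = μ := by
    have := congrArg (fun u : Fˣ => (u : F)) hk
    simpa using this
  have hdvd : (r + 3) ∣ k := by
    have h6 : g ^ (k * (r + 1)) = 1 := by
      rw [pow_mul, hk]
      apply Units.ext
      simpa using hμ1
    have h7 := orderOf_dvd_of_pow_eq_one h6
    rw [hord, mul_comm (r + 1) (r + 3)] at h7
    exact Nat.dvd_of_mul_dvd_mul_right (by omega) h7
  obtain ⟨j, rfl⟩ := hdvd
  have hex : ∃ α : F, α ^ (r + 3) = μ := ⟨(g : F) ^ j, by rw [← pow_mul, mul_comm j, hk']⟩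
  have hcard : Multiset.card (Polynomial.nthRoots (r + 3) μ) = r + 3 := by
    rw [hζ.card_nthRoots, if_pos hex]
  have hnodup := hζ.nthRoots_nodup hμ
  have e : {x : F // x ^ (r + 2 + 1) = μ} ≃
      {x : F // x ∈ (Polynomial.nthRoots (r + 3) μ).toFinset} :=
    Equiv.subtypeEquivRight (fun x => by
      rw [Multiset.mem_toFinset, Polynomial.mem_nthRoots (by omega)])
  rw [Nat.card_congr e, Nat.card_eq_fintype_card, Fintype.card_coe,
    Multiset.toFinset_card_of_nodup hnodup, hcard]

end Cfsg.Agent.S0754
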