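import Cfsg.Statements.S0756
-- import your own Cfsg.Agent.* helpers here
import Mathlib

set_option autoImplicit false
open Cfsg

namespace Cfsg.Agent.S0756

universe u v

theorem fam {F : Type u} [Field F] [Fintype F] (h2 : (2 : F) ≠ 0) (α : F) (hα : ¬ IsSquare α) :
    ∀ (n : ℕ) (V : Type v) [AddCommGroup V] [Module F V] [FiniteDimensional F V]
      (B : LinearMap.BilinForm F V), B.IsSymm → B.Nondegenerate → Module.finrank F V = n + 1 →
      ∃ b : Fin (n + 1) → V, (∀ i j, i ≠ j → B (b i) (b j) = 0) ∧
        (∀ i, i ≠ Fin.last n → B (b i) (b i) = 1) ∧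
        (B (b (Fin.last n)) (b (Fin.last n)) = 1 ∨ B (b (Fin.last n)) (b (Fin.last n)) = α) := by
  classical
  have hchar : ringChar F ≠ 2 := by
    intro h
    have : CharP F 2 := ringChar.of_eq h
    exact h2 (by exact_mod_cast CharP.cast_eq_zero F 2)
  have hα0 : α ≠ 0 := by
    rintro rfl
    exact hα ⟨0, by simp⟩
  intro n
  induction n with
  | zero =>
    intro V _ _ _ B hS hB hn
    have hpos : 0 < Module.finrank F V := by omega
    obtain ⟨u, hu⟩ := Module.finrank_pos_iff_exists_ne_zero.mp hpos
    have hspan : ∀ w : V, ∃ c : F, c • u = w := (finrank_eq_one_iff_of_nonzero' u hu).mp hn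
    have ha : B u u ≠ 0 := by
      intro h0
      apply hu
      apply hB.1 u
      intro y
      obtain ⟨c, rfl⟩ := hspan y
      rw [map_smul, smul_eq_mul, h0, mul_zero]
    by_cases hsq : IsSquare (B u u)
    · obtain ⟨s, hs⟩ := hsq
      have hs0 : s ≠ 0 := by
        rintro rfl
        apply ha; rw [hs]; simp
      refine ⟨fun _ => s⁻¹ • u, ?_, ?_, ?_⟩
      · intro i j hij
        exact absurd (Fin.ext (by omega)) hij
      · intro i hi
        exact absurd (Fin.ext (by omega)) hi
      · left
        simp only [map_smul, LinearMap.smul_apply, smul_eq_mul]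
        rw [hs]
        field_simp
    · have h1 : quadraticChar F (B u u) = -1 := quadraticChar_neg_one_iff_not_isSquare.mpr hsq
      have h2' : quadraticChar F α = -1 := quadraticChar_neg_one_iff_not_isSquare.mpr hα
      have h3 : quadraticChar F (B u u * α) = 1 := by
        rw [map_mul, h1, h2']; norm_num
      obtain ⟨s, hs⟩ := (quadraticChar_one_iff_isSquare (mul_ne_zero ha hα0)).mp h3
      have hs0 : s ≠ 0 := by
        rintro rfl
        apply mul_ne_zero ha hα0; rw [hs]; simp
      refine ⟨fun _ => (α / s) • u, ?_, ?_, ?_⟩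
      · intro i j hij
        exact absurd (Fin.ext (by omega)) hij
      · intro i hi
        exact absurd (Fin.ext (by omega)) hi
      · right
        simp only [map_smul, LinearMap.smul_apply, smul_eq_mul]
        have : B u u = s * s / α := by
          field_simp
          rw [hs]; ring
        rw [this]
        field_simp
  | succ n ih =>
    intro V _ _ _ B hS hB hn
    haveI : Invertible (2 : F) := invertibleOfNonzero h2
    obtain ⟨v, hv⟩ := LinearMap.BilinForm.exists_orthogonal_basis
      (LinearMap.BilinForm.isSymm_iff.mp hS)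
    have hv' := LinearMap.isOrthoᵢ_def.mp hv
    obtain ⟨i0, i1, hi01⟩ : ∃ i0 i1 : Fin (Module.finrank F V), i0 ≠ i1 := by
      refine ⟨⟨0, by omega⟩, ⟨1, by omega⟩, ?_⟩
      intro h
      have := congrArg Fin.val h
      simp at this
    have ha : B (v i0) (v i0) ≠ 0 := hv.not_isOrtho_basis_self_of_separatingLeft hB.1 i0
    have hc : B (v i1) (v i1) ≠ 0 := hv.not_isOrtho_basis_self_of_separatingLeft hB.1 i1
    have h01 : B (v i0) (v i1) = 0 := hv' i0 i1 hi01
    have h10 : B (v i1) (v i0) = 0 := hv' i1 i0 (Ne.symm hi01)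
    obtain ⟨x, y, hxy⟩ : ∃ x y : F, B (v i0) (v i0) * x ^ 2 + B (v i1) (v i1) * y ^ 2 = 1 := by
      have hf : (Polynomial.C (B (v i0) (v i0)) * Polynomial.X ^ 2 : Polynomial F).degree = 2 :=
        Polynomial.degree_C_mul_X_pow 2 ha
      have hg0 : (Polynomial.C (B (v i1) (v i1)) * Polynomial.X ^ 2 : Polynomial F).degree = 2 :=
        Polynomial.degree_C_mul_X_pow 2 hc
      have hg : (Polynomial.C (B (v i1) (v i1)) * Polynomial.X ^ 2 - Polynomial.C 1 :
          Polynomial F).degree = 2 := by
        rw [Polynomial.degree_sub_C (by rw [hg0]; norm_num), hg0]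
      obtain ⟨x, y, h⟩ := FiniteField.exists_root_sum_quadratic hf hg
        (FiniteField.odd_card_of_char_ne_two hchar)
      refine ⟨x, y, ?_⟩
      simp only [Polynomial.eval_mul, Polynomial.eval_C, Polynomial.eval_pow, Polynomial.eval_X,
        Polynomial.eval_sub] at h
      linear_combination h
    obtain ⟨v₀, hv₀⟩ : ∃ v₀ : V, v₀ = x • v i0 + y • v i1 := ⟨_, rfl⟩
    have h00 : B v₀ v₀ = 1 := by
      rw [hv₀]
      simp only [map_add, map_smul, LinearMap.add_apply, LinearMap.smul_apply, smul_eq_mul,
        h01, h10]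
      linear_combination hxy
    obtain ⟨W, hW⟩ : ∃ W : Submodule F V, W = LinearMap.ker (B v₀) := ⟨_, rfl⟩
    have hWmem : ∀ w, w ∈ W ↔ B v₀ w = 0 := by
      intro w; rw [hW, LinearMap.mem_ker]
    have hsurj : Function.Surjective (B v₀) := by
      intro c
      refine ⟨c • v₀, ?_⟩
      rw [map_smul, h00, smul_eq_mul, mul_one]
    have hfinW : Module.finrank F W = n + 1 := by
      have h := LinearMap.finrank_range_add_finrank_ker (B v₀)
      rw [LinearMap.range_eq_top.mpr hsurj, finrank_top, Module.finrank_self, hn, ← hW] at h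
      omega
    have hproj : ∀ z : V, z - B v₀ z • v₀ ∈ W := by
      intro z
      rw [hWmem, map_sub, map_smul, h00, smul_eq_mul, mul_one, sub_self]
    have hsepL : (B.restrict W).SeparatingLeft := by
      intro w hw
      apply Subtype.ext
      apply hB.1 (w : V)
      intro z
      have h1 : B (w : V) (z - B v₀ z • v₀) = 0 := hw ⟨_, hproj z⟩
      have h2 : B (w : V) v₀ = 0 := by rw [hS.eq]; exact (hWmem _).mp w.2
      rw [map_sub, map_smul, h2, smul_zero, sub_zero] at h1
      exact h1
    have hnd : (B.restrict W).Nondegenerate := by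
      refine ⟨hsepL, ?_⟩
      intro y hy
      apply hsepL y
      intro z
      rw [(hS.restrict W).eq]
      exact hy z
    obtain ⟨b', hb1, hb2, hb3⟩ := ih W (B.restrict W) (hS.restrict W) hnd hfinW
    have hres : ∀ p q : W, (B.restrict W) p q = B (p : V) (q : V) := fun p q => rfl
    refine ⟨Fin.cons v₀ (fun i => (b' i : V)), ?_, ?_, ?_⟩
    · intro i j
      refine Fin.cases ?_ (fun i' => ?_) i <;> refine Fin.cases ?_ (fun j' => ?_) j
      · intro h; exact absurd rfl h
      · intro _
        rw [Fin.cons_zero, Fin.cons_succ]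
        exact (hWmem _).mp (b' j').2
      · intro _
        rw [Fin.cons_zero, Fin.cons_succ, hS.eq]
        exact (hWmem _).mp (b' i').2
      · intro h
        rw [Fin.cons_succ, Fin.cons_succ, ← hres]
        exact hb1 i' j' (fun h' => h (by rw [h']))
    · intro i
      refine Fin.cases ?_ (fun i' => ?_) i
      · intro _
        rw [Fin.cons_zero]; exact h00
      · intro h
        rw [Fin.cons_succ, ← hres]
        apply hb2
        intro h'
        apply h
        rw [h', Fin.succ_last]
    · rw [← Fin.succ_last, Fin.cons_succ, ← hres]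
      exact hb3

/-- Classification of symmetric bilinear forms over finite fields of odd characteristic: if B is non-degenerate symmetric on V of dimension n + 1 and α is a fixed non-square of F, there is an orthogonal basis b_0, ..., b_n with B(b_i, b_i) = 1 for i < n and B(b_n, b_n) ∈ {1, α}. -/
theorem result {F V : Type*} [Field F] [Finite F] [AddCommGroup V] [Module F V] [FiniteDimensional F V] (h2 : (2 : F) ≠ 0) (B : LinearMap.BilinForm F V) (hS : B.IsSymm) (hB : B.Nondegenerate) {n : ℕ} (hn : Module.finrank F V = n + 1) (α : F) (hα : ¬ IsSquare α) : ∃ b : Module.Basis (Fin (n + 1)) F V, (∀ i j, i ≠ j → B (b i) (b j) = 0) ∧ (∀ i, i ≠ Fin.last n → B (b i) (b i) = 1) ∧ (B (b (Fin.last n)) (b (Fin.last n)) = 1 ∨ B (b (Fin.last n)) (b (Fin.last n)) = α) := by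
  classical
  haveI := Fintype.ofFinite F
  obtain ⟨b, h1, h2', h3⟩ := fam h2 α hα n V B hS hB hn
  have hα0 : α ≠ 0 := by
    rintro rfl
    exact hα ⟨0, by simp⟩
  have hne : ∀ i, B (b i) (b i) ≠ 0 := by
    intro i
    by_cases hi : i = Fin.last n
    · rw [hi]
      rcases h3 with h | h
      · rw [h]; exact one_ne_zero
      · rw [h]; exact hα0
    · rw [h2' i hi]; exact one_ne_zero
  have hli : LinearIndependent F b :=
    LinearMap.BilinForm.linearIndependent_of_iIsOrtho
      (LinearMap.BilinForm.iIsOrtho_def.mpr h1) hne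
  refine ⟨basisOfLinearIndependentOfCardEqFinrank hli (by rw [Fintype.card_fin, hn]), ?_, ?_, ?_⟩
  · intro i j hij
    rw [coe_basisOfLinearIndependentOfCardEqFinrank]
    exact h1 i j hij
  · intro i hi
    rw [coe_basisOfLinearIndependentOfCardEqFinrank]
    exact h2' i hi
  · rw [coe_basisOfLinearIndependentOfCardEqFinrank]
    exact h3

end Cfsg.Agent.S0756
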