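import Cfsg.Statements.S0757
-- import your own Cfsg.Agent.* helpers here
import Mathlib

set_option autoImplicit false
open Cfsg

namespace Cfsg.Agent.S0757

/-- The two diagonal forms Σ x_i^2 and Σ_(i<n) x_i^2 + α x_n^2 on F^(n+1), with α a non-square and 2 ≠ 0 in F, are inequivalent quadratic forms (so over a finite field of odd order there are exactly two classes of non-singular symmetric bilinear forms in each dimension). -/
theorem result {F : Type*} [Field F] (h2 : (2 : F) ≠ 0) (n : ℕ) (α : F) (hα : ¬ IsSquare α) : ¬ (QuadraticMap.weightedSumSquares F (fun _ : Fin (n + 1) => (1 : F))).Equivalent (QuadraticMap.weightedSumSquares F (fun i : Fin (n + 1) => if i = Fin.last n then α else (1 : F))) := by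
  classical
  rintro ⟨e⟩
  obtain ⟨w, hw⟩ : ∃ w : Fin (n + 1) → F, w = fun i => if i = Fin.last n then α else (1 : F) :=
    ⟨_, rfl⟩
  rw [← hw] at e
  have hQ1 : ∀ x : Fin (n + 1) → F,
      QuadraticMap.weightedSumSquares F (fun _ : Fin (n + 1) => (1 : F)) x = ∑ i, x i * x i := by
    intro x; simp [QuadraticMap.weightedSumSquares_apply]
  have hQ2 : ∀ x : Fin (n + 1) → F,
      QuadraticMap.weightedSumSquares F w x = ∑ i, w i * (x i * x i) := by
    intro x; simp [QuadraticMap.weightedSumSquares_apply]
  have hiso : ∀ x : Fin (n + 1) → F, ∑ i, w i * (e x i * e x i) = ∑ i, x i * x i := by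
    intro x; rw [← hQ2, ← hQ1]; exact e.map_app x
  obtain ⟨v, hvdef⟩ : ∃ v : Fin (n + 1) → Fin (n + 1) → F,
      v = fun j => e (Pi.single j (1 : F)) := ⟨_, rfl⟩
  have hS : ∀ i j : Fin (n + 1),
      ∑ k, (Pi.single i (1 : F) : Fin (n + 1) → F) k * (Pi.single j (1 : F) : Fin (n + 1) → F) k
        = if i = j then 1 else 0 := by
    intro i j
    simp [Pi.single_apply]
    by_cases hij : i = j
    · rw [if_pos hij, if_pos hij.symm]
    · rw [if_neg hij, if_neg (fun h => hij h.symm)]
  have hv : ∀ i j, ∑ k, w k * (v i k * v j k) = if i = j then 1 else 0 := by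
    intro i j
    have h1 := hiso (Pi.single i 1 + Pi.single j 1)
    have h2' := hiso (Pi.single i 1)
    have h3 := hiso (Pi.single j 1)
    rw [map_add] at h1
    simp only [Pi.add_apply] at h1
    have hvi : ∀ k, e (Pi.single i (1 : F)) k = v i k := by intro k; rw [hvdef]
    have hvj : ∀ k, e (Pi.single j (1 : F)) k = v j k := by intro k; rw [hvdef]
    simp only [hvi, hvj] at h1 h2' h3
    have hL : ∑ k, w k * ((v i k + v j k) * (v i k + v j k))
        = ∑ k, w k * (v i k * v i k) + 2 * ∑ k, w k * (v i k * v j k)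
          + ∑ k, w k * (v j k * v j k) := by
      rw [Finset.mul_sum, ← Finset.sum_add_distrib, ← Finset.sum_add_distrib]
      apply Finset.sum_congr rfl; intro k _; ring
    have hR : ∑ k, ((Pi.single i (1 : F) : Fin (n + 1) → F) k + (Pi.single j (1 : F) : Fin (n + 1) → F) k)
          * ((Pi.single i (1 : F) : Fin (n + 1) → F) k + (Pi.single j (1 : F) : Fin (n + 1) → F) k)
        = ∑ k, (Pi.single i (1 : F) : Fin (n + 1) → F) k * (Pi.single i (1 : F) : Fin (n + 1) → F) k
          + 2 * ∑ k, (Pi.single i (1 : F) : Fin (n + 1) → F) k * (Pi.single j (1 : F) : Fin (n + 1) → F) k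
          + ∑ k, (Pi.single j (1 : F) : Fin (n + 1) → F) k * (Pi.single j (1 : F) : Fin (n + 1) → F) k := by
      rw [Finset.mul_sum, ← Finset.sum_add_distrib, ← Finset.sum_add_distrib]
      apply Finset.sum_congr rfl; intro k _; ring
    rw [hL, hR, h2', h3, hS i j] at h1
    have h4 : 2 * ∑ k, w k * (v i k * v j k) = 2 * (if i = j then (1 : F) else 0) := by
      have := h1
      linear_combination this
    exact mul_left_cancel₀ h2 h4
  obtain ⟨P, hP⟩ : ∃ P : Matrix (Fin (n + 1)) (Fin (n + 1)) F, P = Matrix.of (fun k j => v j k) :=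
    ⟨_, rfl⟩
  have hM : P.transpose * Matrix.diagonal w * P = 1 := by
    ext i j
    rw [Matrix.mul_apply, Matrix.one_apply, ← hv i j]
    apply Finset.sum_congr rfl
    intro k _
    rw [Matrix.mul_diagonal, Matrix.transpose_apply, hP]
    simp only [Matrix.of_apply]
    ring
  have hdet := congrArg Matrix.det hM
  rw [Matrix.det_mul, Matrix.det_mul, Matrix.det_transpose, Matrix.det_diagonal, Matrix.det_one]
    at hdet
  have hprod : ∏ i, w i = α := by
    rw [hw]
    rw [Finset.prod_ite_eq']
    simp
  rw [hprod] at hdet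
  apply hα
  have hd0 : P.det ≠ 0 := by
    intro h0
    rw [h0] at hdet
    simp at hdet
  refine ⟨P.det⁻¹, ?_⟩
  field_simp
  linear_combination hdet

end Cfsg.Agent.S0757
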