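import Cfsg.Statements.S0758
-- import your own Cfsg.Agent.* helpers here

set_option autoImplicit false
open Cfsg

namespace Cfsg.Agent.S0758

/-- For a finite field F of odd order q and a non-square α: the form x² + y² is isotropic iff q ≡ 1 mod 4, and the form x² + α y² is isotropic iff q ≡ 3 mod 4. -/
theorem result {F : Type*} [Field F] [Fintype F] (h2 : (2 : F) ≠ 0) (α : F) (hα : ¬ IsSquare α) : ((∃ x y : F, (x ≠ 0 ∨ y ≠ 0) ∧ x ^ 2 + y ^ 2 = 0) ↔ Fintype.card F % 4 = 1) ∧ ((∃ x y : F, (x ≠ 0 ∨ y ≠ 0) ∧ x ^ 2 + α * y ^ 2 = 0) ↔ Fintype.card F % 4 = 3) := by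
  classical
  have hchar : ringChar F ≠ 2 := by
    intro h
    apply h2
    have := ringChar.Nat.cast_ringChar (R := F)
    rw [h] at this
    exact_mod_cast this
  have hodd : Fintype.card F % 2 = 1 := FiniteField.odd_card_of_char_ne_two hchar
  have hm1 := FiniteField.isSquare_neg_one_iff (F := F)
  constructor
  · constructor
    · rintro ⟨x, y, hxy, h⟩
      have hy : y ≠ 0 := by
        rintro rfl
        simp at h
        simp [h] at hxy
      have hsq : IsSquare (-1 : F) := by
        refine ⟨x / y, ?_⟩
        field_simp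
        linear_combination -h
      have := hm1.mp hsq
      omega
    · intro h
      have hsq : IsSquare (-1 : F) := hm1.mpr (by omega)
      obtain ⟨r, hr⟩ := hsq
      refine ⟨r, 1, Or.inr one_ne_zero, ?_⟩
      linear_combination -hr
  · constructor
    · rintro ⟨x, y, hxy, h⟩
      have hy : y ≠ 0 := by
        rintro rfl
        simp at h
        simp [h] at hxy
      by_contra hne
      have hsq : IsSquare (-1 : F) := hm1.mpr hne
      obtain ⟨r, hr⟩ := hsq
      apply hα
      refine ⟨r * (x / y), ?_⟩
      have hr2 : r * r = -1 := hr.symm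
      have hxy2 : (x / y) ^ 2 = -α := by
        field_simp
        linear_combination h
      linear_combination (-(x / y) ^ 2) * hr2 + hxy2
    · intro h
      have hnsq : ¬ IsSquare (-1 : F) := by
        rw [hm1]; omega
      have h1 : quadraticChar F (-1) = -1 := quadraticChar_neg_one_iff_not_isSquare.mpr hnsq
      have h2' : quadraticChar F α = -1 := quadraticChar_neg_one_iff_not_isSquare.mpr hα
      have hα0 : α ≠ 0 := by
        rintro rfl
        exact hα ⟨0, by simp⟩
      have h3 : quadraticChar F (-α) = 1 := by
        have : -α = (-1) * α := by ring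
        rw [this, map_mul, h1, h2']
        norm_num
      have hsq : IsSquare (-α) := (quadraticChar_one_iff_isSquare (neg_ne_zero.mpr hα0)).mp h3
      obtain ⟨r, hr⟩ := hsq
      refine ⟨r, 1, Or.inr one_ne_zero, ?_⟩
      linear_combination -hr

end Cfsg.Agent.S0758
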