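import Cfsg.Statements.S0759
-- import your own Cfsg.Agent.* helpers here
import Mathlib

set_option autoImplicit false
open Cfsg

namespace Cfsg.Agent.S0759

open Matrix

section Helpers

variable {F : Type*} [Field F]

theorem normT {m : ℕ} (a b : F) (τ : Fin m → Fin m) (ε : Fin m → F)
    (h : b = 0 ∨ (Function.Involutive τ ∧ ∀ j, ε (τ j) = - ε j)) (hε : ∀ j, ε j * ε j = 1)
    (h2 : (2 : F) ≠ 0) (x : Fin m → F) :
    ∑ j, (a * x j + b * ε j * x (τ j)) ^ 2 = (a ^ 2 + b ^ 2) * ∑ j, (x j) ^ 2 := by
  rcases h with h | ⟨hτ, hετ⟩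
  · rw [h]
    rw [Finset.mul_sum]
    apply Finset.sum_congr rfl
    intro j _
    ring
  · have e1 : ∑ j, (x (τ j)) ^ 2 = ∑ j, (x j) ^ 2 :=
      Equiv.sum_comp (hτ.toPerm τ) (fun j => (x j) ^ 2)
    have e2 : ∑ j, ε j * x j * x (τ j) = 0 := by
      have e3 : ∑ j, ε (τ j) * x (τ j) * x (τ (τ j)) = ∑ j, ε j * x j * x (τ j) :=
        Equiv.sum_comp (hτ.toPerm τ) (fun j => ε j * x j * x (τ j))
      have e4 : ∑ j, ε (τ j) * x (τ j) * x (τ (τ j)) = - ∑ j, ε j * x j * x (τ j) := by
        rw [← Finset.sum_neg_distrib]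
        apply Finset.sum_congr rfl
        intro j _
        rw [hετ, hτ j]; ring
      rw [e4] at e3
      have e5 : (2 : F) * ∑ j, ε j * x j * x (τ j) = 0 := by linear_combination -e3
      rcases mul_eq_zero.mp e5 with h' | h'
      · exact absurd h' h2
      · exact h'
    have e6 : ∀ j, (a * x j + b * ε j * x (τ j)) ^ 2
        = a ^ 2 * (x j) ^ 2 + 2 * a * b * (ε j * x j * x (τ j)) + b ^ 2 * (x (τ j)) ^ 2 := by
      intro j
      have := hε j
      linear_combination (b ^ 2 * (x (τ j)) ^ 2) * this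
    simp only [e6]
    rw [Finset.sum_add_distrib, Finset.sum_add_distrib, ← Finset.mul_sum, ← Finset.mul_sum,
      ← Finset.mul_sum, e1, e2]
    ring

theorem exists_data [Fintype F] (h2 : (2 : F) ≠ 0) (m : ℕ)
    (hq : ¬ (Fintype.card F % 4 = 3 ∧ Odd m)) :
    ∃ (a b : F) (τ : Fin m → Fin m) (ε : Fin m → F), a ^ 2 + b ^ 2 = -1 ∧
      (b = 0 ∨ (Function.Involutive τ ∧ ∀ j, ε (τ j) = - ε j)) ∧ ∀ j, ε j * ε j = 1 := by
  classical
  by_cases hm : Odd m
  · have h3 : Fintype.card F % 4 ≠ 3 := fun h => hq ⟨h, hm⟩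
    obtain ⟨a, ha⟩ := FiniteField.isSquare_neg_one_iff.mpr h3
    refine ⟨a, 0, id, fun _ => 1, ?_, Or.inl rfl, fun j => by ring⟩
    rw [ha]; ring
  · have hm' : Even m := Nat.not_odd_iff_even.mp hm
    obtain ⟨r, hr⟩ := hm'
    have hchar : ringChar F ≠ 2 := by
      intro h
      have : CharP F 2 := ringChar.of_eq h
      exact h2 (by exact_mod_cast CharP.cast_eq_zero F 2)
    have hf : (Polynomial.X ^ 2 : Polynomial F).degree = 2 := Polynomial.degree_X_pow 2
    have hg : (Polynomial.X ^ 2 + Polynomial.C 1 : Polynomial F).degree = 2 :=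
      Polynomial.degree_X_pow_add_C (by norm_num) 1
    obtain ⟨a, b, hab⟩ := FiniteField.exists_root_sum_quadratic hf hg
      (FiniteField.odd_card_of_char_ne_two hchar)
    simp only [Polynomial.eval_add, Polynomial.eval_pow, Polynomial.eval_X, Polynomial.eval_C]
      at hab
    refine ⟨a, b, fun j => if h : (j : ℕ) < r then ⟨j + r, by omega⟩ else ⟨j - r, by omega⟩,
      fun j => if (j : ℕ) < r then 1 else -1, by linear_combination hab, Or.inr ⟨?_, ?_⟩, ?_⟩
    · intro j
      by_cases h : (j : ℕ) < r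
      · simp only [dif_pos h]
        rw [dif_neg (by simp)]
        apply Fin.ext
        simp
      · simp only [dif_neg h]
        have hj := j.2
        rw [dif_pos (by show (j : ℕ) - r < r; omega)]
        apply Fin.ext
        show (j : ℕ) - r + r = j
        omega
    · intro j
      by_cases h : (j : ℕ) < r
      · simp only [dif_pos h, if_pos h]
        rw [if_neg (by simp)]
      · simp only [dif_neg h, if_neg h]
        have hj := j.2
        rw [if_pos (by show (j : ℕ) - r < r; omega)]
        ring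
    · intro j
      by_cases h : (j : ℕ) < r
      · simp only [if_pos h]; ring
      · simp only [if_neg h]; ring

theorem det_Jm (m : ℕ) :
    (Matrix.fromBlocks (0 : Matrix (Fin m) (Fin m) F) (-1 : Matrix (Fin m) (Fin m) F)
      (1 : Matrix (Fin m) (Fin m) F) (0 : Matrix (Fin m) (Fin m) F)).det = 1 := by
  have h : Matrix.fromBlocks (0 : Matrix (Fin m) (Fin m) F) (-1 : Matrix (Fin m) (Fin m) F)
      (1 : Matrix (Fin m) (Fin m) F) (0 : Matrix (Fin m) (Fin m) F)
      = Matrix.fromBlocks (1 : Matrix (Fin m) (Fin m) F) (-1 : Matrix (Fin m) (Fin m) F)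
          (0 : Matrix (Fin m) (Fin m) F) (1 : Matrix (Fin m) (Fin m) F)
        * Matrix.fromBlocks (1 : Matrix (Fin m) (Fin m) F) (0 : Matrix (Fin m) (Fin m) F)
          (1 : Matrix (Fin m) (Fin m) F) (1 : Matrix (Fin m) (Fin m) F)
        * Matrix.fromBlocks (1 : Matrix (Fin m) (Fin m) F) (-1 : Matrix (Fin m) (Fin m) F)
          (0 : Matrix (Fin m) (Fin m) F) (1 : Matrix (Fin m) (Fin m) F) := by
    rw [Matrix.fromBlocks_multiply, Matrix.fromBlocks_multiply]
    simp
  rw [h, Matrix.det_mul, Matrix.det_mul, Matrix.det_fromBlocks_zero₂₁, Matrix.det_fromBlocks_zero₁₂]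
  simp

end Helpers

/-- Type of the orthonormal form: over a finite field of odd order q and for m ≥ 1, the quadratic form Σ_(i<2m) x_i² on F^(2m) admits an m-dimensional subspace on which it vanishes identically if and only if it is not the case that q ≡ 3 (mod 4) and m is odd. -/
theorem result {F : Type*} [Field F] [Fintype F] (h2 : (2 : F) ≠ 0) (m : ℕ) (hm : 1 ≤ m) : (∃ W : Submodule F (Fin (2 * m) → F), Module.finrank F W = m ∧ ∀ w ∈ W, ∑ i, w i ^ 2 = 0) ↔ ¬ (Fintype.card F % 4 = 3 ∧ Odd m) := by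
  classical
  obtain ⟨e, he⟩ : ∃ e : Fin m ⊕ Fin m ≃ Fin (2 * m),
      e = finSumFinEquiv.trans (finCongr (by omega : m + m = 2 * m)) := ⟨_, rfl⟩
  constructor
  · rintro ⟨W, hWm, hW⟩ ⟨hq3, hodd⟩
    -- dot products vanish on W
    have hdot : ∀ x ∈ W, ∀ y ∈ W, ∑ i, x i * y i = 0 := by
      intro x hx y hy
      have h1 := hW (x + y) (W.add_mem hx hy)
      have h3 : ∑ i, (x + y) i ^ 2 = ∑ i, x i ^ 2 + 2 * ∑ i, x i * y i + ∑ i, y i ^ 2 := by
        rw [Finset.mul_sum, ← Finset.sum_add_distrib, ← Finset.sum_add_distrib]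
        apply Finset.sum_congr rfl
        intro i _
        rw [Pi.add_apply]; ring
      rw [h3, hW x hx, hW y hy, zero_add, add_zero] at h1
      rcases mul_eq_zero.mp h1 with h | h
      · exact absurd h h2
      · exact h
    obtain ⟨W', hW'⟩ := Submodule.exists_isCompl W
    have hW'm : Module.finrank F W' = m := by
      have h1 := Submodule.finrank_add_eq_of_isCompl hW'
      rw [hWm, Module.finrank_fin_fun] at h1
      omega
    obtain ⟨bW⟩ : Nonempty (Module.Basis (Fin m) F W) := ⟨Module.finBasisOfFinrankEq F W hWm⟩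
    obtain ⟨bW'⟩ : Nonempty (Module.Basis (Fin m) F W') := ⟨Module.finBasisOfFinrankEq F W' hW'm⟩
    obtain ⟨r, hr⟩ : ∃ r : Fin m ⊕ Fin m → (Fin (2 * m) → F),
        r = Sum.elim (fun i => ((bW i : W) : Fin (2 * m) → F))
          (fun j => ((bW' j : W') : Fin (2 * m) → F)) := ⟨_, rfl⟩
    have hrli : LinearIndependent F r := by
      rw [hr]
      apply LinearIndependent.sum_type
      · exact bW.linearIndependent.map' W.subtype (Submodule.ker_subtype W)
      · exact bW'.linearIndependent.map' W'.subtype (Submodule.ker_subtype W')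
      · apply hW'.disjoint.mono
        · rw [Submodule.span_le]; rintro _ ⟨i, rfl⟩; exact (bW i).2
        · rw [Submodule.span_le]; rintro _ ⟨i, rfl⟩; exact (bW' i).2
    obtain ⟨P, hP⟩ : ∃ P : Matrix (Fin m ⊕ Fin m) (Fin m ⊕ Fin m) F,
        P = Matrix.of (fun s t => r s (e t)) := ⟨_, rfl⟩
    have hPunit : IsUnit P := by
      rw [← Matrix.linearIndependent_rows_iff_isUnit]
      have h1 : P.row = fun s => (LinearMap.funLeft F F e) (r s) := by
        funext s t
        rw [hP]; rfl
      rw [h1]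
      exact hrli.map' _ (LinearMap.ker_eq_bot.mpr
        (LinearMap.funLeft_injective_of_surjective F F e e.surjective))
    have hdetP : P.det ≠ 0 := by
      have := (Matrix.isUnit_iff_isUnit_det P).mp hPunit
      exact this.ne_zero
    obtain ⟨G, hG⟩ : ∃ G : Matrix (Fin m ⊕ Fin m) (Fin m ⊕ Fin m) F, G = P * P.transpose :=
      ⟨_, rfl⟩
    have hGapp : ∀ s t, G s t = ∑ k, r s k * r t k := by
      intro s t
      rw [hG, Matrix.mul_apply]
      rw [← Equiv.sum_comp e (fun k => r s k * r t k)]
      apply Finset.sum_congr rfl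
      intro u _
      rw [Matrix.transpose_apply, hP]; rfl
    have h11 : G.toBlocks₁₁ = 0 := by
      ext i j
      show G (Sum.inl i) (Sum.inl j) = 0
      rw [hGapp, hr]
      exact hdot _ (bW i).2 _ (bW j).2
    have h21 : G.toBlocks₂₁ = G.toBlocks₁₂.transpose := by
      ext i j
      show G (Sum.inr i) (Sum.inl j) = G (Sum.inl j) (Sum.inr i)
      rw [hGapp, hGapp]
      apply Finset.sum_congr rfl
      intro k _
      ring
    have hGblocks : G = Matrix.fromBlocks 0 G.toBlocks₁₂ G.toBlocks₁₂.transpose G.toBlocks₂₂ := by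
      conv_lhs => rw [← Matrix.fromBlocks_toBlocks G]
      rw [h11, h21]
    have hdetG : G.det = P.det * P.det := by
      rw [hG, Matrix.det_mul, Matrix.det_transpose]
    have hGJ : G * Matrix.fromBlocks (0 : Matrix (Fin m) (Fin m) F)
          (-1 : Matrix (Fin m) (Fin m) F) (1 : Matrix (Fin m) (Fin m) F)
          (0 : Matrix (Fin m) (Fin m) F)
        = Matrix.fromBlocks G.toBlocks₁₂ (0 : Matrix (Fin m) (Fin m) F) G.toBlocks₂₂
          (-G.toBlocks₁₂.transpose) := by
      conv_lhs => rw [hGblocks]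
      rw [Matrix.fromBlocks_multiply]
      simp
    have hdet2 := congrArg Matrix.det hGJ
    rw [Matrix.det_mul, det_Jm, mul_one, Matrix.det_fromBlocks_zero₁₂, Matrix.det_neg,
      Matrix.det_transpose, Fintype.card_fin, hdetG] at hdet2
    have hneg : (-1 : F) ^ m = -1 := Odd.neg_one_pow hodd
    rw [hneg] at hdet2
    have hC : G.toBlocks₁₂.det ≠ 0 := by
      intro h0
      rw [h0] at hdet2
      simp at hdet2
      exact hdetP hdet2
    have hsq : IsSquare (-1 : F) := by
      refine ⟨P.det / G.toBlocks₁₂.det, ?_⟩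
      field_simp
      linear_combination -hdet2
    exact (FiniteField.isSquare_neg_one_iff.mp hsq) hq3
  · intro hq
    obtain ⟨a, b, τ, ε, hab, hτ, hε⟩ := exists_data h2 m hq
    obtain ⟨T, hT⟩ : ∃ T : (Fin m → F) →ₗ[F] (Fin m → F),
        ∀ x j, T x j = a * x j + b * ε j * x (τ j) := by
      refine ⟨{ toFun := fun x j => a * x j + b * ε j * x (τ j)
                map_add' := ?_
                map_smul' := ?_ }, fun x j => rfl⟩
      · intro x y; funext j; simp only [Pi.add_apply]; ring
      · intro c x; funext j; simp only [Pi.smul_apply, smul_eq_mul, RingHom.id_apply]; ring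
    obtain ⟨L, hL⟩ : ∃ L : (Fin m → F) →ₗ[F] (Fin (2 * m) → F),
        ∀ x i, L x i = Sum.elim x (T x) (e.symm i) := by
      refine ⟨{ toFun := fun x i => Sum.elim x (T x) (e.symm i)
                map_add' := ?_
                map_smul' := ?_ }, fun x i => rfl⟩
      · intro x y; funext i
        show Sum.elim (x + y) (T (x + y)) (e.symm i)
          = Sum.elim x (T x) (e.symm i) + Sum.elim y (T y) (e.symm i)
        generalize e.symm i = s
        rcases s with j | j <;> simp [map_add]
      · intro c x; funext i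
        show Sum.elim (c • x) (T (c • x)) (e.symm i)
          = c • Sum.elim x (T x) (e.symm i)
        generalize e.symm i = s
        rcases s with j | j <;> simp [map_smul]
    have hLinj : Function.Injective L := by
      rw [← LinearMap.ker_eq_bot, Submodule.eq_bot_iff]
      intro x hx
      rw [LinearMap.mem_ker] at hx
      funext j
      have h1 := congrFun hx (e (Sum.inl j))
      rw [hL, Equiv.symm_apply_apply] at h1
      exact h1
    refine ⟨LinearMap.range L, ?_, ?_⟩
    · rw [LinearMap.finrank_range_of_inj hLinj, Module.finrank_fin_fun]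
    · rintro _ ⟨x, rfl⟩
      have h1 : ∑ i, L x i ^ 2 = ∑ s : Fin m ⊕ Fin m, (Sum.elim x (T x) s) ^ 2 := by
        rw [← Equiv.sum_comp e (fun i => L x i ^ 2)]
        apply Finset.sum_congr rfl
        intro s _
        rw [hL, Equiv.symm_apply_apply]
      rw [h1, Fintype.sum_sum_type]
      simp only [Sum.elim_inl, Sum.elim_inr, hT]
      rw [normT a b τ ε hτ hε h2 x, hab]
      ring

end Cfsg.Agent.S0759
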