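import Cfsg.Statements.S0760
-- import your own Cfsg.Agent.* helpers here
import Mathlib

set_option autoImplicit false
open Cfsg

namespace Cfsg.Agent.S0760

theorem iso_of_ts {F V : Type*} [Field F] [AddCommGroup V] [Module F V]
    (Q : QuadraticForm F V) (W : Submodule F V) (h : ∀ w ∈ W, Q w = 0) :
    ∀ x ∈ W, ∀ y ∈ W, QuadraticMap.polarBilin Q x y = 0 := by
  intro x hx y hy
  show Q (x + y) - Q x - Q y = 0
  rw [h _ (W.add_mem hx hy), h x hx, h y hy]; simp

theorem le_of_max {F V : Type*} [Field F] [AddCommGroup V] [Module F V] [FiniteDimensional F V]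
    (Q : QuadraticForm F V) (hQ : (QuadraticMap.polarBilin Q).Nondegenerate) (W₁ W₂ : Submodule F V)
    (h₁ : ∀ w ∈ W₁, Q w = 0) (h₂ : ∀ w ∈ W₂, Q w = 0)
    (hmax₁ : ∀ W : Submodule F V, W₁ ≤ W → (∀ w ∈ W, Q w = 0) → W = W₁) :
    Module.finrank F W₂ ≤ Module.finrank F W₁ := by
  obtain ⟨B, hBdef⟩ : ∃ B : LinearMap.BilinForm F V, B = QuadraticMap.polarBilin Q := ⟨_, rfl⟩
  rw [← hBdef] at hQ
  have hBapp : ∀ x y, B x y = Q (x + y) - Q x - Q y := fun x y => by rw [hBdef]; rfl
  have hiso₂ : ∀ x ∈ W₂, ∀ y ∈ W₂, B x y = 0 := by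
    rw [hBdef]; exact iso_of_ts Q W₂ h₂
  have hA : W₂ ⊓ B.orthogonal W₁ ≤ W₁ ⊓ W₂ := by
    intro w hw
    obtain ⟨hw2, hwo⟩ := Submodule.mem_inf.mp hw
    rw [LinearMap.BilinForm.mem_orthogonal_iff] at hwo
    refine Submodule.mem_inf.mpr ⟨?_, hw2⟩
    have hts : ∀ z ∈ W₁ ⊔ Submodule.span F {w}, Q z = 0 := by
      intro z hz
      obtain ⟨x, hx, y, hy, rfl⟩ := Submodule.mem_sup.mp hz
      obtain ⟨c, rfl⟩ := Submodule.mem_span_singleton.mp hy
      have h3 : B x (c • w) = 0 := by rw [map_smul, hwo x hx, smul_zero]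
      have h4 : Q (c • w) = 0 := by rw [QuadraticMap.map_smul, h₂ w hw2, smul_zero]
      have h5 := hBapp x (c • w)
      rw [h3, h₁ x hx, h4, sub_zero, sub_zero] at h5
      exact h5.symm
    have h6 := hmax₁ _ le_sup_left hts
    rw [← h6]
    exact Submodule.mem_sup_right (Submodule.mem_span_singleton_self w)
  have hle : W₂ ⊔ B.orthogonal W₁ ≤ B.orthogonal (W₁ ⊓ W₂) := by
    apply sup_le
    · intro w hw
      rw [LinearMap.BilinForm.mem_orthogonal_iff]
      intro d hd
      exact hiso₂ d (Submodule.mem_inf.mp hd).2 w hw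
    · exact LinearMap.BilinForm.orthogonal_le inf_le_left
  have e1 := Submodule.finrank_sup_add_finrank_inf_eq W₂ (B.orthogonal W₁)
  have e2 := LinearMap.BilinForm.finrank_orthogonal hQ W₁
  have e3 := LinearMap.BilinForm.finrank_orthogonal hQ (W₁ ⊓ W₂)
  have e4 := Submodule.finrank_mono hle
  have e5 := Submodule.finrank_mono hA
  have e6 : Module.finrank F W₁ ≤ Module.finrank F V := Submodule.finrank_le W₁
  have e7 : Module.finrank F (W₁ ⊓ W₂ : Submodule F V) ≤ Module.finrank F W₁ :=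
    Submodule.finrank_mono inf_le_left
  omega

/-- Witt index is well defined: if Q is a quadratic form on a finite-dimensional space V over a finite field with non-degenerate polar form, and W₁, W₂ are subspaces on which Q vanishes that are maximal with this property, then W₁ and W₂ have the same dimension, and twice this dimension is at most dim V. -/
theorem result {F V : Type*} [Field F] [Finite F] [AddCommGroup V] [Module F V] [FiniteDimensional F V] (Q : QuadraticForm F V) (hQ : (QuadraticMap.polarBilin Q).Nondegenerate) (W₁ W₂ : Submodule F V) (h₁ : ∀ w ∈ W₁, Q w = 0) (h₂ : ∀ w ∈ W₂, Q w = 0) (hmax₁ : ∀ W : Submodule F V, W₁ ≤ W → (∀ w ∈ W, Q w = 0) → W = W₁) (hmax₂ : ∀ W : Submodule F V, W₂ ≤ W → (∀ w ∈ W, Q w = 0) → W = W₂) : Module.finrank F W₁ = Module.finrank F W₂ ∧ 2 * Module.finrank F W₁ ≤ Module.finrank F V := by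
  refine ⟨le_antisymm (le_of_max Q hQ W₂ W₁ h₂ h₁ hmax₂) (le_of_max Q hQ W₁ W₂ h₁ h₂ hmax₁), ?_⟩
  have hle : W₁ ≤ LinearMap.BilinForm.orthogonal (QuadraticMap.polarBilin Q) W₁ := by
    intro w hw
    rw [LinearMap.BilinForm.mem_orthogonal_iff]
    intro x hx
    exact iso_of_ts Q W₁ h₁ x hx w hw
  have e1 := Submodule.finrank_mono hle
  have e2 := LinearMap.BilinForm.finrank_orthogonal hQ W₁
  have e3 : Module.finrank F W₁ ≤ Module.finrank F V := Submodule.finrank_le W₁
  omega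

end Cfsg.Agent.S0760
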