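import Cfsg.Statements.S0761
-- import your own Cfsg.Agent.* helpers here
import Mathlib

set_option autoImplicit false
open Cfsg

namespace Cfsg.Agent.S0761

/-- Hyperbolic partners: let B be a non-degenerate bilinear form on a finite-dimensional space, either alternating, or symmetric with 2 ≠ 0. If Z is a subspace on which B vanishes, x ∉ Z is isotropic and orthogonal to Z, then there is an isotropic y with B x y = 1 which is orthogonal to Z. -/
theorem result {F V : Type*} [Field F] [AddCommGroup V] [Module F V] [FiniteDimensional F V] (B : LinearMap.BilinForm F V) (hB : B.Nondegenerate) (hform : B.IsAlt ∨ (B.IsSymm ∧ (2 : F) ≠ 0)) (x : V) (Z : Submodule F V) (hxZ : x ∉ Z) (hx : B x x = 0) (hxz : ∀ z ∈ Z, B x z = 0) (hZ : ∀ z ∈ Z, ∀ z' ∈ Z, B z z' = 0) : ∃ y : V, B y y = 0 ∧ B x y = 1 ∧ ∀ z ∈ Z, B z y = 0 := by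
  classical
  have hrefl : B.IsRefl := by
    rcases hform with h | h
    · exact h.isRefl
    · exact h.1.isRefl
  have horth : B.orthogonal (B.orthogonal Z) = Z :=
    LinearMap.BilinForm.orthogonal_orthogonal hB hrefl Z
  have hx' : x ∉ B.orthogonal (B.orthogonal Z) := by rw [horth]; exact hxZ
  rw [LinearMap.BilinForm.mem_orthogonal_iff] at hx'
  push Not at hx'
  obtain ⟨n, hn, hnx⟩ := hx'
  have hnZ : ∀ z ∈ Z, B z n = 0 := by
    intro z hz
    have := (LinearMap.BilinForm.mem_orthogonal_iff.mp hn) z hz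
    exact this
  have hxn : B x n ≠ 0 := fun h => hnx (hrefl x n h)
  have hzx : ∀ z ∈ Z, B z x = 0 := fun z hz => hrefl x z (hxz z hz)
  -- normalise
  set y₀ := (B x n)⁻¹ • n with hy₀
  have hxy₀ : B x y₀ = 1 := by
    rw [hy₀, map_smul, smul_eq_mul, inv_mul_cancel₀ hxn]
  have hy₀Z : ∀ z ∈ Z, B z y₀ = 0 := by
    intro z hz
    rw [hy₀, map_smul, hnZ z hz, smul_zero]
  rcases hform with halt | ⟨hsymm, h2⟩
  · exact ⟨y₀, halt y₀, hxy₀, hy₀Z⟩
  · have hy₀x : B y₀ x = 1 := by rw [← hsymm.eq x y₀]; simpa using hxy₀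
    refine ⟨y₀ + (-(B y₀ y₀) / 2) • x, ?_, ?_, ?_⟩
    · simp only [map_add, map_smul, LinearMap.add_apply, LinearMap.smul_apply, smul_eq_mul,
        hx, hxy₀, hy₀x]
      field_simp
      ring
    · simp only [map_add, map_smul, smul_eq_mul, hx, hxy₀]
      ring
    · intro z hz
      simp only [map_add, map_smul, smul_eq_mul, hy₀Z z hz, hzx z hz]
      ring

end Cfsg.Agent.S0761
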