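import Cfsg.Statements.S0762
-- import your own Cfsg.Agent.* helpers here

set_option autoImplicit false
open Cfsg

namespace Cfsg.Agent.S0762

/-- In characteristic two over a finite field, a quadratic form on a space of dimension at least 3 vanishes on some non-zero vector. -/
theorem result {F V : Type*} [Field F] [Finite F] [CharP F 2] [AddCommGroup V] [Module F V] [FiniteDimensional F V] (Q : QuadraticForm F V) (h3 : 3 ≤ Module.finrank F V) : ∃ v : V, v ≠ 0 ∧ Q v = 0 := by
  classical
  obtain ⟨f, hf⟩ := exists_linearIndependent_of_le_finrank (R := F) (M := V) h3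
  have hli := Fintype.linearIndependent_iff.mp hf
  by_cases hu : Q (f 0) = 0
  · exact ⟨f 0, hf.ne_zero 0, hu⟩
  have hchar : ringChar F = 2 := ringChar.eq F 2
  have key : ∀ a b : F, (a ≠ 0 ∨ b ≠ 0) → QuadraticMap.polar Q (f 0) (a • f 1 + b • f 2) = 0 →
      ∃ z : V, z ≠ 0 ∧ Q z = 0 := by
    intro a b hab hB
    obtain ⟨t, ht⟩ := FiniteField.isSquare_of_char_two hchar (Q (a • f 1 + b • f 2) / Q (f 0))
    refine ⟨(a • f 1 + b • f 2) + t • f 0, ?_, ?_⟩
    · intro hz
      have h1 := hli ![t, a, b] (by
        simp only [Fin.sum_univ_three, Matrix.cons_val_zero, Matrix.cons_val_one,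
          Matrix.cons_val_two]
        rw [← hz]; abel)
      have ha := h1 1
      have hb := h1 2
      simp at ha hb
      rcases hab with h | h
      · exact h ha
      · exact h hb
    · rw [QuadraticMap.map_add (⇑Q), QuadraticMap.map_smul, QuadraticMap.polar_smul_right,
        QuadraticMap.polar_comm, hB]
      simp only [smul_eq_mul, mul_zero, add_zero]
      rw [← ht]
      field_simp
      rw [CharTwo.add_self_eq_zero (1 : F), mul_zero]
  by_cases hv : QuadraticMap.polar Q (f 0) (f 1) = 0
  · exact key 1 0 (Or.inl one_ne_zero) (by simp [hv])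
  · refine key (QuadraticMap.polar Q (f 0) (f 2)) (-(QuadraticMap.polar Q (f 0) (f 1)))
      (Or.inr (neg_ne_zero.mpr hv)) ?_
    rw [QuadraticMap.polar_add_right, QuadraticMap.polar_smul_right, QuadraticMap.polar_smul_right]
    simp only [smul_eq_mul]
    ring

end Cfsg.Agent.S0762
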