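import Cfsg.Statements.S0763
-- import your own Cfsg.Agent.* helpers here
import Mathlib

set_option autoImplicit false
open Cfsg

namespace Cfsg.Agent.S0763

/-- Binary quadratic forms in characteristic two over a finite field: if Q is a quadratic form on a 2-dimensional space whose polar form is non-degenerate, then either there are vectors v, w with Q v = Q w = 0 and polar value 1 (Q is xy in these coordinates), or there are v, w and μ with Q v = 1, Q w = μ, polar value 1 and x² + x + μ without roots in F (Q is x² + xy + μy²). -/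
theorem result {F V : Type*} [Field F] [Finite F] [CharP F 2] [AddCommGroup V] [Module F V] (Q : QuadraticForm F V) (h2 : Module.finrank F V = 2) (hQ : (QuadraticMap.polarBilin Q).Nondegenerate) : (∃ v w : V, LinearIndependent F ![v, w] ∧ Q v = 0 ∧ Q w = 0 ∧ QuadraticMap.polar Q v w = 1) ∨ (∃ (v w : V) (μ : F), LinearIndependent F ![v, w] ∧ (∀ x : F, x ^ 2 + x + μ ≠ 0) ∧ Q v = 1 ∧ Q w = μ ∧ QuadraticMap.polar Q v w = 1) := by
  classical
  have hchar2 : (2 : F) = 0 := CharTwo.two_eq_zero
  have hpself : ∀ v : V, QuadraticMap.polar Q v v = 0 := by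
    intro v
    rw [QuadraticMap.polar_self, two_nsmul, ← two_mul, hchar2, zero_mul]
  have hfd : Module.Finite F V := Module.finite_of_finrank_pos (by rw [h2]; norm_num)
  have hnt : Nontrivial V := Module.nontrivial_of_finrank_pos (R := F) (by rw [h2]; norm_num)
  have hex : ∀ v : V, v ≠ 0 → ∃ w : V, QuadraticMap.polar Q v w = 1 := by
    intro v hv
    have h1 : ∃ w, QuadraticMap.polar Q v w ≠ 0 := by
      by_contra hcon
      push Not at hcon
      apply hv
      apply hQ.1 v
      intro y
      rw [QuadraticMap.polarBilin_apply_apply]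
      exact hcon y
    obtain ⟨w, hw⟩ := h1
    refine ⟨(QuadraticMap.polar Q v w)⁻¹ • w, ?_⟩
    rw [QuadraticMap.polar_smul_right, smul_eq_mul, inv_mul_cancel₀ hw]
  have hli : ∀ v w : V, QuadraticMap.polar Q v w = 1 → LinearIndependent F ![v, w] := by
    intro v w hvw
    rw [LinearIndependent.pair_iff]
    intro s t hst
    have h1 : QuadraticMap.polar Q v (s • v + t • w) = t := by
      rw [QuadraticMap.polar_add_right, QuadraticMap.polar_smul_right, QuadraticMap.polar_smul_right,
        hpself, hvw, smul_zero, zero_add, smul_eq_mul, mul_one]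
    have h2' : QuadraticMap.polar Q (s • v + t • w) w = s := by
      rw [QuadraticMap.polar_add_left, QuadraticMap.polar_smul_left, QuadraticMap.polar_smul_left,
        hpself, hvw, smul_zero, add_zero, smul_eq_mul, mul_one]
    rw [hst] at h1 h2'
    simp only [QuadraticMap.polar_zero_right, QuadraticMap.polar_zero_left] at h1 h2'
    exact ⟨h2'.symm, h1.symm⟩
  by_cases hiso : ∃ v : V, v ≠ 0 ∧ Q v = 0
  · left
    obtain ⟨v, hv, hQv⟩ := hiso
    obtain ⟨w, hw⟩ := hex v hv
    have hpol : QuadraticMap.polar Q v (w + Q w • v) = 1 := by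
      rw [QuadraticMap.polar_add_right, QuadraticMap.polar_smul_right, hpself, smul_zero, add_zero, hw]
    refine ⟨v, w + Q w • v, hli _ _ hpol, hQv, ?_, hpol⟩
    rw [QuadraticMap.map_add Q, QuadraticMap.map_smul, hQv, QuadraticMap.polar_smul_right,
      QuadraticMap.polar_comm, hw, smul_zero, add_zero, smul_eq_mul, mul_one, ← two_mul, hchar2, zero_mul]
  · right
    push Not at hiso
    obtain ⟨v, hv⟩ := exists_ne (0 : V)
    have ha : Q v ≠ 0 := hiso v hv
    obtain ⟨s, hs⟩ := FiniteField.isSquare_of_char_two (ringChar.eq F 2) (Q v)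
    have hs0 : s ≠ 0 := by
      rintro rfl
      rw [mul_zero] at hs
      exact ha hs
    have hv' : s⁻¹ • v ≠ 0 := smul_ne_zero (inv_ne_zero hs0) hv
    have hQv' : Q (s⁻¹ • v) = 1 := by
      rw [QuadraticMap.map_smul, hs, smul_eq_mul]
      field_simp
    obtain ⟨w, hw⟩ := hex _ hv'
    have hlin := hli _ _ hw
    refine ⟨s⁻¹ • v, w, Q w, hlin, ?_, hQv', rfl, hw⟩
    intro x hx
    have hne : x • (s⁻¹ • v) + w ≠ 0 := by
      intro h0
      rw [LinearIndependent.pair_iff] at hlin
      have := (hlin x 1 (by rw [one_smul]; exact h0)).2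
      exact one_ne_zero this
    apply hiso _ hne
    rw [QuadraticMap.map_add Q, QuadraticMap.map_smul, hQv', QuadraticMap.polar_smul_left, hw,
      smul_eq_mul, smul_eq_mul, mul_one, mul_one, ← hx]
    ring

end Cfsg.Agent.S0763
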