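import Cfsg.Statements.S0769
-- import your own Cfsg.Agent.* helpers here
import Mathlib

set_option autoImplicit false
open Cfsg

namespace Cfsg.Agent.S0769

/-- Order of the Borel subgroup of GL_n(q): the invertible lower-triangular n × n matrices over a field with q elements number q^(n(n-1)/2) (q-1)^n (unitriangular part times the diagonal torus). -/
theorem result {F : Type*} [Field F] [Fintype F] {q : ℕ} (hF : Fintype.card F = q) (n : ℕ) : Nat.card {g : Matrix.GeneralLinearGroup (Fin n) F // ∀ i j : Fin n, i < j → (g : Matrix (Fin n) (Fin n) F) i j = 0} = q ^ (n * (n - 1) / 2) * (q - 1) ^ n := by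
  classical
  obtain ⟨P, hP⟩ : ∃ P : Fin n → Fin n → F → Prop,
      P = fun i j x => (i < j → x = 0) ∧ (i = j → x ≠ 0) := ⟨_, rfl⟩
  have hPdef : ∀ i j x, P i j x ↔ ((i < j → x = 0) ∧ (i = j → x ≠ 0)) := by
    intro i j x; rw [hP]
  have e1 : {g : Matrix.GeneralLinearGroup (Fin n) F //
        ∀ i j : Fin n, i < j → (g : Matrix (Fin n) (Fin n) F) i j = 0} ≃
      {M : Fin n → Fin n → F // ∀ i, ∀ j, P i j (M i j)} :=
    { toFun := fun g => ⟨fun i j => (g.1 : Matrix (Fin n) (Fin n) F) i j, by
        intro i j
        rw [hPdef]
        refine ⟨g.2 i j, ?_⟩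
        rintro rfl
        have hlt : (g.1 : Matrix (Fin n) (Fin n) F).IsLowerTriangular := by
          intro a b hab
          exact g.2 a b hab
        have hdet := Matrix.det_of_isLowerTriangular _ hlt
        have hne : (g.1 : Matrix (Fin n) (Fin n) F).det ≠ 0 := by
          have := (Matrix.GeneralLinearGroup.det g.1).ne_zero
          simpa using this
        rw [hdet] at hne
        exact (Finset.prod_ne_zero_iff.mp hne) i (Finset.mem_univ _)⟩
      invFun := fun M => ⟨Matrix.GeneralLinearGroup.mkOfDetNeZero (Matrix.of M.1) (by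
          have hlt : (Matrix.of M.1).IsLowerTriangular := by
            intro a b hab
            exact ((hPdef a b _).mp (M.2 a b)).1 hab
          rw [Matrix.det_of_isLowerTriangular _ hlt]
          apply Finset.prod_ne_zero_iff.mpr
          intro i _
          exact ((hPdef i i _).mp (M.2 i i)).2 rfl), by
          intro i j hij
          exact ((hPdef i j _).mp (M.2 i j)).1 hij⟩
      left_inv := by
        intro g
        apply Subtype.ext
        apply Units.ext
        rfl
      right_inv := by
        intro M
        apply Subtype.ext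
        rfl }
  have e2 : {M : Fin n → Fin n → F // ∀ i, ∀ j, P i j (M i j)} ≃
      (∀ i : Fin n, ∀ j : Fin n, {x : F // P i j x}) :=
    (Equiv.subtypePiEquivPi (p := fun (i : Fin n) (r : Fin n → F) => ∀ j, P i j (r j))).trans
      (Equiv.piCongrRight (fun i => Equiv.subtypePiEquivPi (p := fun (j : Fin n) (x : F) => P i j x)))
  have hcard : ∀ i j : Fin n, Fintype.card {x : F // P i j x} =
      (if j = i then q - 1 else 1) * (if j < i then q else 1) := by
    intro i j
    rcases lt_trichotomy i j with h | h | h
    · rw [if_neg (ne_of_gt h), if_neg (not_lt.mpr (le_of_lt h)), mul_one]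
      rw [Fintype.card_eq_one_iff]
      refine ⟨⟨0, (hPdef i j 0).mpr ⟨fun _ => rfl, fun h' => absurd h' (ne_of_lt h)⟩⟩, ?_⟩
      intro y
      exact Subtype.ext (((hPdef i j _).mp y.2).1 h)
    · subst h
      rw [if_pos rfl, if_neg (lt_irrefl _), mul_one]
      have : Fintype.card {x : F // P i i x} = Fintype.card {x : F // ¬ (x = 0)} := by
        apply Fintype.card_congr
        apply Equiv.subtypeEquivRight
        intro x
        rw [hPdef]
        constructor
        · intro h; exact h.2 rfl
        · intro h; exact ⟨fun h' => absurd h' (lt_irrefl _), fun _ => h⟩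
      rw [this, Fintype.card_subtype_compl, hF, Fintype.card_subtype_eq]
    · rw [if_neg (ne_of_lt h), if_pos h, one_mul, ← hF]
      apply Fintype.card_congr
      apply Equiv.subtypeUnivEquiv
      intro x
      rw [hPdef]
      exact ⟨fun h' => absurd h' (not_lt.mpr (le_of_lt h)), fun h' => absurd h' (ne_of_gt h)⟩
  rw [Nat.card_congr (e1.trans e2), Nat.card_eq_fintype_card, Fintype.card_pi]
  have hrow : ∀ i : Fin n, Fintype.card (∀ j : Fin n, {x : F // P i j x}) = (q - 1) * q ^ (i : ℕ) := by
    intro i
    rw [Fintype.card_pi]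
    simp only [hcard]
    rw [Finset.prod_mul_distrib, Finset.prod_ite_eq' Finset.univ i (fun _ => q - 1),
      if_pos (Finset.mem_univ _), Finset.prod_ite, Finset.prod_const, Finset.prod_const_one,
      mul_one, Finset.filter_gt_eq_Iio, Fin.card_Iio]
  simp only [hrow]
  rw [Finset.prod_mul_distrib, Finset.prod_const, Finset.card_univ, Fintype.card_fin,
    Finset.prod_pow_eq_pow_sum, Fin.sum_univ_eq_sum_range (fun i => i) n, Finset.sum_range_id,
    mul_comm]

end Cfsg.Agent.S0769
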