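import Cfsg.Statements.S0770
-- import your own Cfsg.Agent.* helpers here
import Mathlib

set_option autoImplicit false
open Cfsg

namespace Cfsg.Agent.S0770

/-- For a field with at least 3 elements, an invertible matrix normalises the subgroup of invertible diagonal matrices of GL_n if and only if it is monomial (exactly one non-zero entry in each row). -/
theorem result {F : Type*} [Field F] (hF : ∃ a : F, a ≠ 0 ∧ a ≠ 1) (n : ℕ) (g : Matrix.GeneralLinearGroup (Fin n) F) : g ∈ Subgroup.normalizer ((Units.map (Matrix.diagonalRingHom (Fin n) F).toMonoidHom).range : Subgroup (Matrix.GeneralLinearGroup (Fin n) F)) ↔ ∀ i : Fin n, ∃! j : Fin n, (g : Matrix (Fin n) (Fin n) F) i j ≠ 0 := by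
  classical
  obtain ⟨a, ha0, ha1⟩ := hF
  have hcoe : ∀ u : (Fin n → F)ˣ,
      ((Units.map (Matrix.diagonalRingHom (Fin n) F).toMonoidHom u :
        Matrix.GeneralLinearGroup (Fin n) F) : Matrix (Fin n) (Fin n) F)
        = Matrix.diagonal (u : Fin n → F) := fun u => rfl
  have hex : ∀ i, ∃ j, (g : Matrix (Fin n) (Fin n) F) i j ≠ 0 := by
    intro i
    by_contra hcon
    push Not at hcon
    have h1 : ((g * g⁻¹ : Matrix.GeneralLinearGroup (Fin n) F) : Matrix (Fin n) (Fin n) F) i i
        = 1 := by
      rw [mul_inv_cancel]; simp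
    rw [Matrix.GeneralLinearGroup.coe_mul, Matrix.mul_apply] at h1
    simp [hcon] at h1
  constructor
  · intro hg i
    rw [Subgroup.mem_normalizer_iff] at hg
    obtain ⟨j, hj⟩ := hex i
    refine ⟨j, hj, ?_⟩
    intro k hk
    by_contra hkj
    let u : (Fin n → F)ˣ := MulEquiv.piUnits.symm (Function.update 1 j (Units.mk0 a ha0))
    have hu : ∀ l, (u : Fin n → F) l = if l = j then a else 1 := by
      intro l
      show ((Function.update (1 : Fin n → Fˣ) j (Units.mk0 a ha0) l : Fˣ) : F) = _
      by_cases hl : l = j
      · subst hl; simp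
      · simp [hl]
    obtain ⟨e, he⟩ := (hg (Units.map (Matrix.diagonalRingHom (Fin n) F).toMonoidHom u)).mp ⟨u, rfl⟩
    have hmat : (g : Matrix (Fin n) (Fin n) F) * Matrix.diagonal (u : Fin n → F)
        = Matrix.diagonal (e : Fin n → F) * (g : Matrix (Fin n) (Fin n) F) := by
      have h0 : g * Units.map (Matrix.diagonalRingHom (Fin n) F).toMonoidHom u
          = Units.map (Matrix.diagonalRingHom (Fin n) F).toMonoidHom e * g := by
        rw [he]; group
      have h1 := congrArg (fun x : Matrix.GeneralLinearGroup (Fin n) F =>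
        (x : Matrix (Fin n) (Fin n) F)) h0
      simpa [hcoe] using h1
    have h1 := congrFun (congrFun hmat i) j
    have h2 := congrFun (congrFun hmat i) k
    rw [Matrix.mul_diagonal, Matrix.diagonal_mul] at h1 h2
    rw [hu] at h1 h2
    simp only [if_true, if_neg hkj, mul_one] at h1 h2
    have h3 : (e : Fin n → F) i = a := by
      have : (g : Matrix (Fin n) (Fin n) F) i j * a = (g : Matrix (Fin n) (Fin n) F) i j * (e : Fin n → F) i := by
        rw [h1, mul_comm]
      exact (mul_left_cancel₀ hj this).symm
    rw [h3] at h2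
    have h4 : (1 - a) * (g : Matrix (Fin n) (Fin n) F) i k = 0 := by
      rw [sub_mul, one_mul, ← h2, sub_self]
    rcases mul_eq_zero.mp h4 with h5 | h5
    · exact ha1 (sub_eq_zero.mp h5).symm
    · exact hk h5
  · intro hmono
    choose σ hσ hσu using hmono
    have hzero : ∀ i j, j ≠ σ i → (g : Matrix (Fin n) (Fin n) F) i j = 0 := by
      intro i j hj
      by_contra h
      exact hj (hσu i j h)
    have hσinj : Function.Injective σ := by
      intro i i' hii
      by_contra hne
      -- rows i and i' proportional: contradiction with invertibility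
      have hdet : (g : Matrix (Fin n) (Fin n) F).det = 0 := by
        set c : F := (g : Matrix (Fin n) (Fin n) F) i (σ i) / (g : Matrix (Fin n) (Fin n) F) i' (σ i') with hc
        have hrow : (g : Matrix (Fin n) (Fin n) F) i = c • (g : Matrix (Fin n) (Fin n) F) i' := by
          funext j
          by_cases hj : j = σ i
          · subst hj
            rw [Pi.smul_apply, smul_eq_mul, hc, hii, div_mul_cancel₀ _ (hσ i')]
          · rw [Pi.smul_apply, smul_eq_mul, hzero i j hj, hzero i' j (hii ▸ hj), mul_zero]
        have h1 : (g : Matrix (Fin n) (Fin n) F)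
            = Matrix.updateRow (g : Matrix (Fin n) (Fin n) F) i (c • (g : Matrix (Fin n) (Fin n) F) i') := by
          rw [← hrow, Matrix.updateRow_eq_self]
        rw [h1, Matrix.det_updateRow_smul]
        apply mul_eq_zero_of_right
        apply Matrix.det_zero_of_row_eq hne
        rw [Matrix.updateRow_self, Matrix.updateRow_ne (Ne.symm hne)]
      exact (Matrix.GeneralLinearGroup.det_ne_zero g) hdet
    have hσbij : Function.Bijective σ := Finite.injective_iff_bijective.mp hσinj
    let comp : (Fin n → F)ˣ → (Fin n → F)ˣ := fun d =>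
      MulEquiv.piUnits.symm (fun i => MulEquiv.piUnits d (σ i))
    have hcomp : ∀ (d : (Fin n → F)ˣ) i, (comp d : Fin n → F) i = (d : Fin n → F) (σ i) :=
      fun d i => rfl
    have hkey : ∀ d : (Fin n → F)ˣ,
        g * Units.map (Matrix.diagonalRingHom (Fin n) F).toMonoidHom d
          = Units.map (Matrix.diagonalRingHom (Fin n) F).toMonoidHom (comp d) * g := by
      intro d
      apply Units.ext
      rw [Units.val_mul, Units.val_mul, hcoe, hcoe]
      ext i j
      rw [Matrix.mul_diagonal, Matrix.diagonal_mul, hcomp]
      by_cases hj : j = σ i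
      · subst hj; rw [mul_comm]
      · rw [hzero i j hj, zero_mul, mul_zero]
    rw [Subgroup.mem_normalizer_iff]
    intro h
    constructor
    · rintro ⟨d, rfl⟩
      refine ⟨comp d, ?_⟩
      rw [hkey d]; group
    · rintro ⟨e, he⟩
      let τ : Fin n ≃ Fin n := Equiv.ofBijective σ hσbij
      let d : (Fin n → F)ˣ := MulEquiv.piUnits.symm (fun j => MulEquiv.piUnits e (τ.symm j))
      have hd : comp d = e := by
        apply Units.ext
        funext i
        rw [hcomp]
        show (e : Fin n → F) (τ.symm (σ i)) = _
        have : τ.symm (σ i) = i := τ.symm_apply_apply i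
        rw [this]
      refine ⟨d, ?_⟩
      have h1 := hkey d
      rw [hd, he] at h1
      have h2 : g * Units.map (Matrix.diagonalRingHom (Fin n) F).toMonoidHom d = g * h := by
        rw [h1]; group
      exact mul_left_cancel h2

end Cfsg.Agent.S0770
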