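import Cfsg.Statements.S0771
-- import your own Cfsg.Agent.* helpers here
import Mathlib

set_option autoImplicit false
open Cfsg

namespace Cfsg.Agent.S0771

open scoped Matrix

theorem bt_mul {F : Type*} [Field F] {n k : ℕ} (M N : Matrix (Fin n) (Fin n) F)
    (hM : ∀ i j : Fin n, k ≤ (i : ℕ) → (j : ℕ) < k → M i j = 0)
    (hN : ∀ i j : Fin n, k ≤ (i : ℕ) → (j : ℕ) < k → N i j = 0) :
    ∀ i j : Fin n, k ≤ (i : ℕ) → (j : ℕ) < k → (M * N) i j = 0 := by
  intro i j hi hj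
  rw [Matrix.mul_apply]
  apply Finset.sum_eq_zero
  intro l _
  by_cases hl : (l : ℕ) < k
  · rw [hM i l hi hl, zero_mul]
  · rw [hN l j (not_lt.mp hl) hj, mul_zero]

theorem bt_pow {F : Type*} [Field F] {n k : ℕ} (M : Matrix (Fin n) (Fin n) F)
    (hM : ∀ i j : Fin n, k ≤ (i : ℕ) → (j : ℕ) < k → M i j = 0) (m : ℕ) :
    ∀ i j : Fin n, k ≤ (i : ℕ) → (j : ℕ) < k → (M ^ m) i j = 0 := by
  induction m with
  | zero =>
    intro i j hi hj
    rw [pow_zero, Matrix.one_apply_ne]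
    intro h; rw [h] at hi; omega
  | succ m ih =>
    rw [pow_succ]; exact bt_mul _ _ ih hM

theorem bt_maps {F : Type*} [Field F] {n k : ℕ} (M : Matrix (Fin n) (Fin n) F)
    (hM : ∀ i j : Fin n, k ≤ (i : ℕ) → (j : ℕ) < k → M i j = 0) (v : Fin n → F)
    (hv : ∀ i : Fin n, k ≤ (i : ℕ) → v i = 0) : ∀ i : Fin n, k ≤ (i : ℕ) → (M *ᵥ v) i = 0 := by
  intro i hi
  show ∑ j, M i j * v j = 0
  apply Finset.sum_eq_zero
  intro l _
  by_cases hl : (l : ℕ) < k
  · rw [hM i l hi hl, zero_mul]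
  · rw [hv l (not_lt.mp hl), mul_zero]

theorem mem_stab_iff {F : Type*} [Field F] [Fintype F] (n k : ℕ)
    (g : Matrix.GeneralLinearGroup (Fin n) F) :
    g ∈ Cfsg.stabilizing (Cfsg.glToMat (Fin n) F)
        {v : Fin n → F | ∀ i : Fin n, k ≤ (i : ℕ) → v i = 0} ↔
      ∀ i j : Fin n, k ≤ (i : ℕ) → (j : ℕ) < k → (g : Matrix (Fin n) (Fin n) F) i j = 0 := by
  classical
  constructor
  · intro hg i j hi hj
    have h1 := (hg (Pi.single j 1)).mp (by
      intro l hl
      rw [Pi.single_apply, if_neg]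
      intro h; rw [h] at hl; omega)
    have h2 := h1 i hi
    have h3 : (Cfsg.glToMat (Fin n) F g *ᵥ Pi.single j 1) i = (g : Matrix (Fin n) (Fin n) F) i j := by
      simp [Matrix.mulVec, dotProduct, Pi.single_apply]
    rw [h3] at h2; exact h2
  · intro hg v
    show (∀ i : Fin n, k ≤ (i : ℕ) → v i = 0) ↔
      (∀ i : Fin n, k ≤ (i : ℕ) → ((g : Matrix (Fin n) (Fin n) F) *ᵥ v) i = 0)
    constructor
    · intro hv; exact bt_maps _ hg v hv
    · intro hv
      have hinv : ((g⁻¹ : Matrix.GeneralLinearGroup (Fin n) F) : Matrix (Fin n) (Fin n) F)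
          = (g : Matrix (Fin n) (Fin n) F) ^ (orderOf g - 1) := by
        have : g⁻¹ = g ^ (orderOf g - 1) := by
          apply inv_eq_of_mul_eq_one_right
          rw [← pow_succ', Nat.sub_add_cancel (orderOf_pos g), pow_orderOf_eq_one]
        rw [this, Units.val_pow_eq_pow_val]
      have h1 := bt_maps _ (bt_pow _ hg (orderOf g - 1)) _ hv
      rw [← hinv, Matrix.mulVec_mulVec, ← Units.val_mul, inv_mul_cancel, Units.val_one,
        Matrix.one_mulVec] at h1
      exact h1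

/-- Maximal parabolic of GL_n(q): the stabiliser of the coordinate subspace spanned by the first k basis vectors has order q^(k(n-k)) · |GL_k(q)| · |GL_(n-k)(q)| (unipotent radical of order q^(k(n-k)) and Levi complement GL_k × GL_(n-k)). -/
theorem result {F : Type*} [Field F] [Fintype F] {q : ℕ} (hF : Fintype.card F = q) (n k : ℕ) (hk : k ≤ n) : Nat.card ↥(Cfsg.stabilizing (Cfsg.glToMat (Fin n) F) {v : Fin n → F | ∀ i : Fin n, k ≤ (i : ℕ) → v i = 0}) = q ^ (k * (n - k)) * (∏ i : Fin k, (q ^ k - q ^ (i : ℕ))) * ∏ i : Fin (n - k), (q ^ (n - k) - q ^ (i : ℕ)) := by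
  classical
  have hkn : k + (n - k) = n := by omega
  obtain ⟨e, he⟩ : ∃ e : Fin k ⊕ Fin (n - k) ≃ Fin n, e = finSumFinEquiv.trans (finCongr hkn) :=
    ⟨_, rfl⟩
  have he_inl : ∀ i : Fin k, ((e (Sum.inl i) : Fin n) : ℕ) = i := by intro i; rw [he]; simp
  have he_inr : ∀ j : Fin (n - k), ((e (Sum.inr j) : Fin n) : ℕ) = k + j := by
    intro j; rw [he]; simp
  have gl_det_ne : ∀ {m : ℕ} (g : Matrix.GeneralLinearGroup (Fin m) F),
      (g : Matrix (Fin m) (Fin m) F).det ≠ 0 := by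
    intro m g
    have := (Matrix.GeneralLinearGroup.det g).ne_zero
    simpa using this
  have c1 : Nat.card ↥(Cfsg.stabilizing (Cfsg.glToMat (Fin n) F)
        {v : Fin n → F | ∀ i : Fin n, k ≤ (i : ℕ) → v i = 0}) =
      Nat.card {g : Matrix.GeneralLinearGroup (Fin n) F // ∀ i j : Fin n, k ≤ (i : ℕ) → (j : ℕ) < k →
        (g : Matrix (Fin n) (Fin n) F) i j = 0} :=
    Nat.card_congr (Equiv.subtypeEquivRight (fun g => mem_stab_iff n k g))
  obtain ⟨Ψ, hΨ⟩ : ∃ Ψ : Matrix.GeneralLinearGroup (Fin k) F × Matrix (Fin k) (Fin (n - k)) F ×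
        Matrix.GeneralLinearGroup (Fin (n - k)) F →
      {g : Matrix.GeneralLinearGroup (Fin n) F // ∀ i j : Fin n, k ≤ (i : ℕ) → (j : ℕ) < k →
        (g : Matrix (Fin n) (Fin n) F) i j = 0},
      ∀ x, (((Ψ x).1 : Matrix.GeneralLinearGroup (Fin n) F) : Matrix (Fin n) (Fin n) F) =
        Matrix.reindex e e (Matrix.fromBlocks (x.1 : Matrix (Fin k) (Fin k) F) x.2.1 0
          (x.2.2 : Matrix (Fin (n - k)) (Fin (n - k)) F)) := by
    refine ⟨fun x => ⟨Matrix.GeneralLinearGroup.mkOfDetNeZero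
      (Matrix.reindex e e (Matrix.fromBlocks (x.1 : Matrix (Fin k) (Fin k) F) x.2.1 0
          (x.2.2 : Matrix (Fin (n - k)) (Fin (n - k)) F))) (by
        rw [Matrix.det_reindex_self, Matrix.det_fromBlocks_zero₂₁]
        exact mul_ne_zero (gl_det_ne x.1) (gl_det_ne x.2.2)), ?_⟩, fun x => rfl⟩
    intro i j hi hj
    show Matrix.reindex e e (Matrix.fromBlocks (x.1 : Matrix (Fin k) (Fin k) F) x.2.1 0
          (x.2.2 : Matrix (Fin (n - k)) (Fin (n - k)) F)) i j = 0
    obtain ⟨i', rfl⟩ := e.surjective i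
    obtain ⟨j', rfl⟩ := e.surjective j
    rcases i' with i' | i'
    · rw [he_inl] at hi
      have := i'.2
      omega
    · rcases j' with j' | j'
      · simp [Matrix.reindex_apply, Matrix.submatrix_apply]
      · rw [he_inr] at hj; omega
  have hinj : Function.Injective Ψ := by
    rintro ⟨A, B, D⟩ ⟨A', B', D'⟩ h
    have h1 : (((Ψ (A, B, D)).1 : Matrix.GeneralLinearGroup (Fin n) F) : Matrix (Fin n) (Fin n) F)
        = (((Ψ (A', B', D')).1 : Matrix.GeneralLinearGroup (Fin n) F) : Matrix (Fin n) (Fin n) F) := by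
      rw [h]
    rw [hΨ, hΨ] at h1
    have h2 := (Matrix.reindex e e).injective h1
    rw [Matrix.fromBlocks_inj] at h2
    obtain ⟨hA, hB, -, hD⟩ := h2
    exact Prod.ext (Units.ext hA) (Prod.ext hB (Units.ext hD))
  have hsurj : Function.Surjective Ψ := by
    rintro ⟨g, hg⟩
    obtain ⟨M', hM'⟩ : ∃ M' : Matrix (Fin k ⊕ Fin (n - k)) (Fin k ⊕ Fin (n - k)) F,
        M' = (g : Matrix (Fin n) (Fin n) F).submatrix e e := ⟨_, rfl⟩
    have h21 : M'.toBlocks₂₁ = 0 := by
      ext i j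
      simp only [Matrix.toBlocks₂₁, Matrix.of_apply, hM', Matrix.submatrix_apply, Matrix.zero_apply]
      apply hg
      · rw [he_inr]; omega
      · rw [he_inl]; exact j.2
    have hM'eq : M' = Matrix.fromBlocks M'.toBlocks₁₁ M'.toBlocks₁₂ 0 M'.toBlocks₂₂ := by
      rw [← h21, Matrix.fromBlocks_toBlocks]
    have hdet : M'.toBlocks₁₁.det * M'.toBlocks₂₂.det ≠ 0 := by
      rw [← Matrix.det_fromBlocks_zero₂₁ _ M'.toBlocks₁₂, ← hM'eq, hM',
        Matrix.det_submatrix_equiv_self]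
      exact gl_det_ne g
    refine ⟨(Matrix.GeneralLinearGroup.mkOfDetNeZero M'.toBlocks₁₁ (left_ne_zero_of_mul hdet),
      M'.toBlocks₁₂,
      Matrix.GeneralLinearGroup.mkOfDetNeZero M'.toBlocks₂₂ (right_ne_zero_of_mul hdet)), ?_⟩
    apply Subtype.ext
    apply Units.ext
    rw [hΨ]
    show Matrix.reindex e e (Matrix.fromBlocks M'.toBlocks₁₁ M'.toBlocks₁₂ 0 M'.toBlocks₂₂)
      = (g : Matrix (Fin n) (Fin n) F)
    rw [← hM'eq, hM']
    ext i j
    simp [Matrix.reindex_apply, Matrix.submatrix_apply]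
  have hmat : Nat.card (Matrix (Fin k) (Fin (n - k)) F) = q ^ (k * (n - k)) := by
    show Nat.card (Fin k → Fin (n - k) → F) = _
    rw [Nat.card_fun, Nat.card_fun, Nat.card_eq_fintype_card, Nat.card_eq_fintype_card,
      Nat.card_eq_fintype_card, Fintype.card_fin, Fintype.card_fin, hF, ← pow_mul, mul_comm]
  rw [c1, ← Nat.card_congr (Equiv.ofBijective Ψ ⟨hinj, hsurj⟩), Nat.card_prod, Nat.card_prod,
    Matrix.card_GL_field, Matrix.card_GL_field, hF, hmat]
  ring

end Cfsg.Agent.S0771
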