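import Cfsg.Statements.S0772
-- import your own Cfsg.Agent.* helpers here
import Mathlib
import Cfsg.Agent.S0771

set_option autoImplicit false
open Cfsg

namespace Cfsg.Agent.S0772

open Matrix

section Helpers

variable {F : Type*} [Field F] {n : ℕ}

/-- the stabiliser of the `k`-th coordinate subspace. -/
abbrev PP (F : Type*) [Field F] (n k : ℕ) : Subgroup (Matrix.GeneralLinearGroup (Fin n) F) :=
  Cfsg.stabilizing (Cfsg.glToMat (Fin n) F) {v : Fin n → F | ∀ i : Fin n, k ≤ (i : ℕ) → v i = 0}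

/-- rank-one update of the identity. -/
def M1 (u φ : Fin n → F) : Matrix (Fin n) (Fin n) F := 1 + vecMulVec u φ

theorem M1_mul_neg (u φ : Fin n → F) (h : φ ⬝ᵥ u = 0) : M1 u φ * M1 u (-φ) = 1 := by
  have hneg : vecMulVec u (-φ) = - vecMulVec u φ := by
    ext i j; simp [vecMulVec_apply]
  have hsq : vecMulVec u φ * vecMulVec u φ = 0 := by
    rw [vecMulVec_mul_vecMulVec, h, zero_smul]
    ext i j; simp [vecMulVec_apply]
  unfold M1
  rw [hneg]
  have h1 : (1 + vecMulVec u φ) * (1 + -vecMulVec u φ) = 1 - vecMulVec u φ * vecMulVec u φ := by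
    noncomm_ring
  rw [h1, hsq, sub_zero]

/-- the transvection as an element of `GL`. -/
def G1 (u φ : Fin n → F) (h : φ ⬝ᵥ u = 0) : Matrix.GeneralLinearGroup (Fin n) F :=
  ⟨M1 u φ, M1 u (-φ), M1_mul_neg u φ h, by
    have h1 := M1_mul_neg u (-φ) (by rw [neg_dotProduct, h, neg_zero])
    rw [neg_neg] at h1
    exact h1⟩

theorem M1_mulVec (u φ x : Fin n → F) : M1 u φ *ᵥ x = x + (φ ⬝ᵥ x) • u := by
  unfold M1
  rw [Matrix.add_mulVec, Matrix.one_mulVec]
  congr 1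
  funext i
  simp only [Matrix.mulVec, dotProduct, vecMulVec_apply, Pi.smul_apply, smul_eq_mul, Finset.sum_mul]
  apply Finset.sum_congr rfl
  intro j _
  ring

theorem vecMul_M1 (u φ y : Fin n → F) : y ᵥ* M1 u φ = y + (y ⬝ᵥ u) • φ := by
  unfold M1
  rw [Matrix.vecMul_add, Matrix.vecMul_one, vecMul_vecMulVec]

theorem G1_mem_PP [Fintype F] (k : ℕ) (u φ : Fin n → F) (h : φ ⬝ᵥ u = 0)
    (hcase : (∀ i : Fin n, k ≤ (i : ℕ) → u i = 0) ∨ (∀ j : Fin n, (j : ℕ) < k → φ j = 0)) :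
    G1 u φ h ∈ PP F n k := by
  rw [Cfsg.Agent.S0771.mem_stab_iff]
  intro i j hi hj
  show M1 u φ i j = 0
  unfold M1
  rw [Matrix.add_apply, Matrix.one_apply_ne (by intro h'; rw [h'] at hi; omega), zero_add,
    vecMulVec_apply]
  rcases hcase with h1 | h1
  · rw [h1 i hi, zero_mul]
  · rw [h1 j hj, mul_zero]

/-- the subgroup contains the whole one-parameter family of transvections `1 + c u φ`. -/
def QH (H : Subgroup (Matrix.GeneralLinearGroup (Fin n) F)) (u φ : Fin n → F) : Prop :=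
  φ ⬝ᵥ u = 0 ∧ ∀ c : F, ∃ g ∈ H, (g : Matrix (Fin n) (Fin n) F) = M1 (c • u) φ

theorem QH_conj (H : Subgroup (Matrix.GeneralLinearGroup (Fin n) F)) (u φ : Fin n → F)
    (hQ : QH H u φ) (p : Matrix.GeneralLinearGroup (Fin n) F) (hp : p ∈ H) :
    QH H ((p : Matrix (Fin n) (Fin n) F) *ᵥ u)
      (φ ᵥ* ((p⁻¹ : Matrix.GeneralLinearGroup (Fin n) F) : Matrix (Fin n) (Fin n) F)) := by
  obtain ⟨h0, hall⟩ := hQ
  refine ⟨?_, ?_⟩
  · rw [← Matrix.dotProduct_mulVec, Matrix.mulVec_mulVec, ← Units.val_mul, inv_mul_cancel,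
      Units.val_one, Matrix.one_mulVec, h0]
  · intro c
    obtain ⟨g, hg, hgv⟩ := hall c
    refine ⟨p * g * p⁻¹, H.mul_mem (H.mul_mem hp hg) (H.inv_mem hp), ?_⟩
    rw [Units.val_mul, Units.val_mul, hgv]
    unfold M1
    rw [Matrix.mul_add, Matrix.add_mul, Matrix.mul_one, ← Units.val_mul, mul_inv_cancel,
      Units.val_one, mul_vecMulVec, vecMulVec_mul, Matrix.mulVec_smul]

theorem QH_step [Fintype F] (k : ℕ) (H : Subgroup (Matrix.GeneralLinearGroup (Fin n) F))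
    (hPH : PP F n k ≤ H) (u φ : Fin n → F) (hQ : QH H u φ) (w ψ : Fin n → F) (hψw : ψ ⬝ᵥ w = 0)
    (hcase : (∀ i : Fin n, k ≤ (i : ℕ) → w i = 0) ∨ (∀ j : Fin n, (j : ℕ) < k → ψ j = 0)) :
    QH H (u + (ψ ⬝ᵥ u) • w) (φ - (φ ⬝ᵥ w) • ψ) := by
  have h1 := QH_conj H u φ hQ (G1 w ψ hψw) (hPH (G1_mem_PP k w ψ hψw hcase))
  have h2 : ((G1 w ψ hψw : Matrix.GeneralLinearGroup (Fin n) F) : Matrix (Fin n) (Fin n) F) *ᵥ u
      = u + (ψ ⬝ᵥ u) • w := M1_mulVec w ψ u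
  have h3 : φ ᵥ* (((G1 w ψ hψw)⁻¹ : Matrix.GeneralLinearGroup (Fin n) F) : Matrix (Fin n) (Fin n) F)
      = φ - (φ ⬝ᵥ w) • ψ := by
    show φ ᵥ* M1 w (-ψ) = _
    rw [vecMul_M1, smul_neg, sub_eq_add_neg]
  rw [h2, h3] at h1
  exact h1

theorem single_dot (a : Fin n) (x : Fin n → F) : (Pi.single a (1 : F)) ⬝ᵥ x = x a := by
  classical
  simp [dotProduct, Pi.single_apply]

theorem dot_single (a : Fin n) (x : Fin n → F) : x ⬝ᵥ (Pi.single a (1 : F)) = x a := by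
  classical
  simp [dotProduct, Pi.single_apply]

theorem tv_mem [Fintype F] (k : ℕ) (H : Subgroup (Matrix.GeneralLinearGroup (Fin n) F))
    (hPH : PP F n k ≤ H) (hne : ∃ h ∈ H, h ∉ PP F n k) (a b : Fin n) (ha : k ≤ (a : ℕ))
    (hb : (b : ℕ) < k) (c : F) :
    ∃ g ∈ H, (g : Matrix (Fin n) (Fin n) F) = Matrix.transvection a b c := by
  classical
  obtain ⟨h, hH, hnP⟩ := hne
  have hab : a ≠ b := by intro h'; rw [h'] at ha; omega
  -- entries witnessing h ∉ P and h⁻¹ ∉ P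
  obtain ⟨a₁, b₁, ha₁, hb₁, hab₁⟩ : ∃ a₁ b₁ : Fin n, k ≤ (a₁ : ℕ) ∧ (b₁ : ℕ) < k ∧
      (h : Matrix (Fin n) (Fin n) F) a₁ b₁ ≠ 0 := by
    by_contra hcon
    push Not at hcon
    apply hnP
    rw [Cfsg.Agent.S0771.mem_stab_iff]
    intro i j hi hj
    exact hcon i j hi hj
  have hnP' : h⁻¹ ∉ PP F n k := fun h' => hnP (by simpa using (PP F n k).inv_mem h')
  obtain ⟨a₂, b₂, ha₂, hb₂, hab₂⟩ : ∃ a₂ b₂ : Fin n, k ≤ (a₂ : ℕ) ∧ (b₂ : ℕ) < k ∧
      ((h⁻¹ : Matrix.GeneralLinearGroup (Fin n) F) : Matrix (Fin n) (Fin n) F) a₂ b₂ ≠ 0 := by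
    by_contra hcon
    push Not at hcon
    apply hnP'
    rw [Cfsg.Agent.S0771.mem_stab_iff]
    intro i j hi hj
    exact hcon i j hi hj
  -- initial family
  have hQ0 : QH H (Pi.single b₁ (1 : F)) (Pi.single a₂ (1 : F)) := by
    have h0 : (Pi.single a₂ (1 : F)) ⬝ᵥ (Pi.single b₁ (1 : F)) = 0 := by
      rw [single_dot, Pi.single_apply, if_neg]
      intro h'; rw [h'] at ha₂; omega
    refine ⟨h0, fun c => ⟨G1 (c • Pi.single b₁ (1 : F)) (Pi.single a₂ (1 : F))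
      (by rw [dotProduct_smul, h0, smul_zero]), ?_, rfl⟩⟩
    apply hPH
    apply G1_mem_PP
    left
    intro i hi
    rw [Pi.smul_apply, Pi.single_apply, if_neg, smul_zero]
    intro h'; rw [h'] at hi; omega
  have hQ1 := QH_conj H _ _ hQ0 h hH
  obtain ⟨u₀, hu₀⟩ : ∃ u₀ : Fin n → F, u₀ = (h : Matrix (Fin n) (Fin n) F) *ᵥ Pi.single b₁ (1 : F) :=
    ⟨_, rfl⟩
  obtain ⟨φ₀, hφ₀⟩ : ∃ φ₀ : Fin n → F, φ₀ = (Pi.single a₂ (1 : F)) ᵥ*
      ((h⁻¹ : Matrix.GeneralLinearGroup (Fin n) F) : Matrix (Fin n) (Fin n) F) := ⟨_, rfl⟩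
  rw [← hu₀, ← hφ₀] at hQ1
  have hu₀a : u₀ a₁ ≠ 0 := by
    rw [hu₀, Matrix.mulVec_single_one]; exact hab₁
  have hφ₀b : φ₀ b₂ ≠ 0 := by
    rw [hφ₀, Matrix.single_one_vecMul]; exact hab₂
  -- S1: make u a ≠ 0
  obtain ⟨u₁, φ₁, hQ2, hu₁, hφ₁⟩ : ∃ u₁ φ₁ : Fin n → F, QH H u₁ φ₁ ∧ u₁ a ≠ 0 ∧ φ₁ b₂ ≠ 0 := by
    by_cases hua : u₀ a = 0
    · have haa : a ≠ a₁ := by intro h'; rw [h'] at hua; exact hu₀a hua
      have hstep := QH_step k H hPH u₀ φ₀ hQ1 (Pi.single a (1 : F)) (Pi.single a₁ (1 : F))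
        (by rw [single_dot, Pi.single_apply, if_neg haa.symm])
        (Or.inr (by
          intro j hj
          rw [Pi.single_apply, if_neg]
          intro h'; rw [h'] at hj; omega))
      refine ⟨_, _, hstep, ?_, ?_⟩
      · rw [single_dot, Pi.add_apply, Pi.smul_apply, Pi.single_eq_same, hua, zero_add, smul_eq_mul,
          mul_one]
        exact hu₀a
      · rw [Pi.sub_apply, Pi.smul_apply, Pi.single_apply, if_neg, smul_zero, sub_zero]
        · exact hφ₀b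
        · intro h'; rw [h'] at hb₂; omega
    · exact ⟨u₀, φ₀, hQ1, hua, hφ₀b⟩
  -- S2: make φ b ≠ 0
  obtain ⟨u₂, φ₂, hQ3, hu₂, hφ₂⟩ : ∃ u₂ φ₂ : Fin n → F, QH H u₂ φ₂ ∧ u₂ a ≠ 0 ∧ φ₂ b ≠ 0 := by
    by_cases hφb : φ₁ b = 0
    · have hbb : b ≠ b₂ := by intro h'; rw [h'] at hφb; exact hφ₁ hφb
      have hstep := QH_step k H hPH u₁ φ₁ hQ2 (Pi.single b₂ (1 : F)) (Pi.single b (1 : F))
        (by rw [single_dot, Pi.single_apply, if_neg hbb])
        (Or.inl (by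
          intro i hi
          rw [Pi.single_apply, if_neg]
          intro h'; rw [h'] at hi; omega))
      refine ⟨_, _, hstep, ?_, ?_⟩
      · rw [Pi.add_apply, Pi.smul_apply, Pi.single_apply, if_neg, smul_zero, add_zero]
        · exact hu₁
        · intro h'; rw [h'] at ha; omega
      · rw [dot_single, Pi.sub_apply, Pi.smul_apply, Pi.single_eq_same, hφb, zero_sub, smul_eq_mul,
          mul_one]
        exact neg_ne_zero.mpr hφ₁
    · exact ⟨u₁, φ₁, hQ2, hu₁, hφb⟩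
  -- S3: clear u
  have hstep3 := QH_step k H hPH u₂ φ₂ hQ3 (-(u₂ a)⁻¹ • (u₂ - u₂ a • Pi.single a (1 : F)))
    (Pi.single a (1 : F))
    (by
      rw [single_dot, Pi.smul_apply, Pi.sub_apply, Pi.smul_apply, Pi.single_eq_same, smul_eq_mul,
        smul_eq_mul, mul_one, sub_self, mul_zero])
    (Or.inr (by
      intro j hj
      rw [Pi.single_apply, if_neg]
      intro h'; rw [h'] at hj; omega))
  have hu3 : u₂ + ((Pi.single a (1 : F)) ⬝ᵥ u₂) • (-(u₂ a)⁻¹ • (u₂ - u₂ a • Pi.single a (1 : F)))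
      = u₂ a • Pi.single a (1 : F) := by
    rw [single_dot, smul_smul, mul_neg, mul_inv_cancel₀ hu₂, neg_one_smul]
    abel
  rw [hu3] at hstep3
  obtain ⟨φ₃, hφ₃⟩ : ∃ φ₃ : Fin n → F, φ₃ = φ₂ - (φ₂ ⬝ᵥ (-(u₂ a)⁻¹ • (u₂ - u₂ a • Pi.single a (1 : F))))
      • Pi.single a (1 : F) := ⟨_, rfl⟩
  rw [← hφ₃] at hstep3
  have hφ₃b : φ₃ b ≠ 0 := by
    rw [hφ₃, Pi.sub_apply, Pi.smul_apply, Pi.single_apply, if_neg hab.symm, smul_zero, sub_zero]
    exact hφ₂
  have hφ₃a : φ₃ a = 0 := by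
    have h1 := hstep3.1
    rw [dotProduct_smul, dot_single, smul_eq_mul] at h1
    rcases mul_eq_zero.mp h1 with h' | h'
    · exact absurd h' hu₂
    · exact h'
  -- S4: clear φ
  have hstep4 := QH_step k H hPH _ _ hstep3 (Pi.single b (1 : F))
    ((φ₃ b)⁻¹ • (φ₃ - φ₃ b • Pi.single b (1 : F)))
    (by
      rw [dot_single, Pi.smul_apply, Pi.sub_apply, Pi.smul_apply, Pi.single_eq_same, smul_eq_mul,
        smul_eq_mul, mul_one, sub_self, mul_zero])
    (Or.inl (by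
      intro i hi
      rw [Pi.single_apply, if_neg]
      intro h'; rw [h'] at hi; omega))
  have hu4 : u₂ a • Pi.single a (1 : F) + (((φ₃ b)⁻¹ • (φ₃ - φ₃ b • Pi.single b (1 : F))) ⬝ᵥ
      (u₂ a • Pi.single a (1 : F))) • Pi.single b (1 : F) = u₂ a • Pi.single a (1 : F) := by
    rw [dotProduct_smul, dot_single, Pi.smul_apply, Pi.sub_apply, Pi.smul_apply, hφ₃a,
      Pi.single_apply, if_neg hab]
    simp
  have hφ4 : φ₃ - (φ₃ ⬝ᵥ Pi.single b (1 : F)) • ((φ₃ b)⁻¹ • (φ₃ - φ₃ b • Pi.single b (1 : F)))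
      = φ₃ b • Pi.single b (1 : F) := by
    rw [dot_single, smul_smul, mul_inv_cancel₀ hφ₃b, one_smul]
    abel
  rw [hu4, hφ4] at hstep4
  obtain ⟨g, hg, hgv⟩ := hstep4.2 (c * (u₂ a)⁻¹ * (φ₃ b)⁻¹)
  refine ⟨g, hg, ?_⟩
  rw [hgv]
  unfold M1
  rw [Matrix.transvection]
  congr 1
  ext i j
  rw [vecMulVec_apply, Matrix.single_apply]
  simp only [Pi.smul_apply, Pi.single_apply, smul_eq_mul]
  by_cases hi : i = a
  · by_cases hj : j = b
    · subst hi; subst hj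
      simp
      field_simp
    · have hn : ¬ (a = i ∧ b = j) := fun h' => hj h'.2.symm
      simp [hj, hn]
  · have hn : ¬ (a = i ∧ b = j) := fun h' => hi h'.1.symm
    simp [hi, hn]

end Helpers

/-- Maximal parabolics are maximal: over a finite field, for 0 < k < n the stabiliser in GL_n of the span of the first k coordinate vectors is a maximal proper subgroup. -/
theorem result {F : Type*} [Field F] [Finite F] (n k : ℕ) (hk0 : 0 < k) (hkn : k < n) : IsCoatom (Cfsg.stabilizing (Cfsg.glToMat (Fin n) F) {v : Fin n → F | ∀ i : Fin n, k ≤ (i : ℕ) → v i = 0}) := by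
  classical
  have := Fintype.ofFinite F
  have gl_det_ne : ∀ (g : Matrix.GeneralLinearGroup (Fin n) F),
      (g : Matrix (Fin n) (Fin n) F).det ≠ 0 := by
    intro g
    have := (Matrix.GeneralLinearGroup.det g).ne_zero
    simpa using this
  have htvP : ∀ (i j : Fin n) (hij : i ≠ j) (c : F), ¬ (k ≤ (i : ℕ) ∧ (j : ℕ) < k) →
      Matrix.GeneralLinearGroup.mkOfDetNeZero (Matrix.transvection i j c)
        (by rw [Matrix.det_transvection_of_ne _ _ hij]; exact one_ne_zero) ∈ PP F n k := by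
    intro i j hij c hallow
    rw [Cfsg.Agent.S0771.mem_stab_iff]
    intro i' j' hi' hj'
    show Matrix.transvection i j c i' j' = 0
    rw [Matrix.transvection, Matrix.add_apply,
      Matrix.one_apply_ne (by intro h; rw [h] at hi'; omega), zero_add, Matrix.single_apply, if_neg]
    rintro ⟨rfl, rfl⟩; exact hallow ⟨hi', hj'⟩
  constructor
  · intro htop
    have hmem : Matrix.GeneralLinearGroup.mkOfDetNeZero
        (Matrix.transvection (⟨k, hkn⟩ : Fin n) (⟨0, by omega⟩ : Fin n) (1 : F))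
        (by rw [Matrix.det_transvection_of_ne _ _ (by intro h; have := congrArg Fin.val h; simp at this; omega)]
            exact one_ne_zero) ∈ PP F n k := by
      have htop' : PP F n k = ⊤ := htop
      rw [htop']; exact Subgroup.mem_top _
    rw [Cfsg.Agent.S0771.mem_stab_iff] at hmem
    have h1 := hmem ⟨k, hkn⟩ ⟨0, by omega⟩ (le_refl _) hk0
    have h2 : Matrix.transvection (⟨k, hkn⟩ : Fin n) (⟨0, by omega⟩ : Fin n) (1 : F) ⟨k, hkn⟩ ⟨0, by omega⟩
        = 0 := h1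
    rw [Matrix.transvection, Matrix.add_apply, Matrix.one_apply_ne (by
      intro h; have := congrArg Fin.val h; simp at this; omega), zero_add, Matrix.single_apply,
      if_pos ⟨rfl, rfl⟩] at h2
    exact one_ne_zero h2
  · intro H hlt
    obtain ⟨hle, hne⟩ := SetLike.lt_iff_le_and_exists.mp hlt
    rw [eq_top_iff]
    intro g _
    have key := Matrix.diagonal_transvection_induction_of_det_ne_zero
      (fun M => ∃ g' : Matrix.GeneralLinearGroup (Fin n) F, g' ∈ H ∧ (g' : Matrix (Fin n) (Fin n) F) = M)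
      (g : Matrix (Fin n) (Fin n) F) (gl_det_ne g) ?_ ?_ ?_
    · obtain ⟨g', hg', hv⟩ := key
      have h1 : g' = g := Units.ext hv
      rw [← h1]; exact hg'
    · intro D hD
      refine ⟨Matrix.GeneralLinearGroup.mkOfDetNeZero (Matrix.diagonal D) hD, hle ?_, rfl⟩
      rw [Cfsg.Agent.S0771.mem_stab_iff]
      intro i j hi hj
      show Matrix.diagonal D i j = 0
      rw [Matrix.diagonal_apply_ne]
      intro h; rw [h] at hi; omega
    · intro t
      by_cases hcase : k ≤ (t.i : ℕ) ∧ (t.j : ℕ) < k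
      · obtain ⟨g', hg', hv⟩ := tv_mem k H hle hne t.i t.j hcase.1 hcase.2 t.c
        exact ⟨g', hg', hv⟩
      · exact ⟨_, hle (htvP t.i t.j t.hij t.c hcase), rfl⟩
    · rintro A B _ _ ⟨gA, hgA, rfl⟩ ⟨gB, hgB, rfl⟩
      exact ⟨gA * gB, H.mul_mem hgA hgB, rfl⟩

end Cfsg.Agent.S0772
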