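import Cfsg.Statements.S0773
-- import your own Cfsg.Agent.* helpers here
import Mathlib
import Cfsg.Agent.S0771

set_option autoImplicit false
open Cfsg

namespace Cfsg.Agent.S0773

open Matrix

section Helpers

variable {F : Type*} [Field F]

/-- the stabiliser of the `k`-th coordinate subspace. -/
abbrev Pk (F : Type*) [Field F] (n k : ℕ) : Subgroup (Matrix.GeneralLinearGroup (Fin n) F) :=
  Cfsg.stabilizing (Cfsg.glToMat (Fin n) F) {v : Fin n → F | ∀ i : Fin n, k ≤ (i : ℕ) → v i = 0}

/-- inverse transpose followed by reversal of coordinates. -/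
def theta (F : Type*) [Field F] (n : ℕ) :
    Matrix.GeneralLinearGroup (Fin n) F ≃* Matrix.GeneralLinearGroup (Fin n) F where
  toFun g := ⟨(((g⁻¹ : Matrix.GeneralLinearGroup (Fin n) F) : Matrix (Fin n) (Fin n) F)ᵀ).submatrix
      Fin.revPerm Fin.revPerm,
    ((g : Matrix (Fin n) (Fin n) F)ᵀ).submatrix Fin.revPerm Fin.revPerm,
    by rw [Matrix.submatrix_mul_equiv, ← Matrix.transpose_mul, Units.mul_inv, Matrix.transpose_one,
      Matrix.submatrix_one_equiv],
    by rw [Matrix.submatrix_mul_equiv, ← Matrix.transpose_mul, Units.inv_mul, Matrix.transpose_one,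
      Matrix.submatrix_one_equiv]⟩
  invFun g := ⟨(((g⁻¹ : Matrix.GeneralLinearGroup (Fin n) F) : Matrix (Fin n) (Fin n) F)ᵀ).submatrix
      Fin.revPerm Fin.revPerm,
    ((g : Matrix (Fin n) (Fin n) F)ᵀ).submatrix Fin.revPerm Fin.revPerm,
    by rw [Matrix.submatrix_mul_equiv, ← Matrix.transpose_mul, Units.mul_inv, Matrix.transpose_one,
      Matrix.submatrix_one_equiv],
    by rw [Matrix.submatrix_mul_equiv, ← Matrix.transpose_mul, Units.inv_mul, Matrix.transpose_one,
      Matrix.submatrix_one_equiv]⟩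
  left_inv g := by
    apply Units.ext
    show ((((g : Matrix (Fin n) (Fin n) F)ᵀ).submatrix Fin.revPerm Fin.revPerm)ᵀ).submatrix
      Fin.revPerm Fin.revPerm = (g : Matrix (Fin n) (Fin n) F)
    ext i j
    simp
  right_inv g := by
    apply Units.ext
    show ((((g : Matrix (Fin n) (Fin n) F)ᵀ).submatrix Fin.revPerm Fin.revPerm)ᵀ).submatrix
      Fin.revPerm Fin.revPerm = (g : Matrix (Fin n) (Fin n) F)
    ext i j
    simp
  map_mul' g h := by
    apply Units.ext
    show ((((g * h)⁻¹ : Matrix.GeneralLinearGroup (Fin n) F) : Matrix (Fin n) (Fin n) F)ᵀ).submatrix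
        Fin.revPerm Fin.revPerm
      = (((g⁻¹ : Matrix.GeneralLinearGroup (Fin n) F) : Matrix (Fin n) (Fin n) F)ᵀ).submatrix
          Fin.revPerm Fin.revPerm *
        (((h⁻¹ : Matrix.GeneralLinearGroup (Fin n) F) : Matrix (Fin n) (Fin n) F)ᵀ).submatrix
          Fin.revPerm Fin.revPerm
    rw [Matrix.submatrix_mul_equiv, ← Matrix.transpose_mul, _root_.mul_inv_rev, Units.val_mul]

theorem theta_val (n : ℕ) (g : Matrix.GeneralLinearGroup (Fin n) F) (a b : Fin n) :
    ((theta F n g : Matrix.GeneralLinearGroup (Fin n) F) : Matrix (Fin n) (Fin n) F) a b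
      = ((g⁻¹ : Matrix.GeneralLinearGroup (Fin n) F) : Matrix (Fin n) (Fin n) F) (Fin.rev b) (Fin.rev a) :=
  rfl

theorem theta_theta (n : ℕ) (g : Matrix.GeneralLinearGroup (Fin n) F) :
    theta F n (theta F n g) = g := (theta F n).left_inv g

theorem theta_mem [Fintype F] (n k : ℕ) (hk : k ≤ n) (g : Matrix.GeneralLinearGroup (Fin n) F)
    (hg : g ∈ Pk F n k) : theta F n g ∈ Pk F n (n - k) := by
  rw [Cfsg.Agent.S0771.mem_stab_iff]
  intro a b ha hb
  have hg' := (Cfsg.Agent.S0771.mem_stab_iff n k g⁻¹).mp (inv_mem hg)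
  rw [theta_val]
  have ha2 := a.2
  have hb2 := b.2
  apply hg'
  · rw [Fin.val_rev]; omega
  · rw [Fin.val_rev]; omega

theorem part1 [Fintype F] (n k : ℕ) (hk : k ≤ n) :
    Nonempty (↥(Pk F n k) ≃* ↥(Pk F n (n - k))) := by
  have hmap : (Pk F n k).map ((theta F n : Matrix.GeneralLinearGroup (Fin n) F ≃*
      Matrix.GeneralLinearGroup (Fin n) F) : Matrix.GeneralLinearGroup (Fin n) F →*
      Matrix.GeneralLinearGroup (Fin n) F) = Pk F n (n - k) := by
    ext h
    constructor
    · rintro ⟨g, hg, rfl⟩; exact theta_mem n k hk g hg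
    · intro hh
      refine ⟨theta F n h, ?_, ?_⟩
      · have := theta_mem n (n - k) (Nat.sub_le n k) h hh
        rwa [Nat.sub_sub_self hk] at this
      · exact theta_theta n h
  exact ⟨((theta F n).subgroupMap (Pk F n k)).trans (MulEquiv.subgroupCongr hmap)⟩

theorem card_Uk [Fintype F] (n k : ℕ) (hk : k ≤ n) :
    Nat.card {v : Fin n → F // ∀ i : Fin n, k ≤ (i : ℕ) → v i = 0} = Fintype.card F ^ k := by
  classical
  have e : {v : Fin n → F // ∀ i : Fin n, k ≤ (i : ℕ) → v i = 0} ≃ (Fin k → F) :=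
    { toFun := fun v j => v.1 (Fin.castLE hk j)
      invFun := fun x => ⟨fun i => if h : (i : ℕ) < k then x ⟨i, h⟩ else 0, by
        intro i hi
        show (if h : (i : ℕ) < k then x ⟨i, h⟩ else 0) = 0
        rw [dif_neg (by omega)]⟩
      left_inv := by
        rintro ⟨v, hv⟩
        apply Subtype.ext
        funext i
        show (if h : (i : ℕ) < k then v (Fin.castLE hk ⟨i, h⟩) else 0) = v i
        by_cases h : (i : ℕ) < k
        · rw [dif_pos h]; rfl
        · rw [dif_neg h, hv i (not_lt.mp h)]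
      right_inv := by
        intro x
        funext j
        show (if h : ((Fin.castLE hk j : Fin n) : ℕ) < k then x ⟨_, h⟩ else 0) = x j
        rw [dif_pos (by simp)]; rfl }
  rw [Nat.card_congr e, Nat.card_fun, Nat.card_eq_fintype_card, Nat.card_eq_fintype_card,
    Fintype.card_fin]

theorem tv_mem_Pk [Fintype F] (n k : ℕ) (a b : Fin n) (hab : a ≠ b)
    (hallow : ¬ (k ≤ (a : ℕ) ∧ (b : ℕ) < k)) :
    ∃ E : Matrix.GeneralLinearGroup (Fin n) F, E ∈ Pk F n k ∧
      ∀ w : Fin n → F, (E : Matrix (Fin n) (Fin n) F) *ᵥ w = w + w b • Pi.single a (1 : F) := by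
  classical
  refine ⟨Matrix.GeneralLinearGroup.mkOfDetNeZero (Matrix.transvection a b (1 : F))
    (by rw [Matrix.det_transvection_of_ne _ _ hab]; exact one_ne_zero), ?_, ?_⟩
  · rw [Cfsg.Agent.S0771.mem_stab_iff]
    intro i j hi hj
    show Matrix.transvection a b (1 : F) i j = 0
    rw [Matrix.transvection, Matrix.add_apply,
      Matrix.one_apply_ne (by intro h; rw [h] at hi; omega), zero_add, Matrix.single_apply, if_neg]
    rintro ⟨rfl, rfl⟩; exact hallow ⟨hi, hj⟩
  · intro w
    show Matrix.transvection a b (1 : F) *ᵥ w = _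
    rw [Matrix.transvection, Matrix.add_mulVec, Matrix.one_mulVec, Matrix.single_mulVec_eq, one_mul]

theorem part2 [Fintype F] (n k : ℕ) (hk0 : 0 < k) (hkn : k < n) (h2 : 2 * k ≠ n)
    (g : Matrix.GeneralLinearGroup (Fin n) F) :
    (Pk F n k).map (MulAut.conj g).toMonoidHom ≠ Pk F n (n - k) := by
  classical
  intro hmap
  have hgg : ∀ x : Fin n → F, ((g⁻¹ : Matrix.GeneralLinearGroup (Fin n) F) : Matrix (Fin n) (Fin n) F)
      *ᵥ ((g : Matrix (Fin n) (Fin n) F) *ᵥ x) = x := by
    intro x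
    rw [Matrix.mulVec_mulVec, ← Units.val_mul, inv_mul_cancel, Units.val_one, Matrix.one_mulVec]
  have hgg' : ∀ x : Fin n → F, (g : Matrix (Fin n) (Fin n) F) *ᵥ
      (((g⁻¹ : Matrix.GeneralLinearGroup (Fin n) F) : Matrix (Fin n) (Fin n) F) *ᵥ x) = x := by
    intro x
    rw [Matrix.mulVec_mulVec, ← Units.val_mul, mul_inv_cancel, Units.val_one, Matrix.one_mulVec]
  obtain ⟨W, hWmem⟩ : ∃ W : Submodule F (Fin n → F), ∀ w, w ∈ W ↔ ∀ i : Fin n, k ≤ (i : ℕ) →
      (((g⁻¹ : Matrix.GeneralLinearGroup (Fin n) F) : Matrix (Fin n) (Fin n) F) *ᵥ w) i = 0 := by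
    refine ⟨{ carrier := {w | ∀ i : Fin n, k ≤ (i : ℕ) →
        (((g⁻¹ : Matrix.GeneralLinearGroup (Fin n) F) : Matrix (Fin n) (Fin n) F) *ᵥ w) i = 0}
              add_mem' := ?_
              zero_mem' := ?_
              smul_mem' := ?_ }, fun w => Iff.rfl⟩
    · intro a b ha hb i hi
      rw [Matrix.mulVec_add, Pi.add_apply, ha i hi, hb i hi, add_zero]
    · intro i hi
      rw [Matrix.mulVec_zero]; rfl
    · intro c a ha i hi
      rw [Matrix.mulVec_smul, Pi.smul_apply, ha i hi, smul_zero]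
  have hWinv : ∀ h ∈ Pk F n (n - k), ∀ w ∈ W, (h : Matrix (Fin n) (Fin n) F) *ᵥ w ∈ W := by
    intro h hh w hw
    rw [← hmap] at hh
    obtain ⟨p, hp, rfl⟩ := hh
    rw [hWmem] at hw ⊢
    have e1 : ((g⁻¹ : Matrix.GeneralLinearGroup (Fin n) F) : Matrix (Fin n) (Fin n) F) *ᵥ
        ((((MulAut.conj g).toMonoidHom p : Matrix.GeneralLinearGroup (Fin n) F) :
          Matrix (Fin n) (Fin n) F) *ᵥ w)
        = (p : Matrix (Fin n) (Fin n) F) *ᵥ
          (((g⁻¹ : Matrix.GeneralLinearGroup (Fin n) F) : Matrix (Fin n) (Fin n) F) *ᵥ w) := by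
      rw [Matrix.mulVec_mulVec, Matrix.mulVec_mulVec, ← Units.val_mul, ← Units.val_mul]
      congr 2
      show g⁻¹ * (g * p * g⁻¹) = p * g⁻¹
      group
    rw [e1]
    exact (hp _).mp hw
  have hstep : ∀ a b : Fin n, a ≠ b → ¬ (n - k ≤ (a : ℕ) ∧ (b : ℕ) < n - k) → ∀ w ∈ W,
      w b • (Pi.single a (1 : F) : Fin n → F) ∈ W := by
    intro a b hab hal w hw
    obtain ⟨E, hE, hEw⟩ := tv_mem_Pk (F := F) n (n - k) a b hab hal
    have h1 := hWinv E hE w hw
    rw [hEw] at h1
    have h3 := W.sub_mem h1 hw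
    rwa [add_sub_cancel_left] at h3
  have hdecomp : ∀ (w : Fin n → F) (b : Fin n), w b • (Pi.single b (1 : F) : Fin n → F)
      = w - ∑ i ∈ Finset.univ.erase b, w i • (Pi.single i (1 : F) : Fin n → F) := by
    intro w b
    rw [eq_sub_iff_add_eq, Finset.add_sum_erase Finset.univ
      (fun i => w i • (Pi.single i (1 : F) : Fin n → F)) (Finset.mem_univ b)]
    exact (pi_eq_sum_univ' w).symm
  have hgW : ∀ x : Fin n → F, (∀ i : Fin n, k ≤ (i : ℕ) → x i = 0) →
      (g : Matrix (Fin n) (Fin n) F) *ᵥ x ∈ W := by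
    intro x hx
    rw [hWmem, hgg]; exact hx
  by_cases hA : ∃ w ∈ W, ∃ b : Fin n, n - k ≤ (b : ℕ) ∧ w b ≠ 0
  · obtain ⟨w, hw, b, hb, hwb⟩ := hA
    have he : ∀ a : Fin n, a ≠ b → (Pi.single a (1 : F) : Fin n → F) ∈ W := by
      intro a hab
      have h1 := hstep a b hab (fun h => by omega) w hw
      have h3 := W.smul_mem (w b)⁻¹ h1
      rwa [smul_smul, inv_mul_cancel₀ hwb, one_smul] at h3
    have heb : (Pi.single b (1 : F) : Fin n → F) ∈ W := by
      have h1 : w b • (Pi.single b (1 : F) : Fin n → F) ∈ W := by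
        rw [hdecomp w b]
        apply W.sub_mem hw
        apply Submodule.sum_mem
        intro i hi
        exact W.smul_mem _ (he i (Finset.ne_of_mem_erase hi))
      have h3 := W.smul_mem (w b)⁻¹ h1
      rwa [smul_smul, inv_mul_cancel₀ hwb, one_smul] at h3
    have hall : ∀ a : Fin n, (Pi.single a (1 : F) : Fin n → F) ∈ W := by
      intro a
      by_cases h : a = b
      · rw [h]; exact heb
      · exact he a h
    have htop : ∀ x : Fin n → F, x ∈ W := by
      intro x
      rw [pi_eq_sum_univ' x]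
      exact Submodule.sum_mem _ (fun i _ => W.smul_mem _ (hall i))
    have h5 := (hWmem ((g : Matrix (Fin n) (Fin n) F) *ᵥ Pi.single (⟨n - 1, by omega⟩ : Fin n) 1)).mp
      (htop _) ⟨n - 1, by omega⟩ (by show k ≤ n - 1; omega)
    rw [hgg, Pi.single_eq_same] at h5
    exact one_ne_zero h5
  · push Not at hA
    by_cases hB : ∃ w ∈ W, ∃ b : Fin n, w b ≠ 0
    · obtain ⟨w, hw, b, hwb⟩ := hB
      have hb : (b : ℕ) < n - k := by
        by_contra hcon
        exact hwb (hA w hw b (not_lt.mp hcon))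
      have he : ∀ a : Fin n, (a : ℕ) < n - k → a ≠ b → (Pi.single a (1 : F) : Fin n → F) ∈ W := by
        intro a ha hab
        have h1 := hstep a b hab (fun h => by omega) w hw
        have h3 := W.smul_mem (w b)⁻¹ h1
        rwa [smul_smul, inv_mul_cancel₀ hwb, one_smul] at h3
      have heb : (Pi.single b (1 : F) : Fin n → F) ∈ W := by
        have h1 : w b • (Pi.single b (1 : F) : Fin n → F) ∈ W := by
          rw [hdecomp w b]
          apply W.sub_mem hw
          apply Submodule.sum_mem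
          intro i hi
          by_cases hi2 : (i : ℕ) < n - k
          · exact W.smul_mem _ (he i hi2 (Finset.ne_of_mem_erase hi))
          · rw [hA w hw i (not_lt.mp hi2), zero_smul]; exact W.zero_mem
        have h3 := W.smul_mem (w b)⁻¹ h1
        rwa [smul_smul, inv_mul_cancel₀ hwb, one_smul] at h3
      have hsub : ∀ x : Fin n → F, (∀ i : Fin n, n - k ≤ (i : ℕ) → x i = 0) → x ∈ W := by
        intro x hx
        rw [pi_eq_sum_univ' x]
        apply Submodule.sum_mem
        intro i _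
        by_cases hi2 : (i : ℕ) < n - k
        · by_cases hib : i = b
          · rw [hib]; exact W.smul_mem _ heb
          · exact W.smul_mem _ (he i hi2 hib)
        · rw [hx i (not_lt.mp hi2), zero_smul]; exact W.zero_mem
      have e : {v : Fin n → F // ∀ i : Fin n, k ≤ (i : ℕ) → v i = 0} ≃
          {v : Fin n → F // ∀ i : Fin n, n - k ≤ (i : ℕ) → v i = 0} :=
        { toFun := fun v => ⟨(g : Matrix (Fin n) (Fin n) F) *ᵥ v.1, hA _ (hgW v.1 v.2)⟩
          invFun := fun v => ⟨((g⁻¹ : Matrix.GeneralLinearGroup (Fin n) F) :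
            Matrix (Fin n) (Fin n) F) *ᵥ v.1, (hWmem _).mp (hsub v.1 v.2)⟩
          left_inv := by
            intro v
            apply Subtype.ext
            exact hgg v.1
          right_inv := by
            intro v
            apply Subtype.ext
            exact hgg' v.1 }
      have hcard := Nat.card_congr e
      rw [card_Uk n k hkn.le, card_Uk n (n - k) (Nat.sub_le n k)] at hcard
      have hq : 1 < Fintype.card F := Fintype.one_lt_card
      have := Nat.pow_right_injective hq hcard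
      omega
    · push Not at hB
      have h1 := hgW (Pi.single (⟨0, by omega⟩ : Fin n) 1) (by
        intro i hi
        rw [Pi.single_apply, if_neg]
        intro h; rw [h] at hi; simp at hi; omega)
      have h2 : (g : Matrix (Fin n) (Fin n) F) *ᵥ Pi.single (⟨0, by omega⟩ : Fin n) (1 : F) = 0 := by
        funext b; exact hB _ h1 b
      have h3 := hgg (Pi.single (⟨0, by omega⟩ : Fin n) (1 : F))
      rw [h2, Matrix.mulVec_zero] at h3
      have h4 := congrFun h3 ⟨0, by omega⟩
      rw [Pi.single_eq_same] at h4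
      exact one_ne_zero h4.symm

end Helpers

/-- The stabilisers in GL_n(F), F finite, of the coordinate subspaces of dimensions k and n − k are isomorphic groups, but when 2k ≠ n (and 0 < k < n) no element of GL_n conjugates one onto the other. -/
theorem result {F : Type*} [Field F] [Finite F] (n k : ℕ) (hk0 : 0 < k) (hkn : k < n) (h2 : 2 * k ≠ n) : Nonempty (↥(Cfsg.stabilizing (Cfsg.glToMat (Fin n) F) {v : Fin n → F | ∀ i : Fin n, k ≤ (i : ℕ) → v i = 0}) ≃* ↥(Cfsg.stabilizing (Cfsg.glToMat (Fin n) F) {v : Fin n → F | ∀ i : Fin n, n - k ≤ (i : ℕ) → v i = 0})) ∧ ∀ g : Matrix.GeneralLinearGroup (Fin n) F, (Cfsg.stabilizing (Cfsg.glToMat (Fin n) F) {v : Fin n → F | ∀ i : Fin n, k ≤ (i : ℕ) → v i = 0}).map (MulAut.conj g).toMonoidHom ≠ Cfsg.stabilizing (Cfsg.glToMat (Fin n) F) {v : Fin n → F | ∀ i : Fin n, n - k ≤ (i : ℕ) → v i = 0} := by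
  classical
  have := Fintype.ofFinite F
  exact ⟨part1 n k hkn.le, fun g => part2 n k hk0 hkn h2 g⟩

end Cfsg.Agent.S0773
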