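import Cfsg.Statements.S0774
-- import your own Cfsg.Agent.* helpers here
import Mathlib
import Cfsg.Agent.S0769

set_option autoImplicit false
open Cfsg

namespace Cfsg.Agent.S0774

open Matrix

section Helpers

variable {F : Type*} [Field F] [Fintype F]

theorem card_symm {q : ℕ} (hF : Fintype.card F = q) (m : ℕ) :
    Nat.card {S : Matrix (Fin m) (Fin m) F // Sᵀ = S} = q ^ (∑ i ∈ Finset.range m, (i + 1)) := by
  classical
  obtain ⟨P, hP⟩ : ∃ P : Fin m → Fin m → F → Prop, P = fun i j x => (i < j → x = 0) := ⟨_, rfl⟩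
  have hPdef : ∀ i j x, P i j x ↔ (i < j → x = 0) := by
    intro i j x; rw [hP]
  have e1 : {S : Matrix (Fin m) (Fin m) F // Sᵀ = S} ≃
      {M : Fin m → Fin m → F // ∀ i, ∀ j, P i j (M i j)} :=
    { toFun := fun S => ⟨fun i j => if i < j then 0 else S.1 i j, by
        intro i j
        rw [hPdef]
        intro h
        exact if_pos h⟩
      invFun := fun M => ⟨Matrix.of (fun i j => if i < j then M.1 j i else M.1 i j), by
        ext i j
        rw [Matrix.transpose_apply, Matrix.of_apply, Matrix.of_apply]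
        rcases lt_trichotomy i j with h | h | h
        · rw [if_neg (not_lt.mpr (le_of_lt h)), if_pos h]
        · subst h; rfl
        · rw [if_pos h, if_neg (not_lt.mpr (le_of_lt h))]⟩
      left_inv := by
        intro S
        apply Subtype.ext
        ext i j
        show (if i < j then (if j < i then (0 : F) else S.1 j i) else (if i < j then 0 else S.1 i j))
          = S.1 i j
        by_cases h : i < j
        · rw [if_pos h, if_neg (not_lt.mpr (le_of_lt h))]
          have h1 := congrFun (congrFun S.2 i) j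
          rw [Matrix.transpose_apply] at h1
          exact h1
        · rw [if_neg h, if_neg h]
      right_inv := by
        intro M
        apply Subtype.ext
        funext i j
        show (if i < j then (0 : F) else (if i < j then M.1 j i else M.1 i j)) = M.1 i j
        by_cases h : i < j
        · rw [if_pos h]
          exact ((hPdef i j _).mp (M.2 i j) h).symm
        · rw [if_neg h, if_neg h] }
  have e2 : {M : Fin m → Fin m → F // ∀ i, ∀ j, P i j (M i j)} ≃
      (∀ i : Fin m, ∀ j : Fin m, {x : F // P i j x}) :=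
    (Equiv.subtypePiEquivPi (p := fun (i : Fin m) (r : Fin m → F) => ∀ j, P i j (r j))).trans
      (Equiv.piCongrRight (fun i => Equiv.subtypePiEquivPi (p := fun (j : Fin m) (x : F) => P i j x)))
  have hcard : ∀ i j : Fin m, Fintype.card {x : F // P i j x} = (if j ≤ i then q else 1) := by
    intro i j
    by_cases h : j ≤ i
    · rw [if_pos h, ← hF]
      apply Fintype.card_congr
      apply Equiv.subtypeUnivEquiv
      intro x
      rw [hPdef]
      intro h'
      exact absurd h' (not_lt.mpr h)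
    · rw [if_neg h]
      rw [Fintype.card_eq_one_iff]
      refine ⟨⟨0, (hPdef i j 0).mpr (fun _ => rfl)⟩, ?_⟩
      intro y
      exact Subtype.ext ((hPdef i j _).mp y.2 (not_le.mp h))
  rw [Nat.card_congr (e1.trans e2), Nat.card_eq_fintype_card, Fintype.card_pi]
  have hrow : ∀ i : Fin m, Fintype.card (∀ j : Fin m, {x : F // P i j x}) = q ^ ((i : ℕ) + 1) := by
    intro i
    rw [Fintype.card_pi]
    simp only [hcard]
    rw [Finset.prod_ite, Finset.prod_const, Finset.prod_const_one, mul_one]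
    congr 1
    have : (Finset.univ.filter (fun j : Fin m => j ≤ i)) = Finset.Iic i := by
      ext j; simp
    rw [this, Fin.card_Iic]
  simp only [hrow]
  rw [Finset.prod_pow_eq_pow_sum, Fin.sum_univ_eq_sum_range (fun i => i + 1) m]

theorem mem_borel_iff (m : ℕ) (g : Matrix.symplecticGroup (Fin m) F) :
    g ∈ (⨅ k : Fin m, Cfsg.stabilizing (Cfsg.spToMat m F)
        {v : Fin m ⊕ Fin m → F | (∀ i : Fin m, (k : ℕ) < (i : ℕ) → v (Sum.inl i) = 0) ∧
          ∀ i : Fin m, v (Sum.inr i) = 0}) ↔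
      (∀ i j : Fin m, (g : Matrix (Fin m ⊕ Fin m) (Fin m ⊕ Fin m) F) (Sum.inr i) (Sum.inl j) = 0) ∧
      ∀ i j : Fin m, j < i →
        (g : Matrix (Fin m ⊕ Fin m) (Fin m ⊕ Fin m) F) (Sum.inl i) (Sum.inl j) = 0 := by
  classical
  rw [Subgroup.mem_iInf]
  constructor
  · intro hg
    have hcol : ∀ j : Fin m,
        (g : Matrix (Fin m ⊕ Fin m) (Fin m ⊕ Fin m) F) *ᵥ Pi.single (Sum.inl j) 1 ∈
        {v : Fin m ⊕ Fin m → F | (∀ i : Fin m, (j : ℕ) < (i : ℕ) → v (Sum.inl i) = 0) ∧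
          ∀ i : Fin m, v (Sum.inr i) = 0} := by
      intro j
      refine ((hg j) (Pi.single (Sum.inl j) 1)).mp ⟨?_, ?_⟩
      · intro i hi
        rw [Pi.single_apply, if_neg]
        intro h
        have := Sum.inl.inj h
        rw [this] at hi; omega
      · intro i
        rw [Pi.single_apply, if_neg]
        exact Sum.inr_ne_inl
    constructor
    · intro i j
      have h1 := (hcol j).2 i
      rw [Matrix.mulVec_single_one] at h1
      exact h1
    · intro i j hji
      have h1 := (hcol j).1 i hji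
      rw [Matrix.mulVec_single_one] at h1
      exact h1
  · rintro ⟨hC, hA⟩ k
    have hmaps : ∀ v : Fin m ⊕ Fin m → F,
        v ∈ {v : Fin m ⊕ Fin m → F | (∀ i : Fin m, (k : ℕ) < (i : ℕ) → v (Sum.inl i) = 0) ∧
          ∀ i : Fin m, v (Sum.inr i) = 0} →
        (g : Matrix (Fin m ⊕ Fin m) (Fin m ⊕ Fin m) F) *ᵥ v ∈
        {v : Fin m ⊕ Fin m → F | (∀ i : Fin m, (k : ℕ) < (i : ℕ) → v (Sum.inl i) = 0) ∧
          ∀ i : Fin m, v (Sum.inr i) = 0} := by
      rintro v ⟨hv1, hv2⟩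
      constructor
      · intro i hi
        show ∑ c, (g : Matrix (Fin m ⊕ Fin m) (Fin m ⊕ Fin m) F) (Sum.inl i) c * v c = 0
        rw [Fintype.sum_sum_type]
        have h1 : ∑ l, (g : Matrix (Fin m ⊕ Fin m) (Fin m ⊕ Fin m) F) (Sum.inl i) (Sum.inl l)
            * v (Sum.inl l) = 0 := by
          apply Finset.sum_eq_zero
          intro l _
          by_cases hl : (k : ℕ) < (l : ℕ)
          · rw [hv1 l hl, mul_zero]
          · rw [hA i l (by rw [Fin.lt_def]; omega), zero_mul]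
        have h2 : ∑ l, (g : Matrix (Fin m ⊕ Fin m) (Fin m ⊕ Fin m) F) (Sum.inl i) (Sum.inr l)
            * v (Sum.inr l) = 0 := by
          apply Finset.sum_eq_zero
          intro l _
          rw [hv2 l, mul_zero]
        rw [h1, h2, add_zero]
      · intro i
        show ∑ c, (g : Matrix (Fin m ⊕ Fin m) (Fin m ⊕ Fin m) F) (Sum.inr i) c * v c = 0
        rw [Fintype.sum_sum_type]
        have h1 : ∑ l, (g : Matrix (Fin m ⊕ Fin m) (Fin m ⊕ Fin m) F) (Sum.inr i) (Sum.inl l)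
            * v (Sum.inl l) = 0 := by
          apply Finset.sum_eq_zero
          intro l _
          rw [hC i l, zero_mul]
        have h2 : ∑ l, (g : Matrix (Fin m ⊕ Fin m) (Fin m ⊕ Fin m) F) (Sum.inr i) (Sum.inr l)
            * v (Sum.inr l) = 0 := by
          apply Finset.sum_eq_zero
          intro l _
          rw [hv2 l, mul_zero]
        rw [h1, h2, add_zero]
    have hinj : Function.Injective (fun v : Fin m ⊕ Fin m → F =>
        (g : Matrix (Fin m ⊕ Fin m) (Fin m ⊕ Fin m) F) *ᵥ v) := by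
      intro v w hvw
      have h1 : ((g⁻¹ : Matrix.symplecticGroup (Fin m) F) : Matrix (Fin m ⊕ Fin m) (Fin m ⊕ Fin m) F)
          * (g : Matrix (Fin m ⊕ Fin m) (Fin m ⊕ Fin m) F) = 1 :=
        congrArg Subtype.val (inv_mul_cancel g)
      have h2 := congrArg (fun x => ((g⁻¹ : Matrix.symplecticGroup (Fin m) F) :
        Matrix (Fin m ⊕ Fin m) (Fin m ⊕ Fin m) F) *ᵥ x) hvw
      simp only [Matrix.mulVec_mulVec, h1, Matrix.one_mulVec] at h2
      exact h2
    obtain ⟨f, hf⟩ : ∃ f : {v : Fin m ⊕ Fin m → F // (∀ i : Fin m, (k : ℕ) < (i : ℕ) → v (Sum.inl i) = 0) ∧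
          ∀ i : Fin m, v (Sum.inr i) = 0} → {v : Fin m ⊕ Fin m → F // (∀ i : Fin m, (k : ℕ) < (i : ℕ) → v (Sum.inl i) = 0) ∧
          ∀ i : Fin m, v (Sum.inr i) = 0},
        ∀ v, (f v).1 = (g : Matrix (Fin m ⊕ Fin m) (Fin m ⊕ Fin m) F) *ᵥ v.1 :=
      ⟨fun v => ⟨(g : Matrix (Fin m ⊕ Fin m) (Fin m ⊕ Fin m) F) *ᵥ v.1, hmaps v.1 v.2⟩, fun v => rfl⟩
    have hfinj : Function.Injective f := by
      intro v w hvw
      apply Subtype.ext
      apply hinj
      show (g : Matrix (Fin m ⊕ Fin m) (Fin m ⊕ Fin m) F) *ᵥ v.1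
        = (g : Matrix (Fin m ⊕ Fin m) (Fin m ⊕ Fin m) F) *ᵥ w.1
      rw [← hf, ← hf, hvw]
    have hfsurj : Function.Surjective f := Finite.injective_iff_surjective.mp hfinj
    intro v
    constructor
    · exact hmaps v
    · intro hv
      obtain ⟨w, hw⟩ := hfsurj ⟨_, hv⟩
      have h1 := congrArg Subtype.val hw
      rw [hf] at h1
      have h2 : w.1 = v := hinj h1
      rw [← h2]
      exact w.2

end Helpers

/-- Borel subgroup of the symplectic group: the elements of Sp_2m(q) stabilising each of the totally isotropic coordinate subspaces ⟨e_0, ..., e_k⟩ (k < m) form a subgroup of order q^(m²) (q − 1)^m. -/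
theorem result {F : Type*} [Field F] [Fintype F] {q : ℕ} (hF : Fintype.card F = q) (m : ℕ) : Nat.card ↥(⨅ k : Fin m, Cfsg.stabilizing (Cfsg.spToMat m F) {v : Fin m ⊕ Fin m → F | (∀ i : Fin m, (k : ℕ) < (i : ℕ) → v (Sum.inl i) = 0) ∧ ∀ i : Fin m, v (Sum.inr i) = 0}) = q ^ (m ^ 2) * (q - 1) ^ m := by
  classical
  have c1 : Nat.card ↥(⨅ k : Fin m, Cfsg.stabilizing (Cfsg.spToMat m F)
        {v : Fin m ⊕ Fin m → F | (∀ i : Fin m, (k : ℕ) < (i : ℕ) → v (Sum.inl i) = 0) ∧
          ∀ i : Fin m, v (Sum.inr i) = 0}) =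
      Nat.card {g : Matrix.symplecticGroup (Fin m) F //
        (∀ i j : Fin m, (g : Matrix (Fin m ⊕ Fin m) (Fin m ⊕ Fin m) F) (Sum.inr i) (Sum.inl j) = 0) ∧
        ∀ i j : Fin m, j < i →
          (g : Matrix (Fin m ⊕ Fin m) (Fin m ⊕ Fin m) F) (Sum.inl i) (Sum.inl j) = 0} :=
    Nat.card_congr (Equiv.subtypeEquivRight (fun g => mem_borel_iff m g))
  obtain ⟨Ψ, hΨ⟩ : ∃ Ψ : {L : Matrix.GeneralLinearGroup (Fin m) F // ∀ i j : Fin m, i < j →
        (L : Matrix (Fin m) (Fin m) F) i j = 0} × {S : Matrix (Fin m) (Fin m) F // Sᵀ = S} →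
      {g : Matrix.symplecticGroup (Fin m) F //
        (∀ i j : Fin m, (g : Matrix (Fin m ⊕ Fin m) (Fin m ⊕ Fin m) F) (Sum.inr i) (Sum.inl j) = 0) ∧
        ∀ i j : Fin m, j < i →
          (g : Matrix (Fin m ⊕ Fin m) (Fin m ⊕ Fin m) F) (Sum.inl i) (Sum.inl j) = 0},
      ∀ x, (((Ψ x).1 : Matrix.symplecticGroup (Fin m) F) : Matrix (Fin m ⊕ Fin m) (Fin m ⊕ Fin m) F)
        = Matrix.fromBlocks (x.1.1 : Matrix (Fin m) (Fin m) F)ᵀ
            ((x.1.1 : Matrix (Fin m) (Fin m) F)ᵀ * x.2.1) 0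
            ((x.1.1⁻¹ : Matrix.GeneralLinearGroup (Fin m) F) : Matrix (Fin m) (Fin m) F) := by
    refine ⟨fun x => ⟨⟨Matrix.fromBlocks (x.1.1 : Matrix (Fin m) (Fin m) F)ᵀ
            ((x.1.1 : Matrix (Fin m) (Fin m) F)ᵀ * x.2.1) 0
            ((x.1.1⁻¹ : Matrix.GeneralLinearGroup (Fin m) F) : Matrix (Fin m) (Fin m) F), ?_⟩, ?_, ?_⟩,
      fun x => rfl⟩
    · rw [SymplecticGroup.fromBlocks_mem_iff]
      have hLL : (x.1.1 : Matrix (Fin m) (Fin m) F)
          * ((x.1.1⁻¹ : Matrix.GeneralLinearGroup (Fin m) F) : Matrix (Fin m) (Fin m) F) = 1 := by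
        rw [← Units.val_mul, mul_inv_cancel, Units.val_one]
      refine ⟨by simp, ?_, ?_⟩
      · rw [Matrix.transpose_mul, Matrix.transpose_transpose, x.2.2, Matrix.mul_assoc, hLL,
          Matrix.mul_one, ← Matrix.mul_assoc, ← Matrix.transpose_mul, hLL, Matrix.transpose_one,
          Matrix.one_mul]
      · rw [Matrix.transpose_transpose, hLL]; simp
    · intro i j
      rfl
    · intro i j hji
      show (x.1.1 : Matrix (Fin m) (Fin m) F)ᵀ i j = 0
      rw [Matrix.transpose_apply]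
      exact x.1.2 j i hji
  have hinj : Function.Injective Ψ := by
    rintro ⟨L, S⟩ ⟨L', S'⟩ h
    have h1 : (((Ψ (L, S)).1 : Matrix.symplecticGroup (Fin m) F) : Matrix (Fin m ⊕ Fin m) (Fin m ⊕ Fin m) F)
        = (((Ψ (L', S')).1 : Matrix.symplecticGroup (Fin m) F) : Matrix (Fin m ⊕ Fin m) (Fin m ⊕ Fin m) F) := by
      rw [h]
    rw [hΨ, hΨ, Matrix.fromBlocks_inj] at h1
    obtain ⟨hA, hB, -, -⟩ := h1
    have hLeq : (L.1 : Matrix (Fin m) (Fin m) F) = (L'.1 : Matrix (Fin m) (Fin m) F) :=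
      Matrix.transpose_injective hA
    have hLL : ((L.1⁻¹ : Matrix.GeneralLinearGroup (Fin m) F) : Matrix (Fin m) (Fin m) F)ᵀ
        * (L.1 : Matrix (Fin m) (Fin m) F)ᵀ = 1 := by
      rw [← Matrix.transpose_mul, ← Units.val_mul, mul_inv_cancel, Units.val_one, Matrix.transpose_one]
    have hSeq : S.1 = S'.1 := by
      simp only at hB
      rw [← hLeq] at hB
      have h2 := congrArg (fun X => ((L.1⁻¹ : Matrix.GeneralLinearGroup (Fin m) F) :
        Matrix (Fin m) (Fin m) F)ᵀ * X) hB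
      simp only [← Matrix.mul_assoc, hLL, Matrix.one_mul] at h2
      exact h2
    exact Prod.ext (Subtype.ext (Units.ext hLeq)) (Subtype.ext hSeq)
  have hsurj : Function.Surjective Ψ := by
    rintro ⟨g, hC, hA⟩
    obtain ⟨A, hAdef⟩ : ∃ A, A = (g : Matrix (Fin m ⊕ Fin m) (Fin m ⊕ Fin m) F).toBlocks₁₁ := ⟨_, rfl⟩
    obtain ⟨B, hBdef⟩ : ∃ B, B = (g : Matrix (Fin m ⊕ Fin m) (Fin m ⊕ Fin m) F).toBlocks₁₂ := ⟨_, rfl⟩
    obtain ⟨D, hDdef⟩ : ∃ D, D = (g : Matrix (Fin m ⊕ Fin m) (Fin m ⊕ Fin m) F).toBlocks₂₂ := ⟨_, rfl⟩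
    have h21 : (g : Matrix (Fin m ⊕ Fin m) (Fin m ⊕ Fin m) F).toBlocks₂₁ = 0 := by
      ext i j
      exact hC i j
    have hgb : (g : Matrix (Fin m ⊕ Fin m) (Fin m ⊕ Fin m) F) = Matrix.fromBlocks A B 0 D := by
      rw [hAdef, hBdef, hDdef, ← h21, Matrix.fromBlocks_toBlocks]
    have hmem : Matrix.fromBlocks A B 0 D ∈ Matrix.symplecticGroup (Fin m) F := by
      rw [← hgb]; exact g.2
    rw [SymplecticGroup.fromBlocks_mem_iff] at hmem
    obtain ⟨-, hBD, hAD⟩ := hmem
    have hAD' : Aᵀ * D = 1 := by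
      rw [Matrix.transpose_zero, Matrix.zero_mul, sub_zero] at hAD
      exact hAD
    have hDA : D * Aᵀ = 1 := mul_eq_one_comm.mp hAD'
    obtain ⟨L, hL⟩ : ∃ L : Matrix.GeneralLinearGroup (Fin m) F, L = ⟨Aᵀ, D, hAD', hDA⟩ := ⟨_, rfl⟩
    have hLv : (L : Matrix (Fin m) (Fin m) F) = Aᵀ := by rw [hL]
    have hLi : ((L⁻¹ : Matrix.GeneralLinearGroup (Fin m) F) : Matrix (Fin m) (Fin m) F) = D := by
      rw [hL]; rfl
    have hLlow : ∀ i j : Fin m, i < j → (L : Matrix (Fin m) (Fin m) F) i j = 0 := by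
      intro i j hij
      rw [hLv, Matrix.transpose_apply, hAdef]
      exact hA j i hij
    have hSsym : (Dᵀ * B)ᵀ = Dᵀ * B := by
      rw [Matrix.transpose_mul, Matrix.transpose_transpose, hBD]
    refine ⟨(⟨L, hLlow⟩, ⟨Dᵀ * B, hSsym⟩), ?_⟩
    apply Subtype.ext
    apply Subtype.ext
    rw [hΨ, hgb]
    show Matrix.fromBlocks (L : Matrix (Fin m) (Fin m) F)ᵀ ((L : Matrix (Fin m) (Fin m) F)ᵀ * (Dᵀ * B)) 0
      ((L⁻¹ : Matrix.GeneralLinearGroup (Fin m) F) : Matrix (Fin m) (Fin m) F) = Matrix.fromBlocks A B 0 D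
    rw [hLv, hLi, Matrix.transpose_transpose, ← Matrix.mul_assoc]
    have h5 : A * Dᵀ = 1 := by
      have := congrArg Matrix.transpose hDA
      rw [Matrix.transpose_mul, Matrix.transpose_transpose, Matrix.transpose_one] at this
      exact this
    rw [h5, Matrix.one_mul]
  rw [c1, ← Nat.card_congr (Equiv.ofBijective Ψ ⟨hinj, hsurj⟩), Nat.card_prod,
    Cfsg.Agent.S0769.result hF m, card_symm hF m]
  have hsum : m * (m - 1) / 2 + ∑ i ∈ Finset.range m, (i + 1) = m ^ 2 := by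
    rw [Finset.sum_add_distrib, Finset.sum_range_id, Finset.sum_const, Finset.card_range, smul_eq_mul,
      mul_one]
    have h2 : 2 ∣ m * (m - 1) := (Nat.even_mul_pred_self m).two_dvd
    obtain ⟨t, ht⟩ := h2
    rw [ht, Nat.mul_div_cancel_left _ (by norm_num : 0 < 2)]
    rcases Nat.eq_zero_or_pos m with h0 | hpos
    · subst h0; simp at ht; omega
    · have h3 : m ^ 2 = m * (m - 1) + m := by
        obtain ⟨r, rfl⟩ : ∃ r, m = r + 1 := ⟨m - 1, by omega⟩
        simp only [Nat.add_sub_cancel]; ring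
      rw [h3, ht]; ring
  rw [← hsum, pow_add]
  ring

end Cfsg.Agent.S0774
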