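import Cfsg.Statements.S0778
-- import your own Cfsg.Agent.* helpers here
import Mathlib

set_option autoImplicit false
open Cfsg

namespace Cfsg.Agent.S0778

open Matrix

section Helpers

variable {F : Type*} [Field F] {m : ℕ}

theorem symp_diag_iff (X Y : Matrix (Fin m) (Fin m) F) :
    Matrix.fromBlocks X 0 0 Y ∈ Matrix.symplecticGroup (Fin m) F ↔ X * Yᵀ = 1 := by
  rw [SymplecticGroup.mem_iff, Matrix.J, Matrix.fromBlocks_transpose, Matrix.fromBlocks_multiply,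
    Matrix.fromBlocks_multiply, Matrix.fromBlocks_inj]
  simp only [Matrix.mul_zero, Matrix.zero_mul, Matrix.mul_one, Matrix.mul_neg, Matrix.neg_mul,
    add_zero, zero_add, Matrix.transpose_zero, neg_inj, true_and]
  constructor
  · intro h; exact h.1
  · intro h
    refine ⟨h, ?_⟩
    have h1 : Yᵀ * X = 1 := (_root_.mul_eq_one_comm).mp h
    have h2 := congrArg Matrix.transpose h1
    rw [Matrix.transpose_mul, Matrix.transpose_transpose, Matrix.transpose_one] at h2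
    exact ⟨(_root_.mul_eq_one_comm).mp h2, neg_zero⟩

theorem diag_stab (X Y : Matrix (Fin m) (Fin m) F) (hXY : X * Yᵀ = 1) (v : Fin m ⊕ Fin m → F) :
    ((∀ i : Fin m, v (Sum.inr i) = 0) ↔
        ∀ i : Fin m, (Matrix.fromBlocks X 0 0 Y *ᵥ v) (Sum.inr i) = 0) ∧
      ((∀ i : Fin m, v (Sum.inl i) = 0) ↔
        ∀ i : Fin m, (Matrix.fromBlocks X 0 0 Y *ᵥ v) (Sum.inl i) = 0) := by
  have h1 : Yᵀ * X = 1 := (_root_.mul_eq_one_comm).mp hXY
  have h2 : Xᵀ * Y = 1 := by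
    have h := congrArg Matrix.transpose h1
    rw [Matrix.transpose_mul, Matrix.transpose_transpose, Matrix.transpose_one] at h
    exact h
  rw [Matrix.fromBlocks_mulVec]
  simp only [Matrix.zero_mulVec, add_zero, zero_add, Sum.elim_inr, Sum.elim_inl]
  constructor
  · constructor
    · intro hv i
      have : v ∘ Sum.inr = 0 := funext hv
      rw [this, Matrix.mulVec_zero]; rfl
    · intro hv i
      have h3 : Y *ᵥ (v ∘ Sum.inr) = 0 := funext hv
      have h4 : Xᵀ *ᵥ (Y *ᵥ (v ∘ Sum.inr)) = v ∘ Sum.inr := by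
        rw [Matrix.mulVec_mulVec, h2, Matrix.one_mulVec]
      rw [h3, Matrix.mulVec_zero] at h4
      exact (congrFun h4 i).symm
  · constructor
    · intro hv i
      have : v ∘ Sum.inl = 0 := funext hv
      rw [this, Matrix.mulVec_zero]; rfl
    · intro hv i
      have h3 : X *ᵥ (v ∘ Sum.inl) = 0 := funext hv
      have h4 : Yᵀ *ᵥ (X *ᵥ (v ∘ Sum.inl)) = v ∘ Sum.inl := by
        rw [Matrix.mulVec_mulVec, h1, Matrix.one_mulVec]
      rw [h3, Matrix.mulVec_zero] at h4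
      exact (congrFun h4 i).symm

/-- the subgroup in question. -/
abbrev Hs (F : Type*) [Field F] (m : ℕ) : Subgroup (Matrix.symplecticGroup (Fin m) F) :=
  Cfsg.stabilizing (Cfsg.spToMat m F) {v : Fin m ⊕ Fin m → F | ∀ i : Fin m, v (Sum.inr i) = 0} ⊓
    Cfsg.stabilizing (Cfsg.spToMat m F) {v : Fin m ⊕ Fin m → F | ∀ i : Fin m, v (Sum.inl i) = 0}

theorem blocks_of_mem (A : Matrix.symplecticGroup (Fin m) F) (hA : A ∈ Hs F m) :
    (A : Matrix (Fin m ⊕ Fin m) (Fin m ⊕ Fin m) F) =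
      Matrix.fromBlocks (A : Matrix (Fin m ⊕ Fin m) (Fin m ⊕ Fin m) F).toBlocks₁₁ 0 0
        (A : Matrix (Fin m ⊕ Fin m) (Fin m ⊕ Fin m) F).toBlocks₂₂ := by
  classical
  obtain ⟨h1, h2⟩ := Subgroup.mem_inf.mp hA
  have h21 : (A : Matrix (Fin m ⊕ Fin m) (Fin m ⊕ Fin m) F).toBlocks₂₁ = 0 := by
    ext i j
    have h3 := (h1 (Pi.single (Sum.inl j) 1)).mp (by
      intro l
      simp)
    have h4 := h3 i
    have h5 : (Cfsg.spToMat m F A *ᵥ Pi.single (Sum.inl j) 1) (Sum.inr i)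
        = (A : Matrix (Fin m ⊕ Fin m) (Fin m ⊕ Fin m) F) (Sum.inr i) (Sum.inl j) := by
      rw [Matrix.mulVec_single_one]; rfl
    rw [h5] at h4
    exact h4
  have h12 : (A : Matrix (Fin m ⊕ Fin m) (Fin m ⊕ Fin m) F).toBlocks₁₂ = 0 := by
    ext i j
    have h3 := (h2 (Pi.single (Sum.inr j) 1)).mp (by
      intro l
      simp)
    have h4 := h3 i
    have h5 : (Cfsg.spToMat m F A *ᵥ Pi.single (Sum.inr j) 1) (Sum.inl i)
        = (A : Matrix (Fin m ⊕ Fin m) (Fin m ⊕ Fin m) F) (Sum.inl i) (Sum.inr j) := by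
      rw [Matrix.mulVec_single_one]; rfl
    rw [h5] at h4
    exact h4
  conv_lhs => rw [← Matrix.fromBlocks_toBlocks (A : Matrix (Fin m ⊕ Fin m) (Fin m ⊕ Fin m) F)]
  rw [h21, h12]

theorem xy_of_mem (A : Matrix.symplecticGroup (Fin m) F) (hA : A ∈ Hs F m) :
    (A : Matrix (Fin m ⊕ Fin m) (Fin m ⊕ Fin m) F).toBlocks₁₁ *
      ((A : Matrix (Fin m ⊕ Fin m) (Fin m ⊕ Fin m) F).toBlocks₂₂)ᵀ = 1 := by
  have h := A.2
  rw [blocks_of_mem A hA] at h
  exact (symp_diag_iff _ _).mp h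

end Helpers

/-- The elements of Sp_2m(F) stabilising both W = ⟨e_1..e_m⟩ and U = ⟨f_1..f_m⟩ form a subgroup isomorphic to GL_m(F) (block-diagonal matrices diag(X, X^(−ᵀ)) up to the sign convention of J), for m ≥ 1 or m = 0 alike. -/
theorem result {F : Type*} [Field F] (m : ℕ) : Nonempty (↥(Cfsg.stabilizing (Cfsg.spToMat m F) {v : Fin m ⊕ Fin m → F | ∀ i : Fin m, v (Sum.inr i) = 0} ⊓ Cfsg.stabilizing (Cfsg.spToMat m F) {v : Fin m ⊕ Fin m → F | ∀ i : Fin m, v (Sum.inl i) = 0}) ≃* Matrix.GeneralLinearGroup (Fin m) F) := by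
  classical
  obtain ⟨φ, hφ⟩ : ∃ φ : ↥(Hs F m) →* Matrix.GeneralLinearGroup (Fin m) F, ∀ A : ↥(Hs F m),
      ((φ A : Matrix.GeneralLinearGroup (Fin m) F) : Matrix (Fin m) (Fin m) F) =
        ((A : Matrix.symplecticGroup (Fin m) F) : Matrix (Fin m ⊕ Fin m) (Fin m ⊕ Fin m) F).toBlocks₁₁ := by
    refine ⟨MonoidHom.mk' (fun A => ⟨
        ((A : Matrix.symplecticGroup (Fin m) F) : Matrix (Fin m ⊕ Fin m) (Fin m ⊕ Fin m) F).toBlocks₁₁,
        (((A : Matrix.symplecticGroup (Fin m) F) : Matrix (Fin m ⊕ Fin m) (Fin m ⊕ Fin m) F).toBlocks₂₂)ᵀ,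
        xy_of_mem A.1 A.2, (_root_.mul_eq_one_comm).mp (xy_of_mem A.1 A.2)⟩) ?_, fun A => rfl⟩
    intro A B
    apply Units.ext
    show (((A * B : ↥(Hs F m)) : Matrix.symplecticGroup (Fin m) F) :
        Matrix (Fin m ⊕ Fin m) (Fin m ⊕ Fin m) F).toBlocks₁₁
      = ((A : Matrix.symplecticGroup (Fin m) F) : Matrix (Fin m ⊕ Fin m) (Fin m ⊕ Fin m) F).toBlocks₁₁
        * ((B : Matrix.symplecticGroup (Fin m) F) : Matrix (Fin m ⊕ Fin m) (Fin m ⊕ Fin m) F).toBlocks₁₁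
    have hAB : (((A * B : ↥(Hs F m)) : Matrix.symplecticGroup (Fin m) F) :
        Matrix (Fin m ⊕ Fin m) (Fin m ⊕ Fin m) F)
        = ((A : Matrix.symplecticGroup (Fin m) F) : Matrix (Fin m ⊕ Fin m) (Fin m ⊕ Fin m) F)
          * ((B : Matrix.symplecticGroup (Fin m) F) : Matrix (Fin m ⊕ Fin m) (Fin m ⊕ Fin m) F) := rfl
    rw [hAB]
    conv_lhs => rw [blocks_of_mem A.1 A.2, blocks_of_mem B.1 B.2, Matrix.fromBlocks_multiply]
    rw [Matrix.toBlocks_fromBlocks₁₁, Matrix.zero_mul, add_zero]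
  have hinj : Function.Injective φ := by
    intro A B h
    have h1 : ((A : Matrix.symplecticGroup (Fin m) F) : Matrix (Fin m ⊕ Fin m) (Fin m ⊕ Fin m) F).toBlocks₁₁
        = ((B : Matrix.symplecticGroup (Fin m) F) : Matrix (Fin m ⊕ Fin m) (Fin m ⊕ Fin m) F).toBlocks₁₁ := by
      rw [← hφ, ← hφ, h]
    have hA := xy_of_mem A.1 A.2
    have hB := xy_of_mem B.1 B.2
    rw [h1] at hA
    have h2 : (((A : Matrix.symplecticGroup (Fin m) F) : Matrix (Fin m ⊕ Fin m) (Fin m ⊕ Fin m) F).toBlocks₂₂)ᵀ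
        = (((B : Matrix.symplecticGroup (Fin m) F) : Matrix (Fin m ⊕ Fin m) (Fin m ⊕ Fin m) F).toBlocks₂₂)ᵀ := by
      have hB' := (_root_.mul_eq_one_comm).mp hB
      calc (((A : Matrix.symplecticGroup (Fin m) F) : Matrix (Fin m ⊕ Fin m) (Fin m ⊕ Fin m) F).toBlocks₂₂)ᵀ
          = ((((B : Matrix.symplecticGroup (Fin m) F) : Matrix (Fin m ⊕ Fin m) (Fin m ⊕ Fin m) F).toBlocks₂₂)ᵀ
              * ((B : Matrix.symplecticGroup (Fin m) F) : Matrix (Fin m ⊕ Fin m) (Fin m ⊕ Fin m) F).toBlocks₁₁)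
              * (((A : Matrix.symplecticGroup (Fin m) F) : Matrix (Fin m ⊕ Fin m) (Fin m ⊕ Fin m) F).toBlocks₂₂)ᵀ := by
            rw [hB', Matrix.one_mul]
        _ = (((B : Matrix.symplecticGroup (Fin m) F) : Matrix (Fin m ⊕ Fin m) (Fin m ⊕ Fin m) F).toBlocks₂₂)ᵀ := by
            rw [Matrix.mul_assoc, hA, Matrix.mul_one]
    have h3 := congrArg Matrix.transpose h2
    rw [Matrix.transpose_transpose, Matrix.transpose_transpose] at h3
    apply Subtype.ext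
    apply Subtype.ext
    rw [blocks_of_mem A.1 A.2, blocks_of_mem B.1 B.2, h1, h3]
  have hsurj : Function.Surjective φ := by
    intro g
    have hXY : (g : Matrix (Fin m) (Fin m) F) *
        ((((g⁻¹ : Matrix.GeneralLinearGroup (Fin m) F) : Matrix (Fin m) (Fin m) F))ᵀ)ᵀ = 1 := by
      rw [Matrix.transpose_transpose, Units.mul_inv]
    have hmem : Matrix.fromBlocks (g : Matrix (Fin m) (Fin m) F) 0 0
        (((g⁻¹ : Matrix.GeneralLinearGroup (Fin m) F) : Matrix (Fin m) (Fin m) F))ᵀ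
          ∈ Matrix.symplecticGroup (Fin m) F := (symp_diag_iff _ _).mpr hXY
    have hH : (⟨_, hmem⟩ : Matrix.symplecticGroup (Fin m) F) ∈ Hs F m := by
      refine Subgroup.mem_inf.mpr ⟨?_, ?_⟩
      · intro v
        exact (diag_stab _ _ hXY v).1
      · intro v
        exact (diag_stab _ _ hXY v).2
    refine ⟨⟨⟨_, hmem⟩, hH⟩, ?_⟩
    apply Units.ext
    rw [hφ]
    rfl
  exact ⟨MulEquiv.ofBijective φ ⟨hinj, hsurj⟩⟩

end Cfsg.Agent.S0778
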