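import Cfsg.Statements.S0784
-- import your own Cfsg.Agent.* helpers here
import Mathlib

set_option autoImplicit false
open Cfsg

namespace Cfsg.Agent.S0784

open Matrix in
theorem polarVec_dot {F : Type*} [Field F] {n : ℕ} (Q : QuadraticForm F (Fin n → F))
    (v x : Fin n → F) :
    Cfsg.polarVec (⇑Q) v ⬝ᵥ x = QuadraticMap.polar (⇑Q) v x := by
  have hx : x = ∑ j, x j • (Pi.single (M := fun _ => F) j (1 : F)) := pi_eq_sum_univ' x
  have h1 : QuadraticMap.polar (⇑Q) v x =
      ∑ j, x j * QuadraticMap.polar (⇑Q) v (Pi.single (M := fun _ => F) j (1 : F)) := by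
    conv_lhs => rw [hx]
    have h2 := map_sum (QuadraticMap.polarBilin Q v)
      (fun j => x j • (Pi.single (M := fun _ => F) j (1 : F))) Finset.univ
    simp only [QuadraticMap.polarBilin_apply_apply, map_smul, smul_eq_mul] at h2
    exact h2
  rw [h1]
  simp only [dotProduct, Cfsg.polarVec]
  exact Finset.sum_congr rfl fun j _ => mul_comm _ _

open Matrix in
theorem reflection_mulVec {F : Type*} [Field F] {n : ℕ} (Q : QuadraticForm F (Fin n → F))
    (v x : Fin n → F) :
    (Cfsg.reflectionMatrix (⇑Q) v) *ᵥ x = x - ((Q v)⁻¹ * QuadraticMap.polar (⇑Q) v x) • v := by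
  unfold Cfsg.reflectionMatrix
  rw [Matrix.sub_mulVec, Matrix.one_mulVec, Matrix.smul_mulVec, Matrix.vecMulVec_mulVec,
    polarVec_dot, op_smul_eq_smul, smul_smul]

open Matrix in
theorem det_one_add_vecMulVec {F : Type*} [Field F] {n : ℕ} (u w : Fin n → F) :
    (1 + Matrix.vecMulVec u w).det = 1 + w ⬝ᵥ u := by
  have h : Matrix.vecMulVec u w =
      Matrix.replicateCol (Fin 1) u * Matrix.replicateRow (Fin 1) w := by
    ext i j
    simp [Matrix.vecMulVec_apply, Matrix.mul_apply]
  rw [h, Matrix.det_one_add_mul_comm, Matrix.det_fin_one]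
  simp [Matrix.mul_apply, dotProduct]

/-- Reflections: if Q(v) ≠ 0 then the matrix R = 1 − Q(v)⁻¹ · v f(v, ·)ᵀ preserves Q, maps v to −v, fixes each x with f(v, x) = 0, and has determinant −1 (in characteristic two, −1 = 1 and R is the orthogonal transvection of v). -/
theorem result {F : Type*} [Field F] {n : ℕ} (Q : QuadraticForm F (Fin n → F)) (v : Fin n → F) (hv : Q v ≠ 0) : (∀ x, Q ((Cfsg.reflectionMatrix ⇑Q v).mulVec x) = Q x) ∧ (Cfsg.reflectionMatrix ⇑Q v).mulVec v = -v ∧ (∀ x, QuadraticMap.polar ⇑Q v x = 0 → (Cfsg.reflectionMatrix ⇑Q v).mulVec x = x) ∧ (Cfsg.reflectionMatrix ⇑Q v).det = -1 := by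
  have hpolar_self : QuadraticMap.polar (⇑Q) v v = 2 * Q v := by
    rw [QuadraticMap.polar_self]; simp [two_smul, two_mul]
  refine ⟨?_, ?_, ?_, ?_⟩
  · intro x
    rw [reflection_mulVec, sub_eq_add_neg, ← neg_smul, QuadraticMap.map_add (⇑Q),
      QuadraticMap.map_smul, QuadraticMap.polar_smul_right, QuadraticMap.polar_comm (⇑Q) x v]
    simp only [smul_eq_mul]
    field_simp
    ring
  · rw [reflection_mulVec, hpolar_self]
    have h1 : (Q v)⁻¹ * (2 * Q v) = 2 := by field_simp
    rw [h1, two_smul]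
    abel
  · intro x hx
    rw [reflection_mulVec, hx, mul_zero, zero_smul, sub_zero]
  · unfold Cfsg.reflectionMatrix
    have h1 : (1 : Matrix (Fin n) (Fin n) F) - (Q v)⁻¹ • Matrix.vecMulVec v (Cfsg.polarVec (⇑Q) v) =
        1 + Matrix.vecMulVec ((-(Q v)⁻¹) • v) (Cfsg.polarVec (⇑Q) v) := by
      rw [Matrix.smul_vecMulVec, neg_smul, sub_eq_add_neg]
    rw [h1, det_one_add_vecMulVec, dotProduct_smul, polarVec_dot, hpolar_self]
    simp only [smul_eq_mul]
    field_simp
    ring

end Cfsg.Agent.S0784
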