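import Cfsg.Statements.S0785
-- import your own Cfsg.Agent.* helpers here
import Mathlib
import Cfsg.Agent.S0784

set_option autoImplicit false
open Cfsg

namespace Cfsg.Agent.S0785

/-- det(I) = {±1}: for a quadratic form on F^n whose polar form is non-degenerate, every element of the isometry group has determinant 1 or −1, and as soon as Q takes a non-zero value some isometry has determinant −1. -/
theorem result {F : Type*} [Field F] {n : ℕ} (Q : QuadraticForm F (Fin n → F)) (hQ : (QuadraticMap.polarBilin Q).Nondegenerate) : (∀ g : ↥(Cfsg.isometryGroup F ⇑Q), ((g : Matrix.GeneralLinearGroup (Fin n) F) : Matrix (Fin n) (Fin n) F).det = 1 ∨ ((g : Matrix.GeneralLinearGroup (Fin n) F) : Matrix (Fin n) (Fin n) F).det = -1) ∧ ((∃ v, Q v ≠ 0) → ∃ g : ↥(Cfsg.isometryGroup F ⇑Q), ((g : Matrix.GeneralLinearGroup (Fin n) F) : Matrix (Fin n) (Fin n) F).det = -1) := by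
  classical
  constructor
  · intro g
    have hA : ∀ u : Fin n → F, Q (Matrix.mulVec ((g : Matrix.GeneralLinearGroup (Fin n) F) :
        Matrix (Fin n) (Fin n) F) u) = Q u := fun u => g.2 u u
    set A : Matrix (Fin n) (Fin n) F := ((g : Matrix.GeneralLinearGroup (Fin n) F) :
        Matrix (Fin n) (Fin n) F) with hAdef
    set B : LinearMap.BilinForm F (Fin n → F) := QuadraticMap.polarBilin Q with hBdef
    have hdet : (LinearMap.BilinForm.toMatrix' B).det ≠ 0 :=
      Matrix.nondegenerate_iff_det_ne_zero.mp (LinearMap.BilinForm.nondegenerate_toMatrix'_iff.mpr hQ)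
    have hcomp : B.comp (Matrix.toLin' A) (Matrix.toLin' A) = B := by
      apply LinearMap.ext₂
      intro x y
      rw [LinearMap.BilinForm.comp_apply, Matrix.toLin'_apply, Matrix.toLin'_apply, hBdef,
        QuadraticMap.polarBilin_apply_apply, QuadraticMap.polarBilin_apply_apply]
      unfold QuadraticMap.polar
      rw [← Matrix.mulVec_add, hA, hA, hA]
    have h := LinearMap.BilinForm.toMatrix'_comp B (Matrix.toLin' A) (Matrix.toLin' A)
    rw [hcomp, LinearMap.toMatrix'_toLin'] at h
    have h2 := congrArg Matrix.det h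
    rw [Matrix.det_mul, Matrix.det_mul, Matrix.det_transpose] at h2
    have h3 : (A.det * A.det - 1) * (LinearMap.BilinForm.toMatrix' B).det = 0 := by
      linear_combination -h2
    rcases mul_eq_zero.mp h3 with h4 | h4
    · exact mul_self_eq_one_iff.mp (sub_eq_zero.mp h4)
    · exact absurd h4 hdet
  · rintro ⟨v, hv⟩
    obtain ⟨h1, -, -, h4⟩ := Cfsg.Agent.S0784.result Q v hv
    have hne : (Cfsg.reflectionMatrix (⇑Q) v).det ≠ 0 := by
      rw [h4]; exact neg_ne_zero.mpr one_ne_zero
    refine ⟨⟨Matrix.GeneralLinearGroup.mkOfDetNeZero (Cfsg.reflectionMatrix (⇑Q) v) hne, ?_⟩, ?_⟩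
    · intro u _
      exact h1 u
    · exact h4

end Cfsg.Agent.S0785
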