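import Cfsg.Statements.S0789
-- import your own Cfsg.Agent.* helpers here
import Cfsg.Agent.Lib.helper4.OrthIdx

set_option autoImplicit false
open Cfsg

open Cfsg.Agent.Lib.helper13 Cfsg.Agent.Lib.helper4

namespace Cfsg.Agent.S0789

/-- Ω has index 2 in O for q even: if F is finite of characteristic two, n ≥ 2, Q is a quadratic form on F^n with non-degenerate polar form, and (|F|, n) ≠ (2, 4), then the commutator subgroup of the isometry group of Q has index 2 in it. -/
theorem result {F : Type*} [Field F] [Fintype F] [CharP F 2] {n : ℕ} (hn : 2 ≤ n) (Q : QuadraticForm F (Fin n → F)) (hQ : (QuadraticMap.polarBilin Q).Nondegenerate) (h : Fintype.card F ≠ 2 ∨ n ≠ 4) : (Cfsg.Omega F ⇑Q).index = 2 := by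
  have h' : Fintype.card F ≠ 2 ∨ Fintype.card (Fin n) ≠ 4 := by simpa using h
  set φ := dickHom Q hQ (cd_all h' Q hQ) with hφ
  have hker : Cfsg.Omega F ⇑Q = φ.ker := by
    ext g
    rw [c2_mem_omega_iff h' Q hQ, MonoidHom.mem_ker]; rfl
  obtain ⟨v, hv⟩ := exists_nonsing Q hQ (⟨0, by omega⟩ : Fin n)
  have hsurj : Function.Surjective φ := by
    intro ε
    rcases Int.units_eq_one_or ε with rfl | rfl
    · exact ⟨1, map_one φ⟩
    · exact ⟨reflEl Q v, dick_refl Q hQ v hv⟩
  rw [hker, Subgroup.index_ker, MonoidHom.range_eq_top.mpr hsurj, Subgroup.card_top]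
  simp

end Cfsg.Agent.S0789
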