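import Cfsg.Statements.S0796
-- import your own Cfsg.Agent.* helpers here
import Mathlib

set_option autoImplicit false
open Cfsg

namespace Cfsg.Agent.S0796

/-- If G is finite and acts faithfully and primitively on X, H is the stabiliser of a point, A is a normal subgroup of H whose normal closure in G is G, then for every non-trivial normal subgroup K of G the quotient G ⧸ K is isomorphic to A ⧸ B for some normal subgroup B of A. -/
theorem result {G X : Type*} [Group G] [Finite G] [MulAction G X] [FaithfulSMul G X] (hprim : MulAction.IsPreprimitive G X) (x : X) (A : Subgroup G) (hA : A ≤ MulAction.stabilizer G x) (hAn : (A.subgroupOf (MulAction.stabilizer G x)).Normal) (hgen : Subgroup.normalClosure (A : Set G) = ⊤) (K : Subgroup G) [K.Normal] (hK : K ≠ ⊥) : ∃ (B : Subgroup A) (_ : B.Normal), Nonempty (G ⧸ K ≃* A ⧸ B) := by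
  classical
  haveI := hprim
  have hKt : MulAction.IsPretransitive K X := by
    apply MulAction.IsQuasiPreprimitive.isPretransitive_of_normal (G := G)
    intro hfix
    apply hK
    rw [eq_bot_iff]
    intro k hk
    rw [Subgroup.mem_bot]
    apply FaithfulSMul.eq_of_smul_eq_smul (α := X)
    intro y
    have hy : y ∈ MulAction.fixedPoints K X := by rw [hfix]; trivial
    rw [one_smul]
    exact hy ⟨k, hk⟩
  have hKH : ∀ g : G, ∃ k ∈ K, ∃ h ∈ MulAction.stabilizer G x, g = k * h := by
    intro g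
    obtain ⟨k, hk⟩ := MulAction.exists_smul_eq K x (g • x)
    refine ⟨k.1, k.2, (k.1)⁻¹ * g, ?_, by group⟩
    rw [MulAction.mem_stabilizer_iff, mul_smul]
    have hk' : (k : G) • x = g • x := hk
    rw [← hk', inv_smul_smul]
  have hAconj : ∀ a ∈ A, ∀ h ∈ MulAction.stabilizer G x, h * a * h⁻¹ ∈ A := by
    intro a ha h hh
    have h1 := hAn.conj_mem ⟨a, hA ha⟩ (Subgroup.mem_subgroupOf.mpr ha) ⟨h, hh⟩
    exact Subgroup.mem_subgroupOf.mp h1
  have hnormal : (A ⊔ K).Normal := by
    constructor
    intro y hy g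
    obtain ⟨a, ha, k', hk', rfl⟩ := Subgroup.mem_sup_of_normal_right.mp hy
    obtain ⟨k, hk, h, hh, rfl⟩ := hKH g
    have e : k * h * (a * k') * (k * h)⁻¹ = k * (h * a * h⁻¹) * (h * k' * h⁻¹) * k⁻¹ := by group
    rw [e]
    have hK1 : k ∈ A ⊔ K := Subgroup.mem_sup_right hk
    have hA1 : h * a * h⁻¹ ∈ A ⊔ K := Subgroup.mem_sup_left (hAconj a ha h hh)
    have hK2 : h * k' * h⁻¹ ∈ A ⊔ K :=
      Subgroup.mem_sup_right (Subgroup.Normal.conj_mem inferInstance k' hk' h)
    exact mul_mem (mul_mem (mul_mem hK1 hA1) hK2) (inv_mem hK1)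
  have htop : A ⊔ K = ⊤ := by
    rw [eq_top_iff, ← hgen]
    haveI := hnormal
    exact Subgroup.normalClosure_le_normal (fun a ha => Subgroup.mem_sup_left ha)
  let φ : A →* G ⧸ K := (QuotientGroup.mk' K).comp A.subtype
  have hsurj : Function.Surjective φ := by
    intro q
    obtain ⟨g, rfl⟩ := QuotientGroup.mk_surjective q
    have hg : g ∈ A ⊔ K := by rw [htop]; exact Subgroup.mem_top g
    obtain ⟨a, ha, k, hk, rfl⟩ := Subgroup.mem_sup_of_normal_right.mp hg
    refine ⟨⟨a, ha⟩, ?_⟩
    change (QuotientGroup.mk a : G ⧸ K) = QuotientGroup.mk (a * k)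
    rw [QuotientGroup.eq]
    simpa using hk
  exact ⟨φ.ker, inferInstance, ⟨(QuotientGroup.quotientKerEquivOfSurjective φ hsurj).symm⟩⟩

end Cfsg.Agent.S0796
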