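import Cfsg.Statements.S0800
-- import your own Cfsg.Agent.* helpers here
import Mathlib
import Cfsg.Agent.Lib.helper12.PSL2Spec

set_option autoImplicit false
open Cfsg

namespace Cfsg.Agent.S0800

/-- Tori of SL_2(q): if g ∈ SL_2(q) has order coprime to the characteristic p, then the order of g divides q − 1 or q + 1. -/
theorem result {F : Type*} [Field F] [Fintype F] {q : ℕ} (hF : Fintype.card F = q) (p : ℕ) [Fact p.Prime] [CharP F p] (g : Matrix.SpecialLinearGroup (Fin 2) F) (hg : Nat.Coprime (orderOf g) p) : orderOf g ∣ q - 1 ∨ orderOf g ∣ q + 1 := by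
  classical
  subst hF
  have hp : p.Prime := Fact.out
  rcases Cfsg.Agent.Lib.helper12.SL2_trichotomy g with h | ⟨a, ha, htr⟩ | h
  · left
    obtain ⟨a, ha⟩ := Cfsg.Agent.Lib.helper12.SL2_pow_char_scalar p g h
    have hdet : a * a = 1 := by
      have h1 := (g ^ p).det_coe
      rw [ha] at h1
      simpa [Matrix.det_smul, pow_two] using h1
    have h2p : g ^ (2 * p) = 1 := by
      rw [pow_mul']
      apply Subtype.ext
      rw [Matrix.SpecialLinearGroup.coe_pow, ha, Matrix.SpecialLinearGroup.coe_one, pow_two,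
        Matrix.smul_mul, Matrix.mul_smul, Matrix.one_mul, smul_smul, hdet, one_smul]
    have hd : orderOf g ∣ 2 * p := orderOf_dvd_of_pow_eq_one h2p
    have hd2 : orderOf g ∣ 2 := hg.dvd_of_dvd_mul_right hd
    by_cases hp2 : p = 2
    · subst hp2
      have h1 : orderOf g = 1 := Nat.Coprime.eq_one_of_dvd hg hd2
      rw [h1]; exact one_dvd _
    · obtain ⟨n, hn⟩ := FiniteField.card F p
      have hodd : Odd (Fintype.card F) := by rw [hn.2]; exact Odd.pow (hp.odd_of_ne_two hp2)
      refine hd2.trans ?_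
      obtain ⟨k, hk⟩ := hodd
      exact ⟨k, by omega⟩
  · left
    obtain ⟨c, hc⟩ := isConj_iff.mp (Cfsg.Agent.Lib.helper12.SL2_isConj_diagSL g a ha htr)
    apply orderOf_dvd_of_pow_eq_one
    rw [← hc, conj_pow, Cfsg.Agent.Lib.helper12.diagSL_pow]
    have h1 : a ^ (Fintype.card F - 1) = 1 := by
      rw [← Fintype.card_units]; exact pow_card_eq_one
    rw [h1, Cfsg.Agent.Lib.helper12.diagSL_one, mul_one, mul_inv_cancel]
  · right
    exact orderOf_dvd_of_pow_eq_one (Cfsg.Agent.Lib.helper12.SL2_pow_card_add_one_of_elliptic g h)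

end Cfsg.Agent.S0800
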