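import Cfsg.Statements.S0801
import Cfsg.Agent.Lib.helper12.DkLem
-- import your own Cfsg.Agent.* helpers here

set_option autoImplicit false
open Cfsg

namespace Cfsg.Agent.S0801

open Cfsg.Agent.Lib.helper12
open scoped MatrixGroups

/-- Let F be a finite field of odd characteristic and λ ≠ 0 an element generating F as a field. Then the lower and upper unitriangular matrices with off-diagonal entries 1 and λ generate SL_2(F), unless |F| = 9 and λ² = −1, in which case they generate a subgroup of order 120. -/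
theorem result {F : Type*} [Field F] [Fintype F] (h2 : (2 : F) ≠ 0) (lam : F) (hlam : lam ≠ 0) (hgen : Subfield.closure ({lam} : Set F) = ⊤) : (Subgroup.closure {g : Matrix.SpecialLinearGroup (Fin 2) F | (g : Matrix (Fin 2) (Fin 2) F) = !![1, 0; 1, 1] ∨ (g : Matrix (Fin 2) (Fin 2) F) = !![1, lam; 0, 1]} = ⊤ ∧ ¬ (Fintype.card F = 9 ∧ lam ^ 2 = -1)) ∨ (Fintype.card F = 9 ∧ lam ^ 2 = -1 ∧ Nat.card ↥(Subgroup.closure {g : Matrix.SpecialLinearGroup (Fin 2) F | (g : Matrix (Fin 2) (Fin 2) F) = !![1, 0; 1, 1] ∨ (g : Matrix (Fin 2) (Fin 2) F) = !![1, lam; 0, 1]}) = 120) := by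
  classical
  obtain ⟨p, hp⟩ := CharP.exists F
  haveI := hp
  haveI : Fact p.Prime := ⟨CharP.char_is_prime F p⟩
  have hset : {g : Matrix.SpecialLinearGroup (Fin 2) F |
      (g : Matrix (Fin 2) (Fin 2) F) = !![1, 0; 1, 1] ∨
      (g : Matrix (Fin 2) (Fin 2) F) = !![1, lam; 0, 1]} = {uS lam, lS 1} := by
    ext g
    simp only [Set.mem_ofPred_eq, Set.mem_insert_iff, Set.mem_singleton_iff]
    constructor
    · rintro (h | h)
      · right; exact Subtype.ext h
      · left; exact Subtype.ext h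
    · rintro (h | h)
      · right; rw [h]; rfl
      · left; rw [h]; rfl
  rw [hset]
  obtain ⟨L, hL⟩ : ∃ L : Subgroup SL(2, F), L = Subgroup.closure {uS lam, lS 1} := ⟨_, rfl⟩
  rw [← hL]
  have huL : uS lam ∈ L := by
    rw [hL]
    exact Subgroup.subset_closure (Set.mem_insert _ _)
  have hlL : lS (1 : F) ∈ L := by
    rw [hL]
    exact Subgroup.subset_closure (Set.mem_insert_of_mem _ rfl)
  by_cases hexc : p = 3 ∧ lam ^ 2 = -1
  · right
    obtain ⟨hp3, hl2⟩ := hexc
    subst hp3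
    exact ⟨card_nine lam hlam hl2 hgen, hl2, exc_card lam hl2 L hL⟩
  · left
    refine ⟨dickson_lemma_top p h2 lam hlam hgen L huL hlL hexc, ?_⟩
    rintro ⟨h9, hl2⟩
    apply hexc
    refine ⟨?_, hl2⟩
    obtain ⟨n, hpp, hn⟩ := FiniteField.card F p
    rw [h9] at hn
    have h3 : p ∣ 3 ^ 2 := by
      rw [show 3 ^ 2 = 9 by norm_num, hn]
      exact dvd_pow_self p n.ne_zero
    exact (Nat.prime_dvd_prime_iff_eq hpp Nat.prime_three).1 (hpp.dvd_of_dvd_pow h3)

end Cfsg.Agent.S0801
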