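import Cfsg.Statements.S0802
import Cfsg.Agent.Lib.helper12.DkKlein2
-- import your own Cfsg.Agent.* helpers here

set_option autoImplicit false
open Cfsg

namespace Cfsg.Agent.S0802

open Cfsg.Agent.Lib.helper12
open scoped MatrixGroups

/-- PSL_2(p^n) has a subgroup isomorphic to A_4 if and only if it is not the case that p = 2 and n is odd. -/
theorem result {F : Type*} [Field F] [Fintype F] (p n : ℕ) [Fact p.Prime] [CharP F p] (hF : Fintype.card F = p ^ n) : (∃ H : Subgroup (Matrix.ProjectiveSpecialLinearGroup (Fin 2) F), Nonempty (H ≃* alternatingGroup (Fin 4))) ↔ ¬ (p = 2 ∧ Odd n) := by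
  classical
  have hpp : p.Prime := Fact.out
  constructor
  · rintro ⟨H, ⟨e⟩⟩ ⟨hp2, hn⟩
    subst hp2
    have h2 : (2 : F) = 0 := by
      have := CharP.cast_eq_zero F 2
      exact_mod_cast this
    have h3 := PSL2_char_two_A4 h2 H e
    rw [hF] at h3
    obtain ⟨k, rfl⟩ := hn
    have hcop : Nat.Coprime 3 (2 ^ (2 * k + 1)) := Nat.Coprime.pow_right _ (by norm_num)
    have h4 := hcop.dvd_of_dvd_mul_left h3
    have h5 : 2 ^ (2 * k + 1) % 3 = 2 := by
      rw [pow_succ, pow_mul, Nat.mul_mod, Nat.pow_mod]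
      norm_num
    have h6 : 1 ≤ 2 ^ (2 * k + 1) := Nat.one_le_two_pow
    generalize 2 ^ (2 * k + 1) = Q at h4 h5 h6
    omega
  · intro hne
    by_cases h2 : (2 : F) = 0
    · have hp2 : p = 2 := by
        have h2' : CharP F 2 := CharTwo.of_one_ne_zero_of_two_eq_zero one_ne_zero h2
        exact CharP.eq F ‹CharP F p› h2'
      subst hp2
      have hev : Even n := by
        rcases Nat.even_or_odd n with h | h
        · exact h
        · exact absurd ⟨rfl, h⟩ hne
      obtain ⟨m, rfl⟩ := hev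
      haveI : Fintype (GaloisField 2 2) := Fintype.ofFinite _
      have hK : Fintype.card (GaloisField 2 2) = 4 := by
        rw [← Nat.card_eq_fintype_card, GaloisField.card 2 2 (by norm_num)]
        norm_num
      obtain ⟨ι⟩ := exists_ringHom_of_card_pow (K := GaloisField 2 2) (F := F) m
        (by rw [hK, hF, ← two_mul, pow_mul]; norm_num)
      obtain ⟨H₀, ⟨e₀⟩⟩ := exists_PSL2_subfield ι
      obtain ⟨L, ⟨eL⟩⟩ := PSL2_four_exists_A4 hK
      obtain ⟨H', -, ⟨e'⟩⟩ := exists_subgroup_iso_of_iso H₀ e₀ L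
      exact ⟨H', ⟨e'.trans eL⟩⟩
    · exact PSL2_exists_A4_odd h2

end Cfsg.Agent.S0802
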