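import Cfsg.Statements.S0803
import Cfsg.Agent.Lib.helper12.DkKlein2
-- import your own Cfsg.Agent.* helpers here

set_option autoImplicit false
open Cfsg

namespace Cfsg.Agent.S0803

open Cfsg.Agent.Lib.helper12
open scoped MatrixGroups

/-- PSL_2(q) has a subgroup isomorphic to S_4 iff q² ≡ 1 (mod 16). -/
theorem result {F : Type*} [Field F] [Fintype F] {q : ℕ} (hF : Fintype.card F = q) : (∃ H : Subgroup (Matrix.ProjectiveSpecialLinearGroup (Fin 2) F), Nonempty (H ≃* Equiv.Perm (Fin 4))) ↔ q ^ 2 % 16 = 1 := by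
  classical
  subst hF
  rcases card_parity_cases (F := F) with ⟨h2, hodd, -⟩ | ⟨h2, heven, -⟩
  · rw [← PSL2_eight_dvd_iff hodd]
    constructor
    · rintro ⟨H, ⟨e⟩⟩
      have h1 : Nat.card H = 24 := by rw [Nat.card_congr e.toEquiv, card_perm4]
      have h2' := Subgroup.card_subgroup_dvd_card H
      rw [h1] at h2'
      exact Dvd.dvd.trans (by norm_num) h2'
    · intro h8
      obtain ⟨H, -, h⟩ := PSL2_exists_S4 h2 h8
      exact ⟨H, h⟩
  · constructor
    · rintro ⟨H, ⟨e⟩⟩
      exfalso
      have hy4 : (e.symm (finRotate 4)) ^ 4 = 1 := by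
        rw [← map_pow]
        have : (finRotate 4) ^ 4 = (1 : Equiv.Perm (Fin 4)) := by decide
        rw [this, map_one]
      have hy4' : ((e.symm (finRotate 4) : H) : PSL(2, F)) ^ 4 = 1 := by
        have := congrArg Subtype.val hy4
        simpa using this
      have hy2 := PSL2_char_two_pow_four h2 _ hy4'
      have hy2' : (e.symm (finRotate 4)) ^ 2 = 1 := Subtype.ext (by simpa using hy2)
      rw [← map_pow] at hy2'
      have h3 : (finRotate 4) ^ 2 = (1 : Equiv.Perm (Fin 4)) := by
        have := congrArg e hy2'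
        simpa using this
      revert h3
      decide
    · intro h
      exfalso
      have : Fintype.card F ^ 2 % 2 = 0 := by rw [Nat.pow_mod, heven]
      omega

end Cfsg.Agent.S0803
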