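import Cfsg.Statements.S0804
import Cfsg.Agent.Lib.helper12.DkA5
-- import your own Cfsg.Agent.* helpers here

set_option autoImplicit false
open Cfsg

namespace Cfsg.Agent.S0804

open Cfsg.Agent.Lib.helper12
open scoped MatrixGroups

/-- PSL_2(q) has a subgroup isomorphic to A_5 iff 5 ∣ q(q² − 1). -/
theorem result {F : Type*} [Field F] [Fintype F] {q : ℕ} (hF : Fintype.card F = q) : (∃ H : Subgroup (Matrix.ProjectiveSpecialLinearGroup (Fin 2) F), Nonempty (H ≃* alternatingGroup (Fin 5))) ↔ 5 ∣ q * (q ^ 2 - 1) := by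
  classical
  subst hF
  constructor
  · rintro ⟨H, ⟨e⟩⟩
    have h1 : Nat.card H = 60 := by rw [Nat.card_congr e.toEquiv, card_alt5]
    have h2 := Subgroup.card_subgroup_dvd_card H
    rw [h1] at h2
    rw [← card_PSL2_gen]
    exact Dvd.dvd.mul_left (Dvd.dvd.trans (by norm_num) h2) _
  · exact PSL2_exists_A5

end Cfsg.Agent.S0804
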