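import Cfsg.Statements.S0805
import Cfsg.Agent.Lib.helper12.DkSubf
-- import your own Cfsg.Agent.* helpers here

set_option autoImplicit false
open Cfsg

namespace Cfsg.Agent.S0805

open Cfsg.Agent.Lib.helper12
open scoped MatrixGroups

/-- Subfield subgroups: let F be a finite field of odd order q and K a finite field with |K|^m = q, m ≥ 1. Then PSL_2(F) has a subgroup isomorphic to PSL_2(K), and has a subgroup isomorphic to PGL_2(K) if and only if m is even. -/
theorem result {F K : Type*} [Field F] [Fintype F] [Field K] [Fintype K] {q : ℕ} (hF : Fintype.card F = q) (hodd : Odd q) (m : ℕ) (hm : 1 ≤ m) (hK : Fintype.card K ^ m = q) : (∃ H : Subgroup (Matrix.ProjectiveSpecialLinearGroup (Fin 2) F), Nonempty (H ≃* Matrix.ProjectiveSpecialLinearGroup (Fin 2) K)) ∧ ((∃ H : Subgroup (Matrix.ProjectiveSpecialLinearGroup (Fin 2) F), Nonempty (H ≃* Matrix.ProjGenLinGroup (Fin 2) K)) ↔ Even m) := by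
  classical
  have hm0 : m ≠ 0 := by omega
  obtain ⟨ι⟩ := exists_ringHom_of_card_pow (K := K) (F := F) m (by rw [hK, hF])
  have hoddF : Odd (Fintype.card F) := by rw [hF]; exact hodd
  refine ⟨exists_PSL2_subfield ι, ?_, ?_⟩
  · rintro ⟨H, ⟨e⟩⟩
    by_contra hev
    have hmodd : Odd m := Nat.not_even_iff_odd.1 hev
    have hcardH : Nat.card H = Fintype.card K * (Fintype.card K ^ 2 - 1) := by
      rw [Nat.card_congr e.toEquiv, card_PGL2]
    have hdvd := Subgroup.card_subgroup_dvd_card H
    have hG := card_PSL2_gen (F := F)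
    have hgcd : Nat.gcd 2 (Fintype.card F - 1) = 2 := by
      rcases card_parity_cases (F := F) with ⟨-, -, h⟩ | ⟨-, h, -⟩
      · exact h
      · exact absurd (Nat.even_iff.2 h) (Nat.not_even_iff_odd.2 hoddF)
    rw [hgcd, hF] at hG
    obtain ⟨k, hk⟩ : ∃ k, k = Fintype.card K := ⟨_, rfl⟩
    rw [← hk] at hcardH hK
    have hk2 : 2 ≤ k := by rw [hk]; exact Fintype.one_lt_card
    obtain ⟨A, hA⟩ : ∃ A, k ^ 2 = A + 1 := ⟨k ^ 2 - 1, by
      have : 1 ≤ k ^ 2 := Nat.one_le_pow _ _ (by omega)
      omega⟩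
    have hA0 : 0 < A := by nlinarith
    rw [hA, Nat.add_sub_cancel] at hcardH
    have hS := geom_sum_mul_add A m
    rw [← hA, ← pow_mul, mul_comm 2 m, pow_mul, hK] at hS
    obtain ⟨S, hSdef⟩ : ∃ S, S = ∑ i ∈ Finset.range m, (k ^ 2) ^ i := ⟨_, rfl⟩
    rw [← hSdef] at hS
    have hSodd : Odd S := by
      rw [hSdef, Finset.odd_sum_iff_odd_card_odd]
      have hfil : Finset.filter (fun i => Odd ((k ^ 2) ^ i)) (Finset.range m) = Finset.range m := by
        apply Finset.filter_true_of_mem
        intro i _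
        apply Odd.pow
        apply Odd.pow
        have : Odd (k ^ m) := by rw [hK]; exact hodd
        exact (Nat.odd_pow_iff hm0).1 this
      rw [hfil, Finset.card_range]
      exact hmodd
    have h1 : 2 * (k * A) ∣ q * (S * A) := by
      have e1 : q ^ 2 - 1 = S * A := by omega
      rw [← e1, ← hG, ← hcardH]
      exact Nat.mul_dvd_mul_left 2 hdvd
    have h2 : 2 * k * A ∣ q * S * A := by
      rw [mul_assoc, mul_assoc]
      exact h1
    have h3 : 2 * k ∣ q * S := Nat.dvd_of_mul_dvd_mul_right hA0 h2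
    have h4 : 2 ∣ q * S := dvd_trans (dvd_mul_right 2 k) h3
    exact (Nat.not_even_iff_odd.2 (hodd.mul hSodd)) (even_iff_two_dvd.2 h4)
  · intro hev
    exact exists_PGL2_subfield ι
      (exists_sq_of_even ι hoddF m (by rw [hK, hF]) hev)

end Cfsg.Agent.S0805
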