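import Cfsg.Statements.S0806
import Cfsg.Agent.Lib.helper12.DkOrd
-- import your own Cfsg.Agent.* helpers here

set_option autoImplicit false
open Cfsg

namespace Cfsg.Agent.S0806

open Cfsg.Agent.Lib.helper12
open scoped MatrixGroups

/-- Minimal index (Galois): if q ∉ {2, 3, 5, 7, 9, 11} then every proper subgroup of PSL_2(q) has index ≥ q + 1, and some subgroup has index exactly q + 1. -/
theorem result {F : Type*} [Field F] [Fintype F] {q : ℕ} (hF : Fintype.card F = q) (hq : q ∉ ({2, 3, 5, 7, 9, 11} : Finset ℕ)) : (∀ H : Subgroup (Matrix.ProjectiveSpecialLinearGroup (Fin 2) F), H ≠ ⊤ → q + 1 ≤ H.index) ∧ ∃ H : Subgroup (Matrix.ProjectiveSpecialLinearGroup (Fin 2) F), H.index = q + 1 := by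
  classical
  obtain ⟨p, hp⟩ := CharP.exists F
  haveI := hp
  haveI : Fact p.Prime := ⟨CharP.char_is_prime F p⟩
  have hq2 : 2 ≤ Fintype.card F := Fintype.one_lt_card
  have hG := card_PSL2_gen (F := F)
  have hd : Nat.gcd 2 (Fintype.card F - 1) = 1 ∨ Nat.gcd 2 (Fintype.card F - 1) = 2 := by
    rcases card_parity_cases (F := F) with ⟨-, -, h⟩ | ⟨-, -, h⟩ <;> simp [h]
  rw [hF] at hq2 hG hd
  have hq4 : 4 ≤ q := by
    simp only [Finset.mem_insert, Finset.mem_singleton, not_or] at hq
    omega
  have key : ∀ H : Subgroup PSL(2, F), Nat.gcd 2 (q - 1) * Nat.card H < q ^ 2 - 1 →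
      q + 1 ≤ H.index := by
    intro H hlt
    by_contra hcon
    push Not at hcon
    have h1 := Subgroup.card_mul_index H
    have h2 : Nat.gcd 2 (q - 1) * Nat.card H * H.index = q * (q ^ 2 - 1) := by
      rw [mul_assoc, h1, hG]
    have h3 : Nat.gcd 2 (q - 1) * Nat.card H * H.index ≤ Nat.gcd 2 (q - 1) * Nat.card H * q :=
      Nat.mul_le_mul_left _ (by omega)
    have h4 : q * (q ^ 2 - 1) ≤ q * (Nat.gcd 2 (q - 1) * Nat.card H) := by
      rw [← h2, mul_comm q]; exact h3
    have h5 := Nat.le_of_mul_le_mul_left h4 (by omega)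
    omega
  have hqq : 4 * q ≤ q ^ 2 := by nlinarith
  constructor
  · intro H hH
    have hlt : Nat.card H < Nat.card PSL(2, F) := by
      have hle := Subgroup.card_le_card_group H
      rcases lt_or_eq_of_le hle with h | h
      · exact h
      · exact absurd (Subgroup.eq_top_of_card_eq H h) hH
    have small : ∀ c, Nat.card H = c → (c = 12 ∨ c = 24 ∨ c = 60) → q + 1 ≤ H.index := by
      intro c hc hc'
      by_cases hq12 : 12 ≤ q
      · apply key
        rw [hc]
        have : 144 ≤ q ^ 2 := by nlinarith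
        have : Nat.gcd 2 (q - 1) * c ≤ 2 * 60 := Nat.mul_le_mul (by omega) (by omega)
        omega
      · have hq' : q = 4 ∨ q = 6 ∨ q = 8 ∨ q = 10 := by
          simp only [Finset.mem_insert, Finset.mem_singleton, not_or] at hq
          omega
        have hdvd := Subgroup.card_subgroup_dvd_card H
        rw [hc] at hdvd hlt
        rcases hq' with rfl | rfl | rfl | rfl <;>
          simp only [Nat.reduceSub, Nat.reducePow, Nat.reduceMul, Nat.reduceGcd, one_mul] at hG <;>
          rw [hG] at hdvd hlt <;>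
          rcases hc' with rfl | rfl | rfl <;>
          first
            | (apply key; rw [hc]; norm_num; done)
            | (exfalso; norm_num at hdvd; done)
            | (exfalso; omega)
    rcases dk_final p H with ⟨k, hk, h⟩ | ⟨P, K, hK, ⟨f⟩⟩ | ⟨⟨f⟩⟩ | ⟨⟨f⟩⟩ | ⟨⟨f⟩⟩ |
      ⟨K, iK, iF, m, hm, h⟩
    · rw [hF] at hk
      apply key
      have hk' : Nat.gcd 2 (q - 1) * k ≤ q + 1 := by
        rcases hk with hk | hk
        · have := Nat.le_of_dvd (Nat.div_pos (by omega) (by omega)) hk
          calc Nat.gcd 2 (q - 1) * k ≤ Nat.gcd 2 (q - 1) * ((q + 1) / Nat.gcd 2 (q - 1)) :=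
                Nat.mul_le_mul_left _ this
            _ ≤ q + 1 := Nat.mul_div_le _ _
        · have := Nat.le_of_dvd (Nat.div_pos (by omega) (by omega)) hk
          calc Nat.gcd 2 (q - 1) * k ≤ Nat.gcd 2 (q - 1) * ((q - 1) / Nat.gcd 2 (q - 1)) :=
                Nat.mul_le_mul_left _ this
            _ ≤ q - 1 := Nat.mul_div_le _ _
            _ ≤ q + 1 := by omega
      have hcard : Nat.card H ≤ 2 * k := by
        rcases h with ⟨-, hc⟩ | ⟨⟨f⟩⟩
        · omega
        · rw [Nat.card_congr f.toEquiv, DihedralGroup.nat_card]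
      have h1 : Nat.gcd 2 (q - 1) * Nat.card H ≤ 2 * (q + 1) := by
        calc Nat.gcd 2 (q - 1) * Nat.card H ≤ Nat.gcd 2 (q - 1) * (2 * k) :=
              Nat.mul_le_mul_left _ hcard
          _ = 2 * (Nat.gcd 2 (q - 1) * k) := by ring
          _ ≤ 2 * (q + 1) := Nat.mul_le_mul_left _ hk'
      omega
    · apply key
      have h1 : Nat.card H = Nat.card K := Nat.card_congr f.toEquiv
      have h2 : Nat.card K ≤ Nat.card (Subgroup.normalizer
          ((P : Subgroup PSL(2, F)) : Set PSL(2, F))) := Subgroup.card_le_of_le hK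
      have h3 := card_normalizer_sylow p P
      rw [hF] at h3
      have h4 : Nat.gcd 2 (q - 1) * Nat.card H ≤ q * (q - 1) := by
        rw [h1, ← h3]; exact Nat.mul_le_mul_left _ h2
      have h5 : q * (q - 1) + q = q ^ 2 := by
        obtain ⟨r, rfl⟩ : ∃ r, q = r + 1 := ⟨q - 1, by omega⟩
        simp only [Nat.add_sub_cancel]
        ring
      omega
    · exact small 12 (by rw [Nat.card_congr f.toEquiv]; exact card_alt4) (Or.inl rfl)
    · exact small 24 (by rw [Nat.card_congr f.toEquiv]; exact card_perm4) (Or.inr (Or.inl rfl))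
    · exact small 60 (by rw [Nat.card_congr f.toEquiv]; exact card_alt5) (Or.inr (Or.inr rfl))
    · rw [hF] at hm
      have hk2 : 2 ≤ Fintype.card K := Fintype.one_lt_card
      have hGK := card_PSL2_gen (F := K)
      have hPK := card_PGL2 K
      obtain ⟨k, hk⟩ : ∃ k, k = Fintype.card K := ⟨_, rfl⟩
      rw [← hk] at hm hk2 hGK hPK
      have hm0 : m ≠ 0 := by
        rintro rfl
        simp at hm
        omega
      by_cases hm1 : m = 1
      · exfalso
        subst hm1
        rw [pow_one] at hm
        subst hm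
        rcases h with ⟨⟨f⟩⟩ | ⟨⟨f⟩⟩
        · have h1 : Nat.card H = Nat.card PSL(2, K) := Nat.card_congr f.toEquiv
          have h2 : Nat.gcd 2 (k - 1) * Nat.card H = Nat.gcd 2 (k - 1) * Nat.card PSL(2, F) := by
            rw [h1, hGK, hG]
          have h3 := Nat.eq_of_mul_eq_mul_left (by omega) h2
          omega
        · have h1 : Nat.card H = Nat.card (Matrix.ProjGenLinGroup (Fin 2) K) :=
            Nat.card_congr f.toEquiv
          rw [hPK, ← hG] at h1
          have : Nat.card PSL(2, F) ≤ Nat.gcd 2 (k - 1) * Nat.card PSL(2, F) :=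
            Nat.le_mul_of_pos_left _ (by omega)
          omega
      · have hm2 : 2 ≤ m := by omega
        have hkq : k ^ 2 ≤ q := by
          rw [← hm]
          exact Nat.pow_le_pow_right (by omega) hm2
        obtain ⟨A, hA⟩ : ∃ A, k ^ 2 = A + 1 := ⟨k ^ 2 - 1, by
          have : 1 ≤ k ^ 2 := Nat.one_le_pow _ _ (by omega)
          omega⟩
        have h2k : 2 * k ≤ A + 1 := by rw [← hA]; nlinarith
        have hH : Nat.card H ≤ k * A := by
          rcases h with ⟨⟨f⟩⟩ | ⟨⟨f⟩⟩
          · have h1 : Nat.card H = Nat.card PSL(2, K) := Nat.card_congr f.toEquiv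
            rw [hA, Nat.add_sub_cancel] at hGK
            rw [h1, ← hGK]
            exact Nat.le_mul_of_pos_left _ (Nat.gcd_pos_of_pos_left _ (by norm_num))
          · have h1 : Nat.card H = Nat.card (Matrix.ProjGenLinGroup (Fin 2) K) :=
              Nat.card_congr f.toEquiv
            rw [hA, Nat.add_sub_cancel] at hPK
            rw [h1, hPK]
        apply key
        have h1 : Nat.gcd 2 (q - 1) * Nat.card H ≤ 2 * (k * A) := Nat.mul_le_mul (by omega) hH
        have h2 : 2 * k * A ≤ (A + 1) * A := Nat.mul_le_mul_right A h2k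
        have h3 : (A + 1) * (A + 1) ≤ q * q := Nat.mul_le_mul (by omega) (by omega)
        have hA1 : 1 ≤ A := by nlinarith
        have h4 : q ^ 2 = q * q := sq q
        have e1 : (A + 1) * A = A * A + A := by ring
        have e2 : (A + 1) * (A + 1) = A * A + 2 * A + 1 := by ring
        have e3 : 2 * k * A = 2 * (k * A) := by ring
        rw [e1, e3] at h2
        rw [e2] at h3
        rw [h4]
        omega
  · refine ⟨Subgroup.normalizer ((Mq (QuotientGroup.mk (uS (1 : F)) : PSL(2, F))) :
      Set PSL(2, F)), ?_⟩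
    have h1 := card_normalizer_uS (F := F) (a := 1) one_ne_zero
    have h2 := Subgroup.card_mul_index (Subgroup.normalizer
      ((Mq (QuotientGroup.mk (uS (1 : F)) : PSL(2, F))) : Set PSL(2, F)))
    rw [hF] at h1
    have h3 : q * (q - 1) * (Subgroup.normalizer ((Mq (QuotientGroup.mk (uS (1 : F)) :
        PSL(2, F))) : Set PSL(2, F))).index = q * (q - 1) * (q + 1) := by
      calc q * (q - 1) * (Subgroup.normalizer ((Mq (QuotientGroup.mk (uS (1 : F)) :
            PSL(2, F))) : Set PSL(2, F))).index
          = Nat.gcd 2 (q - 1) * (Nat.card (Subgroup.normalizer ((Mq (QuotientGroup.mk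
              (uS (1 : F)) : PSL(2, F))) : Set PSL(2, F))) * (Subgroup.normalizer
              ((Mq (QuotientGroup.mk (uS (1 : F)) : PSL(2, F))) : Set PSL(2, F))).index) := by
            rw [← h1, mul_assoc]
        _ = q * (q ^ 2 - 1) := by rw [h2, hG]
        _ = q * (q - 1) * (q + 1) := by
            obtain ⟨r, rfl⟩ : ∃ r, q = r + 1 := ⟨q - 1, by omega⟩
            have e : (r + 1) ^ 2 - 1 = r * (r + 2) := by
              have : (r + 1) ^ 2 = r * (r + 2) + 1 := by ring
              omega
            rw [e]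
            simp only [Nat.add_sub_cancel]
            ring
    exact Nat.eq_of_mul_eq_mul_left (Nat.mul_pos (by omega) (by omega)) h3

end Cfsg.Agent.S0806
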