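import Cfsg.Statements.S0808
import Cfsg.Agent.Lib.helper12.PSL2KleinCls
-- import your own Cfsg.Agent.* helpers here

set_option autoImplicit false
open Cfsg

namespace Cfsg.Agent.S0808

open Cfsg.Agent.Lib.helper12

/-- Conjugacy classes of four-groups in PSL_2(q), q odd: if q ≡ 3 or 5 (mod 8) all Klein four-subgroups are conjugate; if q ≡ 1 or 7 (mod 8) there are two Klein four-subgroups which are not conjugate, and every Klein four-subgroup is conjugate to one of them. -/
theorem result {F : Type*} [Field F] [Fintype F] {q : ℕ} (hF : Fintype.card F = q) (hodd : Odd q) : ((q % 8 = 3 ∨ q % 8 = 5) → ∀ V W : Subgroup (Matrix.ProjectiveSpecialLinearGroup (Fin 2) F), IsKleinFour V → IsKleinFour W → ∃ g : Matrix.ProjectiveSpecialLinearGroup (Fin 2) F, W = V.map (MulAut.conj g).toMonoidHom) ∧ ((q % 8 = 1 ∨ q % 8 = 7) → ∃ V₁ V₂ : Subgroup (Matrix.ProjectiveSpecialLinearGroup (Fin 2) F), IsKleinFour V₁ ∧ IsKleinFour V₂ ∧ (¬ ∃ g : Matrix.ProjectiveSpecialLinearGroup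 (Fin 2) F, V₂ = V₁.map (MulAut.conj g).toMonoidHom) ∧ ∀ W : Subgroup (Matrix.ProjectiveSpecialLinearGroup (Fin 2) F), IsKleinFour W → (∃ g : Matrix.ProjectiveSpecialLinearGroup (Fin 2) F, W = V₁.map (MulAut.conj g).toMonoidHom) ∨ (∃ g : Matrix.ProjectiveSpecialLinearGroup (Fin 2) F, W = V₂.map (MulAut.conj g).toMonoidHom)) := by
  have hodd' : Fintype.card F % 2 = 1 := by rw [hF]; exact Nat.odd_iff.mp hodd
  have h2 : (2 : F) ≠ 0 := two_ne_zero_of_card_odd hodd'
  constructor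
  · intro hq V W hV hW
    apply conj_of_card_four_of_sylow _ V W hV.card_four hW.card_four
    intro P
    exact (PSL2_sylow_two_klein hF hq P).card_four
  · intro hq
    apply klein_two_classes (PSL2_klein_count h2) _
      (fun V hV => PSL2_card_normalizer_klein_le h2 V hV)
    have hc := card_PSL2_odd h2
    rw [hF] at hc
    have h16 : 16 ∣ q ^ 2 - 1 := by
      rcases hq with hq | hq
      · obtain ⟨k, hk⟩ : ∃ k, q = 8 * k + 1 := ⟨q / 8, by omega⟩
        have h3 : q ^ 2 = 16 * (4 * k ^ 2 + k) + 1 := by rw [hk]; ring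
        exact ⟨4 * k ^ 2 + k, by omega⟩
      · obtain ⟨k, hk⟩ : ∃ k, q = 8 * k + 7 := ⟨q / 8, by omega⟩
        have h3 : q ^ 2 = 16 * (4 * k ^ 2 + 7 * k + 3) + 1 := by rw [hk]; ring
        exact ⟨4 * k ^ 2 + 7 * k + 3, by omega⟩
    obtain ⟨m, hm⟩ := h16
    rw [hm] at hc
    have h4 : q * (16 * m) = 2 * (8 * (q * m)) := by ring
    exact ⟨q * m, by omega⟩

end Cfsg.Agent.S0808
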