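import Cfsg.Statements.S0809
import Cfsg.Agent.Lib.helper12.SL2Ord4
-- import your own Cfsg.Agent.* helpers here

set_option autoImplicit false
open Cfsg

namespace Cfsg.Agent.S0809

open Cfsg.Agent.Lib.helper12

/-- In SL_2(q), q odd: any two subgroups of order 4 are conjugate, and the normaliser of a subgroup of order 4 has order 2(q − 1) if q ≡ 1 (mod 4) and 2(q + 1) if q ≡ 3 (mod 4); consequently all involutions of PSL_2(q) are conjugate. -/
theorem result {F : Type*} [Field F] [Fintype F] {q : ℕ} (hF : Fintype.card F = q) (hodd : Odd q) (A : Subgroup (Matrix.SpecialLinearGroup (Fin 2) F)) (hA : Nat.card A = 4) : (∀ B : Subgroup (Matrix.SpecialLinearGroup (Fin 2) F), Nat.card B = 4 → ∃ g : Matrix.SpecialLinearGroup (Fin 2) F, B = A.map (MulAut.conj g).toMonoidHom) ∧ (q % 4 = 1 → Nat.card ↥(Subgroup.normalizer (A : Set (Matrix.SpecialLinearGroup (Fin 2) F))) = 2 * (q - 1)) ∧ (q % 4 = 3 → Nat.card ↥(Subgroup.normalizer (A : Set (Matrix.SpecialLinearGroup (Fin 2) F))) = 2 * (q + 1)) ∧ (∀ x y : Matrix.ProjectiveSpecialLinearGroup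 (Fin 2) F, orderOf x = 2 → orderOf y = 2 → IsConj x y) := by
  classical
  subst hF
  have hodd' : Fintype.card F % 2 = 1 := Nat.odd_iff.mp hodd
  have h2 : (2 : F) ≠ 0 := two_ne_zero_of_card_odd hodd'
  obtain ⟨g, hgA, htr, hAg, hggz, hg4, hord⟩ := SL2_order_four h2 A hA
  have h04 : (g : Matrix (Fin 2) (Fin 2) F).trace ^ 2 ≠ 4 := by
    rw [htr]
    intro h
    apply h2
    have h4 : (2 : F) * 2 = 0 := by linear_combination -h
    exact mul_self_eq_zero.mp h4
  have hN := SL2_card_normalizer_order_four h2 g hggz htr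
  rw [← hAg] at hN
  refine ⟨?_, ?_, ?_, ?_⟩
  · intro B hB
    obtain ⟨h, hhB, htrh, hBh, -, -, -⟩ := SL2_order_four h2 B hB
    have hconj : IsConj g h := SL2_isConj_of_trace_eq g h (by rw [htr, htrh]) h04
    obtain ⟨c, hc⟩ := isConj_iff.mp hconj
    refine ⟨c, ?_⟩
    rw [hBh, hAg, MonoidHom.map_zpowers]
    congr 1
    rw [← hc]
    rfl
  · intro hq
    rw [hN]
    have hsq : IsSquare (-1 : F) := by
      rw [FiniteField.isSquare_neg_one_iff]
      omega
    obtain ⟨a, ha⟩ := hsq
    have ha0 : a ≠ 0 := by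
      rintro rfl
      simp at ha
    have hinv : a⁻¹ = -a := by
      apply inv_eq_of_mul_eq_one_right
      linear_combination ha
    rw [card_centralizer_of_split g (Units.mk0 a ha0)]
    · rw [Units.val_mk0]
      intro h1
      apply h2
      linear_combination -h1 - ha
    · rw [Units.val_mk0, htr, hinv]
      ring
  · intro hq
    rw [hN]
    have hsq : ¬ IsSquare (-1 : F) := by
      rw [FiniteField.isSquare_neg_one_iff]
      omega
    rw [card_centralizer_of_elliptic g]
    intro r hr
    apply hsq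
    refine ⟨r, ?_⟩
    rw [htr] at hr
    linear_combination -hr
  · intro x y hx hy
    have hne : ∀ z : Matrix.ProjectiveSpecialLinearGroup (Fin 2) F, orderOf z = 2 →
        z ≠ 1 ∧ z * z = 1 := by
      intro z hz
      constructor
      · rintro rfl
        simp at hz
      · have := pow_orderOf_eq_one z
        rw [hz, pow_two] at this
        exact this
    exact PSL2_involutions_isConj h2 x y (hne x hx).1 (hne x hx).2 (hne y hy).1 (hne y hy).2

end Cfsg.Agent.S0809
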