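import Cfsg.Statements.S0810
import Cfsg.Agent.Lib.helper12.DkMinSimple
-- import your own Cfsg.Agent.* helpers here

set_option autoImplicit false
open Cfsg

namespace Cfsg.Agent.S0810

open Cfsg.Agent.Lib.helper12
open scoped MatrixGroups

/-- PSL_2(q) is minimal simple iff q is 2^r (r prime), 3^r (r an odd prime), a prime greater than 5 congruent to 2 or 3 mod 5, or 5. -/
theorem result {F : Type*} [Field F] [Fintype F] {q : ℕ} (hF : Fintype.card F = q) : Cfsg.IsMinimalSimple (Matrix.ProjectiveSpecialLinearGroup (Fin 2) F) ↔ ((∃ r : ℕ, r.Prime ∧ q = 2 ^ r) ∨ (∃ r : ℕ, r.Prime ∧ r ≠ 2 ∧ q = 3 ^ r) ∨ (q.Prime ∧ 5 < q ∧ (q % 5 = 2 ∨ q % 5 = 3)) ∨ q = 5) := by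
  classical
  subst hF
  obtain ⟨p, hp⟩ := CharP.exists F
  haveI := hp
  haveI : Fact p.Prime := ⟨CharP.char_is_prime F p⟩
  have hpp : p.Prime := Fact.out
  have hG := card_PSL2_gen (F := F)
  have hq2 : 2 ≤ Fintype.card F := Fintype.one_lt_card
  have hd : Nat.gcd 2 (Fintype.card F - 1) = 1 ∨ Nat.gcd 2 (Fintype.card F - 1) = 2 := by
    rcases card_parity_cases (F := F) with ⟨-, -, h⟩ | ⟨-, -, h⟩ <;> simp [h]
  constructor
  · rintro ⟨hsimple, hnc, hsolv⟩
    have hns : ¬ Group.IsSolvable PSL(2, F) := by
      intro h
      apply hnc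
      rw [isMulCommutative_iff]
      exact (IsSimpleGroup.comm_iff_isSolvable).mpr h
    have hq4 : 4 ≤ Fintype.card F := by
      by_contra hlt
      apply hns
      apply solv_of_card
      have hk : Fintype.card F = 2 ∨ Fintype.card F = 3 := by omega
      rcases hk with hk | hk
      · rw [hk] at hG
        left
        simpa using hG
      · rw [hk] at hG
        right; left
        simp only [Nat.reduceSub, Nat.reduceGcd, Nat.reducePow, Nat.reduceMul] at hG
        omega
    have hsub : ∀ (K : Type) [Field K] [Fintype K] (m : ℕ), 2 ≤ m →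
        Fintype.card K ^ m = Fintype.card F → Fintype.card K < 4 := by
      intro K _ _ m hm2 hm
      by_contra hK4
      rw [not_lt] at hK4
      obtain ⟨ι⟩ := exists_ringHom_of_card_pow (K := K) (F := F) m hm
      obtain ⟨H, ⟨e⟩⟩ := exists_PSL2_subfield ι
      have hHne : H ≠ ⊤ := by
        intro htop
        have h1 : Nat.card H = Nat.card PSL(2, K) := Nat.card_congr e.toEquiv
        rw [htop, Subgroup.card_top] at h1
        have hGK := card_PSL2_gen (F := K)
        rw [← h1] at hGK
        have hdK : 1 ≤ Nat.gcd 2 (Fintype.card K - 1) :=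
          Nat.gcd_pos_of_pos_left _ (by norm_num)
        have hkq : Fintype.card K ^ 2 ≤ Fintype.card F := by
          rw [← hm]
          exact Nat.pow_le_pow_right (by omega) hm2
        have hlt := subfield_card_lt (Fintype.card K) (Fintype.card F) (by omega) hkq
        have h3 : Nat.card PSL(2, F) ≤
            Nat.gcd 2 (Fintype.card K - 1) * Nat.card PSL(2, F) :=
          Nat.le_mul_of_pos_left _ hdK
        have h4 : Nat.gcd 2 (Fintype.card F - 1) * Nat.card PSL(2, F) ≤
            2 * Nat.card PSL(2, F) := Nat.mul_le_mul_right _ (by omega)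
        omega
      exact PSL2_not_solvable hK4 (solv_of_iso e.symm (hsolv H hHne))
    have hA5 : 5 ∣ Fintype.card F * (Fintype.card F ^ 2 - 1) →
        Nat.card PSL(2, F) ≤ 60 := by
      intro h5
      obtain ⟨H, ⟨e⟩⟩ := PSL2_exists_A5 h5
      by_contra hgt
      have hHne : H ≠ ⊤ := by
        intro htop
        have h1 : Nat.card H = 60 := by rw [Nat.card_congr e.toEquiv, card_alt5]
        rw [htop, Subgroup.card_top] at h1
        omega
      exact alt5_not_solvable (solv_of_iso e.symm (hsolv H hHne))
    obtain ⟨n, -, hn⟩ := FiniteField.card F p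
    have hn1 : 1 ≤ (n : ℕ) := n.pos
    by_cases hn1' : (n : ℕ) = 1
    · rw [hn1', pow_one] at hn
      rw [hn] at hq4 hA5 hG hd ⊢
      have hp5 : 5 ≤ p := by
        rcases Nat.lt_or_ge p 5 with h | h
        · exfalso
          have : p = 4 := by omega
          rw [this] at hpp
          exact absurd hpp (by norm_num)
        · exact h
      by_cases hp5' : p = 5
      · right; right; right
        exact hp5'
      · right; right; left
        have hp7 : 7 ≤ p := by
          rcases Nat.lt_or_ge p 7 with h | h
          · exfalso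
            have : p = 6 := by omega
            rw [this] at hpp
            exact absurd hpp (by norm_num)
          · exact h
        refine ⟨hpp, by omega, ?_⟩
        by_contra hmod
        have hp1 : 1 ≤ p ^ 2 := Nat.one_le_pow _ _ (by omega)
        have h5 : 5 ∣ p * (p ^ 2 - 1) := by
          have h0 : p % 5 ≠ 0 := by
            intro h0
            have h5p : 5 ∣ p := Nat.dvd_of_mod_eq_zero h0
            have := (Nat.prime_dvd_prime_iff_eq Nat.prime_five hpp).mp h5p
            omega
          have h14 : p % 5 = 1 ∨ p % 5 = 4 := by omega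
          have hsq : p ^ 2 % 5 = 1 := by
            rw [Nat.pow_mod]
            rcases h14 with h | h <;> rw [h]
          apply Dvd.dvd.mul_left
          omega
        have h60 := hA5 h5
        have h1 : 48 ≤ p ^ 2 - 1 := by
          have : 49 ≤ p ^ 2 := by nlinarith
          omega
        have h3 : 7 * 48 ≤ p * (p ^ 2 - 1) := Nat.mul_le_mul hp7 h1
        have h4 : Nat.gcd 2 (p - 1) * Nat.card PSL(2, F) ≤ 2 * Nat.card PSL(2, F) :=
          Nat.mul_le_mul_right _ (by omega)
        omega
    · have hn2 : 2 ≤ (n : ℕ) := by omega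
      obtain ⟨r, hr⟩ : ∃ r, r = Nat.minFac n := ⟨_, rfl⟩
      have hrp : r.Prime := by
        rw [hr]
        exact Nat.minFac_prime hn1'
      obtain ⟨m, hm⟩ : ∃ m, (n : ℕ) = r * m := by
        rw [hr]
        exact Nat.minFac_dvd n
      have hm0 : m ≠ 0 := by
        rintro rfl
        omega
      haveI : Fintype (GaloisField p m) := Fintype.ofFinite _
      have hK : Fintype.card (GaloisField p m) = p ^ m := by
        rw [← Nat.card_eq_fintype_card, GaloisField.card p m hm0]
      have hlt := hsub (GaloisField p m) r hrp.two_le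
        (by rw [hK, hn, hm, ← pow_mul, mul_comm])
      rw [hK] at hlt
      have hm1 : m = 1 := by
        by_contra hne
        have hm2 : 2 ≤ m := by omega
        have h1 : p ^ 2 ≤ p ^ m := Nat.pow_le_pow_right hpp.pos hm2
        have h2 : 4 ≤ p ^ 2 := by nlinarith [hpp.two_le]
        omega
      rw [hm1, pow_one] at hlt
      rw [hm1, mul_one] at hm
      rw [hm] at hn
      have hp23 : p = 2 ∨ p = 3 := by
        have := hpp.two_le
        omega
      rcases hp23 with rfl | rfl
      · left
        exact ⟨r, hrp, hn⟩
      · right; left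
        refine ⟨r, hrp, ?_, hn⟩
        rintro rfl
        rw [hn] at hA5 hG hd
        have h5 : 5 ∣ 3 ^ 2 * ((3 ^ 2) ^ 2 - 1) := by norm_num
        have := hA5 h5
        simp only [Nat.reducePow, Nat.reduceSub, Nat.reduceGcd, Nat.reduceMul] at hG
        omega
  · intro hq
    have hq4 : 4 ≤ Fintype.card F := by
      rcases hq with ⟨r, hr, h⟩ | ⟨r, hr, hr2, h⟩ | ⟨h, h5, -⟩ | h
      · rw [h]
        calc 4 = 2 ^ 2 := by norm_num
          _ ≤ 2 ^ r := Nat.pow_le_pow_right (by norm_num) hr.two_le
      · rw [h]
        calc 4 ≤ 3 ^ 2 := by norm_num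
          _ ≤ 3 ^ r := Nat.pow_le_pow_right (by norm_num) hr.two_le
      · omega
      · omega
    have hsimple := Matrix.ProjectiveSpecialLinearGroup.rank_two_simple (F := F)
      (by rw [Nat.card_eq_fintype_card]; exact hq4)
    refine ⟨hsimple, ?_, ?_⟩
    · intro hc
      exact PSL2_not_comm (isMulCommutative_iff.mp hc)
    · intro H hH
      have hlt : Nat.card H < Nat.card PSL(2, F) := by
        have hle := Subgroup.card_le_card_group H
        rcases lt_or_eq_of_le hle with h | h
        · exact h
        · exact absurd (Subgroup.eq_top_of_card_eq H h) hH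
      rcases dk_solv p H hH with h | ⟨⟨f⟩⟩ | ⟨K, iK, iF, m, hm2, hm, hK4⟩
      · exact h
      · exfalso
        have h60 : Nat.card H = 60 := by rw [Nat.card_congr f.toEquiv, card_alt5]
        have hdvd := Subgroup.card_subgroup_dvd_card H
        rw [h60] at hdvd hlt
        have h5 : 5 ∣ Fintype.card F * (Fintype.card F ^ 2 - 1) := by
          rw [← hG]
          exact Dvd.dvd.mul_left (dvd_trans (by norm_num) hdvd) _
        rcases hq with ⟨r, hr, h⟩ | ⟨r, hr, hr2, h⟩ | ⟨h, h5', hmod⟩ | h
        · rw [h] at h5 hG
          have hcop : Nat.Coprime 5 (2 ^ r) := Nat.Coprime.pow_right _ (by norm_num)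
          have h5'' := hcop.dvd_of_dvd_mul_left h5
          have h4r : (2 ^ r) ^ 2 = 4 ^ r := by
            rw [← pow_mul, mul_comm, pow_mul]
            norm_num
          rw [h4r] at h5'' hG
          have h1 : 1 ≤ 4 ^ r := Nat.one_le_pow _ _ (by norm_num)
          rcases Nat.even_or_odd r with he | ho
          · have hr2 : r = 2 := by
              rcases hr.eq_two_or_odd with h | h
              · exact h
              · exfalso
                rcases he with ⟨c, hc⟩
                omega
            subst hr2
            simp only [Nat.reducePow, Nat.reduceSub, Nat.reduceGcd, Nat.reduceMul,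
              one_mul] at hG
            omega
          · obtain ⟨c, rfl⟩ := ho
            have h4 := four_pow_mod_five_odd c
            generalize 4 ^ (2 * c + 1) = Q at h5'' h4 h1
            omega
        · rw [h] at h5
          have hcop : Nat.Coprime 5 (3 ^ r) := Nat.Coprime.pow_right _ (by norm_num)
          have h5'' := hcop.dvd_of_dvd_mul_left h5
          have h9r : (3 ^ r) ^ 2 = 9 ^ r := by
            rw [← pow_mul, mul_comm, pow_mul]
            norm_num
          rw [h9r] at h5''
          have h1 : 1 ≤ 9 ^ r := Nat.one_le_pow _ _ (by norm_num)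
          have hodd : r % 2 = 1 := by
            rcases hr.eq_two_or_odd with h | h
            · exact absurd h hr2
            · exact h
          obtain ⟨c, rfl⟩ : ∃ c, r = 2 * c + 1 := ⟨r / 2, by omega⟩
          have h94 : 9 ^ (2 * c + 1) % 5 = 4 := by
            rw [Nat.pow_mod]
            exact four_pow_mod_five_odd c
          generalize 9 ^ (2 * c + 1) = Q at h5'' h94 h1
          omega
        · have h0 : ¬ 5 ∣ Fintype.card F := by omega
          rcases (Nat.Prime.dvd_mul Nat.prime_five).mp h5 with h' | h'
          · exact h0 h'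
          · have hsq : Fintype.card F ^ 2 % 5 = 4 := by
              rw [Nat.pow_mod]
              rcases hmod with h | h <;> rw [h]
            have h1 : 1 ≤ Fintype.card F ^ 2 := Nat.one_le_pow _ _ (by omega)
            omega
        · rw [h] at hG
          simp only [Nat.reducePow, Nat.reduceSub, Nat.reduceGcd, Nat.reduceMul] at hG
          omega
      · exfalso
        rcases hq with ⟨r, hr, h⟩ | ⟨r, hr, hr2, h⟩ | ⟨h, h5', hmod⟩ | h
        · rw [h] at hm
          have := eq_of_pow_eq_prime_pow _ m 2 r Nat.prime_two hr hm2 hm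
          omega
        · rw [h] at hm
          have := eq_of_pow_eq_prime_pow _ m 3 r Nat.prime_three hr hm2 hm
          omega
        · have := (h.pow_eq_iff).mp hm
          omega
        · rw [h] at hm
          have := (Nat.prime_five.pow_eq_iff).mp hm
          omega

end Cfsg.Agent.S0810
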