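import Cfsg.Statements.S0811
import Cfsg.Agent.Lib.helper12.DkDih
import Cfsg.Agent.Lib.helper12.DkPGLOrd
-- import your own Cfsg.Agent.* helpers here

set_option autoImplicit false
open Cfsg

namespace Cfsg.Agent.S0811

open Cfsg.Agent.Lib.helper12
open scoped MatrixGroups

/-- For q ∉ {2, 7, 9}, PSL_2(q) has a maximal subgroup isomorphic to the dihedral group of order 2(q + 1)/d, d = gcd(2, q − 1). -/
theorem result {F : Type*} [Field F] [Fintype F] {q : ℕ} (hF : Fintype.card F = q) (hq : q ∉ ({2, 7, 9} : Finset ℕ)) : ∃ H : Subgroup (Matrix.ProjectiveSpecialLinearGroup (Fin 2) F), IsCoatom H ∧ Nonempty (H ≃* DihedralGroup ((q + 1) / Nat.gcd 2 (q - 1))) := by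
  classical
  obtain ⟨p, hp⟩ := CharP.exists F
  haveI := hp
  haveI : Fact p.Prime := ⟨CharP.char_is_prime F p⟩
  have hq2 : 2 ≤ Fintype.card F := Fintype.one_lt_card
  have hG := card_PSL2_gen (F := F)
  have hpar := card_parity_cases (F := F)
  obtain ⟨x, hx, hs, hcard, hord⟩ := exists_semi_plus (F := F) p
  obtain ⟨⟨e⟩, hDcard⟩ := normalizer_Mq_semi_dihedral x hx hs
  rw [hF] at hq2 hG hpar hcard
  simp only [Finset.mem_insert, Finset.mem_singleton, not_or] at hq
  obtain ⟨n, hn⟩ : ∃ n, n = Nat.card (Mq x) := ⟨_, rfl⟩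
  rw [← hn] at hcard hord hDcard
  have hdpos : 0 < Nat.gcd 2 (q - 1) := Nat.gcd_pos_of_pos_left _ (by norm_num)
  have hd2 : Nat.gcd 2 (q - 1) ≤ 2 := Nat.le_of_dvd (by norm_num) (Nat.gcd_dvd_left _ _)
  have hnq : n = (q + 1) / Nat.gcd 2 (q - 1) := by
    rw [← hcard]
    exact (Nat.mul_div_cancel_left n hdpos).symm
  refine ⟨Subgroup.normalizer ((Mq x : Subgroup PSL(2, F)) : Set PSL(2, F)), ?_,
    ⟨by rw [← hnq, hn]; exact e⟩⟩
  have hqq : q ^ 2 - 1 = (q - 1) * (q + 1) := by
    obtain ⟨s, rfl⟩ : ∃ s, q = s + 1 := ⟨q - 1, by omega⟩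
    simp only [Nat.add_sub_cancel]
    have : (s + 1) ^ 2 = s * (s + 1 + 1) + 1 := by ring
    omega
  apply coatom_of_card
  · intro htop
    rw [htop, Subgroup.card_top] at hDcard
    rw [hDcard, hqq] at hG
    have h1 : Nat.gcd 2 (q - 1) * (2 * n) = 2 * (q + 1) := by rw [← hcard]; ring
    rw [h1] at hG
    have h2 : 2 * (q + 1) = q * (q - 1) * (q + 1) := by rw [hG]; ring
    have h3 : 2 = q * (q - 1) := Nat.eq_of_mul_eq_mul_right (by omega) h2
    have h4 : q ≤ 2 := by
      by_contra hcon
      have : 3 * 2 ≤ q * (q - 1) := Nat.mul_le_mul (by omega) (by omega)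
      omega
    omega
  · intro H hDH hH
    have hdvd : Nat.card (Subgroup.normalizer ((Mq x : Subgroup PSL(2, F)) : Set PSL(2, F))) ∣
        Nat.card H := Subgroup.card_dvd_of_le hDH
    have hlt : Nat.card H < Nat.card PSL(2, F) := by
      have hle := Subgroup.card_le_card_group H
      rcases lt_or_eq_of_le hle with h | h
      · exact h
      · exact absurd (Subgroup.eq_top_of_card_eq H h) hH
    have hdvdG : Nat.card H ∣ Nat.card PSL(2, F) := Subgroup.card_subgroup_dvd_card H
    have small : ∀ c, Nat.card H = c → (c = 12 ∨ c = 24 ∨ c = 60) →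
        Nat.card H ≤ Nat.card (Subgroup.normalizer ((Mq x : Subgroup PSL(2, F)) :
          Set PSL(2, F))) := by
      intro c hc hc'
      rw [hDcard] at hdvd ⊢
      rw [hc] at hdvd hlt hdvdG ⊢
      by_cases hcn : c ≤ 2 * n
      · exact hcn
      · exfalso
        have hn15 : n ≤ 15 := by
          obtain ⟨t, ht⟩ := hdvd
          have ht2 : 2 ≤ t := by
            by_contra hcon
            have : t = 0 ∨ t = 1 := by omega
            rcases this with rfl | rfl <;> omega
          have : 2 * n * 2 ≤ 2 * n * t := Nat.mul_le_mul_left _ ht2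
          rcases hc' with rfl | rfl | rfl <;> omega
        have hq29 : q ≤ 29 := by
          have : Nat.gcd 2 (q - 1) * n ≤ 2 * 15 := Nat.mul_le_mul hd2 hn15
          omega
        have hMq : Nat.card (Mq x) = (q + 1) / Nat.gcd 2 (q - 1) := by rw [← hn, hnq]
        rw [hnq] at hdvd hDcard hcn
        clear hnq hcard hord hn15 e hn hqq
        haveI : Fact (Nat.Prime 3) := ⟨Nat.prime_three⟩
        haveI : Fact (Nat.Prime 5) := ⟨Nat.prime_five⟩
        interval_cases q <;>
          simp only [Nat.reduceSub, Nat.reduceGcd, Nat.reducePow, Nat.reduceMul, Nat.reduceAdd,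
            Nat.reduceDiv, one_mul] at hG hdvd hDcard hMq hcn <;>
          rcases hc' with rfl | rfl | rfl <;>
          first
            | omega
            | (refine absurd (dih_sylow_index x hx hs H hDH 3 1 le_rfl ?_ ?_) ?_
               · rw [hMq]; decide
               · rw [hc]; decide
               · rintro ⟨m, hm, hmr⟩
                 rw [hDcard, hc] at hm
                 omega)
            | (refine absurd (dih_sylow_index x hx hs H hDH 5 1 le_rfl ?_ ?_) ?_
               · rw [hMq]; decide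
               · rw [hc]; decide
               · rintro ⟨m, hm, hmr⟩
                 rw [hDcard, hc] at hm
                 omega)
    rcases dk_cases p H hH with ⟨k, hk, h⟩ | ⟨hb, -⟩ | ⟨h12, -⟩ | ⟨h24, -⟩ | ⟨h60, -⟩ |
      ⟨K', iK, iF, m', hm2, hm', h⟩
    · rw [hF] at hk
      rw [hDcard]
      have hk' : Nat.gcd 2 (q - 1) * k ≤ Nat.gcd 2 (q - 1) * n := by
        rw [hcard]
        rcases hk with hk | hk
        · exact Nat.le_of_dvd (by omega) hk
        · have := Nat.le_of_dvd (by omega) hk
          omega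
      have hkn : k ≤ n := Nat.le_of_mul_le_mul_left hk' hdpos
      have hcard' : Nat.card H ≤ 2 * k := by
        rcases h with ⟨-, hc⟩ | ⟨⟨f⟩⟩
        · omega
        · rw [Nat.card_congr f.toEquiv, DihedralGroup.nat_card]
      omega
    · exfalso
      rw [hF] at hb
      rw [hDcard] at hdvd
      have h1 : Nat.gcd 2 (q - 1) * (2 * n) ∣ q * (q - 1) :=
        dvd_trans (Nat.mul_dvd_mul_left _ hdvd) hb
      have h2 : Nat.gcd 2 (q - 1) * (2 * n) = 2 * (q + 1) := by rw [← hcard]; ring
      rw [h2] at h1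
      have h3 : q + 1 ∣ q * (q - 1) := dvd_trans (dvd_mul_left _ _) h1
      have hcop : Nat.Coprime (q + 1) q := by
        have : Nat.Coprime q (q + 1) := by simp
        exact this.symm
      have h4 : q + 1 ∣ q - 1 := hcop.dvd_of_dvd_mul_left h3
      have := Nat.le_of_dvd (by omega) h4
      omega
    · exact small 12 h12 (Or.inl rfl)
    · exact small 24 h24 (Or.inr (Or.inl rfl))
    · exact small 60 h60 (Or.inr (Or.inr rfl))
    · exfalso
      rw [hF] at hm'
      have hk2 : 2 ≤ Fintype.card K' := Fintype.one_lt_card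
      have hxD : x ∈ Subgroup.normalizer ((Mq x : Subgroup PSL(2, F)) : Set PSL(2, F)) :=
        Subgroup.le_normalizer (tiPart_Mq.mem x hx)
      have hle := dkd_orderOf_le (h.imp And.right And.right) (⟨x, hDH hxD⟩ : H)
      rw [Subgroup.orderOf_mk, hord] at hle
      have hkq : Fintype.card K' ^ 2 ≤ q := by
        rw [← hm']
        exact Nat.pow_le_pow_right (by omega) hm2
      obtain ⟨k', hk'⟩ : ∃ k', k' = Fintype.card K' := ⟨_, rfl⟩
      rw [← hk'] at hle hkq hk2 hm'
      have hkk : 2 * k' ≤ k' ^ 2 := by nlinarith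
      rcases hpar with ⟨-, hodd, hd⟩ | ⟨-, hev, hd⟩
      · rw [hd] at hcard
        have hk3 : k' ≤ 2 := by
          by_contra hcon
          have : 3 * k' ≤ k' ^ 2 := by nlinarith
          omega
        have hk2' : k' = 2 := by omega
        rw [hk2'] at hm'
        have : 2 ∣ q := by
          rw [← hm']
          exact dvd_pow_self 2 (by omega)
        omega
      · rw [hd, one_mul] at hcard
        omega

end Cfsg.Agent.S0811
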