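import Cfsg.Statements.S0812
import Cfsg.Agent.Lib.helper12.DkDih
import Cfsg.Agent.Lib.helper12.DkPGLOrd
-- import your own Cfsg.Agent.* helpers here

set_option autoImplicit false
open Cfsg

namespace Cfsg.Agent.S0812

open Cfsg.Agent.Lib.helper12
open scoped MatrixGroups

/-- For q ∉ {2, 3, 5, 7, 9, 11}, PSL_2(q) has a maximal subgroup isomorphic to the dihedral group of order 2(q − 1)/d, d = gcd(2, q − 1). -/
theorem result {F : Type*} [Field F] [Fintype F] {q : ℕ} (hF : Fintype.card F = q) (hq : q ∉ ({2, 3, 5, 7, 9, 11} : Finset ℕ)) : ∃ H : Subgroup (Matrix.ProjectiveSpecialLinearGroup (Fin 2) F), IsCoatom H ∧ Nonempty (H ≃* DihedralGroup ((q - 1) / Nat.gcd 2 (q - 1))) := by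
  classical
  obtain ⟨p, hp⟩ := CharP.exists F
  haveI := hp
  haveI : Fact p.Prime := ⟨CharP.char_is_prime F p⟩
  have hpp : p.Prime := Fact.out
  have hq2 : 2 ≤ Fintype.card F := Fintype.one_lt_card
  have hG := card_PSL2_gen (F := F)
  have hpar := card_parity_cases (F := F)
  simp only [Finset.mem_insert, Finset.mem_singleton, not_or] at hq
  have hq4 : 4 ≤ Fintype.card F := by rw [hF]; rw [hF] at hq2; omega
  obtain ⟨x, hx, hs, hcard, hord⟩ := exists_semi_minus (F := F) p hq4
  obtain ⟨⟨e⟩, hDcard⟩ := normalizer_Mq_semi_dihedral x hx hs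
  have hpndvd := char_not_dvd_card_sub_one (F := F) p
  rw [hF] at hq2 hG hpar hcard hq4 hpndvd
  obtain ⟨n, hn⟩ : ∃ n, n = Nat.card (Mq x) := ⟨_, rfl⟩
  rw [← hn] at hcard hord hDcard
  have hdpos : 0 < Nat.gcd 2 (q - 1) := Nat.gcd_pos_of_pos_left _ (by norm_num)
  have hd2 : Nat.gcd 2 (q - 1) ≤ 2 := Nat.le_of_dvd (by norm_num) (Nat.gcd_dvd_left _ _)
  have hnq : n = (q - 1) / Nat.gcd 2 (q - 1) := by
    have h := Nat.mul_div_cancel_left n hdpos
    rw [hcard] at h
    exact h.symm
  have hn3 : 3 ≤ n := by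
    rcases hpar with ⟨-, hodd, hd⟩ | ⟨-, hev, hd⟩
    · rw [hd] at hcard
      omega
    · rw [hd, one_mul] at hcard
      omega
  refine ⟨Subgroup.normalizer ((Mq x : Subgroup PSL(2, F)) : Set PSL(2, F)), ?_,
    ⟨by rw [← hnq, hn]; exact e⟩⟩
  have hqq : q ^ 2 - 1 = (q - 1) * (q + 1) := by
    obtain ⟨s, rfl⟩ : ∃ s, q = s + 1 := ⟨q - 1, by omega⟩
    simp only [Nat.add_sub_cancel]
    have : (s + 1) ^ 2 = s * (s + 1 + 1) + 1 := by ring
    omega
  have hxD : x ∈ Subgroup.normalizer ((Mq x : Subgroup PSL(2, F)) : Set PSL(2, F)) :=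
    Subgroup.le_normalizer (tiPart_Mq.mem x hx)
  apply coatom_of_card
  · intro htop
    rw [htop, Subgroup.card_top] at hDcard
    rw [hDcard, hqq] at hG
    have h1 : Nat.gcd 2 (q - 1) * (2 * n) = 2 * (q - 1) := by
      have : Nat.gcd 2 (q - 1) * (2 * n) = 2 * (Nat.gcd 2 (q - 1) * n) := by ring
      rw [this, hcard]
    rw [h1] at hG
    have h2 : 2 * (q - 1) = (q * (q + 1)) * (q - 1) := by rw [hG]; ring
    have h3 : 2 = q * (q + 1) := Nat.eq_of_mul_eq_mul_right (by omega) h2
    have : 4 * 5 ≤ q * (q + 1) := Nat.mul_le_mul (by omega) (by omega)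
    omega
  · intro H hDH hH
    have hdvd : Nat.card (Subgroup.normalizer ((Mq x : Subgroup PSL(2, F)) : Set PSL(2, F))) ∣
        Nat.card H := Subgroup.card_dvd_of_le hDH
    have hlt : Nat.card H < Nat.card PSL(2, F) := by
      have hle := Subgroup.card_le_card_group H
      rcases lt_or_eq_of_le hle with h | h
      · exact h
      · exact absurd (Subgroup.eq_top_of_card_eq H h) hH
    have hdvdG : Nat.card H ∣ Nat.card PSL(2, F) := Subgroup.card_subgroup_dvd_card H
    have small : ∀ c, Nat.card H = c → (c = 12 ∨ c = 24 ∨ c = 60) →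
        Nat.card H ≤ Nat.card (Subgroup.normalizer ((Mq x : Subgroup PSL(2, F)) :
          Set PSL(2, F))) := by
      intro c hc hc'
      rw [hDcard] at hdvd ⊢
      rw [hc] at hdvd hlt hdvdG ⊢
      by_cases hcn : c ≤ 2 * n
      · exact hcn
      · exfalso
        have hn15 : n ≤ 15 := by
          obtain ⟨t, ht⟩ := hdvd
          have ht2 : 2 ≤ t := by
            by_contra hcon
            have : t = 0 ∨ t = 1 := by omega
            rcases this with rfl | rfl <;> omega
          have : 2 * n * 2 ≤ 2 * n * t := Nat.mul_le_mul_left _ ht2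
          rcases hc' with rfl | rfl | rfl <;> omega
        have hq31 : q ≤ 31 := by
          have : Nat.gcd 2 (q - 1) * n ≤ 2 * 15 := Nat.mul_le_mul hd2 hn15
          omega
        have hMq : Nat.card (Mq x) = (q - 1) / Nat.gcd 2 (q - 1) := by rw [← hn, hnq]
        rw [hnq] at hdvd hDcard hcn
        clear hnq hcard hord hn15 e hn hqq hn3 hpndvd
        haveI : Fact (Nat.Prime 3) := ⟨Nat.prime_three⟩
        haveI : Fact (Nat.Prime 5) := ⟨Nat.prime_five⟩
        interval_cases q <;>
          simp only [Nat.reduceSub, Nat.reduceGcd, Nat.reducePow, Nat.reduceMul,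
            Nat.reduceDiv, one_mul] at hG hdvd hDcard hMq hcn <;>
          rcases hc' with rfl | rfl | rfl <;>
          first
            | omega
            | (refine absurd (dih_sylow_index x hx hs H hDH 3 1 le_rfl ?_ ?_) ?_
               · rw [hMq]; decide
               · rw [hc]; decide
               · rintro ⟨m, hm, hmr⟩
                 rw [hDcard, hc] at hm
                 omega)
            | (refine absurd (dih_sylow_index x hx hs H hDH 5 1 le_rfl ?_ ?_) ?_
               · rw [hMq]; decide
               · rw [hc]; decide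
               · rintro ⟨m, hm, hmr⟩
                 rw [hDcard, hc] at hm
                 omega)
    rcases dk_cases p H hH with ⟨k, hk, h⟩ | ⟨-, hcomm⟩ | ⟨h12, -⟩ | ⟨h24, -⟩ | ⟨h60, -⟩ |
      ⟨K', iK, iF, m', hm2, hm', h⟩
    · rw [hF] at hk
      rw [hDcard] at hdvd ⊢
      have hcard' : Nat.card H ∣ 2 * k := by
        rcases h with ⟨-, hc⟩ | ⟨⟨f⟩⟩
        · rw [hc]
          exact dvd_mul_left _ _
        · rw [Nat.card_congr f.toEquiv, DihedralGroup.nat_card]
      rcases hk with hk | hk
      · exfalso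
        have h1 : 2 * n ∣ 2 * k := dvd_trans hdvd hcard'
        have h2 : n ∣ k := Nat.dvd_of_mul_dvd_mul_left (by norm_num) h1
        have h3 : Nat.gcd 2 (q - 1) * n ∣ q + 1 :=
          dvd_trans (Nat.mul_dvd_mul_left _ h2) hk
        rw [hcard] at h3
        have h4 : q - 1 ∣ 2 := by
          have e1 : q + 1 = (q - 1) + 2 := by omega
          rw [e1] at h3
          exact (Nat.dvd_add_right (dvd_refl _)).1 h3
        have := Nat.le_of_dvd (by norm_num) h4
        omega
      · have hk' : Nat.gcd 2 (q - 1) * k ≤ Nat.gcd 2 (q - 1) * n := by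
          rw [hcard]
          exact Nat.le_of_dvd (by omega) hk
        have hkn : k ≤ n := Nat.le_of_mul_le_mul_left hk' hdpos
        have hkpos : 0 < k := by
          rcases Nat.eq_zero_or_pos k with h0 | h0
          · rw [h0, mul_zero] at hk
            have := Nat.eq_zero_of_zero_dvd hk
            omega
          · exact h0
        have := Nat.le_of_dvd (by omega) hcard'
        omega
    · exfalso
      obtain ⟨s, hsD, hsnot⟩ := exists_normalizer_not_mem x hx hs
      have hinv := (Mq_semi_normalizer x s hx hs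
        ((Subgroup.mem_normalizer_iff.1 hsD x).1 (tiPart_Mq.mem x hx)) hsnot).2 x
        (tiPart_Mq.mem x hx)
      have h1 := hcomm ⟨s, hDH hsD⟩ ⟨x, hDH hxD⟩
      have h2 : (s * x * s⁻¹ * x⁻¹) ^ p = 1 := by
        have := congrArg (fun z : H => (z : PSL(2, F))) h1
        simpa using this
      rw [hinv] at h2
      have h3 : x ^ (2 * p) = 1 := by
        have e1 : x⁻¹ * x⁻¹ = (x ^ 2)⁻¹ := by rw [sq, mul_inv_rev]
        rw [e1, inv_pow, inv_eq_one, ← pow_mul] at h2
        exact h2
      have h4 : n ∣ 2 * p := by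
        rw [← hord]
        exact orderOf_dvd_of_pow_eq_one h3
      have hcop : Nat.Coprime n p := by
        have h5 : Nat.Coprime p (q - 1) := (Nat.Prime.coprime_iff_not_dvd hpp).2 hpndvd
        have h6 : n ∣ q - 1 := by
          rw [← hcard]
          exact dvd_mul_left _ _
        exact (Nat.Coprime.coprime_dvd_right h6 h5).symm
      have h7 : n ∣ 2 := hcop.dvd_of_dvd_mul_right h4
      have := Nat.le_of_dvd (by norm_num) h7
      omega
    · exact small 12 h12 (Or.inl rfl)
    · exact small 24 h24 (Or.inr (Or.inl rfl))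
    · exact small 60 h60 (Or.inr (Or.inr rfl))
    · rw [hF] at hm'
      have hk2 : 2 ≤ Fintype.card K' := Fintype.one_lt_card
      have hle := dkd_orderOf_le (h.imp And.right And.right) (⟨x, hDH hxD⟩ : H)
      rw [Subgroup.orderOf_mk, hord] at hle
      have hkq : Fintype.card K' ^ 2 ≤ q := by
        rw [← hm']
        exact Nat.pow_le_pow_right (by omega) hm2
      obtain ⟨k', hk'⟩ : ∃ k', k' = Fintype.card K' := ⟨_, rfl⟩
      rw [← hk'] at hle hkq hk2 hm' h
      have hkk : 2 * k' ≤ k' ^ 2 := by nlinarith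
      rcases hpar with ⟨-, hodd, hd⟩ | ⟨-, hev, hd⟩
      · exfalso
        rw [hd] at hcard
        have hk3 : k' ≤ 3 := by
          by_contra hcon
          have : 4 * k' ≤ k' ^ 2 := by nlinarith
          omega
        have hk23 : k' = 2 ∨ k' = 3 := by omega
        rcases hk23 with hk2' | hk3'
        · rw [hk2'] at hm'
          have : 2 ∣ q := by
            rw [← hm']
            exact dvd_pow_self 2 (by omega)
          omega
        · rw [hk3'] at hkq hle
          omega
      · rw [hd, one_mul] at hcard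
        have hk3 : k' ≤ 2 := by
          by_contra hcon
          have : 3 * k' ≤ k' ^ 2 := by nlinarith
          omega
        have hk2' : k' = 2 := by omega
        rw [hk2'] at h hkq hle
        rw [hDcard]
        simp only [Nat.reduceSub, Nat.reduceGcd, Nat.reducePow, Nat.reduceMul, one_mul] at h hkq
        rcases h with ⟨hc, -⟩ | ⟨hc, -⟩ <;> omega

end Cfsg.Agent.S0812
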