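import Cfsg.Statements.S0819
-- import your own Cfsg.Agent.* helpers here
import Mathlib

set_option autoImplicit false
open Cfsg

namespace Cfsg.Agent.S0819

open Matrix

section Model

/-- addition in the model of the field with four elements. -/
def add4 (x y : Bool × Bool) : Bool × Bool := (xor x.1 y.1, xor x.2 y.2)

/-- multiplication in the model of the field with four elements. -/
def mul4 (x y : Bool × Bool) : Bool × Bool :=
  (xor (x.1 && y.1) (x.2 && y.2), xor (xor (x.1 && y.2) (x.2 && y.1)) (x.2 && y.2))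

/-- one step of the cubic recurrence in the model. -/
def step3K (a b : Bool × Bool) (v : (Bool × Bool) × (Bool × Bool) × (Bool × Bool)) :
    (Bool × Bool) × (Bool × Bool) × (Bool × Bool) :=
  (add4 (mul4 v.1 a) v.2.1, add4 (mul4 v.1 b) v.2.2, v.1)

/-- one step of the quadratic recurrence in the model. -/
def step2K (s t : Bool × Bool) (v : (Bool × Bool) × (Bool × Bool)) :
    (Bool × Bool) × (Bool × Bool) :=
  (add4 (mul4 v.1 s) v.2, mul4 v.1 t)

theorem chk1K : ∀ a b : Bool × Bool,
    ((step3K a b)^[15] ((false, false), (false, false), (true, false))).1 = (false, false) →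
    ((step3K a b)^[15] ((false, false), (false, false), (true, false))).2.1 = (false, false) →
    (((step3K a b)^[5] ((false, false), (false, false), (true, false))).1 = (false, false) ∧
      ((step3K a b)^[5] ((false, false), (false, false), (true, false))).2.1 = (false, false)) ∨
    (((step3K a b)^[3] ((false, false), (false, false), (true, false))).1 = (false, false) ∧
      ((step3K a b)^[3] ((false, false), (false, false), (true, false))).2.1 = (false, false)) := by
  decide

theorem chk2K : ∀ s t : Bool × Bool,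
    ((step2K s t)^[15] ((false, false), (true, false))).1 = (false, false) →
    ((step2K s t)^[15] ((false, false), (true, false))).2 ≠ (false, false) →
    ((step2K s t)^[5] ((false, false), (true, false))).1 = (false, false) ∨
    ((step2K s t)^[3] ((false, false), (true, false))).1 = (false, false) := by
  decide

end Model

section Transfer

variable {F : Type*} [Field F]

/-- one step of the cubic recurrence. -/
def step3F (a b : F) (v : F × F × F) : F × F × F := (v.1 * a + v.2.1, v.1 * b + v.2.2, v.1)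

/-- one step of the quadratic recurrence. -/
def step2F (s t : F) (v : F × F) : F × F := (v.1 * s + v.2, v.1 * t)

/-- bits to field elements. -/
def cB (F : Type*) [Field F] (b : Bool) : F := if b then 1 else 0

/-- the model embedding. -/
def emb (α : F) (x : Bool × Bool) : F := cB F x.1 + cB F x.2 * α

theorem cB_xor (h2 : (2 : F) = 0) (a b : Bool) : cB F (xor a b) = cB F a + cB F b := by
  cases a <;> cases b <;> simp [cB]
  linear_combination -h2

theorem cB_and (a b : Bool) : cB F (a && b) = cB F a * cB F b := by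
  cases a <;> cases b <;> simp [cB]

theorem emb_add (h2 : (2 : F) = 0) (α : F) (x y : Bool × Bool) :
    emb α (add4 x y) = emb α x + emb α y := by
  unfold emb add4
  simp only [cB_xor h2]
  ring

theorem emb_mul (h2 : (2 : F) = 0) (α : F) (hα : α * α = α + 1) (x y : Bool × Bool) :
    emb α (mul4 x y) = emb α x * emb α y := by
  unfold emb mul4
  simp only [cB_xor h2, cB_and]
  linear_combination (-(cB F x.2 * cB F y.2)) * hα

theorem emb_zero (α : F) : emb α (false, false) = 0 := by simp [emb, cB]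

theorem emb_one (α : F) : emb α (true, false) = 1 := by simp [emb, cB]

theorem emb_eq_zero (h2 : (2 : F) = 0) (α : F) (hα0 : α ≠ 0) (hα1 : α ≠ 1) (x : Bool × Bool)
    (hx : emb α x = 0) : x = (false, false) := by
  obtain ⟨x1, x2⟩ := x
  cases x1 <;> cases x2
  · rfl
  · exfalso; simp [emb, cB] at hx; exact hα0 hx
  · exfalso; simp [emb, cB] at hx
  · exfalso
    simp [emb, cB] at hx
    apply hα1
    linear_combination hx - h2

theorem emb_surj [Fintype F] (hF : Fintype.card F = 4) (h2 : (2 : F) = 0) (α : F) (hα0 : α ≠ 0)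
    (hα1 : α ≠ 1) : Function.Surjective (emb α) := by
  classical
  have hinj : Function.Injective (emb α) := by
    intro x y hxy
    have h1 : emb α (add4 x y) = 0 := by
      rw [emb_add h2, hxy]
      linear_combination (emb α y) * h2
    have h3 := emb_eq_zero h2 α hα0 hα1 _ h1
    obtain ⟨x1, x2⟩ := x
    obtain ⟨y1, y2⟩ := y
    revert h3
    cases x1 <;> cases x2 <;> cases y1 <;> cases y2 <;> simp [add4]
  exact ((Fintype.bijective_iff_injective_and_card _).mpr ⟨hinj, by rw [hF]; rfl⟩).2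

theorem emb_step3 (h2 : (2 : F) = 0) (α : F) (hα : α * α = α + 1) (a b : Bool × Bool) (k : ℕ) :
    ∀ v : (Bool × Bool) × (Bool × Bool) × (Bool × Bool),
      (step3F (emb α a) (emb α b))^[k] (emb α v.1, emb α v.2.1, emb α v.2.2)
        = (emb α ((step3K a b)^[k] v).1, emb α ((step3K a b)^[k] v).2.1,
            emb α ((step3K a b)^[k] v).2.2) := by
  induction k with
  | zero => intro v; rfl
  | succ k ih =>
    intro v
    rw [Function.iterate_succ_apply, Function.iterate_succ_apply, ← ih (step3K a b v)]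
    congr 1
    simp only [step3F, step3K, emb_add h2, emb_mul h2 α hα]

theorem emb_step2 (h2 : (2 : F) = 0) (α : F) (hα : α * α = α + 1) (s t : Bool × Bool) (k : ℕ) :
    ∀ v : (Bool × Bool) × (Bool × Bool),
      (step2F (emb α s) (emb α t))^[k] (emb α v.1, emb α v.2)
        = (emb α ((step2K s t)^[k] v).1, emb α ((step2K s t)^[k] v).2) := by
  induction k with
  | zero => intro v; rfl
  | succ k ih =>
    intro v
    rw [Function.iterate_succ_apply, Function.iterate_succ_apply, ← ih (step2K s t v)]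
    congr 1
    simp only [step2F, step2K, emb_add h2, emb_mul h2 α hα]

theorem exists_alpha [Fintype F] (hF : Fintype.card F = 4) :
    (2 : F) = 0 ∧ ∃ α : F, α ≠ 0 ∧ α ≠ 1 ∧ α * α = α + 1 := by
  classical
  have h20 : (2 : F) = 0 := by
    have h4 : ((Fintype.card F : ℕ) : F) = 0 := Nat.cast_card_eq_zero F
    rw [hF] at h4
    have h5 : (2 : F) * 2 = 0 := by
      rw [← h4]; norm_num
    exact mul_self_eq_zero.mp h5
  refine ⟨h20, ?_⟩
  obtain ⟨α, hα0, hα1⟩ : ∃ α : F, α ≠ 0 ∧ α ≠ 1 := by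
    by_contra hcon
    push Not at hcon
    have h1 : (Finset.univ : Finset F) ⊆ {0, 1} := by
      intro x _
      by_cases hx : x = 0
      · simp [hx]
      · simp [hcon x hx]
    have h2 := Finset.card_le_card h1
    rw [Finset.card_univ, hF] at h2
    have h3 := Finset.card_le_two (a := (0 : F)) (b := 1)
    omega
  refine ⟨α, hα0, hα1, ?_⟩
  have h3 : α ^ 3 = 1 := by
    have := FiniteField.pow_card_sub_one_eq_one α hα0
    rw [hF] at this
    exact this
  have h4 : (α - 1) * (α * α + α + 1) = 0 := by linear_combination h3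
  rcases mul_eq_zero.mp h4 with h | h
  · exact absurd (sub_eq_zero.mp h) hα1
  · linear_combination h - (α + 1) * h20

theorem chk1F [Fintype F] (hF : Fintype.card F = 4) (a b : F)
    (h1 : ((step3F a b)^[15] (0, 0, 1)).1 = 0) (h2 : ((step3F a b)^[15] (0, 0, 1)).2.1 = 0) :
    (((step3F a b)^[5] (0, 0, 1)).1 = 0 ∧ ((step3F a b)^[5] (0, 0, 1)).2.1 = 0) ∨
    (((step3F a b)^[3] (0, 0, 1)).1 = 0 ∧ ((step3F a b)^[3] (0, 0, 1)).2.1 = 0) := by
  obtain ⟨h20, α, hα0, hα1, hα⟩ := exists_alpha hF
  obtain ⟨a', rfl⟩ := emb_surj hF h20 α hα0 hα1 a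
  obtain ⟨b', rfl⟩ := emb_surj hF h20 α hα0 hα1 b
  have hv0 : ((0 : F), (0 : F), (1 : F)) = (emb α (false, false), emb α (false, false),
      emb α (true, false)) := by
    rw [emb_zero, emb_one]
  have key := fun k => emb_step3 h20 α hα a' b' k ((false, false), (false, false), (true, false))
  simp only [← hv0] at key
  rw [key] at h1 h2 ⊢
  rw [key]
  have e1 := emb_eq_zero h20 α hα0 hα1 _ h1
  have e2 := emb_eq_zero h20 α hα0 hα1 _ h2
  rcases chk1K a' b' e1 e2 with ⟨c1, c2⟩ | ⟨c1, c2⟩
  · left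
    exact ⟨by show emb α _ = 0; rw [c1, emb_zero], by show emb α _ = 0; rw [c2, emb_zero]⟩
  · right
    exact ⟨by show emb α _ = 0; rw [c1, emb_zero], by show emb α _ = 0; rw [c2, emb_zero]⟩

theorem chk2F [Fintype F] (hF : Fintype.card F = 4) (s t : F)
    (h1 : ((step2F s t)^[15] (0, 1)).1 = 0) (h2 : ((step2F s t)^[15] (0, 1)).2 ≠ 0) :
    ((step2F s t)^[5] (0, 1)).1 = 0 ∨ ((step2F s t)^[3] (0, 1)).1 = 0 := by
  obtain ⟨h20, α, hα0, hα1, hα⟩ := exists_alpha hF
  obtain ⟨s', rfl⟩ := emb_surj hF h20 α hα0 hα1 s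
  obtain ⟨t', rfl⟩ := emb_surj hF h20 α hα0 hα1 t
  have hv0 : ((0 : F), (1 : F)) = (emb α (false, false), emb α (true, false)) := by
    rw [emb_zero, emb_one]
  have key := fun k => emb_step2 h20 α hα s' t' k ((false, false), (true, false))
  simp only [← hv0] at key
  rw [key] at h1 h2 ⊢
  rw [key]
  have e1 := emb_eq_zero h20 α hα0 hα1 _ h1
  have e2 : ((step2K s' t')^[15] ((false, false), (true, false))).2 ≠ (false, false) := by
    intro h
    apply h2
    show emb α _ = 0
    rw [h, emb_zero]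
  rcases chk2K s' t' e1 e2 with c1 | c1
  · left
    show emb α _ = 0
    rw [c1, emb_zero]
  · right
    show emb α _ = 0
    rw [c1, emb_zero]

end Transfer

section Mat

variable {F : Type*} [Field F]

theorem cayley3 (M : Matrix (Fin 3) (Fin 3) F) (hdet : M.det = 1) :
    ∃ a b : F, M ^ 3 = a • M ^ 2 + b • M + 1 := by
  have h1 := Matrix.aeval_self_charpoly M
  rw [Polynomial.aeval_eq_sum_range] at h1
  have hdeg : M.charpoly.natDegree = 3 := by
    rw [Matrix.charpoly_natDegree_eq_dim]; rfl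
  rw [hdeg] at h1
  simp only [Finset.sum_range_succ, Finset.sum_range_zero, zero_add, pow_zero, pow_one] at h1
  have hlead : M.charpoly.coeff 3 = 1 := by
    have h2 := (Matrix.charpoly_monic M).coeff_natDegree
    rw [hdeg] at h2; exact h2
  have hc0 : M.charpoly.coeff 0 = -1 := by
    have h2 := Matrix.det_eq_sign_charpoly_coeff M
    rw [hdet] at h2
    simp only [Fintype.card_fin] at h2
    linear_combination h2
  refine ⟨-M.charpoly.coeff 2, -M.charpoly.coeff 1, ?_⟩
  rw [hlead, hc0] at h1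
  have h2 := eq_neg_of_add_eq_zero_right h1
  rw [one_smul] at h2
  rw [h2, neg_smul, neg_smul, neg_smul, one_smul]
  abel

theorem pow3 (M : Matrix (Fin 3) (Fin 3) F) (a b : F) (hCH : M ^ 3 = a • M ^ 2 + b • M + 1) (k : ℕ) :
    M ^ k = ((step3F a b)^[k] (0, 0, 1)).1 • M ^ 2 + ((step3F a b)^[k] (0, 0, 1)).2.1 • M
      + ((step3F a b)^[k] (0, 0, 1)).2.2 • (1 : Matrix (Fin 3) (Fin 3) F) := by
  induction k with
  | zero => simp
  | succ k ih =>
    rw [Function.iterate_succ_apply', pow_succ, ih]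
    obtain ⟨v, hv⟩ : ∃ v : F × F × F, v = (step3F a b)^[k] (0, 0, 1) := ⟨_, rfl⟩
    rw [← hv]
    show (v.1 • M ^ 2 + v.2.1 • M + v.2.2 • (1 : Matrix (Fin 3) (Fin 3) F)) * M
      = (v.1 * a + v.2.1) • M ^ 2 + (v.1 * b + v.2.2) • M + v.1 • (1 : Matrix (Fin 3) (Fin 3) F)
    have h1 : (v.1 • M ^ 2 + v.2.1 • M + v.2.2 • (1 : Matrix (Fin 3) (Fin 3) F)) * M
        = v.1 • M ^ 3 + v.2.1 • M ^ 2 + v.2.2 • M := by
      rw [add_mul, add_mul, smul_mul_assoc, smul_mul_assoc, smul_mul_assoc, Matrix.one_mul,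
        ← pow_succ, ← pow_two]
    rw [h1, hCH]
    module

theorem pow2 (M : Matrix (Fin 3) (Fin 3) F) (s t : F) (hM2 : M ^ 2 = s • M + t • 1) (k : ℕ) :
    M ^ k = ((step2F s t)^[k] (0, 1)).1 • M
      + ((step2F s t)^[k] (0, 1)).2 • (1 : Matrix (Fin 3) (Fin 3) F) := by
  induction k with
  | zero => simp
  | succ k ih =>
    rw [Function.iterate_succ_apply', pow_succ, ih]
    obtain ⟨v, hv⟩ : ∃ v : F × F, v = (step2F s t)^[k] (0, 1) := ⟨_, rfl⟩
    rw [← hv]
    show (v.1 • M + v.2 • (1 : Matrix (Fin 3) (Fin 3) F)) * M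
      = (v.1 * s + v.2) • M + (v.1 * t) • (1 : Matrix (Fin 3) (Fin 3) F)
    have h1 : (v.1 • M + v.2 • (1 : Matrix (Fin 3) (Fin 3) F)) * M = v.1 • M ^ 2 + v.2 • M := by
      rw [add_mul, smul_mul_assoc, smul_mul_assoc, Matrix.one_mul, ← pow_two]
    rw [h1, hM2]
    module

theorem scalar_pow (c : F) (k : ℕ) :
    (c • (1 : Matrix (Fin 3) (Fin 3) F)) ^ k = (c ^ k) • (1 : Matrix (Fin 3) (Fin 3) F) := by
  rw [smul_pow, one_pow]

theorem main_claim [Fintype F] (hF : Fintype.card F = 4) (M : Matrix (Fin 3) (Fin 3) F)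
    (hdet : M.det = 1) (ζ : F) (hζ : ζ ≠ 0) (h15 : M ^ 15 = ζ • (1 : Matrix (Fin 3) (Fin 3) F)) :
    (∃ c : F, M ^ 5 = c • (1 : Matrix (Fin 3) (Fin 3) F)) ∨
      (∃ c : F, M ^ 3 = c • (1 : Matrix (Fin 3) (Fin 3) F)) := by
  obtain ⟨a, b, hCH⟩ := cayley3 M hdet
  have hp := pow3 M a b hCH
  obtain ⟨p, q, s, hv⟩ : ∃ p q s, (step3F a b)^[15] (0, 0, 1) = (p, q, s) := ⟨_, _, _, rfl⟩
  have h1 := hp 15
  rw [hv, h15] at h1
  simp only at h1
  by_cases hp0 : p = 0
  · by_cases hq0 : q = 0
    · rcases chk1F hF a b (by rw [hv]; exact hp0) (by rw [hv]; exact hq0) with ⟨c1, c2⟩ | ⟨c1, c2⟩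
      · left
        refine ⟨((step3F a b)^[5] (0, 0, 1)).2.2, ?_⟩
        rw [hp 5, c1, c2, zero_smul, zero_smul, zero_add, zero_add]
      · right
        refine ⟨((step3F a b)^[3] (0, 0, 1)).2.2, ?_⟩
        rw [hp 3, c1, c2, zero_smul, zero_smul, zero_add, zero_add]
    · right
      have hM : M = ((ζ - s) / q) • (1 : Matrix (Fin 3) (Fin 3) F) := by
        rw [hp0, zero_smul, zero_add] at h1
        have h2 : q • M = (ζ - s) • (1 : Matrix (Fin 3) (Fin 3) F) := by
          rw [sub_smul, h1]; abel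
        calc M = q⁻¹ • (q • M) := by rw [inv_smul_smul₀ hq0]
          _ = _ := by rw [h2, smul_smul]; congr 1; field_simp
      refine ⟨((ζ - s) / q) ^ 3, ?_⟩
      rw [hM, scalar_pow]
  · have hM2 : M ^ 2 = (-q / p) • M + ((ζ - s) / p) • (1 : Matrix (Fin 3) (Fin 3) F) := by
      have h2 : p • M ^ 2 = (-q) • M + (ζ - s) • (1 : Matrix (Fin 3) (Fin 3) F) := by
        rw [sub_smul, h1, neg_smul]; abel
      calc M ^ 2 = p⁻¹ • (p • M ^ 2) := by rw [inv_smul_smul₀ hp0]
        _ = _ := by
          rw [h2, smul_add, smul_smul, smul_smul]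
          congr 2 <;> field_simp
    have hp2 := pow2 M _ _ hM2
    obtain ⟨A, B, hw⟩ : ∃ A B, (step2F (-q / p) ((ζ - s) / p))^[15] (0, 1) = (A, B) := ⟨_, _, rfl⟩
    have h2 := hp2 15
    rw [hw, h15] at h2
    simp only at h2
    by_cases hA0 : A = 0
    · have hB : B = ζ := by
        rw [hA0, zero_smul, zero_add] at h2
        have h3 := congrFun (congrFun h2 0) 0
        simp at h3
        exact h3.symm
      rcases chk2F hF _ _ (by rw [hw]; exact hA0) (by rw [hw]; show B ≠ 0; rw [hB]; exact hζ)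
        with c | c
      · left
        refine ⟨((step2F (-q / p) ((ζ - s) / p))^[5] (0, 1)).2, ?_⟩
        rw [hp2 5, c, zero_smul, zero_add]
      · right
        refine ⟨((step2F (-q / p) ((ζ - s) / p))^[3] (0, 1)).2, ?_⟩
        rw [hp2 3, c, zero_smul, zero_add]
    · right
      have hM : M = ((ζ - B) / A) • (1 : Matrix (Fin 3) (Fin 3) F) := by
        have h3 : A • M = (ζ - B) • (1 : Matrix (Fin 3) (Fin 3) F) := by
          rw [sub_smul, h2]; abel
        calc M = A⁻¹ • (A • M) := by rw [inv_smul_smul₀ hA0]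
          _ = _ := by rw [h3, smul_smul]; congr 1; field_simp
      refine ⟨((ζ - B) / A) ^ 3, ?_⟩
      rw [hM, scalar_pow]

theorem central_of_scalar (g : Matrix.SpecialLinearGroup (Fin 3) F) (c : F)
    (hc : (g : Matrix (Fin 3) (Fin 3) F) = c • (1 : Matrix (Fin 3) (Fin 3) F)) :
    g ∈ Subgroup.center (Matrix.SpecialLinearGroup (Fin 3) F) := by
  rw [Matrix.SpecialLinearGroup.mem_center_iff]
  refine ⟨c, ?_, ?_⟩
  · have h1 := g.2
    rw [hc, Matrix.det_smul, Matrix.det_one, mul_one] at h1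
    exact h1
  · rw [hc, Matrix.smul_one_eq_diagonal]; rfl

end Mat

/-- No element of PSL_3(4) has order 15. -/
theorem result {F : Type*} [Field F] [Fintype F] (hF : Fintype.card F = 4) (g : Matrix.ProjectiveSpecialLinearGroup (Fin 3) F) : orderOf g ≠ 15 := by
  classical
  intro hord
  obtain ⟨g, rfl⟩ := QuotientGroup.mk_surjective g
  have hx15 : (QuotientGroup.mk g : Matrix.ProjectiveSpecialLinearGroup (Fin 3) F) ^ 15 = 1 := by
    rw [← hord]; exact pow_orderOf_eq_one _
  have hg15 : g ^ 15 ∈ Subgroup.center (Matrix.SpecialLinearGroup (Fin 3) F) := by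
    rw [← QuotientGroup.eq_one_iff]; exact hx15
  obtain ⟨r, hr, hrg⟩ := Matrix.SpecialLinearGroup.mem_center_iff.mp hg15
  have hr0 : r ≠ 0 := by
    intro h
    rw [h] at hr
    simp at hr
  have hM15 : (g : Matrix (Fin 3) (Fin 3) F) ^ 15 = r • (1 : Matrix (Fin 3) (Fin 3) F) := by
    rw [← Matrix.SpecialLinearGroup.coe_pow, ← hrg, Matrix.smul_one_eq_diagonal]; rfl
  rcases main_claim hF (g : Matrix (Fin 3) (Fin 3) F) g.2 r hr0 hM15 with ⟨c, hc⟩ | ⟨c, hc⟩
  · have h5 : g ^ 5 ∈ Subgroup.center (Matrix.SpecialLinearGroup (Fin 3) F) :=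
      central_of_scalar (g ^ 5) c (by rw [Matrix.SpecialLinearGroup.coe_pow]; exact hc)
    have hx5 : (QuotientGroup.mk g : Matrix.ProjectiveSpecialLinearGroup (Fin 3) F) ^ 5 = 1 := by
      rw [← QuotientGroup.mk_pow]; exact (QuotientGroup.eq_one_iff _).mpr h5
    have := orderOf_dvd_of_pow_eq_one hx5
    rw [hord] at this
    omega
  · have h3 : g ^ 3 ∈ Subgroup.center (Matrix.SpecialLinearGroup (Fin 3) F) :=
      central_of_scalar (g ^ 3) c (by rw [Matrix.SpecialLinearGroup.coe_pow]; exact hc)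
    have hx3 : (QuotientGroup.mk g : Matrix.ProjectiveSpecialLinearGroup (Fin 3) F) ^ 3 = 1 := by
      rw [← QuotientGroup.mk_pow]; exact (QuotientGroup.eq_one_iff _).mpr h3
    have := orderOf_dvd_of_pow_eq_one hx3
    rw [hord] at this
    omega

end Cfsg.Agent.S0819
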