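import Cfsg.Statements.S2579
import Mathlib

set_option autoImplicit false
open Cfsg

namespace Cfsg.Agent.S2579

section Helpers

variable {F : Type*} [Field F]

/-- A transvection has an adapted basis `b` with `(T-1) b₀ = b₁` and `(T-1) bⱼ = 0` for `j ≠ 0`. -/
lemma exists_adapted {k : ℕ} (T : Matrix (Fin (k + 2)) (Fin (k + 2)) F) (h1 : (T - 1).rank = 1)
    (h2 : (T - 1) * (T - 1) = 0) :
    ∃ b : Module.Basis (Fin (k + 2)) F (Fin (k + 2) → F),
      (T - 1).mulVec (b 0) = b 1 ∧ ∀ j, j ≠ 0 → (T - 1).mulVec (b j) = 0 := by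
  classical
  set N := T - 1 with hN
  set L := N.mulVecLin with hL
  have hr : Module.finrank F (LinearMap.range L) = 1 := h1
  obtain ⟨u', hu'0, hu'⟩ := finrank_eq_one_iff'.mp hr
  obtain ⟨w, hw⟩ := u'.2
  set u : Fin (k + 2) → F := (u' : Fin (k + 2) → F) with hu
  have hu0 : u ≠ 0 := fun h => hu'0 (Subtype.ext h)
  have hLu : L u = 0 := by
    rw [← hw]
    show N.mulVec (N.mulVec w) = 0
    rw [Matrix.mulVec_mulVec, h2, Matrix.zero_mulVec]
  obtain ⟨i₀, hi₀⟩ : ∃ i, u i ≠ 0 := by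
    by_contra h
    push Not at h
    exact hu0 (funext h)
  let ψ : (Fin (k + 2) → F) →ₗ[F] F := (u i₀)⁻¹ • LinearMap.proj i₀
  have hψu : ψ u = 1 := by simp [ψ, hi₀]
  have huK : u ∈ LinearMap.ker L := hLu
  obtain ⟨r, hrW⟩ : ∃ r, Module.finrank F ↥(LinearMap.ker L ⊓ LinearMap.ker ψ) = r := ⟨_, rfl⟩
  let c₀ : Module.Basis (Fin r) F ↥(LinearMap.ker L ⊓ LinearMap.ker ψ) :=
    Module.finBasisOfFinrankEq F _ hrW
  let b₁ : Module.Basis (Fin (r + 1)) F (LinearMap.ker L) :=
    Module.Basis.mkFinConsOfLE u huK c₀ inf_le_left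
      (by
        intro c x hx h
        have h3 := congrArg ψ h
        have hx2 : ψ x = 0 := hx.2
        simpa [hψu, hx2] using h3)
      (by
        intro z hz
        refine ⟨-ψ z, ⟨Submodule.add_mem _ hz (Submodule.smul_mem _ _ huK), ?_⟩⟩
        show ψ (z + -ψ z • u) = 0
        simp [hψu])
  let b : Module.Basis (Fin (r + 1 + 1)) F (Fin (k + 2) → F) :=
    Module.Basis.mkFinCons w b₁
      (by
        intro c x hx h
        have h3 := congrArg L h
        have hx2 : L x = 0 := hx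
        rw [map_add, map_smul, hx2, add_zero, hw, map_zero] at h3
        exact (smul_eq_zero.mp h3).resolve_right hu0)
      (by
        intro z
        obtain ⟨a, ha⟩ := hu' ⟨L z, LinearMap.mem_range_self L z⟩
        have ha' : a • u = L z := congrArg Subtype.val ha
        refine ⟨-a, ?_⟩
        show L (z + -a • w) = 0
        rw [map_add, map_smul, hw, ← ha']
        simp)
  have hcard : r + 1 + 1 = k + 2 := by
    have h3 := Module.finrank_eq_card_basis b
    simp only [Module.finrank_fintype_fun_eq_card, Fintype.card_fin] at h3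
    omega
  obtain rfl : r = k := by omega
  have hb0 : b 0 = w := by
    show (Module.Basis.mkFinCons w b₁ _ _ : Fin (r + 1 + 1) → (Fin (r + 2) → F)) 0 = w
    rw [Module.Basis.coe_mkFinCons]
    rfl
  have hbs : ∀ j : Fin (r + 1), b j.succ = (b₁ j : Fin (r + 2) → F) := by
    intro j
    show (Module.Basis.mkFinCons w b₁ _ _ : Fin (r + 1 + 1) → (Fin (r + 2) → F)) j.succ = _
    rw [Module.Basis.coe_mkFinCons]
    rfl
  have hb1 : b 1 = u := by
    have h3 := hbs 0
    have h4 : (b₁ 0 : Fin (r + 2) → F) = u := by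
      show ((Module.Basis.mkFinConsOfLE u huK c₀ inf_le_left _ _ : Fin (r + 1) → LinearMap.ker L) 0 : Fin (r + 2) → F) = u
      rw [Module.Basis.coe_mkFinConsOfLE]
      rfl
    rw [h4] at h3
    exact h3
  refine ⟨b, ?_, ?_⟩
  · rw [hb0, hb1]
    exact hw
  · intro j hj
    obtain ⟨j', rfl⟩ := Fin.exists_succ_eq_of_ne_zero hj
    rw [hbs]
    exact (b₁ j').2

/-- matrix form: `(T - 1) * P = P * E₁₀` with `P` invertible -/
lemma exists_conj_matrix {k : ℕ} (T : Matrix (Fin (k + 2)) (Fin (k + 2)) F) (h1 : (T - 1).rank = 1)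
    (h2 : (T - 1) * (T - 1) = 0) :
    ∃ P : Matrix (Fin (k + 2)) (Fin (k + 2)) F, P.det ≠ 0 ∧
      (T - 1) * P = P * Matrix.single (1 : Fin (k + 2)) (0 : Fin (k + 2)) (1 : F) := by
  classical
  obtain ⟨b, hb0, hbj⟩ := exists_adapted T h1 h2
  refine ⟨(Pi.basisFun F (Fin (k + 2))).toMatrix b, ?_, ?_⟩
  · have := (Pi.basisFun F (Fin (k + 2))).isUnit_det b
    rw [Module.Basis.det_apply] at this
    exact this.ne_zero
  · ext i j
    have hP : ∀ a c, (Pi.basisFun F (Fin (k + 2))).toMatrix b a c = b c a := by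
      intro a c
      simp [Module.Basis.toMatrix_apply]
    have hL : ((T - 1) * (Pi.basisFun F (Fin (k + 2))).toMatrix b) i j = ((T - 1).mulVec (b j)) i := by
      simp only [Matrix.mul_apply, Matrix.mulVec, dotProduct, hP]
    rw [hL]
    by_cases hj : j = 0
    · subst hj
      rw [hb0, Matrix.mul_single_apply_same, hP, mul_one]
    · rw [hbj j hj, Matrix.mul_single_apply_of_ne (hbj := hj)]
      rfl

end Helpers

/-- In SL_n(F) with n ≥ 3, over a finite field F, any two transvections (matrices t with t − 1 of rank one and square zero) are conjugate by an element of SL_n(F). -/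
theorem result {F : Type*} [Field F] [Finite F] {n : ℕ} (hn : 3 ≤ n) (s t : Matrix.SpecialLinearGroup (Fin n) F) (hs : Cfsg.IsTransvection (s : Matrix (Fin n) (Fin n) F)) (ht : Cfsg.IsTransvection (t : Matrix (Fin n) (Fin n) F)) : IsConj s t := by
  classical
  obtain ⟨k, rfl⟩ : ∃ k, n = k + 2 := ⟨n - 2, by omega⟩
  obtain ⟨P, hPdet, hP⟩ := exists_conj_matrix (s : Matrix (Fin (k + 2)) (Fin (k + 2)) F) hs.1 hs.2
  obtain ⟨R, hRdet, hR⟩ := exists_conj_matrix (t : Matrix (Fin (k + 2)) (Fin (k + 2)) F) ht.1 ht.2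
  set E : Matrix (Fin (k + 2)) (Fin (k + 2)) F := Matrix.single (1 : Fin (k + 2)) (0 : Fin (k + 2)) (1 : F) with hE
  let i2 : Fin (k + 2) := ⟨2, by omega⟩
  have h20 : i2 ≠ 0 := by
    intro h
    have := congrArg Fin.val h
    simp [i2] at this
  have h21 : i2 ≠ 1 := by
    intro h
    have := congrArg Fin.val h
    simp [i2] at this
  set d : F := P.det / R.det with hd
  let D : Matrix (Fin (k + 2)) (Fin (k + 2)) F := Matrix.diagonal (fun i => if i = i2 then d else 1)
  have hDE : D * E = E * D := by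
    ext i j
    simp only [D, Matrix.diagonal_mul, Matrix.mul_diagonal, hE, Matrix.single_apply]
    by_cases hij : (1 : Fin (k + 2)) = i ∧ (0 : Fin (k + 2)) = j
    · obtain ⟨rfl, rfl⟩ := hij
      simp [Ne.symm h20, Ne.symm h21]
    · simp [hij]
  have hDdet : D.det = d := by
    simp only [D, Matrix.det_diagonal]
    rw [Finset.prod_eq_single i2]
    · simp
    · intro j _ hj; simp [hj]
    · intro h; exact absurd (Finset.mem_univ _) h
  have hPinv : P * P⁻¹ = 1 := Matrix.mul_nonsing_inv P (isUnit_iff_ne_zero.mpr hPdet)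
  have hPinv' : P⁻¹ * P = 1 := Matrix.nonsing_inv_mul P (isUnit_iff_ne_zero.mpr hPdet)
  -- P⁻¹ (s - 1) = E P⁻¹
  have hP' : P⁻¹ * ((s : Matrix (Fin (k + 2)) (Fin (k + 2)) F) - 1) = E * P⁻¹ := by
    calc P⁻¹ * ((s : Matrix (Fin (k + 2)) (Fin (k + 2)) F) - 1)
        = P⁻¹ * (((s : Matrix (Fin (k + 2)) (Fin (k + 2)) F) - 1) * P) * P⁻¹ := by
          rw [Matrix.mul_assoc, Matrix.mul_assoc, hPinv, Matrix.mul_one]
      _ = P⁻¹ * (P * E) * P⁻¹ := by rw [hP]
      _ = E * P⁻¹ := by rw [← Matrix.mul_assoc P⁻¹ P E, hPinv', Matrix.one_mul]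
  let g : Matrix (Fin (k + 2)) (Fin (k + 2)) F := R * D * P⁻¹
  have hgdet : g.det = 1 := by
    simp only [g, Matrix.det_mul, hDdet, Matrix.det_nonsing_inv, Ring.inverse_eq_inv', hd]
    field_simp
  have hcomm : g * (s : Matrix (Fin (k + 2)) (Fin (k + 2)) F) = (t : Matrix (Fin (k + 2)) (Fin (k + 2)) F) * g := by
    have hs' : (s : Matrix (Fin (k + 2)) (Fin (k + 2)) F) = 1 + ((s : Matrix (Fin (k + 2)) (Fin (k + 2)) F) - 1) := by abel
    have ht' : (t : Matrix (Fin (k + 2)) (Fin (k + 2)) F) = 1 + ((t : Matrix (Fin (k + 2)) (Fin (k + 2)) F) - 1) := by abel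
    rw [hs', ht', Matrix.mul_add, Matrix.add_mul, Matrix.mul_one, Matrix.one_mul]
    congr 1
    calc g * ((s : Matrix (Fin (k + 2)) (Fin (k + 2)) F) - 1)
        = R * D * (P⁻¹ * ((s : Matrix (Fin (k + 2)) (Fin (k + 2)) F) - 1)) := by
          simp only [g, Matrix.mul_assoc]
      _ = R * (D * E) * P⁻¹ := by rw [hP']; simp only [Matrix.mul_assoc]
      _ = (R * E) * D * P⁻¹ := by rw [hDE]; simp only [Matrix.mul_assoc]
      _ = (((t : Matrix (Fin (k + 2)) (Fin (k + 2)) F) - 1) * R) * D * P⁻¹ := by rw [hR]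
      _ = ((t : Matrix (Fin (k + 2)) (Fin (k + 2)) F) - 1) * g := by
          simp only [g, Matrix.mul_assoc]
  rw [isConj_iff]
  let c : Matrix.SpecialLinearGroup (Fin (k + 2)) F := ⟨g, hgdet⟩
  refine ⟨c, ?_⟩
  rw [mul_inv_eq_iff_eq_mul]
  apply Subtype.ext
  simp only [Matrix.SpecialLinearGroup.coe_mul]
  exact hcomm

end Cfsg.Agent.S2579
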