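import Cfsg.Statements.S0820
-- import your own Cfsg.Agent.* helpers here
import Mathlib
import Cfsg.Agent.S2579

set_option autoImplicit false
open Cfsg

namespace Cfsg.Agent.S0820

open Matrix

theorem rank_ne_zero_of_ne_zero {F : Type*} [Field F] (N : Matrix (Fin 3) (Fin 3) F) (hN : N ≠ 0) :
    N.rank ≠ 0 := by
  intro h
  apply hN
  have h1 : LinearMap.range N.mulVecLin = ⊥ := by
    apply Submodule.finrank_eq_zero.mp
    exact h
  have h2 : N.mulVecLin = 0 := LinearMap.range_eq_bot.mp h1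
  ext i j
  have h3 := congrFun (congrArg (fun f => f (Pi.single j 1)) h2) i
  simp only [Matrix.mulVecLin_apply, Matrix.mulVec_single_one, LinearMap.zero_apply] at h3
  simpa using h3

theorem invol_lift {F : Type*} [Field F] [Fintype F] (hF : Fintype.card F = 4)
    (x : Matrix.ProjectiveSpecialLinearGroup (Fin 3) F) (hx : orderOf x = 2) :
    ∃ h : Matrix.SpecialLinearGroup (Fin 3) F,
      (QuotientGroup.mk h : Matrix.ProjectiveSpecialLinearGroup (Fin 3) F) = x ∧
      Cfsg.IsTransvection (h : Matrix (Fin 3) (Fin 3) F) := by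
  classical
  obtain ⟨g, rfl⟩ := QuotientGroup.mk_surjective x
  have hx2 : (QuotientGroup.mk g : Matrix.ProjectiveSpecialLinearGroup (Fin 3) F) ^ 2 = 1 := by
    rw [← hx]; exact pow_orderOf_eq_one _
  have hx1 : (QuotientGroup.mk g : Matrix.ProjectiveSpecialLinearGroup (Fin 3) F) ≠ 1 := by
    intro h; rw [h, orderOf_one] at hx; omega
  have hg2 : g ^ 2 ∈ Subgroup.center (Matrix.SpecialLinearGroup (Fin 3) F) := by
    rw [← QuotientGroup.eq_one_iff]; exact hx2
  obtain ⟨r, hr, hrg⟩ := Matrix.SpecialLinearGroup.mem_center_iff.mp hg2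
  have hr3 : r ^ 3 = 1 := by simpa using hr
  have h20 : (2 : F) = 0 := by
    have h4 : ((Fintype.card F : ℕ) : F) = 0 := Nat.cast_card_eq_zero F
    rw [hF] at h4
    have h5 : (2 : F) * 2 = 0 := by
      rw [← h4]; norm_num
    exact mul_self_eq_zero.mp h5
  have hg6 : g ^ 6 = 1 := by
    apply Subtype.ext
    have h1 : ((g ^ 6 : Matrix.SpecialLinearGroup (Fin 3) F) : Matrix (Fin 3) (Fin 3) F)
        = ((g ^ 2 : Matrix.SpecialLinearGroup (Fin 3) F) : Matrix (Fin 3) (Fin 3) F) ^ 3 := by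
      rw [← Matrix.SpecialLinearGroup.coe_pow, ← pow_mul]
    rw [h1, ← hrg, ← map_pow, hr3, map_one]
    rfl
  obtain ⟨h, hh⟩ : ∃ h : Matrix.SpecialLinearGroup (Fin 3) F, h = g ^ 3 := ⟨_, rfl⟩
  have hmk : (QuotientGroup.mk h : Matrix.ProjectiveSpecialLinearGroup (Fin 3) F)
      = QuotientGroup.mk g := by
    rw [hh, QuotientGroup.mk_pow, pow_succ, hx2, one_mul]
  have hh2 : (h : Matrix (Fin 3) (Fin 3) F) * (h : Matrix (Fin 3) (Fin 3) F) = 1 := by
    have h1 : h * h = 1 := by rw [hh, ← pow_add]; exact hg6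
    have h2 := congrArg (fun s : Matrix.SpecialLinearGroup (Fin 3) F =>
      (s : Matrix (Fin 3) (Fin 3) F)) h1
    simpa using h2
  have hh1 : (h : Matrix (Fin 3) (Fin 3) F) ≠ 1 := by
    intro h1
    apply hx1
    rw [← hmk]
    have : h = 1 := Subtype.ext h1
    rw [this]; rfl
  refine ⟨h, hmk, ?_⟩
  have hNN : ((h : Matrix (Fin 3) (Fin 3) F) - 1) * ((h : Matrix (Fin 3) (Fin 3) F) - 1) = 0 := by
    have h1 : ((h : Matrix (Fin 3) (Fin 3) F) - 1) * ((h : Matrix (Fin 3) (Fin 3) F) - 1)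
        = (h : Matrix (Fin 3) (Fin 3) F) * (h : Matrix (Fin 3) (Fin 3) F)
          - (2 : F) • (h : Matrix (Fin 3) (Fin 3) F) + 1 := by
      rw [two_smul]
      simp only [sub_mul, mul_sub, Matrix.one_mul, Matrix.mul_one]
      abel
    rw [h1, hh2, h20, zero_smul, sub_zero]
    have h3 : (1 : Matrix (Fin 3) (Fin 3) F) + 1 = (2 : F) • (1 : Matrix (Fin 3) (Fin 3) F) :=
      (two_smul F 1).symm
    rw [h3, h20, zero_smul]
  refine ⟨?_, hNN⟩
  have h1 := Matrix.rank_add_rank_le_card_of_mul_eq_zero hNN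
  simp only [Fintype.card_fin] at h1
  have h2 := rank_ne_zero_of_ne_zero ((h : Matrix (Fin 3) (Fin 3) F) - 1)
    (fun h0 => hh1 (sub_eq_zero.mp h0))
  omega

/-- Any two elements of order 2 of PSL_3(4) are conjugate. -/
theorem result {F : Type*} [Field F] [Fintype F] (hF : Fintype.card F = 4) (x y : Matrix.ProjectiveSpecialLinearGroup (Fin 3) F) (hx : orderOf x = 2) (hy : orderOf y = 2) : IsConj x y := by
  obtain ⟨s, hs, hst⟩ := invol_lift hF x hx
  obtain ⟨t, ht, htt⟩ := invol_lift hF y hy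
  have hc : IsConj s t := Cfsg.Agent.S2579.result (le_refl 3) s t hst htt
  rw [← hs, ← ht]
  exact (QuotientGroup.mk' (Subgroup.center (Matrix.SpecialLinearGroup (Fin 3) F))).map_isConj hc

end Cfsg.Agent.S0820
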