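import Mathlib
import Cfsg.Statements.S0823
import Cfsg.Agent.Lib.helper6.OrthOrd

set_option autoImplicit false
open Cfsg

namespace Cfsg.Agent.S0823

open Matrix

/-- the index type of the three-dimensional quadratic space -/
abbrev I3 : Type := Unit ⊕ (Fin 1 ⊕ Fin 1)

/-- numbering of the index type -/
def idx3 : I3 → Fin 3 := Sum.elim (fun _ => 0) (Sum.elim (fun _ => 1) (fun _ => 2))

def tA : Matrix (Fin 3) (Fin 4) (ZMod 3) := !![0, 0, 2, 1; 2, 0, 2, 2; 0, 1, 1, 1]
def tB : Matrix (Fin 4) (Fin 3) (ZMod 3) := !![0, 0, 2; 0, 1, 0; 1, 1, 2; 2, 1, 2]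
def tS : Matrix (Fin 3) (Fin 3) (ZMod 3) := !![1, 0, 0; 0, 0, 2; 0, 2, 0]
/-- coordinates on the sum-zero vectors -/
def A0 : Matrix I3 (Fin 4) (ZMod 3) := tA.submatrix idx3 id
/-- a basis of the sum-zero vectors -/
def B0 : Matrix (Fin 4) I3 (ZMod 3) := tB.submatrix id idx3
/-- the Gram matrix of the quadratic form -/
def S0 : Matrix I3 I3 (ZMod 3) := tS.submatrix idx3 idx3
/-- the sign of a permutation, by counting inversions -/
def eps (σ : Equiv.Perm (Fin 4)) : ZMod 3 :=
  ∏ i : Fin 4, ∏ j : Fin 4, if i < j ∧ σ j < σ i then (-1 : ZMod 3) else 1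
/-- permutation matrices -/
def P0 (σ : Equiv.Perm (Fin 4)) : Matrix (Fin 4) (Fin 4) (ZMod 3) :=
  Matrix.of fun i j => if σ j = i then (1 : ZMod 3) else 0
/-- the sign-twisted permutation representation on the sum-zero vectors -/
def T0 (σ : Equiv.Perm (Fin 4)) : Matrix I3 I3 (ZMod 3) := eps σ • (A0 * P0 σ * B0)

theorem T0_one : T0 1 = 1 := by decide
theorem T0_inj : ∀ σ : Equiv.Perm (Fin 4), T0 σ = 1 → σ = 1 := by decide
theorem T0_det : ∀ σ : Equiv.Perm (Fin 4), (T0 σ).det = 1 := by decide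
theorem T0_iso : ∀ σ : Equiv.Perm (Fin 4), (T0 σ)ᵀ * S0 * T0 σ = S0 := by decide
set_option maxRecDepth 100000 in
theorem T0_mul : ∀ σ τ : Equiv.Perm (Fin 4), T0 (σ * τ) = T0 σ * T0 τ := by decide +kernel

section
variable {F : Type*} [Field F] (c : ZMod 3 →+* F)

theorem det_map (σ : Equiv.Perm (Fin 4)) : ((T0 σ).map c).det = 1 := by
  have h := RingHom.map_det c (T0 σ)
  rw [T0_det, map_one] at h
  exact h.symm

/-- the representation in the special linear group -/
def psi : Equiv.Perm (Fin 4) →* Matrix.SpecialLinearGroup I3 F where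
  toFun σ := ⟨(T0 σ).map c, det_map c σ⟩
  map_one' := by
    apply Subtype.ext
    show (T0 1).map c = 1
    rw [T0_one, Matrix.map_one _ (map_zero c) (map_one c)]
  map_mul' σ τ := by
    apply Subtype.ext
    show (T0 (σ * τ)).map c = (T0 σ).map c * (T0 τ).map c
    rw [T0_mul, Matrix.map_mul]

theorem Q_eq (h3 : (3 : F) = 0) (v : I3 → F) :
    Cfsg.quadFormOdd 1 F v = v ⬝ᵥ ((S0.map c) *ᵥ v) := by
  have hc2 : c 2 = 2 := map_ofNat c 2
  simp [Cfsg.quadFormOdd, dotProduct, Matrix.mulVec, Fintype.sum_sum_type, S0, tS, idx3, hc2]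
  linear_combination (-(v (Sum.inr (Sum.inl 0)) * v (Sum.inr (Sum.inr 0)))) * h3

theorem iso_map (σ : Equiv.Perm (Fin 4)) :
    ((T0 σ).map c)ᵀ * S0.map c * (T0 σ).map c = S0.map c := by
  rw [← Matrix.transpose_map, ← Matrix.map_mul, ← Matrix.map_mul, T0_iso]

theorem Q_inv (h3 : (3 : F) = 0) (σ : Equiv.Perm (Fin 4)) (v : I3 → F) :
    Cfsg.quadFormOdd 1 F (((T0 σ).map c) *ᵥ v) = Cfsg.quadFormOdd 1 F v := by
  rw [Q_eq c h3, Q_eq c h3]
  have e1 : ((T0 σ).map c *ᵥ v) ⬝ᵥ (S0.map c *ᵥ ((T0 σ).map c *ᵥ v)) =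
      v ⬝ᵥ ((((T0 σ).map c)ᵀ * S0.map c * (T0 σ).map c) *ᵥ v) := by
    rw [← Matrix.mulVec_mulVec, ← Matrix.mulVec_mulVec, Matrix.dotProduct_mulVec v,
      Matrix.vecMul_transpose]
  rw [e1, iso_map]

/-- the representation in the isometry group -/
def phi1 (h3 : (3 : F) = 0) :
    Equiv.Perm (Fin 4) →* ↥(Cfsg.isometryGroup F (Cfsg.quadFormOdd 1 F)) :=
  (Matrix.SpecialLinearGroup.toGL.comp (psi c)).codRestrict _ (fun σ => by
    intro u v
    exact Q_inv c h3 σ u)

/-- the representation in the special isometry group -/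
def phi (h3 : (3 : F) = 0) :
    Equiv.Perm (Fin 4) →* ↥(Cfsg.specialIsometryGroup F (Cfsg.quadFormOdd 1 F)) :=
  (phi1 c h3).codRestrict _ (fun σ => by
    rw [Cfsg.specialIsometryGroup, MonoidHom.mem_ker]
    show Matrix.GeneralLinearGroup.det (Matrix.SpecialLinearGroup.toGL (psi c σ)) = 1
    apply Units.ext
    rw [Matrix.GeneralLinearGroup.val_det_apply]
    simp)

theorem phi_injective (h3 : (3 : F) = 0) (hc : Function.Injective c) :
    Function.Injective (phi c h3) := by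
  rw [injective_iff_map_eq_one]
  intro σ hσ
  have h1 : Matrix.SpecialLinearGroup.toGL (psi c σ) = 1 :=
    congrArg (fun x : ↥(Cfsg.specialIsometryGroup F (Cfsg.quadFormOdd 1 F)) =>
      ((x : ↥(Cfsg.isometryGroup F (Cfsg.quadFormOdd 1 F))) : GL I3 F)) hσ
  have h2 : (T0 σ).map c = 1 := congrArg (fun g : GL I3 F => (g : Matrix I3 I3 F)) h1
  apply T0_inj
  apply Matrix.map_injective hc
  show (T0 σ).map c = (1 : Matrix I3 I3 (ZMod 3)).map c
  rw [h2, Matrix.map_one _ (map_zero c) (map_one c)]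

end

theorem card_SO_le {F : Type*} [Field F] [Fintype F] (hF : Fintype.card F = 3)
    (h3 : (3 : F) = 0) :
    Nat.card ↥(Cfsg.specialIsometryGroup F (Cfsg.quadFormOdd 1 F)) ≤ 24 := by
  have hGO := Cfsg.Agent.Lib.helper6.card_GO_odd (F := F) hF (by decide) 1
  have h48 : Nat.card ↥(Cfsg.isometryGroup F (Cfsg.quadFormOdd 1 F)) = 48 := by
    rw [hGO]
    decide
  have h2F : (2 : F) ≠ 0 := by
    intro h2
    have : (1 : F) = 0 := by linear_combination h3 - h2
    exact one_ne_zero this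
  have hne : Cfsg.specialIsometryGroup F (Cfsg.quadFormOdd 1 F) ≠ ⊤ := by
    intro htop
    have hmem : (-1 : GL I3 F) ∈ Cfsg.isometryGroup F (Cfsg.quadFormOdd 1 F) := by
      intro u v
      show Cfsg.quadFormOdd 1 F (((-1 : GL I3 F) : Matrix I3 I3 F) *ᵥ u) = Cfsg.quadFormOdd 1 F u
      simp [Cfsg.quadFormOdd, Matrix.neg_mulVec]
    have h1 : (⟨-1, hmem⟩ : ↥(Cfsg.isometryGroup F (Cfsg.quadFormOdd 1 F))) ∈
        Cfsg.specialIsometryGroup F (Cfsg.quadFormOdd 1 F) := by
      rw [htop]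
      trivial
    rw [Cfsg.specialIsometryGroup, MonoidHom.mem_ker] at h1
    have h2 : Matrix.GeneralLinearGroup.det (-1 : GL I3 F) = 1 := h1
    have h4 := congrArg Units.val h2
    simp [Matrix.det_neg] at h4
    apply h2F
    linear_combination -h4
  have hidx := Subgroup.card_mul_index (Cfsg.specialIsometryGroup F (Cfsg.quadFormOdd 1 F))
  have hi0 : (Cfsg.specialIsometryGroup F (Cfsg.quadFormOdd 1 F)).index ≠ 0 :=
    Subgroup.index_ne_zero_of_finite
  have hi1 : (Cfsg.specialIsometryGroup F (Cfsg.quadFormOdd 1 F)).index ≠ 1 :=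
    fun h => hne (Subgroup.index_eq_one.mp h)
  rw [h48] at hidx
  have hi2 : 2 ≤ (Cfsg.specialIsometryGroup F (Cfsg.quadFormOdd 1 F)).index := by omega
  nlinarith

/-- SO_3(3) ≅ S_4: the determinant-one isometries of the form x_0² + x_1y_1 over the field with 3 elements form a group isomorphic to the symmetric group on 4 letters. -/
theorem result {F : Type*} [Field F] [Fintype F] (hF : Fintype.card F = 3) : Nonempty (↥(Cfsg.specialIsometryGroup F (Cfsg.quadFormOdd 1 F)) ≃* Equiv.Perm (Fin 4)) := by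
  have e : ZMod 3 ≃+* F := FiniteField.ringEquivOfCardEq (by rw [ZMod.card, hF])
  have h3 : (3 : F) = 0 := by
    have := FiniteField.cast_card_eq_zero F
    rw [hF] at this
    exact_mod_cast this
  have hinj := phi_injective (e : ZMod 3 →+* F) h3 e.injective
  have hbij : Function.Bijective (phi (e : ZMod 3 →+* F) h3) := by
    apply hinj.bijective_of_nat_card_le
    rw [Nat.card_eq_fintype_card (α := Equiv.Perm (Fin 4)), Fintype.card_perm, Fintype.card_fin]
    exact card_SO_le hF h3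
  exact ⟨(MulEquiv.ofBijective _ hbij).symm⟩

end Cfsg.Agent.S0823
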