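import Cfsg.Statements.S0826
-- import your own Cfsg.Agent.* helpers here
import Mathlib
import Cfsg.Agent.S0752

set_option autoImplicit false
open Cfsg

namespace Cfsg.Agent.S0826

open Matrix

section General

universe u v w

theorem toBlocks₁₁_mul {α β : Type*} [Fintype α] [Fintype β] {R : Type*} [CommRing R]
    (M N : Matrix (α ⊕ β) (α ⊕ β) R) :
    (M * N).toBlocks₁₁ = M.toBlocks₁₁ * N.toBlocks₁₁ + M.toBlocks₁₂ * N.toBlocks₂₁ := by
  ext i j
  simp [Matrix.toBlocks₁₁, Matrix.toBlocks₁₂, Matrix.toBlocks₂₁, Matrix.mul_apply,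
    Fintype.sum_sum_type]

theorem exists_hom {F : Type u} {V : Type v} {G : Type w} [Field F] [AddCommGroup V] [Module F V]
    [FiniteDimensional F V] [Group G] (B : LinearMap.BilinForm F V) (hA : B.IsAlt)
    (ρ : G →* Module.End F V) (hρ : ∀ g x y, B (ρ g x) (ρ g y) = B x y) :
    ∃ (m k : ℕ) (f : G →* Matrix.symplecticGroup (Fin m) F) (r : Fin k → V),
      2 * m + k = Module.finrank F V ∧ LinearIndependent F r ∧ (∀ j v, B (r j) v = 0) ∧
      ∀ g, f g = 1 → ∀ x v, B (ρ g x) v = B x v := by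
  classical
  obtain ⟨m, k, b, h1, h2, h3, h4⟩ := Cfsg.Agent.S0752.result B hA
  have hanti : ∀ x y, B x y = - B y x := fun x y => by
    have := hA.neg_eq x y
    rw [← this]; simp
  obtain ⟨G₀, hG₀⟩ : ∃ G₀ : Matrix (Fin m ⊕ Fin m) (Fin m ⊕ Fin m) F, G₀ = - J (Fin m) F := ⟨_, rfl⟩
  obtain ⟨Gf, hGf⟩ : ∃ Gf : Matrix ((Fin m ⊕ Fin m) ⊕ Fin k) ((Fin m ⊕ Fin m) ⊕ Fin k) F,
      Gf = LinearMap.BilinForm.toMatrix b B := ⟨_, rfl⟩
  have hGfb : Gf = fromBlocks G₀ 0 0 0 := by
    ext s t
    rw [hGf, LinearMap.BilinForm.toMatrix_apply, hG₀]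
    rcases s with (i | i) | i <;> rcases t with (j | j) | j
    · rw [h2]; simp [Matrix.J]
    · rw [h1]; simp [Matrix.J, Matrix.one_apply]
    · rw [hanti, h4, neg_zero]; rfl
    · rw [hanti, h1]; simp [Matrix.J, Matrix.one_apply, eq_comm]
    · rw [h3]; simp [Matrix.J]
    · rw [hanti, h4, neg_zero]; rfl
    · rw [h4]; rfl
    · rw [h4]; rfl
    · rw [h4]; rfl
  obtain ⟨T, hT⟩ : ∃ T : G → Matrix ((Fin m ⊕ Fin m) ⊕ Fin k) ((Fin m ⊕ Fin m) ⊕ Fin k) F,
      T = fun g => LinearMap.toMatrix b b (ρ g) := ⟨_, rfl⟩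
  have hTmul : ∀ g h, T (g * h) = T g * T h := by
    intro g h
    rw [hT]
    show LinearMap.toMatrix b b (ρ (g * h)) = _
    rw [map_mul, LinearMap.toMatrix_mul]
  have hTone : T 1 = 1 := by
    rw [hT]
    show LinearMap.toMatrix b b (ρ 1) = 1
    rw [map_one, LinearMap.toMatrix_one]
  have hTG : ∀ g, (T g)ᵀ * Gf * T g = Gf := by
    intro g
    have h5 : B.comp (ρ g) (ρ g) = B := by
      ext x y
      exact hρ g x y
    have h6 := LinearMap.BilinForm.toMatrix_comp b b B (ρ g) (ρ g)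
    rw [h5] at h6
    rw [hGf, hT]
    exact h6.symm
  have hJ : G₀ = - J (Fin m) F := hG₀
  -- block analysis
  have hblk : ∀ g, (T g).toBlocks₁₁ ∈ Matrix.symplecticGroup (Fin m) F ∧ (T g).toBlocks₁₂ = 0 := by
    intro g
    obtain ⟨A, hAd⟩ : ∃ A, A = (T g).toBlocks₁₁ := ⟨_, rfl⟩
    obtain ⟨X, hXd⟩ : ∃ X, X = (T g).toBlocks₁₂ := ⟨_, rfl⟩
    obtain ⟨C, hCd⟩ : ∃ C, C = (T g).toBlocks₂₁ := ⟨_, rfl⟩
    obtain ⟨D, hDd⟩ : ∃ D, D = (T g).toBlocks₂₂ := ⟨_, rfl⟩
    have hTb : T g = fromBlocks A X C D := by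
      rw [hAd, hXd, hCd, hDd, fromBlocks_toBlocks]
    have h7 := hTG g
    rw [hTb, hGfb, fromBlocks_transpose, fromBlocks_multiply, fromBlocks_multiply] at h7
    simp only [Matrix.mul_zero, Matrix.zero_mul, add_zero, zero_add] at h7
    rw [fromBlocks_inj] at h7
    obtain ⟨e1, e2, -, -⟩ := h7
    rw [← hAd, ← hXd]
    have e1' : Aᵀ * J (Fin m) F * A = J (Fin m) F := by
      rw [hJ] at e1
      simp only [Matrix.mul_neg, Matrix.neg_mul, neg_inj] at e1
      exact e1
    have e2' : Aᵀ * J (Fin m) F * X = 0 := by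
      rw [hJ] at e2
      simp only [Matrix.mul_neg, Matrix.neg_mul, neg_eq_zero] at e2
      exact e2
    have hAs : A ∈ Matrix.symplecticGroup (Fin m) F := SymplecticGroup.mem_iff'.mpr e1'
    refine ⟨hAs, ?_⟩
    have h8 := SymplecticGroup.mem_iff.mp hAs
    have h9 : A * J (Fin m) F * (Aᵀ * J (Fin m) F * X) = -X := by
      calc A * J (Fin m) F * (Aᵀ * J (Fin m) F * X)
          = (A * J (Fin m) F * Aᵀ) * J (Fin m) F * X := by simp only [Matrix.mul_assoc]
        _ = -X := by rw [h8, Matrix.J_squared]; simp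
    rw [e2', Matrix.mul_zero] at h9
    exact neg_eq_zero.mp h9.symm
  obtain ⟨f, hf⟩ : ∃ f : G →* Matrix.symplecticGroup (Fin m) F, ∀ g,
      ((f g : Matrix.symplecticGroup (Fin m) F) : Matrix (Fin m ⊕ Fin m) (Fin m ⊕ Fin m) F)
        = (T g).toBlocks₁₁ := by
    refine ⟨{ toFun := fun g => ⟨(T g).toBlocks₁₁, (hblk g).1⟩
              map_one' := ?_
              map_mul' := ?_ }, fun g => rfl⟩
    · apply Subtype.ext
      show (T 1).toBlocks₁₁ = 1
      rw [hTone]
      ext i j
      simp [Matrix.toBlocks₁₁, Matrix.one_apply]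
    · intro g h
      apply Subtype.ext
      show (T (g * h)).toBlocks₁₁ = (T g).toBlocks₁₁ * (T h).toBlocks₁₁
      rw [hTmul, toBlocks₁₁_mul, (hblk g).2, Matrix.zero_mul, add_zero]
  refine ⟨m, k, f, fun j => b (Sum.inr j), ?_, ?_, ?_, ?_⟩
  · rw [Module.finrank_eq_card_basis b]
    simp
    omega
  · exact b.linearIndependent.comp _ Sum.inr_injective
  · intro j v
    exact h4 j v
  · intro g hg x v
    have hA1 : (T g).toBlocks₁₁ = 1 := by
      rw [← hf, hg]; rfl
    have h5 : B.compLeft (ρ g) = B := by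
      apply (LinearMap.BilinForm.toMatrix b).injective
      rw [LinearMap.BilinForm.toMatrix_compLeft]
      have hTb : T g = fromBlocks 1 0 (T g).toBlocks₂₁ (T g).toBlocks₂₂ := by
        conv_lhs => rw [← fromBlocks_toBlocks (T g), hA1, (hblk g).2]
      have h6 : LinearMap.toMatrix b b (ρ g) = T g := by rw [hT]
      rw [h6, ← hGf, hTb, hGfb, fromBlocks_transpose, fromBlocks_multiply]
      simp
    have h6 := congrArg (fun L : LinearMap.BilinForm F V => L x v) h5
    exact h6

end General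

section PermAction

/-- the sum functional. -/
def sumL (N : ℕ) : (Fin N → ZMod 2) →ₗ[ZMod 2] ZMod 2 := ∑ i, LinearMap.proj i

theorem sumL_apply (N : ℕ) (x : Fin N → ZMod 2) : sumL N x = ∑ i, x i := by
  simp [sumL, LinearMap.sum_apply]

/-- the even-weight subspace. -/
def EE (N : ℕ) : Submodule (ZMod 2) (Fin N → ZMod 2) := LinearMap.ker (sumL N)

theorem mem_EE (N : ℕ) (x : Fin N → ZMod 2) : x ∈ EE N ↔ ∑ i, x i = 0 := by
  rw [EE, LinearMap.mem_ker, sumL_apply]

/-- the dot product. -/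
def dotB (N : ℕ) : LinearMap.BilinForm (ZMod 2) (Fin N → ZMod 2) := Matrix.toBilin' 1

theorem dotB_apply (N : ℕ) (x y : Fin N → ZMod 2) : dotB N x y = ∑ i, x i * y i := by
  rw [dotB, Matrix.toBilin'_apply', Matrix.one_mulVec]; rfl

/-- the permutation action on functions. -/
def permL (N : ℕ) : Equiv.Perm (Fin N) →* Module.End (ZMod 2) (Fin N → ZMod 2) where
  toFun g := LinearMap.funLeft (ZMod 2) (ZMod 2) (g.symm : Fin N → Fin N)
  map_one' := by
    ext x i
    rfl
  map_mul' := by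
    intro g h
    ext x i
    rfl

theorem permL_apply (N : ℕ) (g : Equiv.Perm (Fin N)) (x : Fin N → ZMod 2) (i : Fin N) :
    permL N g x i = x (g.symm i) := rfl

theorem permL_mem (N : ℕ) (g : Equiv.Perm (Fin N)) (x : Fin N → ZMod 2) (hx : x ∈ EE N) :
    permL N g x ∈ EE N := by
  rw [mem_EE] at hx ⊢
  rw [← hx]
  exact Equiv.sum_comp g.symm x

/-- the permutation action on the even-weight subspace. -/
def permE (N : ℕ) : Equiv.Perm (Fin N) →* Module.End (ZMod 2) (EE N) where
  toFun g := (permL N g).restrict (permL_mem N g)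
  map_one' := by
    ext x i
    rfl
  map_mul' := by
    intro g h
    ext x i
    rfl

theorem permE_apply (N : ℕ) (g : Equiv.Perm (Fin N)) (x : EE N) (i : Fin N) :
    (permE N g x : Fin N → ZMod 2) i = (x : Fin N → ZMod 2) (g.symm i) := rfl

theorem pair_mem (N : ℕ) (i j : Fin N) :
    (Pi.single i (1 : ZMod 2) + Pi.single j (1 : ZMod 2) : Fin N → ZMod 2) ∈ EE N := by
  classical
  rw [mem_EE]
  simp only [Pi.add_apply, Finset.sum_add_distrib, Finset.sum_pi_single', Finset.mem_univ, if_true]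
  decide

theorem const_of_rad (N : ℕ) (z : Fin N → ZMod 2)
    (hz : ∀ v ∈ EE N, dotB N z v = 0) (i j : Fin N) : z i = z j := by
  classical
  have h1 := hz _ (pair_mem N i j)
  rw [dotB_apply] at h1
  simp only [Pi.add_apply, mul_add, Finset.sum_add_distrib, Pi.single_apply, mul_ite, mul_one,
    mul_zero, Finset.sum_ite_eq', Finset.mem_univ, if_true] at h1
  have h2 : ∀ a b : ZMod 2, a + b = 0 → a = b := by decide
  exact h2 _ _ h1

end PermAction

/-- S_2n ≤ Sp_(2n−2)(2) for n ≥ 3: there is an injective homomorphism from the symmetric group on 2n letters into the symplectic group of degree 2n − 2 over the field with two elements. -/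
theorem result (n : ℕ) (hn : 3 ≤ n) : ∃ f : Equiv.Perm (Fin (2 * n)) →* Matrix.symplecticGroup (Fin (n - 1)) (ZMod 2), Function.Injective f := by
  classical
  obtain ⟨N, hN⟩ : ∃ N, N = 2 * n := ⟨_, rfl⟩
  rw [← hN]
  have hAlt : ((dotB N).restrict (EE N)).IsAlt := by
    intro x
    show dotB N (x : Fin N → ZMod 2) (x : Fin N → ZMod 2) = 0
    rw [dotB_apply]
    have h1 : ∀ a : ZMod 2, a * a = a := by decide
    simp only [h1]
    exact (mem_EE N _).mp x.2
  have hinv : ∀ (g : Equiv.Perm (Fin N)) (x y : EE N),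
      ((dotB N).restrict (EE N)) (permE N g x) (permE N g y) = ((dotB N).restrict (EE N)) x y := by
    intro g x y
    show dotB N (permE N g x : Fin N → ZMod 2) (permE N g y : Fin N → ZMod 2)
      = dotB N (x : Fin N → ZMod 2) (y : Fin N → ZMod 2)
    rw [dotB_apply, dotB_apply]
    exact Equiv.sum_comp g.symm (fun i => (x : Fin N → ZMod 2) i * (y : Fin N → ZMod 2) i)
  obtain ⟨m, k, f, r, hmk, hr, hrad, hker⟩ := exists_hom ((dotB N).restrict (EE N)) hAlt (permE N) hinv
  have hfr : Module.finrank (ZMod 2) (EE N) + 1 = N := by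
    have hne : sumL N ≠ 0 := by
      intro h
      have h1 := congrArg (fun L : (Fin N → ZMod 2) →ₗ[ZMod 2] ZMod 2 =>
        L (Pi.single (⟨0, by omega⟩ : Fin N) 1)) h
      simp only [sumL_apply, Finset.sum_pi_single', Finset.mem_univ, if_true,
        LinearMap.zero_apply] at h1
      exact one_ne_zero h1
    have h2 := Module.Dual.finrank_ker_add_one_of_ne_zero hne
    rw [Module.finrank_fintype_fun_eq_card, Fintype.card_fin] at h2
    exact h2
  have hradc : ∀ z : EE N, (∀ v : EE N, ((dotB N).restrict (EE N)) z v = 0) →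
      ∀ i j : Fin N, (z : Fin N → ZMod 2) i = (z : Fin N → ZMod 2) j := by
    intro z hz i j
    apply const_of_rad N
    intro v hv
    exact hz ⟨v, hv⟩
  have hk : k ≤ 1 := by
    by_contra hk2
    push Not at hk2
    have hr0 := hradc (r ⟨0, by omega⟩) (hrad _)
    have hr1 := hradc (r ⟨1, by omega⟩) (hrad _)
    have hone : ∀ j : Fin k, ∀ i : Fin N, ((r j : EE N) : Fin N → ZMod 2) i = 1 := by
      intro j i
      have hne : r j ≠ 0 := hr.ne_zero j
      have hc := hradc (r j) (hrad j)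
      have h3 : ∀ a : ZMod 2, a ≠ 0 → a = 1 := by decide
      apply h3
      intro h0
      apply hne
      apply Subtype.ext
      funext l
      rw [hc l i, h0]; rfl
    have heq : r ⟨0, by omega⟩ = r ⟨1, by omega⟩ := by
      apply Subtype.ext
      funext i
      rw [hone, hone]
    have := hr.injective heq
    simp [Fin.ext_iff] at this
  have hm : m = n - 1 := by omega
  subst hm
  refine ⟨f, ?_⟩
  rw [injective_iff_map_eq_one]
  intro g hg
  by_contra hg1
  obtain ⟨i, hi⟩ : ∃ i, g i ≠ i := by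
    by_contra hcon
    push Not at hcon
    exact hg1 (Equiv.Perm.ext hcon)
  have hcardN : Fintype.card (Fin N) = N := Fintype.card_fin N
  obtain ⟨j, -, hj⟩ := Finset.exists_mem_notMem_of_card_lt_card
    (s := ({i, g i} : Finset (Fin N))) (t := Finset.univ) (by
      rw [Finset.card_univ, hcardN]
      have := Finset.card_le_two (a := i) (b := g i)
      omega)
  obtain ⟨l, -, hl⟩ := Finset.exists_mem_notMem_of_card_lt_card
    (s := ({i, j, g i, g j} : Finset (Fin N))) (t := Finset.univ) (by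
      rw [Finset.card_univ, hcardN]
      have := Finset.card_le_four (a := i) (b := j) (c := g i) (d := g j)
      omega)
  simp only [Finset.mem_insert, Finset.mem_singleton, not_or] at hj hl
  obtain ⟨x, hx⟩ : ∃ x : EE N, (x : Fin N → ZMod 2) = Pi.single i 1 + Pi.single j 1 :=
    ⟨⟨_, pair_mem N i j⟩, rfl⟩
  have hz : ∀ v : EE N, ((dotB N).restrict (EE N)) (permE N g x - x) v = 0 := by
    intro v
    rw [map_sub, LinearMap.sub_apply, hker g hg x v, sub_self]
  have hc := hradc _ hz l (g i)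
  have e1 : ((permE N g x - x : EE N) : Fin N → ZMod 2) l = 0 := by
    show (permE N g x : Fin N → ZMod 2) l - (x : Fin N → ZMod 2) l = 0
    rw [permE_apply, hx]
    have h1 : g.symm l ≠ i := by
      intro h; apply hl.2.2.1; rw [← h]; simp
    have h2 : g.symm l ≠ j := by
      intro h; apply hl.2.2.2; rw [← h]; simp
    simp [Pi.single_apply, h1, h2, hl.1, hl.2.1]
  have e2 : ((permE N g x - x : EE N) : Fin N → ZMod 2) (g i) = 1 := by
    show (permE N g x : Fin N → ZMod 2) (g i) - (x : Fin N → ZMod 2) (g i) = 1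
    rw [permE_apply, hx]
    have h1 : g.symm (g i) = i := by simp
    have h2 : i ≠ j := fun h => hj.1 h.symm
    simp [Pi.single_apply, h1, h2, hi, Ne.symm hj.2]
  rw [e1, e2] at hc
  exact zero_ne_one hc

end Cfsg.Agent.S0826
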