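import Cfsg.Statements.S0828
-- import your own Cfsg.Agent.* helpers here
import Mathlib
import Cfsg.Agent.S0776

set_option autoImplicit false
open Cfsg

namespace Cfsg.Agent.S0828

open Matrix
open Cfsg.Agent.S0776 Cfsg.Agent.S0766

section Helpers

variable {F : Type*} [Field F] [Fintype F]

theorem card_fiber_count {α β : Type*} [Finite α] [Finite β] (φ : α → β) (c : ℕ)
    (h : ∀ b, Nat.card {a // φ a = b} = c) : Nat.card α = Nat.card β * c := by
  classical
  have := Fintype.ofFinite β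
  rw [← Nat.card_congr (Equiv.sigmaFiberEquiv φ), Nat.card_sigma]
  simp only [h, Finset.sum_const, Finset.card_univ, smul_eq_mul, Nat.card_eq_fintype_card]

theorem double_count {α β : Type*} [Finite α] [Finite β] (R : α → β → Prop) (c₁ c₂ : ℕ)
    (h₁ : ∀ a, Nat.card {b // R a b} = c₁) (h₂ : ∀ b, Nat.card {a // R a b} = c₂) :
    Nat.card α * c₁ = Nat.card β * c₂ := by
  classical
  have := Fintype.ofFinite α
  have := Fintype.ofFinite β
  have e1 : Nat.card (Σ a, {b // R a b}) = Nat.card α * c₁ := by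
    rw [Nat.card_sigma]
    simp only [h₁, Finset.sum_const, Finset.card_univ, smul_eq_mul, Nat.card_eq_fintype_card]
  have e2 : Nat.card (Σ b, {a // R a b}) = Nat.card β * c₂ := by
    rw [Nat.card_sigma]
    simp only [h₂, Finset.sum_const, Finset.card_univ, smul_eq_mul, Nat.card_eq_fintype_card]
  rw [← e1, ← e2]
  apply Nat.card_congr
  exact { toFun := fun x => ⟨x.2.1, ⟨x.1, x.2.2⟩⟩
          invFun := fun x => ⟨x.2.1, ⟨x.1, x.2.2⟩⟩
          left_inv := fun x => rfl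
          right_inv := fun x => rfl }

theorem natcard_sub (W : Submodule F (Fin 2 ⊕ Fin 2 → F)) :
    Nat.card W = Fintype.card F ^ Module.finrank F W := by
  classical
  rw [Nat.card_eq_fintype_card]
  exact Module.card_eq_pow_finrank

theorem card_diff (W L : Submodule F (Fin 2 ⊕ Fin 2 → F)) (hLW : L ≤ W) :
    Nat.card {w : Fin 2 ⊕ Fin 2 → F // w ∈ W ∧ w ∉ L}
      = Fintype.card F ^ Module.finrank F W - Fintype.card F ^ Module.finrank F L := by
  classical
  have h1 : Nat.card {w : Fin 2 ⊕ Fin 2 → F // w ∈ W ∧ w ∉ L}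
      = Nat.card {x : W // ¬ ((x : Fin 2 ⊕ Fin 2 → F) ∈ L)} :=
    Nat.card_congr
      { toFun := fun w => ⟨⟨w.1, w.2.1⟩, w.2.2⟩
        invFun := fun x => ⟨x.1.1, x.1.2, x.2⟩
        left_inv := fun w => rfl
        right_inv := fun x => rfl }
  have h2 : Nat.card {x : W // (x : Fin 2 ⊕ Fin 2 → F) ∈ L} = Nat.card L :=
    Nat.card_congr
      { toFun := fun x => ⟨x.1.1, x.2⟩
        invFun := fun y => ⟨⟨y.1, hLW y.2⟩, y.2⟩
        left_inv := fun w => rfl
        right_inv := fun x => rfl }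
  have h3 : Nat.card ({x : W // (x : Fin 2 ⊕ Fin 2 → F) ∈ L} ⊕ {x : W // ¬ ((x : Fin 2 ⊕ Fin 2 → F) ∈ L)})
      = Nat.card W := Nat.card_congr (Equiv.sumCompl _)
  rw [Nat.card_sum, h2, natcard_sub, natcard_sub] at h3
  rw [h1]
  omega

omit [Fintype F] in
theorem ti_span (v w : Fin 2 ⊕ Fin 2 → F) (hvw : Cfsg.sympForm 2 F v w = 0) :
    ∀ u ∈ Submodule.span F (Set.range ![v, w]), ∀ u' ∈ Submodule.span F (Set.range ![v, w]),
      Cfsg.sympForm 2 F u u' = 0 := by
  have hS : ∀ x ∈ Set.range ![v, w], ∀ y ∈ Set.range ![v, w], sB 2 F x y = 0 := by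
    rintro x ⟨i, rfl⟩ y ⟨j, rfl⟩
    rw [sB_apply]
    fin_cases i <;> fin_cases j
    · exact sf_self v
    · exact hvw
    · show Cfsg.sympForm 2 F w v = 0
      rw [sf_anti, hvw, neg_zero]
    · exact sf_self w
  have h1 : ∀ x ∈ Set.range ![v, w], ∀ u' ∈ Submodule.span F (Set.range ![v, w]),
      sB 2 F x u' = 0 := by
    intro x hx u' hu'
    have h2 : Submodule.span F (Set.range ![v, w]) ≤ LinearMap.ker (sB 2 F x) :=
      Submodule.span_le.mpr (fun y hy => hS x hx y hy)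
    exact h2 hu'
  intro u hu u' hu'
  rw [← sB_apply]
  have h2 : Submodule.span F (Set.range ![v, w]) ≤ LinearMap.ker ((sB 2 F).flip u') :=
    Submodule.span_le.mpr (fun x hx => h1 x hx u' hu')
  exact h2 hu

omit [Fintype F] in
theorem finrank_span_pair (v w : Fin 2 ⊕ Fin 2 → F) (hv : v ≠ 0)
    (hw : w ∉ Submodule.span F {v}) :
    Module.finrank F (Submodule.span F (Set.range ![v, w])) = 2 := by
  have hli : LinearIndependent F ![v, w] := by
    rw [LinearIndependent.pair_iff' hv]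
    intro a ha
    exact hw (Submodule.mem_span_singleton.mpr ⟨a, ha⟩)
  rw [finrank_span_eq_card hli, Fintype.card_fin]

theorem q_ge (q : ℕ) (hF : Fintype.card F = q) : 2 ≤ q := by
  rw [← hF]; exact Fintype.one_lt_card

theorem partB {q : ℕ} (hF : Fintype.card F = q) (v : Fin 2 ⊕ Fin 2 → F) (hv : v ≠ 0) :
    Nat.card {W : Submodule F (Fin 2 ⊕ Fin 2 → F) // Module.finrank F W = 2 ∧ v ∈ W ∧
      ∀ u ∈ W, ∀ w ∈ W, Cfsg.sympForm 2 F u w = 0} = q + 1 := by
  classical
  obtain ⟨P, hP⟩ : ∃ P : Submodule F (Fin 2 ⊕ Fin 2 → F), P = LinearMap.ker (sB 2 F v) := ⟨_, rfl⟩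
  obtain ⟨L, hL⟩ : ∃ L : Submodule F (Fin 2 ⊕ Fin 2 → F), L = Submodule.span F {v} := ⟨_, rfl⟩
  have hPmem : ∀ w, w ∈ P ↔ Cfsg.sympForm 2 F v w = 0 := fun w => by
    rw [hP, LinearMap.mem_ker, sB_apply]
  have hLP : L ≤ P := by
    rw [hL, Submodule.span_le]
    intro x hx
    rw [Set.mem_singleton_iff] at hx
    rw [hx]
    exact (hPmem v).mpr (sf_self v)
  have hfP : Module.finrank F P = 3 := by
    have hne : sB 2 F v ≠ 0 := by
      intro h
      apply hv
      apply sB_nondeg.1 v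
      intro y
      rw [h]; rfl
    have h1 := Module.Dual.finrank_ker_add_one_of_ne_zero hne
    rw [Module.finrank_fintype_fun_eq_card] at h1
    simp at h1
    rw [hP]; omega
  have hfL : Module.finrank F L = 1 := by rw [hL]; exact finrank_span_singleton hv
  have hvL : v ∈ L := by rw [hL]; exact Submodule.mem_span_singleton_self v
  obtain ⟨φ, hφ⟩ : ∃ φ : {w : Fin 2 ⊕ Fin 2 → F // w ∈ P ∧ w ∉ L} →
      {W : Submodule F (Fin 2 ⊕ Fin 2 → F) // Module.finrank F W = 2 ∧ v ∈ W ∧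
        ∀ u ∈ W, ∀ w ∈ W, Cfsg.sympForm 2 F u w = 0},
      ∀ w, (φ w).1 = Submodule.span F (Set.range ![v, w.1]) := by
    refine ⟨fun w => ⟨Submodule.span F (Set.range ![v, w.1]), ?_, ?_, ?_⟩, fun w => rfl⟩
    · exact finrank_span_pair v w.1 hv (by rw [← hL]; exact w.2.2)
    · exact Submodule.subset_span ⟨0, rfl⟩
    · exact ti_span v w.1 ((hPmem _).mp w.2.1)
  have hfib : ∀ W : {W : Submodule F (Fin 2 ⊕ Fin 2 → F) // Module.finrank F W = 2 ∧ v ∈ W ∧
        ∀ u ∈ W, ∀ w ∈ W, Cfsg.sympForm 2 F u w = 0},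
      Nat.card {a // φ a = W} = q ^ 2 - q := by
    intro W
    have hLW : L ≤ W.1 := by
      rw [hL, Submodule.span_le]
      intro x hx
      rw [Set.mem_singleton_iff] at hx
      rw [hx]; exact W.2.2.1
    have h1 := card_diff W.1 L hLW
    rw [W.2.1, hfL, hF, pow_one] at h1
    rw [← h1]
    apply Nat.card_congr
    refine { toFun := fun a => ⟨a.1.1, ?_, a.1.2.2⟩
             invFun := fun w => ⟨⟨w.1, (hPmem _).mpr (W.2.2.2 v W.2.2.1 w.1 w.2.1), w.2.2⟩, ?_⟩
             left_inv := fun a => rfl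
             right_inv := fun w => rfl }
    · have h2 := congrArg Subtype.val a.2
      rw [hφ] at h2
      rw [← h2]
      exact Submodule.subset_span ⟨1, rfl⟩
    · apply Subtype.ext
      rw [hφ]
      apply Submodule.eq_of_le_of_finrank_eq
      · rw [Submodule.span_le]
        rintro x ⟨i, rfl⟩
        fin_cases i
        · exact W.2.2.1
        · exact w.2.1
      · exact (finrank_span_pair v w.1 hv (by rw [← hL]; exact w.2.2)).trans W.2.1.symm
  have hcount := card_fiber_count φ (q ^ 2 - q) hfib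
  have hX := card_diff P L hLP
  rw [hfP, hfL, hF, pow_one] at hX
  rw [hX] at hcount
  have hq := q_ge q hF
  obtain ⟨r, rfl⟩ : ∃ r, q = r + 2 := ⟨q - 2, by omega⟩
  have e1 : (r + 2) ^ 3 - (r + 2) = (r + 2 + 1) * ((r + 2) ^ 2 - (r + 2)) := by
    have e2 : (r + 2) ^ 2 - (r + 2) = (r + 2) * (r + 1) := by
      apply Nat.sub_eq_of_eq_add; ring
    rw [e2]
    apply Nat.sub_eq_of_eq_add; ring
  rw [e1] at hcount
  have hpos : 0 < (r + 2) ^ 2 - (r + 2) := by
    have e2 : (r + 2) ^ 2 - (r + 2) = (r + 2) * (r + 1) := by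
      apply Nat.sub_eq_of_eq_add; ring
    rw [e2]; positivity
  exact (Nat.eq_of_mul_eq_mul_right hpos hcount).symm

end Helpers

/-- The symplectic generalised quadrangle over a field with q elements: the number of 2-dimensional subspaces of F^4 on which the symplectic form vanishes is (q + 1)(q² + 1), and every non-zero vector lies in exactly q + 1 of them. -/
theorem result {F : Type*} [Field F] [Fintype F] {q : ℕ} (hF : Fintype.card F = q) : Nat.card {W : Submodule F (Fin 2 ⊕ Fin 2 → F) // Module.finrank F W = 2 ∧ ∀ u ∈ W, ∀ v ∈ W, Cfsg.sympForm 2 F u v = 0} = (q + 1) * (q ^ 2 + 1) ∧ ∀ v : Fin 2 ⊕ Fin 2 → F, v ≠ 0 → Nat.card {W : Submodule F (Fin 2 ⊕ Fin 2 → F) // Module.finrank F W = 2 ∧ v ∈ W ∧ ∀ u ∈ W, ∀ w ∈ W, Cfsg.sympForm 2 F u w = 0} = q + 1 := by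
  classical
  refine ⟨?_, fun v hv => partB hF v hv⟩
  have hdc := double_count
    (α := {v : Fin 2 ⊕ Fin 2 → F // v ∈ (⊤ : Submodule F (Fin 2 ⊕ Fin 2 → F)) ∧
      v ∉ (⊥ : Submodule F (Fin 2 ⊕ Fin 2 → F))})
    (β := {W : Submodule F (Fin 2 ⊕ Fin 2 → F) // Module.finrank F W = 2 ∧
      ∀ u ∈ W, ∀ v ∈ W, Cfsg.sympForm 2 F u v = 0})
    (fun v W => v.1 ∈ W.1) (q + 1) (q ^ 2 - 1) ?_ ?_
  · have hα := card_diff (⊤ : Submodule F (Fin 2 ⊕ Fin 2 → F)) ⊥ bot_le
    rw [finrank_top, finrank_bot, Module.finrank_fintype_fun_eq_card, hF] at hα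
    simp only [Fintype.card_sum, Fintype.card_fin, pow_zero] at hα
    rw [hα] at hdc
    have hq := q_ge q hF
    obtain ⟨r, rfl⟩ : ∃ r, q = r + 2 := ⟨q - 2, by omega⟩
    have e1 : (r + 2) ^ (2 + 2) - 1 = ((r + 2) ^ 2 + 1) * ((r + 2) ^ 2 - 1) := by
      have e2 : (r + 2) ^ 2 - 1 = (r + 1) * (r + 3) := by
        apply Nat.sub_eq_of_eq_add; ring
      rw [e2]
      apply Nat.sub_eq_of_eq_add; ring
    rw [e1] at hdc
    have hpos : 0 < (r + 2) ^ 2 - 1 := by
      have e2 : (r + 2) ^ 2 - 1 = (r + 1) * (r + 3) := by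
        apply Nat.sub_eq_of_eq_add; ring
      rw [e2]; positivity
    have h3 : ((r + 2) ^ 2 + 1) * ((r + 2) ^ 2 - 1) * (r + 2 + 1)
        = ((r + 2 + 1) * ((r + 2) ^ 2 + 1)) * ((r + 2) ^ 2 - 1) := by ring
    rw [h3] at hdc
    exact (Nat.eq_of_mul_eq_mul_right hpos hdc).symm
  · intro v
    have hv : v.1 ≠ 0 := fun h => v.2.2 (by rw [h]; exact Submodule.zero_mem _)
    rw [← partB hF v.1 hv]
    apply Nat.card_congr
    exact { toFun := fun W => ⟨W.1.1, W.1.2.1, W.2, W.1.2.2⟩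
            invFun := fun W => ⟨⟨W.1, W.2.1, W.2.2.2⟩, W.2.2.1⟩
            left_inv := fun W => rfl
            right_inv := fun W => rfl }
  · intro W
    have h1 := card_diff W.1 ⊥ bot_le
    rw [W.2.1, finrank_bot, hF, pow_zero] at h1
    rw [← h1]
    apply Nat.card_congr
    exact { toFun := fun a => ⟨a.1.1, a.2, a.1.2.2⟩
            invFun := fun w => ⟨⟨w.1, Submodule.mem_top, w.2.2⟩, w.2.1⟩
            left_inv := fun a => rfl
            right_inv := fun w => rfl }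

end Cfsg.Agent.S0828
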