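import Cfsg.Statements.S0829
-- import your own Cfsg.Agent.* helpers here
import Cfsg.Agent.Lib.helper4.UFrames

set_option autoImplicit false
open Cfsg

namespace Cfsg.Agent.S0829

/-- The unitary quadrangle of PSU_4(q): with |F| = q², the number of 2-dimensional subspaces of F^4 on which the Hermitian form Σ x_i y_i^q vanishes is (q + 1)(q³ + 1). -/
theorem result {F : Type*} [Field F] [Fintype F] {q : ℕ} (hF : Fintype.card F = q ^ 2) : Nat.card {W : Submodule F (Fin 4 → F) // Module.finrank F W = 2 ∧ ∀ u ∈ W, ∀ v ∈ W, Cfsg.hermForm 4 F q u v = 0} = (q + 1) * (q ^ 3 + 1) := by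
  classical
  have hq := Cfsg.Agent.Lib.helper4.uq_ge_two hF
  have h0 := Cfsg.Agent.Lib.helper4.card_ti_subspaces hF (n := 4) 2
  have h1 := Cfsg.Agent.Lib.helper4.card_uframes_succ hF (n := 4) 0 (by norm_num)
  have h2 := Cfsg.Agent.Lib.helper4.card_uframes_succ hF (n := 4) 1 (by norm_num)
  rw [Cfsg.Agent.Lib.helper4.card_uframes_zero] at h1
  have h0' := congrArg (fun x : ℕ => (x : ℤ)) h0
  simp only [Fin.prod_univ_two, Fin.val_zero, Fin.val_one, pow_zero, pow_one] at h0'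
  have hle1 : 1 ≤ (q ^ 2) ^ 2 := Nat.one_le_pow _ _ (by positivity)
  have hle2 : q ^ 2 ≤ (q ^ 2) ^ 2 := Nat.le_self_pow (by norm_num) _
  push_cast [Nat.cast_sub hle1, Nat.cast_sub hle2] at h0' h1 h2
  have hQ : (2 : ℤ) ≤ (q : ℤ) := by exact_mod_cast hq
  have hQ2 : (4 : ℤ) ≤ (q : ℤ) ^ 2 := by nlinarith
  have hQ4 : (16 : ℤ) ≤ (q : ℤ) ^ 4 := by nlinarith
  have hne : (((q : ℤ) ^ 2) ^ 2 - 1) * (((q : ℤ) ^ 2) ^ 2 - (q : ℤ) ^ 2) * (q : ℤ) ^ 2 ≠ 0 := by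
    apply mul_ne_zero
    · apply mul_ne_zero
      · intro h; nlinarith
      · intro h; nlinarith
    · intro h; nlinarith
  have key : ((Nat.card {W : Submodule F (Fin 4 → F) // Module.finrank F W = 2 ∧ ∀ u ∈ W, ∀ v ∈ W, Cfsg.hermForm 4 F q u v = 0} : ℕ) : ℤ) = (((q + 1) * (q ^ 3 + 1) : ℕ) : ℤ) := by
    push_cast
    apply mul_right_cancel₀ hne
    linear_combination ((q : ℤ) ^ 2) * h0' + (q : ℤ) * h2
      + (((q : ℤ) ^ (2 * (4 - 1)) + ((q : ℤ) - 1) * (-(q : ℤ)) ^ 4 - (q : ℤ) ^ (2 * 1 + 1))) * h1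
  exact_mod_cast key

end Cfsg.Agent.S0829
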