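import Cfsg.Statements.S0831
-- import your own Cfsg.Agent.* helpers here
import Cfsg.Agent.Lib.helper4.OrthTS
import Cfsg.Agent.S2562

set_option autoImplicit false
open Cfsg

namespace Cfsg.Agent.S0831

/-- The two families of maximal totally singular subspaces of the hyperbolic quadric: for the form Σ x_i y_i on F^(2m), m ≥ 1, and m-dimensional subspaces U, W, X on which it vanishes, the parities of m − dim(U ∩ W), m − dim(W ∩ X) and m − dim(U ∩ X) sum to an even number (so 'even codimension of the intersection' is an equivalence relation), and there exist two such subspaces meeting in codimension 1 (so there are exactly two classes). -/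
theorem result {F : Type*} [Field F] (m : ℕ) (hm : 1 ≤ m) : (∀ U W X : Submodule F (Fin m ⊕ Fin m → F), (Module.finrank F U = m ∧ ∀ w ∈ U, Cfsg.quadFormPlus m F w = 0) → (Module.finrank F W = m ∧ ∀ w ∈ W, Cfsg.quadFormPlus m F w = 0) → (Module.finrank F X = m ∧ ∀ w ∈ X, Cfsg.quadFormPlus m F w = 0) → Even ((m - Module.finrank F ↥(U ⊓ W)) + (m - Module.finrank F ↥(W ⊓ X)) + (m - Module.finrank F ↥(U ⊓ X)))) ∧ ∃ U W : Submodule F (Fin m ⊕ Fin m → F), (Module.finrank F U = m ∧ ∀ w ∈ U, Cfsg.quadFormPlus m F w = 0) ∧ (Module.finrank F W = m ∧ ∀ w ∈ W, Cfsg.quadFormPlus m F w = 0) ∧ Module.finrank F ↥(U ⊓ W) + 1 = m := by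
  classical
  have hQ := Cfsg.Agent.S2562.nondeg_qP (F := F) m
  have hcard : Fintype.card (Fin m ⊕ Fin m) = 2 * m := by
    rw [Fintype.card_sum, Fintype.card_fin]
    ring
  have hmax : ∀ U : Submodule F (Fin m ⊕ Fin m → F),
      (Module.finrank F U = m ∧ ∀ w ∈ U, Cfsg.quadFormPlus m F w = 0) →
      Cfsg.Agent.Lib.helper13.MaxTS (Cfsg.Agent.S2562.qP F m) U := by
    rintro U ⟨h1, h2⟩
    exact ⟨fun u hu => by rw [Cfsg.Agent.S2562.qP_apply]; exact h2 u hu, by rw [h1, hcard]⟩
  have hback : ∀ U : Submodule F (Fin m ⊕ Fin m → F),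
      Cfsg.Agent.Lib.helper13.MaxTS (Cfsg.Agent.S2562.qP F m) U →
      (Module.finrank F U = m ∧ ∀ w ∈ U, Cfsg.quadFormPlus m F w = 0) := by
    rintro U ⟨h1, h2⟩
    refine ⟨by rw [hcard] at h2; omega, fun u hu => ?_⟩
    rw [← Cfsg.Agent.S2562.qP_apply]
    exact h1 u hu
  constructor
  · intro U W X hU hW hX
    have h1 := Cfsg.Agent.Lib.helper4.ts_three (Cfsg.Agent.S2562.qP F m) hQ U W X (hmax U hU)
      (hmax W hW) (hmax X hX)
    rw [hU.1] at h1
    exact h1
  · obtain ⟨f, hf⟩ : ∃ f : (Fin m → F) →ₗ[F] (Fin m ⊕ Fin m → F),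
        ∀ x, f x = Sum.elim x 0 :=
      ⟨{ toFun := fun x => Sum.elim x 0
         map_add' := by
           intro x y
           funext j
           rcases j with j | j <;> simp
         map_smul' := by
           intro t x
           funext j
           rcases j with j | j <;> simp }, fun x => rfl⟩
    have hinj : Function.Injective f := by
      intro x y hxy
      rw [hf, hf] at hxy
      funext i
      exact congrFun hxy (Sum.inl i)
    have hU₀ : Cfsg.Agent.Lib.helper13.MaxTS (Cfsg.Agent.S2562.qP F m) (LinearMap.range f) := by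
      refine hmax _ ⟨?_, ?_⟩
      · rw [LinearMap.finrank_range_of_inj hinj, Module.finrank_fin_fun]
      · rintro w ⟨x, rfl⟩
        rw [hf]
        unfold Cfsg.quadFormPlus
        simp
    obtain ⟨v₀, hv₀def⟩ : ∃ v₀ : Fin m ⊕ Fin m → F, v₀ = Sum.elim
        (Pi.single (⟨0, by omega⟩ : Fin m) 1) (Pi.single (⟨0, by omega⟩ : Fin m) 1) := ⟨_, rfl⟩
    have hv₀ : Cfsg.Agent.S2562.qP F m v₀ ≠ 0 := by
      rw [hv₀def, Cfsg.Agent.S2562.qP_apply]
      unfold Cfsg.quadFormPlus
      rw [Finset.sum_eq_single (⟨0, by omega⟩ : Fin m)]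
      · simp
      · intro b _ hb
        simp [hb]
      · intro hb
        exact absurd (Finset.mem_univ _) hb
    have hW := Cfsg.Agent.Lib.helper13.imgSub_maxTS (Cfsg.Agent.S2562.qP F m)
      (Cfsg.Agent.Lib.helper13.reflEl (Cfsg.Agent.S2562.qP F m) v₀) (LinearMap.range f) hU₀
    refine ⟨LinearMap.range f, _, hback _ hU₀, hback _ hW, ?_⟩
    have hle : Module.finrank F ↥(LinearMap.range f ⊓ Cfsg.Agent.Lib.helper13.imgSub
        (Cfsg.Agent.S2562.qP F m) (Cfsg.Agent.Lib.helper13.reflEl (Cfsg.Agent.S2562.qP F m) v₀)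
        (LinearMap.range f)) ≤ Module.finrank F ↥(LinearMap.range f) :=
      Submodule.finrank_mono inf_le_left
    have hm' := (hback _ hU₀).1
    rcases Cfsg.Agent.Lib.helper13.maxTS_refl (Cfsg.Agent.S2562.qP F m) hQ (LinearMap.range f)
      (LinearMap.range f) hU₀ hU₀ v₀ hv₀ with h | h
    · rw [inf_idem] at h
      omega
    · rw [inf_idem] at h
      omega

end Cfsg.Agent.S0831
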