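import Cfsg.Statements.S0832
-- import your own Cfsg.Agent.* helpers here
import Cfsg.Agent.Lib.helper4.OrthTS3

set_option autoImplicit false
open Cfsg

namespace Cfsg.Agent.S0832

/-- For the form Σ x_i y_i on F^(2m) over a finite field, m ≥ 1: an (m−1)-dimensional subspace on which the form vanishes is contained in exactly two m-dimensional subspaces on which it vanishes. -/
theorem result {F : Type*} [Field F] [Finite F] (m : ℕ) (hm : 1 ≤ m) (U : Submodule F (Fin m ⊕ Fin m → F)) (hU : Module.finrank F U + 1 = m ∧ ∀ u ∈ U, Cfsg.quadFormPlus m F u = 0) : Nat.card {W : Submodule F (Fin m ⊕ Fin m → F) // Module.finrank F W = m ∧ (∀ w ∈ W, Cfsg.quadFormPlus m F w = 0) ∧ U ≤ W} = 2 := by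
  classical
  have hQ := Cfsg.Agent.S2562.nondeg_qP (F := F) m
  have hcard : Fintype.card (Fin m ⊕ Fin m) = 2 * m := by
    rw [Fintype.card_sum, Fintype.card_fin]
    ring
  obtain ⟨U₀, hU₀⟩ := Cfsg.Agent.Lib.helper4.qP_maxTS_exists (F := F) m
  obtain ⟨M₁, M₂, h1, h2, hU1, hU2, hne, huniq⟩ := Cfsg.Agent.Lib.helper4.submax_two
    (Cfsg.Agent.S2562.qP F m) hQ U₀ hU₀ U
    (fun u hu => by rw [Cfsg.Agent.S2562.qP_apply]; exact hU.2 u hu) (by rw [hcard]; omega)
  have hback : ∀ W : Submodule F (Fin m ⊕ Fin m → F),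
      Cfsg.Agent.Lib.helper13.MaxTS (Cfsg.Agent.S2562.qP F m) W →
      (Module.finrank F W = m ∧ ∀ w ∈ W, Cfsg.quadFormPlus m F w = 0) := by
    rintro W ⟨h1, h2⟩
    refine ⟨by rw [hcard] at h2; omega, fun u hu => ?_⟩
    rw [← Cfsg.Agent.S2562.qP_apply]
    exact h1 u hu
  rw [Nat.card_eq_two_iff]
  refine ⟨⟨M₁, (hback M₁ h1).1, (hback M₁ h1).2, hU1⟩, ⟨M₂, (hback M₂ h2).1, (hback M₂ h2).2, hU2⟩,
    ?_, ?_⟩
  · intro h
    exact hne (congrArg Subtype.val h)
  · rw [Set.eq_univ_iff_forall]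
    rintro ⟨W, hW1, hW2, hW3⟩
    rcases huniq W ⟨fun u hu => by rw [Cfsg.Agent.S2562.qP_apply]; exact hW2 u hu,
      by rw [hW1, hcard]⟩ hW3 with h | h
    · exact Or.inl (Subtype.ext h)
    · exact Or.inr (Subtype.ext h)

end Cfsg.Agent.S0832
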