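import Cfsg.Statements.S0833
-- import your own Cfsg.Agent.* helpers here

set_option autoImplicit false
open Cfsg

namespace Cfsg.Agent.S0833

open TensorProduct in
theorem tmul_alt_symm {F U W : Type*} [Field F] [AddCommGroup U] [Module F U] [AddCommGroup W]
    [Module F W] (B₁ : LinearMap.BilinForm F U) (B₂ : LinearMap.BilinForm F W)
    (hA₁ : B₁.IsAlt) (hA₂ : B₂.IsAlt) : (B₁.tmul B₂).IsSymm := by
  have h : B₁.tmul B₂ = (B₁.tmul B₂).flip := by
    apply TensorProduct.ext'
    intro u w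
    apply TensorProduct.ext'
    intro u' w'
    rw [LinearMap.flip_apply]
    show LinearMap.BilinForm.tensorDistrib F F (B₁ ⊗ₜ B₂) (u ⊗ₜ w) (u' ⊗ₜ w') =
      LinearMap.BilinForm.tensorDistrib F F (B₁ ⊗ₜ B₂) (u' ⊗ₜ w') (u ⊗ₜ w)
    rw [LinearMap.BilinForm.tensorDistrib_tmul, LinearMap.BilinForm.tensorDistrib_tmul,
      ← hA₁.neg_eq u u', ← hA₂.neg_eq w w']
    simp
  refine ⟨fun x y => ?_⟩
  have h2 := congrArg (fun B => B x y) h
  simp only [LinearMap.flip_apply] at h2
  exact h2

open TensorProduct in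
theorem tmul_nondeg {F U W : Type*} [Field F] [AddCommGroup U] [Module F U] [AddCommGroup W]
    [Module F W] [FiniteDimensional F U] [FiniteDimensional F W]
    (B₁ : LinearMap.BilinForm F U) (B₂ : LinearMap.BilinForm F W)
    (h₁ : B₁.Nondegenerate) (h₂ : B₂.Nondegenerate) (hs : (B₁.tmul B₂).IsSymm) :
    (B₁.tmul B₂).Nondegenerate := by
  have key : (B₁.tmul B₂ : U ⊗[F] W →ₗ[F] Module.Dual F (U ⊗[F] W)) =
      (TensorProduct.dualDistribEquiv F U W).toLinearMap ∘ₗ
        (TensorProduct.congr (B₁.toDual h₁) (B₂.toDual h₂)).toLinearMap := by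
    apply TensorProduct.ext'
    intro u w
    apply TensorProduct.ext'
    intro u' w'
    show LinearMap.BilinForm.tensorDistrib F F (B₁ ⊗ₜ B₂) (u ⊗ₜ w) (u' ⊗ₜ w') = _
    rw [LinearMap.BilinForm.tensorDistrib_tmul]
    simp [TensorProduct.dualDistribEquiv, LinearMap.BilinForm.toDual_def, mul_comm]
  have hinj : Function.Injective (B₁.tmul B₂ : U ⊗[F] W →ₗ[F] Module.Dual F (U ⊗[F] W)) := by
    rw [key]
    exact (TensorProduct.dualDistribEquiv F U W).injective.comp
      (TensorProduct.congr (B₁.toDual h₁) (B₂.toDual h₂)).injective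
  have hl : (B₁.tmul B₂).SeparatingLeft := by
    intro x hx
    apply hinj
    rw [map_zero]
    exact LinearMap.ext hx
  refine ⟨hl, ?_⟩
  intro y hy
  refine hl y (fun x => ?_)
  have h5 := hs.eq x y
  simp only [RingHom.id_apply] at h5
  rw [← h5]
  exact hy x

theorem exists_lagrangian {F U : Type*} [Field F] [Fintype F] [AddCommGroup U] [Module F U]
    [FiniteDimensional F U] (B : LinearMap.BilinForm F U) (hB : B.Nondegenerate) (hA : B.IsAlt)
    (k : ℕ) (hU : Module.finrank F U = 2 * k) :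
    ∃ L : Submodule F U, Module.finrank F L = k ∧ ∀ x ∈ L, ∀ y ∈ L, B x y = 0 := by
  haveI : Finite U := Module.finite_of_finite F
  haveI : Finite (Submodule F U) :=
    Finite.of_injective (fun L : Submodule F U => (L : Set U)) SetLike.coe_injective
  haveI : Nonempty {L : Submodule F U // ∀ x ∈ L, ∀ y ∈ L, B x y = 0} :=
    ⟨⟨⊥, by intro x hx y hy; rw [Submodule.mem_bot] at hx; rw [hx]; simp⟩⟩
  obtain ⟨⟨L, hL⟩, hmax⟩ := Finite.exists_max
    (fun L : {L : Submodule F U // ∀ x ∈ L, ∀ y ∈ L, B x y = 0} => Module.finrank F L.1)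
  refine ⟨L, ?_, hL⟩
  have hle : L ≤ B.orthogonal L := by
    intro x hx
    rw [LinearMap.BilinForm.mem_orthogonal_iff]
    intro n hn
    exact hL n hn x hx
  have hfo := LinearMap.BilinForm.finrank_orthogonal hB L
  have h1 : Module.finrank F L ≤ Module.finrank F (B.orthogonal L) := Submodule.finrank_mono hle
  by_contra hne
  have hnot : ¬ (B.orthogonal L ≤ L) := fun h => by
    have := Submodule.finrank_mono h
    omega
  obtain ⟨v, hv, hvL⟩ := SetLike.not_le_iff_exists.mp hnot
  rw [LinearMap.BilinForm.mem_orthogonal_iff] at hv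
  have hL1 : ∀ x ∈ L ⊔ Submodule.span F {v}, ∀ y ∈ L ⊔ Submodule.span F {v}, B x y = 0 := by
    intro x hx y hy
    rw [Submodule.mem_sup] at hx hy
    obtain ⟨a, ha, b, hb, rfl⟩ := hx
    obtain ⟨a', ha', b', hb', rfl⟩ := hy
    rw [Submodule.mem_span_singleton] at hb hb'
    obtain ⟨c, rfl⟩ := hb
    obtain ⟨c', rfl⟩ := hb'
    simp only [map_add, LinearMap.add_apply, map_smul, LinearMap.smul_apply, smul_eq_mul]
    rw [hL a ha a' ha', hv a ha, ← hA.neg_eq a' v, hv a' ha', hA v]
    simp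
  have hlt2 : L < L ⊔ Submodule.span F {v} := by
    apply lt_of_le_of_ne le_sup_left
    intro h
    apply hvL
    rw [h]
    exact Submodule.mem_sup_right (Submodule.mem_span_singleton_self v)
  have h3 := hmax ⟨L ⊔ Submodule.span F {v}, hL1⟩
  have h4 := Submodule.finrank_lt_finrank_of_lt hlt2
  simp only at h3
  omega

/-- If B₁, B₂ are non-degenerate alternating forms on U (dim 2k) and W (dim 2l), then B₁ ⊗ B₂ on U ⊗ W is symmetric, non-degenerate, and vanishes identically on some subspace of dimension 2kl (half of dim U ⊗ W). -/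
theorem result {F U W : Type*} [Field F] [Fintype F] [AddCommGroup U] [Module F U] [FiniteDimensional F U] [AddCommGroup W] [Module F W] [FiniteDimensional F W] (B₁ : LinearMap.BilinForm F U) (B₂ : LinearMap.BilinForm F W) (h₁ : B₁.Nondegenerate) (h₂ : B₂.Nondegenerate) (hA₁ : B₁.IsAlt) (hA₂ : B₂.IsAlt) (k l : ℕ) (hU : Module.finrank F U = 2 * k) (hW : Module.finrank F W = 2 * l) : (B₁.tmul B₂).IsSymm ∧ (B₁.tmul B₂).Nondegenerate ∧ (∃ X : Submodule F (TensorProduct F U W), Module.finrank F X = 2 * k * l ∧ ∀ x ∈ X, ∀ y ∈ X, (B₁.tmul B₂) x y = 0) := by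
  have hs := tmul_alt_symm B₁ B₂ hA₁ hA₂
  refine ⟨hs, tmul_nondeg B₁ B₂ h₁ h₂ hs, ?_⟩
  obtain ⟨L, hLk, hL⟩ := exists_lagrangian B₁ h₁ hA₁ k hU
  have hinj : Function.Injective (LinearMap.rTensor W L.subtype) :=
    Module.Flat.rTensor_preserves_injective_linearMap L.subtype (Submodule.injective_subtype L)
  refine ⟨LinearMap.range (LinearMap.rTensor W L.subtype), ?_, ?_⟩
  · rw [LinearMap.finrank_range_of_inj hinj, Module.finrank_tensorProduct, hLk, hW]
    ring
  · rintro _ ⟨x, rfl⟩ _ ⟨y, rfl⟩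
    induction x using TensorProduct.induction_on with
    | zero => simp
    | tmul a w =>
      induction y using TensorProduct.induction_on with
      | zero => simp
      | tmul a' w' =>
        rw [LinearMap.rTensor_tmul, LinearMap.rTensor_tmul]
        show LinearMap.BilinForm.tensorDistrib F F (TensorProduct.tmul F B₁ B₂) _ _ = 0
        rw [LinearMap.BilinForm.tensorDistrib_tmul]
        simp [hL a a.2 a' a'.2]
      | add y y' hy hy' => rw [map_add, map_add, hy, hy', add_zero]
    | add x x' hx hx' => rw [map_add, map_add, LinearMap.add_apply, hx, hx', add_zero]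

end Cfsg.Agent.S0833
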