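import Cfsg.Statements.S0834
-- import your own Cfsg.Agent.* helpers here
import Mathlib

set_option autoImplicit false
open Cfsg

namespace Cfsg.Agent.S0834

open TensorProduct Module in
theorem exists_bin {F : Type*} [Field F] [Fintype F] (h2 : (2 : F) ≠ 0) (d c : F) (hd : d ≠ 0) :
    ∃ x y : F, x ^ 2 + d * y ^ 2 + c = 0 := by
  have hchar : ringChar F ≠ 2 := by
    intro h
    have : CharP F 2 := ringChar.of_eq h
    exact h2 (by exact_mod_cast CharP.cast_eq_zero F 2)
  have hf : (Polynomial.X ^ 2 : Polynomial F).degree = 2 := Polynomial.degree_X_pow 2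
  have hg : (Polynomial.C d * Polynomial.X ^ 2 + Polynomial.C c : Polynomial F).degree = 2 := by
    rw [Polynomial.degree_add_C (by rw [Polynomial.degree_C_mul_X_pow 2 hd]; norm_num)]
    exact Polynomial.degree_C_mul_X_pow 2 hd
  obtain ⟨x, y, hxy⟩ := FiniteField.exists_root_sum_quadratic hf hg
    (FiniteField.odd_card_of_char_ne_two hchar)
  simp only [Polynomial.eval_add, Polynomial.eval_mul, Polynomial.eval_pow, Polynomial.eval_X,
    Polynomial.eval_C] at hxy
  exact ⟨x, y, by linear_combination hxy⟩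

open TensorProduct Module in
theorem core {F U W : Type*} [Field F] [Fintype F] [AddCommGroup U] [Module F U]
    [AddCommGroup W] [Module F W] (h2 : (2 : F) ≠ 0)
    (B₁ : LinearMap.BilinForm F U) (B₂ : LinearMap.BilinForm F W)
    {ι κ : Type*} [Fintype ι] [Fintype κ] [DecidableEq ι] [DecidableEq κ]
    (u : Basis (ι × Fin 2) F U) (w : Basis (κ × Fin 2) F W)
    (hu : ∀ i j, i ≠ j → B₁ (u i) (u j) = 0) (hw : ∀ i j, i ≠ j → B₂ (w i) (w j) = 0)
    (hu0 : ∀ i, B₁ (u i) (u i) ≠ 0) (hw0 : ∀ i, B₂ (w i) (w i) ≠ 0) :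
    ∃ X : Submodule F (U ⊗[F] W), Module.finrank F X = Fintype.card (ι × κ × Fin 2) ∧
      ∀ x ∈ X, ∀ y ∈ X, (B₁.tmul B₂) x y = 0 := by
  classical
  set a : ι → Fin 2 → F := fun s e => B₁ (u (s, e)) (u (s, e)) with ha
  set b : κ → Fin 2 → F := fun t e => B₂ (w (t, e)) (w (t, e)) with hb
  have hxy : ∀ s t, ∃ x y : F, x ^ 2 + (b t 1 / b t 0) * y ^ 2 + a s 1 / a s 0 = 0 :=
    fun s t => exists_bin h2 _ _ (div_ne_zero (hw0 _) (hw0 _))
  choose x y hxy using hxy
  -- coefficients
  set al : ι → κ → Fin 2 → F := fun s t e => if e = 0 then x s t else -(b t 1 / b t 0 * y s t)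
    with hal
  set be : ι → κ → Fin 2 → F := fun s t e => if e = 0 then y s t else x s t with hbe
  set p : ι → κ → Fin 2 → W := fun s t e => al s t e • w (t, 0) + be s t e • w (t, 1) with hp
  set v : ι × κ × Fin 2 → U ⊗[F] W :=
    fun i => u (i.1, 0) ⊗ₜ[F] p i.1 i.2.1 i.2.2 + u (i.1, 1) ⊗ₜ[F] w (i.2.1, i.2.2) with hv
  have hli : LinearIndependent F v := by
    set T := u.tensorProduct w with hT
    set φ : U ⊗[F] W →ₗ[F] (ι × κ × Fin 2 → F) :=
      { toFun := fun z i => T.repr z ((i.1, 1), (i.2.1, i.2.2))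
        map_add' := fun z1 z2 => by ext i; simp
        map_smul' := fun c z => by ext i; simp } with hφ
    have hφv : ∀ i, φ (v i) = Pi.single i 1 := by
      rintro ⟨s, t, e⟩
      ext ⟨s', t', e'⟩
      simp only [hφ, hv, LinearMap.coe_mk, AddHom.coe_mk, map_add, Pi.add_apply,
        hT, Basis.tensorProduct_repr_tmul_apply, Basis.repr_self, smul_eq_mul]
      rw [Finsupp.single_apply, Finsupp.single_apply, Finsupp.single_apply, Pi.single_apply]
      have h01 : ((s, (0 : Fin 2)) = (s', (1 : Fin 2))) ↔ False := by simp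
      simp only [h01, if_false, mul_zero, zero_add, Prod.mk.injEq, and_true]
      by_cases hs : s = s' <;> by_cases ht : t = t' <;> by_cases he : e = e' <;>
        simp [hs, ht, he, eq_comm]
    apply LinearIndependent.of_comp φ
    have : φ ∘ v = fun i => Pi.single i (1 : F) := funext hφv
    rw [this]
    convert (Pi.basisFun F (ι × κ × Fin 2)).linearIndependent using 1
    ext i j
    simp
  refine ⟨Submodule.span F (Set.range v), finrank_span_eq_card hli, ?_⟩
  -- pairwise orthogonality of the generators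
  have hB : ∀ i j, (B₁.tmul B₂) (v i) (v j) = 0 := by
    rintro ⟨s, t, e⟩ ⟨s', t', e'⟩
    simp only [hv, map_add, LinearMap.add_apply, LinearMap.BilinForm.tensorDistrib_tmul,
      smul_eq_mul]
    have h01 : B₁ (u (s, 0)) (u (s', 1)) = 0 := hu _ _ (by simp)
    have h10 : B₁ (u (s, 1)) (u (s', 0)) = 0 := hu _ _ (by simp)
    rw [h01, h10, mul_zero, mul_zero, add_zero, zero_add]
    by_cases hs : s = s'
    · subst hs
      by_cases ht : t = t'
      · subst ht
        have hw01 : B₂ (w (t, 0)) (w (t, 1)) = 0 := hw _ _ (by simp)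
        have hw10 : B₂ (w (t, 1)) (w (t, 0)) = 0 := hw _ _ (by simp)
        have hpp : B₂ (p s t e) (p s t e') = al s t e * al s t e' * b t 0
            + be s t e * be s t e' * b t 1 := by
          simp only [hp, map_add, map_smul, LinearMap.add_apply, LinearMap.smul_apply,
            smul_eq_mul, hw01, hw10, mul_zero, add_zero, zero_add, hb]
          ring
        rw [hpp]
        obtain ⟨d, hd⟩ : ∃ d, B₂ (w (t, 1)) (w (t, 1)) = d * B₂ (w (t, 0)) (w (t, 0)) :=
          ⟨b t 1 / b t 0, by simp only [hb]; field_simp [hw0 (t, 0)]⟩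
        obtain ⟨c, hc⟩ : ∃ c, B₁ (u (s, 1)) (u (s, 1)) = c * B₁ (u (s, 0)) (u (s, 0)) :=
          ⟨a s 1 / a s 0, by simp only [ha]; field_simp [hu0 (s, 0)]⟩
        have hd' : b t 1 / b t 0 = d := by
          simp only [hb]; rw [hd]; field_simp [hw0 (t, 0)]
        have hc' : a s 1 / a s 0 = c := by
          simp only [ha]; rw [hc]; field_simp [hu0 (s, 0)]
        have hkey := hxy s t
        rw [hd', hc'] at hkey
        simp only [hal, hbe]
        simp only [hd']
        simp only [hb]
        fin_cases e <;> fin_cases e'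
        · simp only [Fin.zero_eta, if_true, hd, hc]
          linear_combination (B₁ (u (s, 0)) (u (s, 0)) * B₂ (w (t, 0)) (w (t, 0))) * hkey
        · simp only [Fin.zero_eta, Fin.mk_one, if_true, hd, hc, hw01, one_ne_zero, if_false]
          ring
        · simp only [Fin.zero_eta, Fin.mk_one, if_true, hd, hc, hw10, one_ne_zero, if_false]
          ring
        · simp only [Fin.mk_one, hd, hc, one_ne_zero, if_false]
          linear_combination (d * B₁ (u (s, 0)) (u (s, 0)) * B₂ (w (t, 0)) (w (t, 0))) * hkey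
      · have hw1 : ∀ e1 e2, B₂ (w (t, e1)) (w (t', e2)) = 0 := fun e1 e2 => hw _ _ (by simp [ht])
        simp only [hp, map_add, map_smul, LinearMap.add_apply, LinearMap.smul_apply,
          smul_eq_mul, hw1, mul_zero, add_zero, zero_mul]
    · have hu1 : ∀ e1 e2, B₁ (u (s, e1)) (u (s', e2)) = 0 := fun e1 e2 => hu _ _ (by simp [hs])
      simp only [hu1, mul_zero, add_zero]
  intro z hz z' hz'
  induction hz using Submodule.span_induction with
  | mem z hz =>
    obtain ⟨i, rfl⟩ := hz
    induction hz' using Submodule.span_induction with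
    | mem z' hz' =>
      obtain ⟨j, rfl⟩ := hz'
      exact hB i j
    | zero => simp
    | add z1 z2 _ _ h1 h2 => rw [map_add, h1, h2, add_zero]
    | smul c z1 _ h1 => rw [map_smul, h1, smul_zero]
  | zero => simp
  | add z1 z2 _ _ h1 h2 => rw [map_add, LinearMap.add_apply, h1, h2, add_zero]
  | smul c z1 _ h1 => rw [map_smul, LinearMap.smul_apply, h1, smul_zero]

/-- Over a finite field with 2 ≠ 0: if B₁ on U (dim 2k, k ≥ 1) and B₂ on W (dim 2l, l ≥ 1) are non-degenerate symmetric forms admitting no totally isotropic subspaces of dimensions k, resp. l (minus type), then B₁ ⊗ B₂ admits a totally isotropic subspace of dimension 2kl (plus type). -/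
theorem result {F U W : Type*} [Field F] [Fintype F] [AddCommGroup U] [Module F U] [FiniteDimensional F U] [AddCommGroup W] [Module F W] [FiniteDimensional F W] (h2 : (2 : F) ≠ 0) (B₁ : LinearMap.BilinForm F U) (B₂ : LinearMap.BilinForm F W) (h₁ : B₁.Nondegenerate) (h₂ : B₂.Nondegenerate) (hS₁ : B₁.IsSymm) (hS₂ : B₂.IsSymm) (k l : ℕ) (hk : 1 ≤ k) (hl : 1 ≤ l) (hU : Module.finrank F U = 2 * k) (hW : Module.finrank F W = 2 * l) (hm₁ : ¬ (∃ X : Submodule F (U), Module.finrank F X = k ∧ ∀ x ∈ X, ∀ y ∈ X, (B₁) x y = 0)) (hm₂ : ¬ (∃ X : Submodule F (W), Module.finrank F X = l ∧ ∀ x ∈ X, ∀ y ∈ X, (B₂) x y = 0)) : (∃ X : Submodule F (TensorProduct F U W), Module.finrank F X = 2 * k * l ∧ ∀ x ∈ X, ∀ y ∈ X, (B₁.tmul B₂) x y = 0) := by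
  classical
  haveI : Invertible (2 : F) := invertibleOfNonzero h2
  obtain ⟨u0, hu0⟩ := LinearMap.BilinForm.exists_orthogonal_basis (LinearMap.BilinForm.isSymm_iff.mp hS₁)
  obtain ⟨w0, hw0⟩ := LinearMap.BilinForm.exists_orthogonal_basis (LinearMap.BilinForm.isSymm_iff.mp hS₂)
  have hun := hu0.not_isOrtho_basis_self_of_separatingLeft h₁.1
  have hwn := hw0.not_isOrtho_basis_self_of_separatingLeft h₂.1
  rw [LinearMap.isOrthoᵢ_def] at hu0 hw0
  let eU : Fin (Module.finrank F U) ≃ Fin k × Fin 2 :=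
    (finCongr (hU.trans (mul_comm 2 k))).trans finProdFinEquiv.symm
  let eW : Fin (Module.finrank F W) ≃ Fin l × Fin 2 :=
    (finCongr (hW.trans (mul_comm 2 l))).trans finProdFinEquiv.symm
  obtain ⟨X, hX, hti⟩ := core h2 B₁ B₂ (u0.reindex eU) (w0.reindex eW)
    (fun i j hij => by
      simp only [Module.Basis.reindex_apply]
      exact hu0 _ _ (fun h => hij (eU.symm.injective h)))
    (fun i j hij => by
      simp only [Module.Basis.reindex_apply]
      exact hw0 _ _ (fun h => hij (eW.symm.injective h)))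
    (fun i => by
      simp only [Module.Basis.reindex_apply]
      exact hun _)
    (fun i => by
      simp only [Module.Basis.reindex_apply]
      exact hwn _)
  refine ⟨X, ?_, hti⟩
  rw [hX]
  simp only [Fintype.card_prod, Fintype.card_fin]
  ring

end Cfsg.Agent.S0834
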