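import Cfsg.Statements.S0835
-- import your own Cfsg.Agent.* helpers here
import Cfsg.Agent.Lib.helper6.Disc

set_option autoImplicit false
open Cfsg

namespace Cfsg.Agent.S0835

/-- Over a finite field with 2 ≠ 0: if B₁ on U (dim 2k, k ≥ 1) is non-degenerate symmetric of minus type (no totally isotropic k-subspace) and B₂ on W (dim 2l + 1) is non-degenerate symmetric, then B₁ ⊗ B₂ (dimension 2k(2l+1)) admits no totally isotropic subspace of dimension k(2l+1) (minus type). -/
theorem result {F U W : Type*} [Field F] [Fintype F] [AddCommGroup U] [Module F U] [FiniteDimensional F U] [AddCommGroup W] [Module F W] [FiniteDimensional F W] (h2 : (2 : F) ≠ 0) (B₁ : LinearMap.BilinForm F U) (B₂ : LinearMap.BilinForm F W) (h₁ : B₁.Nondegenerate) (h₂ : B₂.Nondegenerate) (hS₁ : B₁.IsSymm) (hS₂ : B₂.IsSymm) (k l : ℕ) (hk : 1 ≤ k) (hU : Module.finrank F U = 2 * k) (hW : Module.finrank F W = 2 * l + 1) (hm₁ : ¬ (∃ X : Submodule F (U), Module.finrank F X = k ∧ ∀ x ∈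 X, ∀ y ∈ X, (B₁) x y = 0)) : ¬ (∃ X : Submodule F (TensorProduct F U W), Module.finrank F X = k * (2 * l + 1) ∧ ∀ x ∈ X, ∀ y ∈ X, (B₁.tmul B₂) x y = 0) := by
  classical
  rintro ⟨X, hXrk, hXti⟩
  haveI : Invertible (2 : F) := invertibleOfNonzero h2
  obtain ⟨u0, hu0⟩ := LinearMap.BilinForm.exists_orthogonal_basis
    (LinearMap.BilinForm.isSymm_iff.mp hS₁)
  obtain ⟨w, hw⟩ := LinearMap.BilinForm.exists_orthogonal_basis
    (LinearMap.BilinForm.isSymm_iff.mp hS₂)
  have hun0 := hu0.not_isOrtho_basis_self_of_separatingLeft h₁.1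
  have hwn := hw.not_isOrtho_basis_self_of_separatingLeft h₂.1
  rw [LinearMap.isOrthoᵢ_def] at hu0 hw
  set u : Module.Basis (Fin (2 * k)) F U := u0.reindex (finCongr hU) with hu_def
  have hu : ∀ i j, i ≠ j → B₁ (u i) (u j) = 0 := by
    intro i j hij
    simp only [hu_def, Module.Basis.reindex_apply]
    exact hu0 _ _ (fun h => hij ((finCongr hU).symm.injective h))
  have hun : ∀ i, B₁ (u i) (u i) ≠ 0 := by
    intro i
    simp only [hu_def, Module.Basis.reindex_apply]
    exact hun0 _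
  -- tensor basis
  set T := u.tensorProduct w with hT
  have hsymm : LinearMap.BilinForm.IsSymm (B₁.tmul B₂) :=
    LinearMap.BilinForm.isSymm_iff.mpr
      (LinearMap.IsSymm.tmul (LinearMap.BilinForm.isSymm_iff.mp hS₁)
        (LinearMap.BilinForm.isSymm_iff.mp hS₂))
  have hcard : Fintype.card (Fin (2 * k) × Fin (Module.finrank F W)) = 2 * (k * (2 * l + 1)) := by
    simp only [Fintype.card_prod, Fintype.card_fin, hW]
    ring
  have hsq := Cfsg.Agent.Lib.helper6.Disc.disc_of_ti h2 (B₁.tmul B₂) hsymm T (k * (2 * l + 1))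
    hcard X hXrk hXti
  have hG : LinearMap.BilinForm.toMatrix T (B₁.tmul B₂)
      = Matrix.diagonal (fun p => B₂ (w p.2) (w p.2) * B₁ (u p.1) (u p.1)) := by
    refine Matrix.ext ?_
    rintro ⟨i, j⟩ ⟨i', j'⟩
    rw [LinearMap.BilinForm.toMatrix_apply, hT, Module.Basis.tensorProduct_apply,
      Module.Basis.tensorProduct_apply, LinearMap.BilinForm.tensorDistrib_tmul, smul_eq_mul]
    by_cases h : (i, j) = (i', j')
    · cases h
      rw [Matrix.diagonal_apply_eq]
    · rw [Matrix.diagonal_apply_ne _ h]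
      by_cases hi : i = i'
      · subst hi
        have hj : j ≠ j' := fun h' => h (by rw [h'])
        rw [hw _ _ hj, zero_mul]
      · rw [hu _ _ hi, mul_zero]
  rw [hG, Matrix.det_diagonal] at hsq
  set A := ∏ i, B₁ (u i) (u i) with hA
  set Bw := ∏ j, B₂ (w j) (w j) with hBw
  have hprod : ∏ p : Fin (2 * k) × Fin (Module.finrank F W),
      (B₂ (w p.2) (w p.2) * B₁ (u p.1) (u p.1)) = Bw ^ (2 * k) * A ^ (2 * l + 1) := by
    rw [Fintype.prod_prod_type]
    simp only [Finset.prod_mul_distrib, Finset.prod_const, Finset.card_univ, Fintype.card_fin,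
      Finset.prod_pow, hW]
    rfl
  have hA0 : A ≠ 0 := Finset.prod_ne_zero_iff.mpr (fun i _ => hun i)
  have hB0 : Bw ≠ 0 := Finset.prod_ne_zero_iff.mpr (fun i _ => hwn i)
  have hsqA : IsSquare ((-1) ^ k * A) := by
    obtain ⟨s, hs⟩ := hsq
    rw [hprod] at hs
    have h1 : ((-1 : F) ^ k) ≠ 0 := pow_ne_zero _ (by simp)
    refine ⟨s / (Bw ^ k * ((-1) ^ k * A) ^ l), ?_⟩
    have h2' : ((-1 : F) ^ (k * (2 * l + 1))) = ((-1) ^ k) ^ (2 * l + 1) := by rw [pow_mul]
    rw [h2'] at hs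
    have h3 : Bw ^ k * ((-1) ^ k * A) ^ l ≠ 0 :=
      mul_ne_zero (pow_ne_zero _ hB0) (pow_ne_zero _ (mul_ne_zero h1 hA0))
    rw [div_mul_div_comm, ← hs, eq_div_iff (mul_ne_zero h3 h3)]
    ring
  -- now apply (D) to U
  set v : ℕ → U := fun i => if h : i < 2 * k then u ⟨i, h⟩ else 0 with hv
  obtain ⟨Y, -, hYrk, hYti⟩ := Cfsg.Agent.Lib.helper6.Disc.ti_of_disc h2 B₁ hS₁ k v (by
    intro i hi j hj hij
    simp only [hv, dif_pos hi, dif_pos hj]
    exact hu _ _ (fun h => hij (by simpa using h))) (by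
    intro i hi
    simp only [hv, dif_pos hi]
    exact hun _) (by
    have : ∏ i ∈ Finset.range (2 * k), B₁ (v i) (v i) = A := by
      rw [Finset.prod_range]
      refine Finset.prod_congr rfl (fun i _ => ?_)
      simp [hv]
    rw [this]
    exact hsqA)
  exact hm₁ ⟨Y, hYrk, hYti⟩

end Cfsg.Agent.S0835
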