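import Cfsg.Statements.S0836
import Mathlib
import Cfsg.Agent.Lib.helper2.SLGen

set_option autoImplicit false
open Cfsg

namespace Cfsg.Agent.S0836

open Matrix Matrix.SpecialLinearGroup
open scoped MatrixGroups commutatorElement

theorem comm_low {F : Type*} [Field F] (a : F) (ha : a ≠ 0) (b c' : F) (hc : c' = b * (a ^ 2 - 1)) :
    ⁅diag2 a⁻¹ (inv_ne_zero ha), SpecialLinearGroup.transvection one_ne_zero b⁆ =
      (SpecialLinearGroup.transvection one_ne_zero c' : SL(2, F)) := by
  rw [commutatorElement_def, diag2_inv a⁻¹ (inv_ne_zero ha),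
    SpecialLinearGroup.transvection_inv one_ne_zero b]
  refine Subtype.ext <| Matrix.ext fun i j ↦ ?_
  fin_cases i <;> fin_cases j <;>
  simp [hc, SpecialLinearGroup.transvection_coe, diag2_coe, inv_inv, mul_add, add_mul,
    mul_inv_cancel₀ ha, inv_mul_cancel₀ ha, mul_comm a b, mul_assoc b a a, ← pow_two,
    mul_sub_one, ← sub_eq_add_neg]

/-- For i ≠ j and any scalar c, the elementary transvection 1 + c E_ij is a commutator ⁅g, h⁆ of two elements of SL_n(F) provided n ≥ 3, or n = 2 and F contains x ≠ 0 with x² ≠ 1. -/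
theorem result {F : Type*} [Field F] (n : ℕ) (hn : 3 ≤ n ∨ (n = 2 ∧ ∃ x : F, x ≠ 0 ∧ x ^ 2 ≠ 1)) (i j : Fin n) (hij : i ≠ j) (c : F) (t : Matrix.SpecialLinearGroup (Fin n) F) (ht : (t : Matrix (Fin n) (Fin n) F) = Matrix.transvection i j c) : t ∈ commutatorSet (Matrix.SpecialLinearGroup (Fin n) F) := by
  have ht' : t = Matrix.SpecialLinearGroup.transvection hij c := Subtype.ext ht
  rw [ht']
  rcases hn with hn | ⟨rfl, x, hx0, hx2⟩
  · obtain ⟨k, hki, hkj⟩ : ∃ k : Fin n, k ≠ i ∧ k ≠ j := by
      by_contra hno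
      push Not at hno
      have hsub : (Finset.univ : Finset (Fin n)) ⊆ {i, j} := by
        intro k _
        by_cases h : k = i
        · simp [h]
        · simp [hno k h]
      have h1 := Finset.card_le_card hsub
      have h2 : ({i, j} : Finset (Fin n)).card ≤ 2 := Finset.card_le_two
      rw [Finset.card_univ, Fintype.card_fin] at h1
      omega
    rw [Cfsg.Agent.Lib.helper2.SLGen.transvection_eq_commutator hij hki.symm hkj c]
    exact commutator_mem_commutatorSet _ _
  · have hne : x ^ 2 - 1 ≠ 0 := sub_ne_zero_of_ne hx2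
    fin_cases i
    · obtain rfl : j = 1 := by fin_cases j <;> tauto
      have key := commutator_diag2_transvection x hx0 (c / (x ^ 2 - 1)) c
        (div_mul_cancel₀ c hne).symm
      exact ⟨_, _, key⟩
    · obtain rfl : j = 0 := by fin_cases j <;> tauto
      have key := comm_low x hx0 (c / (x ^ 2 - 1)) c (div_mul_cancel₀ c hne).symm
      exact ⟨_, _, key⟩

end Cfsg.Agent.S0836
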