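import Cfsg.Statements.S0837
-- import your own Cfsg.Agent.* helpers here
import Cfsg.Agent.Lib.helper6.GUStab

set_option autoImplicit false
open Cfsg

namespace Cfsg.Agent.S0837

open Matrix Cfsg.Agent.Lib.helper4 in
theorem onb {F : Type*} [Field F] [Fintype F] {q : ℕ} {n : ℕ} (hF : Fintype.card F = q ^ 2)
    (U : Submodule F (Fin n → F))
    (hU : ∀ w ∈ U, w ≠ 0 → ∃ x ∈ U, Cfsg.hermForm n F q w x ≠ 0) :
    ∃ b : Module.Basis (Fin (Module.finrank F U)) F U,
      ∀ i j, Cfsg.hermForm n F q (b i : Fin n → F) (b j : Fin n → F) = if i = j then 1 else 0 := by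
  classical
  have hq := uq_ge_two hF
  obtain ⟨B, hB⟩ : ∃ B : U →ₛₗ[ufrob hF] U →ₗ[F] F,
      ∀ x y : U, B x y = Cfsg.hermForm n F q (y : Fin n → F) (x : Fin n → F) :=
    ⟨(uB hF n).domRestrict₁₂ U U, fun x y => rfl⟩
  have hsymm : B.IsSymm := ⟨fun x y => by rw [hB, hB, ufrob_apply, herm_symm hF]⟩
  have hnd : B.Nondegenerate := by
    refine ⟨fun x hx => ?_, fun y hy => ?_⟩
    · by_contra hx0
      obtain ⟨z, hz, hz0⟩ := hU x x.2 (fun h => hx0 (Subtype.ext h))
      apply hz0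
      have := hx ⟨z, hz⟩
      rw [hB] at this
      rw [← herm_symm hF, this, zero_pow (by omega)]
    · by_contra hy0
      obtain ⟨z, hz, hz0⟩ := hU y y.2 (fun h => hy0 (Subtype.ext h))
      apply hz0
      have := hy ⟨z, hz⟩
      rw [hB] at this
      exact this
  obtain ⟨b, hb⟩ := Cfsg.Agent.S0755.result (ufrob hF) (ufrob_ne_id hF) (ufrob_invol hF) B hsymm hnd
  refine ⟨b, fun i j => ?_⟩
  rw [← hB, hb]
  simp [eq_comm]

open Matrix Cfsg.Agent.Lib.helper4 in
theorem li_of_onb {F : Type*} [Field F] [Fintype F] {q : ℕ} {n : ℕ} (hF : Fintype.card F = q ^ 2)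
    {ι : Type*} [Fintype ι] [DecidableEq ι] (w : ι → (Fin n → F))
    (h : ∀ a b, Cfsg.hermForm n F q (w a) (w b) = if a = b then 1 else 0) :
    LinearIndependent F w := by
  rw [Fintype.linearIndependent_iff]
  intro g hg a
  have h1 : uB hF n (w a) (∑ b, g b • w b) = g a := by
    rw [map_sum]
    simp only [map_smul, uB_apply, h, smul_eq_mul]
    simp
  rw [hg, map_zero] at h1
  exact h1.symm

/-- If W ≤ F^n (|F| = q²) is a k-dimensional subspace on which the Hermitian form Σ x_i y_i^q is non-degenerate, then the stabiliser of W in GU_n(q) is isomorphic to GU_k(q) × GU_(n−k)(q). -/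
theorem result {F : Type*} [Field F] [Fintype F] {q : ℕ} (hF : Fintype.card F = q ^ 2) (n k : ℕ) (hk : k ≤ n) (W : Submodule F (Fin n → F)) (hWk : Module.finrank F W = k) (hW : ∀ u ∈ W, (∀ v ∈ W, Cfsg.hermForm n F q u v = 0) → u = 0) : Nonempty (↥((Cfsg.stabilizing (Cfsg.glToMat (Fin n) F) (W : Set (Fin n → F))).subgroupOf (Cfsg.GU n F q)) ≃* ↥(Cfsg.GU k F q) × ↥(Cfsg.GU (n - k) F q)) := by
  classical
  have hq := Cfsg.Agent.Lib.helper4.uq_ge_two hF
  have hWnd : ∀ w ∈ W, w ≠ 0 → ∃ x ∈ W, Cfsg.hermForm n F q w x ≠ 0 := by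
    intro w hw hw0
    by_contra hcon
    push Not at hcon
    exact hw0 (hW w hw hcon)
  obtain ⟨W', hW'⟩ : ∃ W' : Submodule F (Fin n → F), W' = Cfsg.Agent.Lib.helper4.uperp hF W :=
    ⟨_, rfl⟩
  have hrk := Cfsg.Agent.Lib.helper4.finrank_uperp hF W hWnd
  rw [← hW'] at hrk
  have hW'k : Module.finrank F W' = n - k := by omega
  have hW'nd := Cfsg.Agent.Lib.helper4.uperp_nondeg hF W hWnd
  rw [← hW'] at hW'nd
  have hperp : ∀ x ∈ W, ∀ y ∈ W', Cfsg.hermForm n F q x y = 0 := by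
    intro x hx y hy
    rw [hW'] at hy
    exact hy x hx
  have hperp' : ∀ x ∈ W, ∀ y ∈ W', Cfsg.hermForm n F q y x = 0 := by
    intro x hx y hy
    rw [← Cfsg.Agent.Lib.helper4.herm_symm hF, hperp x hx y hy, zero_pow (by omega)]
  obtain ⟨bW, hbW⟩ := onb hF W hWnd
  obtain ⟨bW', hbW'⟩ := onb hF W' hW'nd
  obtain ⟨e, he⟩ : ∃ e : Fin k ⊕ Fin (n - k) ≃ Fin n, True :=
    ⟨finSumFinEquiv.trans (finCongr (Nat.add_sub_cancel' hk)), trivial⟩
  obtain ⟨w', hw'⟩ : ∃ w' : Fin n → (Fin n → F), w' = fun a =>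
      Sum.elim (fun i : Fin k => (bW (Fin.cast hWk.symm i) : Fin n → F))
        (fun j : Fin (n - k) => (bW' (Fin.cast hW'k.symm j) : Fin n → F)) (e.symm a) := ⟨_, rfl⟩
  have hw'l : ∀ i, w' (e (Sum.inl i)) = (bW (Fin.cast hWk.symm i) : Fin n → F) := by
    intro i; rw [hw']; simp
  have hw'r : ∀ j, w' (e (Sum.inr j)) = (bW' (Fin.cast hW'k.symm j) : Fin n → F) := by
    intro j; rw [hw']; simp
  have hgram : ∀ a b, Cfsg.hermForm n F q (w' a) (w' b) = if a = b then 1 else 0 := by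
    intro a b
    obtain ⟨a', rfl⟩ := e.surjective a
    obtain ⟨b', rfl⟩ := e.surjective b
    rcases a' with i | j <;> rcases b' with i' | j'
    · rw [hw'l, hw'l, hbW]
      simp [Fin.ext_iff]
    · rw [hw'l, hw'r, hperp _ (bW _).2 _ (bW' _).2]
      simp
    · rw [hw'l, hw'r, hperp' _ (bW _).2 _ (bW' _).2]
      simp
    · rw [hw'r, hw'r, hbW']
      simp [Fin.ext_iff]
  have hli := li_of_onb hF w' hgram
  have hstd : LinearIndependent F (fun a : Fin n => (Pi.single a 1 : Fin n → F)) := by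
    convert (Pi.basisFun F (Fin n)).linearIndependent using 1
    ext i j
    simp
  obtain ⟨P, hP, hPw⟩ := Cfsg.Agent.Lib.helper4.u_witt_frames hF
    (fun a : Fin n => (Pi.single a 1 : Fin n → F)) w' hstd hli (fun a b => by
      rw [hgram, Cfsg.Agent.Lib.helper4.herm_single_right hF]
      simp [Pi.single_apply, eq_comm])
  refine Cfsg.Agent.Lib.helper6.GUStab.stab_equiv hF e W P hP (fun x => ?_)
  constructor
  · intro hx j
    have h1 := (Cfsg.Agent.Lib.helper4.mem_GU_iff P).mp hP x (Pi.single (e (Sum.inr j)) 1)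
    rw [Cfsg.Agent.Lib.helper4.herm_single_right hF, hPw, hw'r] at h1
    rw [← h1]
    exact hperp _ hx _ (bW' _).2
  · intro hx
    have hx' : x = ∑ a, x a • (Pi.single a 1 : Fin n → F) := by
      ext b
      simp [Finset.sum_apply, Pi.single_apply]
    have hPx : Matrix.mulVec (P : Matrix (Fin n) (Fin n) F) x = ∑ a, x a • w' a := by
      conv_lhs => rw [hx']
      have := map_sum (Matrix.mulVecLin (P : Matrix (Fin n) (Fin n) F))
        (fun a => x a • (Pi.single a 1 : Fin n → F)) Finset.univ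
      simp only [Matrix.mulVecLin_apply, Matrix.mulVec_smul, hPw] at this
      exact this
    rw [hPx, ← e.sum_comp, Fintype.sum_sum_type]
    apply Submodule.add_mem
    · apply Submodule.sum_mem
      intro i _
      apply Submodule.smul_mem
      rw [hw'l]
      exact (bW _).2
    · have h0 : ∑ j, x (e (Sum.inr j)) • w' (e (Sum.inr j)) = 0 :=
        Finset.sum_eq_zero (fun j _ => by rw [hx j, zero_smul])
      rw [h0]
      exact W.zero_mem

end Cfsg.Agent.S0837
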