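import Cfsg.Statements.S0838
-- import your own Cfsg.Agent.* helpers here
import Cfsg.Agent.Lib.helper4.QSim

set_option autoImplicit false
open Cfsg

namespace Cfsg.Agent.S0838

/-- Over a finite field with 2 ≠ 0 and n odd: two quadratic forms Q₁, Q₂ on F^n with non-degenerate polar forms are similar — there are an invertible linear map g and a scalar c ≠ 0 with Q₂ (g v) = c · Q₁ v for all v. -/
theorem result {F : Type*} [Field F] [Fintype F] (h2 : (2 : F) ≠ 0) {n : ℕ} (hn : Odd n) (Q₁ Q₂ : QuadraticForm F (Fin n → F)) (h₁ : (QuadraticMap.polarBilin Q₁).Nondegenerate) (h₂ : (QuadraticMap.polarBilin Q₂).Nondegenerate) : ∃ (g : (Fin n → F) ≃ₗ[F] (Fin n → F)) (c : F), c ≠ 0 ∧ ∀ v, Q₂ (g v) = c * Q₁ v := by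
  obtain ⟨k, hk⟩ := hn
  have hfin : Module.finrank F (Fin n → F) = 2 * k + 1 := by
    rw [Module.finrank_fin_fun, hk]
  exact Cfsg.Agent.Lib.helper4.sim_odd h2 k (Fin n → F) (Fin n → F) Q₁ Q₂ hfin hfin
    (fun x hx => h₁.1 x hx) (fun x hx => h₂.1 x hx)

end Cfsg.Agent.S0838
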