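import Cfsg.Statements.S0839
-- import your own Cfsg.Agent.* helpers here
import Mathlib
import Cfsg.Agent.S2579

set_option autoImplicit false
open Cfsg

namespace Cfsg.Agent.S0839

/-- Every transvection t ∈ SL_(n+2)(F) (rank(t − 1) = 1, (t − 1)² = 0) is conjugate in SL_(n+2)(F) to 1 + v·e_0ᵀ for some column vector v with v_0 = 0 (the group A of matrices that are the identity except in the first column below the diagonal); the dimension is written n + 2 ≥ 2. -/
theorem result {F : Type*} [Field F] (n : ℕ) (t : Matrix.SpecialLinearGroup (Fin (n + 2)) F) (ht : Cfsg.IsTransvection (t : Matrix (Fin (n + 2)) (Fin (n + 2)) F)) : ∃ (g : Matrix.SpecialLinearGroup (Fin (n + 2)) F) (v : Fin (n + 2) → F), v 0 = 0 ∧ ((g⁻¹ * t * g : Matrix.SpecialLinearGroup (Fin (n + 2)) F) : Matrix (Fin (n + 2)) (Fin (n + 2)) F) = 1 + Matrix.vecMulVec v (Pi.single 0 1) := by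
  classical
  obtain ⟨P, hPdet, hP⟩ := Cfsg.Agent.S2579.exists_conj_matrix
    (t : Matrix (Fin (n + 2)) (Fin (n + 2)) F) ht.1 ht.2
  set d : F := (P.det)⁻¹ with hd
  set D : Matrix (Fin (n + 2)) (Fin (n + 2)) F :=
    Matrix.diagonal (Function.update (fun _ => (1 : F)) 0 d) with hD
  have hDdet : D.det = d := by
    rw [hD, Matrix.det_diagonal, Fin.prod_univ_succ]
    simp [Function.update, Fin.succ_ne_zero]
  have hG : (P * D).det = 1 := by rw [Matrix.det_mul, hDdet, hd, mul_inv_cancel₀ hPdet]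
  let g : Matrix.SpecialLinearGroup (Fin (n + 2)) F := ⟨P * D, hG⟩
  refine ⟨g, Pi.single 1 d, by simp, ?_⟩
  have h01 : (1 : Fin (n + 2)) ≠ 0 := by simp
  have h1 : (Matrix.single (1 : Fin (n + 2)) (0 : Fin (n + 2)) (1 : F)) * D =
      D * Matrix.vecMulVec (Pi.single 1 d) (Pi.single 0 1) := by
    ext i j
    rw [hD, Matrix.mul_diagonal, Matrix.diagonal_mul, Matrix.vecMulVec_apply, Matrix.single_apply,
      Pi.single_apply, Pi.single_apply, Function.update_apply, Function.update_apply]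
    by_cases hi : i = 1
    · subst hi
      by_cases hj : j = 0
      · subst hj
        simp
      · have hj' : ¬ (0 = j) := fun h => hj h.symm
        simp [hj, hj']
    · have hi' : ¬ (1 = i) := fun h => hi h.symm
      simp [hi, hi']
  have h2 : (t : Matrix (Fin (n + 2)) (Fin (n + 2)) F) * (P * D) =
      (P * D) * (1 + Matrix.vecMulVec (Pi.single 1 d) (Pi.single 0 1)) := by
    have h5 : ((t : Matrix (Fin (n + 2)) (Fin (n + 2)) F) - 1) * (P * D) =
        (P * D) * Matrix.vecMulVec (Pi.single 1 d) (Pi.single 0 1) := by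
      rw [← Matrix.mul_assoc, hP, Matrix.mul_assoc, h1, Matrix.mul_assoc]
    rw [Matrix.mul_add, Matrix.mul_one, ← h5, Matrix.sub_mul, Matrix.one_mul]
    abel
  have h4 : ((g⁻¹ : Matrix.SpecialLinearGroup (Fin (n + 2)) F) :
      Matrix (Fin (n + 2)) (Fin (n + 2)) F) * (P * D) = 1 := by
    have h6 := congrArg (fun x : Matrix.SpecialLinearGroup (Fin (n + 2)) F =>
      (x : Matrix (Fin (n + 2)) (Fin (n + 2)) F)) (inv_mul_cancel g)
    simp only [Matrix.SpecialLinearGroup.coe_mul, Matrix.SpecialLinearGroup.coe_one] at h6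
    exact h6
  rw [Matrix.SpecialLinearGroup.coe_mul, Matrix.SpecialLinearGroup.coe_mul, Matrix.mul_assoc]
  show ((g⁻¹ : Matrix.SpecialLinearGroup (Fin (n + 2)) F) :
      Matrix (Fin (n + 2)) (Fin (n + 2)) F) * ((t : Matrix (Fin (n + 2)) (Fin (n + 2)) F) * (P * D)) = _
  rw [h2, ← Matrix.mul_assoc, h4, Matrix.one_mul]

end Cfsg.Agent.S0839
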