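import Mathlib
import Cfsg.Statements.S0841

set_option autoImplicit false
open Cfsg
open scoped commutatorElement

namespace Cfsg.Agent.S0841

theorem comm_central {G : Type*} [Group G] (hG : commutator G ≤ Subgroup.center G) (x y : G) :
    y⁻¹ * x⁻¹ * y * x ∈ Subgroup.center G := by
  apply hG
  rw [commutator_def]
  have h : y⁻¹ * x⁻¹ * y * x = ⁅y⁻¹, x⁻¹⁆ := by
    simp [commutatorElement_def]
  rw [h]
  exact Subgroup.commutator_mem_commutator (Subgroup.mem_top _) (Subgroup.mem_top _)

theorem pow_mul_swap {G : Type*} [Group G] (hG : commutator G ≤ Subgroup.center G) (x y : G) (n : ℕ) :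
    y ^ n * x = x * y ^ n * (y⁻¹ * x⁻¹ * y * x) ^ n := by
  have hc := comm_central hG x y
  have hyx : y * x = x * y * (y⁻¹ * x⁻¹ * y * x) := by group
  generalize y⁻¹ * x⁻¹ * y * x = c at hc hyx
  have hcomm : ∀ g : G, c * g = g * c :=
    fun g => (Subgroup.mem_center_iff.mp hc g).symm
  induction n with
  | zero => simp
  | succ n ih =>
    calc y ^ (n + 1) * x = y * (y ^ n * x) := by rw [pow_succ', mul_assoc]
      _ = y * (x * y ^ n * c ^ n) := by rw [ih]
      _ = (y * x) * y ^ n * c ^ n := by simp only [mul_assoc]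
      _ = x * y * c * y ^ n * c ^ n := by rw [hyx]
      _ = x * y * (y ^ n * c) * c ^ n := by
          rw [← hcomm (y ^ n)]; simp only [mul_assoc]
      _ = x * y ^ (n + 1) * c ^ (n + 1) := by
          rw [pow_succ' y n, pow_succ' c n]; simp only [mul_assoc]

/-- If the commutator subgroup of G lies in the centre, then for all x, y in G and every natural number n one has (x * y) ^ n = x ^ n * y ^ n * c ^ (n * (n - 1) / 2) with c = y⁻¹ * x⁻¹ * y * x. -/
theorem result {G : Type*} [Group G] (hG : commutator G ≤ Subgroup.center G) (x y : G) (n : ℕ) : (x * y) ^ n = x ^ n * y ^ n * (y⁻¹ * x⁻¹ * y * x) ^ (n * (n - 1) / 2) := by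
  have hc := comm_central hG x y
  have hsw := pow_mul_swap hG x y
  generalize y⁻¹ * x⁻¹ * y * x = c at hc hsw
  have hcomm : ∀ g : G, c * g = g * c :=
    fun g => (Subgroup.mem_center_iff.mp hc g).symm
  have hcomm' : ∀ (k : ℕ) (g : G), c ^ k * g = g * c ^ k := by
    intro k g
    exact ((Commute.pow_left (hcomm g) k)).eq
  induction n with
  | zero => simp
  | succ n ih =>
    have hT : (n + 1) * (n + 1 - 1) / 2 = n * (n - 1) / 2 + n := by
      have h2 : (n + 1) * (n + 1 - 1) = n * (n - 1) + n * 2 := by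
        cases n with
        | zero => simp
        | succ m => simp only [Nat.add_sub_cancel]; ring
      rw [h2, Nat.add_mul_div_right _ _ (by norm_num : 0 < 2)]
    rw [hT, pow_succ, ih]
    calc x ^ n * y ^ n * c ^ (n * (n - 1) / 2) * (x * y)
        = x ^ n * y ^ n * (c ^ (n * (n - 1) / 2) * (x * y)) := by
          simp only [mul_assoc]
      _ = x ^ n * y ^ n * ((x * y) * c ^ (n * (n - 1) / 2)) := by rw [hcomm']
      _ = x ^ n * (y ^ n * x) * y * c ^ (n * (n - 1) / 2) := by
          simp only [mul_assoc]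
      _ = x ^ n * (x * y ^ n * c ^ n) * y * c ^ (n * (n - 1) / 2) := by
          rw [hsw n]
      _ = x ^ n * x * y ^ n * (c ^ n * y) * c ^ (n * (n - 1) / 2) := by
          simp only [mul_assoc]
      _ = x ^ n * x * y ^ n * (y * c ^ n) * c ^ (n * (n - 1) / 2) := by
          rw [hcomm']
      _ = x ^ (n + 1) * y ^ (n + 1) * c ^ (n * (n - 1) / 2 + n) := by
          rw [pow_succ x n, pow_succ y n, add_comm (n * (n - 1) / 2) n, pow_add]
          simp only [mul_assoc]

end Cfsg.Agent.S0841
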