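import Cfsg.Statements.S0842
-- import your own Cfsg.Agent.* helpers here
import Mathlib

set_option autoImplicit false
open Cfsg

namespace Cfsg.Agent.S0842

open QuaternionGroup
open scoped commutatorElement

theorem inv_a' {m : ℕ} (i : ZMod (2 * m)) : (a i : QuaternionGroup m)⁻¹ = a (-i) := rfl
theorem inv_xa' {m : ℕ} (i : ZMod (2 * m)) : (xa i : QuaternionGroup m)⁻¹ = xa ((m : ZMod (2 * m)) + i) := rfl

theorem two_m_zero (m : ℕ) : (2 * (m : ZMod (2 * m))) = 0 := by
  have : ((2 * m : ℕ) : ZMod (2 * m)) = 0 := ZMod.natCast_self _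
  push_cast at this
  exact this

theorem a_mem (m : ℕ) [NeZero m] (i : ZMod (2 * m)) :
    (a i : QuaternionGroup m) ∈ Subgroup.zpowers (a 1 : QuaternionGroup m) := by
  refine ⟨((i.val : ℕ) : ℤ), ?_⟩
  show (a 1 : QuaternionGroup m) ^ ((i.val : ℕ) : ℤ) = a i
  rw [zpow_natCast, a_one_pow, ZMod.natCast_zmod_val]

theorem a_two_mul_mem (m : ℕ) [NeZero m] (i : ZMod (2 * m)) :
    (a (2 * i) : QuaternionGroup m) ∈ Subgroup.zpowers ((a 1 : QuaternionGroup m) ^ 2) := by
  refine ⟨((i.val : ℕ) : ℤ), ?_⟩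
  show ((a 1 : QuaternionGroup m) ^ 2) ^ ((i.val : ℕ) : ℤ) = a (2 * i)
  rw [zpow_natCast, ← pow_mul, a_one_pow, Nat.cast_mul, ZMod.natCast_zmod_val]
  rfl

theorem comm_eq (m : ℕ) [NeZero m] :
    commutator (QuaternionGroup m) = Subgroup.zpowers ((a 1 : QuaternionGroup m) ^ 2) := by
  have h2m := two_m_zero m
  apply le_antisymm
  · rw [commutator_eq_closure, Subgroup.closure_le]
    rintro _ ⟨x, y, rfl⟩
    rcases x with i | i <;> rcases y with j | j
    · have : ⁅(a i : QuaternionGroup m), a j⁆ = a (2 * 0) := by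
        rw [commutatorElement_def, inv_a', inv_a']
        simp only [a_mul_a]
        congr 1
        ring
      rw [this]; exact a_two_mul_mem m 0
    · have : ⁅(a i : QuaternionGroup m), xa j⁆ = a (2 * i) := by
        rw [commutatorElement_def, inv_a', inv_xa']
        simp only [a_mul_xa, xa_mul_a, xa_mul_xa]
        congr 1
        linear_combination h2m
      rw [this]; exact a_two_mul_mem m i
    · have : ⁅(xa i : QuaternionGroup m), a j⁆ = a (2 * (-j)) := by
        rw [commutatorElement_def, inv_a', inv_xa']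
        simp only [a_mul_xa, xa_mul_a, xa_mul_xa, a_mul_a]
        congr 1
        linear_combination h2m
      rw [this]; exact a_two_mul_mem m _
    · have : ⁅(xa i : QuaternionGroup m), xa j⁆ = a (2 * (j - i)) := by
        rw [commutatorElement_def, inv_xa', inv_xa']
        simp only [a_mul_xa, xa_mul_a, xa_mul_xa, a_mul_a]
        congr 1
        linear_combination h2m
      rw [this]; exact a_two_mul_mem m _
  · rw [Subgroup.zpowers_le]
    have : ((a 1 : QuaternionGroup m) ^ 2) = ⁅(a 1 : QuaternionGroup m), xa 0⁆ := by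
      rw [commutatorElement_def, inv_a', inv_xa', a_one_pow]
      simp only [a_mul_xa, xa_mul_a, xa_mul_xa]
      congr 1
      push_cast
      linear_combination (-1 : ZMod (2 * m)) * h2m
    rw [this, commutator_def]
    exact Subgroup.commutator_mem_commutator (Subgroup.mem_top _) (Subgroup.mem_top _)

theorem conj_xa (m : ℕ) [NeZero m] (i : ZMod (2 * m)) :
    (xa i : QuaternionGroup m) * (a 1) ^ 2 * (xa i)⁻¹ = ((a 1) ^ 2)⁻¹ := by
  have h2m := two_m_zero m
  rw [a_one_pow, inv_xa', inv_a']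
  simp only [xa_mul_a, xa_mul_xa]
  congr 1
  push_cast
  linear_combination h2m

open scoped IsMulCommutative in
theorem cyc_mem {A : Type*} [CommGroup A] [Finite A] [IsCyclic A] (u v : A)
    (h : orderOf u ∣ orderOf v) : u ∈ Subgroup.zpowers v := by
  have hle : Subgroup.zpowers v ≤ (powMonoidHom (orderOf v) : A →* A).ker := by
    rw [Subgroup.zpowers_le, MonoidHom.mem_ker, powMonoidHom_apply, pow_orderOf_eq_one]
  have hcard : Nat.card (powMonoidHom (orderOf v) : A →* A).ker ≤ Nat.card (Subgroup.zpowers v) := by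
    rw [IsCyclic.card_powMonoidHom_ker, Nat.card_zpowers, Nat.gcd_eq_right (orderOf_dvd_natCard v)]
  have heq := Subgroup.eq_of_le_of_card_ge hle hcard
  rw [heq, MonoidHom.mem_ker, powMonoidHom_apply]
  exact orderOf_dvd_iff_pow_eq_one.1 h

open scoped IsMulCommutative in
theorem cyc_mem' {G : Type*} [Group G] [Finite G] (x u v : G) (hu : u ∈ Subgroup.zpowers x)
    (hv : v ∈ Subgroup.zpowers x) (h : orderOf u ∣ orderOf v) : u ∈ Subgroup.zpowers v := by
  have := cyc_mem (A := Subgroup.zpowers x) ⟨u, hu⟩ ⟨v, hv⟩ (by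
    rw [Subgroup.orderOf_mk, Subgroup.orderOf_mk]; exact h)
  obtain ⟨k, hk⟩ := this
  refine ⟨k, ?_⟩
  have := congrArg Subtype.val hk
  simpa using this


theorem quat_data {G : Type*} [Group G] (S : Subgroup G) (m : ℕ) [NeZero m]
    (e : S ≃* QuaternionGroup m) :
    ∃ α : G, α ∈ S ∧ orderOf α = 2 * m ∧ ⁅S, S⁆ = Subgroup.zpowers (α ^ 2) ∧
      (∀ s ∈ S, s ∈ Subgroup.zpowers α ∨ s * α ^ 2 * s⁻¹ = (α ^ 2)⁻¹) ∧ Nat.card S = 4 * m := by
  refine ⟨((e.symm (a 1) : S) : G), (e.symm (a 1)).2, ?_, ?_, ?_, ?_⟩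
  · rw [Subgroup.orderOf_coe, MulEquiv.orderOf_eq, orderOf_a_one]
  · rw [← Subgroup.map_subtype_commutator]
    have h1 : commutator S = (commutator (QuaternionGroup m)).map e.symm.toMonoidHom := by
      rw [commutator_def, commutator_def, Subgroup.map_commutator,
        Subgroup.map_top_of_surjective _ e.symm.surjective]
    rw [h1, comm_eq, MonoidHom.map_zpowers, MonoidHom.map_zpowers, map_pow, map_pow]
    rfl
  · intro s hs
    rcases hq : e ⟨s, hs⟩ with i | i
    · left
      have h1 : (⟨s, hs⟩ : S) = e.symm (a i) := by rw [← hq, e.symm_apply_apply]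
      obtain ⟨k, hk⟩ := a_mem m i
      refine ⟨k, ?_⟩
      have hk' : (a 1 : QuaternionGroup m) ^ k = a i := hk
      have h2 : ((e.symm (a 1)) ^ k : S) = ⟨s, hs⟩ := by rw [h1, ← map_zpow, hk']
      have := congrArg Subtype.val h2
      simpa using this
    · right
      have h1 : (⟨s, hs⟩ : S) = e.symm (xa i) := by rw [← hq, e.symm_apply_apply]
      have h2 : (⟨s, hs⟩ : S) * (e.symm (a 1)) ^ 2 * (⟨s, hs⟩ : S)⁻¹ = ((e.symm (a 1)) ^ 2)⁻¹ := by
        rw [h1, ← map_pow, ← map_mul, ← map_inv, ← map_mul, ← map_inv, conj_xa]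
      have := congrArg Subtype.val h2
      simpa using this
  · rw [Nat.card_congr e.toEquiv, Nat.card_eq_fintype_card, QuaternionGroup.card]

theorem conj_mem_zpowers {G : Type*} [Group G] (g x : G) (h : g * x * g⁻¹ ∈ Subgroup.zpowers x)
    (d : G) (hd : d ∈ Subgroup.zpowers x) : g * d * g⁻¹ ∈ Subgroup.zpowers x := by
  obtain ⟨k, rfl⟩ := hd
  simp only
  rw [← conj_zpow]
  exact Subgroup.zpow_mem _ h k

theorem mem_normalizer_zpowers {G : Type*} [Group G] (g x : G)
    (h1 : g * x * g⁻¹ ∈ Subgroup.zpowers x) (h2 : g⁻¹ * x * g ∈ Subgroup.zpowers x) :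
    g ∈ Subgroup.normalizer (Subgroup.zpowers x : Set G) := by
  rw [Subgroup.mem_normalizer_iff]
  intro d
  constructor
  · exact conj_mem_zpowers g x h1 d
  · intro hd
    have := conj_mem_zpowers g⁻¹ x (by simpa using h2) _ hd
    simpa [mul_assoc] using this

theorem cent_conj {G : Type*} [Group G] (D : Subgroup G) (g : G)
    (hg : g ∈ Subgroup.normalizer (D : Set G)) (c : G) (hc : c ∈ Subgroup.centralizer (D : Set G)) :
    g * c * g⁻¹ ∈ Subgroup.centralizer (D : Set G) := by
  rw [Subgroup.mem_centralizer_iff] at hc ⊢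
  intro d hd
  have hd' : g⁻¹ * d * g ∈ D := by
    have := (Subgroup.mem_normalizer_iff.1 (Subgroup.inv_mem _ hg) d).1 hd
    simpa using this
  have := hc _ hd'
  calc d * (g * c * g⁻¹) = g * (g⁻¹ * d * g * c) * g⁻¹ := by group
    _ = g * (c * (g⁻¹ * d * g)) * g⁻¹ := by rw [this]
    _ = g * c * g⁻¹ * d := by group

theorem mem_smul_sylow {X : Type*} [Group X] {p : ℕ} (P : Sylow p X) (g x : X) :
    x ∈ ((g • P : Sylow p X) : Subgroup X) ↔ g⁻¹ * x * g ∈ (P : Subgroup X) := by
  rw [Sylow.coe_subgroup_smul, Subgroup.mem_pointwise_smul_iff_inv_smul_mem]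
  simp [MulAut.smul_def, MulAut.conj_inv_apply]

theorem facts {G : Type*} [Group G] [Finite G] (S : Sylow 2 G) (n : ℕ) (α : G)
    (hαS : α ∈ (S : Subgroup G))
    (hα : orderOf α = 2 * 2 ^ (n + 2)) (hcardS : Nat.card (S : Subgroup G) = 4 * 2 ^ (n + 2))
    (hS : ∀ s ∈ (S : Subgroup G), s ∈ Subgroup.zpowers α ∨ s * α ^ 2 * s⁻¹ = (α ^ 2)⁻¹)
    (D C N A : Subgroup G) (hD : D = Subgroup.zpowers (α ^ 2))
    (hC : C = Subgroup.centralizer (D : Set G)) (hN : N = Subgroup.normalizer (D : Set G))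
    (hA : A = Subgroup.zpowers α) :
    Nat.card D = 2 ^ (n + 2) ∧ A ≤ C ∧ (S : Subgroup G) ⊓ C = A ∧ (S : Subgroup G) ≤ N ∧
    (C.subgroupOf N).index = 2 ∧ ∃ P : Sylow 2 C, (P : Subgroup C) = A.subgroupOf C := by
  subst hD hC hN hA
  set D := Subgroup.zpowers (α ^ 2) with hD
  set C := Subgroup.centralizer (D : Set G) with hC
  set N := Subgroup.normalizer (D : Set G) with hN
  set A := Subgroup.zpowers α with hA
  have hcardD : Nat.card D = 2 ^ (n + 2) := by
    rw [hD, Nat.card_zpowers, orderOf_pow_of_dvd (by norm_num) (by rw [hα]; exact dvd_mul_right 2 _),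
      hα]
    simp
  have hcardA : Nat.card A = 2 ^ (n + 3) := by
    rw [hA, Nat.card_zpowers, hα]; ring
  have hAS : A ≤ (S : Subgroup G) := by rw [hA, Subgroup.zpowers_le]; exact hαS
  have hAC : A ≤ C := by
    intro x hx
    rw [hC, Subgroup.mem_centralizer_iff]
    intro d hd
    obtain ⟨i, rfl⟩ := hx
    obtain ⟨j, rfl⟩ := hd
    exact (((Commute.refl α).pow_left 2).zpow_zpow j i).eq
  have hconj : ∀ s ∈ (S : Subgroup G), s * α ^ 2 * s⁻¹ ∈ D := by
    intro s hs
    rcases hS s hs with h | h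
    · have h1 : α ^ 2 * s = s * α ^ 2 :=
        (Subgroup.mem_centralizer_iff.1 (hAC h)) (α ^ 2) (Subgroup.mem_zpowers _)
      rw [← h1, mul_inv_cancel_right]
      exact Subgroup.mem_zpowers _
    · rw [h]; exact Subgroup.inv_mem _ (Subgroup.mem_zpowers _)
  have hSN : (S : Subgroup G) ≤ N := by
    intro s hs
    exact mem_normalizer_zpowers s (α ^ 2) (hconj s hs)
      (by simpa using hconj s⁻¹ (Subgroup.inv_mem _ hs))
  have hSC : (S : Subgroup G) ⊓ C = A := by
    apply le_antisymm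
    · intro s hs
      rcases hS s hs.1 with h | h
      · exact h
      · exfalso
        have h1 : α ^ 2 * s = s * α ^ 2 :=
          (Subgroup.mem_centralizer_iff.1 hs.2) (α ^ 2) (Subgroup.mem_zpowers _)
        have h2 : s * α ^ 2 * s⁻¹ = α ^ 2 := by rw [← h1, mul_inv_cancel_right]
        rw [h2] at h
        have h3 : α ^ 4 = 1 := by
          have : α ^ 2 * α ^ 2 = 1 := by
            calc α ^ 2 * α ^ 2 = α ^ 2 * (α ^ 2)⁻¹ := congrArg (α ^ 2 * ·) h
              _ = 1 := mul_inv_cancel _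
          rw [← pow_add] at this; exact this
        have h4 := orderOf_dvd_of_pow_eq_one h3
        rw [hα] at h4
        have h5 : 2 * 2 ^ (n + 2) ≤ 4 := Nat.le_of_dvd (by norm_num) h4
        have h6 : 4 ≤ 2 ^ (n + 2) := by
          calc 4 = 2 ^ 2 := by norm_num
            _ ≤ 2 ^ (n + 2) := Nat.pow_le_pow_right (by norm_num) (by omega)
        omega
    · exact le_inf hAS hAC
  obtain ⟨β, hβS, hβA⟩ : ∃ β, β ∈ (S : Subgroup G) ∧ β ∉ A := by
    by_contra hcon
    push Not at hcon
    have h1 : (S : Subgroup G) = A := le_antisymm hcon hAS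
    have h2 : Nat.card (S : Subgroup G) = Nat.card A := by rw [h1]
    rw [hcardA, hcardS] at h2
    have h3 : 2 ^ (n + 3) = 2 * 2 ^ (n + 2) := by ring
    have h4 : 0 < 2 ^ (n + 2) := by positivity
    omega
  have hβC : β ∉ C := fun h => hβA (hSC.le ⟨hβS, h⟩)
  have hCN : C ≤ N := Subgroup.centralizer_le_normalizer _
  have hkey : C.relIndex N ∣ 2 ^ (n + 1) := by
    have key := Subgroup.card_dvd_of_injective _
      (QuotientGroup.kerLift_injective D.normalizerMonoidHom)
    rw [Subgroup.normalizerMonoidHom_ker, ← Subgroup.index, ← Subgroup.relIndex] at key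
    have hcyc : IsCyclic D := by rw [hD]; infer_instance
    rw [IsCyclic.card_mulAut, hcardD, Nat.totient_prime_pow Nat.prime_two (by omega)] at key
    simpa using key
  obtain ⟨j, hj1, hj⟩ := (Nat.dvd_prime_pow Nat.prime_two).1 hkey
  have hNcard : Nat.card N = C.relIndex N * Nat.card C := by
    have := Subgroup.relIndex_mul_relIndex ⊥ C N bot_le hCN
    rw [Subgroup.relIndex_bot_left, Subgroup.relIndex_bot_left] at this
    rw [← this, mul_comm]
  have hfac : (Nat.card G).factorization 2 = n + 4 := by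
    have := S.card_eq_multiplicity
    rw [hcardS] at this
    have h4 : 4 * 2 ^ (n + 2) = 2 ^ (n + 4) := by ring
    rw [h4] at this
    exact (Nat.pow_right_injective (le_refl 2) this).symm
  have hnd : ¬ 2 ^ (n + 5) ∣ Nat.card G := by
    have := Nat.pow_succ_factorization_not_dvd (Nat.card_pos (α := G)).ne' Nat.prime_two
    rwa [hfac] at this
  have hA_dvd : 2 ^ (n + 3) ∣ Nat.card C := hcardA ▸ Subgroup.card_dvd_of_le hAC
  have hj_le : j ≤ 1 := by
    by_contra hcon
    push Not at hcon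
    apply hnd
    have h2 : 2 ^ j * 2 ^ (n + 3) ∣ Nat.card N := by
      rw [hNcard, hj]; exact Nat.mul_dvd_mul_left _ hA_dvd
    have h3 : 2 ^ (n + 5) ∣ 2 ^ j * 2 ^ (n + 3) := by
      rw [← pow_add]; exact Nat.pow_dvd_pow 2 (by omega)
    exact (h3.trans h2).trans (Subgroup.card_subgroup_dvd_card N)
  have hj_ne : j ≠ 0 := by
    rintro rfl
    rw [pow_zero, Subgroup.relIndex_eq_one] at hj
    exact hβC (hj (hSN hβS))
  have hidx : C.relIndex N = 2 := by
    have : j = 1 := by omega
    rw [hj, this, pow_one]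
  have hcardC2 : (Nat.card C).factorization 2 = n + 3 := by
    have hC0 : Nat.card C ≠ 0 := Nat.card_pos.ne'
    have h2 : ¬ 2 ^ (n + 4) ∣ Nat.card C := by
      intro h
      apply hnd
      have h5 : 2 ^ (n + 5) ∣ Nat.card N := by
        rw [hNcard, hidx]
        have : 2 ^ (n + 5) = 2 * 2 ^ (n + 4) := by ring
        rw [this]; exact Nat.mul_dvd_mul_left 2 h
      exact h5.trans (Subgroup.card_subgroup_dvd_card N)
    have h3 := (Nat.Prime.pow_dvd_iff_le_factorization Nat.prime_two hC0).1 hA_dvd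
    have h4 : ¬ (n + 4 ≤ (Nat.card C).factorization 2) := fun h =>
      h2 ((Nat.Prime.pow_dvd_iff_le_factorization Nat.prime_two hC0).2 h)
    omega
  have hcardA' : Nat.card (A.subgroupOf C) = 2 ^ (Nat.card C).factorization 2 := by
    rw [hcardC2, Nat.card_congr (Subgroup.subgroupOfEquivOfLe hAC).toEquiv, hcardA]
  exact ⟨hcardD, hAC, hSC, hSN, hidx, Sylow.ofCard (A.subgroupOf C) hcardA', Sylow.coe_ofCard _ _⟩

theorem aux842 {G : Type*} [Group G] [Finite G] (S : Sylow 2 G) (n : ℕ) (α : G)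
    (hαS : α ∈ (S : Subgroup G))
    (hα : orderOf α = 2 * 2 ^ (n + 2)) (hcardS : Nat.card (S : Subgroup G) = 4 * 2 ^ (n + 2))
    (hS : ∀ s ∈ (S : Subgroup G), s ∈ Subgroup.zpowers α ∨ s * α ^ 2 * s⁻¹ = (α ^ 2)⁻¹)
    (D : Subgroup G) (hD : D = Subgroup.zpowers (α ^ 2)) :
    ∃ K : Subgroup G, Odd (Nat.card K) ∧ K ≤ Subgroup.centralizer (D : Set G) ∧ Subgroup.normalizer (D : Set G) ≤ Subgroup.normalizer (K : Set G) ∧ K ⊔ (S : Subgroup G) = Subgroup.normalizer (D : Set G) ∧ K ⊔ ((S : Subgroup G) ⊓ Subgroup.centralizer (D : Set G)) = Subgroup.centralizer (D : Set G) ∧ ((Subgroup.centralizer (D : Set G)).subgroupOf (Subgroup.normalizer (D : Set G))).index = 2 := by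
  obtain ⟨C, hC⟩ : ∃ C, C = Subgroup.centralizer (D : Set G) := ⟨_, rfl⟩
  obtain ⟨N, hN⟩ : ∃ N, N = Subgroup.normalizer (D : Set G) := ⟨_, rfl⟩
  obtain ⟨A, hA⟩ : ∃ A, A = Subgroup.zpowers α := ⟨_, rfl⟩
  obtain ⟨hcardD, hAC, hSC, hSN, hidx, P, hP⟩ :=
    facts S n α hαS hα hcardS hS D C N A hD hC hN hA
  rw [← hC, ← hN]
  have hCN : C ≤ N := by rw [hC, hN]; exact Subgroup.centralizer_le_normalizer _
  have hAS : A ≤ (S : Subgroup G) := by rw [hA, Subgroup.zpowers_le]; exact hαS
  have hcardA : Nat.card A = 2 ^ (n + 3) := by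
    rw [hA, Nat.card_zpowers, hα]; ring
  have hPcyc : IsCyclic P := by
    have e1 : (P : Subgroup C) ≃* A := by rw [hP]; exact Subgroup.subgroupOfEquivOfLe hAC
    have hAc : IsCyclic A := by rw [hA]; infer_instance
    exact (MulEquiv.isCyclic e1).2 hAc
  have h2C : 2 ∣ Nat.card C := by
    have h1 : Nat.card A ∣ Nat.card C := Subgroup.card_dvd_of_le hAC
    refine dvd_trans ?_ h1
    rw [hcardA]; exact dvd_pow_self 2 (by omega)
  have hmin : (Nat.card C).minFac = 2 := (Nat.minFac_eq_two_iff _).2 h2C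
  have hcomp := IsCyclic.isComplement' hmin hPcyc
  set τ := MonoidHom.transferSylow P (hPcyc.normalizer_le_centralizer hmin) with hτ
  set K₀ := τ.ker with hK₀
  set K := K₀.map C.subtype with hK
  have hKC : K ≤ C := Subgroup.map_subtype_le _
  have hKodd : Odd (Nat.card K) := by
    have h1 : Nat.card K = Nat.card K₀ := Subgroup.card_subtype _ _
    have h2 : (P : Subgroup C).index = Nat.card K₀ := hcomp.index_eq_card
    rw [h1, ← h2, ← Nat.not_even_iff_odd, even_iff_two_dvd]
    exact P.not_dvd_index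
  have hKmem : ∀ c, c ∈ C → Odd (orderOf c) → c ∈ K := by
    intro c hc hodd
    refine ⟨⟨c, hc⟩, ?_, rfl⟩
    show (⟨c, hc⟩ : C) ∈ τ.ker
    rw [MonoidHom.mem_ker]
    have h1 : orderOf (τ ⟨c, hc⟩) ∣ orderOf c := by
      have := orderOf_map_dvd τ (⟨c, hc⟩ : C)
      rwa [Subgroup.orderOf_mk c hc] at this
    obtain ⟨k, hk⟩ := (IsPGroup.iff_orderOf.1 P.2) (τ ⟨c, hc⟩)
    rcases Nat.eq_zero_or_pos k with rfl | hkpos
    · rw [pow_zero, orderOf_eq_one_iff] at hk; exact hk
    · exfalso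
      have : 2 ∣ orderOf c := (dvd_pow_self 2 hkpos.ne').trans (hk ▸ h1)
      exact (Nat.not_even_iff_odd.2 hodd) (even_iff_two_dvd.2 this)
  have hKord : ∀ k ∈ K, Odd (orderOf k) := by
    intro k hk
    have : orderOf k ∣ Nat.card K := by
      have := orderOf_dvd_natCard (⟨k, hk⟩ : K)
      rwa [Subgroup.orderOf_mk] at this
    exact hKodd.of_dvd_nat this
  have hKconj : ∀ g ∈ N, ∀ k ∈ K, g * k * g⁻¹ ∈ K := by
    intro g hg k hk
    apply hKmem _ (by rw [hC]; exact cent_conj D g (hN ▸ hg) k (hC ▸ hKC hk))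
    have : orderOf (g * k * g⁻¹) = orderOf k := MulEquiv.orderOf_eq (MulAut.conj g) k
    rw [this]; exact hKord k hk
  have hNK : N ≤ Subgroup.normalizer (K : Set G) := by
    intro g hg
    rw [Subgroup.mem_normalizer_iff]
    intro k
    constructor
    · exact hKconj g hg k
    · intro h
      have := hKconj g⁻¹ (N.inv_mem hg) _ h
      simpa [mul_assoc] using this
  have hKA : K ⊔ A = C := by
    have h1 : K₀ ⊔ (P : Subgroup C) = ⊤ := hcomp.sup_eq_top
    have h2 := congrArg (Subgroup.map C.subtype) h1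
    rw [Subgroup.map_sup, hP, Subgroup.subgroupOf_map_subtype, inf_eq_left.2 hAC,
      ← MonoidHom.range_eq_map, Subgroup.range_subtype] at h2
    exact h2
  refine ⟨K, hKodd, hKC, hNK, ?_, ?_, hidx⟩
  · apply le_antisymm
    · exact sup_le (hKC.trans hCN) hSN
    · have hCS : C ⊔ (S : Subgroup G) ≤ K ⊔ (S : Subgroup G) := by
        rw [← hKA]
        exact sup_le (sup_le le_sup_left (hAS.trans le_sup_right)) le_sup_right
      refine le_trans ?_ hCS
      have h1 : C.relIndex (C ⊔ (S : Subgroup G)) * (C ⊔ (S : Subgroup G)).relIndex N =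
          C.relIndex N := Subgroup.relIndex_mul_relIndex _ _ _ le_sup_left (sup_le hCN hSN)
      have hidx' : C.relIndex N = 2 := hidx
      rw [hidx'] at h1
      have h2 : C.relIndex (C ⊔ (S : Subgroup G)) ≠ 1 := by
        rw [Ne, Subgroup.relIndex_eq_one]
        intro h
        have h3 : (S : Subgroup G) ≤ C := le_sup_right.trans h
        have h4 : (S : Subgroup G) = A := by rw [← hSC]; exact (inf_eq_left.2 h3).symm
        have h5 : Nat.card (S : Subgroup G) = Nat.card A := by rw [h4]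
        rw [hcardA, hcardS] at h5
        have h6 : 2 ^ (n + 3) = 2 * 2 ^ (n + 2) := by ring
        have h7 : 0 < 2 ^ (n + 2) := by positivity
        omega
      have h3 : (C ⊔ (S : Subgroup G)).relIndex N = 1 := by
        have ha : C.relIndex (C ⊔ (S : Subgroup G)) ∣ 2 := Dvd.intro _ h1
        rcases (Nat.dvd_prime Nat.prime_two).1 ha with h | h
        · exact absurd h h2
        · rw [h] at h1; omega
      exact Subgroup.relIndex_eq_one.1 h3
  · rw [hSC]; exact hKA

theorem aux {G : Type*} [Group G] [Finite G] (S : Sylow 2 G) (n : ℕ) (e : (S : Subgroup G) ≃* QuaternionGroup (2 ^ (n + 2))) (D : Subgroup G) (hD : D = ⁅(S : Subgroup G), (S : Subgroup G)⁆) : ∃ K : Subgroup G, Odd (Nat.card K) ∧ K ≤ Subgroup.centralizer (D : Set G) ∧ Subgroup.normalizer (D : Set G) ≤ Subgroup.normalizer (K : Set G) ∧ K ⊔ (S : Subgroup G) = Subgroup.normalizer (D : Set G) ∧ K ⊔ ((S : Subgroup G) ⊓ Subgroup.centralizer (D : Set G)) = Subgroup.centralizer (D : Set G) ∧ ((Subgroup.centralizer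 (D : Set G)).subgroupOf (Subgroup.normalizer (D : Set G))).index = 2 := by
  obtain ⟨α, hαS, hα, hcomm, hS, hcard⟩ := quat_data (S : Subgroup G) (2 ^ (n + 2)) e
  exact aux842 S n α hαS hα hcard hS D (hD.trans hcomm)


/-- Suppose a Sylow 2-subgroup S of the finite group G is generalized quaternion of order at least 16, and let D be the commutator subgroup of S, C its centralizer and N its normalizer in G. Then there is a subgroup K of odd order, contained in C and normalized by N, with K ⊔ S = N and K ⊔ (S ⊓ C) = C, and C has index 2 in N. -/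
theorem result {G : Type*} [Group G] [Finite G] (S : Sylow 2 G) (n : ℕ) (e : (S : Subgroup G) ≃* QuaternionGroup (2 ^ (n + 2))) (D : Subgroup G) (hD : D = ⁅(S : Subgroup G), (S : Subgroup G)⁆) : ∃ K : Subgroup G, Odd (Nat.card K) ∧ K ≤ Subgroup.centralizer (D : Set G) ∧ Subgroup.normalizer (D : Set G) ≤ Subgroup.normalizer (K : Set G) ∧ K ⊔ (S : Subgroup G) = Subgroup.normalizer (D : Set G) ∧ K ⊔ ((S : Subgroup G) ⊓ Subgroup.centralizer (D : Set G)) = Subgroup.centralizer (D : Set G) ∧ ((Subgroup.centralizer (D : Set G)).subgroupOf (Subgroup.normalizer (D : Set G))).index = 2 := by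
  exact aux S n e D hD

end Cfsg.Agent.S0842
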