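import Cfsg.Statements.S0843
-- import your own Cfsg.Agent.* helpers here
import Mathlib
import Cfsg.Agent.S0842

set_option autoImplicit false
open Cfsg

namespace Cfsg.Agent.S0843

open Cfsg.Agent.S0842

theorem aux843 {G : Type*} [Group G] [Finite G] (S : Sylow 2 G) (n : ℕ) (α : G)
    (hαS : α ∈ (S : Subgroup G))
    (hα : orderOf α = 2 * 2 ^ (n + 2)) (hcardS : Nat.card (S : Subgroup G) = 4 * 2 ^ (n + 2))
    (hS : ∀ s ∈ (S : Subgroup G), s ∈ Subgroup.zpowers α ∨ s * α ^ 2 * s⁻¹ = (α ^ 2)⁻¹)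
    (D : Subgroup G) (hD : D = Subgroup.zpowers (α ^ 2)) :
    (∀ y : G, y ∈ Subgroup.centralizer (D : Set G) → Nat.card D ∣ orderOf y → D ≤ Subgroup.zpowers y) ∧ (∀ g y : G, y ∈ Subgroup.centralizer (D : Set G) → Nat.card D ∣ orderOf y → g * y * g⁻¹ ∈ Subgroup.centralizer (D : Set G) → g ∈ Subgroup.normalizer (D : Set G)) ∧ (∀ g y : G, g ∈ Subgroup.normalizer (D : Set G) → y ∈ Subgroup.centralizer (D : Set G) → Nat.card D ∣ orderOf y → g * y * g⁻¹ ∈ Subgroup.centralizer (D : Set G) ∧ Nat.card D ∣ orderOf (g * y * g⁻¹)) := by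
  obtain ⟨C, hC⟩ : ∃ C, C = Subgroup.centralizer (D : Set G) := ⟨_, rfl⟩
  obtain ⟨N, hN⟩ : ∃ N, N = Subgroup.normalizer (D : Set G) := ⟨_, rfl⟩
  obtain ⟨A, hA⟩ : ∃ A, A = Subgroup.zpowers α := ⟨_, rfl⟩
  obtain ⟨hcardD, hAC, hSC, hSN, hidx, P, hP⟩ :=
    facts S n α hαS hα hcardS hS D C N A hD hC hN hA
  rw [← hC, ← hN, hcardD]
  have hoα2 : orderOf (α ^ 2) = 2 ^ (n + 2) := by
    rw [← Nat.card_zpowers, ← hD]; exact hcardD
  have h_i : ∀ y : G, y ∈ C → 2 ^ (n + 2) ∣ orderOf y → α ^ 2 ∈ Subgroup.zpowers y := by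
    intro y hy hdvd
    have hy0 : orderOf y ≠ 0 := (orderOf_pos y).ne'
    obtain ⟨t, r, hr, hyo⟩ := Nat.exists_eq_two_pow_mul_odd hy0
    have ht : n + 2 ≤ t := by
      have hcop : Nat.Coprime (2 ^ (n + 2)) r :=
        Nat.Coprime.pow_left _ (Nat.coprime_two_left.2 hr)
      have : 2 ^ (n + 2) ∣ 2 ^ t := hcop.dvd_of_dvd_mul_right (hyo ▸ hdvd)
      exact (Nat.pow_dvd_pow_iff_le_right (by norm_num)).1 this
    have hr0 : r ≠ 0 := by rintro rfl; simp at hr
    have hy2o : orderOf (y ^ r) = 2 ^ t := by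
      rw [orderOf_pow_of_dvd hr0 (by rw [hyo]; exact dvd_mul_left r _), hyo]
      exact Nat.mul_div_cancel _ (Nat.pos_of_ne_zero hr0)
    obtain ⟨y2, hy2⟩ : ∃ y2 : C, y2 = ⟨y ^ r, C.pow_mem hy r⟩ := ⟨_, rfl⟩
    have hz : IsPGroup 2 (Subgroup.zpowers y2) := by
      apply IsPGroup.of_card (n := t)
      rw [Nat.card_zpowers, hy2, Subgroup.orderOf_mk, hy2o]
    obtain ⟨P', hP'⟩ := hz.exists_le_sylow
    obtain ⟨c, hc⟩ := MulAction.exists_smul_eq C P P'
    have hmem : y2 ∈ ((c • P : Sylow 2 C) : Subgroup C) := by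
      rw [hc]; exact hP' (Subgroup.mem_zpowers _)
    rw [mem_smul_sylow, hP, Subgroup.mem_subgroupOf] at hmem
    obtain ⟨z, hz'⟩ : ∃ z : G, z = (c : G)⁻¹ * y ^ r * (c : G) := ⟨_, rfl⟩
    have hzA : z ∈ A := by
      rw [hz']
      rw [hy2] at hmem
      simpa using hmem
    have hzo : orderOf z = 2 ^ t := by
      rw [← hy2o, hz']
      have := MulEquiv.orderOf_eq (MulAut.conj (c : G)⁻¹) (y ^ r)
      simpa [MulAut.conj_apply] using this
    have hα2A : α ^ 2 ∈ Subgroup.zpowers α := Subgroup.pow_mem _ (Subgroup.mem_zpowers α) 2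
    have h1 : α ^ 2 ∈ Subgroup.zpowers z :=
      cyc_mem' α (α ^ 2) z hα2A (hA ▸ hzA) (by rw [hoα2, hzo]; exact Nat.pow_dvd_pow 2 ht)
    obtain ⟨k, hk⟩ := h1
    have hk' : z ^ k = α ^ 2 := hk
    have hcc : α ^ 2 * (c : G) = (c : G) * α ^ 2 := by
      have hcC : (c : G) ∈ Subgroup.centralizer (D : Set G) := hC ▸ c.2
      exact (Subgroup.mem_centralizer_iff.1 hcC) (α ^ 2) (hD ▸ Subgroup.mem_zpowers _)
    have h2 : (y ^ r) ^ k = α ^ 2 := by
      have h3 : z ^ k = (c : G)⁻¹ * (y ^ r) ^ k * (c : G) := by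
        rw [hz']
        have := conj_zpow (a := (c : G)⁻¹) (b := y ^ r) (i := k)
        simpa using this
      have h4 : (c : G)⁻¹ * (y ^ r) ^ k * (c : G) = α ^ 2 := h3 ▸ hk'
      calc (y ^ r) ^ k = (c : G) * ((c : G)⁻¹ * (y ^ r) ^ k * (c : G)) * (c : G)⁻¹ := by group
        _ = (c : G) * α ^ 2 * (c : G)⁻¹ := by rw [h4]
        _ = α ^ 2 := by rw [← hcc, mul_inv_cancel_right]
    rw [← h2]
    exact Subgroup.zpow_mem _ (Subgroup.pow_mem _ (Subgroup.mem_zpowers y) r) k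
  have h_ii : ∀ g y : G, y ∈ C → 2 ^ (n + 2) ∣ orderOf y → g * y * g⁻¹ ∈ C →
      g * α ^ 2 * g⁻¹ ∈ Subgroup.zpowers (α ^ 2) := by
    intro g y hy hdvd hgy
    have hoc : orderOf (g * y * g⁻¹) = orderOf y := MulEquiv.orderOf_eq (MulAut.conj g) y
    have h1 := h_i y hy hdvd
    have h2 := h_i (g * y * g⁻¹) hgy (by rw [hoc]; exact hdvd)
    have h3 : g * α ^ 2 * g⁻¹ ∈ Subgroup.zpowers (g * y * g⁻¹) := by
      obtain ⟨k, hk⟩ := h1
      have hk' : y ^ k = α ^ 2 := hk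
      refine ⟨k, ?_⟩
      show (g * y * g⁻¹) ^ k = g * α ^ 2 * g⁻¹
      rw [conj_zpow, hk']
    have h4 : orderOf (g * α ^ 2 * g⁻¹) = orderOf (α ^ 2) :=
      MulEquiv.orderOf_eq (MulAut.conj g) (α ^ 2)
    exact cyc_mem' (g * y * g⁻¹) _ _ h3 h2 (by rw [h4])
  refine ⟨?_, ?_, ?_⟩
  · intro y hy hdvd
    rw [hD, Subgroup.zpowers_le]
    exact h_i y hy hdvd
  · intro g y hy hdvd hgy
    rw [hN, hD]
    apply mem_normalizer_zpowers
    · exact h_ii g y hy hdvd hgy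
    · have hoc : orderOf (g * y * g⁻¹) = orderOf y := MulEquiv.orderOf_eq (MulAut.conj g) y
      have := h_ii g⁻¹ (g * y * g⁻¹) hgy (by rw [hoc]; exact hdvd) (by simpa [mul_assoc] using hy)
      simpa using this
  · intro g y hg hy hdvd
    refine ⟨?_, ?_⟩
    · rw [hC]; exact cent_conj D g (hN ▸ hg) y (hC ▸ hy)
    · have hoc : orderOf (g * y * g⁻¹) = orderOf y := MulEquiv.orderOf_eq (MulAut.conj g) y
      rw [hoc]; exact hdvd

theorem aux {G : Type*} [Group G] [Finite G] (S : Sylow 2 G) (n : ℕ) (e : (S : Subgroup G) ≃* QuaternionGroup (2 ^ (n + 2))) (D : Subgroup G) (hD : D = ⁅(S : Subgroup G), (S : Subgroup G)⁆) : (∀ y : G, y ∈ Subgroup.centralizer (D : Set G) → Nat.card D ∣ orderOf y → D ≤ Subgroup.zpowers y) ∧ (∀ g y : G, y ∈ Subgroup.centralizer (D : Set G) → Nat.card D ∣ orderOf y → g * y * g⁻¹ ∈ Subgroup.centralizer (D : Set G) → g ∈ Subgroup.normalizer (D : Set G)) ∧ (∀ g y : G, g ∈ Subgroup.normalizer (D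 : Set G) → y ∈ Subgroup.centralizer (D : Set G) → Nat.card D ∣ orderOf y → g * y * g⁻¹ ∈ Subgroup.centralizer (D : Set G) ∧ Nat.card D ∣ orderOf (g * y * g⁻¹)) := by
  obtain ⟨α, hαS, hα, hcomm, hS, hcard⟩ := quat_data (S : Subgroup G) (2 ^ (n + 2)) e
  exact aux843 S n α hαS hα hcard hS D (hD.trans hcomm)


/-- Suppose a Sylow 2-subgroup S of the finite group G is generalized quaternion of order at least 16; let D be the commutator subgroup of S and X the set of elements of the centralizer of D whose order is divisible by the order of D. Then D is contained in the cyclic subgroup generated by any element of X; an element of G conjugating some element of X into the centralizer of D normalizes D; and the normalizer of D maps X to itself under conjugation. -/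
theorem result {G : Type*} [Group G] [Finite G] (S : Sylow 2 G) (n : ℕ) (e : (S : Subgroup G) ≃* QuaternionGroup (2 ^ (n + 2))) (D : Subgroup G) (hD : D = ⁅(S : Subgroup G), (S : Subgroup G)⁆) : (∀ y : G, y ∈ Subgroup.centralizer (D : Set G) → Nat.card D ∣ orderOf y → D ≤ Subgroup.zpowers y) ∧ (∀ g y : G, y ∈ Subgroup.centralizer (D : Set G) → Nat.card D ∣ orderOf y → g * y * g⁻¹ ∈ Subgroup.centralizer (D : Set G) → g ∈ Subgroup.normalizer (D : Set G)) ∧ (∀ g y : G, g ∈ Subgroup.normalizer (D : Set G) → y ∈ Subgroup.centralizer (D : Set G) → Nat.card D ∣ orderOf y → g * y * g⁻¹ ∈ Subgroup.centralizer (D : Set G) ∧ Nat.card D ∣ orderOf (g * y * g⁻¹)) := by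
  exact aux S n e D hD

end Cfsg.Agent.S0843
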