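import Mathlib
import Cfsg.Statements.S0849

set_option autoImplicit false
open Cfsg

namespace Cfsg.Agent.S0849

open Classical in
theorem key {G : Type*} [Group G] [Fintype G] (H : Subgroup G) (S : Set G) (hSH : S ⊆ H)
    (hTI : ∀ g : G, g ∉ H → ∀ s ∈ S, g * s * g⁻¹ ∉ S) (hinv : ∀ s ∈ S, s⁻¹ ∈ S) (φ : H → ℂ)
    (hφS : ∀ x : H, (x : G) ∉ S → φ x = 0) (u v : G) (hu : orderOf u = 2) (hv : orderOf v = 2) :
    ∑ᶠ p ∈ {p : G × G | IsConj u p.1 ∧ IsConj v p.2}, Cfsg.extendByZero H φ (p.1 * p.2)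
      = ∑ᶠ p ∈ {p : H × H | IsConj u (p.1 : G) ∧ IsConj v (p.2 : G)}, φ (p.1 * p.2) := by
  have hext : ∀ h : H, Cfsg.extendByZero H φ (h : G) = φ h := by
    intro h
    unfold Cfsg.extendByZero
    exact Subtype.val_injective.extend_apply φ 0 h
  have hext0 : ∀ g : G, g ∉ H → Cfsg.extendByZero H φ g = 0 := by
    intro g hg
    unfold Cfsg.extendByZero
    rw [Function.extend_apply']
    · rfl
    · rintro ⟨a, rfl⟩
      exact hg a.2
  have hsq : ∀ w a : G, orderOf w = 2 → IsConj w a → a * a = 1 := by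
    intro w a hw hwa
    obtain ⟨c, hc⟩ := isConj_iff.mp hwa
    have h1 : w * w = 1 := by
      have := pow_orderOf_eq_one w
      rw [hw, pow_two] at this
      exact this
    rw [← hc]
    calc c * w * c⁻¹ * (c * w * c⁻¹) = c * (w * w) * c⁻¹ := by group
      _ = 1 := by rw [h1]; group
  -- restrict the left sum to pairs in H × H
  have hL : ∑ᶠ p ∈ {p : G × G | IsConj u p.1 ∧ IsConj v p.2}, Cfsg.extendByZero H φ (p.1 * p.2)
      = ∑ᶠ p ∈ {p : G × G | (IsConj u p.1 ∧ IsConj v p.2) ∧ p.1 ∈ H ∧ p.2 ∈ H},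
          Cfsg.extendByZero H φ (p.1 * p.2) := by
    apply finsum_mem_inter_support_eq
    ext p
    constructor
    · rintro ⟨⟨h1, h2⟩, hp⟩
      refine ⟨⟨⟨h1, h2⟩, ?_⟩, hp⟩
      have hne : Cfsg.extendByZero H φ (p.1 * p.2) ≠ 0 := hp
      have hmem : p.1 * p.2 ∈ H := by
        by_contra hcon
        exact hne (hext0 _ hcon)
      have hS : p.1 * p.2 ∈ S := by
        by_contra hcon
        apply hne
        have := hext ⟨p.1 * p.2, hmem⟩
        rw [this]
        exact hφS ⟨p.1 * p.2, hmem⟩ hcon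
      have ha := hsq u p.1 hu h1
      have hb := hsq v p.2 hv h2
      have hainv : p.1⁻¹ = p.1 := inv_eq_of_mul_eq_one_left ha
      have hbinv : p.2⁻¹ = p.2 := inv_eq_of_mul_eq_one_left hb
      have hsinv : (p.1 * p.2)⁻¹ = p.2 * p.1 := by rw [mul_inv_rev, hainv, hbinv]
      constructor
      · by_contra hcon
        apply hTI p.1 hcon (p.1 * p.2) hS
        have : p.1 * (p.1 * p.2) * p.1⁻¹ = (p.1 * p.2)⁻¹ := by
          rw [hsinv, hainv, ← mul_assoc, ha, one_mul]
        rw [this]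
        exact hinv _ hS
      · by_contra hcon
        apply hTI p.2 hcon (p.1 * p.2) hS
        have : p.2 * (p.1 * p.2) * p.2⁻¹ = (p.1 * p.2)⁻¹ := by
          rw [hsinv, hbinv, mul_assoc, mul_assoc, hb, mul_one]
        rw [this]
        exact hinv _ hS
    · rintro ⟨⟨h12, _⟩, hp⟩
      exact ⟨h12, hp⟩
  rw [hL]
  symm
  apply finsum_mem_eq_of_bijOn (fun q : H × H => ((q.1 : G), (q.2 : G)))
  · refine ⟨?_, ?_, ?_⟩
    · intro q hq
      exact ⟨hq, q.1.2, q.2.2⟩
    · intro q _ q' _ hqq'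
      simp only [Prod.mk.injEq] at hqq'
      exact Prod.ext (Subtype.ext hqq'.1) (Subtype.ext hqq'.2)
    · rintro p ⟨hp, h1, h2⟩
      exact ⟨(⟨p.1, h1⟩, ⟨p.2, h2⟩), hp, rfl⟩
  · intro q _
    exact (hext (q.1 * q.2)).symm

/-- Let H be a subgroup of a finite group G and S a subset of H that is mapped to itself under conjugation by H, is disjoint from its conjugate by any element outside H, and is closed under inverses. Let φ be a class function of H vanishing on H away from S, and let u, v be involutions of G. Then the sum of the induced function of φ over all products a * b with a conjugate to u and b conjugate to v equals the index of H times the sum of φ (a * b) over such pairs with a and b in H. -/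
theorem result {G : Type*} [Group G] [Fintype G] (H : Subgroup G) (S : Set G) (hSH : S ⊆ H) (hHS : ∀ h ∈ H, ∀ s ∈ S, h * s * h⁻¹ ∈ S) (hTI : ∀ g : G, g ∉ H → ∀ s ∈ S, g * s * g⁻¹ ∉ S) (hinv : ∀ s ∈ S, s⁻¹ ∈ S) (φ : H → ℂ) (hφ : Cfsg.IsClassFunction H φ) (hφS : ∀ x : H, (x : G) ∉ S → φ x = 0) (u v : G) (hu : orderOf u = 2) (hv : orderOf v = 2) : ∑ᶠ p ∈ {p : G × G | IsConj u p.1 ∧ IsConj v p.2}, Cfsg.indFun H φ (p.1 * p.2) = (H.index : ℂ) * ∑ᶠ p ∈ {p : H × H | IsConj u (p.1 : G) ∧ IsConj v (p.2 : G)}, φ (p.1 * p.2) := by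
  classical
  rw [← key H S hSH hTI hinv φ hφS u v hu hv]
  have hfin : ({p : G × G | IsConj u p.1 ∧ IsConj v p.2}).Finite := Set.toFinite _
  rw [finsum_mem_eq_finite_toFinset_sum _ hfin, finsum_mem_eq_finite_toFinset_sum _ hfin]
  unfold Cfsg.indFun
  rw [← Finset.mul_sum, Finset.sum_comm]
  have hx : ∀ x : G, ∑ p ∈ hfin.toFinset, Cfsg.extendByZero H φ (x⁻¹ * (p.1 * p.2) * x)
      = ∑ p ∈ hfin.toFinset, Cfsg.extendByZero H φ (p.1 * p.2) := by
    intro x
    apply Finset.sum_nbij' (fun p => (x⁻¹ * p.1 * x, x⁻¹ * p.2 * x))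
      (fun p => (x * p.1 * x⁻¹, x * p.2 * x⁻¹))
    · intro p hp
      rw [Set.Finite.mem_toFinset] at hp ⊢
      refine ⟨hp.1.trans ?_, hp.2.trans ?_⟩
      · exact isConj_iff.mpr ⟨x⁻¹, by simp⟩
      · exact isConj_iff.mpr ⟨x⁻¹, by simp⟩
    · intro p hp
      rw [Set.Finite.mem_toFinset] at hp ⊢
      refine ⟨hp.1.trans ?_, hp.2.trans ?_⟩
      · exact isConj_iff.mpr ⟨x, rfl⟩
      · exact isConj_iff.mpr ⟨x, rfl⟩
    · intro p _
      ext <;> simp [mul_assoc]
    · intro p _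
      ext <;> simp [mul_assoc]
    · intro p _
      congr 1
      simp [mul_assoc]
  rw [Finset.sum_congr rfl (fun x _ => hx x), Finset.sum_const, Finset.card_univ, nsmul_eq_mul,
    ← mul_assoc]
  congr 1
  have h1 : (Nat.card H : ℂ) * (H.index : ℂ) = (Fintype.card G : ℂ) := by
    rw [← Nat.cast_mul, H.card_mul_index, Nat.card_eq_fintype_card]
  have h2 : (Nat.card H : ℂ) ≠ 0 := by
    exact_mod_cast Nat.card_pos.ne'
  rw [← h1]
  field_simp

end Cfsg.Agent.S0849
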