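import Mathlib
import Cfsg.Statements.S0850

set_option autoImplicit false
open Cfsg

namespace Cfsg.Agent.S0850

/-- conjugation action of the cyclic group generated by a normalizing element on the
non-identity elements of `K` -/
@[reducible] def conjAct {G : Type*} [Group G] (K : Subgroup G) (x : G)
    (hx : x ∈ Subgroup.normalizer (K : Set G)) :
    MulAction (Subgroup.zpowers x) {k : G // k ∈ K ∧ k ≠ 1} where
  smul z k := ⟨(z : G) * k.1 * (z : G)⁻¹, by
    have hz : (z : G) ∈ Subgroup.normalizer (K : Set G) := (Subgroup.zpowers_le.mpr hx) z.2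
    refine ⟨(Subgroup.mem_normalizer_iff.mp hz k.1).mp k.2.1, ?_⟩
    intro h
    apply k.2.2
    have : k.1 = (z : G)⁻¹ * ((z : G) * k.1 * (z : G)⁻¹) * (z : G) := by group
    rw [this, h]; group⟩
  one_smul k := by
    apply Subtype.ext
    show ((1 : Subgroup.zpowers x) : G) * k.1 * ((1 : Subgroup.zpowers x) : G)⁻¹ = k.1
    simp
  mul_smul a b k := by
    apply Subtype.ext
    show ((a * b : Subgroup.zpowers x) : G) * k.1 * ((a * b : Subgroup.zpowers x) : G)⁻¹
      = (a : G) * ((b : G) * k.1 * (b : G)⁻¹) * (a : G)⁻¹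
    simp [mul_assoc]

theorem part1 {G : Type*} [Group G] [Fintype G] (K : Subgroup G)
    (hTI : ∀ g : G, g ∉ Subgroup.normalizer (K : Set G) → ∀ k ∈ K, g * k * g⁻¹ ∈ K → k = 1)
    (hC : ∀ k ∈ K, k ≠ 1 → Subgroup.centralizer ({k} : Set G) ≤ K) :
    ∀ x ∈ Subgroup.normalizer (K : Set G), x ∉ K → ∀ g : G, g * x * g⁻¹ ∉ K := by
  intro x hxN hxK g hk
  by_cases hg : g ∈ Subgroup.normalizer (K : Set G)
  · exact hxK ((Subgroup.mem_normalizer_iff.mp hg x).mpr hk)
  -- x is a nonidentity element; zpowers x meets K trivially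
  have hx1 : x ≠ 1 := fun h => hxK (h ▸ K.one_mem)
  have hzK : ∀ z ∈ Subgroup.zpowers x, z ∈ K → z = 1 := by
    intro z hz hzK
    apply hTI g hg z hzK
    obtain ⟨n, rfl⟩ := Subgroup.mem_zpowers_iff.mp hz
    have : g * x ^ n * g⁻¹ = (g * x * g⁻¹) ^ n := by
      rw [conj_zpow]
    rw [this]
    exact K.zpow_mem hk n
  -- order of x divides |K|
  have hdvd1 : orderOf x ∣ Nat.card K := by
    have h1 : orderOf (g * x * g⁻¹) = orderOf x := by
      have := orderOf_injective (MulAut.conj g).toMonoidHom (MulAut.conj g).injective x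
      simpa using this
    rw [← h1]
    exact K.orderOf_dvd_natCard hk
  -- order of x divides |K| - 1 by the free action
  let _inst := conjAct K x hxN
  have hfree : ∀ b : {k : G // k ∈ K ∧ k ≠ 1}, MulAction.stabilizer (Subgroup.zpowers x) b = ⊥ := by
    intro b
    rw [Subgroup.eq_bot_iff_forall]
    intro z hz
    rw [MulAction.mem_stabilizer_iff] at hz
    have hz' : (z : G) * b.1 * (z : G)⁻¹ = b.1 := congrArg Subtype.val hz
    have hzc : (z : G) ∈ Subgroup.centralizer ({b.1} : Set G) := by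
      rw [Subgroup.mem_centralizer_iff]
      intro y hy
      rw [Set.mem_singleton_iff] at hy
      subst hy
      calc b.1 * (z : G) = ((z : G) * b.1 * (z : G)⁻¹) * (z : G) := by rw [hz']
        _ = (z : G) * b.1 := by group
    have := hzK (z : G) z.2 (hC b.1 b.2.1 b.2.2 hzc)
    exact Subtype.ext this
  have e := MulAction.selfEquivOrbitsQuotientProd hfree
  have hdvd2 : orderOf x ∣ Nat.card {k : G // k ∈ K ∧ k ≠ 1} := by
    rw [Nat.card_congr e, Nat.card_prod, Nat.card_zpowers]
    exact dvd_mul_left _ _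
  have hcard : Nat.card K = Nat.card {k : G // k ∈ K ∧ k ≠ 1} + 1 := by
    have h1 : Nat.card K = (K : Set G).ncard := Nat.card_coe_set_eq (K : Set G)
    have h2 : Nat.card {k : G // k ∈ K ∧ k ≠ 1} = ({k : G | k ∈ K ∧ k ≠ 1}).ncard :=
      Nat.card_coe_set_eq {k : G | k ∈ K ∧ k ≠ 1}
    rw [h1, h2]
    have h3 : (K : Set G) = insert 1 {k : G | k ∈ K ∧ k ≠ 1} := by
      ext y
      simp only [SetLike.mem_coe, Set.mem_insert_iff, Set.mem_setOf_eq]
      constructor
      · intro hy
        by_cases h : y = 1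
        · exact Or.inl h
        · exact Or.inr ⟨hy, h⟩
      · rintro (rfl | h)
        · exact K.one_mem
        · exact h.1
    rw [h3, Set.ncard_insert_of_notMem (by simp) (Set.toFinite _)]
  have h1 : orderOf x ∣ 1 := by
    have := (Nat.dvd_add_right hdvd2).mp (hcard ▸ hdvd1)
    exact this
  exact hx1 (orderOf_eq_one_iff.mp (Nat.dvd_one.mp h1))

theorem part2 {G : Type*} [Group G] [Fintype G] (K N : Subgroup G)
    (hTI : ∀ g : G, g ∉ N → ∀ k ∈ K, g * k * g⁻¹ ∈ K → k = 1)
    (hp1 : ∀ x ∈ N, x ∉ K → ∀ g : G, g * x * g⁻¹ ∉ K)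
    (ϑ : N → ℂ) (hcf : Cfsg.IsClassFunction N ϑ) (hvan : ∀ x : N, (x : G) ∉ K → ϑ x = 0)
    (h1 : ϑ 1 = 0) (x : N) : Cfsg.indFun N ϑ x = ϑ x := by
  classical
  have hext : ∀ h : N, Cfsg.extendByZero N ϑ (h : G) = ϑ h := by
    intro h
    unfold Cfsg.extendByZero
    exact Subtype.val_injective.extend_apply ϑ 0 h
  have hext0 : ∀ g : G, g ∉ N → Cfsg.extendByZero N ϑ g = 0 := by
    intro g hg
    unfold Cfsg.extendByZero
    rw [Function.extend_apply']
    · rfl
    · rintro ⟨a, rfl⟩
      exact hg a.2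
  have hNne : (Nat.card N : ℂ) ≠ 0 := by exact_mod_cast Nat.card_pos.ne'
  unfold Cfsg.indFun
  have hterm : ∀ g : G, Cfsg.extendByZero N ϑ (g⁻¹ * (x : G) * g) = if g ∈ N then ϑ x else 0 := by
    intro g
    by_cases hg : g ∈ N
    · rw [if_pos hg]
      have hmem : g⁻¹ * (x : G) * g ∈ N := N.mul_mem (N.mul_mem (N.inv_mem hg) x.2) hg
      have := hext ⟨g⁻¹ * (x : G) * g, hmem⟩
      rw [this]
      have h2 := hcf x (⟨g, hg⟩⁻¹ : N)
      rw [← h2]
      congr 1
      apply Subtype.ext
      simp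
    · rw [if_neg hg]
      by_cases hmem : g⁻¹ * (x : G) * g ∈ N
      · have := hext ⟨g⁻¹ * (x : G) * g, hmem⟩
        rw [this]
        by_cases hK : g⁻¹ * (x : G) * g ∈ K
        · by_cases hxK : (x : G) ∈ K
          · have hg' : g⁻¹ ∉ N := fun h => hg (by simpa using N.inv_mem h)
            have hx1 : (x : G) = 1 := hTI g⁻¹ hg' x hxK (by simpa using hK)
            have : (⟨g⁻¹ * (x : G) * g, hmem⟩ : N) = 1 := by
              apply Subtype.ext
              simp [hx1]
            rw [this, h1]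
          · exfalso
            have := hp1 x x.2 hxK g⁻¹
            apply this
            simpa using hK
        · exact hvan ⟨_, hmem⟩ hK
      · exact hext0 _ hmem
  rw [Finset.sum_congr rfl (fun g _ => hterm g), Finset.sum_ite, Finset.sum_const_zero, add_zero,
    Finset.sum_const, nsmul_eq_mul, ← mul_assoc]
  have hcardN : ((Finset.univ.filter (fun g : G => g ∈ N)).card : ℂ) = (Nat.card N : ℂ) := by
    congr 1
    rw [Nat.card_eq_fintype_card, Fintype.card_subtype]
  rw [hcardN, inv_mul_cancel₀ hNne, one_mul]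

/-- Let K be a subgroup of the finite group G that meets each conjugate by an element outside its normalizer N trivially, is properly contained in N, and contains the centralizer of each of its non-identity elements (a T.I. subgroup with Frobenius normalizer). Then no element of N outside K is conjugate in G to an element of K, and for every class function ϑ of N that vanishes on N away from K and at the identity, the function induced from ϑ to G agrees with ϑ on all of N. -/
theorem result {G : Type*} [Group G] [Fintype G] (K : Subgroup G) (hTI : ∀ g : G, g ∉ Subgroup.normalizer (K : Set G) → ∀ k ∈ K, g * k * g⁻¹ ∈ K → k = 1) (hlt : K < Subgroup.normalizer (K : Set G)) (hC : ∀ k ∈ K, k ≠ 1 → Subgroup.centralizer ({k} : Set G) ≤ K) : (∀ x ∈ Subgroup.normalizer (K : Set G), x ∉ K → ∀ g : G, g * x * g⁻¹ ∉ K) ∧ ∀ (ϑ : Subgroup.normalizer (K : Set G) → ℂ), Cfsg.IsClassFunction (Subgroup.normalizer (K : Set G)) ϑ → (∀ x : Subgroup.normalizer (K : Set G), (x : G) ∉ K → ϑ x = 0) → ϑ 1 = 0 → ∀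 x : Subgroup.normalizer (K : Set G), Cfsg.indFun (Subgroup.normalizer (K : Set G)) ϑ x = ϑ x := by
  have hp1 := part1 K hTI hC
  refine ⟨hp1, ?_⟩
  intro ϑ hcf hvan h1 x
  exact part2 K (Subgroup.normalizer (K : Set G)) hTI hp1 ϑ hcf hvan h1 x

end Cfsg.Agent.S0850
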