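import Cfsg.Statements.S0851
import Cfsg.Agent.Lib.helper2.Tifn2

set_option autoImplicit false
open Cfsg

open Cfsg.Agent.Lib.helper24 Cfsg.Agent.Lib.helper2.Tifn

universe uT

namespace Cfsg.Agent.S0851

/-- The relevant characters, as a type. -/
abbrev TT {G : Type uT} [Group G] (K : Subgroup G) : Type uT :=
  {χ : Cfsg.IrrCharacter (Subgroup.normalizer (K : Set G)) // ∃ k : Subgroup.normalizer (K : Set G), (k : G) ∈ K ∧ (χ : ↥(Subgroup.normalizer (K : Set G)) → ℂ) k ≠ (χ : ↥(Subgroup.normalizer (K : Set G)) → ℂ) 1}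

/-- Let K be a subgroup of the finite group G that meets each conjugate by an element outside its normalizer N trivially, is properly contained in N, and contains the centralizer of each of its non-identity elements (a T.I. subgroup with Frobenius normalizer). Suppose K is abelian, let e be the index of K in N, and call an irreducible character of N relevant when it takes at some element of K a value different from its degree. Then either there is exactly one relevant character and K is an elementary abelian p-group of order e + 1 for some prime p, or there are a sign ε and an injective map f from the relevant characters to the irreducible characters of G such that inducing χ - ξ to G gives ε (f χ - f ξ) for all relevant χ and ξ. -/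
theorem result {G : Type*} [Group G] [Fintype G] (K : Subgroup G) (hTI : ∀ g : G, g ∉ Subgroup.normalizer (K : Set G) → ∀ k ∈ K, g * k * g⁻¹ ∈ K → k = 1) (hlt : K < Subgroup.normalizer (K : Set G)) (hC : ∀ k ∈ K, k ≠ 1 → Subgroup.centralizer ({k} : Set G) ≤ K) (hab : ∀ a ∈ K, ∀ b ∈ K, a * b = b * a) : (Nat.card {χ : Cfsg.IrrCharacter (Subgroup.normalizer (K : Set G)) // ∃ k : Subgroup.normalizer (K : Set G), (k : G) ∈ K ∧ (χ : ↥(Subgroup.normalizer (K : Set G)) → ℂ) k ≠ (χ : ↥(Subgroup.normalizer (K : Set G)) → ℂ) 1} = 1 ∧ ∃ p : ℕ, p.Prime ∧ Cfsg.IsElementaryAbelian p K ∧ Nat.card K = (K.subgroupOf (Subgroup.normalizer (K : Set G))).index + 1) ∨ ∃ (ε : ℂ) (f : {χ : Cfsg.IrrCharacter (Subgroup.normalizer (K : Set G)) // ∃ k : Subgroup.normalizer (K : Set G), (k : G) ∈ K ∧ (χ : ↥(Subgroup.normalizer (K : Set G)) → ℂ) k ≠ (χ : ↥(Subgroup.normalizer (K : Set G)) → ℂ) 1} → Cfsg.IrrCharacter G), (ε = 1 ∨ ε = -1) ∧ Function.Injective f ∧ ∀ χ ξ, Cfsg.indFun (Subgroup.normalizer (K : Set G)) ((χ.1 : ↥(Subgroup.normalizer (K :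 Set G)) → ℂ) - (ξ.1 : ↥(Subgroup.normalizer (K : Set G)) → ℂ)) = ε • ((f χ : G → ℂ) - (f ξ : G → ℂ)) := by
  classical
  have hnorm : (K.subgroupOf (Subgroup.normalizer (K : Set G))).Normal :=
    Subgroup.normal_in_normalizer
  have hFK := kn_fk K hC
  haveI hcomm : IsMulCommutative ↥(K.subgroupOf (Subgroup.normalizer (K : Set G))) := by
    refine ⟨⟨fun a b => ?_⟩⟩
    apply Subtype.ext
    apply Subtype.ext
    exact hab _ a.2 _ b.2
  have hKN : K ≤ Subgroup.normalizer (K : Set G) := Subgroup.le_normalizer
  have hT : ∀ t : TT K, InS (K.subgroupOf (Subgroup.normalizer (K : Set G))) t.1.1 :=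
    fun t => ⟨t.1.2, t.2⟩
  have hdegT : ∀ t : TT K,
      t.1.1 1 = ((K.subgroupOf (Subgroup.normalizer (K : Set G))).index : ℂ) := by
    intro t
    obtain ⟨τ, hτ, -, he⟩ := exists_ind _ hFK (hT t)
    have hτ1 : τ 1 = 1 := irr_one_of_comm ⟨τ, hτ⟩
    rw [he, indFun_one, hτ1, mul_one]
  have hvanT : ∀ t : TT K, ∀ x : ↥(Subgroup.normalizer (K : Set G)), (x : G) ∉ K →
      t.1.1 x = 0 := by
    intro t x hx
    obtain ⟨τ, -, -, he⟩ := exists_ind _ hFK (hT t)
    rw [he]
    exact ind_vanish _ τ hx
  have hfin : Finite (TT K) := inferInstance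
  rcases Nat.lt_or_ge (Nat.card (TT K)) 2 with hlt2 | hge2
  · rcases Nat.eq_zero_or_pos (Nat.card (TT K)) with h0 | hpos
    · right
      have hemp : IsEmpty (TT K) :=
        (Nat.card_eq_zero.mp h0).resolve_right (not_infinite_iff_finite.mpr hfin)
      exact ⟨1, fun t => hemp.elim t, Or.inl rfl, fun t => hemp.elim t, fun t => hemp.elim t⟩
    · left
      have h1 : Nat.card (TT K) = 1 := by omega
      have hcard := card_of_unique (K.subgroupOf (Subgroup.normalizer (K : Set G))) hFK h1
      have hKK : Nat.card ↥(K.subgroupOf (Subgroup.normalizer (K : Set G))) = Nat.card K :=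
        card_subgroupOf_of_le hKN
      refine ⟨h1, ?_⟩
      have hidx : (K.subgroupOf (Subgroup.normalizer (K : Set G))).index ≠ 0 :=
        Subgroup.index_ne_zero_of_finite
      have hK2 : Nat.card K ≠ 1 := by
        rw [← hKK, hcard]
        omega
      obtain ⟨p, hp, hpd⟩ := Nat.exists_prime_and_dvd hK2
      haveI : Fact p.Prime := ⟨hp⟩
      obtain ⟨g, hg⟩ := exists_prime_orderOf_dvd_card' p
        (G := ↥(K.subgroupOf (Subgroup.normalizer (K : Set G)))) (by rw [hKK]; exact hpd)
      have hg1 : (g : ↥(Subgroup.normalizer (K : Set G))) ≠ 1 := by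
        intro h
        have hg' : g = 1 := Subtype.ext h
        rw [hg', orderOf_one] at hg
        exact hp.one_lt.ne hg
      have hgp : (g : ↥(Subgroup.normalizer (K : Set G))) ^ p = 1 := by
        have h2 := pow_orderOf_eq_one g
        rw [hg] at h2
        exact_mod_cast congrArg Subtype.val h2
      refine ⟨p, hp, ⟨⟨⟨fun a b => Subtype.ext (hab _ a.2 _ b.2)⟩⟩, ?_⟩, ?_⟩
      · intro a ha
        by_cases ha1 : a = 1
        · rw [ha1, one_pow]
        · obtain ⟨n, hn⟩ := conj_transitive (K.subgroupOf (Subgroup.normalizer (K : Set G)))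
            hFK hcard g.2 hg1 (a := ⟨a, hKN ha⟩) ha (fun h => ha1 (congrArg Subtype.val h))
          have h3 : (⟨a, hKN ha⟩ : ↥(Subgroup.normalizer (K : Set G))) ^ p = 1 := by
            rw [← hn, conj_pow, hgp]
            group
          have h4 := congrArg Subtype.val h3
          simpa using h4
      · rw [← hKK, hcard]
  · right
    let eT := Finite.equivFin (TT K)
    obtain ⟨ε, hε, θ, hθirr, hθinj, hθ⟩ :=
      Cfsg.Agent.Lib.helper23.exceptional_characters (K : Set G) hTI (Nat.card (TT K)) hge2
        (fun i => (eT.symm i).1.1) (fun i => (eT.symm i).1.2)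
        (by
          intro i j hij
          have h2 : (eT.symm i).1 = (eT.symm j).1 := Subtype.ext hij
          exact eT.symm.injective (Subtype.ext h2))
        (fun i x hx => hvanT _ x hx) (fun i j => by rw [hdegT, hdegT])
    refine ⟨ε, fun t => ⟨θ (eT t), hθirr _⟩, hε, ?_, ?_⟩
    · intro t t' h
      have h2 := hθinj (congrArg Subtype.val h)
      exact eT.injective h2
    · intro t t'
      have h2 := hθ (eT t) (eT t')
      simp only [Equiv.symm_apply_apply] at h2
      rw [Cfsg.Agent.Lib.helper23.indFun_sub', h2]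

end Cfsg.Agent.S0851
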