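import Cfsg.Statements.S0852
import Cfsg.Agent.Lib.helper2.Tifn2

set_option autoImplicit false
open Cfsg

open Cfsg.Agent.Lib.helper24 Cfsg.Agent.Lib.helper2.Tifn
open scoped ComplexConjugate

namespace Cfsg.Agent.S0852

/-- Let K be a subgroup of the finite group G that meets each conjugate by an element outside its normalizer N trivially, is properly contained in N, and contains the centralizer of each of its non-identity elements (a T.I. subgroup with Frobenius normalizer). Let S be the set of irreducible characters of N taking at some element of K a value different from their degree, suppose S has at least two members, and let star be a linear isometry on the integer span of S into the generalized characters of G that agrees with induction on the members vanishing at the identity (so S is coherent, with star as the extending isometry). Then an irreducible character ψ of G is of the form star χ or -star χ for some χ in S if and only if ψ is not constant on the non-identity elements of K. -/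
theorem result {G : Type*} [Group G] [Fintype G] (K : Subgroup G) (hTI : ∀ g : G, g ∉ Subgroup.normalizer (K : Set G) → ∀ k ∈ K, g * k * g⁻¹ ∈ K → k = 1) (hlt : K < Subgroup.normalizer (K : Set G)) (hC : ∀ k ∈ K, k ≠ 1 → Subgroup.centralizer ({k} : Set G) ≤ K) [Fintype ↥(Subgroup.normalizer (K : Set G))] (S : Set (↥(Subgroup.normalizer (K : Set G)) → ℂ)) (hS : S = {χ : ↥(Subgroup.normalizer (K : Set G)) → ℂ | Cfsg.IsIrrCharacter ↥(Subgroup.normalizer (K : Set G)) χ ∧ ∃ k : ↥(Subgroup.normalizer (K : Set G)), (k : G) ∈ K ∧ χ k ≠ χ 1}) (htwo : ∃ χ ∈ S, ∃ ξ ∈ S, χ ≠ ξ) (star : (↥(Subgroup.normalizer (K : Set G)) → ℂ) → (G → ℂ)) (hstar : Cfsg.IsLinearIsometryOn (Cfsg.zspan S) star) (hext : ∀ α ∈ Cfsg.zspanOn S ({1}ᶜ : Set ↥(Subgroup.normalizer (K : Set G))), star α = Cfsg.indFun (Subgroup.normalizer (K : Set G)) α) (ψ : G → ℂ) (hψ : Cfsg.IsIrrCharacter G ψ) : (∃ χ ∈ S, ψ = star χ ∨ ψ = -star χ) ↔ ∃ a ∈ K, ∃ b ∈ K, a ≠ 1 ∧ b ≠ 1 ∧ ψ a ≠ ψ b := by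
  classical
  have hnorm : (K.subgroupOf (Subgroup.normalizer (K : Set G))).Normal :=
    Subgroup.normal_in_normalizer
  have hFK := kn_fk K hC
  have hSiff := mem_S_iff K S hS
  have hψcl : IsClassFunction G ψ := isCharacter_conj_class (isCharacter_of_isIrrCharacter hψ)
  have hKN : K ≤ Subgroup.normalizer (K : Set G) := Subgroup.le_normalizer
  constructor
  · rintro ⟨χ, hχ, hor⟩
    by_contra hno
    push Not at hno
    obtain ⟨zA, b, hv, -⟩ := star_diff_const K hC S hS star hstar hext hχ
    have hstarc : ∀ a₁ ∈ K, ∀ b₁ ∈ K, a₁ ≠ 1 → b₁ ≠ 1 → star χ a₁ = star χ b₁ := by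
      intro a₁ ha b₁ hb ha1 hb1
      have h1 := hno a₁ ha b₁ hb ha1 hb1
      rcases hor with h | h
      · rw [h] at h1
        exact h1
      · rw [h] at h1
        simpa using h1
    have hconst : ∀ a₁ ∈ K.subgroupOf (Subgroup.normalizer (K : Set G)),
        ∀ b₁ ∈ K.subgroupOf (Subgroup.normalizer (K : Set G)), a₁ ≠ 1 → b₁ ≠ 1 →
        χ a₁ = χ b₁ := by
      intro a₁ ha b₁ hb ha1 hb1
      have h1 := hv a₁ ha ha1
      have h2 := hv b₁ hb hb1
      have h3 := hstarc (a₁ : G) ha (b₁ : G) hb (fun h => ha1 (Subtype.ext h))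
        (fun h => hb1 (Subtype.ext h))
      linear_combination h2 - h1 + h3
    obtain ⟨χ₁, hχ₁, ξ₁, hξ₁, hne⟩ := htwo
    have e1 := unique_of_const _ hFK ((hSiff χ).mp hχ) hconst ((hSiff χ₁).mp hχ₁)
    have e2 := unique_of_const _ hFK ((hSiff χ).mp hχ) hconst ((hSiff ξ₁).mp hξ₁)
    exact hne (e1.trans e2.symm)
  · rintro ⟨a, ha, b, hb, ha1, hb1, hab⟩
    by_contra hno
    push Not at hno
    obtain ⟨χ₀, hχ₀, -⟩ := htwo
    have h0 : ∀ χ ∈ S, classInner (star χ) ψ = 0 := by
      intro χ hχ
      have hχz : χ ∈ zspan S := Submodule.subset_span hχ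
      obtain ⟨c₁, c₂, hc₁, hc₂, hc⟩ := hstar.2.2.2 χ hχz
      have hcl : IsClassFunction G (star χ) := by
        rw [hc]
        exact isClassFunction_sub (isCharacter_conj_class hc₁) (isCharacter_conj_class hc₂)
      have hint : ∀ φ : IrrCharacter G, ∃ z : ℤ, classInner (star χ) φ.1 = z := by
        intro φ
        obtain ⟨n₁, hn₁⟩ := isCharacter_inner_irr_nat hc₁ φ
        obtain ⟨n₂, hn₂⟩ := isCharacter_inner_irr_nat hc₂ φ
        refine ⟨(n₁ : ℤ) - n₂, ?_⟩
        rw [hc, classInner_sub_left, hn₁, hn₂]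
        push_cast
        rfl
      have hnorm1 : classInner (star χ) (star χ) = 1 := by
        rw [hstar.2.2.1 χ hχz χ hχz]
        exact isIrrCharacter_inner_self ((hSiff χ).mp hχ).1
      obtain ⟨β, ε, hε, hβ⟩ := pm_irr_of_norm_one hcl hint hnorm1
      rw [hβ, classInner_smul_left]
      by_cases hβψ : β = ⟨ψ, hψ⟩
      · exfalso
        have hβ1 : β.1 = ψ := congrArg Subtype.val hβψ
        rw [hβ1] at hβ
        rcases hε with h | h
        · rw [h] at hβ
          apply (hno χ hχ).1
          rw [hβ]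
          simp
        · rw [h] at hβ
          apply (hno χ hχ).2
          rw [hβ]
          simp
      · rw [irr_inner_ne (χ := β) (ψ := ⟨ψ, hψ⟩) hβψ, mul_zero]
    obtain ⟨v, hv⟩ := ortho_const K hC S hS star hstar hext hχ₀ hψcl h0
    have h1 := hv ⟨a, hKN ha⟩ ha (fun h => ha1 (congrArg Subtype.val h))
    have h2 := hv ⟨b, hKN hb⟩ hb (fun h => hb1 (congrArg Subtype.val h))
    exact hab (h1.trans h2.symm)

end Cfsg.Agent.S0852
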