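import Cfsg.Statements.S0853
import Cfsg.Agent.Lib.helper2.Tifn2

set_option autoImplicit false
open Cfsg

open Cfsg.Agent.Lib.helper24 Cfsg.Agent.Lib.helper2.Tifn
open scoped ComplexConjugate

namespace Cfsg.Agent.S0853

/-- Let K be a subgroup of the finite group G that meets each conjugate by an element outside its normalizer N trivially, is properly contained in N, and contains the centralizer of each of its non-identity elements (a T.I. subgroup with Frobenius normalizer). Let S be the set of irreducible characters of N taking at some element of K a value different from their degree, suppose S has at least two members, and let star be a linear isometry on the integer span of S into the generalized characters of G that agrees with induction on the members vanishing at the identity (so S is coherent, with star as the extending isometry). Then there is a single integer m such that star χ k - χ k = m * χ 1 / e for every χ in S and every non-identity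 element k of K, where e is the index of K in N. -/
theorem result {G : Type*} [Group G] [Fintype G] (K : Subgroup G) (hTI : ∀ g : G, g ∉ Subgroup.normalizer (K : Set G) → ∀ k ∈ K, g * k * g⁻¹ ∈ K → k = 1) (hlt : K < Subgroup.normalizer (K : Set G)) (hC : ∀ k ∈ K, k ≠ 1 → Subgroup.centralizer ({k} : Set G) ≤ K) [Fintype ↥(Subgroup.normalizer (K : Set G))] (S : Set (↥(Subgroup.normalizer (K : Set G)) → ℂ)) (hS : S = {χ : ↥(Subgroup.normalizer (K : Set G)) → ℂ | Cfsg.IsIrrCharacter ↥(Subgroup.normalizer (K : Set G)) χ ∧ ∃ k : ↥(Subgroup.normalizer (K : Set G)), (k : G) ∈ K ∧ χ k ≠ χ 1}) (htwo : ∃ χ ∈ S, ∃ ξ ∈ S, χ ≠ ξ) (star : (↥(Subgroup.normalizer (K : Set G)) → ℂ) → (G → ℂ)) (hstar : Cfsg.IsLinearIsometryOn (Cfsg.zspan S) star) (hext : ∀ α ∈ Cfsg.zspanOn S ({1}ᶜ : Set ↥(Subgroup.normalizer (K : Set G))), star α = Cfsg.indFun (Subgroup.normalizer (K : Set G)) α) : ∃ m : ℤ, ∀ χ ∈ S, ∀ k : ↥(Subgroup.normalizer (K : Set G)), (k : G) ∈ K → k ≠ 1 → star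 χ k - χ k = (m : ℂ) * χ 1 / ((K.subgroupOf (Subgroup.normalizer (K : Set G))).index : ℂ) := by
  classical
  have hnorm : (K.subgroupOf (Subgroup.normalizer (K : Set G))).Normal :=
    Subgroup.normal_in_normalizer
  haveI : Fintype ↥(K.subgroupOf (Subgroup.normalizer (K : Set G))) := Fintype.ofFinite _
  have hFK := kn_fk K hC
  have hSiff := mem_S_iff K S hS
  obtain ⟨χ₀, hχ₀, -⟩ := htwo
  have h₀' := (hSiff χ₀).mp hχ₀
  obtain ⟨k₁, hk₁, hk₁ne⟩ := h₀'.2
  have hk₁1 : k₁ ≠ 1 := fun h => hk₁ne (by rw [h])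
  have hvan : ∀ χ ∈ S, ∀ x : ↥(Subgroup.normalizer (K : Set G)), (x : G) ∉ K → χ x = 0 := by
    intro χ hχ x hx
    obtain ⟨τ, -, -, rfl⟩ := exists_ind _ hFK ((hSiff χ).mp hχ)
    exact ind_vanish _ τ hx
  have hcl : ∀ χ ∈ S, IsClassFunction ↥(Subgroup.normalizer (K : Set G)) χ := fun χ hχ =>
    isCharacter_conj_class (isCharacter_of_isIrrCharacter ((hSiff χ).mp hχ).1)
  have hL1 := fun χ (hχ : χ ∈ S) => star_diff_const K hC S hS star hstar hext hχ
  choose zA b hv hb using hL1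
  have hrel : ∀ χ (hχ : χ ∈ S) ξ (hξ : ξ ∈ S),
      ξ 1 * ((zA χ hχ : ℂ) - conj (b χ hχ)) = χ 1 * ((zA ξ hξ : ℂ) - conj (b ξ hξ)) := by
    intro χ hχ ξ hξ
    have h1 := star_val K hTI S star hstar hext hχ hξ (charDegree ξ) (charDegree χ)
      (by rw [deg_cast ((hSiff ξ).mp hξ).1, deg_cast ((hSiff χ).mp hχ).1]; ring)
      (hcl χ hχ) (hcl ξ hξ) (hvan χ hχ) (hvan ξ hξ) k₁ hk₁ hk₁1
    rw [deg_cast ((hSiff ξ).mp hξ).1, deg_cast ((hSiff χ).mp hχ).1] at h1
    rw [← hv χ hχ k₁ hk₁ hk₁1, ← hv ξ hξ k₁ hk₁ hk₁1]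
    linear_combination h1
  have he0 : ((K.subgroupOf (Subgroup.normalizer (K : Set G))).index : ℂ) ≠ 0 :=
    Nat.cast_ne_zero.mpr Subgroup.index_ne_zero_of_finite
  have hχ₀1 : χ₀ 1 ≠ 0 := irr_one_ne_zero ⟨χ₀, h₀'.1⟩
  obtain ⟨x, hx⟩ : ∃ x : ℂ, x = ((zA χ₀ hχ₀ : ℂ) - conj (b χ₀ hχ₀)) / χ₀ 1
      * ((K.subgroupOf (Subgroup.normalizer (K : Set G))).index : ℂ) := ⟨_, rfl⟩
  have hvx : ∀ χ (hχ : χ ∈ S), (zA χ hχ : ℂ) - conj (b χ hχ)
      = x * χ 1 / ((K.subgroupOf (Subgroup.normalizer (K : Set G))).index : ℂ) := by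
    intro χ hχ
    have h2 := hrel χ hχ χ₀ hχ₀
    rw [hx]
    field_simp
    linear_combination h2
  have hxint : ∃ m : ℤ, x = m := by
    apply int_of_sq (A := ↥(K.subgroupOf (Subgroup.normalizer (K : Set G)))) x
    · intro τ hτ
      have hτ1 : τ.1 ≠ fun _ => 1 := fun h => hτ (Subtype.ext h)
      have hS' := ind_inS _ hFK τ.2 hτ1
      have hχ' := (hSiff _).mpr hS'
      have h1 := hvx _ hχ'
      rw [indFun_one] at h1
      obtain ⟨z, hz⟩ := hb _ hχ' τ hτ
      obtain ⟨d, -, hd⟩ := isIrrCharacter_one τ.2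
      refine ⟨zA _ hχ' * d - z, ?_⟩
      have hz' : conj (b _ hχ') * τ.1 1 = z := by
        have h3 := congrArg conj hz
        rw [map_mul, irr_one_conj, map_intCast] at h3
        exact h3
      have h4 : x * τ.1 1 = (zA _ hχ' : ℂ) - conj (b _ hχ') := by
        rw [h1]
        field_simp
      push_cast
      rw [← hz', ← hd]
      linear_combination (τ.1 1) * h4
    · obtain ⟨τ, hτ, hτ1, -⟩ := exists_ind _ hFK h₀'
      exact ⟨⟨τ, hτ⟩, fun h => hτ1 (congrArg Subtype.val h)⟩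
  obtain ⟨m, hm⟩ := hxint
  refine ⟨m, ?_⟩
  intro χ hχ k hk hk1
  rw [hv χ hχ k hk hk1, hvx χ hχ, hm]

end Cfsg.Agent.S0853
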