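import Mathlib
import Cfsg.Agent.Lib.helper24.CharReg
import Cfsg.Agent.S0840
import Cfsg.Statements.S0860

set_option autoImplicit false
open scoped ComplexConjugate

namespace Cfsg.Agent.S0860

open Cfsg.Agent.Lib.helper24

theorem fiber_sum {G : Type*} [Group G] [Fintype G] [DecidableEq (ConjClasses G)]
    (C : ConjClasses G) (P : Prop) [Decidable P] :
    ∑ g ∈ Finset.univ.filter (fun g : G => ConjClasses.mk g = C),
      (Nat.card G : ℂ)⁻¹ * (if P then (Nat.card (Subgroup.centralizer ({g} : Set G)) : ℂ) else 0)
      = if P then 1 else 0 := by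
  classical
  have hne : (Nat.card G : ℂ) ≠ 0 := NeZero.ne _
  have hcard : ∀ g ∈ Finset.univ.filter (fun g : G => ConjClasses.mk g = C),
      (Nat.card G : ℂ)⁻¹ * (Nat.card (Subgroup.centralizer ({g} : Set G)) : ℂ)
        = ((Finset.univ.filter (fun g : G => ConjClasses.mk g = C)).card : ℂ)⁻¹ := by
    intro g hg
    rw [Finset.mem_filter] at hg
    have h1 := Cfsg.Agent.S0840.card_class_mul g
    have h2 : Nat.card {x : G // IsConj g x}
        = (Finset.univ.filter (fun g : G => ConjClasses.mk g = C)).card := by
      rw [Nat.card_eq_fintype_card, Fintype.card_subtype]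
      congr 1
      ext x
      simp only [Finset.mem_filter, Finset.mem_univ, true_and]
      rw [← ConjClasses.mk_eq_mk_iff_isConj, hg.2]
      exact eq_comm
    rw [h2] at h1
    have h1' : (((Finset.univ.filter (fun g : G => ConjClasses.mk g = C)).card : ℕ) : ℂ)
        * (Nat.card (Subgroup.centralizer ({g} : Set G)) : ℂ) = (Nat.card G : ℂ) := by
      exact_mod_cast h1
    have hS : (((Finset.univ.filter (fun g : G => ConjClasses.mk g = C)).card : ℕ) : ℂ) ≠ 0 := by
      intro h0
      rw [h0, zero_mul] at h1'
      exact hne h1'.symm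
    rw [← h1']
    field_simp
  by_cases hP : P
  · simp only [hP, if_true]
    rw [Finset.sum_congr rfl hcard, Finset.sum_const, nsmul_eq_mul]
    have hS : (((Finset.univ.filter (fun g : G => ConjClasses.mk g = C)).card : ℕ) : ℂ) ≠ 0 := by
      obtain ⟨g, hg⟩ := ConjClasses.mk_surjective C
      have : (Finset.univ.filter (fun g : G => ConjClasses.mk g = C)).Nonempty :=
        ⟨g, by simp [hg]⟩
      exact_mod_cast this.card_pos.ne'
    exact mul_inv_cancel₀ hS
  · simp [hP]

/-- Let a group A act on the set of irreducible characters and on the set of conjugacy classes of a finite group G in such a way that (a • χ) evaluated on the class a • C equals χ evaluated on C, for all a, χ and C. Then every element of A fixes exactly as many irreducible characters as it fixes conjugacy classes. -/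
theorem result {G : Type*} [Group G] [Finite G] {A : Type*} [Group A] [MulAction A (Cfsg.IrrCharacter G)] [MulAction A (ConjClasses G)] (hcompat : ∀ (a : A) (χ : Cfsg.IrrCharacter G) (g g' : G), ConjClasses.mk g' = a • ConjClasses.mk g → ((a • χ : Cfsg.IrrCharacter G) : G → ℂ) g' = (χ : G → ℂ) g) (a : A) : Nat.card {χ : Cfsg.IrrCharacter G // a • χ = χ} = Nat.card {C : ConjClasses G // a • C = C} := by
  classical
  have := Fintype.ofFinite G
  have := Fintype.ofFinite (Cfsg.IrrCharacter G)
  have hex : ∀ g : G, ∃ g' : G, ConjClasses.mk g' = a⁻¹ • ConjClasses.mk g :=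
    fun g => ConjClasses.mk_surjective _
  choose f hf using hex
  have hval : ∀ (χ : Cfsg.IrrCharacter G) (g : G), (a • χ).1 g = χ.1 (f g) := by
    intro χ g
    apply hcompat a χ (f g) g
    rw [hf, smul_inv_smul]
  have hL : (Nat.card {χ : Cfsg.IrrCharacter G // a • χ = χ} : ℂ)
      = ∑ χ : Cfsg.IrrCharacter G, Cfsg.classInner χ.1 (a • χ).1 := by
    rw [Nat.card_eq_fintype_card, Fintype.card_subtype, Finset.card_filter]
    push_cast
    apply Finset.sum_congr rfl
    intro χ _
    rw [irr_orthonormal]
    by_cases h : a • χ = χ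
    · rw [if_pos h, if_pos h.symm]
    · rw [if_neg h, if_neg (fun h' => h h'.symm)]
  have hsum : ∀ g : G, ∑ χ : Cfsg.IrrCharacter G, χ.1 g * conj ((a • χ).1 g)
      = if a • ConjClasses.mk g = ConjClasses.mk g
        then (Nat.card (Subgroup.centralizer ({g} : Set G)) : ℂ) else 0 := by
    intro g
    simp only [hval]
    by_cases h : a • ConjClasses.mk g = ConjClasses.mk g
    · rw [if_pos h]
      apply second_orth_of_isConj
      rw [← ConjClasses.mk_eq_mk_iff_isConj, hf]
      exact eq_inv_smul_iff.mpr h
    · rw [if_neg h]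
      apply second_orth_of_not_isConj
      intro hc
      apply h
      have h2 := ConjClasses.mk_eq_mk_iff_isConj.mpr hc
      rw [hf] at h2
      conv_lhs => rw [h2]
      rw [smul_inv_smul]
  have hcast : (Nat.card {χ : Cfsg.IrrCharacter G // a • χ = χ} : ℂ)
      = (Nat.card {C : ConjClasses G // a • C = C} : ℂ) := by
    rw [hL]
    unfold Cfsg.classInner
    rw [← Finset.mul_sum, Finset.sum_comm]
    simp only [hsum]
    rw [Nat.card_eq_fintype_card (α := {C : ConjClasses G // a • C = C}), Fintype.card_subtype,
      Finset.card_filter]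
    push_cast
    rw [Finset.mul_sum, ← Finset.sum_fiberwise (Finset.univ) (ConjClasses.mk (α := G))]
    apply Finset.sum_congr rfl
    intro C _
    rw [← fiber_sum C (a • C = C)]
    apply Finset.sum_congr rfl
    intro g hg
    rw [Finset.mem_filter] at hg
    rw [hg.2]
  exact_mod_cast hcast
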