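import Mathlib
import Cfsg.Statements.S0869

set_option autoImplicit false
open Cfsg

namespace Cfsg.Agent.S0869

/-- Let S be a nonempty finite type and R an additive subgroup of the integer-valued functions on S that is closed under pointwise multiplication. If the constant function 1 is not in R, then there exist a point x of S and a prime p such that p divides f x for every f in R. -/
theorem result {S : Type*} [Finite S] [Nonempty S] (R : AddSubgroup (S → ℤ)) (hmul : ∀ f ∈ R, ∀ g ∈ R, f * g ∈ R) (h1 : (1 : S → ℤ) ∉ R) : ∃ (x : S) (p : ℕ), p.Prime ∧ ∀ f ∈ R, (p : ℤ) ∣ f x := by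
  classical
  cases nonempty_fintype S
  by_contra hcon
  push_neg at hcon
  have hfx : ∀ x : S, ∃ f ∈ R, f x = 1 := by
    intro x
    obtain ⟨a, ha⟩ := Int.subgroup_cyclic (R.map (Pi.evalAddMonoidHom (fun _ : S => ℤ) x))
    have hmem : ∀ f ∈ R, ∃ n : ℤ, n • a = f x := by
      intro f hf
      have : f x ∈ R.map (Pi.evalAddMonoidHom (fun _ : S => ℤ) x) :=
        AddSubgroup.mem_map.mpr ⟨f, hf, rfl⟩
      rw [ha, AddSubgroup.mem_closure_singleton] at this
      exact this
    by_cases h : a.natAbs = 1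
    · have h1' : (1 : ℤ) ∈ R.map (Pi.evalAddMonoidHom (fun _ : S => ℤ) x) := by
        rw [ha, AddSubgroup.mem_closure_singleton]
        rcases Int.natAbs_eq a with h' | h'
        · exact ⟨1, by rw [h', h]; simp⟩
        · exact ⟨-1, by rw [h', h]; simp⟩
      obtain ⟨f, hf, hfx⟩ := AddSubgroup.mem_map.mp h1'
      exact ⟨f, hf, hfx⟩
    · obtain ⟨p, hp, hpa⟩ := Int.exists_prime_and_dvd h
      obtain ⟨f, hf, hnd⟩ := hcon x p.natAbs (Int.prime_iff_natAbs_prime.mp hp)
      exfalso
      apply hnd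
      obtain ⟨n, hn⟩ := hmem f hf
      rw [← hn, smul_eq_mul]
      exact (Int.natAbs_dvd.mpr hpa).mul_left n
  choose F hFR hF1 using hfx
  have key : ∀ s : Finset S, ∃ r ∈ R, ∏ x ∈ s, (1 - F x) = 1 - r := by
    intro s
    induction s using Finset.induction_on with
    | empty => exact ⟨0, R.zero_mem, by simp⟩
    | insert a s ha ih =>
      obtain ⟨r, hr, hprod⟩ := ih
      refine ⟨F a + r - F a * r, R.sub_mem (R.add_mem (hFR a) hr) (hmul _ (hFR a) _ hr), ?_⟩
      rw [Finset.prod_insert ha, hprod]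
      ring
  obtain ⟨r, hr, hprod⟩ := key Finset.univ
  have hzero : ∏ x : S, (1 - F x) = 0 := by
    funext y
    rw [Finset.prod_apply]
    apply Finset.prod_eq_zero (Finset.mem_univ y)
    simp [hF1 y]
  rw [hzero] at hprod
  have hr1 : r = 1 := (sub_eq_zero.mp hprod.symm).symm
  exact h1 (hr1 ▸ hr)

end Cfsg.Agent.S0869
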