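import Mathlib
import Cfsg.Statements.S0873

set_option autoImplicit false
open Cfsg

namespace Cfsg.Agent.S0873

theorem linChar_mul {G : Type*} [Group G] (lam : G → ℂ) (h : Cfsg.IsCharacter G lam)
    (h1 : lam 1 = 1) (a b : G) : lam (a * b) = lam a * lam b := by
  obtain ⟨n, ρ, rfl⟩ := h
  have hn : n = 1 := by
    have := Representation.char_one ρ
    rw [h1] at this
    simp only [Module.finrank_fintype_fun_eq_card, Fintype.card_fin] at this
    exact_mod_cast this.symm
  subst hn
  unfold Representation.character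
  rw [map_mul]
  rw [LinearMap.trace_eq_matrix_trace ℂ (Pi.basisFun ℂ (Fin 1)),
    LinearMap.trace_eq_matrix_trace ℂ (Pi.basisFun ℂ (Fin 1)),
    LinearMap.trace_eq_matrix_trace ℂ (Pi.basisFun ℂ (Fin 1)), LinearMap.toMatrix_mul,
    Matrix.trace_fin_one, Matrix.trace_fin_one, Matrix.trace_fin_one, Matrix.mul_apply,
    Fin.sum_univ_one]

/-- conjugation action of `P` on a fibre of `lam` -/
@[reducible] def fibreAct {G : Type*} [Group G] (C P : Subgroup G) [hC : C.Normal] (lam : C → ℂ)
    (hinv : ∀ (g : G) (c : C), lam ⟨g * c * g⁻¹, hC.conj_mem (c : G) c.2 g⟩ = lam c) (z : ℂ) :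
    MulAction P {d : C // lam d = z} where
  smul x d := ⟨⟨(x : G) * d.1 * (x : G)⁻¹, hC.conj_mem (d.1 : G) d.1.2 x⟩, by
    rw [hinv (x : G) d.1]; exact d.2⟩
  one_smul d := by
    apply Subtype.ext
    apply Subtype.ext
    show ((1 : P) : G) * (d.1 : G) * ((1 : P) : G)⁻¹ = d.1
    simp
  mul_smul x y d := by
    apply Subtype.ext
    apply Subtype.ext
    show ((x * y : P) : G) * (d.1 : G) * ((x * y : P) : G)⁻¹
      = (x : G) * ((y : G) * (d.1 : G) * (y : G)⁻¹) * (x : G)⁻¹
    simp [mul_assoc]

/-- Let C be a normal subgroup of the finite group G of order prime to p and P a p-subgroup with C ⊔ P = G. Let λ be a character of C of degree 1 invariant under conjugation by G and equal to 1 at every element of C centralized by P. Then λ is identically 1. -/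
theorem result {G : Type*} [Group G] [Finite G] (p : ℕ) [Fact p.Prime] (C P : Subgroup G) [hC : C.Normal] (hP : IsPGroup p P) (hcop : Nat.Coprime (Nat.card C) p) (hCP : C ⊔ P = ⊤) (lam : C → ℂ) (hlam : Cfsg.IsCharacter C lam ∧ lam 1 = 1) (hinv : ∀ (g : G) (c : C), lam ⟨g * c * g⁻¹, hC.conj_mem (c : G) c.2 g⟩ = lam c) (hker : ∀ c : C, (c : G) ∈ Subgroup.centralizer (P : Set G) → lam c = 1) : lam = fun _ => 1 := by
  have hmul := linChar_mul lam hlam.1 hlam.2
  have hinv' : ∀ c : C, lam c⁻¹ * lam c = 1 := by
    intro c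
    rw [← hmul, inv_mul_cancel, hlam.2]
  -- the kernel of lam
  let K : Subgroup C :=
    { carrier := {k | lam k = 1}
      mul_mem' := by
        intro a b ha hb
        show lam (a * b) = 1
        rw [hmul, ha, hb, mul_one]
      one_mem' := hlam.2
      inv_mem' := by
        intro a ha
        show lam a⁻¹ = 1
        have := hinv' a
        rw [ha, mul_one] at this
        exact this }
  funext c
  -- the fibre of lam through c is in bijection with K
  let e : K ≃ {d : C // lam d = lam c} :=
    { toFun := fun k => ⟨c * k.1, by rw [hmul, k.2, mul_one]⟩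
      invFun := fun d => ⟨c⁻¹ * d.1, by
        show lam (c⁻¹ * d.1) = 1
        rw [hmul, d.2, hinv']⟩
      left_inv := by
        intro k
        apply Subtype.ext
        simp
      right_inv := by
        intro d
        apply Subtype.ext
        simp }
  have hcard : Nat.card {d : C // lam d = lam c} = Nat.card K := (Nat.card_congr e).symm
  have hnd : ¬ p ∣ Nat.card {d : C // lam d = lam c} := by
    rw [hcard]
    intro hdvd
    have h2 : p ∣ Nat.card C := hdvd.trans (Subgroup.card_subgroup_dvd_card K)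
    have h3 : p ∣ Nat.gcd (Nat.card C) p := Nat.dvd_gcd h2 dvd_rfl
    rw [hcop] at h3
    exact (Fact.out : p.Prime).one_lt.ne' (Nat.dvd_one.mp h3)
  let _act := fibreAct C P lam hinv (lam c)
  obtain ⟨d, hd⟩ := IsPGroup.nonempty_fixed_point_of_prime_not_dvd_card hP {d : C // lam d = lam c} hnd
  have hdc : ((d.1 : C) : G) ∈ Subgroup.centralizer (P : Set G) := by
    rw [Subgroup.mem_centralizer_iff]
    intro x hx
    have := hd ⟨x, hx⟩
    have h2 : x * ((d.1 : C) : G) * x⁻¹ = ((d.1 : C) : G) :=
      congrArg (fun z : {d : C // lam d = lam c} => ((z.1 : C) : G)) this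
    calc x * ((d.1 : C) : G) = x * ((d.1 : C) : G) * x⁻¹ * x := by group
      _ = ((d.1 : C) : G) * x := by rw [h2]
  rw [← d.2]
  exact hker d.1 hdc

end Cfsg.Agent.S0873
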