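import Cfsg.Statements.S0880
import Cfsg.Agent.Lib.helper2.ZassCount
import Cfsg.Agent.Lib.helper24.ZassBasic

set_option autoImplicit false
open Cfsg

open Cfsg.Agent.Lib.helper2.ZassCount

namespace Cfsg.Agent.S0880

/-- Let G be a finite simple Zassenhaus group on Ω with n points whose two-point stabilizer E has odd order less than n - 2. Then there are two elements of G, each fixing no point of Ω, that are not conjugate. -/
theorem result {G Ω : Type*} [Group G] [Finite G] [MulAction G Ω] [Fintype Ω] (hZ : Cfsg.IsZassenhausGroup G Ω) {a b : Ω} (hab : a ≠ b) [IsSimpleGroup G] (hodd : Odd (Nat.card ↥(MulAction.stabilizer G a ⊓ MulAction.stabilizer G b : Subgroup G))) (hlt : Nat.card ↥(MulAction.stabilizer G a ⊓ MulAction.stabilizer G b : Subgroup G) < Fintype.card Ω - 2) : ∃ x y : G, (∀ c : Ω, x • c ≠ c) ∧ (∀ c : Ω, y • c ≠ c) ∧ ¬ IsConj x y := by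
  classical
  haveI : Fintype G := Fintype.ofFinite G
  by_contra hno
  push Not at hno
  have h2 := hZ.2.1
  have hn2 : Fintype.card Ω ≠ 2 := Cfsg.Agent.Lib.helper24.zass_card_ne_two hZ
  have hn1 : 1 < Fintype.card Ω := Fintype.one_lt_card_iff.mpr ⟨a, b, hab⟩
  have hn3 : 3 ≤ Fintype.card Ω := by omega
  have he3 : 3 ≤ Nat.card ↥(MulAction.stabilizer G a ⊓ MulAction.stabilizer G b : Subgroup G) := by
    obtain ⟨g, hg1, a', b', hab', ha', hb'⟩ := hZ.2.2.2.1
    have h3 := card_move h2 hab hab' hab'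
    have h4 : 1 < (Finset.univ.filter (fun g : G => g • a' = a' ∧ g • b' = b')).card := by
      rw [Finset.one_lt_card]
      refine ⟨1, ?_, g, ?_, fun h => hg1 h.symm⟩
      · simp
      · simp [ha', hb']
    obtain ⟨k, hk⟩ := hodd
    omega
  have hcount := fpf_count (G := G) hZ hab
  have hcG := card_G (G := G) h2 hab
  obtain ⟨n, hn⟩ : ∃ n : ℕ, n = Fintype.card Ω := ⟨_, rfl⟩
  obtain ⟨e, he⟩ : ∃ e : ℕ, e = Nat.card ↥(MulAction.stabilizer G a ⊓ MulAction.stabilizer G b : Subgroup G) := ⟨_, rfl⟩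
  obtain ⟨A, hA⟩ : ∃ A : ℕ, A = (Finset.univ.filter (fun g : G => fixN (Ω := Ω) g = 0)).card := ⟨_, rfl⟩
  rw [← hn, ← he, ← hA] at hcount
  rw [← hn, ← he] at hcG
  rw [← hn] at hn3
  rw [← he] at he3
  have hn3' : (3 : ℤ) ≤ n := by exact_mod_cast hn3
  have he3' : (3 : ℤ) ≤ e := by exact_mod_cast he3
  have hApos : 0 < A := by
    have : (0 : ℤ) < 2 * A := by
      rw [hcount]
      nlinarith [mul_nonneg (show (0 : ℤ) ≤ (n : ℤ) - 1 by linarith) (show (0 : ℤ) ≤ (e : ℤ) - 3 by linarith),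
        mul_nonneg (show (0 : ℤ) ≤ (n : ℤ) - 1 by linarith) (show (0 : ℤ) ≤ (n : ℤ) - 3 by linarith),
        mul_nonneg (mul_nonneg (show (0 : ℤ) ≤ (n : ℤ) - 1 by linarith) (show (0 : ℤ) ≤ (n : ℤ) - 3 by linarith)) (show (0 : ℤ) ≤ (e : ℤ) - 3 by linarith)]
    omega
  rw [hA] at hApos
  obtain ⟨x₀, hx₀⟩ := Finset.card_pos.mp hApos
  rw [Finset.mem_filter] at hx₀
  have hx₀f := (fixN_eq_zero_iff x₀).mp hx₀.2
  have hAc : A = Nat.card {g : G // IsConj x₀ g} := by
    rw [hA, ← Fintype.card_subtype, ← Nat.card_eq_fintype_card]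
    apply Nat.card_congr
    refine Equiv.subtypeEquivRight (fun g => ?_)
    constructor
    · intro hg
      exact hno x₀ g hx₀f ((fixN_eq_zero_iff g).mp hg)
    · intro hg
      obtain ⟨c, hc⟩ := isConj_iff.mp hg
      rw [← hc, fixN_conj]
      exact hx₀.2
  have hdvd : A ∣ Fintype.card G := by
    rw [hAc, ← Nat.card_eq_fintype_card]
    exact class_card_dvd x₀
  rw [hcG] at hdvd
  obtain ⟨k, hk⟩ := hdvd
  have hk' : ((n : ℤ) * n - n) * e = A * k := by
    have hnn : n ≤ n * n := Nat.le_mul_self _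
    have := congrArg (Nat.cast : ℕ → ℤ) hk
    push_cast [Nat.cast_sub hnn] at this
    exact this
  have hmain : (2 : ℤ) * n * e = ((n : ℤ) * (e - 1) + 2) * k := by
    have h5 : ((n : ℤ) - 1) * (2 * n * e) = ((n : ℤ) - 1) * (((n : ℤ) * (e - 1) + 2) * k) := by
      have h6 : (2 : ℤ) * A * k = 2 * (((n : ℤ) * n - n) * e) := by rw [hk']; ring
      rw [hcount] at h6
      linarith
    exact mul_left_cancel₀ (by linarith) h5
  have hk0 : (0 : ℤ) ≤ k := Int.natCast_nonneg k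
  have hD : (0 : ℤ) < (n : ℤ) * (e - 1) + 2 := by nlinarith
  rcases le_or_gt (k : ℤ) 2 with hk2 | hk3
  · nlinarith [mul_nonneg hD.le (show (0 : ℤ) ≤ 2 - k by linarith)]
  · have hk3' : (3 : ℤ) ≤ k := by linarith
    nlinarith [mul_nonneg hD.le (show (0 : ℤ) ≤ (k : ℤ) - 3 by linarith),
      mul_nonneg (show (0 : ℤ) ≤ (n : ℤ) by linarith) (show (0 : ℤ) ≤ (e : ℤ) - 3 by linarith)]

end Cfsg.Agent.S0880
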