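import Cfsg.Statements.S0881
import Cfsg.Agent.Lib.helper2.ZassTransfer
import Cfsg.Agent.Lib.helper2.IndLin

set_option autoImplicit false
open Cfsg

open Cfsg.Agent.Lib.helper2.ZassCount Cfsg.Agent.Lib.helper2.IndLin Cfsg.Agent.Lib.helper24

namespace Cfsg.Agent.S0881

/-- Let G be a finite simple Zassenhaus group on Ω with n points, a ≠ b points with two-point stabilizer E of odd order less than n - 2, and let H be the subgroup of the stabilizer of a consisting of the identity and the elements fixing no point other than a (given here as a subgroup of the stabilizer of order one less than the number of points whose non-identity elements fix only a; it is the Frobenius kernel of the stabilizer). Let μ be a character of degree 1 of the stabilizer of a that is identically 1 on H but not identically 1. Then the function induced from μ to G is an irreducible character of G, and it takes the value 1 at every non-identity element of H. -/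
theorem result {G Ω : Type*} [Group G] [Fintype G] [MulAction G Ω] [Fintype Ω] (hZ : Cfsg.IsZassenhausGroup G Ω) {a b : Ω} (hab : a ≠ b) [IsSimpleGroup G] (hodd : Odd (Nat.card ↥(MulAction.stabilizer G a ⊓ MulAction.stabilizer G b : Subgroup G))) (hlt : Nat.card ↥(MulAction.stabilizer G a ⊓ MulAction.stabilizer G b : Subgroup G) < Fintype.card Ω - 2) (H : Subgroup G) (hHa : H ≤ MulAction.stabilizer G a) (hHcard : Nat.card H + 1 = Fintype.card Ω) (hHfix : ∀ u ∈ H, u ≠ 1 → ∀ c : Ω, u • c = c → c = a) (μ : MulAction.stabilizer G a → ℂ) (hμ : Cfsg.IsCharacter (MulAction.stabilizer G a) μ ∧ μ 1 = 1) (hμH : ∀ u : MulAction.stabilizer G a, (u : G) ∈ H → μ u = 1) (hμne : μ ≠ fun _ => 1) : Cfsg.IsIrrCharacter G (Cfsg.indFun (MulAction.stabilizer G a) μ) ∧ ∀ u ∈ H, u ≠ 1 → Cfsg.indFun (MulAction.stabilizer G a) μ u = 1 := by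
  classical
  obtain ⟨ϕ, hϕ⟩ := exists_hom_of_linear hμ.1 hμ.2
  have h3 := hZ.2.2.1
  have h2t := hZ.2.1
  have hϕH : ∀ (u : G) (hu : u ∈ H), ϕ ⟨u, hHa hu⟩ = 1 := by
    intro u hu
    apply Units.ext
    rw [← hϕ, hμH ⟨u, hHa hu⟩ hu, Units.val_one]
  have key : ∀ x : G, x ∉ MulAction.stabilizer G a →
      ∃ (m₀ : G) (h1 : m₀ ∈ MulAction.stabilizer G a)
        (h2 : x⁻¹ * m₀ * x ∈ MulAction.stabilizer G a), ϕ ⟨m₀, h1⟩ ≠ ϕ ⟨x⁻¹ * m₀ * x, h2⟩ := by
    intro x hx
    by_contra hcon
    push Not at hcon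
    have hxa : x • a ≠ a := hx
    apply hμne
    have hE : ∀ (m : G) (hma : m • a = a), m • (x • a) = x • a → ϕ ⟨m, hma⟩ = 1 := by
      intro m hma hmc
      obtain ⟨hsm, htr⟩ := zass_transfer hZ ϕ x hxa m hma hmc
      rw [zass_perfect hZ] at htr
      have h4 := hcon m hma hsm
      rw [← h4] at htr
      have hmem : m ∈ (MulAction.stabilizer G a ⊓ MulAction.stabilizer G (x • a) : Subgroup G) :=
        ⟨hma, hmc⟩
      have h5 : orderOf m ∣
          Nat.card ↥(MulAction.stabilizer G a ⊓ MulAction.stabilizer G (x • a) : Subgroup G) := by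
        have := orderOf_dvd_natCard
          (⟨m, hmem⟩ : ↥(MulAction.stabilizer G a ⊓ MulAction.stabilizer G (x • a) : Subgroup G))
        rwa [Subgroup.orderOf_mk] at this
      rw [card_stab2 h2t hab (Ne.symm hxa)] at h5
      obtain ⟨k, hk⟩ := hodd
      have h6 : m ^ (2 * k + 1) = 1 := by
        rw [← hk]
        exact orderOf_dvd_iff_pow_eq_one.mp h5
      have h7 : (ϕ ⟨m, hma⟩) ^ (2 * k + 1) = 1 := by
        rw [← map_pow]
        have : (⟨m, hma⟩ : MulAction.stabilizer G a) ^ (2 * k + 1) = 1 := by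
          apply Subtype.ext
          simp [h6]
        rw [this, map_one]
      rw [pow_succ, pow_mul, sq, ← htr, one_pow, one_mul] at h7
      exact h7
    funext m
    have hmc : (m : G) • (x • a) ≠ a := by
      intro h
      apply hxa
      have : (m : G) • (x • a) = (m : G) • a := by rw [h]; exact m.2.symm
      exact smul_left_cancel _ this
    obtain ⟨u, hu, huc⟩ := kernel_trans H hHa hHcard hHfix hxa hmc
    have hma' : (u⁻¹ * (m : G)) • a = a := by
      have hua : u⁻¹ • a = a := by rw [inv_smul_eq_iff]; exact (hHa hu).symm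
      rw [mul_smul, m.2, hua]
    have h8 : ϕ ((⟨u, hHa hu⟩ : MulAction.stabilizer G a)⁻¹ * m) = 1 := by
      have := hE (u⁻¹ * (m : G)) hma' (by rw [mul_smul, ← huc, inv_smul_smul])
      rw [← this]
      congr 1
    have h9 : ϕ m = ϕ ⟨u, hHa hu⟩ * ϕ ((⟨u, hHa hu⟩ : MulAction.stabilizer G a)⁻¹ * m) := by
      rw [← map_mul, mul_inv_cancel_left]
    rw [hϕ m, h9, hϕH u hu, h8, one_mul, Units.val_one]
  have hinner := ind_linear_inner (MulAction.stabilizer G a) ϕ μ hϕ key
  refine ⟨isIrrCharacter_of_inner_self_eq_one (isCharacter_indFun _ hμ.1) hinner, ?_⟩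
  intro u hu hu1
  unfold indFun
  have hterm : ∀ x : G, extendByZero (MulAction.stabilizer G a) μ (x⁻¹ * u * x)
      = if x ∈ MulAction.stabilizer G a then 1 else 0 := by
    intro x
    by_cases hx : x ∈ MulAction.stabilizer G a
    · rw [if_pos hx]
      have hmem : x⁻¹ * u * x ∈ MulAction.stabilizer G a :=
        Subgroup.mul_mem _ (Subgroup.mul_mem _ (Subgroup.inv_mem _ hx) (hHa hu)) hx
      rw [extendByZero_apply_mem _ μ hmem, hϕ]
      have e : (⟨x⁻¹ * u * x, hmem⟩ : MulAction.stabilizer G a)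
          = (⟨x, hx⟩ : MulAction.stabilizer G a)⁻¹ * ⟨u, hHa hu⟩ * ⟨x, hx⟩ := by
        apply Subtype.ext
        simp
      rw [e, map_mul, map_mul, hϕH u hu, mul_one, map_inv, inv_mul_cancel, Units.val_one]
    · rw [if_neg hx]
      apply extendByZero_apply_not_mem
      intro hmem
      apply hx
      have h1 : (x⁻¹ * u * x) • a = a := hmem
      rw [mul_smul, mul_smul, inv_smul_eq_iff] at h1
      exact hHfix u hu hu1 _ h1
  rw [Finset.sum_congr rfl (fun x _ => hterm x), Finset.sum_ite, Finset.sum_const,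
    Finset.sum_const_zero, add_zero, nsmul_eq_mul, mul_one]
  have hc : ((Finset.univ.filter (fun x : G => x ∈ MulAction.stabilizer G a)).card : ℂ)
      = (Nat.card (MulAction.stabilizer G a) : ℂ) := by
    rw [Nat.card_eq_fintype_card, ← Fintype.card_subtype]
  rw [hc]
  have hcM : (Nat.card (MulAction.stabilizer G a) : ℂ) ≠ 0 := Nat.cast_ne_zero.mpr Nat.card_pos.ne'
  exact inv_mul_cancel₀ hcM

end Cfsg.Agent.S0881
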