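import Cfsg.Statements.S0882
import Cfsg.Agent.Lib.helper2.ZassZ

set_option autoImplicit false
open Cfsg

open Cfsg.Agent.Lib.helper2.ZassCount

namespace Cfsg.Agent.S0882

/-- Let G be a finite simple Zassenhaus group on Ω with n = h + 1 points whose two-point stabilizer E has odd order e with 2e < h - 1. Then any two involutions of G are conjugate, and the number of involutions is e * (h + 1) if h is even and e * h if h is odd. -/
theorem result {G Ω : Type*} [Group G] [Finite G] [MulAction G Ω] [Fintype Ω] (hZ : Cfsg.IsZassenhausGroup G Ω) {a b : Ω} (hab : a ≠ b) [IsSimpleGroup G] (h e : ℕ) (hh : Fintype.card Ω = h + 1) (he : Nat.card ↥(MulAction.stabilizer G a ⊓ MulAction.stabilizer G b : Subgroup G) = e) (hodd : Odd e) (hlt : 2 * e < h - 1) : (∀ x y : G, orderOf x = 2 → orderOf y = 2 → IsConj x y) ∧ Nat.card {x : G // orderOf x = 2} = (if Even h then e * (h + 1) else e * h) := by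
  classical
  haveI : Fintype G := Fintype.ofFinite G
  have h3 := hZ.2.2.1
  have h2t : ∀ {a b c d : Ω}, a ≠ b → c ≠ d → ∃ g : G, g • a = c ∧ g • b = d :=
    MulAction.is_two_pretransitive_iff.mp hZ.2.1
  have hodd' : Odd (Nat.card ↥(MulAction.stabilizer G a ⊓ MulAction.stabilizer G b : Subgroup G)) := by
    rw [he]; exact hodd
  have hcardI : Nat.card {x : G // orderOf x = 2}
      = (Finset.univ.filter (fun z : G => orderOf z = 2)).card := by
    rw [Nat.card_eq_fintype_card, Fintype.card_subtype]
  rw [hcardI]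
  by_cases hev : Even h
  · rw [if_pos hev]
    have hn : Odd (Fintype.card Ω) := by rw [hh]; exact hev.add_one
    have hJle := invol_fix_le hZ hab hodd' hn
    have hIeq := invol_card_eq hZ hab hodd' hn
    set J := Finset.univ.filter (fun z : G => orderOf z = 2 ∧ z • a = a) with hJ
    have honly : ∀ z : G, orderOf z = 2 → ∀ c d : Ω, z • c = c → z • d = d → c = d := by
      intro z hz c d hc hd
      have h1 := invol_fixN_le_one hZ hab hodd' hz
      unfold fixN at h1
      exact Finset.card_le_one.mp h1 c (Finset.mem_filter.mpr ⟨Finset.mem_univ _, hc⟩) d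
        (Finset.mem_filter.mpr ⟨Finset.mem_univ _, hd⟩)
    have hfixex : ∀ z : G, orderOf z = 2 → ∃ c : Ω, z • c = c := by
      intro z hz
      have h1 := fixN_modEq_two (Ω := Ω) hz
      have h2 : Fintype.card Ω % 2 = 1 := Nat.odd_iff.mp hn
      have h3' : fixN (Ω := Ω) z ≠ 0 := by
        intro h0
        rw [h0] at h1
        unfold Nat.ModEq at h1
        omega
      rw [Ne, fixN_eq_zero_iff] at h3'
      push Not at h3'
      exact h3'
    have hinj : ∀ z ∈ J, ∀ g ∈ (MulAction.stabilizer G a ⊓ MulAction.stabilizer G b : Subgroup G),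
        ∀ g' ∈ (MulAction.stabilizer G a ⊓ MulAction.stabilizer G b : Subgroup G),
        g * z * g⁻¹ = g' * z * g'⁻¹ → g = g' := by
      intro z hz g hg g' hg' heq
      rw [hJ, Finset.mem_filter] at hz
      have hkE : g'⁻¹ * g ∈ (MulAction.stabilizer G a ⊓ MulAction.stabilizer G b : Subgroup G) :=
        Subgroup.mul_mem _ (Subgroup.inv_mem _ hg') hg
      have hkz : (g'⁻¹ * g) * z = z * (g'⁻¹ * g) := by
        calc (g'⁻¹ * g) * z = g'⁻¹ * (g * z * g⁻¹) * g := by group
          _ = g'⁻¹ * (g' * z * g'⁻¹) * g := by rw [heq]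
          _ = z * (g'⁻¹ * g) := by group
      have hzb : z • b ≠ b := fun h => hab (honly z hz.2.1 a b hz.2.2 h)
      have hzba : z • b ≠ a := by
        intro h
        apply hab
        have : z • b = z • a := by rw [h, hz.2.2]
        exact (smul_left_cancel _ this).symm
      have hkzb : (g'⁻¹ * g) • (z • b) = z • b := by
        rw [← mul_smul, hkz, mul_smul]
        congr 1
        exact hkE.2
      have hk1 : g'⁻¹ * g = 1 :=
        h3 _ a b (z • b) hab (Ne.symm hzb) (Ne.symm hzba) hkE.1 hkE.2 hkzb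
      exact (inv_mul_eq_one.mp hk1).symm
    have hJstruct : ∀ z ∈ J, J.card = e ∧ ∀ w ∈ J,
        ∃ g ∈ (MulAction.stabilizer G a ⊓ MulAction.stabilizer G b : Subgroup G),
          g * z * g⁻¹ = w := by
      intro z hz
      set EF := Finset.univ.filter
        (fun g : G => g ∈ (MulAction.stabilizer G a ⊓ MulAction.stabilizer G b : Subgroup G)) with hEF
      have hEFcard : EF.card
          = Nat.card ↥(MulAction.stabilizer G a ⊓ MulAction.stabilizer G b : Subgroup G) := by
        rw [Nat.card_eq_fintype_card, hEF, ← Fintype.card_subtype]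
      have himg : EF.image (fun g => g * z * g⁻¹) ⊆ J := by
        intro w' hw'
        obtain ⟨g, hg, rfl⟩ := Finset.mem_image.mp hw'
        rw [hEF, Finset.mem_filter] at hg
        rw [hJ, Finset.mem_filter] at hz ⊢
        refine ⟨Finset.mem_univ _, ?_, ?_⟩
        · have : g * z * g⁻¹ = MulAut.conj g z := by simp
          rw [this, MulEquiv.orderOf_eq, hz.2.1]
        · have hga : g • a = a := hg.2.1
          have hgi : g⁻¹ • a = a := by rw [inv_smul_eq_iff, hga]
          rw [mul_smul, mul_smul, hgi, hz.2.2, hga]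
      have hcardimg : (EF.image (fun g => g * z * g⁻¹)).card = EF.card := by
        apply Finset.card_image_of_injOn
        intro g hg g' hg' heq
        rw [Finset.mem_coe, hEF, Finset.mem_filter] at hg hg'
        exact hinj z hz g hg.2 g' hg'.2 heq
      have heqJ : EF.image (fun g => g * z * g⁻¹) = J := by
        apply Finset.eq_of_subset_of_card_le himg
        rw [hcardimg, hEFcard]
        exact hJle
      refine ⟨?_, ?_⟩
      · rw [← heqJ, hcardimg, hEFcard, he]
      · intro w hw
        rw [← heqJ] at hw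
        obtain ⟨g, hg, hgw⟩ := Finset.mem_image.mp hw
        rw [hEF, Finset.mem_filter] at hg
        exact ⟨g, hg.2, hgw⟩
    haveI : MulAction.IsPretransitive G Ω := by
      haveI := hZ.2.1
      exact MulAction.isPretransitive_of_is_two_pretransitive (G := G) (α := Ω)
    have htoJ : ∀ x : G, orderOf x = 2 → ∃ p : G, p * x * p⁻¹ ∈ J := by
      intro x hx
      obtain ⟨c, hc⟩ := hfixex x hx
      obtain ⟨p, hp⟩ := MulAction.exists_smul_eq G c a
      refine ⟨p, ?_⟩
      rw [hJ, Finset.mem_filter]
      refine ⟨Finset.mem_univ _, ?_, ?_⟩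
      · have : p * x * p⁻¹ = MulAut.conj p x := by simp
        rw [this, MulEquiv.orderOf_eq, hx]
      · rw [mul_smul, mul_smul, ← hp, inv_smul_smul, hc]
    refine ⟨?_, ?_⟩
    · intro x y hx hy
      obtain ⟨p, hxJ⟩ := htoJ x hx
      obtain ⟨q, hyJ⟩ := htoJ y hy
      obtain ⟨g, _, hg⟩ := (hJstruct _ hxJ).2 _ hyJ
      rw [isConj_iff]
      refine ⟨q⁻¹ * g * p, ?_⟩
      have : y = q⁻¹ * (q * y * q⁻¹) * q := by group
      rw [this, ← hg]
      group
    · have hG2 : 2 ∣ Nat.card G := by
        rw [Nat.card_eq_fintype_card, card_G hZ.2.1 hab, hh]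
        have h1 : (h + 1) * (h + 1) - (h + 1) = h * (h + 1) := by
          have : (h + 1) * (h + 1) = h * (h + 1) + (h + 1) := by ring
          omega
        rw [h1]
        exact Dvd.dvd.mul_right (Dvd.dvd.mul_right (even_iff_two_dvd.mp hev) _) _
      haveI : Fact (Nat.Prime 2) := ⟨Nat.prime_two⟩
      obtain ⟨z₀, hz₀⟩ := exists_prime_orderOf_dvd_card' 2 hG2
      obtain ⟨p, hzJ⟩ := htoJ z₀ hz₀
      rw [hIeq, (hJstruct _ hzJ).1, hh]
      ring
  · rw [if_neg hev]
    have hn : Even (Fintype.card Ω) := by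
      rw [hh]
      exact (Nat.not_even_iff_odd.mp hev).add_one
    have hswap : ∀ c d : Ω, c ≠ d → ∀ s : G, s • c = d → s • d = c → s * s = 1 := by
      intro c d hcd s hsc hsd
      have hoddcd : Odd (Nat.card ↥(MulAction.stabilizer G c ⊓ MulAction.stabilizer G d : Subgroup G)) := by
        rw [card_stab2 hZ.2.1 hab hcd]
        exact hodd'
      apply swap_sq hZ hcd hoddcd s hsc hsd
      intro g hg hsg
      obtain ⟨hsg', htr⟩ := transfer_E hZ hcd (Abelianization.of) s hsc hsd g hg
      rw [zass_perfect hZ] at htr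
      rw [← Abelianization.ker_of, MonoidHom.mem_ker, map_mul]
      exact htr.symm
    have hfpf : ∀ z : G, orderOf z = 2 → ∀ c : Ω, z • c ≠ c := by
      intro z hz
      have h1 := invol_fixN_le_one hZ hab hodd' hz
      have h2 := fixN_modEq_two (Ω := Ω) hz
      have h4 : Fintype.card Ω % 2 = 0 := Nat.even_iff.mp hn
      have h5 : fixN (Ω := Ω) z = 0 := by
        unfold Nat.ModEq at h2
        omega
      exact (fixN_eq_zero_iff z).mp h5
    have hIset : ∀ c d : Ω, c ≠ d →
        (Finset.univ.filter (fun z : G => orderOf z = 2)).filter (fun z => z • c = d)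
          = Finset.univ.filter (fun g : G => g • c = d ∧ g • d = c) := by
      intro c d hcd
      ext z
      simp only [Finset.mem_filter, Finset.mem_univ, true_and]
      constructor
      · rintro ⟨hz, hzc⟩
        refine ⟨hzc, ?_⟩
        rw [← hzc, ← mul_smul, ← sq, ← hz, pow_orderOf_eq_one, one_smul]
      · rintro ⟨hzc, hzd⟩
        refine ⟨?_, hzc⟩
        have hz2 := hswap c d hcd z hzc hzd
        haveI : Fact (Nat.Prime 2) := ⟨Nat.prime_two⟩
        apply orderOf_eq_prime (by rw [sq]; exact hz2)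
        intro h1
        rw [h1, one_smul] at hzc
        exact hcd hzc
    refine ⟨?_, ?_⟩
    · intro x y hx hy
      have hxa := hfpf x hx a
      have hya := hfpf y hy a
      have hx2 : x * x = 1 := by rw [← sq, ← hx, pow_orderOf_eq_one]
      have hy2 : y * y = 1 := by rw [← sq, ← hy, pow_orderOf_eq_one]
      obtain ⟨p, hpa, hpc⟩ := h2t (Ne.symm hxa) hab
      obtain ⟨q, hqa, hqc⟩ := h2t (Ne.symm hya) hab
      have hpi : p⁻¹ • a = a := by rw [inv_smul_eq_iff, hpa]
      have hqi : q⁻¹ • a = a := by rw [inv_smul_eq_iff, hqa]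
      have hx'a : (p * x * p⁻¹) • a = b := by rw [mul_smul, mul_smul, hpi, hpc]
      have hy'a : (q * y * q⁻¹) • a = b := by rw [mul_smul, mul_smul, hqi, hqc]
      have hx'2 : (p * x * p⁻¹) * (p * x * p⁻¹) = 1 := by
        calc p * x * p⁻¹ * (p * x * p⁻¹) = p * (x * x) * p⁻¹ := by group
          _ = 1 := by rw [hx2]; group
      have hy'2 : (q * y * q⁻¹) * (q * y * q⁻¹) = 1 := by
        calc q * y * q⁻¹ * (q * y * q⁻¹) = q * (y * y) * q⁻¹ := by group
          _ = 1 := by rw [hy2]; group
      have hx'b : (p * x * p⁻¹) • b = a := by rw [← hx'a, ← mul_smul, hx'2, one_smul]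
      have hy'b : (q * y * q⁻¹) • b = a := by rw [← hy'a, ← mul_smul, hy'2, one_smul]
      obtain ⟨x', hx'⟩ : ∃ x' : G, x' = p * x * p⁻¹ := ⟨_, rfl⟩
      obtain ⟨y', hy'⟩ : ∃ y' : G, y' = q * y * q⁻¹ := ⟨_, rfl⟩
      rw [← hx'] at hx'a hx'b hx'2
      rw [← hy'] at hy'a hy'b hy'2
      obtain ⟨k, hk⟩ : ∃ k : G, k = x' * y' := ⟨_, rfl⟩
      have hkE : k ∈ (MulAction.stabilizer G a ⊓ MulAction.stabilizer G b : Subgroup G) := by
        refine ⟨?_, ?_⟩
        · show k • a = a
          rw [hk, mul_smul, hy'a, hx'b]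
        · show k • b = b
          rw [hk, mul_smul, hy'b, hx'a]
      have hko : Odd (orderOf k) := by
        apply Odd.of_dvd_nat hodd'
        have := orderOf_dvd_natCard
          (⟨k, hkE⟩ : ↥(MulAction.stabilizer G a ⊓ MulAction.stabilizer G b : Subgroup G))
        rwa [Subgroup.orderOf_mk] at this
      obtain ⟨m, hm⟩ := hko
      obtain ⟨k₁, hk₁⟩ : ∃ k₁ : G, k₁ = k ^ (m + 1) := ⟨_, rfl⟩
      have hk₁E : k₁ ∈ (MulAction.stabilizer G a ⊓ MulAction.stabilizer G b : Subgroup G) := by
        rw [hk₁]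
        exact Subgroup.pow_mem _ hkE _
      have hk₁sq : k₁ * k₁ = k := by
        rw [hk₁, ← pow_add]
        have : m + 1 + (m + 1) = orderOf k + 1 := by omega
        rw [this, pow_succ, pow_orderOf_eq_one, one_mul]
      have hinv : x' * k₁ * x' = k₁⁻¹ := by
        have h1 : (x' * k₁) * (x' * k₁) = 1 :=
          hswap a b hab (x' * k₁) (by rw [mul_smul, hk₁E.1, hx'a]) (by rw [mul_smul, hk₁E.2, hx'b])
        apply eq_inv_of_mul_eq_one_left
        rw [← h1]
        group
      have hy'eq : y' = k₁⁻¹ * x' * k₁ := by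
        have h1 : y' = x' * k := by rw [hk, ← mul_assoc, hx'2, one_mul]
        rw [h1, ← hk₁sq, ← hinv]
        calc x' * (k₁ * k₁) = x' * k₁ * 1 * k₁ := by group
          _ = x' * k₁ * (x' * x') * k₁ := by rw [hx'2]
          _ = x' * k₁ * x' * x' * k₁ := by group
      rw [isConj_iff]
      refine ⟨q⁻¹ * k₁⁻¹ * p, ?_⟩
      have : y = q⁻¹ * y' * q := by rw [hy']; group
      rw [this, hy'eq, hx']
      group
    · have hfib := Finset.card_eq_sum_card_fiberwise
        (s := Finset.univ.filter (fun z : G => orderOf z = 2))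
        (t := Finset.univ.erase a) (f := fun z : G => z • a) (by
          intro z hz
          rw [Finset.mem_coe, Finset.mem_filter] at hz
          rw [Finset.mem_coe, Finset.mem_erase]
          exact ⟨hfpf z hz.2 a, Finset.mem_univ _⟩)
      rw [hfib]
      have hterm : ∀ d ∈ Finset.univ.erase a,
          ((Finset.univ.filter (fun z : G => orderOf z = 2)).filter (fun z => z • a = d)).card = e := by
        intro d hd
        have hda : d ≠ a := (Finset.mem_erase.mp hd).1
        rw [hIset a d (Ne.symm hda), card_move hZ.2.1 hab (Ne.symm hda) hda, he]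
      rw [Finset.sum_congr rfl hterm, Finset.sum_const, Finset.card_erase_of_mem (Finset.mem_univ _),
        Finset.card_univ, hh, smul_eq_mul, Nat.add_sub_cancel, mul_comm]

end Cfsg.Agent.S0882
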