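import Cfsg.Statements.S0883
import Cfsg.Agent.Lib.helper2.ZassInv

set_option autoImplicit false
open Cfsg

open Cfsg.Agent.Lib.helper2.ZassCount

namespace Cfsg.Agent.S0883

/-- Let G be a finite simple Zassenhaus group on Ω with h + 1 points whose two-point stabilizer E has odd order e with 2e < h - 1, and let H be the subgroup of the stabilizer of a consisting of the identity and the elements fixing no point other than a (given here as a subgroup of the stabilizer of order one less than the number of points whose non-identity elements fix only a; it is the Frobenius kernel of the stabilizer). If a non-identity element u of H is a product of two involutions of G, then u is an involution. -/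
theorem result {G Ω : Type*} [Group G] [Finite G] [MulAction G Ω] [Fintype Ω] (hZ : Cfsg.IsZassenhausGroup G Ω) {a b : Ω} (hab : a ≠ b) [IsSimpleGroup G] (h e : ℕ) (hh : Fintype.card Ω = h + 1) (he : Nat.card ↥(MulAction.stabilizer G a ⊓ MulAction.stabilizer G b : Subgroup G) = e) (hodd : Odd e) (hlt : 2 * e < h - 1) (H : Subgroup G) (hHa : H ≤ MulAction.stabilizer G a) (hHcard : Nat.card H + 1 = Fintype.card Ω) (hHfix : ∀ u ∈ H, u ≠ 1 → ∀ c : Ω, u • c = c → c = a) (u : G) (hu : u ∈ H) (hu1 : u ≠ 1) (x y : G) (hx : orderOf x = 2) (hy : orderOf y = 2) (hxy : x * y = u) : orderOf u = 2 := by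
  classical
  haveI : Fintype G := Fintype.ofFinite G
  have h3 := hZ.2.2.1
  have h2t := hZ.2.1
  have hodd' : Odd (Nat.card ↥(MulAction.stabilizer G a ⊓ MulAction.stabilizer G b : Subgroup G)) := by
    rw [he]; exact hodd
  have hx2 : x * x = 1 := by rw [← sq, ← hx, pow_orderOf_eq_one]
  have hy2 : y * y = 1 := by rw [← sq, ← hy, pow_orderOf_eq_one]
  have hua : u • a = a := hHa hu
  have hyx : y = x * u := by rw [← hxy, ← mul_assoc, hx2, one_mul]
  have hxu : x * u = u⁻¹ * x := by
    have hyi : y⁻¹ = y := inv_eq_of_mul_eq_one_left hy2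
    rw [← hyx, ← hxy, mul_inv_rev, mul_assoc, inv_mul_cancel, mul_one, hyi]
  have hxa : x • a = a := by
    apply hHfix u hu hu1
    have : u⁻¹ • (x • a) = x • a := by rw [← mul_smul, ← hxu, mul_smul, hua]
    rw [inv_smul_eq_iff] at this
    exact this.symm
  have hya : y • a = a := by rw [hyx, mul_smul, hua, hxa]
  -- an involution fixing a fixes only a
  have honly : ∀ z : G, orderOf z = 2 → z • a = a → ∀ c : Ω, z • c = c → c = a := by
    intro z hz hza c hc
    have h1 := invol_fixN_le_one hZ hab hodd' hz
    unfold fixN at h1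
    exact Finset.card_le_one.mp h1 c (Finset.mem_filter.mpr ⟨Finset.mem_univ _, hc⟩) a
      (Finset.mem_filter.mpr ⟨Finset.mem_univ _, hza⟩)
  have hxH : x ∈ H := mem_kernel hZ hab H hHa hHcard hHfix hxa (honly x hx hxa)
  -- n is odd
  have hn : Odd (Fintype.card Ω) := by
    have h1 : orderOf x ∣ Nat.card H := by
      have := orderOf_dvd_natCard (⟨x, hxH⟩ : H)
      rwa [Subgroup.orderOf_mk] at this
    rw [hx] at h1
    rw [← hHcard]
    exact Even.add_one (even_iff_two_dvd.mpr h1)
  have hJ := invol_fix_le hZ hab hodd' hn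
  set J := Finset.univ.filter (fun z : G => orderOf z = 2 ∧ z • a = a) with hJdef
  set SM := Finset.univ.filter (fun m : G => m • a = a) with hSM
  set CM := Finset.univ.filter (fun m : G => m • a = a ∧ m * x = x * m) with hCM
  set HF := Finset.univ.filter (fun m : G => m ∈ H) with hHF
  have hSMcard : SM.card = (Fintype.card Ω - 1) * Nat.card ↥(MulAction.stabilizer G a ⊓ MulAction.stabilizer G b : Subgroup G) :=
    card_stab1 h2t hab a
  have hfib := Finset.card_eq_sum_card_fiberwise (s := SM) (t := J) (f := fun m : G => m * x * m⁻¹) (by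
    intro m hm
    rw [Finset.mem_coe, hSM, Finset.mem_filter] at hm
    rw [Finset.mem_coe, hJdef, Finset.mem_filter]
    refine ⟨Finset.mem_univ _, ?_, ?_⟩
    · show orderOf (m * x * m⁻¹) = 2
      have : m * x * m⁻¹ = MulAut.conj m x := by simp
      rw [this, MulEquiv.orderOf_eq, hx]
    · show (m * x * m⁻¹) • a = a
      have hmi : m⁻¹ • a = a := by rw [inv_smul_eq_iff, hm.2]
      rw [mul_smul, mul_smul, hmi, hxa, hm.2])
  have hfle : ∀ j ∈ J, (SM.filter (fun m => m * x * m⁻¹ = j)).card ≤ CM.card := by
    intro j _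
    by_cases hne : (SM.filter (fun m => m * x * m⁻¹ = j)).Nonempty
    · obtain ⟨m₀, hm₀⟩ := hne
      rw [Finset.mem_filter, hSM, Finset.mem_filter] at hm₀
      apply Finset.card_le_card_of_injOn (fun m => m₀⁻¹ * m)
      · intro m hm
        rw [Finset.mem_coe, Finset.mem_filter, hSM, Finset.mem_filter] at hm
        rw [Finset.mem_coe, hCM, Finset.mem_filter]
        refine ⟨Finset.mem_univ _, ?_, ?_⟩
        · have hmi : m₀⁻¹ • a = a := by rw [inv_smul_eq_iff, hm₀.1.2]
          rw [mul_smul, hm.1.2, hmi]
        · have h1 : m * x * m⁻¹ = m₀ * x * m₀⁻¹ := by rw [hm.2, hm₀.2]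
          have h2 : m * x = m₀ * x * m₀⁻¹ * m := by rw [← h1]; group
          calc m₀⁻¹ * m * x = m₀⁻¹ * (m * x) := by group
            _ = m₀⁻¹ * (m₀ * x * m₀⁻¹ * m) := by rw [h2]
            _ = x * (m₀⁻¹ * m) := by group
      · intro m _ m' _ h
        exact mul_left_cancel h
    · rw [Finset.not_nonempty_iff_eq_empty] at hne
      rw [hne, Finset.card_empty]
      exact Nat.zero_le _
  have hepos : 0 < Nat.card ↥(MulAction.stabilizer G a ⊓ MulAction.stabilizer G b : Subgroup G) := Nat.card_pos
  have hCMge : Fintype.card Ω - 1 ≤ CM.card := by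
    have h1 : SM.card ≤ J.card * CM.card := by
      rw [hfib]
      calc _ ≤ ∑ j ∈ J, CM.card := Finset.sum_le_sum hfle
        _ = J.card * CM.card := by rw [Finset.sum_const, smul_eq_mul]
    have h2 : (Fintype.card Ω - 1) * Nat.card ↥(MulAction.stabilizer G a ⊓ MulAction.stabilizer G b : Subgroup G)
        ≤ CM.card * Nat.card ↥(MulAction.stabilizer G a ⊓ MulAction.stabilizer G b : Subgroup G) := by
      rw [← hSMcard]
      calc SM.card ≤ J.card * CM.card := h1
        _ ≤ Nat.card ↥(MulAction.stabilizer G a ⊓ MulAction.stabilizer G b : Subgroup G) * CM.card :=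
          Nat.mul_le_mul_right _ hJ
        _ = _ := by ring
    exact Nat.le_of_mul_le_mul_right h2 hepos
  have hsub : CM ⊆ HF := by
    intro m hm
    rw [hCM, Finset.mem_filter] at hm
    rw [hHF, Finset.mem_filter]
    refine ⟨Finset.mem_univ _, ?_⟩
    by_cases hm1 : m = 1
    · rw [hm1]; exact H.one_mem
    · apply mem_kernel hZ hab H hHa hHcard hHfix hm.2.1
      intro c hc
      by_contra hca
      apply hm1
      have hxc : x • c ≠ c := fun h => hca (honly x hx hxa c h)
      have hxc' : x • c ≠ a := by
        intro h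
        apply hca
        have : x • c = x • a := by rw [h, hxa]
        exact smul_left_cancel x this
      have hmxc : m • (x • c) = x • c := by
        rw [← mul_smul, hm.2.2, mul_smul, hc]
      exact h3 m a c (x • c) (Ne.symm hca) (Ne.symm hxc) (Ne.symm hxc') hm.2.1 hc hmxc
  have hHFcard : HF.card = Nat.card H := by
    rw [Nat.card_eq_fintype_card, hHF, ← Fintype.card_subtype]
  have heq : CM = HF := by
    apply Finset.eq_of_subset_of_card_le hsub
    rw [hHFcard]
    omega
  have huC : u ∈ CM := by
    rw [heq, hHF, Finset.mem_filter]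
    exact ⟨Finset.mem_univ _, hu⟩
  rw [hCM, Finset.mem_filter] at huC
  have h5 : u * x = u⁻¹ * x := by rw [huC.2.2, hxu]
  have h6 : u = u⁻¹ := mul_right_cancel h5
  have h7 : u ^ 2 = 1 := by
    rw [sq]
    nth_rewrite 1 [h6]
    exact inv_mul_cancel u
  haveI : Fact (Nat.Prime 2) := ⟨Nat.prime_two⟩
  exact orderOf_eq_prime h7 hu1

end Cfsg.Agent.S0883
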