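import Cfsg.Statements.S0884
import Cfsg.Agent.Lib.helper2.ZassClass
import Cfsg.Agent.S0882

set_option autoImplicit false
open Cfsg

open Cfsg.Agent.Lib.helper2.ZassCount

namespace Cfsg.Agent.S0884

/-- Let G be a finite simple Zassenhaus group on Ω with h + 1 points whose two-point stabilizer E has odd order e with 2e < h - 1, and let H be the subgroup of the stabilizer of a consisting of the identity and the elements fixing no point other than a (given here as a subgroup of the stabilizer of order one less than the number of points whose non-identity elements fix only a; it is the Frobenius kernel of the stabilizer). Then at least e conjugacy classes of G contain no element of H. -/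
theorem result {G Ω : Type*} [Group G] [Finite G] [MulAction G Ω] [Fintype Ω] (hZ : Cfsg.IsZassenhausGroup G Ω) {a b : Ω} (hab : a ≠ b) [IsSimpleGroup G] (h e : ℕ) (hh : Fintype.card Ω = h + 1) (he : Nat.card ↥(MulAction.stabilizer G a ⊓ MulAction.stabilizer G b : Subgroup G) = e) (hodd : Odd e) (hlt : 2 * e < h - 1) (H : Subgroup G) (hHa : H ≤ MulAction.stabilizer G a) (hHcard : Nat.card H + 1 = Fintype.card Ω) (hHfix : ∀ u ∈ H, u ≠ 1 → ∀ c : Ω, u • c = c → c = a) : e ≤ Nat.card {C : ConjClasses G // ∀ g : G, ConjClasses.mk g = C → g ∉ H} := by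
  classical
  haveI : Fintype G := Fintype.ofFinite G
  have hodd' : Odd (Nat.card ↥(MulAction.stabilizer G a ⊓ MulAction.stabilizer G b : Subgroup G)) := by
    rw [he]; exact hodd
  obtain ⟨hswap, hinv, hcomm⟩ := simple_E_struct hZ hab hodd'
  have hIcard := (Cfsg.Agent.S0882.result hZ hab h e hh he hodd hlt).2
  have hcardI : Nat.card {x : G // orderOf x = 2}
      = (Finset.univ.filter (fun z : G => orderOf z = 2)).card := by
    rw [Nat.card_eq_fintype_card, Fintype.card_subtype]
  rw [hcardI] at hIcard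
  have hsq : ∀ x ∈ Finset.univ.filter (fun z : G => orderOf z = 2), x * x = 1 := by
    intro x hx
    rw [Finset.mem_filter] at hx
    rw [← sq, ← hx.2, pow_orderOf_eq_one]
  have hF := fpf_pairs_le (G := G) (Ω := Ω) (Finset.univ.filter (fun z : G => orderOf z = 2)) hsq
  have hT2 := T2_bound (G := G) (Ω := Ω) hZ hab hodd'
  have hG := card_G (G := G) (Ω := Ω) hZ.2.1 hab
  have hc2 := classes_E (G := G) (Ω := Ω) hZ hab hinv hcomm
  obtain ⟨I, hI⟩ : ∃ I : Finset G, I = Finset.univ.filter (fun z : G => orderOf z = 2) := ⟨_, rfl⟩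
  rw [← hI] at hIcard hsq hF hT2
  obtain ⟨A₀, hA₀⟩ : ∃ A₀ : Finset (G × G),
      A₀ = (I ×ˢ I).filter (fun p : G × G => fixN (Ω := Ω) (p.1 * p.2) = 0) := ⟨_, rfl⟩
  obtain ⟨A₁, hA₁⟩ : ∃ A₁ : Finset (G × G),
      A₁ = (I ×ˢ I).filter (fun p : G × G => fixN (Ω := Ω) (p.1 * p.2) = 1) := ⟨_, rfl⟩
  obtain ⟨A₂, hA₂⟩ : ∃ A₂ : Finset (G × G),
      A₂ = (I ×ˢ I).filter (fun p : G × G => fixN (Ω := Ω) (p.1 * p.2) = 2) := ⟨_, rfl⟩
  obtain ⟨Ad, hAd⟩ : ∃ Ad : Finset (G × G),
      Ad = (I ×ˢ I).filter (fun p : G × G => p.1 * p.2 = 1) := ⟨_, rfl⟩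
  obtain ⟨P₀, hP₀⟩ : ∃ P₀ : Finset (ConjClasses G),
      P₀ = (Finset.univ.filter (fun g : G => fixN (Ω := Ω) g = 0)).image
        (ConjClasses.mk : G → ConjClasses G) := ⟨_, rfl⟩
  obtain ⟨P₂, hP₂⟩ : ∃ P₂ : Finset (ConjClasses G),
      P₂ = (Finset.univ.filter (fun g : G => fixN (Ω := Ω) g = 2)).image
        (ConjClasses.mk : G → ConjClasses G) := ⟨_, rfl⟩
  rw [← hA₀, ← hP₀] at hF
  rw [← hA₂] at hT2
  rw [← hP₂] at hc2
  have hAd_le : Ad.card ≤ I.card := by
    apply Finset.card_le_card_of_injOn Prod.fst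
    · intro p hp
      rw [Finset.mem_coe, hAd, Finset.mem_filter, Finset.mem_product] at hp
      exact hp.1.1
    · intro p hp p' hp' h'
      rw [Finset.mem_coe, hAd, Finset.mem_filter] at hp hp'
      have h1 : p.1 = p'.1 := h'
      have h2 : p.2 = p'.2 := by
        have := hp.2.trans hp'.2.symm
        rw [h1] at this
        exact mul_left_cancel this
      exact Prod.ext h1 h2
  have hpart : I.card * I.card ≤ I.card + A₀.card + A₁.card + A₂.card := by
    have hsub : I ×ˢ I ⊆ Ad ∪ A₀ ∪ A₁ ∪ A₂ := by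
      intro p hp
      simp only [Finset.mem_union]
      by_cases h1 : p.1 * p.2 = 1
      · left; left; left
        rw [hAd, Finset.mem_filter]
        exact ⟨hp, h1⟩
      · have h2 := fixN_le_two (Ω := Ω) hZ h1
        have h3 : fixN (Ω := Ω) (p.1 * p.2) = 0 ∨ fixN (Ω := Ω) (p.1 * p.2) = 1
            ∨ fixN (Ω := Ω) (p.1 * p.2) = 2 := by omega
        rcases h3 with h3 | h3 | h3
        · left; left; right
          rw [hA₀, Finset.mem_filter]
          exact ⟨hp, h3⟩
        · left; right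
          rw [hA₁, Finset.mem_filter]
          exact ⟨hp, h3⟩
        · right
          rw [hA₂, Finset.mem_filter]
          exact ⟨hp, h3⟩
    have h4 := Finset.card_le_card hsub
    rw [Finset.card_product] at h4
    have h5 : (Ad ∪ A₀ ∪ A₁ ∪ A₂).card ≤ Ad.card + A₀.card + A₁.card + A₂.card := by
      refine le_trans (Finset.card_union_le _ _) ?_
      refine Nat.add_le_add_right (le_trans (Finset.card_union_le _ _) ?_) _
      exact Nat.add_le_add_right (Finset.card_union_le _ _) _
    omega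
  have hgood : Nat.card {C : ConjClasses G // ∀ g : G, ConjClasses.mk g = C → g ∉ H}
      = (Finset.univ.filter (fun C : ConjClasses G => ∀ g : G, ConjClasses.mk g = C → g ∉ H)).card := by
    rw [Nat.card_eq_fintype_card, Fintype.card_subtype]
  rw [hgood]
  have hn2 : Fintype.card Ω ≠ 2 := Cfsg.Agent.Lib.helper24.zass_card_ne_two hZ
  have hconjfix : ∀ g g' : G, ConjClasses.mk g = ConjClasses.mk g' →
      fixN (Ω := Ω) g = fixN (Ω := Ω) g' := by
    intro g g' hgg
    obtain ⟨c, hc⟩ := isConj_iff.mp (ConjClasses.mk_eq_mk_iff_isConj.mp hgg)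
    rw [← hc, fixN_conj]
  have hHfixN : ∀ g ∈ H, fixN (Ω := Ω) g ≠ 0 ∧ fixN (Ω := Ω) g ≠ 2 := by
    intro g hg
    constructor
    · intro h0
      exact (fixN_eq_zero_iff g).mp h0 a (hHa hg)
    · intro h2
      by_cases hg1 : g = 1
      · rw [hg1, fixN_one] at h2
        exact hn2 h2
      · unfold fixN at h2
        obtain ⟨c, d, hcd, hS⟩ := Finset.card_eq_two.mp h2
        have hc : g • c = c := by
          have : c ∈ Finset.univ.filter (fun c : Ω => g • c = c) := by rw [hS]; simp
          exact (Finset.mem_filter.mp this).2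
        have hd : g • d = d := by
          have : d ∈ Finset.univ.filter (fun c : Ω => g • c = c) := by rw [hS]; simp
          exact (Finset.mem_filter.mp this).2
        exact hcd ((hHfix g hg hg1 c hc).trans (hHfix g hg hg1 d hd).symm)
  have hsubgood : P₀ ∪ P₂ ⊆ Finset.univ.filter
      (fun C : ConjClasses G => ∀ g : G, ConjClasses.mk g = C → g ∉ H) := by
    intro C hC
    rw [Finset.mem_filter]
    refine ⟨Finset.mem_univ _, ?_⟩
    intro g hgC hgH
    rw [Finset.mem_union] at hC
    rcases hC with hC | hC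
    · rw [hP₀] at hC
      obtain ⟨g₁, hg₁, rfl⟩ := Finset.mem_image.mp hC
      rw [Finset.mem_filter] at hg₁
      exact (hHfixN g hgH).1 ((hconjfix g g₁ hgC).trans hg₁.2)
    · rw [hP₂] at hC
      obtain ⟨g₁, hg₁, rfl⟩ := Finset.mem_image.mp hC
      rw [Finset.mem_filter] at hg₁
      exact (hHfixN g hgH).2 ((hconjfix g g₁ hgC).trans hg₁.2)
  have hdisj : Disjoint P₀ P₂ := by
    rw [Finset.disjoint_left]
    intro C h0 h2
    rw [hP₀] at h0
    rw [hP₂] at h2
    obtain ⟨g₁, hg₁, rfl⟩ := Finset.mem_image.mp h0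
    obtain ⟨g₂, hg₂, hg₂C⟩ := Finset.mem_image.mp h2
    rw [Finset.mem_filter] at hg₁ hg₂
    have := hconjfix g₂ g₁ hg₂C
    omega
  have hgoodcard : P₀.card + P₂.card ≤ (Finset.univ.filter
      (fun C : ConjClasses G => ∀ g : G, ConjClasses.mk g = C → g ∉ H)).card := by
    rw [← Finset.card_union_of_disjoint hdisj]
    exact Finset.card_le_card hsubgood
  -- arithmetic
  obtain ⟨j, hj⟩ := hodd
  have hkE : Even (2 * j) := ⟨j, by ring⟩
  rw [he] at hc2 hT2 hG
  rw [hh] at hT2 hG
  have e1 : (h + 1) * (h + 1) - (h + 1) = (h + 1) * h := by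
    have : (h + 1) * (h + 1) = (h + 1) * h + (h + 1) := by ring
    omega
  have e2 : e * e - e = (2 * j + 1) * (2 * j) := by
    rw [hj]
    have : (2 * j + 1) * (2 * j + 1) = (2 * j + 1) * (2 * j) + (2 * j + 1) := by ring
    omega
  rw [e1, e2] at hT2
  rw [e1] at hG
  rw [hG] at hF
  have hkey : 2 * j + 2 ≤ 2 * P₀.card := by
    by_cases hev : Even h
    · rw [if_pos hev] at hIcard
      have hn : Odd (Fintype.card Ω) := by rw [hh]; exact hev.add_one
      have hT1 := T1_bound (G := G) (Ω := Ω) hZ hab hodd' hn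
      rw [← hI, ← hA₁, he, hh, e2] at hT1
      have hh1 : 1 ≤ h := by omega
      refine arith_even (2 * j) h P₀.card I.card A₀.card A₁.card A₂.card ?_ hpart ?_ hT1 hT2 hh1
      · rw [hIcard, hj]
      · rw [hj] at hF
        exact hF
    · rw [if_neg hev] at hIcard
      have hn : Even (Fintype.card Ω) := by
        rw [hh]
        exact (Nat.not_even_iff_odd.mp hev).add_one
      have hT1 := T1_empty (G := G) (Ω := Ω) hZ hab hodd' hn
      rw [← hI, ← hA₁] at hT1
      refine arith_odd (2 * j) h P₀.card I.card A₀.card A₁.card A₂.card ?_ hpart ?_ hT1 hT2 hkE ?_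
      · rw [hIcard, hj]
      · rw [hj] at hF
        exact hF
      · rw [hj] at hlt
        exact hlt
  omega

end Cfsg.Agent.S0884
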