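import Mathlib
import Cfsg.Statements.S0901

set_option autoImplicit false
open Cfsg

namespace Cfsg.Agent.S0901

open Polynomial

theorem part1 (p : ℕ) [Fact p.Prime] (M : Ideal Cfsg.AlgInt) (hM : Cfsg.IsPModular p M)
    (ε₁ ε₂ : Cfsg.AlgInt) (m : ℕ) (hm : ¬ p ∣ m) (h1 : ε₁ ^ m = 1) (h2 : ε₂ ^ m = 1)
    (h : ε₁ - ε₂ ∈ M) : ε₁ = ε₂ := by
  haveI := hM.2.1
  letI := Ideal.Quotient.field M
  haveI : CharP (Cfsg.AlgInt ⧸ M) p := by
    rw [CharP.charP_iff_prime_eq_zero hM.1]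
    have : ((p : Cfsg.AlgInt) : Cfsg.AlgInt ⧸ M) = 0 :=
      Ideal.Quotient.eq_zero_iff_mem.mpr hM.2.2
    simpa using this
  by_contra hne
  set f : (Cfsg.AlgInt)[X] := X ^ m - 1 with hf
  have hr1 : IsRoot f ε₁ := by simp [hf, h1]
  have hr2 : IsRoot f ε₂ := by simp [hf, h2]
  have e1 : (X - C ε₁) * (f /ₘ (X - C ε₁)) = f := mul_divByMonic_eq_iff_isRoot.mpr hr1
  have hr2' : IsRoot (f /ₘ (X - C ε₁)) ε₂ := by
    have : eval ε₂ ((X - C ε₁) * (f /ₘ (X - C ε₁))) = 0 := by rw [e1]; exact hr2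
    rw [eval_mul] at this
    rcases mul_eq_zero.mp this with h0 | h0
    · exfalso
      apply hne
      simp only [eval_sub, eval_X, eval_C] at h0
      exact (sub_eq_zero.mp h0).symm
    · exact h0
  have e2 : (X - C ε₂) * ((f /ₘ (X - C ε₁)) /ₘ (X - C ε₂)) = f /ₘ (X - C ε₁) :=
    mul_divByMonic_eq_iff_isRoot.mpr hr2'
  set q := (f /ₘ (X - C ε₁)) /ₘ (X - C ε₂)
  have e3 : f = (X - C ε₁) * ((X - C ε₂) * q) := by rw [e2, e1]
  let φ := Ideal.Quotient.mk M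
  have hφ : φ ε₁ = φ ε₂ := by
    rw [← sub_eq_zero, ← map_sub]
    exact Ideal.Quotient.eq_zero_iff_mem.mpr h
  have e4 : (X ^ m - C (1 : Cfsg.AlgInt ⧸ M)) = (X - C (φ ε₂)) * (X - C (φ ε₂)) * q.map φ := by
    have := congrArg (Polynomial.map φ) e3
    simp only [hf, Polynomial.map_sub, Polynomial.map_pow, Polynomial.map_X, Polynomial.map_one,
      Polynomial.map_mul, Polynomial.map_C, hφ] at this
    rw [map_one, this, mul_assoc]
  have hsep : (X ^ m - C (1 : Cfsg.AlgInt ⧸ M)).Separable :=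
    separable_X_pow_sub_C' p m 1 hm one_ne_zero
  have hsq := hsep.squarefree
  have := hsq (X - C (φ ε₂)) ⟨q.map φ, e4⟩
  exact not_isUnit_X_sub_C _ this

theorem exists_pow_eq_one (p : ℕ) [Fact p.Prime] (M : Ideal Cfsg.AlgInt) (hM : Cfsg.IsPModular p M)
    (a : Cfsg.AlgInt) (ha : a ∉ M) :
    ∃ n : ℕ, ¬ p ∣ n ∧ (Ideal.Quotient.mk M a) ^ n = 1 := by
  haveI := hM.2.1
  letI := Ideal.Quotient.field M
  haveI : CharP (Cfsg.AlgInt ⧸ M) p := by
    rw [CharP.charP_iff_prime_eq_zero hM.1]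
    have : ((p : Cfsg.AlgInt) : Cfsg.AlgInt ⧸ M) = 0 :=
      Ideal.Quotient.eq_zero_iff_mem.mpr hM.2.2
    simpa using this
  letI : Algebra (ZMod p) (Cfsg.AlgInt ⧸ M) := ZMod.algebra _ p
  set b := Ideal.Quotient.mk M a with hb
  have hb0 : b ≠ 0 := fun h0 => ha (Ideal.Quotient.eq_zero_iff_mem.mp h0)
  have hinta : IsIntegral ℤ a := integralClosure.isIntegral a
  have hintb : IsIntegral ℤ b := map_isIntegral_int (Ideal.Quotient.mk M) hinta
  have hintb' : IsIntegral (ZMod p) b := hintb.tower_top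
  haveI : Module.Finite (ZMod p) (Algebra.adjoin (ZMod p) {b}) :=
    Module.Finite.iff_fg.mpr hintb'.fg_adjoin_singleton
  haveI : Finite (Algebra.adjoin (ZMod p) {b}) := Module.finite_of_finite (ZMod p)
  let b' : Algebra.adjoin (ZMod p) {b} := ⟨b, Algebra.subset_adjoin rfl⟩
  obtain ⟨i, j, hij, heq⟩ := Finite.exists_ne_map_eq_of_infinite (fun n : ℕ => b' ^ n)
  have heq' : b ^ i = b ^ j := by
    have := congrArg (fun z : Algebra.adjoin (ZMod p) {b} => (z : Cfsg.AlgInt ⧸ M)) heq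
    simpa [b'] using this
  have key : ∃ N : ℕ, N ≠ 0 ∧ b ^ N = 1 := by
    rcases lt_or_gt_of_ne hij with hlt | hlt
    · refine ⟨j - i, by omega, ?_⟩
      have : b ^ i * b ^ (j - i) = b ^ i * 1 := by
        rw [← pow_add, mul_one, Nat.add_sub_cancel' hlt.le]; exact heq'.symm
      exact mul_left_cancel₀ (pow_ne_zero i hb0) this
    · refine ⟨i - j, by omega, ?_⟩
      have : b ^ j * b ^ (i - j) = b ^ j * 1 := by
        rw [← pow_add, mul_one, Nat.add_sub_cancel' hlt.le]; exact heq'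
      exact mul_left_cancel₀ (pow_ne_zero j hb0) this
  obtain ⟨N, hN0, hN⟩ := key
  obtain ⟨e, n, hn, rfl⟩ := Nat.exists_eq_pow_mul_and_not_dvd hN0 p (Fact.out : p.Prime).ne_one
  refine ⟨n, hn, ?_⟩
  exact (ExpChar.pow_prime_pow_mul_eq_one_iff p e n b).mp hN

/-- Let M be a maximal ideal of the ring of algebraic integers containing the prime p, and let U be the set of complex roots of unity of order prime to p. Then reduction modulo M is injective on U, and every algebraic integer not in M is congruent modulo M to an element of U (so U maps bijectively onto the nonzero residues). -/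
theorem result (p : ℕ) [Fact p.Prime] (M : Ideal Cfsg.AlgInt) (hM : Cfsg.IsPModular p M) : (∀ ε₁ ε₂ : Cfsg.AlgInt, (∃ m : ℕ, ¬ p ∣ m ∧ (ε₁ : ℂ) ^ m = 1) → (∃ m : ℕ, ¬ p ∣ m ∧ (ε₂ : ℂ) ^ m = 1) → ε₁ - ε₂ ∈ M → ε₁ = ε₂) ∧ (∀ a : Cfsg.AlgInt, a ∉ M → ∃ ε : Cfsg.AlgInt, (∃ m : ℕ, ¬ p ∣ m ∧ (ε : ℂ) ^ m = 1) ∧ a - ε ∈ M) := by
  constructor
  · rintro ε₁ ε₂ ⟨m₁, hm₁, h1⟩ ⟨m₂, hm₂, h2⟩ h
    have hp : p.Prime := Fact.out
    apply part1 p M hM ε₁ ε₂ (m₁ * m₂) (fun hd => (hp.dvd_mul.mp hd).elim hm₁ hm₂) _ _ h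
    · apply Subtype.ext
      simp [pow_mul, h1]
    · apply Subtype.ext
      simp [mul_comm m₁ m₂, pow_mul, h2]
  · intro a ha
    haveI := hM.2.1
    letI := Ideal.Quotient.field M
    obtain ⟨n, hn, hpow⟩ := exists_pow_eq_one p M hM a ha
    have hn0 : n ≠ 0 := fun h0 => hn (h0 ▸ dvd_zero p)
    have hζ := Complex.isPrimitiveRoot_exp n hn0
    set ζ : ℂ := Complex.exp (2 * Real.pi * Complex.I / n) with hζdef
    have hζint : IsIntegral ℤ ζ := hζ.isIntegral (Nat.pos_of_ne_zero hn0)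
    let ζ' : Cfsg.AlgInt := ⟨ζ, hζint⟩
    have hζ' : IsPrimitiveRoot ζ' n :=
      IsPrimitiveRoot.of_map_of_injective (f := (Cfsg.AlgInt).val) hζ Subtype.val_injective
    have hprod := X_pow_sub_one_eq_prod (Nat.pos_of_ne_zero hn0) hζ'
    have hev := congrArg (Polynomial.eval a) hprod
    rw [Polynomial.eval_prod] at hev
    simp only [eval_sub, eval_pow, eval_X, eval_one, eval_C] at hev
    have hmap := congrArg (Ideal.Quotient.mk M) hev
    rw [map_sub, map_pow, map_one, hpow, sub_self, map_prod] at hmap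
    obtain ⟨ε, hε, hε0⟩ := Finset.prod_eq_zero_iff.mp hmap.symm
    refine ⟨ε, ⟨n, hn, ?_⟩, Ideal.Quotient.eq_zero_iff_mem.mp hε0⟩
    have := (Polynomial.mem_nthRootsFinset (Nat.pos_of_ne_zero hn0) (1 : Cfsg.AlgInt)).mp hε
    have h2 := congrArg (fun z : Cfsg.AlgInt => (z : ℂ)) this
    simpa using h2

end Cfsg.Agent.S0901
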