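import Mathlib
import Cfsg.Statements.S0903

set_option autoImplicit false
open Cfsg

namespace Cfsg.Agent.S0903

/-- simultaneous conjugation action of `P` on pairs satisfying a conjugation-invariant predicate -/
@[reducible] def pairAct {G : Type*} [Group G] (P : Subgroup G) (pred : G × G → Prop)
    (hpred : ∀ z ∈ P, ∀ xy : G × G, pred xy → pred (z * xy.1 * z⁻¹, z * xy.2 * z⁻¹)) :
    MulAction P {xy : G × G // pred xy} where
  smul z xy := ⟨((z : G) * xy.1.1 * (z : G)⁻¹, (z : G) * xy.1.2 * (z : G)⁻¹), hpred z z.2 xy.1 xy.2⟩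
  one_smul xy := by
    apply Subtype.ext
    show (((1 : P) : G) * xy.1.1 * ((1 : P) : G)⁻¹, ((1 : P) : G) * xy.1.2 * ((1 : P) : G)⁻¹) = xy.1
    simp
  mul_smul a b xy := by
    apply Subtype.ext
    show (((a * b : P) : G) * xy.1.1 * ((a * b : P) : G)⁻¹, ((a * b : P) : G) * xy.1.2 * ((a * b : P) : G)⁻¹)
      = ((a : G) * ((b : G) * xy.1.1 * (b : G)⁻¹) * (a : G)⁻¹, (a : G) * ((b : G) * xy.1.2 * (b : G)⁻¹) * (a : G)⁻¹)
    simp [mul_assoc]

theorem pairAct_smul_val {G : Type*} [Group G] (P : Subgroup G) (pred : G × G → Prop)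
    (hpred : ∀ z ∈ P, ∀ xy : G × G, pred xy → pred (z * xy.1 * z⁻¹, z * xy.2 * z⁻¹))
    (z : P) (xy : {xy : G × G // pred xy}) :
    ((pairAct P pred hpred).smul z xy).1 = ((z : G) * xy.1.1 * (z : G)⁻¹, (z : G) * xy.1.2 * (z : G)⁻¹) :=
  rfl

/-- Let P be a p-subgroup of the finite group G, let c centralize P and let g, h ∈ G. The number of pairs (x, y) with x conjugate to g, y conjugate to h and x * y = c is congruent modulo p to the number of such pairs in which x and y both centralize P. (This is why the Brauer map on class sums is multiplicative.) -/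
theorem result {G : Type*} [Group G] [Finite G] (p : ℕ) [Fact p.Prime] (P : Subgroup G) (hP : IsPGroup p P) (c : G) (hc : c ∈ Subgroup.centralizer (P : Set G)) (g h : G) : Nat.card {xy : G × G // IsConj g xy.1 ∧ IsConj h xy.2 ∧ xy.1 * xy.2 = c} ≡ Nat.card {xy : G × G // IsConj g xy.1 ∧ IsConj h xy.2 ∧ xy.1 * xy.2 = c ∧ xy.1 ∈ Subgroup.centralizer (P : Set G) ∧ xy.2 ∈ Subgroup.centralizer (P : Set G)} [MOD p] := by
  have hpred : ∀ z ∈ P, ∀ xy : G × G, (IsConj g xy.1 ∧ IsConj h xy.2 ∧ xy.1 * xy.2 = c) →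
      (IsConj g (z * xy.1 * z⁻¹) ∧ IsConj h (z * xy.2 * z⁻¹) ∧ (z * xy.1 * z⁻¹) * (z * xy.2 * z⁻¹) = c) := by
    rintro z hz ⟨x, y⟩ ⟨h1, h2, h3⟩
    refine ⟨h1.trans (isConj_iff.mpr ⟨z, rfl⟩), h2.trans (isConj_iff.mpr ⟨z, rfl⟩), ?_⟩
    have hzc : z * c = c * z := Subgroup.mem_centralizer_iff.mp hc z hz
    calc z * x * z⁻¹ * (z * y * z⁻¹) = z * (x * y) * z⁻¹ := by group
      _ = z * c * z⁻¹ := by rw [h3]
      _ = c := by rw [hzc]; group
  let _act := pairAct P (fun xy : G × G => IsConj g xy.1 ∧ IsConj h xy.2 ∧ xy.1 * xy.2 = c) hpred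
  have hmod := hP.card_modEq_card_fixedPoints
    {xy : G × G // IsConj g xy.1 ∧ IsConj h xy.2 ∧ xy.1 * xy.2 = c}
  refine hmod.trans ?_
  have hfix : ∀ xy : {xy : G × G // IsConj g xy.1 ∧ IsConj h xy.2 ∧ xy.1 * xy.2 = c},
      xy ∈ MulAction.fixedPoints P {xy : G × G // IsConj g xy.1 ∧ IsConj h xy.2 ∧ xy.1 * xy.2 = c}
        ↔ (xy.1.1 ∈ Subgroup.centralizer (P : Set G) ∧ xy.1.2 ∈ Subgroup.centralizer (P : Set G)) := by
    intro xy
    rw [MulAction.mem_fixedPoints]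
    constructor
    · intro hfx
      constructor
      · rw [Subgroup.mem_centralizer_iff]
        intro z hz
        have h1 := congrArg (fun w : {xy : G × G // IsConj g xy.1 ∧ IsConj h xy.2 ∧ xy.1 * xy.2 = c} => w.1.1) (hfx ⟨z, hz⟩)
        have h2 : z * xy.1.1 * z⁻¹ = xy.1.1 := h1
        calc z * xy.1.1 = z * xy.1.1 * z⁻¹ * z := by group
          _ = xy.1.1 * z := by rw [h2]
      · rw [Subgroup.mem_centralizer_iff]
        intro z hz
        have h1 := congrArg (fun w : {xy : G × G // IsConj g xy.1 ∧ IsConj h xy.2 ∧ xy.1 * xy.2 = c} => w.1.2) (hfx ⟨z, hz⟩)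
        have h2 : z * xy.1.2 * z⁻¹ = xy.1.2 := h1
        calc z * xy.1.2 = z * xy.1.2 * z⁻¹ * z := by group
          _ = xy.1.2 * z := by rw [h2]
    · rintro ⟨h1, h2⟩ z
      apply Subtype.ext
      have e1 : (z : G) * xy.1.1 * (z : G)⁻¹ = xy.1.1 := by
        rw [Subgroup.mem_centralizer_iff.mp h1 z z.2]; group
      have e2 : (z : G) * xy.1.2 * (z : G)⁻¹ = xy.1.2 := by
        rw [Subgroup.mem_centralizer_iff.mp h2 z z.2]; group
      show ((z : G) * xy.1.1 * (z : G)⁻¹, (z : G) * xy.1.2 * (z : G)⁻¹) = xy.1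
      rw [e1, e2]
  have e : MulAction.fixedPoints P {xy : G × G // IsConj g xy.1 ∧ IsConj h xy.2 ∧ xy.1 * xy.2 = c}
      ≃ {xy : G × G // IsConj g xy.1 ∧ IsConj h xy.2 ∧ xy.1 * xy.2 = c ∧
          xy.1 ∈ Subgroup.centralizer (P : Set G) ∧ xy.2 ∈ Subgroup.centralizer (P : Set G)} :=
    { toFun := fun w => ⟨w.1.1, w.1.2.1, w.1.2.2.1, w.1.2.2.2, ((hfix w.1).mp w.2).1, ((hfix w.1).mp w.2).2⟩
      invFun := fun w => ⟨⟨w.1, w.2.1, w.2.2.1, w.2.2.2.1⟩, (hfix _).mpr ⟨w.2.2.2.2.1, w.2.2.2.2.2⟩⟩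
      left_inv := fun w => rfl
      right_inv := fun w => rfl }
  rw [Nat.card_congr e]

end Cfsg.Agent.S0903
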