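import Cfsg.Statements.S0905
import Cfsg.Agent.Lib.helper5.BlockRad
import Cfsg.Agent.Lib.helper5.BlockPCore
import Cfsg.Agent.Lib.helper5.GroupAlgZ
import Cfsg.Agent.Lib.helper1.Fitting

set_option autoImplicit false
open Cfsg
open Cfsg.Agent.Lib.helper5 Cfsg.Agent.Lib.helper23 Cfsg.Agent.Lib.helper24

namespace Cfsg.Agent.S0905

/-- Let F be a field of characteristic p and let g be an element of the finite group G no conjugate of which centralizes O_p(G). Then the class sum of g is a nilpotent element of the group algebra F[G]. -/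
theorem result {G : Type*} [Group G] [Finite G] (p : ℕ) [Fact p.Prime] (F : Type*) [Field F] [CharP F p] (g : G) (hg : ∀ x : G, IsConj g x → x ∉ Subgroup.centralizer (Cfsg.pCore p G : Set G)) : IsNilpotent (∑ᶠ x ∈ ConjClasses.carrier (ConjClasses.mk g), MonoidAlgebra.single x (1 : F) : MonoidAlgebra F G) := by
  classical
  haveI := Fintype.ofFinite G
  haveI := Fintype.ofFinite (Cfsg.IrrCharacter G)
  have hp : p.Prime := Fact.out
  obtain ⟨M, hM⟩ := exists_isPModular p hp
  have hMp := isPModular_isPrime hM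
  haveI := Cfsg.Agent.Lib.helper1.pCore_normal p G
  have hQ := Cfsg.Agent.Lib.helper1.pCore_isPGroup p G
  have hgC : g ∉ Subgroup.centralizer (Cfsg.pCore p G : Set G) := hg g (IsConj.refl g)
  obtain ⟨N, hN, hcoef⟩ := exists_pow_coef_memLocalIdeal hM
    (fun χ : Cfsg.IrrCharacter G => Cfsg.centralChar χ.1 g)
    (fun χ => memLocalIdeal_centralChar_of_not_mem_centralizer hM (Cfsg.pCore p G) hQ g hgC χ)
  -- the integral class sum
  obtain ⟨Kz, hKz⟩ : ∃ Kz : MonoidAlgebra ℤ G,
      Kz = ∑ x ∈ Finset.univ.filter (fun x : G => IsConj g x), MonoidAlgebra.single x (1 : ℤ) :=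
    ⟨_, rfl⟩
  have hcoeffR : ∀ (R : Type _) [Ring R] (y : G),
      (∑ x ∈ Finset.univ.filter (fun x : G => IsConj g x),
        MonoidAlgebra.single x (1 : R)).coeff y = if IsConj g y then (1 : R) else 0 := by
    intro R _ y
    rw [MonoidAlgebra.coeff_sum, Finsupp.finset_sum_apply]
    simp only [MonoidAlgebra.coeff_single, Finsupp.single_apply]
    rw [Finset.sum_ite_eq' (Finset.univ.filter (fun x : G => IsConj g x)) y (fun _ => (1 : R))]
    simp
  have hC : MonoidAlgebra.mapRingHom G (Int.castRingHom ℂ) Kz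
      = zOf (fun χ : Cfsg.IrrCharacter G => Cfsg.centralChar χ.1 g) := by
    apply ga_ext
    intro x
    rw [zOf_coeff, coef_centralChar, MonoidAlgebra.coeff_mapRingHom, hKz, hcoeffR ℤ x]
    split_ifs <;> simp
  have hdiv : ∀ x, (p : ℤ) ∣ (Kz ^ N).coeff x := by
    intro x
    rw [← memLocalIdeal_intCast_iff hM]
    have h1 : (((Kz ^ N).coeff x : ℤ) : ℂ)
        = (MonoidAlgebra.mapRingHom G (Int.castRingHom ℂ) (Kz ^ N)).coeff x := by
      rw [MonoidAlgebra.coeff_mapRingHom]
      rfl
    rw [h1, map_pow, hC, ← zOf_pow, zOf_coeff]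
    exact hcoef x
  have hF : MonoidAlgebra.mapRingHom G (Int.castRingHom F) Kz
      = ∑ᶠ x ∈ ConjClasses.carrier (ConjClasses.mk g), MonoidAlgebra.single x (1 : F) := by
    rw [finsum_mem_eq_finite_toFinset_sum _ (Set.toFinite _), hKz, map_sum]
    have hs : (Set.toFinite (ConjClasses.carrier (ConjClasses.mk g))).toFinset
        = Finset.univ.filter (fun x : G => IsConj g x) := by
      ext x
      rw [Set.Finite.mem_toFinset, Finset.mem_filter, ConjClasses.mem_carrier_iff_mk_eq,
        ConjClasses.mk_eq_mk_iff_isConj]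
      constructor
      · intro h
        exact ⟨Finset.mem_univ _, h.symm⟩
      · intro h
        exact h.2.symm
    rw [hs]
    apply Finset.sum_congr rfl
    intro x _
    rw [MonoidAlgebra.mapRingHom_single]
    simp
  rw [← hF]
  refine ⟨N, ?_⟩
  rw [← map_pow]
  apply MonoidAlgebra.coeff_injective
  ext x
  rw [MonoidAlgebra.coeff_mapRingHom]
  obtain ⟨k, hk⟩ := hdiv x
  rw [hk]
  simp [CharP.cast_eq_zero F p]

end Cfsg.Agent.S0905
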