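import Mathlib
import Cfsg.Agent.Lib.helper5.BlockIdem
import Cfsg.Statements.S0906

set_option autoImplicit false
open scoped ComplexConjugate

namespace Cfsg.Agent.S0906

open Cfsg.Agent.Lib.helper5 Cfsg.Agent.Lib.helper23 Cfsg.Agent.Lib.helper24

/-- Let B be a block of the finite group G relative to a maximal ideal M of the algebraic integers containing the prime p. Then some element g represents a defect class of B: the idempotent coefficient of B at g is a local integer not in the local ideal at M, and the central characters of the members of B at g are not in the local ideal. -/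
theorem result {G : Type*} [Group G] [Finite G] (p : ℕ) [Fact p.Prime] (M : Ideal Cfsg.AlgInt) (hM : Cfsg.IsPModular p M) (B : Set (Cfsg.IrrCharacter G)) (hB : Cfsg.IsPBlock M B) : ∃ g : G, Cfsg.IsDefectClass M B g := by
  classical
  have := Fintype.ofFinite G
  have := Fintype.ofFinite (Cfsg.IrrCharacter G)
  have hMp := isPModular_isPrime hM
  obtain ⟨χ₀, rfl⟩ := hB
  have ha := indicator_mem_osimaRing (G := G) hMp χ₀
  have h0 : χ₀ ∈ Cfsg.blockOf M χ₀.1 := mem_blockOf_self hMp.ne_top χ₀
  have h1 := coord_eq_sum_conjClasses ((Cfsg.blockOf M χ₀.1).indicator (fun _ => (1:ℂ))) χ₀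
  rw [Set.indicator_of_mem h0] at h1
  have hex : ∃ c : ConjClasses G, ¬ Cfsg.MemLocalIdeal M
      (coef ((Cfsg.blockOf M χ₀.1).indicator (fun _ => (1:ℂ))) (Quotient.out c)
        * Cfsg.centralChar χ₀.1 (Quotient.out c)) := by
    by_contra hcon
    have hall : ∀ c : ConjClasses G, Cfsg.MemLocalIdeal M
      (coef ((Cfsg.blockOf M χ₀.1).indicator (fun _ => (1:ℂ))) (Quotient.out c)
        * Cfsg.centralChar χ₀.1 (Quotient.out c)) := by
      intro c
      by_contra hc
      exact hcon ⟨c, hc⟩
    have := memLocalIdeal_sum hMp Finset.univ _ (fun c _ => hall c)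
    rw [← h1] at this
    exact not_memLocalIdeal_one hMp this
  obtain ⟨c, hc⟩ := hex
  refine ⟨Quotient.out c, ?_, ?_, ?_⟩
  · rw [← coef_indicator]
    exact ha _
  · intro h
    apply hc
    rw [coef_indicator]
    exact memLocalIdeal_mul_right hMp h (memLocalRing_centralChar hMp χ₀ _)
  · intro χ hχ h
    apply hc
    have h2 : Cfsg.MemLocalIdeal M (Cfsg.centralChar χ₀.1 (Quotient.out c)) := by
      have := memLocalIdeal_add hMp (hχ (Quotient.out c)) h
      rwa [sub_add_cancel] at this
    exact memLocalIdeal_mul_left hMp (ha _) h2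

end Cfsg.Agent.S0906
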