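import Mathlib
import Cfsg.Agent.Lib.helper5.BlockIdem
import Cfsg.Statements.S0909

set_option autoImplicit false
open scoped ComplexConjugate

namespace Cfsg.Agent.S0909

open Cfsg.Agent.Lib.helper5 Cfsg.Agent.Lib.helper23 Cfsg.Agent.Lib.helper24

/-- Let A be a set of irreducible characters of the finite group G such that, for every g, the inverse of the group order times the sum over χ ∈ A of χ 1 * conj (χ g) is a local integer at the maximal ideal M (containing the prime p) of the algebraic integers. Then A is a union of blocks relative to M: it contains the whole block of each of its members. -/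
theorem result {G : Type*} [Group G] [Finite G] (p : ℕ) [Fact p.Prime] (M : Ideal Cfsg.AlgInt) (hM : Cfsg.IsPModular p M) (A : Set (Cfsg.IrrCharacter G)) (hA : ∀ g : G, Cfsg.MemLocalRing M (Cfsg.blockCoeff A g)) (χ : Cfsg.IrrCharacter G) (hχ : χ ∈ A) : Cfsg.blockOf M (χ : G → ℂ) ⊆ A := by
  classical
  have := Fintype.ofFinite G
  have := Fintype.ofFinite (Cfsg.IrrCharacter G)
  have hMp := isPModular_isPrime hM
  intro ψ hψ
  by_contra hn
  have ha : A.indicator (fun _ => (1:ℂ)) ∈ osimaRing G M hMp := by
    intro g
    rw [coef_indicator]
    exact hA g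
  have h := memLocalIdeal_coord_sub hMp ha (χ := χ) (ψ := ψ) hψ
  rw [Set.indicator_of_mem hχ, Set.indicator_of_notMem hn, sub_zero] at h
  exact not_memLocalIdeal_one hMp h

end Cfsg.Agent.S0909
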