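import Mathlib
import Cfsg.Agent.Lib.helper5.BlockOrth
import Cfsg.Agent.Lib.helper23.BurnsideSimple
import Cfsg.Agent.Lib.helper23.GenBurnside
import Cfsg.Agent.Lib.helper23.RepScalar
import Cfsg.Agent.S0873
import Cfsg.Statements.S0910

set_option autoImplicit false
open scoped ComplexConjugate

namespace Cfsg.Agent.S0910

open Cfsg.Agent.Lib.helper5 Cfsg.Agent.Lib.helper23 Cfsg.Agent.Lib.helper24

/-- Let G be a non-abelian finite simple group and p a prime. If an irreducible character χ lies in the principal block (relative to a maximal ideal of the algebraic integers containing p) and χ 1 is a power of p, then χ is the principal character. -/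
theorem result {G : Type*} [Group G] [Finite G] (p : ℕ) [Fact p.Prime] (M : Ideal Cfsg.AlgInt) (hM : Cfsg.IsPModular p M) [IsSimpleGroup G] (hna : ∃ a b : G, a * b ≠ b * a) (χ : Cfsg.IrrCharacter G) (hχ : χ ∈ Cfsg.principalBlock M G) (k : ℕ) (hdeg : (χ : G → ℂ) 1 = (p : ℂ) ^ k) : (χ : G → ℂ) = fun _ => 1 := by
  classical
  have := Fintype.ofFinite G
  have hMp := isPModular_isPrime hM
  have hp := hM.1
  by_contra hne
  have hχne : χ ≠ trivIrr G := by
    intro h
    apply hne
    rw [h]
    rfl
  obtain ⟨n, ρ, hirr, hρ⟩ := χ.2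
  have := hirr
  have hker := irr_rep_ker_eq_bot_of_simple χ hχne n ρ hirr hρ
  have hinj : Function.Injective (ρ : G →* Module.End ℂ (Fin n → ℂ)) :=
    (MonoidHom.ker_eq_bot_iff _).mp hker
  have hfin : Module.finrank ℂ (Fin n → ℂ) = n := Module.finrank_fin_fun ℂ
  have hn : n = p ^ k := by
    have h1 : ρ.character 1 = (n : ℂ) := rep_char_one n ρ
    rw [hρ, hdeg] at h1
    exact_mod_cast h1.symm
  obtain ⟨a, b, hab⟩ := hna
  have hcenter : Subgroup.center G = ⊥ := by
    rcases IsSimpleGroup.eq_bot_or_eq_top_of_normal (Subgroup.center G) inferInstance with h | h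
    · exact h
    · exfalso
      apply hab
      have hb : b ∈ Subgroup.center G := by rw [h]; trivial
      exact (Subgroup.mem_center_iff.mp hb a)
  rcases Nat.eq_zero_or_pos k with hk | hk
  · subst hk
    rw [pow_zero] at hn
    have hmul := Cfsg.Agent.S0873.linChar_mul χ.1 (isIrrCharacter_isCharacter χ.2)
      (by rw [hdeg, pow_zero])
    apply hab
    have hg : ρ.character (a * b * a⁻¹ * b⁻¹) = (Module.finrank ℂ (Fin n → ℂ) : ℂ) := by
      have hf1 : (Module.finrank ℂ (Fin n → ℂ) : ℂ) = 1 := by
        rw [hfin]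
        exact_mod_cast hn
      rw [hf1, hρ, hmul, hmul, hmul]
      have h1 : χ.1 a * χ.1 a⁻¹ = 1 := by rw [← hmul, mul_inv_cancel, hdeg, pow_zero]
      have h2 : χ.1 b * χ.1 b⁻¹ = 1 := by rw [← hmul, mul_inv_cancel, hdeg, pow_zero]
      linear_combination (χ.1 b * χ.1 b⁻¹) * h1 + h2
    have h3 := genrep_eq_one_of_char_eq ρ _ (isOfFinOrder_of_finite _) hg
    have h4 : a * b * a⁻¹ * b⁻¹ = 1 := hinj (by rw [map_one]; exact h3)
    calc a * b = (a * b * a⁻¹ * b⁻¹) * (b * a) := by group
      _ = b * a := by rw [h4, one_mul]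
  · obtain ⟨P⟩ : Nonempty (Sylow p G) := inferInstance
    have hpdvd : p ∣ Nat.card G := by
      have h2 := genrep_finrank_dvd_card ρ
      rw [hfin, hn] at h2
      exact dvd_trans (dvd_pow_self p hk.ne') h2
    have hPnt : Nontrivial (P : Subgroup G) := by
      have hcard := Sylow.card_eq_multiplicity P
      have hpos : 0 < (Nat.card G).factorization p :=
        hp.factorization_pos_of_dvd Nat.card_pos.ne' hpdvd
      rw [← Finite.one_lt_card_iff_nontrivial, hcard]
      exact Nat.one_lt_pow hpos.ne' hp.one_lt
    have hcnt := IsPGroup.center_nontrivial (P.isPGroup')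
    obtain ⟨⟨z, hz⟩, hz1⟩ := exists_ne (1 : Subgroup.center (P : Subgroup G))
    have hzG1 : (z : G) ≠ 1 := by
      intro h
      apply hz1
      apply Subtype.ext
      apply Subtype.ext
      exact h
    have hPle : (P : Subgroup G) ≤ Subgroup.centralizer ({(z : G)} : Set G) := by
      intro w hw
      rw [Subgroup.mem_centralizer_iff]
      intro y hy
      rw [Set.mem_singleton_iff] at hy
      subst hy
      have h1 := Subgroup.mem_center_iff.mp hz ⟨w, hw⟩
      exact (congrArg Subtype.val h1).symm
    have hidx : ¬ p ∣ (Subgroup.centralizer ({(z : G)} : Set G)).index := by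
      intro hdiv
      have h1 : Nat.card (P : Subgroup G) ∣ Nat.card (Subgroup.centralizer ({(z : G)} : Set G)) :=
        Subgroup.card_dvd_of_le hPle
      have h2 := Subgroup.index_mul_card (Subgroup.centralizer ({(z : G)} : Set G))
      have h3 : p ^ ((Nat.card G).factorization p + 1) ∣ Nat.card G := by
        have h4 : p * Nat.card (P : Subgroup G) ∣ Nat.card G := by
          rw [← h2]
          exact mul_dvd_mul hdiv h1
        rw [pow_succ, mul_comm, ← Sylow.card_eq_multiplicity P]
        exact h4
      exact Nat.pow_succ_factorization_not_dvd Nat.card_pos.ne' hp h3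
    have hcop : Nat.Coprime (Module.finrank ℂ (Fin n → ℂ))
        (Subgroup.centralizer ({(z : G)} : Set G)).index := by
      rw [hfin, hn]
      exact Nat.Coprime.pow_left k ((Nat.Prime.coprime_iff_not_dvd hp).mpr hidx)
    rcases genrep_coprime_zero_or_norm ρ (z : G) hcop with h0 | hnorm
    · have h1 := (mem_principalBlock_iff M χ).mp hχ (z : G)
      have h2 : Cfsg.centralChar χ.1 (z : G) = 0 := by
        unfold Cfsg.centralChar
        rw [← hρ, h0]
        simp
      rw [h2, sub_zero, memLocalIdeal_natCast_iff hM] at h1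
      exact hidx h1
    · obtain ⟨ω, hω⟩ := genrep_scalar_of_norm_eq ρ (z : G) (isOfFinOrder_of_finite _) hnorm
      have hzc : (z : G) ∈ Subgroup.center G := by
        rw [Subgroup.mem_center_iff]
        intro g
        apply hinj
        show ρ (g * (z : G)) = ρ ((z : G) * g)
        rw [map_mul, map_mul, hω]
        ext v
        simp
      rw [hcenter, Subgroup.mem_bot] at hzc
      exact hzG1 hzc

end Cfsg.Agent.S0910
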