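import Mathlib
import Cfsg.Agent.Lib.helper5.BlockDefect
import Cfsg.Statements.S0911

set_option autoImplicit false
open scoped ComplexConjugate

namespace Cfsg.Agent.S0911

open Cfsg.Agent.Lib.helper5 Cfsg.Agent.Lib.helper23 Cfsg.Agent.Lib.helper24

/-- The min–max Theorem for defect classes. Let B be a block of the finite group G relative to a maximal ideal M of the algebraic integers containing the prime p, let g represent a defect class of B and let D be a Sylow p-subgroup of the centralizer of g (viewed in G). For any h: (a) if the idempotent coefficient of B at h is a local integer outside the local ideal, then some conjugate of D contains a Sylow p-subgroup of the centralizer of h; (b) if the central character of some member of B at h is outside the local ideal, then some conjugate of D is contained in a Sylow p-subgroup of the centralizer of h. -/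
theorem result {G : Type*} [Group G] [Finite G] (p : ℕ) [Fact p.Prime] (M : Ideal Cfsg.AlgInt) (hM : Cfsg.IsPModular p M) (B : Set (Cfsg.IrrCharacter G)) (hB : Cfsg.IsPBlock M B) (g : G) (hg : Cfsg.IsDefectClass M B g) (D : Sylow p (Subgroup.centralizer ({g} : Set G))) (h : G) : (Cfsg.MemLocalRing M (Cfsg.blockCoeff B h) → ¬ Cfsg.MemLocalIdeal M (Cfsg.blockCoeff B h) → ∃ (x : G) (Q : Sylow p (Subgroup.centralizer ({h} : Set G))), (Q : Subgroup (Subgroup.centralizer ({h} : Set G))).map (Subgroup.centralizer ({h} : Set G)).subtype ≤ ((D : Subgroup (Subgroup.centralizer ({g} : Set G))).map (Subgroup.centralizer ({g} : Set G)).subtype).map (MulAut.conj x).toMonoidHom) ∧ ((∃ χ ∈ B, ¬ Cfsg.MemLocalIdeal M (Cfsg.centralChar (χ : G → ℂ) h)) → ∃ (x : G) (Q : Sylow p (Subgroup.centralizer ({h} : Set G))), ((D : Subgroup (Subgroup.centralizer ({g} : Set G))).map (Subgroup.centralizer ({g} : Set G)).subtype).map (MulAut.conj x).toMonoidHom ≤ (Q : Subgroup (Subgroup.centralizer ({h} : Set G))).map (Subgroup.centralizer ({h} : Set G)).subtype)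 := by
  classical
  have := Fintype.ofFinite G
  have := Fintype.ofFinite (Cfsg.IrrCharacter G)
  have hMp := isPModular_isPrime hM
  obtain ⟨χ₀, rfl⟩ := hB
  have h0 : χ₀ ∈ Cfsg.blockOf M χ₀.1 := mem_blockOf_self hMp.ne_top χ₀
  obtain ⟨Q⟩ : Nonempty (Sylow p (Subgroup.centralizer ({h} : Set G))) := inferInstance
  constructor
  · intro _ hcoef
    obtain ⟨x, hx⟩ := key_sylow hM χ₀ g h (hg.2.2 χ₀ h0) hcoef D Q
    exact ⟨x, Q, hx⟩
  · rintro ⟨χ, hχ, hω⟩
    have hBe := blockOf_eq_of_mem hMp hχ
    have hv : ¬ Cfsg.MemLocalIdeal M (Cfsg.blockCoeff (Cfsg.blockOf M χ.1) g) := by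
      rw [hBe]
      exact hg.2.1
    obtain ⟨x, hx⟩ := key_sylow hM χ h g hω hv Q D
    refine ⟨x⁻¹, Q, ?_⟩
    rw [map_conj_le_iff, inv_inv]
    exact hx

end Cfsg.Agent.S0911
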