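import Mathlib
import Cfsg.Agent.Lib.helper5.BlockInduce
import Cfsg.Statements.S0918

set_option autoImplicit false
open scoped ComplexConjugate

namespace Cfsg.Agent.S0918

open Cfsg.Agent.Lib.helper5 Cfsg.Agent.Lib.helper23 Cfsg.Agent.Lib.helper24

/-- Let P be a p-subgroup of the finite group G and H a subgroup with P·C_G(P) ≤ H ≤ N_G(P); let b be a block of H and B a block of G relative to a maximal ideal M of the algebraic integers containing p. Then b induces B if and only if, for every g ∈ G, every ξ ∈ b and every χ ∈ B, the central character of χ at g is congruent modulo the local ideal at M to the sum of ξ h / ξ 1 over the elements h of H conjugate in G to g and centralizing P. -/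
theorem result {G : Type*} [Group G] [Finite G] (p : ℕ) [Fact p.Prime] (M : Ideal Cfsg.AlgInt) (hM : Cfsg.IsPModular p M) (P H : Subgroup G) (hP : IsPGroup p P) (hPH : P ≤ H) (hCH : Subgroup.centralizer (P : Set G) ≤ H) (hHN : H ≤ Subgroup.normalizer (P : Set G)) (b : Set (Cfsg.IrrCharacter H)) (hb : Cfsg.IsPBlock M b) (B : Set (Cfsg.IrrCharacter G)) (hB : Cfsg.IsPBlock M B) : Cfsg.IsInducedBlock M H b B ↔ ∀ ξ ∈ b, ∀ χ ∈ B, ∀ g : G, Cfsg.MemLocalIdeal M (Cfsg.brauerCentralChar P H (ξ : H → ℂ) g - Cfsg.centralChar (χ : G → ℂ) g) := by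
  classical
  have := Fintype.ofFinite G
  have := Fintype.ofFinite (Cfsg.IrrCharacter G)
  have := Fintype.ofFinite H
  have := Fintype.ofFinite (Cfsg.IrrCharacter H)
  have hMp := isPModular_isPrime hM
  have key := fun (ξ : Cfsg.IrrCharacter H) (g : G) =>
    memLocalIdeal_induced_sub_brauer H hM P hP hPH hHN ξ g
  constructor
  · rintro ⟨_, _, h⟩ ξ hξ χ hχ g
    have := memLocalIdeal_sub hMp (h ξ hξ χ hχ g) (key ξ g)
    have e : Cfsg.inducedCentralChar H ξ.1 g - Cfsg.centralChar χ.1 g
        - (Cfsg.inducedCentralChar H ξ.1 g - Cfsg.brauerCentralChar P H ξ.1 g)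
        = Cfsg.brauerCentralChar P H ξ.1 g - Cfsg.centralChar χ.1 g := by ring
    rwa [e] at this
  · intro h
    refine ⟨hb, hB, fun ξ hξ χ hχ g => ?_⟩
    have := memLocalIdeal_add hMp (h ξ hξ χ hχ g) (key ξ g)
    have e : Cfsg.brauerCentralChar P H ξ.1 g - Cfsg.centralChar χ.1 g
        + (Cfsg.inducedCentralChar H ξ.1 g - Cfsg.brauerCentralChar P H ξ.1 g)
        = Cfsg.inducedCentralChar H ξ.1 g - Cfsg.centralChar χ.1 g := by ring
    rwa [e] at this

end Cfsg.Agent.S0918
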