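import Mathlib
import Cfsg.Agent.Lib.helper5.BlockSecond2
import Cfsg.Statements.S0923

set_option autoImplicit false
open scoped ComplexConjugate

namespace Cfsg.Agent.S0923

open Cfsg.Agent.Lib.helper5 Cfsg.Agent.Lib.helper23 Cfsg.Agent.Lib.helper24

/-- Brauer's Second Main Theorem, in terms of ordinary characters. Let x be a p-element of the finite group G with centralizer C, let χ lie in the block B of G and let b be a block of C that does not induce B (relative to a maximal ideal M of the algebraic integers containing p). Form the class function ϑ(c) = χ(x c) on C and its b-part (the sum over ψ ∈ b of the inner product of ϑ with ψ, times ψ). Then the b-part of ϑ vanishes at every p-regular element of C. (Equivalently, the generalized decomposition numbers of χ with respect to b are zero.) -/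
theorem result {G : Type*} [Group G] [Finite G] (p : ℕ) [Fact p.Prime] (M : Ideal Cfsg.AlgInt) (hM : Cfsg.IsPModular p M) (x : G) (hx : ∃ k : ℕ, orderOf x = p ^ k) (B : Set (Cfsg.IrrCharacter G)) (hB : Cfsg.IsPBlock M B) (χ : Cfsg.IrrCharacter G) (hχ : χ ∈ B) (b : Set (Cfsg.IrrCharacter (Subgroup.centralizer ({x} : Set G)))) (hb : Cfsg.IsPBlock M b) (hnot : ¬ Cfsg.IsInducedBlock M (Subgroup.centralizer ({x} : Set G)) b B) (y : Subgroup.centralizer ({x} : Set G)) (hy : ¬ p ∣ orderOf y) : Cfsg.blockPart b (fun c : Subgroup.centralizer ({x} : Set G) => (χ : G → ℂ) (x * (c : G))) y = 0 := by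
  classical
  have := Fintype.ofFinite G
  have := Fintype.ofFinite (Cfsg.IrrCharacter G)
  have := Fintype.ofFinite (Subgroup.centralizer ({x} : Set G))
  have := Fintype.ofFinite (Cfsg.IrrCharacter (Subgroup.centralizer ({x} : Set G)))
  have hMp := isPModular_isPrime hM
  have hcomm : ∀ c : Subgroup.centralizer ({x} : Set G), (c : G) * x = x * (c : G) :=
    fun c => Subgroup.mem_centralizer_singleton_iff.mp c.2
  have hF : Cfsg.IsClassFunction (Subgroup.centralizer ({x} : Set G))
      (fun c : Subgroup.centralizer ({x} : Set G) => (χ : G → ℂ) (x * (c : G))) := by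
    intro g h
    show χ.1 (x * ((h * g * h⁻¹ : Subgroup.centralizer ({x} : Set G)) : G)) = χ.1 (x * (g : G))
    have e : x * ((h * g * h⁻¹ : Subgroup.centralizer ({x} : Set G)) : G)
        = (h : G) * (x * (g : G)) * (h : G)⁻¹ := by
      push_cast
      rw [← mul_assoc, ← mul_assoc, ← mul_assoc, hcomm h]
    rw [e, isClassFunction_irr χ]
  rw [blockPart_eq_sum b hF y]
  obtain ⟨B₁, hind⟩ := inducedBlockDefined_centralizer hM hx b hb
  have hχ₁ : χ ∉ B₁ := by
    intro hmem
    apply hnot
    obtain ⟨χa, hBa⟩ := hB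
    obtain ⟨χb, hBb⟩ := hind.2.1
    have h1 : Cfsg.blockOf M χ.1 = B := by
      rw [hBa] at hχ ⊢
      exact blockOf_eq_of_mem hMp hχ
    have h2 : Cfsg.blockOf M χ.1 = B₁ := by
      rw [hBb] at hmem ⊢
      exact blockOf_eq_of_mem hMp hmem
    rw [← h1, h2]
    exact hind
  have hxy : Cfsg.IsPPart p
      (((⟨x, self_mem_centralizer_singleton x⟩ * y : Subgroup.centralizer ({x} : Set G))) : G) x := by
    have hc : Commute x (y : G) := (hcomm y).symm
    exact isPPart_mul hc hx (by rw [Subgroup.orderOf_coe]; exact hy)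
  have h1 := second_main_core (Subgroup.centralizer ({x} : Set G)) hM hind
    (⟨x, self_mem_centralizer_singleton x⟩ * y) x hxy le_rfl χ hχ₁
  rw [← h1]
  apply Finset.sum_congr rfl
  intro k _
  congr 1
  show χ.1 (x * ((k * y : Subgroup.centralizer ({x} : Set G)) : G))
    = χ.1 ((k : G) * ((⟨x, self_mem_centralizer_singleton x⟩ * y : Subgroup.centralizer ({x} : Set G)) : G))
  congr 1
  push_cast
  rw [← mul_assoc, ← mul_assoc, hcomm k]

end Cfsg.Agent.S0923
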