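import Mathlib
import Cfsg.Agent.Lib.helper5.BlockSecond2
import Cfsg.Statements.S0924

set_option autoImplicit false
open scoped ComplexConjugate

namespace Cfsg.Agent.S0924

open Cfsg.Agent.Lib.helper5 Cfsg.Agent.Lib.helper23 Cfsg.Agent.Lib.helper24

/-- Let χ be an irreducible character of the finite group G and g ∈ G, and fix a maximal ideal M of the algebraic integers containing the prime p. If the p-part of g is contained in no defect group of the block of χ, then χ g = 0. -/
theorem result {G : Type*} [Group G] [Finite G] (p : ℕ) [Fact p.Prime] (M : Ideal Cfsg.AlgInt) (hM : Cfsg.IsPModular p M) (χ : Cfsg.IrrCharacter G) (g x : G) (hx : Cfsg.IsPPart p g x) (hD : ∀ D : Subgroup G, Cfsg.IsDefectGroup p M (Cfsg.blockOf M (χ : G → ℂ)) D → x ∉ D) : (χ : G → ℂ) g = 0 := by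
  classical
  have := Fintype.ofFinite G
  have := Fintype.ofFinite (Cfsg.IrrCharacter G)
  have := Fintype.ofFinite (Subgroup.centralizer ({x} : Set G))
  have := Fintype.ofFinite (Cfsg.IrrCharacter (Subgroup.centralizer ({x} : Set G)))
  have hMp := isPModular_isPrime hM
  have hxp : ∃ k : ℕ, orderOf x = p ^ k := by
    obtain ⟨y, -, -, hxk, -⟩ := hx
    exact hxk
  have hgC : g ∈ Subgroup.centralizer ({x} : Set G) := isPPart_mem_centralizer hx
  have hw : ∀ ξ : Cfsg.IrrCharacter (Subgroup.centralizer ({x} : Set G)),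
      (1 : Cfsg.IrrCharacter (Subgroup.centralizer ({x} : Set G)) → ℂ) ξ ≠ 0 →
      ∃ B : Set (Cfsg.IrrCharacter G),
        Cfsg.IsInducedBlock M (Subgroup.centralizer ({x} : Set G)) (Cfsg.blockOf M ξ.1) B ∧ χ ∉ B := by
    intro ξ _
    obtain ⟨B₁, hind⟩ := inducedBlockDefined_centralizer hM hxp (Cfsg.blockOf M ξ.1) ⟨ξ, rfl⟩
    refine ⟨B₁, hind, ?_⟩
    intro hmem
    obtain ⟨χb, hBb⟩ := hind.2.1
    have h2 : Cfsg.blockOf M χ.1 = B₁ := by
      rw [hBb] at hmem ⊢
      exact blockOf_eq_of_mem hMp hmem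
    obtain ⟨Db, hDb⟩ := exists_defectGroup (p := p) hMp ξ
    obtain ⟨E, hE, hle⟩ := Cfsg.Agent.S0917.result p M hM (Subgroup.centralizer ({x} : Set G))
      (Cfsg.blockOf M ξ.1) ⟨ξ, rfl⟩ B₁ hind.2.1 hind Db hDb
    have hcore := Cfsg.Agent.S0912.result p M hM (Cfsg.blockOf M ξ.1) ⟨ξ, rfl⟩ Db hDb
    apply hD E (by rw [h2]; exact hE)
    apply hle
    rw [Subgroup.mem_map]
    refine ⟨⟨x, self_mem_centralizer_singleton x⟩, hcore ?_, rfl⟩
    have hnorm : (Subgroup.zpowers
        (⟨x, self_mem_centralizer_singleton x⟩ : Subgroup.centralizer ({x} : Set G))).Normal := by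
      constructor
      intro n hn c
      obtain ⟨k, rfl⟩ := Subgroup.mem_zpowers_iff.mp hn
      have hc : Commute c (⟨x, self_mem_centralizer_singleton x⟩ : Subgroup.centralizer ({x} : Set G)) := by
        apply Subtype.ext
        exact Subgroup.mem_centralizer_singleton_iff.mp c.2
      have e : c * (⟨x, self_mem_centralizer_singleton x⟩ : Subgroup.centralizer ({x} : Set G)) ^ k * c⁻¹
          = (⟨x, self_mem_centralizer_singleton x⟩ : Subgroup.centralizer ({x} : Set G)) ^ k := by
        rw [(hc.zpow_right k).eq, mul_inv_cancel_right]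
      rw [e]
      exact Subgroup.zpow_mem _ (Subgroup.mem_zpowers _) k
    have hpg : IsPGroup p (Subgroup.zpowers
        (⟨x, self_mem_centralizer_singleton x⟩ : Subgroup.centralizer ({x} : Set G))) := by
      apply isPGroup_zpowers
      rw [Subgroup.orderOf_mk]
      exact hxp
    have hN : Subgroup.zpowers
        (⟨x, self_mem_centralizer_singleton x⟩ : Subgroup.centralizer ({x} : Set G))
        ≤ Cfsg.pCore p (Subgroup.centralizer ({x} : Set G)) := le_sSup ⟨hnorm, hpg⟩
    exact hN (Subgroup.mem_zpowers _)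
  have h1 := second_main_gen (Subgroup.centralizer ({x} : Set G)) hM 1 (Subring.one_mem _)
    (one_mul 1) ⟨g, hgC⟩ x hx le_rfl χ hw
  simp only [coef_one] at h1
  rw [Finset.sum_eq_single 1] at h1
  · simpa using h1
  · intro k _ hk
    rw [if_neg hk, zero_mul]
  · intro h
    exact absurd (Finset.mem_univ _) h

end Cfsg.Agent.S0924
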