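import Mathlib
import Cfsg.Agent.Lib.helper5.CharCongr
import Cfsg.Statements.S0927

set_option autoImplicit false
open scoped ComplexConjugate

namespace Cfsg.Agent.S0927

open Cfsg.Agent.Lib.helper5 Cfsg.Agent.Lib.helper23 Cfsg.Agent.Lib.helper24

/-- Let B be a block of the finite group G relative to a maximal ideal M of the algebraic integers containing p, let y represent a defect class of B and let P be a Sylow p-subgroup of the centralizer of y. (a) If x ∈ P and χ ∈ B has height zero, then χ (x * y) is not in the local ideal at M. (b) If x lies in the centre of P, then for every χ ∈ B the central character of χ at x * y is not in the local ideal at M. -/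
theorem result {G : Type*} [Group G] [Finite G] (p : ℕ) [Fact p.Prime] (M : Ideal Cfsg.AlgInt) (hM : Cfsg.IsPModular p M) (B : Set (Cfsg.IrrCharacter G)) (hB : Cfsg.IsPBlock M B) (y : G) (hy : Cfsg.IsDefectClass M B y) (P : Sylow p (Subgroup.centralizer ({y} : Set G))) (x : Subgroup.centralizer ({y} : Set G)) (hx : x ∈ (P : Subgroup (Subgroup.centralizer ({y} : Set G)))) : (∀ χ ∈ B, Cfsg.blockHeight p B (χ : G → ℂ) = 0 → ¬ Cfsg.MemLocalIdeal M ((χ : G → ℂ) ((x : G) * y))) ∧ ((∀ w ∈ (P : Subgroup (Subgroup.centralizer ({y} : Set G))), x * w = w * x) → ∀ χ ∈ B, ¬ Cfsg.MemLocalIdeal M (Cfsg.centralChar (χ : G → ℂ) ((x : G) * y))) := by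
  classical
  have := Fintype.ofFinite G
  have := Fintype.ofFinite (Cfsg.IrrCharacter G)
  have hMp := isPModular_isPrime hM
  have hp : p.Prime := hM.1
  obtain ⟨χ₀, rfl⟩ := hB
  -- x is a p-element commuting with y
  obtain ⟨j, hj⟩ := P.isPGroup' ⟨x, hx⟩
  have hxj : (x : G) ^ (p ^ j) = 1 := by
    have h1 := congrArg (fun z : (P : Subgroup (Subgroup.centralizer ({y} : Set G))) =>
      ((z : Subgroup.centralizer ({y} : Set G)) : G)) hj
    simpa using h1
  have hcomm : Commute (x : G) y := Subgroup.mem_centralizer_singleton_iff.mp x.2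
  have hidx : ∀ g : G, (Subgroup.centralizer ({g} : Set G)).index ≠ 0 := fun g =>
    Subgroup.index_ne_zero_of_finite
  have hfac : ∀ g : G, ((Subgroup.centralizer ({g} : Set G)).index).factorization p
      + (Nat.card (Subgroup.centralizer ({g} : Set G))).factorization p
      = (Nat.card G).factorization p := by
    intro g
    rw [← Subgroup.index_mul_card (Subgroup.centralizer ({g} : Set G)),
      Nat.factorization_mul (hidx g) Nat.card_pos.ne', Finsupp.add_apply]
  -- part (a)
  have hA : ∀ χ ∈ Cfsg.blockOf M χ₀.1, Cfsg.blockHeight p (Cfsg.blockOf M χ₀.1) χ.1 = 0 →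
      ¬ Cfsg.MemLocalIdeal M (χ.1 ((x : G) * y)) := by
    intro χ hχ h0 hmem
    have h1 := char_mul_pElement_sub hM (isCharacter_irr χ) hcomm j hxj
    have h2 : Cfsg.MemLocalIdeal M (χ.1 y) := by
      have := memLocalIdeal_sub hMp hmem h1
      simpa using this
    obtain ⟨χ', hχ', hle⟩ := exists_degree_le hM χ₀ y hy
    have h3 : (Cfsg.charDegree χ.1).factorization p
        ≤ ((Subgroup.centralizer ({y} : Set G)).index).factorization p := by
      unfold Cfsg.blockHeight at h0
      have h5 := Nat.sub_eq_zero_iff_le.mp h0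
      have h6 : sInf ((fun ψ : Cfsg.IrrCharacter G => (Cfsg.charDegree ψ.1).factorization p) ''
          Cfsg.blockOf M χ₀.1) ≤ (Cfsg.charDegree χ'.1).factorization p :=
        Nat.sInf_le (Set.mem_image_of_mem _ hχ')
      exact h5.trans (h6.trans hle)
    have h4 := memLocalRing_natCast_div hM (hidx y) (charDegree_pos χ).ne' h3
    apply hy.2.2 χ hχ
    have e : Cfsg.centralChar χ.1 y
        = (((Subgroup.centralizer ({y} : Set G)).index : ℂ) / (Cfsg.charDegree χ.1 : ℂ)) * χ.1 y := by
      unfold Cfsg.centralChar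
      rw [charDegree_cast]
      ring
    rw [e]
    exact memLocalIdeal_mul_left hMp h4 h2
  refine ⟨hA, ?_⟩
  intro hcent χ hχ
  have hne : ((fun χ : Cfsg.IrrCharacter G => (Cfsg.charDegree χ.1).factorization p) ''
      Cfsg.blockOf M χ₀.1).Nonempty := ⟨_, χ₀, mem_blockOf_self hMp.ne_top χ₀, rfl⟩
  obtain ⟨χ₁, hχ₁, hmin⟩ := Nat.sInf_mem hne
  have h0 : Cfsg.blockHeight p (Cfsg.blockOf M χ₀.1) χ₁.1 = 0 := by
    unfold Cfsg.blockHeight
    exact Nat.sub_eq_zero_of_le (le_of_eq hmin)
  have hχ₁xy := hA χ₁ hχ₁ h0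
  have hω₁ : ¬ Cfsg.MemLocalIdeal M (Cfsg.centralChar χ₁.1 ((x : G) * y)) := by
    intro hmem
    apply hχ₁xy
    have hle1 := factorization_index_le_degree hM χ₁ y (hy.2.2 χ₁ hχ₁)
    have hPle : (P : Subgroup (Subgroup.centralizer ({y} : Set G))).map
        (Subgroup.centralizer ({y} : Set G)).subtype
        ≤ Subgroup.centralizer ({(x : G) * y} : Set G) := by
      rintro _ ⟨w, hw, rfl⟩
      rw [Subgroup.mem_centralizer_singleton_iff]
      have h1 : Commute (w : G) y := Subgroup.mem_centralizer_singleton_iff.mp w.2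
      have h2 : Commute (w : G) (x : G) := by
        have := hcent w hw
        have h3 := congrArg (fun z : Subgroup.centralizer ({y} : Set G) => (z : G)) this
        exact h3.symm
      exact (h2.mul_right h1).eq
    have hdvd := Subgroup.card_dvd_of_le hPle
    rw [card_sylow_map] at hdvd
    have hle2 : (Nat.card (Subgroup.centralizer ({y} : Set G))).factorization p
        ≤ (Nat.card (Subgroup.centralizer ({(x : G) * y} : Set G))).factorization p :=
      (hp.pow_dvd_iff_le_factorization Nat.card_pos.ne').mp hdvd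
    have hle3 : ((Subgroup.centralizer ({(x : G) * y} : Set G)).index).factorization p
        ≤ (Cfsg.charDegree χ₁.1).factorization p := by
      have e1 := hfac y
      have e2 := hfac ((x : G) * y)
      omega
    have h4 := memLocalRing_natCast_div hM (charDegree_pos χ₁).ne' (hidx ((x : G) * y)) hle3
    have e : χ₁.1 ((x : G) * y)
        = ((Cfsg.charDegree χ₁.1 : ℂ) / ((Subgroup.centralizer ({(x : G) * y} : Set G)).index : ℂ))
          * Cfsg.centralChar χ₁.1 ((x : G) * y) := by
      unfold Cfsg.centralChar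
      rw [charDegree_cast]
      have h5 : ((Subgroup.centralizer ({(x : G) * y} : Set G)).index : ℂ) ≠ 0 := by
        exact_mod_cast hidx ((x : G) * y)
      have h6 := irr_one_ne_zero χ₁
      field_simp
    rw [e]
    exact memLocalIdeal_mul_left hMp h4 hmem
  intro hmem
  apply hω₁
  have hsb : Cfsg.SameBlock M χ₁.1 χ.1 := sameBlock_trans hMp (sameBlock_symm hχ₁) hχ
  have := memLocalIdeal_add hMp (hsb ((x : G) * y)) hmem
  simpa using this

end Cfsg.Agent.S0927
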