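import Mathlib
import Cfsg.Agent.Lib.helper5.BlockSecond2
import Cfsg.Agent.S0927
import Cfsg.Agent.S0924
import Cfsg.Statements.S0926

set_option autoImplicit false
open scoped ComplexConjugate

namespace Cfsg.Agent.S0926

open Cfsg.Agent.Lib.helper5 Cfsg.Agent.Lib.helper23 Cfsg.Agent.Lib.helper24

/-- Let B be a block of the finite group G with defect group D (relative to a maximal ideal M of the algebraic integers containing p), let χ ∈ B have height zero, and let x be a p-element. Then some conjugate of x lies in D if and only if χ does not vanish on the whole p-section of x (the elements whose p-part is conjugate to x). -/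
theorem result {G : Type*} [Group G] [Finite G] (p : ℕ) [Fact p.Prime] (M : Ideal Cfsg.AlgInt) (hM : Cfsg.IsPModular p M) (B : Set (Cfsg.IrrCharacter G)) (hB : Cfsg.IsPBlock M B) (D : Subgroup G) (hD : Cfsg.IsDefectGroup p M B D) (χ : Cfsg.IrrCharacter G) (hχ : χ ∈ B) (h0 : Cfsg.blockHeight p B (χ : G → ℂ) = 0) (x : G) (hx : ∃ k : ℕ, orderOf x = p ^ k) : (∃ g : G, g * x * g⁻¹ ∈ D) ↔ ∃ u : G, (∃ z : G, Cfsg.IsPPart p u z ∧ IsConj x z) ∧ (χ : G → ℂ) u ≠ 0 := by
  classical
  have := Fintype.ofFinite G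
  have := Fintype.ofFinite (Cfsg.IrrCharacter G)
  have hMp := isPModular_isPrime hM
  have hp : p.Prime := hM.1
  obtain ⟨χ₀, hB0⟩ := hB
  subst hB0
  have hBχ : Cfsg.blockOf M χ.1 = Cfsg.blockOf M χ₀.1 := blockOf_eq_of_mem hMp hχ
  constructor
  · rintro ⟨g, hg⟩
    obtain ⟨y₀, hy₀, P, rfl⟩ := hD
    obtain ⟨xC, hxC, hxCeq⟩ := Subgroup.mem_map.mp hg
    have h1 := (Cfsg.Agent.S0927.result p M hM (Cfsg.blockOf M χ₀.1) ⟨χ₀, rfl⟩ y₀ hy₀ P xC hxC).1
      χ hχ h0
    have hxCeq' : (xC : G) = g * x * g⁻¹ := hxCeq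
    refine ⟨(xC : G) * y₀, ⟨(xC : G), ?_, ?_⟩, ?_⟩
    · refine isPPart_mul (Subgroup.mem_centralizer_singleton_iff.mp xC.2) ?_ ?_
      · obtain ⟨k, hk⟩ := hx
        refine ⟨k, ?_⟩
        rw [hxCeq', ← hk]
        exact orderOf_injective (MulAut.conj g).toMonoidHom (MulAut.conj g).injective x
      · intro hdvd
        have hv := indicator_mem_osimaRing (G := G) hMp χ₀
        have hz := coef_eq_zero_of_singular hM hv (indicator_mul_self _) y₀ hdvd
        rw [coef_indicator] at hz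
        apply hy₀.2.1
        rw [hz]
        exact memLocalIdeal_zero hMp.ne_top
    · rw [isConj_iff]
      exact ⟨g, hxCeq'.symm⟩
    · intro h2
      apply h1
      rw [h2]
      exact memLocalIdeal_zero hMp.ne_top
  · rintro ⟨u, ⟨z, hz, hxz⟩, hne⟩
    have hex : ∃ D' : Subgroup G, Cfsg.IsDefectGroup p M (Cfsg.blockOf M χ.1) D' ∧ z ∈ D' := by
      by_contra hcon
      push_neg at hcon
      exact hne (Cfsg.Agent.S0924.result p M hM χ u z hz hcon)
    obtain ⟨D', hD', hzD'⟩ := hex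
    rw [hBχ] at hD'
    obtain ⟨y₀, hy₀, P, rfl⟩ := hD
    obtain ⟨y₁, hy₁, P', rfl⟩ := hD'
    obtain ⟨c, hc⟩ := key_conj hM χ₀ y₀ y₁ (hy₀.2.2 χ₀ (mem_blockOf_self hMp.ne_top χ₀)) hy₁.2.1 P
      _ (sylow_map_isPGroup _ P') (sylow_map_le _ P')
    obtain ⟨a, ha⟩ := isConj_iff.mp hxz
    refine ⟨c * a, ?_⟩
    apply hc
    rw [mem_map_conj]
    have e : c⁻¹ * (c * a * x * (c * a)⁻¹) * c = z := by
      rw [← ha]
      group
    rw [e]
    exact hzD'

end Cfsg.Agent.S0926
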