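import Mathlib
import Cfsg.Agent.Lib.helper5.BlockInd
import Cfsg.Agent.S0932
import Cfsg.Statements.S0933

set_option autoImplicit false
open scoped ComplexConjugate

namespace Cfsg.Agent.S0933

open Cfsg.Agent.Lib.helper5 Cfsg.Agent.Lib.helper23 Cfsg.Agent.Lib.helper24

/-- Let H be a subgroup of the finite group G and ξ an irreducible character of H such that the induced function ξ^G is an irreducible character of G. Then, relative to any maximal ideal M of the algebraic integers containing the prime p, the block of ξ induces the block of ξ^G. -/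
theorem result {G : Type*} [Group G] [Fintype G] (p : ℕ) [Fact p.Prime] (M : Ideal Cfsg.AlgInt) (hM : Cfsg.IsPModular p M) (H : Subgroup G) (ξ : Cfsg.IrrCharacter H) (hind : Cfsg.IsIrrCharacter G (Cfsg.indFun H (ξ : H → ℂ))) : Cfsg.IsInducedBlock M H (Cfsg.blockOf M (ξ : H → ℂ)) (Cfsg.blockOf M (Cfsg.indFun H (ξ : H → ℂ))) := by
  classical
  have hMp := isPModular_isPrime hM
  refine ⟨⟨ξ, rfl⟩, ⟨⟨Cfsg.indFun H ξ.1, hind⟩, rfl⟩, ?_⟩
  intro ξ' hξ' χ hχ g
  have h1 := memLocalIdeal_inducedCentralChar_sub hMp H ξ.1 ξ'.1 (isClassFunction_irr ξ)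
    (isClassFunction_irr ξ') hξ' g
  have h2 := Cfsg.Agent.S0932.result H ξ.1 (isCharacter_of_isIrrCharacter ξ.2) g
  have h3 : Cfsg.MemLocalIdeal M (Cfsg.centralChar (Cfsg.indFun H ξ.1) g - Cfsg.centralChar χ.1 g) :=
    hχ g
  have h4 : Cfsg.inducedCentralChar H ξ'.1 g - Cfsg.centralChar χ.1 g
      = -(Cfsg.inducedCentralChar H ξ.1 g - Cfsg.inducedCentralChar H ξ'.1 g)
        + (Cfsg.centralChar (Cfsg.indFun H ξ.1) g - Cfsg.centralChar χ.1 g) := by
    rw [h2]; ring
  rw [h4]
  exact memLocalIdeal_add hMp (memLocalIdeal_neg h1) h3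

end Cfsg.Agent.S0933
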