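import Mathlib
import Cfsg.Agent.Lib.helper5.BlockThird
import Cfsg.Statements.S0936

set_option autoImplicit false
open scoped ComplexConjugate

namespace Cfsg.Agent.S0936

open Cfsg.Agent.Lib.helper5 Cfsg.Agent.Lib.helper23 Cfsg.Agent.Lib.helper24

/-- Brauer's Third Main Theorem. Let H be a subgroup of the finite group G and b a block of H (relative to a maximal ideal M of the algebraic integers containing the prime p) whose induced block in G is defined. Then b induces the principal block of G if and only if b is the principal block of H. -/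
theorem result {G : Type*} [Group G] [Finite G] (p : ℕ) [Fact p.Prime] (M : Ideal Cfsg.AlgInt) (hM : Cfsg.IsPModular p M) (H : Subgroup G) (b : Set (Cfsg.IrrCharacter H)) (hdef : Cfsg.InducedBlockDefined M H b) : Cfsg.IsInducedBlock M H b (Cfsg.principalBlock M G) ↔ b = Cfsg.principalBlock M H := by
  classical
  have := Fintype.ofFinite G
  have := Fintype.ofFinite (Cfsg.IrrCharacter G)
  have := Fintype.ofFinite H
  have := Fintype.ofFinite (Cfsg.IrrCharacter H)
  have hMp := isPModular_isPrime hM
  have htG : trivIrr G ∈ Cfsg.principalBlock M G := mem_blockOf_self hMp.ne_top (trivIrr G)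
  have htH : trivIrr H ∈ Cfsg.principalBlock M H := mem_blockOf_self hMp.ne_top (trivIrr H)
  constructor
  · intro hind
    obtain ⟨ξ₀, hb⟩ := hind.1
    have hξ₀ : ξ₀ ∈ b := by rw [hb]; exact mem_blockOf_self hMp.ne_top ξ₀
    have h1 : ξ₀ ∈ Cfsg.principalBlock M H := (third_main_aux H hM hind hξ₀ htG).mpr htG
    rw [hb]
    exact blockOf_eq_of_mem hMp (χ₀ := trivIrr H) h1
  · intro hb
    obtain ⟨B, hind⟩ := hdef
    obtain ⟨χ₀, hB⟩ := hind.2.1
    have hχ₀ : χ₀ ∈ B := by rw [hB]; exact mem_blockOf_self hMp.ne_top χ₀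
    have h1 : χ₀ ∈ Cfsg.principalBlock M G :=
      (third_main_aux H hM hind (by rw [hb]; exact htH) hχ₀).mp htH
    have h2 : B = Cfsg.principalBlock M G := by
      rw [hB]
      exact blockOf_eq_of_mem hMp (χ₀ := trivIrr G) h1
    rw [← h2]
    exact hind

end Cfsg.Agent.S0936
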