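import Mathlib
import Cfsg.Agent.Lib.helper5.BlockQuot
import Cfsg.Agent.Lib.helper9.PPrimeCore
import Cfsg.Statements.S0939

set_option autoImplicit false
open scoped ComplexConjugate

namespace Cfsg.Agent.S0939

open Cfsg.Agent.Lib.helper5 Cfsg.Agent.Lib.helper23 Cfsg.Agent.Lib.helper24

/-- Let G be a finite group with a normal p-complement (the largest normal subgroup O_p'(G) of order prime to p has p-power index). Then, relative to any maximal ideal M of the algebraic integers containing p, the principal block of G is the set of irreducible characters χ with χ n = χ 1 for every n ∈ O_p'(G). -/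
theorem result {G : Type*} [Group G] [Finite G] (p : ℕ) [Fact p.Prime] (M : Ideal Cfsg.AlgInt) (hM : Cfsg.IsPModular p M) (hnc : ∃ k : ℕ, (Cfsg.pPrimeCore p G).index = p ^ k) : Cfsg.principalBlock M G = {χ : Cfsg.IrrCharacter G | ∀ n ∈ Cfsg.pPrimeCore p G, (χ : G → ℂ) n = (χ : G → ℂ) 1} := by
  classical
  have := Fintype.ofFinite G
  have := Fintype.ofFinite (Cfsg.IrrCharacter G)
  have hMp := isPModular_isPrime hM
  have hp := hM.1
  obtain ⟨hnorm, hcop⟩ := Cfsg.Agent.Lib.helper9.pPrimeCore_mem p G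
  haveI := hnorm
  have hpN : ¬ p ∣ Nat.card (Cfsg.pPrimeCore p G) :=
    (Nat.Prime.coprime_iff_not_dvd hp).mp hcop.symm
  ext χ
  simp only [Set.mem_setOf_eq]
  constructor
  · intro hχ
    have hsame : Cfsg.SameBlock M (trivIrr G).1 χ.1 := hχ
    exact kernel_of_sameBlock hM _ hpN hsame (fun n _ => rfl)
  · intro hχ
    obtain ⟨χ', hχ'irr, hχ'⟩ := isIrrCharacter_deflate (Cfsg.pPrimeCore p G) χ.2 hχ
    obtain ⟨k, hk⟩ := hnc
    have hPG : IsPGroup p (G ⧸ Cfsg.pPrimeCore p G) :=
      IsPGroup.of_card (n := k) (by rw [← hk]; rfl)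
    have h1 := pgroup_sameBlock hM hPG (trivIrr (G ⧸ Cfsg.pPrimeCore p G)) ⟨χ', hχ'irr⟩
    have h2 := sameBlock_comp_mk hMp (Cfsg.pPrimeCore p G) h1
    have e2 : χ' ∘ (QuotientGroup.mk : G → G ⧸ Cfsg.pPrimeCore p G) = χ.1 := funext hχ'
    show Cfsg.SameBlock M (fun _ => 1) χ.1
    rw [← e2]
    exact h2

end Cfsg.Agent.S0939
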