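import Mathlib
import Cfsg.Agent.Lib.helper24.CharReg
import Cfsg.Statements.S0943

set_option autoImplicit false

namespace Cfsg.Agent.S0943

open Cfsg.Agent.Lib.helper24

/-- Let χ be an irreducible character of the finite group G and u, v ∈ G. If χ (x * y) = χ (u * v) whenever x is conjugate to u and y is conjugate to v, then χ u * χ v = χ 1 * χ (u * v). (Multiply the class sums of u and v and apply the central character of χ.) -/
theorem result {G : Type*} [Group G] [Finite G] (χ : Cfsg.IrrCharacter G) (u v : G) (hc : ∀ x y : G, IsConj u x → IsConj v y → (χ : G → ℂ) (x * y) = (χ : G → ℂ) (u * v)) : (χ : G → ℂ) u * (χ : G → ℂ) v = (χ : G → ℂ) 1 * (χ : G → ℂ) (u * v) := by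
  classical
  have := Fintype.ofFinite G
  have h := irr_sum_conj_mul χ u v
  have h2 : ∑ t : G, χ.1 (t * u * t⁻¹ * v) = (Nat.card G : ℂ) * χ.1 (u * v) := by
    rw [Finset.sum_congr rfl (fun t _ => hc (t * u * t⁻¹) v (isConj_iff.mpr ⟨t, rfl⟩) (IsConj.refl v))]
    simp [Nat.card_eq_fintype_card]
  rw [h2] at h
  have hne : (Nat.card G : ℂ) ≠ 0 := NeZero.ne _
  have h1 : χ.1 1 ≠ 0 := irr_one_ne_zero χ
  field_simp at h
  linear_combination -h
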