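import Mathlib
import Cfsg.Statements.S0944

set_option autoImplicit false
open Cfsg

namespace Cfsg.Agent.S0944

/-- the trace of an involutive endomorphism of a finite-dimensional complex space is `2k - n` -/
theorem trace_involution {V : Type*} [AddCommGroup V] [Module ℂ V] [FiniteDimensional ℂ V]
    (f : V →ₗ[ℂ] V) (hf : f * f = 1) :
    ∃ k : ℕ, LinearMap.trace ℂ V f = 2 * (k : ℂ) - (Module.finrank ℂ V : ℂ) := by
  set P : V →ₗ[ℂ] V := (2 : ℂ)⁻¹ • (1 + f) with hP
  have hidem : IsIdempotentElem P := by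
    show P * P = P
    rw [hP, smul_mul_smul_comm]
    have : (1 + f) * (1 + f) = (2 : ℂ) • (1 + f) := by
      rw [mul_add, add_mul, add_mul, hf, one_mul, mul_one, one_mul, two_smul]
      abel
    rw [this, smul_smul]
    congr 1
    norm_num
  have hproj := (LinearMap.isProj_range_iff_isIdempotentElem P).mpr hidem
  have htr := hproj.trace
  refine ⟨Module.finrank ℂ (LinearMap.range P), ?_⟩
  have h2 : f = (2 : ℂ) • P - 1 := by
    rw [hP, smul_smul]
    norm_num
  have h3 : LinearMap.trace ℂ V f = 2 * LinearMap.trace ℂ V P - LinearMap.trace ℂ V 1 := by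
    conv_lhs => rw [h2]
    rw [map_sub, map_smul, smul_eq_mul]
  rw [h3, htr, LinearMap.trace_one]

/-- Let χ be an irreducible character of the finite group G and u an involution. Then χ u is a rational integer n with n ≡ χ 1 (mod 2). -/
theorem result {G : Type*} [Group G] [Finite G] (χ : Cfsg.IrrCharacter G) (u : G) (hu : orderOf u = 2) : ∃ n : ℤ, (χ : G → ℂ) u = (n : ℂ) ∧ (2 : ℤ) ∣ (Cfsg.charDegree (χ : G → ℂ) : ℤ) - n := by
  obtain ⟨χ, n, ρ, _, rfl⟩ := χ
  have huu : u * u = 1 := by
    have := pow_orderOf_eq_one u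
    rw [hu, pow_two] at this
    exact this
  have hf : ρ u * ρ u = 1 := by
    rw [← map_mul, huu, map_one]
  obtain ⟨k, hk⟩ := trace_involution (ρ u) hf
  have hdeg : Cfsg.charDegree ρ.character = n := by
    unfold Cfsg.charDegree
    rw [Representation.char_one]
    simp
  refine ⟨2 * (k : ℤ) - n, ?_, ?_⟩
  · show ρ.character u = _
    unfold Representation.character
    rw [hk]
    simp
  · show (2 : ℤ) ∣ (Cfsg.charDegree ρ.character : ℤ) - (2 * (k : ℤ) - n)
    rw [hdeg]
    exact ⟨(n : ℤ) - k, by ring⟩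

end Cfsg.Agent.S0944
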