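import Cfsg.Statements.S0946
-- import your own Cfsg.Agent.* helpers here
import Mathlib

set_option autoImplicit false
open Cfsg

namespace Cfsg.Agent.S0946

open scoped Pointwise

variable {G : Type*} [Group G] [Finite G]

theorem pow_idx_mem {p : ℕ} [hp : Fact p.Prime] (S : Sylow p G) (n : G)
    (hn : n ∈ Subgroup.normalizer ((S : Subgroup G) : Set G)) :
    n ^ (S : Subgroup G).index ∈ (S : Subgroup G) := by
  obtain ⟨j, hj⟩ := S.2.exists_card_eq
  have hpow : (n ^ (S : Subgroup G).index) ^ (p ^ j) = 1 := by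
    rw [← pow_mul, ← hj, mul_comm, Subgroup.card_mul_index, pow_card_eq_one']
  have hpg : IsPGroup p (Subgroup.zpowers (n ^ (S : Subgroup G).index)) := by
    obtain ⟨i, -, hi⟩ := (Nat.dvd_prime_pow hp.out).mp (orderOf_dvd_of_pow_eq_one hpow)
    exact IsPGroup.of_card (n := i) (by rw [Nat.card_zpowers, hi])
  have e := hpg.inf_normalizer_sylow S
  have h2 : n ^ (S : Subgroup G).index ∈
      Subgroup.zpowers (n ^ (S : Subgroup G).index) ⊓ (S : Subgroup G) := by
    rw [← e]; exact ⟨Subgroup.mem_zpowers _, Subgroup.pow_mem _ hn _⟩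
  exact h2.2

theorem zmod_two_torsion (m : ℕ) (hm : 1 ≤ m) (z : ZMod (2 ^ m)) (hz : z + z = 0) :
    z = 0 ∨ z = ((2 ^ (m - 1) : ℕ) : ZMod (2 ^ m)) := by
  have : NeZero (2 ^ m) := ⟨by positivity⟩
  have h1 : ((z.val + z.val : ℕ) : ZMod (2 ^ m)) = 0 := by
    rw [Nat.cast_add, ZMod.natCast_zmod_val]; exact hz
  rw [ZMod.natCast_eq_zero_iff] at h1
  have h2 : z.val < 2 ^ m := ZMod.val_lt z
  have h3 : 2 ^ m = 2 * 2 ^ (m - 1) := by
    rw [← pow_succ']; congr 1; omega
  obtain ⟨c, hc⟩ := h1
  obtain ⟨A, hA⟩ : ∃ A : ℕ, A = 2 ^ (m - 1) := ⟨_, rfl⟩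
  rw [← hA] at h3
  have hc : z.val + z.val = 2 * A * c := by rw [← h3]; exact hc
  have h2 : z.val < 2 * A := by rw [← h3]; exact h2
  have hzc : z.val = A * c := by
    have : 2 * z.val = 2 * (A * c) := by rw [← mul_assoc, ← hc]; ring
    exact Nat.eq_of_mul_eq_mul_left (by norm_num) this
  have hc2 : c < 2 := by
    by_contra hcon
    push Not at hcon
    have : A * 2 ≤ A * c := Nat.mul_le_mul_left _ hcon
    omega
  interval_cases c
  · left
    have : z.val = 0 := by simpa using hzc
    exact (ZMod.val_eq_zero z).mp this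
  · right
    have : z.val = A := by simpa using hzc
    rw [← hA, ← this, ZMod.natCast_zmod_val]

theorem aux (P : Sylow 2 G) (m : ℕ) (hm : 1 ≤ m)
    (e : (P : Subgroup G) ≃* Multiplicative (ZMod (2 ^ m) × ZMod (2 ^ m))) :
    (∃ N : Subgroup G, N.Normal ∧ Subgroup.IsComplement' N (P : Subgroup G)) ∨
      ∀ s t : G, orderOf s = 2 → orderOf t = 2 → IsConj s t := by
  classical
  have hcomm : ∀ x ∈ (P : Subgroup G), ∀ y ∈ (P : Subgroup G), x * y = y * x := by
    intro x hx y hy
    have : (⟨x, hx⟩ : (P : Subgroup G)) * ⟨y, hy⟩ = ⟨y, hy⟩ * ⟨x, hx⟩ := by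
      apply e.injective
      rw [map_mul, map_mul, mul_comm]
    exact congrArg Subtype.val this
  obtain ⟨u1, hu1⟩ : ∃ u1 : (P : Subgroup G),
      u1 = e.symm (Multiplicative.ofAdd (((2 ^ (m - 1) : ℕ) : ZMod (2 ^ m)), (0 : ZMod (2 ^ m)))) :=
    ⟨_, rfl⟩
  obtain ⟨u2, hu2⟩ : ∃ u2 : (P : Subgroup G),
      u2 = e.symm (Multiplicative.ofAdd ((0 : ZMod (2 ^ m)), ((2 ^ (m - 1) : ℕ) : ZMod (2 ^ m)))) :=
    ⟨_, rfl⟩
  have hcls : ∀ x : (P : Subgroup G), x * x = 1 → x = 1 ∨ x = u1 ∨ x = u2 ∨ x = u1 * u2 := by
    intro x hx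
    have h1 : e x * e x = 1 := by rw [← map_mul, hx, map_one]
    obtain ⟨⟨a, b⟩, hab⟩ : ∃ ab : ZMod (2 ^ m) × ZMod (2 ^ m),
        e x = Multiplicative.ofAdd ab := ⟨Multiplicative.toAdd (e x), rfl⟩
    rw [hab] at h1
    have h2 : (a, b) + (a, b) = (0 : ZMod (2 ^ m) × ZMod (2 ^ m)) := by
      have := congrArg Multiplicative.toAdd h1
      simpa using this
    have ha : a + a = 0 := by simpa using congrArg Prod.fst h2
    have hb : b + b = 0 := by simpa using congrArg Prod.snd h2
    have hx' : x = e.symm (Multiplicative.ofAdd (a, b)) := by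
      rw [← hab, e.symm_apply_apply]
    rcases zmod_two_torsion m hm a ha with rfl | rfl <;>
      rcases zmod_two_torsion m hm b hb with rfl | rfl
    · left; rw [hx']; exact e.symm.map_one
    · right; right; left; rw [hx', hu2]
    · right; left; rw [hx', hu1]
    · right; right; right
      rw [hx', hu1, hu2, ← map_mul, ← ofAdd_add, Prod.mk_add_mk, add_zero, zero_add]
  obtain ⟨I3, hI3⟩ : ∃ I3 : Finset G, I3 = {(u1 : G), (u2 : G), ((u1 * u2 : (P : Subgroup G)) : G)} :=
    ⟨_, rfl⟩
  have hI : ∀ x ∈ (P : Subgroup G), orderOf x = 2 → x ∈ I3 := by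
    intro x hx hox
    have hx2 : (⟨x, hx⟩ : (P : Subgroup G)) * ⟨x, hx⟩ = 1 := by
      apply Subtype.ext
      show x * x = 1
      rw [← pow_two, ← hox, pow_orderOf_eq_one]
    have hx1 : x ≠ 1 := by
      intro h; rw [h, orderOf_one] at hox; omega
    rw [hI3]
    rcases hcls ⟨x, hx⟩ hx2 with h | h | h | h
    · exact absurd (congrArg Subtype.val h) hx1
    · have := congrArg Subtype.val h; simp only at this; rw [this]; simp
    · have := congrArg Subtype.val h; simp only at this; rw [this]; simp
    · have := congrArg Subtype.val h; simp only at this; rw [this]; simp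
  have hI3c : I3.card ≤ 3 := by rw [hI3]; exact Finset.card_le_three
  by_cases hNC : Subgroup.normalizer ((P : Subgroup G) : Set G) ≤
      Subgroup.centralizer ((P : Subgroup G) : Set G)
  · left
    exact ⟨(MonoidHom.transferSylow P hNC).ker, MonoidHom.normal_ker _,
      MonoidHom.ker_transferSylow_isComplement' P hNC⟩
  · right
    obtain ⟨n, hn, hnc⟩ := Set.not_subset.mp hNC
    have hn : n ∈ Subgroup.normalizer ((P : Subgroup G) : Set G) := hn
    have hnP : ∀ x, x ∈ (P : Subgroup G) → n * x * n⁻¹ ∈ (P : Subgroup G) := fun x hx =>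
      (Subgroup.mem_normalizer_iff.mp hn x).mp hx
    obtain ⟨k, hk⟩ : ∃ k : ℕ, k = (P : Subgroup G).index := ⟨_, rfl⟩
    have hkodd : ¬ 2 ∣ k := by rw [hk]; exact P.not_dvd_index
    have hnk : n ^ k ∈ (P : Subgroup G) := by rw [hk]; exact pow_idx_mem P n hn
    obtain ⟨q, hq⟩ : ∃ q, k = 2 * q + 1 := ⟨k / 2, by omega⟩
    -- an involution moved by n
    have hmoved : ∃ u ∈ (P : Subgroup G), orderOf u = 2 ∧ n * u * n⁻¹ ≠ u := by
      by_contra hcon
      push Not at hcon
      have hind : ∀ j : ℕ, ∀ x ∈ (P : Subgroup G), x ^ (2 ^ j) = 1 → n * x * n⁻¹ = x := by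
        intro j
        induction j with
        | zero =>
          intro x _ hx
          rw [pow_zero, pow_one] at hx
          rw [hx, mul_one, mul_inv_cancel]
        | succ j ih =>
          intro x hx hxp
          have hxx : (x * x) ^ (2 ^ j) = 1 := by
            rw [← pow_two, ← pow_mul, ← pow_succ']; exact hxp
          have h1 := ih (x * x) (Subgroup.mul_mem _ hx hx) hxx
          obtain ⟨y, hy⟩ : ∃ y, y = n * x * n⁻¹ := ⟨_, rfl⟩
          have hyP : y ∈ (P : Subgroup G) := by rw [hy]; exact hnP x hx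
          have hyy : y * y = x * x := by
            rw [← h1, hy]; group
          obtain ⟨z, hz⟩ : ∃ z, z = y * x⁻¹ := ⟨_, rfl⟩
          have hzP : z ∈ (P : Subgroup G) := by
            rw [hz]; exact Subgroup.mul_mem _ hyP (Subgroup.inv_mem _ hx)
          have hzz : z * z = 1 := by
            have hc1 : x⁻¹ * y = y * x⁻¹ := hcomm _ (Subgroup.inv_mem _ hx) _ hyP
            calc z * z = y * (x⁻¹ * y) * x⁻¹ := by rw [hz]; group
              _ = (y * y) * x⁻¹ * x⁻¹ := by rw [hc1]; group
              _ = 1 := by rw [hyy]; group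
          rw [← hy]
          by_cases hz1 : z = 1
          · rw [hz] at hz1
            have : y = y * x⁻¹ * x := by group
            rw [this, hz1, one_mul]
          · exfalso
            have hoz : orderOf z = 2 :=
              orderOf_eq_prime (by rw [pow_two]; exact hzz) hz1
            have hnz : n * z * n⁻¹ = z := hcon z hzP hoz
            have hnz' : Commute n z := by
              show n * z = z * n
              calc n * z = n * z * n⁻¹ * n := by group
                _ = z * n := by rw [hnz]
            have hyz : y = x * z := by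
              have : z * x = x * z := hcomm _ hzP _ hx
              rw [← this, hz]; group
            have hiter : ∀ i : ℕ, n ^ i * x * (n ^ i)⁻¹ = x * z ^ i := by
              intro i
              induction i with
              | zero => simp
              | succ i ihi =>
                have hc2 : n * z ^ i = z ^ i * n := (hnz'.pow_right i).eq
                calc n ^ (i + 1) * x * (n ^ (i + 1))⁻¹
                    = n * (n ^ i * x * (n ^ i)⁻¹) * n⁻¹ := by rw [pow_succ']; group
                  _ = n * (x * z ^ i) * n⁻¹ := by rw [ihi]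
                  _ = (n * x * n⁻¹) * (n * z ^ i) * n⁻¹ := by group
                  _ = (n * x * n⁻¹) * (z ^ i * n) * n⁻¹ := by rw [hc2]
                  _ = y * z ^ i := by rw [hy]; group
                  _ = x * z ^ (i + 1) := by rw [hyz, pow_succ']; group
            have h5 := hiter k
            have h6 : n ^ k * x * (n ^ k)⁻¹ = x := by
              rw [hcomm _ hnk _ hx]; group
            rw [h6] at h5
            have h7 : z ^ k = 1 := by
              have := mul_left_cancel (a := x) (b := 1) (c := z ^ k) (by rw [mul_one]; exact h5)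
              exact this.symm
            have h8 : z ^ k = z := by
              rw [hq, pow_add, pow_mul, pow_one, pow_two, hzz, one_pow, one_mul]
            exact hz1 (h8 ▸ h7)
      apply hnc
      rw [SetLike.mem_coe, Subgroup.mem_centralizer_iff]
      intro x hx
      have hx' : x ∈ (P : Subgroup G) := hx
      obtain ⟨j, hj⟩ := P.isPGroup' (⟨x, hx'⟩ : (P : Subgroup G))
      have hj' : x ^ (2 ^ j) = 1 := by
        have := congrArg Subtype.val hj
        simpa using this
      have h1 := hind j x hx' hj'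
      calc x * n = n * x * n⁻¹ * n := by rw [h1]
        _ = n * x := by group
    obtain ⟨u, huP, hou, hnu⟩ := hmoved
    obtain ⟨v, hv⟩ : ∃ v, v = n * u * n⁻¹ := ⟨_, rfl⟩
    obtain ⟨w, hw⟩ : ∃ w, w = n * v * n⁻¹ := ⟨_, rfl⟩
    have hvP : v ∈ (P : Subgroup G) := by rw [hv]; exact hnP u huP
    have hwP : w ∈ (P : Subgroup G) := by rw [hw]; exact hnP v hvP
    have hov : orderOf v = 2 := by
      rw [hv]; exact (MulEquiv.orderOf_eq (MulAut.conj n) u).trans hou
    have how : orderOf w = 2 := by
      rw [hw]; exact (MulEquiv.orderOf_eq (MulAut.conj n) v).trans hov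
    have hvu : v ≠ u := by rw [hv]; exact hnu
    have hwv : w ≠ v := by
      intro h
      apply hvu
      rw [hw, hv] at h
      have h2 : n * u * n⁻¹ = u := by
        have this : n⁻¹ * (n * (n * u * n⁻¹) * n⁻¹) * n = n⁻¹ * (n * u * n⁻¹) * n :=
          congrArg (fun t => n⁻¹ * t * n) h
        calc n * u * n⁻¹ = n⁻¹ * (n * (n * u * n⁻¹) * n⁻¹) * n := by group
          _ = n⁻¹ * (n * u * n⁻¹) * n := by rw [this]
          _ = u := by group
      rw [hv, h2]
    have hwu : w ≠ u := by
      intro h
      apply hnu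
      have h2 : Commute (n ^ 2) u := by
        show n ^ 2 * u = u * n ^ 2
        have : n ^ 2 * u * (n ^ 2)⁻¹ = u := by
          calc n ^ 2 * u * (n ^ 2)⁻¹ = n * (n * u * n⁻¹) * n⁻¹ := by rw [pow_two]; group
            _ = n * v * n⁻¹ := by rw [← hv]
            _ = u := by rw [← hw, h]
        calc n ^ 2 * u = n ^ 2 * u * (n ^ 2)⁻¹ * n ^ 2 := by
              rw [inv_mul_cancel_right]
          _ = u * n ^ 2 := by rw [this]
      have h3 : Commute (n ^ k) u := hcomm _ hnk _ huP
      have h4' : n ^ k = (n ^ 2) ^ q * n := by rw [hq, pow_add, pow_mul, pow_one]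
      have h4 : n = ((n ^ 2) ^ q)⁻¹ * n ^ k := by
        rw [h4']; group
      have h5 : Commute n u := by
        rw [h4]; exact ((h2.pow_left q).inv_left).mul_left h3
      calc n * u * n⁻¹ = u * n * n⁻¹ := by rw [h5.eq]
        _ = u := by group
    have hJ : ({u, v, w} : Finset G) = I3 := by
      apply Finset.eq_of_subset_of_card_le
      · intro t ht
        simp only [Finset.mem_insert, Finset.mem_singleton] at ht
        rcases ht with rfl | rfl | rfl
        · exact hI _ huP hou
        · exact hI _ hvP hov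
        · exact hI _ hwP how
      · have : ({u, v, w} : Finset G).card = 3 := by
          rw [Finset.card_insert_of_notMem, Finset.card_insert_of_notMem, Finset.card_singleton]
          · simp only [Finset.mem_singleton]; exact fun h => hwv h.symm
          · simp only [Finset.mem_insert, Finset.mem_singleton]
            rintro (h | h)
            · exact hvu h.symm
            · exact hwu h.symm
        omega
    have huv : IsConj u v := isConj_iff.mpr ⟨n, hv.symm⟩
    have hvw : IsConj v w := isConj_iff.mpr ⟨n, hw.symm⟩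
    have hconjP : ∀ x ∈ (P : Subgroup G), orderOf x = 2 → IsConj u x := by
      intro x hx hox
      have := hI x hx hox
      rw [← hJ] at this
      simp only [Finset.mem_insert, Finset.mem_singleton] at this
      rcases this with rfl | rfl | rfl
      · exact IsConj.refl _
      · exact huv
      · exact huv.trans hvw
    have hconj : ∀ s : G, orderOf s = 2 → IsConj u s := by
      intro s hs
      have hpg : IsPGroup 2 (Subgroup.zpowers s) :=
        IsPGroup.of_card (n := 1) (by rw [Nat.card_zpowers, hs, pow_one])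
      obtain ⟨Q, hQ⟩ := hpg.exists_le_sylow
      obtain ⟨g₀, hg₀⟩ := MulAction.exists_smul_eq G P Q
      have hsQ : s ∈ (Q : Subgroup G) := hQ (Subgroup.mem_zpowers s)
      have hg₀P : g₀⁻¹ * s * g₀ ∈ (P : Subgroup G) := by
        rw [← hg₀] at hsQ
        have h1 : s ∈ MulAut.conj g₀ • (P : Subgroup G) := hsQ
        rw [Subgroup.mem_pointwise_smul_iff_inv_smul_mem, MulAut.smul_def,
          MulAut.conj_inv_apply] at h1
        exact h1
      have ho : orderOf (g₀⁻¹ * s * g₀) = 2 := by
        have := (MulEquiv.orderOf_eq (MulAut.conj g₀⁻¹) s).trans hs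
        rw [MulAut.conj_apply, inv_inv] at this
        exact this
      have h1 := hconjP _ hg₀P ho
      have h2 : IsConj (g₀⁻¹ * s * g₀) s := isConj_iff.mpr ⟨g₀, by group⟩
      exact h1.trans h2
    intro s t hs ht
    exact (hconj s hs).symm.trans (hconj t ht)


/-- Let P be a Sylow 2-subgroup of the finite group G isomorphic to Z/2^m × Z/2^m with m ≥ 1. Then either P has a normal complement in G, or all involutions of G are conjugate. -/
theorem result {G : Type*} [Group G] [Finite G] (P : Sylow 2 G) (m : ℕ) (hm : 1 ≤ m) (e : (P : Subgroup G) ≃* Multiplicative (ZMod (2 ^ m) × ZMod (2 ^ m))) : (∃ N : Subgroup G, N.Normal ∧ Subgroup.IsComplement' N (P : Subgroup G)) ∨ ∀ s t : G, orderOf s = 2 → orderOf t = 2 → IsConj s t := by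
  exact aux P m hm e

end Cfsg.Agent.S0946
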