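import Cfsg.Statements.S0945
-- import your own Cfsg.Agent.* helpers here
import Mathlib
import Cfsg.Agent.S0946

set_option autoImplicit false
open Cfsg

namespace Cfsg.Agent.S0945

open scoped Pointwise
open Cfsg.Agent.S0946

variable {G : Type*} [Group G] [Finite G]

theorem cent_of_cent_invol (P : Sylow 2 G)
    (hcomm : ∀ x ∈ (P : Subgroup G), ∀ y ∈ (P : Subgroup G), x * y = y * x)
    (n : G) (hn : n ∈ Subgroup.normalizer ((P : Subgroup G) : Set G))
    (hcon : ∀ u ∈ (P : Subgroup G), orderOf u = 2 → n * u * n⁻¹ = u) :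
    n ∈ Subgroup.centralizer ((P : Subgroup G) : Set G) := by
  have hnP : ∀ x, x ∈ (P : Subgroup G) → n * x * n⁻¹ ∈ (P : Subgroup G) := fun x hx =>
    (Subgroup.mem_normalizer_iff.mp hn x).mp hx
  obtain ⟨k, hk⟩ : ∃ k : ℕ, k = (P : Subgroup G).index := ⟨_, rfl⟩
  have hkodd : ¬ 2 ∣ k := by rw [hk]; exact P.not_dvd_index
  have hnk : n ^ k ∈ (P : Subgroup G) := by rw [hk]; exact pow_idx_mem P n hn
  obtain ⟨q, hq⟩ : ∃ q, k = 2 * q + 1 := ⟨k / 2, by omega⟩
  have hind : ∀ j : ℕ, ∀ x ∈ (P : Subgroup G), x ^ (2 ^ j) = 1 → n * x * n⁻¹ = x := by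
    intro j
    induction j with
    | zero =>
      intro x _ hx
      rw [pow_zero, pow_one] at hx
      rw [hx, mul_one, mul_inv_cancel]
    | succ j ih =>
      intro x hx hxp
      have hxx : (x * x) ^ (2 ^ j) = 1 := by
        rw [← pow_two, ← pow_mul, ← pow_succ']; exact hxp
      have h1 := ih (x * x) (Subgroup.mul_mem _ hx hx) hxx
      obtain ⟨y, hy⟩ : ∃ y, y = n * x * n⁻¹ := ⟨_, rfl⟩
      have hyP : y ∈ (P : Subgroup G) := by rw [hy]; exact hnP x hx
      have hyy : y * y = x * x := by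
        rw [← h1, hy]; group
      obtain ⟨z, hz⟩ : ∃ z, z = y * x⁻¹ := ⟨_, rfl⟩
      have hzP : z ∈ (P : Subgroup G) := by
        rw [hz]; exact Subgroup.mul_mem _ hyP (Subgroup.inv_mem _ hx)
      have hzz : z * z = 1 := by
        have hc1 : x⁻¹ * y = y * x⁻¹ := hcomm _ (Subgroup.inv_mem _ hx) _ hyP
        calc z * z = y * (x⁻¹ * y) * x⁻¹ := by rw [hz]; group
          _ = (y * y) * x⁻¹ * x⁻¹ := by rw [hc1]; group
          _ = 1 := by rw [hyy]; group
      rw [← hy]
      by_cases hz1 : z = 1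
      · rw [hz] at hz1
        have : y = y * x⁻¹ * x := by group
        rw [this, hz1, one_mul]
      · exfalso
        have hoz : orderOf z = 2 :=
          orderOf_eq_prime (by rw [pow_two]; exact hzz) hz1
        have hnz : n * z * n⁻¹ = z := hcon z hzP hoz
        have hnz' : Commute n z := by
          show n * z = z * n
          calc n * z = n * z * n⁻¹ * n := by group
            _ = z * n := by rw [hnz]
        have hyz : y = x * z := by
          have : z * x = x * z := hcomm _ hzP _ hx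
          rw [← this, hz]; group
        have hiter : ∀ i : ℕ, n ^ i * x * (n ^ i)⁻¹ = x * z ^ i := by
          intro i
          induction i with
          | zero => simp
          | succ i ihi =>
            have hc2 : n * z ^ i = z ^ i * n := (hnz'.pow_right i).eq
            calc n ^ (i + 1) * x * (n ^ (i + 1))⁻¹
                = n * (n ^ i * x * (n ^ i)⁻¹) * n⁻¹ := by rw [pow_succ']; group
              _ = n * (x * z ^ i) * n⁻¹ := by rw [ihi]
              _ = (n * x * n⁻¹) * (n * z ^ i) * n⁻¹ := by group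
              _ = (n * x * n⁻¹) * (z ^ i * n) * n⁻¹ := by rw [hc2]
              _ = y * z ^ i := by rw [hy]; group
              _ = x * z ^ (i + 1) := by rw [hyz, pow_succ']; group
        have h5 := hiter k
        have h6 : n ^ k * x * (n ^ k)⁻¹ = x := by
          rw [hcomm _ hnk _ hx]; group
        rw [h6] at h5
        have h7 : z ^ k = 1 := by
          have := mul_left_cancel (a := x) (b := 1) (c := z ^ k) (by rw [mul_one]; exact h5)
          exact this.symm
        have h8 : z ^ k = z := by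
          rw [hq, pow_add, pow_mul, pow_one, pow_two, hzz, one_pow, one_mul]
        exact hz1 (h8 ▸ h7)
  rw [Subgroup.mem_centralizer_iff]
  intro x hx
  have hx' : x ∈ (P : Subgroup G) := hx
  obtain ⟨j, hj⟩ := P.isPGroup' (⟨x, hx'⟩ : (P : Subgroup G))
  have hj' : x ^ (2 ^ j) = 1 := by
    have := congrArg Subtype.val hj
    simpa using this
  have h1 := hind j x hx' hj'
  calc x * n = n * x * n⁻¹ * n := by rw [h1]
    _ = n * x := by group

theorem three_cycle (P : Sylow 2 G)
    (hcomm : ∀ x ∈ (P : Subgroup G), ∀ y ∈ (P : Subgroup G), x * y = y * x)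
    (n : G) (hn : n ∈ Subgroup.normalizer ((P : Subgroup G) : Set G))
    (u : G) (huP : u ∈ (P : Subgroup G)) (hnu : n * u * n⁻¹ ≠ u) :
    n * (n * u * n⁻¹) * n⁻¹ ≠ n * u * n⁻¹ ∧ n * (n * u * n⁻¹) * n⁻¹ ≠ u := by
  obtain ⟨k, hk⟩ : ∃ k : ℕ, k = (P : Subgroup G).index := ⟨_, rfl⟩
  have hkodd : ¬ 2 ∣ k := by rw [hk]; exact P.not_dvd_index
  have hnk : n ^ k ∈ (P : Subgroup G) := by rw [hk]; exact pow_idx_mem P n hn
  obtain ⟨q, hq⟩ : ∃ q, k = 2 * q + 1 := ⟨k / 2, by omega⟩
  constructor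
  · intro h
    apply hnu
    have this : n⁻¹ * (n * (n * u * n⁻¹) * n⁻¹) * n = n⁻¹ * (n * u * n⁻¹) * n :=
      congrArg (fun t => n⁻¹ * t * n) h
    calc n * u * n⁻¹ = n⁻¹ * (n * (n * u * n⁻¹) * n⁻¹) * n := by group
      _ = n⁻¹ * (n * u * n⁻¹) * n := by rw [this]
      _ = u := by group
  · intro h
    apply hnu
    have h2 : Commute (n ^ 2) u := by
      show n ^ 2 * u = u * n ^ 2
      have : n ^ 2 * u * (n ^ 2)⁻¹ = u := by
        calc n ^ 2 * u * (n ^ 2)⁻¹ = n * (n * u * n⁻¹) * n⁻¹ := by rw [pow_two]; group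
          _ = u := h
      calc n ^ 2 * u = n ^ 2 * u * (n ^ 2)⁻¹ * n ^ 2 := by
            rw [inv_mul_cancel_right]
        _ = u * n ^ 2 := by rw [this]
    have h3 : Commute (n ^ k) u := hcomm _ hnk _ huP
    have h4' : n ^ k = (n ^ 2) ^ q * n := by rw [hq, pow_add, pow_mul, pow_one]
    have h4 : n = ((n ^ 2) ^ q)⁻¹ * n ^ k := by
      rw [h4']; group
    have h5 : Commute n u := by
      rw [h4]; exact ((h2.pow_left q).inv_left).mul_left h3
    calc n * u * n⁻¹ = u * n * n⁻¹ := by rw [h5.eq]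
      _ = u := by group

theorem aux (P : Sylow 2 G) (m : ℕ) (hm : 1 ≤ m)
    (e : (P : Subgroup G) ≃* Multiplicative (ZMod (2 ^ m) × ZMod (2 ^ m))) :
    ((Subgroup.centralizer (P : Set G)).relIndex (Subgroup.normalizer (P : Set G)) = 1 ∨ (Subgroup.centralizer (P : Set G)).relIndex (Subgroup.normalizer (P : Set G)) = 3) ∧ ((Subgroup.centralizer (P : Set G)).relIndex (Subgroup.normalizer (P : Set G)) ≠ 1 → ∀ z ∈ (P : Subgroup G), z ≠ 1 → Subgroup.centralizer ({z} : Set G) ⊓ Subgroup.normalizer (P : Set G) = Subgroup.centralizer (P : Set G)) := by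
  classical
  have hcomm : ∀ x ∈ (P : Subgroup G), ∀ y ∈ (P : Subgroup G), x * y = y * x := by
    intro x hx y hy
    have : (⟨x, hx⟩ : (P : Subgroup G)) * ⟨y, hy⟩ = ⟨y, hy⟩ * ⟨x, hx⟩ := by
      apply e.injective
      rw [map_mul, map_mul, mul_comm]
    exact congrArg Subtype.val this
  obtain ⟨u1, hu1⟩ : ∃ u1 : (P : Subgroup G),
      u1 = e.symm (Multiplicative.ofAdd (((2 ^ (m - 1) : ℕ) : ZMod (2 ^ m)), (0 : ZMod (2 ^ m)))) :=
    ⟨_, rfl⟩
  obtain ⟨u2, hu2⟩ : ∃ u2 : (P : Subgroup G),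
      u2 = e.symm (Multiplicative.ofAdd ((0 : ZMod (2 ^ m)), ((2 ^ (m - 1) : ℕ) : ZMod (2 ^ m)))) :=
    ⟨_, rfl⟩
  have hcls : ∀ x : (P : Subgroup G), x * x = 1 → x = 1 ∨ x = u1 ∨ x = u2 ∨ x = u1 * u2 := by
    intro x hx
    have h1 : e x * e x = 1 := by rw [← map_mul, hx, map_one]
    obtain ⟨⟨a, b⟩, hab⟩ : ∃ ab : ZMod (2 ^ m) × ZMod (2 ^ m),
        e x = Multiplicative.ofAdd ab := ⟨Multiplicative.toAdd (e x), rfl⟩
    rw [hab] at h1
    have h2 : (a, b) + (a, b) = (0 : ZMod (2 ^ m) × ZMod (2 ^ m)) := by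
      have := congrArg Multiplicative.toAdd h1
      simpa using this
    have ha : a + a = 0 := by simpa using congrArg Prod.fst h2
    have hb : b + b = 0 := by simpa using congrArg Prod.snd h2
    have hx' : x = e.symm (Multiplicative.ofAdd (a, b)) := by
      rw [← hab, e.symm_apply_apply]
    rcases zmod_two_torsion m hm a ha with rfl | rfl <;>
      rcases zmod_two_torsion m hm b hb with rfl | rfl
    · left; rw [hx']; exact e.symm.map_one
    · right; right; left; rw [hx', hu2]
    · right; left; rw [hx', hu1]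
    · right; right; right
      rw [hx', hu1, hu2, ← map_mul, ← ofAdd_add, Prod.mk_add_mk, add_zero, zero_add]
  obtain ⟨I3, hI3⟩ : ∃ I3 : Finset G, I3 = {(u1 : G), (u2 : G), ((u1 * u2 : (P : Subgroup G)) : G)} :=
    ⟨_, rfl⟩
  have hI : ∀ x ∈ (P : Subgroup G), orderOf x = 2 → x ∈ I3 := by
    intro x hx hox
    have hx2 : (⟨x, hx⟩ : (P : Subgroup G)) * ⟨x, hx⟩ = 1 := by
      apply Subtype.ext
      show x * x = 1
      rw [← pow_two, ← hox, pow_orderOf_eq_one]
    have hx1 : x ≠ 1 := by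
      intro h; rw [h, orderOf_one] at hox; omega
    rw [hI3]
    rcases hcls ⟨x, hx⟩ hx2 with h | h | h | h
    · exact absurd (congrArg Subtype.val h) hx1
    · have := congrArg Subtype.val h; simp only at this; rw [this]; simp
    · have := congrArg Subtype.val h; simp only at this; rw [this]; simp
    · have := congrArg Subtype.val h; simp only at this; rw [this]; simp
  have hI3c : I3.card ≤ 3 := by rw [hI3]; exact Finset.card_le_three
  obtain ⟨N, hN⟩ : ∃ N, N = Subgroup.normalizer ((P : Subgroup G) : Set G) := ⟨_, rfl⟩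
  obtain ⟨C, hC⟩ : ∃ C, C = Subgroup.centralizer ((P : Subgroup G) : Set G) := ⟨_, rfl⟩
  have hCN : C ≤ N := by rw [hC, hN]; exact Subgroup.centralizer_le_normalizer _
  have hPC : (P : Subgroup G) ≤ C := by
    intro x hx
    rw [hC, Subgroup.mem_centralizer_iff]
    intro y hy
    exact hcomm y hy x hx
  have hconjP : ∀ g ∈ N, ∀ x ∈ (P : Subgroup G), g * x * g⁻¹ ∈ (P : Subgroup G) := by
    intro g hg x hx
    exact (Subgroup.mem_normalizer_iff.mp (hN ▸ hg) x).mp hx
  have hconjO : ∀ g x : G, orderOf x = 2 → orderOf (g * x * g⁻¹) = 2 := by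
    intro g x hx
    exact (MulEquiv.orderOf_eq (MulAut.conj g) x).trans hx
  -- structure of the orbit of a moved involution
  have hJ : ∀ h ∈ N, ∀ u ∈ (P : Subgroup G), orderOf u = 2 → h * u * h⁻¹ ≠ u →
      ({u, h * u * h⁻¹, h * (h * u * h⁻¹) * h⁻¹} : Finset G) = I3 ∧
      h * (h * u * h⁻¹) * h⁻¹ ≠ h * u * h⁻¹ ∧ h * (h * u * h⁻¹) * h⁻¹ ≠ u := by
    intro h hh u huP hou hnu
    obtain ⟨hwv, hwu⟩ := three_cycle P hcomm h (hN ▸ hh) u huP hnu
    refine ⟨?_, hwv, hwu⟩
    apply Finset.eq_of_subset_of_card_le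
    · intro t ht
      simp only [Finset.mem_insert, Finset.mem_singleton] at ht
      rcases ht with rfl | rfl | rfl
      · exact hI _ huP hou
      · exact hI _ (hconjP h hh u huP) (hconjO h u hou)
      · exact hI _ (hconjP h hh _ (hconjP h hh u huP)) (hconjO h _ (hconjO h u hou))
    · have : ({u, h * u * h⁻¹, h * (h * u * h⁻¹) * h⁻¹} : Finset G).card = 3 := by
        rw [Finset.card_insert_of_notMem, Finset.card_insert_of_notMem, Finset.card_singleton]
        · simp only [Finset.mem_singleton]; exact fun h' => hwv h'.symm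
        · simp only [Finset.mem_insert, Finset.mem_singleton]
          rintro (h' | h')
          · exact hnu h'.symm
          · exact hwu h'.symm
      omega
  have hK : ∀ h ∈ N, ∀ t ∈ (P : Subgroup G), orderOf t = 2 → h * t * h⁻¹ = t → h ∈ C := by
    intro h hh t ht hot hfix
    by_contra hhC
    have hmv : ∃ u ∈ (P : Subgroup G), orderOf u = 2 ∧ h * u * h⁻¹ ≠ u := by
      by_contra hcon
      push Not at hcon
      exact hhC (hC ▸ cent_of_cent_invol P hcomm h (hN ▸ hh) hcon)
    obtain ⟨u, huP, hou, hnu⟩ := hmv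
    obtain ⟨hJ', hwv, hwu⟩ := hJ h hh u huP hou hnu
    have htI := hI t ht hot
    rw [← hJ'] at htI
    simp only [Finset.mem_insert, Finset.mem_singleton] at htI
    rcases htI with rfl | rfl | rfl
    · exact hnu hfix
    · exact hwv hfix
    · apply hwv
      have this : h⁻¹ * (h * (h * (h * u * h⁻¹) * h⁻¹) * h⁻¹) * h = h⁻¹ * (h * (h * u * h⁻¹) * h⁻¹) * h :=
        congrArg (fun t => h⁻¹ * t * h) hfix
      calc h * (h * u * h⁻¹) * h⁻¹ = h⁻¹ * (h * (h * (h * u * h⁻¹) * h⁻¹) * h⁻¹) * h := by group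
        _ = h⁻¹ * (h * (h * u * h⁻¹) * h⁻¹) * h := by rw [this]
        _ = h * u * h⁻¹ := by group
  change ((Subgroup.centralizer ((P : Subgroup G) : Set G)).relIndex (Subgroup.normalizer ((P : Subgroup G) : Set G)) = 1 ∨ (Subgroup.centralizer ((P : Subgroup G) : Set G)).relIndex (Subgroup.normalizer ((P : Subgroup G) : Set G)) = 3) ∧ ((Subgroup.centralizer ((P : Subgroup G) : Set G)).relIndex (Subgroup.normalizer ((P : Subgroup G) : Set G)) ≠ 1 → ∀ z ∈ (P : Subgroup G), z ≠ 1 → Subgroup.centralizer ({z} : Set G) ⊓ Subgroup.normalizer ((P : Subgroup G) : Set G) = Subgroup.centralizer ((P : Subgroup G) : Set G))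
  rw [← hN, ← hC]
  by_cases hNC : N ≤ C
  · have h1 : C.relIndex N = 1 := Subgroup.relIndex_eq_one.2 hNC
    exact ⟨Or.inl h1, fun h => absurd h1 h⟩
  · obtain ⟨n, hnN, hnC⟩ := Set.not_subset.mp hNC
    have hnN : n ∈ N := hnN
    have hnC : n ∉ C := hnC
    have hmv : ∃ u ∈ (P : Subgroup G), orderOf u = 2 ∧ n * u * n⁻¹ ≠ u := by
      by_contra hcon
      push Not at hcon
      exact hnC (hC ▸ cent_of_cent_invol P hcomm n (hN ▸ hnN) hcon)
    obtain ⟨u, huP, hou, hnu⟩ := hmv
    obtain ⟨hJ', hwv, hwu⟩ := hJ n hnN u huP hou hnu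
    have hcos : ∀ g ∈ N, g ∈ C ∨ n⁻¹ * g ∈ C ∨ (n ^ 2)⁻¹ * g ∈ C := by
      intro g hg
      have hgu := hI _ (hconjP g hg u huP) (hconjO g u hou)
      rw [← hJ'] at hgu
      simp only [Finset.mem_insert, Finset.mem_singleton] at hgu
      rcases hgu with h | h | h
      · left; exact hK g hg u huP hou h
      · right; left
        refine hK _ (N.mul_mem (N.inv_mem hnN) hg) u huP hou ?_
        calc n⁻¹ * g * u * (n⁻¹ * g)⁻¹ = n⁻¹ * (g * u * g⁻¹) * n := by group
          _ = n⁻¹ * (n * u * n⁻¹) * n := by rw [h]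
          _ = u := by group
      · right; right
        refine hK _ (N.mul_mem (N.inv_mem (N.pow_mem hnN 2)) hg) u huP hou ?_
        calc (n ^ 2)⁻¹ * g * u * ((n ^ 2)⁻¹ * g)⁻¹ = (n ^ 2)⁻¹ * (g * u * g⁻¹) * n ^ 2 := by group
          _ = (n ^ 2)⁻¹ * (n * (n * u * n⁻¹) * n⁻¹) * n ^ 2 := by rw [h]
          _ = u := by rw [pow_two]; group
    have hodd : ¬ 2 ∣ C.relIndex N := by
      intro h2
      have h3 : C.relIndex N ∣ (P : Subgroup G).relIndex N := Subgroup.relIndex_dvd_of_le_left _ hPC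
      have h4 : (P : Subgroup G).relIndex N ∣ (P : Subgroup G).index :=
        Subgroup.relIndex_dvd_index_of_le (by rw [hN]; exact Subgroup.le_normalizer)
      exact P.not_dvd_index ((h2.trans h3).trans h4)
    have hne1 : C.relIndex N ≠ 1 := by
      rw [Ne, Subgroup.relIndex_eq_one]; exact hNC
    have hle3 : C.relIndex N ≤ 3 := by
      have h1 : C.relIndex N = Nat.card (N ⧸ C.subgroupOf N) := rfl
      rw [h1]
      have hnorm : (C.subgroupOf N).Normal := by rw [hC, hN]; infer_instance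
      let _ : Fintype (N ⧸ C.subgroupOf N) := Fintype.ofFinite _
      rw [Nat.card_eq_fintype_card, ← Finset.card_univ]
      have hsub : (Finset.univ : Finset (N ⧸ C.subgroupOf N)) ⊆
          {(1 : N ⧸ C.subgroupOf N), ((⟨n, hnN⟩ : N) : N ⧸ C.subgroupOf N),
            (((⟨n, hnN⟩ : N) ^ 2 : N) : N ⧸ C.subgroupOf N)} := by
        intro x _
        induction x using QuotientGroup.induction_on with
        | H g =>
          simp only [Finset.mem_insert, Finset.mem_singleton]
          rcases hcos g g.2 with h | h | h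
          · left
            rw [QuotientGroup.eq_one_iff, Subgroup.mem_subgroupOf]; exact h
          · right; left
            rw [eq_comm, QuotientGroup.eq, Subgroup.mem_subgroupOf]
            simpa using h
          · right; right
            rw [eq_comm, QuotientGroup.eq, Subgroup.mem_subgroupOf]
            simpa using h
      exact (Finset.card_le_card hsub).trans Finset.card_le_three
    have h3 : C.relIndex N = 3 := by
      have h0 : C.relIndex N ≠ 0 := by
        intro h; rw [h] at hodd; exact hodd (dvd_zero 2)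
      have h2 : C.relIndex N ≠ 2 := by
        intro h; rw [h] at hodd; exact hodd dvd_rfl
      omega
    refine ⟨Or.inr h3, fun _ z hz hz1 => ?_⟩
    apply le_antisymm
    · rintro g ⟨hgz, hgN⟩
      have hgz' : z * g = g * z := (Subgroup.mem_centralizer_iff.1 hgz) z rfl
      obtain ⟨j, hj⟩ := (IsPGroup.iff_orderOf.1 P.2) ⟨z, hz⟩
      rw [Subgroup.orderOf_mk z hz] at hj
      have hj0 : j ≠ 0 := by
        rintro rfl
        rw [pow_zero, orderOf_eq_one_iff] at hj
        exact hz1 hj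
      obtain ⟨i, rfl⟩ := Nat.exists_eq_succ_of_ne_zero hj0
      have hot : orderOf (z ^ (2 ^ i)) = 2 := by
        rw [orderOf_pow_of_dvd (by positivity) (by rw [hj]; exact pow_dvd_pow 2 (Nat.le_succ i)), hj,
          pow_succ, Nat.mul_div_cancel_left _ (by positivity)]
      refine hK g hgN (z ^ (2 ^ i)) (Subgroup.pow_mem _ hz _) hot ?_
      have hc : Commute g (z ^ (2 ^ i)) := (Commute.pow_right hgz'.symm _)
      rw [hc.eq, mul_inv_cancel_right]
    · intro g hg
      refine Subgroup.mem_inf.2 ⟨?_, hCN hg⟩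
      rw [Subgroup.mem_centralizer_iff]
      intro y hy
      rw [Set.mem_singleton_iff] at hy
      rw [hy]
      exact (Subgroup.mem_centralizer_iff.1 (hC ▸ hg)) z hz


/-- Let P be a Sylow 2-subgroup of the finite group G isomorphic to Z/2^m × Z/2^m with m ≥ 1. Then (i) the index of C_G(P) in N_G(P) is 1 or 3, and (ii) if it is not 1, then for every z ≠ 1 in P, C_G(z) ∩ N_G(P) = C_G(P). -/
theorem result {G : Type*} [Group G] [Finite G] (P : Sylow 2 G) (m : ℕ) (hm : 1 ≤ m) (e : (P : Subgroup G) ≃* Multiplicative (ZMod (2 ^ m) × ZMod (2 ^ m))) : ((Subgroup.centralizer (P : Set G)).relIndex (Subgroup.normalizer (P : Set G)) = 1 ∨ (Subgroup.centralizer (P : Set G)).relIndex (Subgroup.normalizer (P : Set G)) = 3) ∧ ((Subgroup.centralizer (P : Set G)).relIndex (Subgroup.normalizer (P : Set G)) ≠ 1 → ∀ z ∈ (P : Subgroup G), z ≠ 1 → Subgroup.centralizer ({z} : Set G) ⊓ Subgroup.normalizer (P : Set G) = Subgroup.centralizer (P : Set G)) := by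
  exact aux P m hm e

end Cfsg.Agent.S0945
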