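import Mathlib
import Cfsg.Agent.Lib.helper5.BlockSecond4
import Cfsg.Agent.Lib.helper9.PPrimeCore
import Cfsg.Agent.Lib.helper24.CharKer
import Cfsg.Agent.S0939
import Cfsg.Statements.S0947

set_option autoImplicit false
open scoped ComplexConjugate

namespace Cfsg.Agent.S0947

open Cfsg.Agent.Lib.helper5 Cfsg.Agent.Lib.helper23 Cfsg.Agent.Lib.helper24

/-- Let z ≠ 1 be a p-element of the finite group G with centralizer H, and fix a maximal ideal M of the algebraic integers containing p. (i) For every y ∈ H of order prime to p, the sum over ζ in the principal block of G of |ζ (z * y)|² equals the sum over χ in the principal block of H of |χ y|². (ii) If moreover H has a normal p-complement (its largest normal subgroup of order prime to p has p-power index), that common value is the largest power of p dividing the order of H. -/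
theorem result {G : Type*} [Group G] [Finite G] (p : ℕ) [Fact p.Prime] (M : Ideal Cfsg.AlgInt) (hM : Cfsg.IsPModular p M) (z : G) (hz : ∃ k : ℕ, orderOf z = p ^ k) (hz1 : z ≠ 1) (y : Subgroup.centralizer ({z} : Set G)) (hy : ¬ p ∣ orderOf y) : (∑ᶠ ζ ∈ Cfsg.principalBlock M G, ‖(ζ : G → ℂ) (z * (y : G))‖ ^ 2 = ∑ᶠ χ ∈ Cfsg.principalBlock M (Subgroup.centralizer ({z} : Set G)), ‖(χ : Subgroup.centralizer ({z} : Set G) → ℂ) y‖ ^ 2) ∧ ((∃ k : ℕ, (Cfsg.pPrimeCore p (Subgroup.centralizer ({z} : Set G))).index = p ^ k) → ∑ᶠ ζ ∈ Cfsg.principalBlock M G, ‖(ζ : G → ℂ) (z * (y : G))‖ ^ 2 = ((p ^ (Nat.card (Subgroup.centralizer ({z} : Set G))).factorization p : ℕ) : ℝ)) := by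
  classical
  have := Fintype.ofFinite G
  have := Fintype.ofFinite (Cfsg.IrrCharacter G)
  have := Fintype.ofFinite (Subgroup.centralizer ({z} : Set G))
  have := Fintype.ofFinite (Cfsg.IrrCharacter (Subgroup.centralizer ({z} : Set G)))
  have hMp := isPModular_isPrime hM
  have hp : p.Prime := Fact.out
  have hi : ∑ᶠ ζ ∈ Cfsg.principalBlock M G, ‖(ζ : G → ℂ) (z * (y : G))‖ ^ 2
      = ∑ᶠ χ ∈ Cfsg.principalBlock M (Subgroup.centralizer ({z} : Set G)),
          ‖(χ : Subgroup.centralizer ({z} : Set G) → ℂ) y‖ ^ 2 := by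
    apply Complex.ofReal_injective
    rw [finsum_norm_sq_cast, finsum_norm_sq_cast,
      section_norm_sum hM z hz (Cfsg.principalBlock M G) ⟨trivIrr G, rfl⟩ y hy, secSet_principal hM z hz]
  refine ⟨hi, ?_⟩
  rintro ⟨k, hk⟩
  rw [hi]
  obtain ⟨hnorm, hcop⟩ := Cfsg.Agent.Lib.helper9.pPrimeCore_mem p
    (Subgroup.centralizer ({z} : Set G))
  haveI := hnorm
  have hpK : ¬ p ∣ Nat.card (Cfsg.pPrimeCore p (Subgroup.centralizer ({z} : Set G))) :=
    (Nat.Prime.coprime_iff_not_dvd hp).mp hcop.symm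
  have hcard : Nat.card (Subgroup.centralizer ({z} : Set G))
      = Nat.card (Cfsg.pPrimeCore p (Subgroup.centralizer ({z} : Set G))) * p ^ k := by
    rw [← hk, Subgroup.card_mul_index]
  have hfac : (Nat.card (Subgroup.centralizer ({z} : Set G))).factorization p = k := by
    rw [hcard, Nat.factorization_mul Nat.card_pos.ne' (pow_ne_zero _ hp.ne_zero),
      Finsupp.add_apply, Nat.factorization_eq_zero_of_not_dvd hpK, zero_add,
      Nat.factorization_pow, Finsupp.smul_apply, hp.factorization_self, smul_eq_mul, mul_one]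
  -- y lies in the p'-core
  have hyK : y ∈ Cfsg.pPrimeCore p (Subgroup.centralizer ({z} : Set G)) := by
    have h1 : orderOf (QuotientGroup.mk' (Cfsg.pPrimeCore p (Subgroup.centralizer ({z} : Set G))) y)
        ∣ p ^ k := by
      rw [← hk, Subgroup.index_eq_card]
      exact orderOf_dvd_natCard _
    have h2 : orderOf (QuotientGroup.mk' (Cfsg.pPrimeCore p (Subgroup.centralizer ({z} : Set G))) y)
        ∣ orderOf y := orderOf_map_dvd _ y
    have hcop' : Nat.Coprime (p ^ k) (orderOf y) :=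
      Nat.Coprime.pow_left k ((Nat.Prime.coprime_iff_not_dvd hp).mpr hy)
    have h3 := Nat.eq_one_of_dvd_coprimes hcop' h1 h2
    have h4 := orderOf_eq_one_iff.mp h3
    exact (QuotientGroup.eq_one_iff y).mp h4
  rw [hfac, ← hk]
  apply Complex.ofReal_injective
  rw [finsum_norm_sq_cast, Cfsg.Agent.S0939.result p M hM ⟨k, hk⟩]
  push_cast
  rw [← sum_sq_degrees_infl (Cfsg.pPrimeCore p (Subgroup.centralizer ({z} : Set G))),
    Finset.sum_filter]
  apply Finset.sum_congr rfl
  intro χ _
  by_cases h : ∀ n ∈ Cfsg.pPrimeCore p (Subgroup.centralizer ({z} : Set G)), χ.1 n = χ.1 1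
  · rw [if_pos h, Set.indicator_of_mem (show χ ∈ {χ : Cfsg.IrrCharacter
      (Subgroup.centralizer ({z} : Set G)) | ∀ n ∈ Cfsg.pPrimeCore p
        (Subgroup.centralizer ({z} : Set G)), χ.1 n = χ.1 1} from h), one_mul, h y hyK,
      ← charDegree_cast, Complex.conj_natCast, sq]
  · rw [if_neg h, Set.indicator_of_notMem (show χ ∉ {χ : Cfsg.IrrCharacter
      (Subgroup.centralizer ({z} : Set G)) | ∀ n ∈ Cfsg.pPrimeCore p
        (Subgroup.centralizer ({z} : Set G)), χ.1 n = χ.1 1} from h), zero_mul]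

end Cfsg.Agent.S0947
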