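import Mathlib
import Cfsg.Agent.Lib.helper5.BlockOrth
import Cfsg.Statements.S0952

set_option autoImplicit false
open scoped ComplexConjugate

namespace Cfsg.Agent.S0952

open Cfsg.Agent.Lib.helper5 Cfsg.Agent.Lib.helper23 Cfsg.Agent.Lib.helper24

/-- Let χ and ψ be irreducible characters of the finite group G lying in different blocks relative to a maximal ideal M of the algebraic integers containing the prime p. Then the sum of χ x * conj (ψ x) over the elements x of order prime to p is zero. -/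
theorem result {G : Type*} [Group G] [Finite G] (p : ℕ) [Fact p.Prime] (M : Ideal Cfsg.AlgInt) (hM : Cfsg.IsPModular p M) (χ ψ : Cfsg.IrrCharacter G) (h : ¬ Cfsg.SameBlock M (χ : G → ℂ) (ψ : G → ℂ)) : ∑ᶠ x ∈ {x : G | ¬ p ∣ orderOf x}, (χ : G → ℂ) x * conj ((ψ : G → ℂ) x) = 0 := by
  classical
  have := Fintype.ofFinite G
  have := Fintype.ofFinite (Cfsg.IrrCharacter G)
  have hMp := isPModular_isPrime hM
  have hv := indicator_mem_osimaRing (G := G) hMp χ
  have hvv : (Cfsg.blockOf M χ.1).indicator (fun _ => (1 : ℂ))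
      * (Cfsg.blockOf M χ.1).indicator (fun _ => (1 : ℂ))
      = (Cfsg.blockOf M χ.1).indicator (fun _ => (1 : ℂ)) := by
    funext φ
    by_cases h : φ ∈ Cfsg.blockOf M χ.1
    · simp [Set.indicator_of_mem h]
    · simp [Set.indicator_of_notMem h]
  have h1 : (Cfsg.blockOf M χ.1).indicator (fun _ => (1 : ℂ)) χ = 1 :=
    Set.indicator_of_mem (mem_blockOf_self hMp.ne_top χ) _
  have h2 : (Cfsg.blockOf M χ.1).indicator (fun _ => (1 : ℂ)) ψ = 0 :=
    Set.indicator_of_notMem (fun hm => h hm) _
  have h3 := orth_p_regular hM hv hvv χ ψ h1 h2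
  rw [finsum_mem_def, finsum_eq_sum_of_fintype, ← h3]
  apply Finset.sum_congr rfl
  intro x _
  by_cases hx : ¬ p ∣ orderOf x
  · rw [Set.indicator_of_mem (by exact hx), if_pos hx]
  · rw [Set.indicator_of_notMem (by exact hx), if_neg hx]

end Cfsg.Agent.S0952
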