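import Mathlib
import Cfsg.Agent.Lib.helper5.BlockFMT
import Cfsg.Statements.S0955

set_option autoImplicit false
open scoped ComplexConjugate

namespace Cfsg.Agent.S0955

open Cfsg.Agent.Lib.helper5 Cfsg.Agent.Lib.helper23 Cfsg.Agent.Lib.helper24

/-- Let D be a defect group of a block of the finite group G relative to a maximal ideal M of the algebraic integers containing the prime p. Then D is the largest normal p-subgroup of its own normalizer: O_p(N_G(D)) = D. -/
theorem result {G : Type*} [Group G] [Finite G] (p : ℕ) [Fact p.Prime] (M : Ideal Cfsg.AlgInt) (hM : Cfsg.IsPModular p M) (B : Set (Cfsg.IrrCharacter G)) (hB : Cfsg.IsPBlock M B) (D : Subgroup G) (hD : Cfsg.IsDefectGroup p M B D) : (Cfsg.pCore p (Subgroup.normalizer (D : Set G))).map (Subgroup.normalizer (D : Set G)).subtype = D := by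
  classical
  have := Fintype.ofFinite G
  have := Fintype.ofFinite (Cfsg.IrrCharacter G)
  have := Fintype.ofFinite (Subgroup.normalizer (D : Set G))
  have := Fintype.ofFinite (Cfsg.IrrCharacter (Subgroup.normalizer (D : Set G)))
  have hMp := isPModular_isPrime hM
  obtain ⟨χ₀, rfl⟩ := hB
  have hDN : D ≤ Subgroup.normalizer (D : Set G) := Subgroup.le_normalizer
  have hDp : IsPGroup p D := by
    obtain ⟨g, _, P, rfl⟩ := hD
    exact sylow_map_isPGroup _ P
  haveI : (D.subgroupOf (Subgroup.normalizer (D : Set G))).Normal :=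
    (Subgroup.normal_subgroupOf_iff_le_normalizer hDN).mpr (le_refl _)
  have hDNp : IsPGroup p (D.subgroupOf (Subgroup.normalizer (D : Set G))) := hDp.comap_subtype
  obtain ⟨ξ, hξdef, -⟩ := fmt_exists D hM hDp χ₀ hD
  have hle : Cfsg.pCore p (Subgroup.normalizer (D : Set G))
      ≤ D.subgroupOf (Subgroup.normalizer (D : Set G)) := by
    obtain ⟨y, hy, PE, hPE⟩ := hξdef
    rw [hPE]
    unfold Cfsg.pCore
    apply sSup_le
    rintro K ⟨hKn, hKp⟩
    exact normal_pgroup_le_sylow_centralizer hM ξ y
      (hy.2.2 ξ (mem_blockOf_self hMp.ne_top ξ)) K hKp PE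
  have hge : D.subgroupOf (Subgroup.normalizer (D : Set G))
      ≤ Cfsg.pCore p (Subgroup.normalizer (D : Set G)) := by
    unfold Cfsg.pCore
    exact le_sSup ⟨inferInstance, hDNp⟩
  rw [le_antisymm hle hge, Subgroup.map_subgroupOf_eq_of_le hDN]

end Cfsg.Agent.S0955
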