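import Mathlib
import Cfsg.Statements.S0957

set_option autoImplicit false
open Cfsg

namespace Cfsg.Agent.S0957

/-- simultaneous conjugation action of `P` on pairs satisfying a conjugation-invariant predicate -/
@[reducible] def pairAct {G : Type*} [Group G] (P : Subgroup G) (pred : G × G → Prop)
    (hpred : ∀ z ∈ P, ∀ xy : G × G, pred xy → pred (z * xy.1 * z⁻¹, z * xy.2 * z⁻¹)) :
    MulAction P {xy : G × G // pred xy} where
  smul z xy := ⟨((z : G) * xy.1.1 * (z : G)⁻¹, (z : G) * xy.1.2 * (z : G)⁻¹), hpred z z.2 xy.1 xy.2⟩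
  one_smul xy := by
    apply Subtype.ext
    show (((1 : P) : G) * xy.1.1 * ((1 : P) : G)⁻¹, ((1 : P) : G) * xy.1.2 * ((1 : P) : G)⁻¹) = xy.1
    simp
  mul_smul a b xy := by
    apply Subtype.ext
    show (((a * b : P) : G) * xy.1.1 * ((a * b : P) : G)⁻¹, ((a * b : P) : G) * xy.1.2 * ((a * b : P) : G)⁻¹)
      = ((a : G) * ((b : G) * xy.1.1 * (b : G)⁻¹) * (a : G)⁻¹, (a : G) * ((b : G) * xy.1.2 * (b : G)⁻¹) * (a : G)⁻¹)
    simp [mul_assoc]

/-- a `p`-subgroup of `G` centralising a conjugate of `g` has order dividing the order of a Sylow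
`p`-subgroup of the centraliser of `g` -/
theorem card_dvd_sylow_centralizer {G : Type*} [Group G] [Finite G] (p : ℕ) [Fact p.Prime]
    (g y : G) (hy : IsConj g y) (Q : Subgroup G) (hQ : IsPGroup p Q)
    (hQy : Q ≤ Subgroup.centralizer ({y} : Set G))
    (S : Sylow p (Subgroup.centralizer ({g} : Set G))) : Nat.card Q ∣ Nat.card S := by
  obtain ⟨a, ha⟩ := isConj_iff.mp hy
  -- conjugate Q back into the centraliser of g
  have hle : Q.map (MulAut.conj a⁻¹).toMonoidHom ≤ Subgroup.centralizer ({g} : Set G) := by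
    rintro _ ⟨q, hq, rfl⟩
    have hqy := Subgroup.mem_centralizer_iff.mp (hQy hq) y rfl
    rw [Subgroup.mem_centralizer_iff]
    intro w hw
    rw [Set.mem_singleton_iff] at hw
    subst hw
    simp only [MulEquiv.coe_toMonoidHom, MulAut.conj_apply, inv_inv]
    rw [← ha] at hqy
    have : w * (a⁻¹ * q * a) = a⁻¹ * ((a * w * a⁻¹) * q) * a := by group
    rw [this, hqy]; group
  have hcard : Nat.card (Q.map (MulAut.conj a⁻¹).toMonoidHom) = Nat.card Q :=
    Subgroup.card_map_of_injective (MulAut.conj a⁻¹).injective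
  have hdvd : Nat.card Q ∣ Nat.card (Subgroup.centralizer ({g} : Set G)) := by
    rw [← hcard]; exact Subgroup.card_dvd_of_le hle
  obtain ⟨k, hk⟩ := IsPGroup.iff_card.mp hQ
  rw [S.card_eq_multiplicity, hk]
  rw [hk] at hdvd
  have hp : p.Prime := Fact.out
  exact pow_dvd_pow p ((hp.pow_dvd_iff_le_factorization Nat.card_pos.ne').mp hdvd)

/-- Let P be a Sylow p-subgroup of the finite group G, let g, h ∈ G and let p ^ d be the order of a Sylow p-subgroup of the centralizer of g. Then the number of pairs (y, z) with y conjugate to g, z conjugate to h and z * y⁻¹ ∈ P is divisible by the order of P divided by p ^ d. -/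
theorem result {G : Type*} [Group G] [Finite G] (p : ℕ) [Fact p.Prime] (P : Sylow p G) (g h : G) (S : Sylow p (Subgroup.centralizer ({g} : Set G))) : Nat.card P / Nat.card S ∣ Nat.card {yz : G × G // IsConj g yz.1 ∧ IsConj h yz.2 ∧ yz.2 * yz.1⁻¹ ∈ (P : Subgroup G)} := by
  classical
  have hpred : ∀ z ∈ (P : Subgroup G), ∀ xy : G × G,
      (IsConj g xy.1 ∧ IsConj h xy.2 ∧ xy.2 * xy.1⁻¹ ∈ (P : Subgroup G)) →
      (IsConj g (z * xy.1 * z⁻¹) ∧ IsConj h (z * xy.2 * z⁻¹) ∧
        (z * xy.2 * z⁻¹) * (z * xy.1 * z⁻¹)⁻¹ ∈ (P : Subgroup G)) := by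
    rintro z hz ⟨x, y⟩ ⟨h1, h2, h3⟩
    refine ⟨h1.trans (isConj_iff.mpr ⟨z, rfl⟩), h2.trans (isConj_iff.mpr ⟨z, rfl⟩), ?_⟩
    have : z * y * z⁻¹ * (z * x * z⁻¹)⁻¹ = z * (y * x⁻¹) * z⁻¹ := by group
    rw [this]
    exact (P : Subgroup G).mul_mem ((P : Subgroup G).mul_mem hz h3) ((P : Subgroup G).inv_mem hz)
  let _act := pairAct (P : Subgroup G)
    (fun xy : G × G => IsConj g xy.1 ∧ IsConj h xy.2 ∧ xy.2 * xy.1⁻¹ ∈ (P : Subgroup G)) hpred
  let _i1 : Fintype (P : Subgroup G) := Fintype.ofFinite _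
  let _i2 : Fintype {yz : G × G // IsConj g yz.1 ∧ IsConj h yz.2 ∧ yz.2 * yz.1⁻¹ ∈ (P : Subgroup G)} :=
    Fintype.ofFinite _
  let _i3 : Fintype (Quotient (MulAction.orbitRel (P : Subgroup G)
    {yz : G × G // IsConj g yz.1 ∧ IsConj h yz.2 ∧ yz.2 * yz.1⁻¹ ∈ (P : Subgroup G)})) :=
    Fintype.ofFinite _
  have hclass := MulAction.card_eq_sum_card_group_div_card_stabilizer (P : Subgroup G)
    {yz : G × G // IsConj g yz.1 ∧ IsConj h yz.2 ∧ yz.2 * yz.1⁻¹ ∈ (P : Subgroup G)}
  rw [Nat.card_eq_fintype_card (α := {yz : G × G // IsConj g yz.1 ∧ IsConj h yz.2 ∧ yz.2 * yz.1⁻¹ ∈ (P : Subgroup G)}), hclass]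
  apply Finset.dvd_sum
  intro ω _
  set b := ω.out with hb
  -- the stabiliser of b, viewed in G, centralises b.1.1
  have hst : (MulAction.stabilizer (P : Subgroup G) b).map (P : Subgroup G).subtype
      ≤ Subgroup.centralizer ({b.1.1} : Set G) := by
    rintro _ ⟨z, hz', rfl⟩
    have hz : z • b = b := MulAction.mem_stabilizer_iff.mp hz'
    have h1 : (z : G) * b.1.1 * (z : G)⁻¹ = b.1.1 :=
      congrArg (fun w : {yz : G × G // IsConj g yz.1 ∧ IsConj h yz.2 ∧ yz.2 * yz.1⁻¹ ∈ (P : Subgroup G)} => w.1.1) hz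
    rw [Subgroup.mem_centralizer_iff]
    intro w hw
    rw [Set.mem_singleton_iff] at hw
    subst hw
    show b.1.1 * (z : G) = (z : G) * b.1.1
    calc b.1.1 * (z : G) = ((z : G) * b.1.1 * (z : G)⁻¹) * (z : G) := by rw [h1]
      _ = (z : G) * b.1.1 := by group
  have hpg : IsPGroup p ((MulAction.stabilizer (P : Subgroup G) b).map (P : Subgroup G).subtype) :=
    P.isPGroup'.to_le (by
      rintro _ ⟨z, _, rfl⟩
      exact z.2)
  have h1 := card_dvd_sylow_centralizer p g b.1.1 b.2.1 _ hpg hst S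
  have hcard : Nat.card ((MulAction.stabilizer (P : Subgroup G) b).map (P : Subgroup G).subtype)
      = Nat.card (MulAction.stabilizer (P : Subgroup G) b) :=
    Subgroup.card_map_of_injective (Subgroup.subtype_injective _)
  rw [hcard] at h1
  have h2 : Nat.card S ∣ Nat.card P := by
    have hp : p.Prime := Fact.out
    rw [S.card_eq_multiplicity, P.card_eq_multiplicity]
    apply pow_dvd_pow
    have hdvd : Nat.card (Subgroup.centralizer ({g} : Set G)) ∣ Nat.card G :=
      Subgroup.card_subgroup_dvd_card _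
    exact (Nat.factorization_le_iff_dvd Nat.card_pos.ne' Nat.card_pos.ne').mpr hdvd p
  rw [← Nat.card_eq_fintype_card, ← Nat.card_eq_fintype_card]
  exact Nat.div_dvd_div_left h2 h1

end Cfsg.Agent.S0957
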