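import Mathlib
import Cfsg.Agent.Lib.helper5.BlockBrauer2
import Cfsg.Statements.S0958

set_option autoImplicit false
open scoped ComplexConjugate

namespace Cfsg.Agent.S0958

open Cfsg.Agent.Lib.helper5 Cfsg.Agent.Lib.helper23 Cfsg.Agent.Lib.helper24

/-- Let P be a p-subgroup of the finite group G and H a subgroup with P ⊔ C_G(P) ≤ H ≤ N_G(P); fix a maximal ideal M of the algebraic integers containing p. Then a block B of G is induced by some block of H if and only if some conjugate of P is contained in a defect group of B. -/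
theorem result {G : Type*} [Group G] [Finite G] (p : ℕ) [Fact p.Prime] (M : Ideal Cfsg.AlgInt) (hM : Cfsg.IsPModular p M) (P H : Subgroup G) (hP : IsPGroup p P) (hPH : P ⊔ Subgroup.centralizer (P : Set G) ≤ H) (hHN : H ≤ Subgroup.normalizer (P : Set G)) (B : Set (Cfsg.IrrCharacter G)) (hB : Cfsg.IsPBlock M B) : (∃ b : Set (Cfsg.IrrCharacter H), Cfsg.IsInducedBlock M H b B) ↔ ∃ D : Subgroup G, Cfsg.IsDefectGroup p M B D ∧ ∃ x : G, P.map (MulAut.conj x).toMonoidHom ≤ D := by
  classical
  have := Fintype.ofFinite G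
  have := Fintype.ofFinite (Cfsg.IrrCharacter G)
  have := Fintype.ofFinite H
  have := Fintype.ofFinite (Cfsg.IrrCharacter H)
  have hMp := isPModular_isPrime hM
  have hPle : P ≤ H := le_trans le_sup_left hPH
  have hCH : Subgroup.centralizer (P : Set G) ≤ H := le_trans le_sup_right hPH
  obtain ⟨χ₀, rfl⟩ := hB
  have h0 := mem_blockOf_self hMp.ne_top χ₀
  constructor
  · rintro ⟨b, hind⟩
    obtain ⟨ξ₀, rfl⟩ := hind.1
    have hξ₀ := mem_blockOf_self hMp.ne_top ξ₀
    obtain ⟨g, hg⟩ := exists_defectClass hMp χ₀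
    have h1 := hind.2.2 ξ₀ hξ₀ χ₀ h0 g
    have h2 := memLocalIdeal_induced_sub_brauer H hM P hP hPle hHN ξ₀ g
    have h3 : ¬ Cfsg.MemLocalIdeal M (Cfsg.brauerCentralChar P H ξ₀.1 g) := by
      intro h4
      apply hg.2.2 χ₀ h0
      have := memLocalIdeal_sub hMp (memLocalIdeal_add hMp h2 h4) h1
      have e : Cfsg.inducedCentralChar H ξ₀.1 g - Cfsg.brauerCentralChar P H ξ₀.1 g
          + Cfsg.brauerCentralChar P H ξ₀.1 g
          - (Cfsg.inducedCentralChar H ξ₀.1 g - Cfsg.centralChar χ₀.1 g)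
          = Cfsg.centralChar χ₀.1 g := by ring
      rwa [e] at this
    have hex : ∃ h : H, IsConj g (h : G) ∧ (h : G) ∈ Subgroup.centralizer (P : Set G) := by
      by_contra hcon
      push_neg at hcon
      apply h3
      unfold Cfsg.brauerCentralChar
      have : {h : H | IsConj g (h : G) ∧ (h : G) ∈ Subgroup.centralizer (P : Set G)} = ∅ := by
        ext h
        simp only [Set.mem_setOf_eq, Set.mem_empty_iff_false, iff_false, not_and]
        exact hcon h
      rw [this, finsum_mem_empty]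
      exact memLocalIdeal_zero hMp.ne_top
    obtain ⟨h, hc, hhP⟩ := hex
    obtain ⟨t, ht⟩ := isConj_iff.mp hc
    have hdc : Cfsg.IsDefectClass M (Cfsg.blockOf M χ₀.1) (h : G) := by
      rw [← ht]
      exact isDefectClass_conj hg t
    obtain ⟨D, hD, hPD⟩ := exists_isDefectGroup_ge hdc P hP
      (le_centralizer_singleton_iff.mpr hhP)
    exact ⟨D, hD, 1, by rw [map_conj_one]; exact hPD⟩
  · rintro ⟨D, ⟨g0, hg0, PD, rfl⟩, x, hx⟩
    have hc : x⁻¹ * g0 * x ∈ Subgroup.centralizer (P : Set G) := by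
      rw [← le_centralizer_singleton_iff]
      have h1 := le_trans hx (sylow_map_le _ PD)
      rw [map_conj_le_iff, ← centralizer_conj] at h1
      simpa using h1
    have hcoef : ¬ Cfsg.MemLocalIdeal M
        (Cfsg.blockCoeff (Cfsg.blockOf M χ₀.1) (x⁻¹ * g0 * x)) := by
      have := blockCoeff_conj (Cfsg.blockOf M χ₀.1) x⁻¹ g0
      rw [inv_inv] at this
      rw [this]
      exact hg0.2.1
    obtain ⟨ξ, hξ⟩ := exists_isInducedBlock_of_coef H hM P hP hPle hCH hHN χ₀ _ hc hcoef
    exact ⟨_, hξ⟩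

end Cfsg.Agent.S0958
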