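import Mathlib
import Cfsg.Agent.Lib.helper5.BlockDefect2
import Cfsg.Statements.S0959

set_option autoImplicit false
open scoped ComplexConjugate

namespace Cfsg.Agent.S0959

open Cfsg.Agent.Lib.helper5 Cfsg.Agent.Lib.helper23 Cfsg.Agent.Lib.helper24

/-- Let B be a block of the finite group G with defect group D (relative to a maximal ideal M of the algebraic integers containing the prime p), and let P be a p-subgroup. Then there is an element g whose idempotent coefficient for B is a local integer outside the local ideal at M and which has a conjugate centralizing P, if and only if some conjugate of P is contained in D. -/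
theorem result {G : Type*} [Group G] [Finite G] (p : ℕ) [Fact p.Prime] (M : Ideal Cfsg.AlgInt) (hM : Cfsg.IsPModular p M) (B : Set (Cfsg.IrrCharacter G)) (hB : Cfsg.IsPBlock M B) (D : Subgroup G) (hD : Cfsg.IsDefectGroup p M B D) (P : Subgroup G) (hP : IsPGroup p P) : (∃ g : G, Cfsg.MemLocalRing M (Cfsg.blockCoeff B g) ∧ ¬ Cfsg.MemLocalIdeal M (Cfsg.blockCoeff B g) ∧ ∃ c : G, IsConj g c ∧ c ∈ Subgroup.centralizer (P : Set G)) ↔ ∃ x : G, P.map (MulAut.conj x).toMonoidHom ≤ D := by
  classical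
  have := Fintype.ofFinite G
  have := Fintype.ofFinite (Cfsg.IrrCharacter G)
  have hMp := isPModular_isPrime hM
  obtain ⟨χ₀, rfl⟩ := hB
  have h0 : χ₀ ∈ Cfsg.blockOf M χ₀.1 := mem_blockOf_self hMp.ne_top χ₀
  obtain ⟨g0, hg0, PD, rfl⟩ := hD
  constructor
  · rintro ⟨g, hgR, hgm, c, hc, hcP⟩
    obtain ⟨t, rfl⟩ := isConj_iff.mp hc
    have hv : ¬ Cfsg.MemLocalIdeal M
        (Cfsg.blockCoeff (Cfsg.blockOf M χ₀.1) (t * g * t⁻¹)) := by
      rw [blockCoeff_conj]
      exact hgm
    exact key_conj hM χ₀ g0 (t * g * t⁻¹) (hg0.2.2 χ₀ h0) hv PD P hP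
      (le_centralizer_singleton_iff.mpr hcP)
  · rintro ⟨x, hx⟩
    refine ⟨g0, hg0.1, hg0.2.1, x⁻¹ * g0 * x, isConj_iff.mpr ⟨x⁻¹, by simp⟩, ?_⟩
    rw [← le_centralizer_singleton_iff]
    have h1 := le_trans hx (sylow_map_le _ PD)
    rw [map_conj_le_iff, ← centralizer_conj] at h1
    simpa using h1

end Cfsg.Agent.S0959
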