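import Mathlib
import Cfsg.Agent.Lib.helper5.BlockQuot
import Cfsg.Agent.Lib.helper24.CharVanish
import Cfsg.Statements.S0967

set_option autoImplicit false
open scoped ComplexConjugate

namespace Cfsg.Agent.S0967

open Cfsg.Agent.Lib.helper5 Cfsg.Agent.Lib.helper23 Cfsg.Agent.Lib.helper24

/-- Let N be a normal subgroup of the finite group G of order prime to p and fix a maximal ideal M of the algebraic integers containing p. If χ is an irreducible character of G ⧸ N and ψ lies in the block of its inflation χ ∘ (quotient map), then ψ is itself inflated from an irreducible character ψ' of G ⧸ N lying in the block of χ. (Over a normal p'-subgroup, blocks of the quotient are whole blocks of G.) -/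
theorem result {G : Type*} [Group G] [Finite G] (p : ℕ) [Fact p.Prime] (M : Ideal Cfsg.AlgInt) (hM : Cfsg.IsPModular p M) (N : Subgroup G) [N.Normal] (hN : ¬ p ∣ Nat.card N) (χ : Cfsg.IrrCharacter (G ⧸ N)) (ψ : Cfsg.IrrCharacter G) (hψ : ψ ∈ Cfsg.blockOf M ((χ : G ⧸ N → ℂ) ∘ QuotientGroup.mk)) : ∃ ψ' : Cfsg.IrrCharacter (G ⧸ N), (ψ : G → ℂ) = (ψ' : G ⧸ N → ℂ) ∘ QuotientGroup.mk ∧ Cfsg.SameBlock M (χ : G ⧸ N → ℂ) (ψ' : G ⧸ N → ℂ) := by
  classical
  have := Fintype.ofFinite G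
  have := Fintype.ofFinite (Cfsg.IrrCharacter G)
  have hMp := isPModular_isPrime hM
  have hsame : Cfsg.SameBlock M (irrInfl N χ).1 ψ.1 := hψ
  have hker : ∀ n ∈ N, ψ.1 n = ψ.1 1 :=
    kernel_of_sameBlock hM N hN hsame (fun n hn => irrInfl_apply_of_mem N χ hn)
  obtain ⟨ψ', hψ'irr, hψ'⟩ := isIrrCharacter_deflate N ψ.2 hker
  have e : ψ' ∘ (QuotientGroup.mk : G → G ⧸ N) = ψ.1 := funext hψ'
  refine ⟨⟨ψ', hψ'irr⟩, e.symm, ?_⟩
  apply sameBlock_of_comp_mk hM N hN (isClassFunction_irr χ)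
    (isClassFunction_irr ⟨ψ', hψ'irr⟩)
  show Cfsg.SameBlock M (χ.1 ∘ (QuotientGroup.mk : G → G ⧸ N))
    (ψ' ∘ (QuotientGroup.mk : G → G ⧸ N))
  rw [e]
  exact hψ

end Cfsg.Agent.S0967
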