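import Cfsg.Statements.S0986
import Mathlib

set_option autoImplicit false
open Cfsg

namespace Cfsg.Agent.S0986

theorem main {G : Type*} [Group G] [Finite G] (p : ℕ) [Fact p.Prime] (P Q : Sylow p G)
    (hPQ : P ≠ Q) (D N : Subgroup G) (hD : D = (P : Subgroup G) ⊓ (Q : Subgroup G))
    (hN : N = Subgroup.normalizer (D : Set G))
    (hmax : ∀ P' Q' : Sylow p G, P' ≠ Q' →
      Nat.card ↥((P' : Subgroup G) ⊓ (Q' : Subgroup G)) ≤ Nat.card D) :
    1 < Nat.card (Sylow p N) ∧
    (∀ S T : Sylow p N, S ≠ T → (S : Subgroup N) ⊓ (T : Subgroup N) = D.subgroupOf N) ∧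
    ∀ S : Sylow p N, ∃! T : Sylow p G, (S : Subgroup N).map N.subtype ≤ (T : Subgroup G) := by
  have hDN : D ≤ N := by rw [hN]; exact Subgroup.le_normalizer
  have hDP : D ≤ (P : Subgroup G) := by rw [hD]; exact inf_le_left
  have hDQ : D ≤ (Q : Subgroup G) := by rw [hD]; exact inf_le_right
  have hDp : IsPGroup p D := P.isPGroup'.to_le hDP
  haveI hDnorm : (D.subgroupOf N).Normal := by
    rw [hN]; infer_instance
  have hcardeq : ∀ R R' : Sylow p G, Nat.card (R : Subgroup G) = Nat.card (R' : Subgroup G) := by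
    intro R R'
    rw [Sylow.card_eq_multiplicity, Sylow.card_eq_multiplicity]
  -- normalizer growth
  have hK1 : ∀ R : Sylow p G, D ≤ (R : Subgroup G) → D ≠ (R : Subgroup G) →
      ∃ x : G, x ∈ (R : Subgroup G) ∧ x ∈ N ∧ x ∉ D := by
    intro R hDR hne
    haveI : Group.IsNilpotent (R : Subgroup G) := R.isPGroup'.isNilpotent
    have hnc : NormalizerCondition (R : Subgroup G) := normalizerCondition_of_isNilpotent
    have hlt : D.subgroupOf (R : Subgroup G) < ⊤ := by
      rw [lt_top_iff_ne_top]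
      intro h
      rw [Subgroup.subgroupOf_eq_top] at h
      exact hne (le_antisymm hDR h)
    have h1 := hnc _ hlt
    obtain ⟨x, hx, hxD⟩ := SetLike.exists_of_lt h1
    rw [← Subgroup.subgroupOf_normalizer_eq hDR, Subgroup.mem_subgroupOf] at hx
    rw [Subgroup.mem_subgroupOf] at hxD
    exact ⟨x, x.2, by rw [hN]; exact hx, hxD⟩
  have hDneP : D ≠ (P : Subgroup G) := by
    intro h
    apply hPQ
    apply Sylow.ext
    exact Subgroup.eq_of_le_of_card_ge (h ▸ hDQ) (hcardeq Q P).le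
  have hDneQ : D ≠ (Q : Subgroup G) := by
    intro h
    apply hPQ
    apply Sylow.ext
    exact (Subgroup.eq_of_le_of_card_ge (h ▸ hDP) (hcardeq P Q).le).symm
  -- p-subgroups of N strictly larger than D
  have hbig : ∀ R : Sylow p G, D ≤ (R : Subgroup G) → D ≠ (R : Subgroup G) →
      Nat.card D < Nat.card ((R : Subgroup G) ⊓ N : Subgroup G) := by
    intro R hDR hne
    obtain ⟨x, hxR, hxN, hxD⟩ := hK1 R hDR hne
    have hle : D ≤ (R : Subgroup G) ⊓ N := le_inf hDR hDN
    rcases Nat.lt_or_ge (Nat.card D) (Nat.card ((R : Subgroup G) ⊓ N : Subgroup G)) with h | h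
    · exact h
    · exfalso
      have heq := Subgroup.eq_of_le_of_card_ge hle h
      apply hxD
      rw [heq]
      exact ⟨hxR, hxN⟩
  have hSylN : ∀ (R : Sylow p G) (S : Sylow p N),
      Nat.card ((R : Subgroup G) ⊓ N : Subgroup G) ≤ Nat.card (S : Subgroup N) := by
    intro R S
    have hp1 : IsPGroup p (((R : Subgroup G) ⊓ N).subgroupOf N) :=
      (R.isPGroup'.to_le inf_le_left).comap_subtype
    obtain ⟨S₀, hS₀⟩ := hp1.exists_le_sylow
    have h1 := Subgroup.card_le_of_le hS₀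
    rw [Nat.card_congr (Subgroup.subgroupOfEquivOfLe (inf_le_right :
      (R : Subgroup G) ⊓ N ≤ N)).toEquiv] at h1
    rw [Sylow.card_eq_multiplicity S, ← Sylow.card_eq_multiplicity S₀]
    exact h1
  have hSbig : ∀ S : Sylow p N, Nat.card D < Nat.card (S : Subgroup N) := fun S =>
    lt_of_lt_of_le (hbig P hDP hDneP) (hSylN P S)
  have hcardmap : ∀ H : Subgroup N, Nat.card (H.map N.subtype) = Nat.card H := fun H =>
    Subgroup.card_map_of_injective (Subgroup.subtype_injective N)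
  have huniq : ∀ (S : Sylow p N) (T₁ T₂ : Sylow p G),
      (S : Subgroup N).map N.subtype ≤ (T₁ : Subgroup G) →
      (S : Subgroup N).map N.subtype ≤ (T₂ : Subgroup G) → T₁ = T₂ := by
    intro S T₁ T₂ h1 h2
    by_contra hne
    have h3 := hmax T₁ T₂ hne
    have h4 := Subgroup.card_le_of_le (le_inf h1 h2)
    rw [hcardmap] at h4
    have h5 := hSbig S
    omega
  have hDS : ∀ S : Sylow p N, D.subgroupOf N ≤ (S : Subgroup N) := fun S =>
    IsPGroup.le_sylow_of_normal (N := D.subgroupOf N) hDp.comap_subtype S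
  refine ⟨?_, ?_, ?_⟩
  · -- more than one Sylow subgroup
    have hpA : IsPGroup p (((P : Subgroup G) ⊓ N).subgroupOf N) :=
      (P.isPGroup'.to_le inf_le_left).comap_subtype
    have hpB : IsPGroup p (((Q : Subgroup G) ⊓ N).subgroupOf N) :=
      (Q.isPGroup'.to_le inf_le_left).comap_subtype
    obtain ⟨S₁, hS₁⟩ := hpA.exists_le_sylow
    obtain ⟨S₂, hS₂⟩ := hpB.exists_le_sylow
    have key : ∀ (R : Sylow p G) (S : Sylow p N), D ≤ (R : Subgroup G) → D ≠ (R : Subgroup G) →
        ((R : Subgroup G) ⊓ N).subgroupOf N ≤ (S : Subgroup N) → ∀ T : Sylow p G,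
        (S : Subgroup N).map N.subtype ≤ (T : Subgroup G) → T = R := by
      intro R S hDR hne hRS T hST
      by_contra hTR
      have h3 := hmax T R hTR
      have h4 : (R : Subgroup G) ⊓ N ≤ (T : Subgroup G) ⊓ (R : Subgroup G) := by
        intro x hx
        refine ⟨hST ⟨⟨x, hx.2⟩, hRS (Subgroup.mem_subgroupOf.mpr hx), rfl⟩, hx.1⟩
      have h5 := Subgroup.card_le_of_le h4
      have h6 := hbig R hDR hne
      omega
    apply Finite.one_lt_card_iff_nontrivial.mpr
    refine ⟨S₁, S₂, fun h => ?_⟩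
    obtain ⟨T, hT⟩ := (S₁.isPGroup'.map N.subtype).exists_le_sylow
    have e1 := key P S₁ hDP hDneP hS₁ T hT
    have e2 := key Q S₂ hDQ hDneQ hS₂ T (h ▸ hT)
    exact hPQ (e1.symm.trans e2)
  · intro S T hST
    obtain ⟨T₁, hT₁⟩ := (S.isPGroup'.map N.subtype).exists_le_sylow
    obtain ⟨T₂, hT₂⟩ := (T.isPGroup'.map N.subtype).exists_le_sylow
    have hne : T₁ ≠ T₂ := by
      intro h
      apply hST
      have hpC : IsPGroup p (((T₁ : Subgroup G) ⊓ N).subgroupOf N) :=
        (T₁.isPGroup'.to_le inf_le_left).comap_subtype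
      have hSC : (S : Subgroup N) ≤ ((T₁ : Subgroup G) ⊓ N).subgroupOf N := by
        intro s hs
        rw [Subgroup.mem_subgroupOf]
        exact ⟨hT₁ ⟨s, hs, rfl⟩, s.2⟩
      have hTC : (T : Subgroup N) ≤ ((T₁ : Subgroup G) ⊓ N).subgroupOf N := by
        intro s hs
        rw [Subgroup.mem_subgroupOf]
        exact ⟨h ▸ hT₂ ⟨s, hs, rfl⟩, s.2⟩
      apply Sylow.ext
      rw [← S.is_maximal' hpC hSC, ← T.is_maximal' hpC hTC]
    have h3 := hmax T₁ T₂ hne
    have h4 : ((S : Subgroup N) ⊓ (T : Subgroup N)).map N.subtype ≤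
        (T₁ : Subgroup G) ⊓ (T₂ : Subgroup G) := by
      rintro _ ⟨s, hs, rfl⟩
      exact ⟨hT₁ ⟨s, hs.1, rfl⟩, hT₂ ⟨s, hs.2, rfl⟩⟩
    have h5 := Subgroup.card_le_of_le h4
    rw [hcardmap] at h5
    have h6 : Nat.card (D.subgroupOf N) = Nat.card D :=
      Nat.card_congr (Subgroup.subgroupOfEquivOfLe hDN).toEquiv
    exact (Subgroup.eq_of_le_of_card_ge (le_inf (hDS S) (hDS T)) (by rw [h6]; omega)).symm
  · intro S
    obtain ⟨T, hT⟩ := (S.isPGroup'.map N.subtype).exists_le_sylow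
    exact ⟨T, hT, fun T' hT' => huniq S T' T hT' hT⟩


/-- Let P and Q be distinct Sylow p-subgroups of a finite group G chosen so that the order of P ∩ Q is as large as possible among intersections of two distinct Sylow p-subgroups, and let N be the normalizer of P ∩ Q. Then N has more than one Sylow p-subgroup, any two distinct Sylow p-subgroups of N intersect exactly in P ∩ Q, and each Sylow p-subgroup of N lies in exactly one Sylow p-subgroup of G. -/
theorem result {G : Type*} [Group G] [Finite G] (p : ℕ) [Fact p.Prime] (P Q : Sylow p G) (hPQ : P ≠ Q) (hmax : ∀ P' Q' : Sylow p G, P' ≠ Q' → Nat.card ↥((P' : Subgroup G) ⊓ (Q' : Subgroup G)) ≤ Nat.card ↥((P : Subgroup G) ⊓ (Q : Subgroup G))) : 1 < Nat.card (Sylow p ↥(Subgroup.normalizer (((P : Subgroup G) ⊓ (Q : Subgroup G) : Subgroup G) : Set G))) ∧ (∀ S T : Sylow p ↥(Subgroup.normalizer (((P : Subgroup G) ⊓ (Q : Subgroup G) : Subgroup G) : Set G)), S ≠ T → (S : Subgroup _) ⊓ (T : Subgroup _) = ((P : Subgroup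 G) ⊓ (Q : Subgroup G)).subgroupOf (Subgroup.normalizer (((P : Subgroup G) ⊓ (Q : Subgroup G) : Subgroup G) : Set G))) ∧ ∀ S : Sylow p ↥(Subgroup.normalizer (((P : Subgroup G) ⊓ (Q : Subgroup G) : Subgroup G) : Set G)), ∃! T : Sylow p G, (S : Subgroup _).map (Subgroup.normalizer (((P : Subgroup G) ⊓ (Q : Subgroup G) : Subgroup G) : Set G)).subtype ≤ (T : Subgroup G) := by
  exact main p P Q hPQ _ _ rfl rfl hmax

end Cfsg.Agent.S0986
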