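import Cfsg.Statements.S0992
import Mathlib

set_option autoImplicit false
open Cfsg

namespace Cfsg.Agent.S0992

/-- Let G be a non-abelian finite simple group of even order not divisible by 8, and T a Sylow 2-subgroup. Then T is a Klein four-group and the centralizer of T has index 3 in the normalizer of T. -/
theorem result {G : Type*} [Group G] [Finite G] [IsSimpleGroup G] (hG : ¬ IsMulCommutative G) (h2 : Even (Nat.card G)) (h8 : ¬ 8 ∣ Nat.card G) (T : Sylow 2 G) : IsKleinFour ↥(T : Subgroup G) ∧ (Subgroup.centralizer ((T : Subgroup G) : Set G)).relIndex (Subgroup.normalizer ((T : Subgroup G) : Set G)) = 3 := by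
  haveI : Fact (Nat.Prime 2) := ⟨Nat.prime_two⟩
  have h2dvd : 2 ∣ Nat.card G := even_iff_two_dvd.mp h2
  have hkey : ¬ (Subgroup.normalizer ((T : Subgroup G) : Set G) ≤
      Subgroup.centralizer ((T : Subgroup G) : Set G)) := by
    intro hNC
    have hc := MonoidHom.ker_transferSylow_isComplement' T hNC
    have hcard := hc.card_mul
    rcases (MonoidHom.transferSylow T hNC).normal_ker.eq_bot_or_eq_top with h | h
    · rw [h, Subgroup.card_bot, one_mul] at hcard
      have hT : (T : Subgroup G) = ⊤ := Subgroup.eq_top_of_card_eq _ hcard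
      apply hG
      refine ⟨⟨fun a b => ?_⟩⟩
      have ha : a ∈ (T : Subgroup G) := by rw [hT]; trivial
      have hb : b ∈ (T : Subgroup G) := by rw [hT]; trivial
      exact hNC (Subgroup.le_normalizer hb) a ha
    · rw [h, Subgroup.card_top] at hcard
      have hT1 : Nat.card (T : Subgroup G) = 1 := by
        have hpos := Nat.card_pos (α := G)
        exact Nat.eq_of_mul_eq_mul_left hpos (by rw [hcard, mul_one])
      have h3 := T.dvd_card_of_dvd_card h2dvd
      rw [hT1] at h3
      omega
  have hTcard : Nat.card (T : Subgroup G) = 2 ∨ Nat.card (T : Subgroup G) = 4 := by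
    have h1 : Nat.card (T : Subgroup G) = 2 ^ (Nat.card G).factorization 2 :=
      Sylow.card_eq_multiplicity T
    have hlt : (Nat.card G).factorization 2 < 3 := by
      by_contra hcon
      apply h8
      have h3 : 2 ^ 3 ∣ Nat.card G :=
        (Nat.prime_two.pow_dvd_iff_le_factorization Nat.card_pos.ne').mpr (by omega)
      exact h3
    have hpos : 1 ≤ (Nat.card G).factorization 2 :=
      (Nat.prime_two.pow_dvd_iff_le_factorization Nat.card_pos.ne').mp (by simpa using h2dvd)
    rw [h1]
    obtain ⟨k, hk⟩ : ∃ k, k = (Nat.card G).factorization 2 := ⟨_, rfl⟩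
    rw [← hk] at hlt hpos ⊢
    interval_cases k <;> simp
  have hncyc : ¬ IsCyclic (T : Subgroup G) := by
    intro hcyc
    exact hkey (IsCyclic.normalizer_le_centralizer ((Nat.minFac_eq_two_iff _).mpr h2dvd) hcyc)
  have hT4 : Nat.card (T : Subgroup G) = 4 := by
    rcases hTcard with h | h
    · exact absurd (isCyclic_of_prime_card h) hncyc
    · exact h
  have hexp : Monoid.exponent (T : Subgroup G) = 2 :=
    (not_isCyclic_iff_exponent_eq_prime Nat.prime_two (by rw [hT4]; norm_num)).mp hncyc
  refine ⟨⟨hT4, hexp⟩, ?_⟩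
  have hTC : (T : Subgroup G) ≤ Subgroup.centralizer ((T : Subgroup G) : Set G) := by
    intro x hx
    rw [Subgroup.mem_centralizer_iff]
    intro y hy
    have h1 := mul_comm_of_exponent_two hexp (⟨y, hy⟩ : (T : Subgroup G)) ⟨x, hx⟩
    exact congrArg Subtype.val h1
  have key := Subgroup.card_dvd_of_injective _
    (QuotientGroup.kerLift_injective (T : Subgroup G).normalizerMonoidHom)
  rw [Subgroup.normalizerMonoidHom_ker, ← Subgroup.index, ← Subgroup.relIndex] at key
  have h24 : Nat.card (MulAut (T : Subgroup G)) ∣ 24 := by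
    have h1 := Subgroup.card_dvd_of_injective (MulAut.toPerm (T : Subgroup G))
      (fun a b h => MulEquiv.toEquiv_injective h)
    rw [Nat.card_perm, hT4] at h1
    exact h1
  have hr24 := key.trans h24
  have hodd : ¬ 2 ∣ (Subgroup.centralizer ((T : Subgroup G) : Set G)).relIndex
      (Subgroup.normalizer ((T : Subgroup G) : Set G)) := by
    intro h
    apply T.not_dvd_index
    exact (h.trans (Subgroup.relIndex_dvd_of_le_left _ hTC)).trans
      (Subgroup.relIndex_dvd_index_of_le Subgroup.le_normalizer)
  have hle := Nat.le_of_dvd (by norm_num) hr24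
  have hdec : ∀ r ≤ 24, r ∣ 24 → ¬ 2 ∣ r → r = 1 ∨ r = 3 := by decide
  rcases hdec _ hle hr24 hodd with h | h
  · exact absurd (Subgroup.relIndex_eq_one.mp h) hkey
  · exact h

end Cfsg.Agent.S0992
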