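import Cfsg.Statements.S0995
import Mathlib

set_option autoImplicit false
open Cfsg

namespace Cfsg.Agent.S0995

open scoped Pointwise


/-- Let G be a finite perfect group containing an element z of prime order p whose centralizer is the cyclic group it generates. Let t be the number of conjugacy classes of elements of order p. Then t divides p - 1, the number of Sylow p-subgroups has the form 1 + n * p, and |G| * t = (p - 1) * p * (1 + n * p). -/
theorem result {G : Type*} [Group G] [Finite G] (hperf : commutator G = ⊤) (p : ℕ) [Fact p.Prime] (z : G) (hz : orderOf z = p) (hC : Subgroup.centralizer ({z} : Set G) = Subgroup.zpowers z) : ∃ n t : ℕ, t = Nat.card {c : ConjClasses G // ∃ g : G, ConjClasses.mk g = c ∧ orderOf g = p} ∧ t ∣ p - 1 ∧ Nat.card (Sylow p G) = 1 + n * p ∧ Nat.card G * t = (p - 1) * p * (1 + n * p) := by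
  classical
  have hp : p.Prime := Fact.out
  have hz1 : z ≠ 1 := by
    rintro rfl
    rw [orderOf_one] at hz
    exact hp.one_lt.ne hz
  have hzcard : Nat.card (Subgroup.zpowers z) = p := by rw [Nat.card_zpowers, hz]
  have hconj_ord : ∀ h g : G, orderOf (h * g * h⁻¹) = orderOf g := by
    intro h g
    have h0 := orderOf_injective (MulAut.conj h).toMonoidHom (MulAut.conj h).injective g
    simpa using h0
  obtain ⟨S, hS⟩ := (IsPGroup.of_card (n := 1) (by rw [hzcard, pow_one]) :
    IsPGroup p (Subgroup.zpowers z)).exists_le_sylow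
  have hzS : z ∈ (S : Subgroup G) := hS (Subgroup.mem_zpowers z)
  haveI : Nontrivial (S : Subgroup G) :=
    ⟨⟨⟨z, hzS⟩, 1, fun h => hz1 (congrArg Subtype.val h)⟩⟩
  haveI := S.isPGroup'.center_nontrivial
  obtain ⟨c, hc⟩ := exists_ne (1 : Subgroup.center (S : Subgroup G))
  have hc1 : ((c : (S : Subgroup G)) : G) ≠ 1 := fun h => hc (Subtype.ext (Subtype.ext h))
  have hcz : ((c : (S : Subgroup G)) : G) ∈ Subgroup.zpowers z := by
    rw [← hC, Subgroup.mem_centralizer_iff]
    intro h hh
    rw [Set.mem_singleton_iff] at hh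
    subst hh
    have h0 := Subgroup.mem_center_iff.mp c.2 ⟨h, hzS⟩
    exact congrArg Subtype.val h0
  have hgen : ∀ w ∈ Subgroup.zpowers z, w ≠ 1 → z ∈ Subgroup.zpowers w := by
    intro w hw hw1
    have hle : Subgroup.zpowers w ≤ Subgroup.zpowers z := Subgroup.zpowers_le.mpr hw
    have hcard : Nat.card (Subgroup.zpowers w) = p := by
      have h1 := Subgroup.card_dvd_of_le hle
      rw [hzcard] at h1
      rcases (Nat.dvd_prime hp).mp h1 with h | h
      · exfalso
        rw [Nat.card_zpowers, orderOf_eq_one_iff] at h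
        exact hw1 h
      · exact h
    have h2 := Subgroup.eq_of_le_of_card_ge hle (by rw [hcard, hzcard])
    rw [h2]
    exact Subgroup.mem_zpowers z
  have hSeq : (S : Subgroup G) = Subgroup.zpowers z := by
    apply le_antisymm _ hS
    intro s hs
    rw [← hC, Subgroup.mem_centralizer_iff]
    intro h hh
    rw [Set.mem_singleton_iff] at hh
    subst hh
    obtain ⟨k, hk⟩ := Subgroup.mem_zpowers_iff.mp (hgen _ hcz hc1)
    have hsc : Commute s ((c : (S : Subgroup G)) : G) := by
      have h0 := Subgroup.mem_center_iff.mp c.2 ⟨s, hs⟩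
      exact congrArg Subtype.val h0
    rw [← hk]
    exact ((hsc.zpow_right k).eq).symm
  have hScard : Nat.card (S : Subgroup G) = p := by rw [hSeq, hzcard]
  have hQcard : ∀ Q : Sylow p G, Nat.card (Q : Subgroup G) = p := by
    intro Q
    rw [Sylow.card_eq_multiplicity, ← Sylow.card_eq_multiplicity S, hScard]
  have hcentw : ∀ w ∈ Subgroup.zpowers z, w ≠ 1 →
      Subgroup.centralizer ({w} : Set G) = Subgroup.zpowers z := by
    intro w hw hw1
    rw [← hC]
    ext x
    rw [Subgroup.mem_centralizer_iff, Subgroup.mem_centralizer_iff]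
    simp only [Set.mem_singleton_iff, forall_eq]
    obtain ⟨k, hk⟩ := Subgroup.mem_zpowers_iff.mp hw
    obtain ⟨l, hl⟩ := Subgroup.mem_zpowers_iff.mp (hgen w hw hw1)
    constructor
    · intro h
      rw [← hl]
      exact (Commute.zpow_left h l).eq
    · intro h
      rw [← hk]
      exact (Commute.zpow_left h k).eq
  have hclass : ∀ g₀ : G, orderOf g₀ = p →
      Nat.card (ConjClasses.mk g₀).carrier * p = Nat.card G := by
    intro g₀ hg₀
    obtain ⟨Q, hQ⟩ := (IsPGroup.of_card (n := 1) (by rw [Nat.card_zpowers, hg₀, pow_one]) :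
      IsPGroup p (Subgroup.zpowers g₀)).exists_le_sylow
    obtain ⟨h, hh⟩ := MulAction.exists_smul_eq G Q S
    have hw : h * g₀ * h⁻¹ ∈ Subgroup.zpowers z := by
      rw [← hSeq, ← hh]
      have h1 : MulAut.conj h • g₀ ∈ MulAut.conj h • (Q : Subgroup G) :=
        Subgroup.smul_mem_pointwise_smul _ _ _ (hQ (Subgroup.mem_zpowers g₀))
      have h2 : MulAut.conj h • g₀ = h * g₀ * h⁻¹ := by simp [MulAut.smul_def]
      rw [h2] at h1
      exact h1
    have hw1 : h * g₀ * h⁻¹ ≠ 1 := by
      intro h1
      have h2 := hconj_ord h g₀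
      rw [h1, orderOf_one, hg₀] at h2
      exact hp.one_lt.ne h2
    have hmk : ConjClasses.mk g₀ = ConjClasses.mk (h * g₀ * h⁻¹) :=
      ConjClasses.mk_eq_mk_iff_isConj.mpr (isConj_iff.mpr ⟨h, rfl⟩)
    rw [hmk]
    have hstab : Nat.card (MulAction.stabilizer (ConjAct G) (h * g₀ * h⁻¹)) = p := by
      rw [← Subgroup.nat_card_centralizer_nat_card_stabilizer, hcentw _ hw hw1, hzcard]
    have h3 := Subgroup.card_mul_index (MulAction.stabilizer (ConjAct G) (h * g₀ * h⁻¹))
    rw [hstab, MulAction.index_stabilizer, ← Nat.card_coe_set_eq,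
      ConjAct.orbit_eq_carrier_conjClasses] at h3
    rw [mul_comm]
    exact h3
  have hF : ∀ x : {g : G // orderOf g = p}, ∃ Q : Sylow p G,
      (Q : Subgroup G) = Subgroup.zpowers x.1 := by
    intro x
    obtain ⟨Q, hQ⟩ := (IsPGroup.of_card (n := 1) (by rw [Nat.card_zpowers, x.2, pow_one]) :
      IsPGroup p (Subgroup.zpowers x.1)).exists_le_sylow
    exact ⟨Q, (Subgroup.eq_of_le_of_card_ge hQ (by rw [hQcard, Nat.card_zpowers, x.2])).symm⟩
  choose F hFspec using hF
  have hfiber : ∀ Q : Sylow p G,
      Nat.card {x : {g : G // orderOf g = p} // F x = Q} = p - 1 := by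
    intro Q
    have h0 : Nat.card {x : {g : G // orderOf g = p} // F x = Q} =
        Nat.card ↥(((Q : Subgroup G) : Set G) \ {1}) := by
      apply Nat.card_congr
      refine Equiv.ofBijective (fun x => ⟨x.1.1, ?_⟩) ⟨?_, ?_⟩
      · constructor
        · have h1 := hFspec x.1
          rw [x.2] at h1
          rw [SetLike.mem_coe, h1]
          exact Subgroup.mem_zpowers _
        · intro h1
          have h2 := x.1.2
          rw [Set.mem_singleton_iff.mp h1, orderOf_one] at h2
          exact hp.one_lt.ne h2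
      · intro x y hxy
        apply Subtype.ext
        apply Subtype.ext
        have h9 := congrArg Subtype.val hxy
        exact h9
      · rintro ⟨g, hgQ, hg1⟩
        have hord : orderOf g = p := by
          have h1 : orderOf g ∣ p := by
            rw [← hQcard Q, ← Subgroup.orderOf_mk g hgQ]
            exact orderOf_dvd_natCard _
          rcases (Nat.dvd_prime hp).mp h1 with h | h
          · exfalso
            exact hg1 (Set.mem_singleton_iff.mpr (orderOf_eq_one_iff.mp h))
          · exact h
        refine ⟨⟨⟨g, hord⟩, ?_⟩, rfl⟩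
        apply Sylow.ext
        rw [hFspec]
        exact Subgroup.eq_of_le_of_card_ge (Subgroup.zpowers_le.mpr hgQ)
          (by rw [hQcard, Nat.card_zpowers, hord])
    rw [h0, Nat.card_coe_set_eq, Set.ncard_diff_singleton_of_mem (Subgroup.one_mem _),
      ← Nat.card_coe_set_eq]
    have h5 : Nat.card ↥((Q : Subgroup G) : Set G) = p := hQcard Q
    rw [h5]
  letI : Fintype (Sylow p G) := Fintype.ofFinite _
  have hXcard : Nat.card {g : G // orderOf g = p} = Nat.card (Sylow p G) * (p - 1) := by
    rw [← Nat.card_congr (Equiv.sigmaFiberEquiv F), Nat.card_sigma]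
    simp only [hfiber, Finset.sum_const, Finset.card_univ, smul_eq_mul]
    rw [Nat.card_eq_fintype_card]
  obtain ⟨Φ, hΦ⟩ : ∃ Φ : {g : G // orderOf g = p} →
      {c : ConjClasses G // ∃ g : G, ConjClasses.mk g = c ∧ orderOf g = p},
      ∀ x, (Φ x).1 = ConjClasses.mk x.1 :=
    ⟨fun x => ⟨ConjClasses.mk x.1, x.1, rfl, x.2⟩, fun _ => rfl⟩
  have hfiber2 : ∀ c : {c : ConjClasses G // ∃ g : G, ConjClasses.mk g = c ∧ orderOf g = p},
      Nat.card {x : {g : G // orderOf g = p} // Φ x = c} * p = Nat.card G := by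
    rintro ⟨c, g₀, rfl, hg₀⟩
    rw [← hclass g₀ hg₀]
    congr 1
    apply Nat.card_congr
    refine Equiv.ofBijective (fun x => ⟨x.1.1, ?_⟩) ⟨?_, ?_⟩
    · rw [ConjClasses.mem_carrier_iff_mk_eq, ← hΦ]
      exact congrArg Subtype.val x.2
    · intro x y hxy
      apply Subtype.ext
      apply Subtype.ext
      have h9 := congrArg Subtype.val hxy
      exact h9
    · rintro ⟨g, hg⟩
      rw [ConjClasses.mem_carrier_iff_mk_eq] at hg
      have hord : orderOf g = p := by
        obtain ⟨h, hh⟩ := isConj_iff.mp (ConjClasses.mk_eq_mk_iff_isConj.mp hg)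
        rw [← hg₀, ← hh, hconj_ord]
      refine ⟨⟨⟨g, hord⟩, ?_⟩, rfl⟩
      apply Subtype.ext
      rw [hΦ]
      exact hg
  letI : Fintype {c : ConjClasses G // ∃ g : G, ConjClasses.mk g = c ∧ orderOf g = p} :=
    Fintype.ofFinite _
  have hXcard2 : Nat.card {g : G // orderOf g = p} * p =
      Nat.card {c : ConjClasses G // ∃ g : G, ConjClasses.mk g = c ∧ orderOf g = p} *
        Nat.card G := by
    rw [← Nat.card_congr (Equiv.sigmaFiberEquiv Φ), Nat.card_sigma, Finset.sum_mul]
    simp only [hfiber2, Finset.sum_const, Finset.card_univ, smul_eq_mul]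
    rw [Nat.card_eq_fintype_card
      (α := {c : ConjClasses G // ∃ g : G, ConjClasses.mk g = c ∧ orderOf g = p})]
  -- the normalizer
  have hmod := card_sylow_modEq_one p G
  have hn : Nat.card (Sylow p G) = 1 + (Nat.card (Sylow p G) / p) * p := by
    have h1 : Nat.card (Sylow p G) % p = 1 := by
      have h2 : Nat.card (Sylow p G) % p = 1 % p := hmod
      rw [h2, Nat.mod_eq_of_lt hp.one_lt]
    have h3 := Nat.div_add_mod (Nat.card (Sylow p G)) p
    rw [h1] at h3
    rw [mul_comm, add_comm]
    exact h3.symm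
  have hcentS : Subgroup.centralizer ((S : Subgroup G) : Set G) = (S : Subgroup G) := by
    rw [hSeq]
    conv_rhs => rw [← hC]
    ext x
    rw [Subgroup.mem_centralizer_iff, Subgroup.mem_centralizer_iff]
    constructor
    · intro h y hy
      rw [Set.mem_singleton_iff] at hy
      subst hy
      exact h y (Subgroup.mem_zpowers y)
    · intro h y hy
      obtain ⟨k, rfl⟩ := Subgroup.mem_zpowers_iff.mp hy
      have h1 : Commute z x := h z rfl
      exact (h1.zpow_left k).eq
  have key := Subgroup.card_dvd_of_injective _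
    (QuotientGroup.kerLift_injective (S : Subgroup G).normalizerMonoidHom)
  rw [Subgroup.normalizerMonoidHom_ker, ← Subgroup.index, ← Subgroup.relIndex, hcentS] at key
  haveI : IsCyclic (S : Subgroup G) := isCyclic_of_prime_card hScard
  rw [IsCyclic.card_mulAut, hScard, Nat.totient_prime hp] at key
  obtain ⟨m, hm⟩ : ∃ m, m = (S : Subgroup G).relIndex
      (Subgroup.normalizer ((S : Subgroup G) : Set G)) := ⟨_, rfl⟩
  rw [← hm] at key
  have hNcard : Nat.card (Subgroup.normalizer ((S : Subgroup G) : Set G)) = p * m := by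
    have h1 := Subgroup.card_mul_index ((S : Subgroup G).subgroupOf
      (Subgroup.normalizer ((S : Subgroup G) : Set G)))
    rw [Nat.card_congr (Subgroup.subgroupOfEquivOfLe Subgroup.le_normalizer).toEquiv, hScard] at h1
    rw [hm]
    exact h1.symm
  have hGcard : Nat.card G = p * m * Nat.card (Sylow p G) := by
    have h1 := Subgroup.card_mul_index (Subgroup.normalizer ((S : Subgroup G) : Set G))
    have h2 : Nat.card (Sylow p G) = (Subgroup.normalizer ((S : Subgroup G) : Set G)).index :=
      Sylow.card_eq_index_normalizer S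
    rw [← h2, hNcard] at h1
    exact h1.symm
  refine ⟨Nat.card (Sylow p G) / p,
    Nat.card {c : ConjClasses G // ∃ g : G, ConjClasses.mk g = c ∧ orderOf g = p}, rfl, ?_, hn,
    ?_⟩
  · obtain ⟨t, ht⟩ : ∃ t, t = Nat.card {c : ConjClasses G //
        ∃ g : G, ConjClasses.mk g = c ∧ orderOf g = p} := ⟨_, rfl⟩
    rw [← ht] at hXcard2 ⊢
    rw [hXcard, hGcard] at hXcard2
    have hnpos : 0 < Nat.card (Sylow p G) := Nat.card_pos
    have h1 : (p - 1) * (p * Nat.card (Sylow p G)) = (t * m) * (p * Nat.card (Sylow p G)) := by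
      linear_combination hXcard2
    have h2 := Nat.eq_of_mul_eq_mul_right (Nat.mul_pos hp.pos hnpos) h1
    exact ⟨m, h2⟩
  · rw [← hn, mul_comm (Nat.card G), ← hXcard2, hXcard]
    ring

end Cfsg.Agent.S0995
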