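import Mathlib
import Cfsg.Statements.S1002

set_option autoImplicit false
open Cfsg

namespace Cfsg.Agent.S1002

theorem sylow_facts {G : Type*} [Group G] [Finite G] [IsSimpleGroup G] {p m : ℕ}
    [hp : Fact p.Prime] (hG : Nat.card G = p * m) (hpm : ¬ p ∣ m) (hm : 1 < m) (P : Sylow p G) :
    Nat.card (P : Subgroup G) = p ∧ Nat.card (Sylow p G) ∣ m ∧ Nat.card (Sylow p G) % p = 1 ∧
    Nat.card G ∣ (Nat.card (Sylow p G)).factorial ∧
    Nat.card (Subgroup.normalizer ((P : Subgroup G) : Set G)) * Nat.card (Sylow p G)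
      = Nat.card G := by
  have hpp : p.Prime := hp.out
  have hcP : Nat.card (P : Subgroup G) = p := by
    rw [Sylow.card_eq_multiplicity, hG, Nat.factorization_mul hpp.pos.ne' (by omega),
      Finsupp.add_apply, hpp.factorization_self, Nat.factorization_eq_zero_of_not_dvd hpm]
    simp
  have hidx : (P : Subgroup G).index = m := by
    have h0 := Subgroup.card_mul_index (P : Subgroup G)
    rw [hcP, hG] at h0
    exact Nat.eq_of_mul_eq_mul_left hpp.pos h0
  have hnN : Subgroup.normalizer ((P : Subgroup G) : Set G) ≠ ⊤ := by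
    intro h
    have hn : (P : Subgroup G).Normal := Subgroup.normalizer_eq_top_iff.mp h
    rcases hn.eq_bot_or_eq_top with h | h
    · rw [h, Subgroup.card_bot] at hcP
      exact hpp.one_lt.ne hcP
    · rw [h, Subgroup.card_top, hG] at hcP
      have : p * m = p * 1 := by rw [hcP, mul_one]
      have := Nat.eq_of_mul_eq_mul_left hpp.pos this
      omega
  refine ⟨hcP, ?_, ?_, ?_, ?_⟩
  · have := Sylow.card_dvd_index P
    rwa [hidx] at this
  · have := card_sylow_modEq_one p G
    unfold Nat.ModEq at this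
    rw [this]
    exact Nat.mod_eq_of_lt hpp.one_lt
  · rw [Sylow.card_eq_index_normalizer P]
    set N := Subgroup.normalizer ((P : Subgroup G) : Set G)
    have hinj : Function.Injective (MulAction.toPermHom G (G ⧸ N)) := by
      rw [← MonoidHom.ker_eq_bot_iff]
      rcases (MulAction.toPermHom G (G ⧸ N)).normal_ker.eq_bot_or_eq_top with h | h
      · exact h
      · exfalso
        apply hnN
        rw [← Subgroup.normalCore_eq_ker] at h
        exact top_le_iff.mp (h ▸ Subgroup.normalCore_le N)
    have h1 := Subgroup.card_dvd_of_injective _ hinj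
    rw [Nat.card_perm, ← Subgroup.index_eq_card] at h1
    exact h1
  · rw [Sylow.card_eq_index_normalizer P]
    exact Subgroup.card_mul_index _

theorem sylow_num {n m p K t : ℕ} (hm : 0 < m) (hd : n ∣ m) (hmod : n % p = 1) (hn : 409 ≤ n)
    (hK : m / 409 = K) (key : ∀ k ≤ K, k ∣ m → (m / k) % p = 1 → m / k = t) : n = t := by
  have h1 : m / n ∣ m := Nat.div_dvd_of_dvd hd
  have h2 : m / (m / n) = n := Nat.div_div_self hd hm.ne'
  have h3 : m / n ≤ K := hK ▸ Nat.div_le_div_left hn (by norm_num)
  have := key (m / n) h3 h1 (by rw [h2]; exact hmod)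
  rw [h2] at this; exact this

theorem ge_409 {G : Type*} [Group G] [Finite G] {n : ℕ} (hG : Nat.card G = 1004913)
    (h : Nat.card G ∣ n.factorial) : 409 ≤ n := by
  have h1 : 409 ∣ n.factorial := dvd_trans (by rw [hG]; norm_num) h
  exact (Nat.Prime.dvd_factorial (by norm_num)).1 h1

/-- Burnside's transfer theorem for a simple group. -/
theorem burnside {G : Type*} [Group G] [Finite G] [IsSimpleGroup G] (p : ℕ) [Fact p.Prime]
    (P : Sylow p G)
    (hP : Subgroup.normalizer ((P : Subgroup G) : Set G) ≤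
      Subgroup.centralizer ((P : Subgroup G) : Set G))
    (h1 : Nat.card (P : Subgroup G) ≠ 1) (h2 : Nat.card (P : Subgroup G) ≠ Nat.card G) :
    False := by
  have hc := MonoidHom.ker_transferSylow_isComplement' P hP
  have hcard := hc.card_mul_card
  have hn : (MonoidHom.transferSylow P hP).ker.Normal := MonoidHom.normal_ker _
  rcases hn.eq_bot_or_eq_top with h | h
  · rw [h, Subgroup.card_bot, one_mul] at hcard
    exact h2 hcard
  · rw [h, Subgroup.card_top] at hcard
    have hpos : 0 < Nat.card G := Nat.card_pos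
    apply h1
    have h3 : Nat.card G * Nat.card (P : Subgroup G) = Nat.card G * 1 := by rw [hcard, mul_one]
    exact Nat.eq_of_mul_eq_mul_left hpos h3

theorem cent_eq {G : Type*} [Group G] [Finite G] [IsSimpleGroup G] {p : ℕ} [hp : Fact p.Prime]
    (P : Sylow p G) (hcP : Nat.card (P : Subgroup G) = p) (hG : p < Nat.card G)
    (hN : Nat.card (Subgroup.normalizer ((P : Subgroup G) : Set G)) = 3 * p) :
    Subgroup.centralizer ((P : Subgroup G) : Set G) = (P : Subgroup G) := by
  have hpp : p.Prime := hp.out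
  have : IsCyclic (P : Subgroup G) := isCyclic_of_prime_card hcP
  have h1 : (P : Subgroup G) ≤ Subgroup.centralizer ((P : Subgroup G) : Set G) :=
    Subgroup.le_centralizer _
  have h2 : Subgroup.centralizer ((P : Subgroup G) : Set G) ≤
      Subgroup.normalizer ((P : Subgroup G) : Set G) := Subgroup.centralizer_le_normalizer _
  have d1 := Subgroup.card_dvd_of_le h1
  have d2 := Subgroup.card_dvd_of_le h2
  rw [hcP] at d1
  rw [hN] at d2
  obtain ⟨k, hk⟩ := d1
  rw [hk, mul_comm 3 p] at d2
  have hk3 : k ∣ 3 := (Nat.mul_dvd_mul_iff_left hpp.pos).1 d2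
  rcases (Nat.dvd_prime (by norm_num : Nat.Prime 3)).1 hk3 with h | h
  · symm
    apply Subgroup.eq_of_le_of_card_ge h1
    rw [hk, h, hcP, mul_one]
  · exfalso
    have hCN : Subgroup.centralizer ((P : Subgroup G) : Set G) =
        Subgroup.normalizer ((P : Subgroup G) : Set G) := by
      apply Subgroup.eq_of_le_of_card_ge h2
      rw [hk, h, hN, mul_comm]
    apply burnside p P (by rw [hCN])
    · rw [hcP]; exact hpp.one_lt.ne'
    · rw [hcP]; exact hG.ne

theorem mem_of_ne_one {G : Type*} [Group G] [Finite G] {p : ℕ} [hp : Fact p.Prime]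
    (P : Sylow p G) (hcP : Nat.card (P : Subgroup G) = p) (g : G) (hg : g ∈ (P : Subgroup G))
    (hg1 : g ≠ 1) : orderOf g = p ∧ Subgroup.zpowers g = (P : Subgroup G) := by
  have h1 : orderOf g ∣ p := by
    have := orderOf_dvd_natCard (⟨g, hg⟩ : (P : Subgroup G))
    rw [hcP, Subgroup.orderOf_mk] at this
    exact this
  have h2 : orderOf g = p := by
    rcases (Nat.dvd_prime hp.out).1 h1 with h | h
    · exact absurd (orderOf_eq_one_iff.1 h) hg1
    · exact h
  refine ⟨h2, ?_⟩
  apply Subgroup.eq_of_le_of_card_ge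
  · rwa [Subgroup.zpowers_le]
  · rw [hcP, Nat.card_zpowers, h2]

theorem card_order_ge {G : Type*} [Group G] [Finite G] (p : ℕ) [hp : Fact p.Prime]
    (hP : ∀ P : Sylow p G, Nat.card (P : Subgroup G) = p) :
    Nat.card (Sylow p G) * (p - 1) ≤ Nat.card {g : G // orderOf g = p} := by
  classical
  have : Fintype (Sylow p G) := Fintype.ofFinite _
  let f : (Σ P : Sylow p G, ↥((((P : Subgroup G) : Set G)) \ {1})) → {g : G // orderOf g = p} :=
    fun a => ⟨a.2.1, (mem_of_ne_one a.1 (hP a.1) a.2.1 a.2.2.1 a.2.2.2).1⟩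
  have hf : Function.Injective f := by
    rintro ⟨P, g, hg, hg1⟩ ⟨P', g', hg', hg1'⟩ h
    have hgg : g = g' := congrArg Subtype.val h
    subst hgg
    have hPP : P = P' := Sylow.ext (by
      rw [← (mem_of_ne_one P (hP P) g hg hg1).2, ← (mem_of_ne_one P' (hP P') g hg' hg1').2])
    subst hPP
    rfl
  have h1 := Nat.card_le_card_of_injective f hf
  rw [Nat.card_sigma] at h1
  have h2 : ∀ P : Sylow p G, Nat.card ↥((((P : Subgroup G) : Set G)) \ {1}) = p - 1 := by
    intro P
    rw [Nat.card_coe_set_eq, Set.ncard_sdiff_singleton_of_mem (Subgroup.one_mem _),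
      ← Nat.card_coe_set_eq]
    exact congrArg (· - 1) (hP P)
  simp only [h2, Finset.sum_const, Finset.card_univ, smul_eq_mul] at h1
  rw [Nat.card_eq_fintype_card]
  exact h1

theorem comm_mem {G : Type*} [Group G] [Finite G] {p : ℕ} [hp : Fact p.Prime]
    (hP : ∀ P : Sylow p G, Nat.card (P : Subgroup G) = p)
    (hC : ∀ P : Sylow p G, Subgroup.centralizer ((P : Subgroup G) : Set G) = (P : Subgroup G))
    (y g : G) (hy : orderOf y = p) (hc : Commute g y) : g ∈ Subgroup.zpowers y := by
  have hz : IsPGroup p (Subgroup.zpowers y) := by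
    apply IsPGroup.of_card (n := 1)
    rw [Nat.card_zpowers, hy, pow_one]
  obtain ⟨Q, hQ⟩ := hz.exists_le_sylow
  have hyQ : y ∈ (Q : Subgroup G) := hQ (Subgroup.mem_zpowers y)
  have hy1 : y ≠ 1 := by
    intro h
    rw [h, orderOf_one] at hy
    exact hp.out.one_lt.ne hy
  have hzQ := (mem_of_ne_one Q (hP Q) y hyQ hy1).2
  rw [hzQ, ← hC Q, Subgroup.mem_centralizer_iff]
  intro h hh
  have hh' : h ∈ Subgroup.zpowers y := by rw [hzQ]; exact hh
  obtain ⟨k, rfl⟩ := Subgroup.mem_zpowers_iff.1 hh'
  exact (hc.zpow_right k).eq.symm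

theorem card_le_mul_image {α β γ : Type*} [Fintype α] [DecidableEq β] [Finite γ] (f : α → β)
    (h : ∀ a0 : α, ∃ e : {a // f a = f a0} → γ, Function.Injective e) :
    Fintype.card α ≤ Nat.card γ * (Finset.univ.image f).card := by
  classical
  have := Fintype.ofFinite γ
  have := Finset.card_le_mul_card_image (f := f) Finset.univ (Nat.card γ) (by
    intro b hb
    obtain ⟨a0, -, rfl⟩ := Finset.mem_image.1 hb
    obtain ⟨e, he⟩ := h a0
    have h1 := Fintype.card_le_of_injective e he
    rw [Fintype.card_subtype] at h1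
    rw [Nat.card_eq_fintype_card]
    exact h1)
  simpa using this


set_option maxRecDepth 100000 in
theorem dec13 : ∀ k ≤ 189, k ∣ 77301 → (77301 / k) % 13 = 1 → 77301 / k = 25767 := by
  decide +kernel

set_option maxRecDepth 100000 in
theorem dec7 : ∀ k ≤ 351, k ∣ 143559 → (143559 / k) % 7 = 1 → 143559 / k = 47853 := by
  decide +kernel

/-- No finite simple group has order 1004913 = 3^3 * 7 * 13 * 409. -/
theorem result {G : Type*} [Group G] [Finite G] [IsSimpleGroup G] : Nat.card G ≠ 1004913 := by
  intro hG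
  classical
  have : Fact (Nat.Prime 409) := ⟨by norm_num⟩
  have : Fact (Nat.Prime 13) := ⟨by norm_num⟩
  have : Fact (Nat.Prime 7) := ⟨by norm_num⟩
  have : Fact (Nat.Prime 3) := ⟨by norm_num⟩
  have : Fintype G := Fintype.ofFinite G
  have F409 := fun P : Sylow 409 G =>
    sylow_facts (p := 409) (m := 2457) (by rw [hG]) (by norm_num) (by norm_num) P
  have F13 := fun P : Sylow 13 G =>
    sylow_facts (p := 13) (m := 77301) (by rw [hG]) (by norm_num) (by norm_num) P
  have F7 := fun P : Sylow 7 G =>
    sylow_facts (p := 7) (m := 143559) (by rw [hG]) (by norm_num) (by norm_num) P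
  obtain ⟨P⟩ : Nonempty (Sylow 409 G) := inferInstance
  obtain ⟨P13⟩ : Nonempty (Sylow 13 G) := inferInstance
  obtain ⟨P7⟩ : Nonempty (Sylow 7 G) := inferInstance
  have n409 : Nat.card (Sylow 409 G) = 819 := by
    obtain ⟨-, hd, hmod, hf, -⟩ := F409 P
    exact sylow_num (by norm_num) hd hmod (ge_409 hG hf) (K := 6) (by norm_num) (by decide)
  have n13 : Nat.card (Sylow 13 G) = 25767 := by
    obtain ⟨-, hd, hmod, hf, -⟩ := F13 P13
    exact sylow_num (by norm_num) hd hmod (ge_409 hG hf) (K := 189) (by norm_num) dec13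
  have n7 : Nat.card (Sylow 7 G) = 47853 := by
    obtain ⟨-, hd, hmod, hf, -⟩ := F7 P7
    exact sylow_num (by norm_num) hd hmod (ge_409 hG hf) (K := 351) (by norm_num) dec7
  have N409 : ∀ Q : Sylow 409 G,
      Nat.card (Subgroup.normalizer ((Q : Subgroup G) : Set G)) = 3 * 409 := by
    intro Q
    have := (F409 Q).2.2.2.2
    rw [n409, hG] at this
    omega
  have N13 : ∀ Q : Sylow 13 G,
      Nat.card (Subgroup.normalizer ((Q : Subgroup G) : Set G)) = 3 * 13 := by
    intro Q
    have := (F13 Q).2.2.2.2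
    rw [n13, hG] at this
    omega
  have N7 : ∀ Q : Sylow 7 G,
      Nat.card (Subgroup.normalizer ((Q : Subgroup G) : Set G)) = 3 * 7 := by
    intro Q
    have := (F7 Q).2.2.2.2
    rw [n7, hG] at this
    omega
  have C409 : ∀ Q : Sylow 409 G,
      Subgroup.centralizer ((Q : Subgroup G) : Set G) = (Q : Subgroup G) :=
    fun Q => cent_eq Q (F409 Q).1 (by rw [hG]; norm_num) (N409 Q)
  have C13 : ∀ Q : Sylow 13 G,
      Subgroup.centralizer ((Q : Subgroup G) : Set G) = (Q : Subgroup G) :=
    fun Q => cent_eq Q (F13 Q).1 (by rw [hG]; norm_num) (N13 Q)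
  have C7 : ∀ Q : Sylow 7 G,
      Subgroup.centralizer ((Q : Subgroup G) : Set G) = (Q : Subgroup G) :=
    fun Q => cent_eq Q (F7 Q).1 (by rw [hG]; norm_num) (N7 Q)
  have cf : ∀ d : ℕ, Nat.card {g : G // orderOf g = d} =
      (Finset.univ.filter (fun g : G => orderOf g = d)).card := by
    intro d; rw [Nat.card_eq_fintype_card, Fintype.card_subtype]
  have c409 : 819 * 408 ≤ (Finset.univ.filter (fun g : G => orderOf g = 409)).card := by
    have := card_order_ge (G := G) 409 (fun Q => (F409 Q).1)
    rwa [n409, cf] at this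
  have c13 : 25767 * 12 ≤ (Finset.univ.filter (fun g : G => orderOf g = 13)).card := by
    have := card_order_ge (G := G) 13 (fun Q => (F13 Q).1)
    rwa [n13, cf] at this
  have c7 : 47853 * 6 ≤ (Finset.univ.filter (fun g : G => orderOf g = 7)).card := by
    have := card_order_ge (G := G) 7 (fun Q => (F7 Q).1)
    rwa [n7, cf] at this
  have c1 : 1 ≤ (Finset.univ.filter (fun g : G => orderOf g = 1)).card :=
    Finset.card_pos.2 ⟨1, by simp⟩
  have hsum : ∑ j ∈ ({1, 3, 7, 13, 409} : Finset ℕ),
      (Finset.univ.filter (fun g : G => orderOf g = j)).card ≤ Fintype.card G := by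
    rw [Finset.sum_card_fiberwise_eq_card_filter]
    exact Finset.card_le_univ _
  rw [Finset.sum_insert (by decide), Finset.sum_insert (by decide), Finset.sum_insert (by decide),
    Finset.sum_insert (by decide), Finset.sum_singleton] at hsum
  have hG' : Fintype.card G = 1004913 := by rw [← Nat.card_eq_fintype_card]; exact hG
  -- centralisers of elements of order three
  have key3 : ∀ x : G, orderOf x = 3 → Nat.card (Subgroup.centralizer ({x} : Set G)) = 27 := by
    intro x hx
    have hnd : ∀ (p : ℕ) [Fact p.Prime], (∀ P : Sylow p G, Nat.card (P : Subgroup G) = p) →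
        (∀ P : Sylow p G, Subgroup.centralizer ((P : Subgroup G) : Set G) = (P : Subgroup G)) →
        ¬ 3 ∣ p → ¬ p ∣ Nat.card (Subgroup.centralizer ({x} : Set G)) := by
      intro p _ hP hCp h3 hdvd
      obtain ⟨g, hg⟩ := exists_prime_orderOf_dvd_card' p hdvd
      have hg' : orderOf (g : G) = p := by rw [Subgroup.orderOf_coe]; exact hg
      have hcomm : Commute x (g : G) :=
        Subgroup.mem_centralizer_iff.1 g.2 x (Set.mem_singleton x)
      have hmem := comm_mem hP hCp (g : G) x hg' hcomm
      have := orderOf_dvd_of_mem_zpowers hmem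
      rw [hx, hg'] at this
      exact h3 this
    have h409 := hnd 409 (fun Q => (F409 Q).1) C409 (by norm_num)
    have h13 := hnd 13 (fun Q => (F13 Q).1) C13 (by norm_num)
    have h7 := hnd 7 (fun Q => (F7 Q).1) C7 (by norm_num)
    have hdvd : Nat.card (Subgroup.centralizer ({x} : Set G)) ∣ 27 := by
      have h0 : Nat.card (Subgroup.centralizer ({x} : Set G)) ∣ 27 * (409 * 13 * 7) := by
        have := Subgroup.card_subgroup_dvd_card (Subgroup.centralizer ({x} : Set G))
        rw [hG] at this
        exact this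
      apply Nat.Coprime.dvd_of_dvd_mul_right _ h0
      apply Nat.Coprime.mul_right (Nat.Coprime.mul_right _ _) _
      · exact ((Nat.Prime.coprime_iff_not_dvd (by norm_num)).2 h409).symm
      · exact ((Nat.Prime.coprime_iff_not_dvd (by norm_num)).2 h13).symm
      · exact ((Nat.Prime.coprime_iff_not_dvd (by norm_num)).2 h7).symm
    have hcl : Fintype.card G ≤ Nat.card (Subgroup.centralizer ({x} : Set G)) *
        (Finset.univ.image (fun g : G => g * x * g⁻¹)).card := by
      apply card_le_mul_image
      intro g0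
      refine ⟨fun g => ⟨g0⁻¹ * g.1, ?_⟩, ?_⟩
      · rw [Subgroup.mem_centralizer_iff]
        intro h hh
        rw [Set.mem_singleton_iff] at hh
        rw [hh]
        have h2 : g.1 * x * g.1⁻¹ = g0 * x * g0⁻¹ := g.2
        calc x * (g0⁻¹ * g.1) = g0⁻¹ * (g0 * x * g0⁻¹) * g.1 := by group
          _ = g0⁻¹ * (g.1 * x * g.1⁻¹) * g.1 := by rw [h2]
          _ = g0⁻¹ * g.1 * x := by group
      · intro g g' h
        have := congrArg Subtype.val h
        simp only [mul_right_inj] at this
        exact Subtype.ext this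
    have himg : (Finset.univ.image (fun g : G => g * x * g⁻¹)).card ≤
        (Finset.univ.filter (fun g : G => orderOf g = 3)).card := by
      apply Finset.card_le_card
      intro a ha
      obtain ⟨g, -, rfl⟩ := Finset.mem_image.1 ha
      rw [Finset.mem_filter]
      refine ⟨Finset.mem_univ _, ?_⟩
      have hs : SemiconjBy g x (g * x * g⁻¹) := by
        unfold SemiconjBy; group
      rw [← hs.orderOf_eq, hx]
    have hle : Nat.card (Subgroup.centralizer ({x} : Set G)) ≤ 27 :=
      Nat.le_of_dvd (by norm_num) hdvd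
    generalize Nat.card (Subgroup.centralizer ({x} : Set G)) = c at hdvd hcl hle
    generalize (Finset.univ.image (fun g : G => g * x * g⁻¹)).card = i at hcl himg
    rw [hG'] at hcl hsum
    have hi : i ≤ 74438 := by omega
    interval_cases c <;> omega
  -- the final contradiction
  obtain ⟨x0, hx0⟩ := exists_prime_orderOf_dvd_card'
    (G := ↥(Subgroup.normalizer ((P : Subgroup G) : Set G))) 3 (by rw [N409 P]; norm_num)
  obtain ⟨x, hxdef⟩ : ∃ x : G, x = (x0 : G) := ⟨_, rfl⟩
  have hx : orderOf x = 3 := by rw [hxdef, Subgroup.orderOf_coe]; exact hx0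
  have hxN : x ∈ Subgroup.normalizer ((P : Subgroup G) : Set G) := by rw [hxdef]; exact x0.2
  have hxP : x • P = P := Sylow.smul_eq_iff_mem_normalizer.2 hxN
  have hS : Nat.card (Subgroup.centralizer ({x} : Set G)) = 27 := key3 x hx
  have : Fintype (Sylow 409 G) := Fintype.ofFinite _
  have hTI : ∀ Q : Sylow 409 G, Q ≠ P → ∀ c : G, c ∈ (P : Subgroup G) →
      c ∈ Subgroup.normalizer ((Q : Subgroup G) : Set G) → c = 1 := by
    intro Q hQ c hcP hcN
    by_contra hc1
    have hz := (mem_of_ne_one P (F409 P).1 c hcP hc1).2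
    have hle : (P : Subgroup G) ≤ Subgroup.normalizer ((Q : Subgroup G) : Set G) := by
      rw [← hz, Subgroup.zpowers_le]; exact hcN
    have h1 : Q ∈ MulAction.fixedPoints (P : Subgroup G) (Sylow 409 G) :=
      (Subgroup.sylow_mem_fixedPoints_iff _).2 hle
    have h2 : (P : Subgroup G) ≤ Q := (P.2.sylow_mem_fixedPoints_iff).1 h1
    apply hQ
    symm
    apply Sylow.ext
    apply Subgroup.eq_of_le_of_card_ge h2
    rw [(F409 P).1, (F409 Q).1]
  have star : ∀ Q : Sylow 409 G, Q ≠ P → x • Q = Q → ∀ w : G, w ∈ (P : Subgroup G) →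
      x • (w • Q) = w • Q → w = 1 := by
    intro Q hQ hxQ w hw hxw
    have hc : x⁻¹ * w⁻¹ * x * w = 1 := by
      apply hTI Q hQ
      · have h1 : x⁻¹ * w⁻¹ * x ∈ (P : Subgroup G) :=
          (Subgroup.mem_set_normalizer_iff''.1 hxN w⁻¹).1 ((P : Subgroup G).inv_mem hw)
        exact (P : Subgroup G).mul_mem h1 hw
      · apply Sylow.smul_eq_iff_mem_normalizer.1
        rw [mul_smul, mul_smul, mul_smul, hxw, inv_smul_smul, inv_smul_eq_iff, hxQ]
    have hwS : w ∈ Subgroup.centralizer ({x} : Set G) := by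
      rw [Subgroup.mem_centralizer_iff]
      intro h hh
      rw [Set.mem_singleton_iff] at hh
      rw [hh]
      calc x * w = w * x * (x⁻¹ * w⁻¹ * x * w) := by group
        _ = w * x := by rw [hc, mul_one]
    have o1 : orderOf w ∣ 27 := by
      have := orderOf_dvd_natCard (⟨w, hwS⟩ : Subgroup.centralizer ({x} : Set G))
      rwa [hS, Subgroup.orderOf_mk] at this
    have o2 : orderOf w ∣ 409 := by
      have := orderOf_dvd_natCard (⟨w, hw⟩ : (P : Subgroup G))
      rwa [(F409 P).1, Subgroup.orderOf_mk] at this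
    have o3 : orderOf w ∣ Nat.gcd 27 409 := Nat.dvd_gcd o1 o2
    have o4 : orderOf w = 1 := by
      have : Nat.gcd 27 409 = 1 := by norm_num
      rw [this] at o3
      exact Nat.dvd_one.1 o3
    exact orderOf_eq_one_iff.1 o4
  have hinj : Function.Injective
      (fun a : (↥(P : Subgroup G)) × {Q : Sylow 409 G // x • Q = Q ∧ Q ≠ P} =>
        (a.1 : G) • (a.2 : Sylow 409 G)) := by
    rintro ⟨u, Q, hQ, hQP⟩ ⟨u', Q', hQ', hQP'⟩ h
    have h' : (u : G) • Q = (u' : G) • Q' := h
    have hw : ((u' : G)⁻¹ * (u : G)) • Q = Q' := by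
      rw [mul_smul, h', inv_smul_smul]
    have hw1 := star Q hQP hQ ((u' : G)⁻¹ * u)
      ((P : Subgroup G).mul_mem ((P : Subgroup G).inv_mem u'.2) u.2) (by rw [hw]; exact hQ')
    have huu : (u' : G) = u := inv_mul_eq_one.1 hw1
    have hQQ : Q = Q' := by rw [← hw, hw1, one_smul]
    subst hQQ
    have : u' = u := Subtype.ext huu
    subst this
    rfl
  have hcard := Nat.card_le_card_of_injective _ hinj
  rw [Nat.card_prod, (F409 P).1, n409] at hcard
  have hlow : Fintype.card (Subgroup.centralizer ({x} : Set G)) ≤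
      Nat.card ↥(Subgroup.normalizer ((P : Subgroup G) : Set G) ⊓ Subgroup.centralizer ({x} : Set G))
        * (Finset.univ.image
          (fun s : Subgroup.centralizer ({x} : Set G) => (s : G) • P)).card := by
    apply card_le_mul_image
    intro s0
    refine ⟨fun s => ⟨(s0 : G)⁻¹ * (s.1 : G), ?_, ?_⟩, ?_⟩
    · have h : ((s.1 : Subgroup.centralizer ({x} : Set G)) : G) • P = (s0 : G) • P := s.2
      apply Sylow.smul_eq_iff_mem_normalizer.1
      rw [mul_smul, h, inv_smul_smul]
    · exact Subgroup.mul_mem _ (Subgroup.inv_mem _ s0.2) s.1.2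
    · intro s s' h
      have := congrArg Subtype.val h
      simp only [mul_right_inj] at this
      exact Subtype.ext (Subtype.ext this)
  have hNS : Nat.card ↥(Subgroup.normalizer ((P : Subgroup G) : Set G) ⊓
      Subgroup.centralizer ({x} : Set G)) ≤ 3 := by
    have d1 := Subgroup.card_dvd_of_le (inf_le_left :
      Subgroup.normalizer ((P : Subgroup G) : Set G) ⊓ Subgroup.centralizer ({x} : Set G) ≤ _)
    have d2 := Subgroup.card_dvd_of_le (inf_le_right :
      Subgroup.normalizer ((P : Subgroup G) : Set G) ⊓ Subgroup.centralizer ({x} : Set G) ≤ _)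
    rw [N409 P] at d1
    rw [hS] at d2
    have d3 := Nat.dvd_gcd d1 d2
    have : Nat.gcd (3 * 409) 27 = 3 := by norm_num
    rw [this] at d3
    exact Nat.le_of_dvd (by norm_num) d3
  have himg : Finset.univ.image (fun s : Subgroup.centralizer ({x} : Set G) => (s : G) • P) ⊆
      insert P (Finset.univ.filter (fun Q : Sylow 409 G => x • Q = Q ∧ Q ≠ P)) := by
    intro Q hQ
    obtain ⟨s, -, rfl⟩ := Finset.mem_image.1 hQ
    by_cases h : (s : G) • P = P
    · rw [h]; exact Finset.mem_insert_self _ _
    · apply Finset.mem_insert_of_mem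
      rw [Finset.mem_filter]
      refine ⟨Finset.mem_univ _, ?_, h⟩
      have hcomm : x * (s : G) = (s : G) * x :=
        Subgroup.mem_centralizer_iff.1 s.2 x (Set.mem_singleton x)
      rw [← mul_smul, hcomm, mul_smul, hxP]
  have hF' : Nat.card {Q : Sylow 409 G // x • Q = Q ∧ Q ≠ P} =
      (Finset.univ.filter (fun Q : Sylow 409 G => x • Q = Q ∧ Q ≠ P)).card := by
    rw [Nat.card_eq_fintype_card, Fintype.card_subtype]
  have h3 := Finset.card_le_card himg
  have h4 := Finset.card_insert_le P
    (Finset.univ.filter (fun Q : Sylow 409 G => x • Q = Q ∧ Q ≠ P))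
  have hS' : Fintype.card (Subgroup.centralizer ({x} : Set G)) = 27 := by
    rw [← Nat.card_eq_fintype_card]; exact hS
  rw [hS'] at hlow
  have h5 := Nat.mul_le_mul_right (Finset.univ.image
          (fun s : Subgroup.centralizer ({x} : Set G) => (s : G) • P)).card hNS
  rw [hF'] at hcard
  omega

end Cfsg.Agent.S1002
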