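import Cfsg.Statements.S1013
import Mathlib
import Cfsg.Agent.Lib.helper29.PrimeDeg

set_option autoImplicit false
open Cfsg

namespace Cfsg.Agent.S1013

/-- Let G be a transitive permutation group of prime degree p having more than one Sylow p-subgroup, and suppose a Sylow p-subgroup P has prime index in its normalizer. Then G is simple. -/
theorem result {α : Type*} [Fintype α] [DecidableEq α] {p : ℕ} [Fact p.Prime] (hα : Fintype.card α = p) (G : Subgroup (Equiv.Perm α)) [MulAction.IsPretransitive ↥G α] (P : Sylow p ↥G) (hn : 1 < Nat.card (Sylow p ↥G)) (ht : (((P : Subgroup ↥G).subgroupOf (Subgroup.normalizer ((P : Subgroup ↥G) : Set ↥G))).index).Prime) : IsSimpleGroup ↥G := by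
  have hp : p.Prime := Fact.out
  have hPcard : Nat.card P = p := Cfsg.Agent.Lib.helper29.card_sylow_eq hα G P
  haveI hprim : MulAction.IsPreprimitive G α :=
    MulAction.IsPreprimitive.of_prime_card (by rw [Nat.card_eq_fintype_card, hα]; exact hp)
  have hne : Nonempty α := Fintype.card_pos_iff.mp (by rw [hα]; exact hp.pos)
  haveI : Nontrivial G := by
    have h1 := Cfsg.Agent.Lib.helper29.prime_dvd_card_of_transitive hα G
    apply Finite.one_lt_card_iff_nontrivial.mp
    exact lt_of_lt_of_le hp.one_lt (Nat.le_of_dvd Nat.card_pos h1)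
  refine ⟨fun K hK => ?_⟩
  by_cases hKbot : K = ⊥
  · exact Or.inl hKbot
  right
  haveI := hK
  have hKt : MulAction.IsPretransitive K α := by
    apply MulAction.IsQuasiPreprimitive.isPretransitive_of_normal
    intro hfix
    apply hKbot
    rw [Subgroup.eq_bot_iff_forall]
    intro x hx
    apply Subtype.ext
    ext a
    have h1 : a ∈ MulAction.fixedPoints K α := by rw [hfix]; trivial
    exact h1 ⟨x, hx⟩
  have hpK : p ∣ Nat.card K := by
    obtain ⟨a⟩ := hne
    have h1 := MulAction.index_stabilizer_of_transitive K a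
    rw [Nat.card_eq_fintype_card, hα] at h1
    rw [← h1]; exact Subgroup.index_dvd_card _
  have hpidx : ¬ p ∣ K.index := fun h =>
    Cfsg.Agent.Lib.helper29.sq_not_dvd_card hα G
      (by rw [← Subgroup.card_mul_index K]; exact Nat.mul_dvd_mul hpK h)
  have hPK : (P : Subgroup G) ≤ K := by
    intro y hy
    have hyp : y ^ p = 1 := by
      have h0 := pow_card_eq_one' (G := (P : Subgroup G)) (x := ⟨y, hy⟩)
      rw [hPcard] at h0
      exact congrArg Subtype.val h0
    have h1 : orderOf (QuotientGroup.mk y : G ⧸ K) ∣ p :=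
      orderOf_dvd_of_pow_eq_one (by rw [← QuotientGroup.mk_pow, hyp, QuotientGroup.mk_one])
    have h2 : orderOf (QuotientGroup.mk y : G ⧸ K) ∣ K.index := by
      rw [Subgroup.index_eq_card]; exact orderOf_dvd_natCard _
    have h3 : orderOf (QuotientGroup.mk y : G ⧸ K) = 1 := by
      rcases (Nat.dvd_prime hp).mp h1 with h | h
      · exact h
      · exfalso; rw [h] at h2; exact hpidx h2
    rw [orderOf_eq_one_iff] at h3
    exact (QuotientGroup.eq_one_iff y).mp h3
  obtain ⟨N, hN⟩ : ∃ N : Subgroup G, N = Subgroup.normalizer ((P : Subgroup ↥G) : Set ↥G) :=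
    ⟨_, rfl⟩
  rw [← hN] at ht
  have hPN : (P : Subgroup G) ≤ N := by rw [hN]; exact Subgroup.le_normalizer
  have hfr : N ⊔ K = ⊤ := by rw [hN]; exact Sylow.normalizer_sup_eq_top' P hPK
  have hrel := Subgroup.relIndex_mul_relIndex (H := (P : Subgroup G)) (K := N ⊓ K) (L := N)
    (le_inf hPN hPK) inf_le_left
  have ht' : ((P : Subgroup G).relIndex N).Prime := ht
  rw [← hrel] at ht'
  rcases Nat.prime_mul_iff.mp ht' with ⟨_, h1⟩ | ⟨_, h1⟩
  · have h2 : N ≤ N ⊓ K := Subgroup.relIndex_eq_one.mp h1
    have hNK : N ≤ K := h2.trans inf_le_right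
    rw [← hfr]; exact (sup_eq_right.mpr hNK).symm
  · have hNKP : N ⊓ K ≤ (P : Subgroup G) := Subgroup.relIndex_eq_one.mp h1
    exfalso
    obtain ⟨PK, hPKdef⟩ : ∃ PK : Sylow p K, PK = P.subtype hPK := ⟨_, rfl⟩
    have hPKcoe : (PK : Subgroup K) = (P : Subgroup G).subgroupOf K := by rw [hPKdef]; rfl
    have hcomm : ∀ a b : (P : Subgroup G), a * b = b * a := by
      haveI := isCyclic_of_prime_card hPcard
      intro a b
      obtain ⟨g, hg⟩ := IsCyclic.exists_generator (α := (P : Subgroup G))
      obtain ⟨i, rfl⟩ := Subgroup.mem_zpowers_iff.mp (hg a)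
      obtain ⟨j, rfl⟩ := Subgroup.mem_zpowers_iff.mp (hg b)
      rw [← zpow_add, ← zpow_add, add_comm]
    have hcent : Subgroup.normalizer ((PK : Subgroup K) : Set K) ≤
        Subgroup.centralizer ((PK : Subgroup K) : Set K) := by
      intro x hx
      have hle : (Subgroup.normalizer ((PK : Subgroup K) : Set K)).map K.subtype ≤ N := by
        rw [hN, Subgroup.le_normalizer_iff]
        rintro _ ⟨x, hx, rfl⟩ k hk
        have h3 := (Subgroup.mem_normalizer_iff.mp hx ⟨k, hPK hk⟩).mp
          (by rw [hPKcoe]; exact Subgroup.mem_subgroupOf.mpr hk)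
        rw [hPKcoe] at h3
        exact Subgroup.mem_subgroupOf.mp h3
      have hxN : (x : G) ∈ N := hle ⟨x, hx, rfl⟩
      have hxP : (x : G) ∈ (P : Subgroup G) := hNKP ⟨hxN, x.2⟩
      rw [Subgroup.mem_centralizer_iff]
      intro y hy
      have hyP : (y : G) ∈ (P : Subgroup G) := by
        have hy' : y ∈ (PK : Subgroup K) := hy
        rw [hPKcoe] at hy'
        exact Subgroup.mem_subgroupOf.mp hy'
      have h4 := hcomm ⟨_, hyP⟩ ⟨_, hxP⟩
      apply Subtype.ext
      exact congrArg (fun z : (P : Subgroup G) => (z : G)) h4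
    have hcompl := MonoidHom.ker_transferSylow_isComplement' PK hcent
    have hnd := MonoidHom.not_dvd_card_ker_transferSylow PK hcent
    obtain ⟨M, hM⟩ : ∃ M : Subgroup K, M = (MonoidHom.transferSylow PK hcent).ker := ⟨_, rfl⟩
    rw [← hM] at hcompl hnd
    haveI hMn : M.Normal := by rw [hM]; infer_instance
    haveI hprimK : MulAction.IsPreprimitive K α :=
      MulAction.IsPreprimitive.of_prime_card (by rw [Nat.card_eq_fintype_card, hα]; exact hp)
    have hMbot : M = ⊥ := by
      by_contra hMne
      have hMt : MulAction.IsPretransitive M α := by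
        apply MulAction.IsQuasiPreprimitive.isPretransitive_of_normal
        intro hfix
        apply hMne
        rw [Subgroup.eq_bot_iff_forall]
        intro x hx
        apply Subtype.ext
        apply Subtype.ext
        ext a
        have h1 : a ∈ MulAction.fixedPoints M α := by rw [hfix]; trivial
        exact h1 ⟨x, hx⟩
      apply hnd
      obtain ⟨a⟩ := hne
      have h1 := MulAction.index_stabilizer_of_transitive M a
      rw [Nat.card_eq_fintype_card, hα] at h1
      rw [← h1]; exact Subgroup.index_dvd_card _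
    have hcard := hcompl.card_mul
    rw [hMbot, Subgroup.card_bot, one_mul, hPKcoe,
      Nat.card_congr (Subgroup.subgroupOfEquivOfLe hPK).toEquiv, hPcard] at hcard
    have hPeqK : (P : Subgroup G) = K :=
      Subgroup.eq_of_le_of_card_ge hPK (by rw [hPcard, hcard])
    have hNtop : N = ⊤ := by
      rw [hN, hPeqK]; exact Subgroup.normalizer_eq_top_iff.mpr hK
    have h5 : Nat.card (Sylow p G) = N.index := by
      rw [hN]; exact Sylow.card_eq_index_normalizer P
    rw [hNtop, Subgroup.index_top] at h5
    omega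

end Cfsg.Agent.S1013
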