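import Cfsg.Statements.S1014
import Mathlib
import Cfsg.Agent.Lib.helper29.SylowEmbed

set_option autoImplicit false
open Cfsg

namespace Cfsg.Agent.S1014

/-- No finite simple group has order 1104 = 2^4 * 3 * 23. -/
theorem result {G : Type*} [Group G] [Finite G] [IsSimpleGroup G] : Nat.card G ≠ 1104 := by
  intro hG
  haveI : Fact (Nat.Prime 23) := ⟨by norm_num⟩
  obtain ⟨P⟩ : Nonempty (Sylow 23 G) := inferInstance
  have hP : Nat.card (P : Subgroup G) = 23 :=
    Cfsg.Agent.Lib.helper29.card_sylow_of_eq_mul (m := 48) (by rw [hG]) (by norm_num) P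
  have hmod := card_sylow_modEq_one 23 G
  have hdvd := P.card_dvd_index
  have hidx : (P : Subgroup G).index = 48 := by
    have h0 := Subgroup.card_mul_index (P : Subgroup G)
    rw [hP, hG] at h0
    omega
  rw [hidx] at hdvd
  have hn : Nat.card (Sylow 23 G) = 1 ∨ Nat.card (Sylow 23 G) = 24 := by
    have hle := Nat.le_of_dvd (by norm_num) hdvd
    have key : ∀ n ≤ 48, n ∣ 48 → n % 23 = 1 → n = 1 ∨ n = 24 := by decide
    exact key _ hle hdvd hmod
  rcases hn with hn | hn
  · have hnorm : (P : Subgroup G).Normal := by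
      have h0 := Sylow.card_eq_index_normalizer P
      rw [hn] at h0
      exact Subgroup.normalizer_eq_top_iff.mp (Subgroup.index_eq_one.mp h0.symm)
    rcases hnorm.eq_bot_or_eq_top with h | h
    · rw [h, Subgroup.card_bot] at hP; omega
    · rw [h, Subgroup.card_top, hG] at hP; omega
  · have h1 := Cfsg.Agent.Lib.helper29.two_mul_card_normalizer_dvd_of_simple 23 (by norm_num)
      (by rw [hG]; norm_num) P hP hn
    have h2 : Nat.card (Sylow 23 G) = (Subgroup.normalizer ((P : Subgroup G) : Set G)).index :=
      Sylow.card_eq_index_normalizer P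
    have h3 := Subgroup.card_mul_index (Subgroup.normalizer ((P : Subgroup G) : Set G))
    rw [← h2, hn, hG] at h3
    have h4 : Nat.card (Subgroup.normalizer ((P : Subgroup G) : Set G)) = 46 := by omega
    rw [h4] at h1
    norm_num at h1

end Cfsg.Agent.S1014
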