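import Cfsg.Statements.S1015
import Mathlib
import Cfsg.Agent.Lib.helper29.SylowEmbed
import Cfsg.Agent.Lib.helper29.SimpleIndex
import Cfsg.Agent.S0985

set_option autoImplicit false
open Cfsg

namespace Cfsg.Agent.S1015

/-- No finite simple group has order 1200 = 2^4 * 3 * 5^2. -/
theorem result {G : Type*} [Group G] [Finite G] [IsSimpleGroup G] : Nat.card G ≠ 1200 := by
  intro hG
  haveI : Fact (Nat.Prime 5) := ⟨by norm_num⟩
  obtain ⟨P₀⟩ : Nonempty (Sylow 5 G) := inferInstance
  have hcardP : ∀ Q : Sylow 5 G, Nat.card (Q : Subgroup G) = 25 := fun Q => by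
    have h0 := Cfsg.Agent.Lib.helper29.card_sylow_of_eq_pow_mul (p := 5) (k := 2) (m := 48)
      (by rw [hG]; norm_num) (by norm_num) Q
    rw [h0]; norm_num
  have hmod := card_sylow_modEq_one 5 G
  have hdvd := P₀.card_dvd_index
  have hidx : (P₀ : Subgroup G).index = 48 := by
    have h0 := Subgroup.card_mul_index (P₀ : Subgroup G)
    rw [hcardP, hG] at h0
    omega
  rw [hidx] at hdvd
  have hn : Nat.card (Sylow 5 G) = 1 ∨ Nat.card (Sylow 5 G) = 6 ∨ Nat.card (Sylow 5 G) = 16 := by
    have hle := Nat.le_of_dvd (by norm_num) hdvd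
    have key : ∀ n ≤ 48, n ∣ 48 → n % 5 = 1 → n = 1 ∨ n = 6 ∨ n = 16 := by decide
    exact key _ hle hdvd hmod
  rcases hn with hn | hn | hn
  · have hnorm := Cfsg.Agent.Lib.helper29.sylow_normal_of_card_eq_one P₀ hn
    have hP := hcardP P₀
    rcases hnorm.eq_bot_or_eq_top with h | h
    · rw [h, Subgroup.card_bot] at hP; omega
    · rw [h, Subgroup.card_top, hG] at hP; omega
  · have hinj := Cfsg.Agent.Lib.helper29.sylow_action_injective (G := G) 5 (by rw [hn]; norm_num)
    have h1 := Nat.card_le_card_of_injective _ hinj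
    rw [Nat.card_perm, hn, hG] at h1
    norm_num [Nat.factorial] at h1
  · have hnot : ¬ Nat.card (Sylow 5 G) ≡ 1 [MOD 5 ^ 2] := by rw [hn]; decide
    obtain ⟨P, R, hPR, hle⟩ := Cfsg.Agent.S0985.result 5 2 hnot
    have hle' : ((R : Subgroup G).subgroupOf (P : Subgroup G)).index ≤ 5 := by
      simpa using hle
    have h1 := Subgroup.card_mul_index ((R : Subgroup G).subgroupOf (P : Subgroup G))
    rw [hcardP P] at h1
    have h2 : Nat.card ((R : Subgroup G).subgroupOf (P : Subgroup G)) =
        Nat.card ((P : Subgroup G) ⊓ (R : Subgroup G) : Subgroup G) := by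
      rw [← Subgroup.inf_subgroupOf_left]
      exact Nat.card_congr (Subgroup.subgroupOfEquivOfLe inf_le_left).toEquiv
    have h2' : Nat.card ((P : Subgroup G).subgroupOf (R : Subgroup G)) =
        Nat.card ((P : Subgroup G) ⊓ (R : Subgroup G) : Subgroup G) := by
      rw [← Subgroup.inf_subgroupOf_right]
      exact Nat.card_congr (Subgroup.subgroupOfEquivOfLe inf_le_right).toEquiv
    have hi1 : ((R : Subgroup G).subgroupOf (P : Subgroup G)).index ≠ 1 := by
      intro hi
      rw [Subgroup.index_eq_one, Subgroup.subgroupOf_eq_top] at hi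
      apply hPR
      apply Sylow.ext
      exact Subgroup.eq_of_le_of_card_ge hi (by rw [hcardP, hcardP])
    have hi0 : ((R : Subgroup G).subgroupOf (P : Subgroup G)).index ≠ 0 := by
      intro hi
      rw [hi] at h1
      omega
    have hD : Nat.card ((P : Subgroup G) ⊓ (R : Subgroup G) : Subgroup G) = 5 ∧
        ((R : Subgroup G).subgroupOf (P : Subgroup G)).index = 5 := by
      rw [h2] at h1
      obtain ⟨i, hi⟩ : ∃ i, i = ((R : Subgroup G).subgroupOf (P : Subgroup G)).index := ⟨_, rfl⟩
      rw [← hi] at h1 hle' hi1 hi0 ⊢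
      interval_cases i <;> omega
    have hnP : ((R : Subgroup G).subgroupOf (P : Subgroup G)).Normal := by
      apply Subgroup.normal_of_index_eq_minFac_card
      rw [hD.2, hcardP]
      norm_num
    have hiR : ((P : Subgroup G).subgroupOf (R : Subgroup G)).index = 5 := by
      have h3 := Subgroup.card_mul_index ((P : Subgroup G).subgroupOf (R : Subgroup G))
      rw [hcardP R, h2', hD.1] at h3
      omega
    have hnR : ((P : Subgroup G).subgroupOf (R : Subgroup G)).Normal := by
      apply Subgroup.normal_of_index_eq_minFac_card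
      rw [hiR, hcardP]
      norm_num
    obtain ⟨D, hDdef⟩ : ∃ D : Subgroup G, D = (P : Subgroup G) ⊓ (R : Subgroup G) := ⟨_, rfl⟩
    rw [← hDdef] at hD
    have hPN : (P : Subgroup G) ≤ Subgroup.normalizer (D : Set G) := by
      apply (Subgroup.normal_subgroupOf_iff_le_normalizer (by rw [hDdef]; exact inf_le_left)).mp
      rw [hDdef, Subgroup.inf_subgroupOf_left]
      exact hnP
    have hRN : (R : Subgroup G) ≤ Subgroup.normalizer (D : Set G) := by
      apply (Subgroup.normal_subgroupOf_iff_le_normalizer (by rw [hDdef]; exact inf_le_right)).mp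
      rw [hDdef, Subgroup.inf_subgroupOf_right]
      exact hnR
    obtain ⟨N, hNdef⟩ : ∃ N : Subgroup G, N = Subgroup.normalizer (D : Set G) := ⟨_, rfl⟩
    rw [← hNdef] at hPN hRN
    have hNtop : N ≠ ⊤ := by
      intro hN
      rw [hNdef] at hN
      have hDn : D.Normal := Subgroup.normalizer_eq_top_iff.mp hN
      have hD1 := hD.1
      rcases hDn.eq_bot_or_eq_top with h | h
      · rw [h, Subgroup.card_bot] at hD1; omega
      · rw [h, Subgroup.card_top, hG] at hD1; omega
    have hne : P.subtype hPN ≠ R.subtype hRN := fun h => hPR (Sylow.subtype_injective h)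
    have hgt : 1 < Nat.card (Sylow 5 N) :=
      Finite.one_lt_card_iff_nontrivial.mpr ⟨P.subtype hPN, R.subtype hRN, hne⟩
    have hmodN := card_sylow_modEq_one 5 N
    have hge6 : 6 ≤ Nat.card (Sylow 5 N) := by
      have h5 : Nat.card (Sylow 5 N) % 5 = 1 := hmodN
      omega
    have hdvdN := (P.subtype hPN).card_dvd_index
    have hcN := Subgroup.card_mul_index ((P.subtype hPN : Sylow 5 N) : Subgroup N)
    have hcPN : Nat.card ((P.subtype hPN : Sylow 5 N) : Subgroup N) = 25 := by
      rw [Sylow.coe_subtype, Nat.card_congr (Subgroup.subgroupOfEquivOfLe hPN).toEquiv, hcardP]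
    rw [hcPN] at hcN
    have hidxpos : 0 < ((P.subtype hPN : Sylow 5 N) : Subgroup N).index := by
      rcases Nat.eq_zero_or_pos ((P.subtype hPN : Sylow 5 N) : Subgroup N).index with h | h
      · rw [h] at hcN
        have : 0 < Nat.card N := Nat.card_pos
        omega
      · exact h
    have hidx6 : 6 ≤ ((P.subtype hPN : Sylow 5 N) : Subgroup N).index :=
      hge6.trans (Nat.le_of_dvd hidxpos hdvdN)
    have h150 : 150 ≤ Nat.card N := by omega
    have hm := Subgroup.card_mul_index N
    rw [hG] at hm
    have hm8 : N.index ≤ 8 := by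
      by_contra hcon
      have h9 : 9 ≤ N.index := by omega
      have h10 : 150 * 9 ≤ Nat.card N * N.index := Nat.mul_le_mul h150 h9
      omega
    have hfin := Cfsg.Agent.Lib.helper29.card_dvd_factorial_index_of_simple N hNtop
    rw [hG] at hfin
    have h8 : 1200 ∣ Nat.factorial 8 := hfin.trans (Nat.factorial_dvd_factorial hm8)
    norm_num [Nat.factorial] at h8

end Cfsg.Agent.S1015
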