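import Mathlib
import Cfsg.Statements.S1019

set_option autoImplicit false
open Cfsg

namespace Cfsg.Agent.S1019

/-- the number of `g` with `g⁻¹ x g ∈ S` is `|class(x) ∩ S| * |C(x)|` -/
theorem card_conj_mem {G : Type*} [Group G] [Finite G] (x : G) (S : Set G) :
    Nat.card {g : G // g⁻¹ * x * g ∈ S}
      = Nat.card {y : G // IsConj x y ∧ y ∈ S} * Nat.card (Subgroup.centralizer ({x} : Set G)) := by
  classical
  rw [← Nat.card_prod]
  have hex : ∀ y : {y : G // IsConj x y ∧ y ∈ S}, ∃ r : G, r⁻¹ * x * r = y.1 := by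
    intro y
    obtain ⟨c, hc⟩ := isConj_iff.mp y.2.1
    exact ⟨c⁻¹, by rw [← hc]; group⟩
  choose r hr using hex
  have hcent : ∀ c : Subgroup.centralizer ({x} : Set G), (c : G) * x = x * (c : G) := by
    intro c
    exact (Subgroup.mem_centralizer_iff.mp c.2 x rfl).symm
  apply Nat.card_congr
  refine
    { toFun := fun g => (⟨g.1⁻¹ * x * g.1, isConj_iff.mpr ⟨g.1⁻¹, by group⟩, g.2⟩,
        ⟨g.1 * (r ⟨g.1⁻¹ * x * g.1, isConj_iff.mpr ⟨g.1⁻¹, by group⟩, g.2⟩)⁻¹, ?_⟩)
      invFun := fun yc => ⟨(yc.2 : G) * r yc.1, ?_⟩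
      left_inv := ?_
      right_inv := ?_ }
  · rw [Subgroup.mem_centralizer_iff]
    intro w hw
    rw [Set.mem_singleton_iff] at hw
    subst hw
    have h := hr ⟨g.1⁻¹ * w * g.1, isConj_iff.mpr ⟨g.1⁻¹, by group⟩, g.2⟩
    simp only at h
    set rr := r ⟨g.1⁻¹ * w * g.1, isConj_iff.mpr ⟨g.1⁻¹, by group⟩, g.2⟩ with hrr
    have h2 : w * rr = rr * (g.1⁻¹ * w * g.1) := by rw [← h]; group
    have h3 : g.1 * (g.1⁻¹ * w * g.1) = w * g.1 := by group
    calc w * (g.1 * rr⁻¹) = w * g.1 * rr⁻¹ := by group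
      _ = g.1 * (g.1⁻¹ * w * g.1) * rr⁻¹ := by rw [h3]
      _ = g.1 * (rr⁻¹ * (rr * (g.1⁻¹ * w * g.1))) * rr⁻¹ := by group
      _ = g.1 * (rr⁻¹ * (w * rr)) * rr⁻¹ := by rw [h2]
      _ = g.1 * rr⁻¹ * w := by group
  · have h := hr yc.1
    have hc := hcent yc.2
    have : ((yc.2 : G) * r yc.1)⁻¹ * x * ((yc.2 : G) * r yc.1) = (yc.1 : G) := by
      calc ((yc.2 : G) * r yc.1)⁻¹ * x * ((yc.2 : G) * r yc.1)
          = (r yc.1)⁻¹ * ((yc.2 : G)⁻¹ * (x * (yc.2 : G))) * r yc.1 := by group
        _ = (r yc.1)⁻¹ * ((yc.2 : G)⁻¹ * ((yc.2 : G) * x)) * r yc.1 := by rw [hc]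
        _ = (r yc.1)⁻¹ * x * r yc.1 := by group
        _ = yc.1 := h
    rw [this]
    exact yc.1.2.2
  · intro g
    apply Subtype.ext
    simp
  · rintro ⟨y, c⟩
    have h := hr y
    have hc := hcent c
    have e1 : ((c : G) * r y)⁻¹ * x * ((c : G) * r y) = (y : G) := by
      calc ((c : G) * r y)⁻¹ * x * ((c : G) * r y)
          = (r y)⁻¹ * ((c : G)⁻¹ * (x * (c : G))) * r y := by group
        _ = (r y)⁻¹ * ((c : G)⁻¹ * ((c : G) * x)) * r y := by rw [hc]
        _ = (r y)⁻¹ * x * r y := by group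
        _ = y := h
    have e2 : (⟨((c : G) * r y)⁻¹ * x * ((c : G) * r y), isConj_iff.mpr ⟨((c : G) * r y)⁻¹, by group⟩,
        by rw [e1]; exact y.2.2⟩ : {y : G // IsConj x y ∧ y ∈ S}) = y := Subtype.ext e1
    apply Prod.ext
    · exact e2
    · apply Subtype.ext
      simp only
      rw [e2]
      group

/-- Let H be a subgroup of a finite group G and x an element of H. In the action of G on the left cosets of H, the number of cosets fixed by x, multiplied by the size of the conjugacy class of x, equals the index of H multiplied by the number of conjugates of x that lie in H. -/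
theorem result {G : Type*} [Group G] [Finite G] (H : Subgroup G) (x : G) (hx : x ∈ H) : Nat.card (MulAction.fixedBy (G ⧸ H) x) * Nat.card {g : G // IsConj x g} = H.index * Nat.card {g : G // IsConj x g ∧ g ∈ H} := by
  have h1 := card_conj_mem x (H : Set G)
  have h2 := card_conj_mem x (Set.univ : Set G)
  have h3 := QuotientGroup.card_preimage_mk H (MulAction.fixedBy (G ⧸ H) x)
  have h4 : Nat.card {g : G // g⁻¹ * x * g ∈ (H : Set G)}
      = Nat.card (QuotientGroup.mk ⁻¹' (MulAction.fixedBy (G ⧸ H) x) : Set G) := by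
    apply Nat.card_congr
    apply Equiv.subtypeEquivRight
    intro g
    rw [Set.mem_preimage, MulAction.mem_fixedBy, MulAction.Quotient.smul_mk, QuotientGroup.eq]
    simp only [SetLike.mem_coe, smul_eq_mul, mul_inv_rev]
    constructor
    · intro h
      have := H.inv_mem h
      simpa [mul_assoc] using this
    · intro h
      have := H.inv_mem h
      simpa [mul_assoc] using this
  have h5 : Nat.card {g : G // g⁻¹ * x * g ∈ (Set.univ : Set G)} = Nat.card G := by
    apply Nat.card_congr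
    exact Equiv.subtypeUnivEquiv (fun g => Set.mem_univ _)
  have h6 : Nat.card {y : G // IsConj x y ∧ y ∈ (Set.univ : Set G)} = Nat.card {g : G // IsConj x g} := by
    apply Nat.card_congr
    apply Equiv.subtypeEquivRight
    intro g
    simp
  have h7 : Nat.card H * H.index = Nat.card G := H.card_mul_index
  have h8 : Nat.card {y : G // IsConj x y ∧ y ∈ (H : Set G)}
      = Nat.card {g : G // IsConj x g ∧ g ∈ H} := rfl
  rw [h4, h3, h8] at h1
  rw [h5, h6] at h2
  have hH : 0 < Nat.card H := Nat.card_pos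
  have hC : 0 < Nat.card (Subgroup.centralizer ({x} : Set G)) := Nat.card_pos
  have key : (Nat.card (MulAction.fixedBy (G ⧸ H) x) * Nat.card {g : G // IsConj x g})
      * (Nat.card H * Nat.card (Subgroup.centralizer ({x} : Set G)))
      = (H.index * Nat.card {g : G // IsConj x g ∧ g ∈ H})
      * (Nat.card H * Nat.card (Subgroup.centralizer ({x} : Set G))) := by
    have e1 : (Nat.card (MulAction.fixedBy (G ⧸ H) x) * Nat.card {g : G // IsConj x g})
      * (Nat.card H * Nat.card (Subgroup.centralizer ({x} : Set G)))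
      = (Nat.card H * Nat.card (MulAction.fixedBy (G ⧸ H) x))
        * (Nat.card {g : G // IsConj x g} * Nat.card (Subgroup.centralizer ({x} : Set G))) := by ring
    rw [e1, h1, ← h2, ← h7]
    ring
  exact Nat.eq_of_mul_eq_mul_right (Nat.mul_pos hH hC) key

end Cfsg.Agent.S1019
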