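import Cfsg.Statements.S1030
import Cfsg.Agent.Lib.helper11d.Sl2b

set_option autoImplicit false
open Cfsg

namespace Cfsg.Agent.S1030
open Cfsg Cfsg.Lie Cfsg.Agent.Lib.helper11

/-- There is a homomorphism `SL₂(F) → GL` with image `⟨X_r, X_{-r}⟩` sending `[[1,t],[0,1]]` to `x_r(t)` and `[[1,0],[t,1]]` to `x_{-r}(t)`. -/
theorem result {F : Type*} [Field F] (D : Cfsg.Lie.ChevalleyDatum) (hD : D ∈ [Cfsg.Lie.chevG2, Cfsg.Lie.chevB2, Cfsg.Lie.chevD4, Cfsg.Lie.chevF4, Cfsg.Lie.chevE6, Cfsg.Lie.chevE7, Cfsg.Lie.chevE8]) (r : ℕ) (hr : r < D.nroots) :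
    ∃ φ : Matrix.SpecialLinearGroup (Fin 2) F →* GL D.Idx F,
      φ.range = D.rootSubgroup F r ⊔ D.rootSubgroup F (D.neg r) ∧
      ∀ (g : Matrix.SpecialLinearGroup (Fin 2) F) (t : F),
        ((g : Matrix (Fin 2) (Fin 2) F) = !![1, t; 0, 1] → ((φ g : GL D.Idx F) : Matrix D.Idx D.Idx F) = D.x F r t) ∧
        ((g : Matrix (Fin 2) (Fin 2) F) = !![1, 0; t, 1] → ((φ g : GL D.Idx F) : Matrix D.Idx D.Idx F) = D.x F (D.neg r) t) := by
  obtain ⟨φ, h1, h2, h3⟩ := sl2P_all F D hD r hr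
  refine ⟨φ, h1, fun g t => ⟨fun hg => ?_, fun hg => ?_⟩⟩
  · have e : g = sl2x t := Subtype.ext hg
    rw [e, h2]
    rfl
  · have e : g = sl2y t := Subtype.ext hg
    rw [e, h3]
    rfl

end Cfsg.Agent.S1030
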