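import Cfsg.Statements.S1038
import Cfsg.Agent.Lib.helper11.ChevHAll
import Cfsg.Agent.Lib.helper11.ChevMono
import Cfsg.Agent.Lib.helper11.ChevTriOK

set_option autoImplicit false
open Cfsg

namespace Cfsg.Agent.S1038
open Cfsg Cfsg.Lie Cfsg.Agent.Lib.helper11

theorem main0 {F : Type*} [Field F] (D : ChevalleyDatum)
    (hD : D ∈ [chevG2, chevB2, chevD4, chevF4, chevE6, chevE7, chevE8]) (hnx : NXAll D)
    (hc : HCert D) :
    ((D.diagonalSubgroup F).subgroupOf (D.monomialSubgroup F)).Normal := by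
  have hle : D.diagonalSubgroup F ≤ D.monomialSubgroup F := by
    unfold ChevalleyDatum.monomialSubgroup
    exact le_sup_left
  exact (Subgroup.normal_subgroupOf_iff_le_normalizer hle).mpr (mono_le_normalizer D hD hnx hc)


theorem main {F : Type*} [Field F] (D : ChevalleyDatum)
    (hD : D ∈ [chevG2, chevB2, chevD4, chevF4, chevE6, chevE7, chevE8]) :
    ((D.diagonalSubgroup F).subgroupOf (D.monomialSubgroup F)).Normal :=
  main0 D hD (nxAll_of_mem D hD) (hcert_of_mem D hD)


/-- The diagonal subgroup `H` (generated by the `h_r(t)`, `t ≠ 0`) is normal in the monomial subgroup `N` (generated by `H` and the `n_r`). -/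
theorem result {F : Type*} [Field F] (D : Cfsg.Lie.ChevalleyDatum) (hD : D ∈ [Cfsg.Lie.chevG2, Cfsg.Lie.chevB2, Cfsg.Lie.chevD4, Cfsg.Lie.chevF4, Cfsg.Lie.chevE6, Cfsg.Lie.chevE7, Cfsg.Lie.chevE8]) : ((D.diagonalSubgroup F).subgroupOf (D.monomialSubgroup F)).Normal := by
  exact main D hD

end Cfsg.Agent.S1038
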