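import Cfsg.Statements.S1044
import Cfsg.Agent.Lib.helper11.ChevBN2
import Cfsg.Agent.Lib.helper11.ChevCommAll
import Cfsg.Agent.Lib.helper11.ChevParaOK
import Cfsg.Agent.Lib.helper11.ChevTriOK

set_option autoImplicit false
open Cfsg

namespace Cfsg.Agent.S1044
open Cfsg Cfsg.Lie Cfsg.Agent.Lib.helper11

theorem main0 {F : Type*} [Field F] (D : ChevalleyDatum)
    (hD : D ∈ [chevG2, chevB2, chevD4, chevF4, chevE6, chevE7, chevE8]) (hnx : NXAll D)
    (hc : HCert D) (htri : triOK D = true) (hup : UpCert D) (hcomm : CommAll F D)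
    (i : ℕ) (hi : i < D.rank) :
    ∃ P : Subgroup (GL D.Idx F), (P : Set (GL D.Idx F)) =
      (D.borelSubgroup F : Set (GL D.Idx F)) ∪
        DoubleCoset.doubleCoset (nU D hD (D.simple i) (1 : F))
          (D.borelSubgroup F : Set (GL D.Idx F)) (D.borelSubgroup F) := by
  have hpl := simple_lt D hc i hi
  have hHB : D.diagonalSubgroup F ≤ D.borelSubgroup F := le_sup_right
  have hsq : nU D hD (D.simple i) (1 : F) * nU D hD (D.simple i) 1 ∈ D.borelSubgroup F := by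
    rw [nU_sq D hD hnx _ hpl]
    exact hHB (inv_mem (hU_mem_diag D hD _ hpl _ (by simp)))
  have hsN : nU D hD (D.simple i) (1 : F) ∈ D.monomialSubgroup F := nU_mem_mono D hD _ hpl
  refine ⟨Subgroup.mk (Submonoid.mk (Subsemigroup.mk ((D.borelSubgroup F : Set (GL D.Idx F)) ∪
        DoubleCoset.doubleCoset (nU D hD (D.simple i) (1 : F))
          (D.borelSubgroup F : Set (GL D.Idx F)) (D.borelSubgroup F)) ?_)
            (Or.inl (one_mem _))) ?_, rfl⟩
  · rintro a b (ha | ha) (hb | hb)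
    · exact Or.inl (mul_mem ha hb)
    · right
      rw [DoubleCoset.mem_doubleCoset] at hb ⊢
      obtain ⟨b₁, hb₁, b₂, hb₂, rfl⟩ := hb
      exact ⟨a * b₁, mul_mem ha hb₁, b₂, hb₂, by group⟩
    · right
      rw [DoubleCoset.mem_doubleCoset] at ha ⊢
      obtain ⟨b₁, hb₁, b₂, hb₂, rfl⟩ := ha
      exact ⟨b₁, hb₁, b₂ * b, mul_mem hb₂ hb, by group⟩
    · rw [DoubleCoset.mem_doubleCoset] at ha hb
      obtain ⟨a₁, ha₁, a₂, ha₂, rfl⟩ := ha
      obtain ⟨b₁, hb₁, b₂, hb₂, rfl⟩ := hb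
      rcases bn_axiom D hD hnx hc htri hup hcomm i hi _ (a₂ * b₁) hsN (mul_mem ha₂ hb₁) with
        ⟨c₁, hc₁, c₂, hc₂, e⟩ | ⟨c₁, hc₁, c₂, hc₂, e⟩
      · left
        have e' : a₁ * nU D hD (D.simple i) (1 : F) * a₂ * (b₁ * nU D hD (D.simple i) 1 * b₂) =
            a₁ * (nU D hD (D.simple i) 1 * (a₂ * b₁) * nU D hD (D.simple i) 1) * b₂ := by group
        show _ ∈ D.borelSubgroup F
        rw [e', e]
        exact mul_mem (mul_mem ha₁ (mul_mem (mul_mem hc₁ hsq) hc₂)) hb₂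
      · right
        rw [DoubleCoset.mem_doubleCoset]
        refine ⟨a₁ * c₁, mul_mem ha₁ hc₁, c₂ * b₂, mul_mem hc₂ hb₂, ?_⟩
        have e' : a₁ * nU D hD (D.simple i) (1 : F) * a₂ * (b₁ * nU D hD (D.simple i) 1 * b₂) =
            a₁ * (nU D hD (D.simple i) 1 * (a₂ * b₁) * nU D hD (D.simple i) 1) * b₂ := by group
        rw [e', e]
        group
  · rintro a (ha | ha)
    · exact Or.inl (inv_mem ha)
    · right
      rw [DoubleCoset.mem_doubleCoset] at ha ⊢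
      obtain ⟨a₁, ha₁, a₂, ha₂, rfl⟩ := ha
      refine ⟨a₂⁻¹, inv_mem ha₂,
        (nU D hD (D.simple i) (1 : F) * nU D hD (D.simple i) 1)⁻¹ * a₁⁻¹,
        mul_mem (inv_mem hsq) (inv_mem ha₁), ?_⟩
      group

theorem main {F : Type*} [Field F] (D : ChevalleyDatum)
    (hD : D ∈ [chevG2, chevB2, chevD4, chevF4, chevE6, chevE7, chevE8]) (i : ℕ) (hi : i < D.rank)
    (n : GL D.Idx F) (hn : (n : Matrix D.Idx D.Idx F) = D.nMat F (D.simple i) 1) :
    ∃ P : Subgroup (GL D.Idx F), (P : Set (GL D.Idx F)) =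
      (D.borelSubgroup F : Set (GL D.Idx F)) ∪
        DoubleCoset.doubleCoset n (D.borelSubgroup F : Set (GL D.Idx F)) (D.borelSubgroup F) := by
  rw [eq_nU D hD _ 1 n hn]
  exact main0 D hD (nxAll_of_mem D hD) (hcert_of_mem D hD) (tri_of_mem D hD) (upcert_of_mem D hD)
    (fun r hr s hs h1 h2 => commRel_of_mem F D hD r s hr hs h1 h2) i hi


/-- For a fundamental root `p` the set `B ∪ B n_p B` is (the carrier of) a subgroup of the general linear group. -/
theorem result {F : Type*} [Field F] (D : Cfsg.Lie.ChevalleyDatum) (hD : D ∈ [Cfsg.Lie.chevG2, Cfsg.Lie.chevB2, Cfsg.Lie.chevD4, Cfsg.Lie.chevF4, Cfsg.Lie.chevE6, Cfsg.Lie.chevE7, Cfsg.Lie.chevE8]) (i : ℕ) (hi : i < D.rank) (n : GL D.Idx F)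
    (hn : (n : Matrix D.Idx D.Idx F) = D.nMat F (D.simple i) 1) :
    ∃ P : Subgroup (GL D.Idx F), (P : Set (GL D.Idx F)) =
      (D.borelSubgroup F : Set (GL D.Idx F)) ∪ DoubleCoset.doubleCoset n (D.borelSubgroup F : Set (GL D.Idx F)) (D.borelSubgroup F) := by
  exact main D hD i hi n hn

end Cfsg.Agent.S1044
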