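import Cfsg.Statements.S1048
import Cfsg.Agent.Lib.helper11d.Par3
import Cfsg.Agent.Lib.helper11d.Par1OK
import Cfsg.Agent.Lib.helper11.ChevCommAll
import Cfsg.Agent.Lib.helper11.ChevParaOK
import Cfsg.Agent.Lib.helper11.ChevTriOK

set_option autoImplicit false
open Cfsg

namespace Cfsg.Agent.S1048
open Cfsg Cfsg.Lie Cfsg.Agent.Lib.helper11

/-- `U_J ⊴ P_J`, `P_J = U_J L_J` and `U_J ∩ L_J = 1` (Levi decomposition of the standard parabolic subgroup). -/
theorem result {F : Type*} [Field F] (D : Cfsg.Lie.ChevalleyDatum) (hD : D ∈ [Cfsg.Lie.chevG2, Cfsg.Lie.chevB2, Cfsg.Lie.chevD4, Cfsg.Lie.chevF4, Cfsg.Lie.chevE6, Cfsg.Lie.chevE7, Cfsg.Lie.chevE8]) (J : Set ℕ) :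
    D.parabolicSubgroup F J ≤ Subgroup.normalizer (D.unipotentRadical F J : Set (GL D.Idx F)) ∧
      D.unipotentRadical F J ⊔ D.leviSubgroup F J = D.parabolicSubgroup F J ∧
      D.unipotentRadical F J ⊓ D.leviSubgroup F J = ⊥ := by
  exact ⟨para_le_normalizer D hD (nxAll_of_mem D hD) (hcert_of_mem D hD) (upcert_of_mem D hD)
      (rootLen D) (wtcert_of_mem D hD) (simp_of_mem D hD) (tri_of_mem D hD)
      (fun r hr s hs h1 h2 => commRel_of_mem F D hD r s hr hs h1 h2) J,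
    rad_sup_levi D hD (nxAll_of_mem D hD) (hcert_of_mem D hD) (climb_of_mem D hD)
      (simp_of_mem D hD) J,
    rad_inf_levi D hD (nxAll_of_mem D hD) (hcert_of_mem D hD) (rootLen D) (wtcert_of_mem D hD) J⟩

end Cfsg.Agent.S1048
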