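import Cfsg.Statements.S1049
import Cfsg.Agent.Lib.helper11d.Par2
import Cfsg.Agent.Lib.helper11d.Par1OK
import Cfsg.Agent.Lib.helper11.ChevCommAll
import Cfsg.Agent.Lib.helper11.ChevParaOK
import Cfsg.Agent.Lib.helper11.ChevTriOK

set_option autoImplicit false
open Cfsg

namespace Cfsg.Agent.S1049
open Cfsg Cfsg.Lie Cfsg.Agent.Lib.helper11

/-- `N_G(U_J) = P_J`: the normaliser of `U_J` inside the Chevalley group is the standard parabolic subgroup. -/
theorem result {F : Type*} [Field F] (D : Cfsg.Lie.ChevalleyDatum) (hD : D ∈ [Cfsg.Lie.chevG2, Cfsg.Lie.chevB2, Cfsg.Lie.chevD4, Cfsg.Lie.chevF4, Cfsg.Lie.chevE6, Cfsg.Lie.chevE7, Cfsg.Lie.chevE8]) (J : Set ℕ) (hJ : ∀ j ∈ J, j < D.rank) :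
    Subgroup.normalizer (D.unipotentRadical F J : Set (GL D.Idx F)) ⊓ D.group F = D.parabolicSubgroup F J := by
  exact normalizer_rad_eq D hD (nxAll_of_mem D hD) (hcert_of_mem D hD) (upcert_of_mem D hD)
    (rootLen D) (wtcert_of_mem D hD) (simp_of_mem D hD) (tri_of_mem D hD)
    (fun r hr s hs h1 h2 => commRel_of_mem F D hD r s hr hs h1 h2) J hJ

end Cfsg.Agent.S1049
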