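import Cfsg.Statements.S1054
import Cfsg.Agent.Lib.helper11.ChevSimpleOK

set_option autoImplicit false
open Cfsg

namespace Cfsg.Agent.S1054
open Cfsg Cfsg.Lie Cfsg.Agent.Lib.helper11

theorem main {F : Type*} [Field F] (D : ChevalleyDatum)
    (hD : D ∈ [chevD4, chevF4, chevE6, chevE7, chevE8]) :
    IsSimpleGroup ↥(D.group F) ∧ ¬ IsMulCommutative ↥(D.group F) := by
  have hD' : D ∈ [chevG2, chevB2, chevD4, chevF4, chevE6, chevE7, chevE8] := by
    simp only [List.mem_cons, List.not_mem_nil, or_false] at hD ⊢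
    tauto
  apply simple_of_mem D hD'
  intro h
  exfalso
  simp only [List.mem_cons, List.not_mem_nil, or_false] at hD
  have hr : D.rank ≠ 2 := by
    rcases hD with rfl | rfl | rfl | rfl | rfl <;> decide
  rcases h with rfl | rfl <;> exact hr rfl


/-- The Chevalley groups of types D₄, F₄, E₆, E₇, E₈ are simple over every field. -/
theorem result {F : Type*} [Field F] (D : Cfsg.Lie.ChevalleyDatum)
    (hD : D ∈ [Cfsg.Lie.chevD4, Cfsg.Lie.chevF4, Cfsg.Lie.chevE6, Cfsg.Lie.chevE7, Cfsg.Lie.chevE8]) :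
    IsSimpleGroup ↥(D.group F) ∧ ¬ IsMulCommutative ↥(D.group F) := by
  exact main D hD

end Cfsg.Agent.S1054
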