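import Cfsg.Statements.S1058
import Cfsg.Agent.Lib.helper11d.PermRep1
import Cfsg.Agent.S1060

set_option autoImplicit false
open Cfsg

namespace Cfsg.Agent.S1058
open Cfsg Cfsg.Lie Cfsg.Agent.Lib.helper11

def b2W : List (List ℤ) := [[0, 1, 0, 0, 0, 1, 1, 0, 0, 0], [0, 1, 0, 0, 0, 1, 1, 0, 0, 1],
  [0, 1, 1, 0, 0, 1, 1, 0, 0, 0], [0, 1, 1, 0, 0, 1, 0, 0, 0, 1], [0, 1, 1, 0, 0, 0, 1, 0, 0, 1],
  [0, 1, 1, 0, 0, 0, 0, 0, 0, 1]]

def b2P : List (List ℕ) := [[1, 0, 2, 3, 4, 5], [1, 0, 3, 2, 5, 4], [1, 0, 4, 5, 2, 3],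
  [0, 1, 2, 3, 5, 4], [0, 1, 2, 5, 4, 3], [2, 3, 0, 1, 5, 4], [2, 4, 0, 5, 1, 3],
  [2, 1, 0, 3, 4, 5]]

def b2Fun (r : ℕ) (i : Fin 6) : Fin 6 :=
  Fin.ofNat 6 ((b2P.getD r [0, 1, 2, 3, 4, 5]).getD i.val 0)

theorem b2Fun_invol (r : ℕ) : ∀ i : Fin 6, b2Fun r (b2Fun r i) = i := by
  by_cases hr : r < 8
  · interval_cases r <;> decide
  · have h : b2P.getD r [0, 1, 2, 3, 4, 5] = [0, 1, 2, 3, 4, 5] := by
      rw [List.getD_eq_getElem?_getD, List.getElem?_eq_none (by simp [b2P]; omega)]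
      rfl
    unfold b2Fun
    rw [h]
    decide

def b2Perm (r : ℕ) : Equiv.Perm (Fin 6) := ⟨b2Fun r, b2Fun r, b2Fun_invol r, b2Fun_invol r⟩

def b2Sep : Bool := (List.range 6).all fun i => (List.range 6).all fun j =>
  i == j || (List.range 10).any fun k =>
    decide (((b2W.getD i []).getD k 0 - (b2W.getD j []).getD k 0) % 2 = 1)

theorem b2Sep_ok : b2Sep = true := by decide +kernel

theorem b2Act_ok : ∀ r < 8, ∀ i : Fin 6,
    actOK chevB2 (b2W.getD i.val []) (b2W.getD (b2Fun r i).val []) r = true := by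
  decide +kernel

theorem b2Len_ok : ∀ i : Fin 6, (b2W.getD i.val []).length = 10 := by decide

theorem rowV_ne (F : Type*) [Field F] [CharP F 2] (D : ChevalleyDatum) (l l' : List ℤ) (k : ℕ)
    (hk : k < D.rank + D.nroots) (h : (l.getD k 0 - l'.getD k 0) % 2 = 1) :
    rowV F D l ≠ rowV F D l' := by
  intro heq
  obtain ⟨col, hcol⟩ := exists_code D k hk
  have h1 := congrFun heq col
  unfold rowV at h1
  rw [hcol, ← sub_eq_zero, ← Int.cast_sub, CharP.intCast_eq_zero_iff F 2] at h1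
  omega

theorem main {F : Type*} [Field F] [Fintype F] (hF : Fintype.card F = 2) :
    Nonempty (↥(chevB2.group F) ≃* Equiv.Perm (Fin 6)) := by
  have hD : chevB2 ∈ [chevG2, chevB2, chevD4, chevF4, chevE6, chevE7, chevE8] := by simp
  have h01 : ∀ t : F, t = 0 ∨ t = 1 := by
    intro t
    by_contra hcon
    push_neg at hcon
    classical
    have h3 : ({0, 1, t} : Finset F).card = 3 := by
      rw [Finset.card_insert_of_notMem, Finset.card_insert_of_notMem, Finset.card_singleton]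
      · simpa using hcon.2.symm
      · simp only [Finset.mem_insert, Finset.mem_singleton, not_or]
        exact ⟨zero_ne_one, hcon.1.symm⟩
    have := Finset.card_le_univ ({0, 1, t} : Finset F)
    omega
  have h2 : (2 : F) = 0 := by
    have : (1 : F) + 1 = 2 := by norm_num
    rcases h01 (1 + 1) with h | h
    · rw [← this, h]
    · exact absurd (add_eq_right.mp h) one_ne_zero
  haveI : CharP F 2 := CharTwo.of_one_ne_zero_of_two_eq_zero one_ne_zero h2
  have hinj : Function.Injective (fun i : Fin 6 => rowV F chevB2 (b2W.getD i.val [])) := by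
    intro i j h
    by_contra hne
    have hs := b2Sep_ok
    unfold b2Sep at hs
    rw [List.all_eq_true] at hs
    have h1 := hs i.val (List.mem_range.mpr i.isLt)
    rw [List.all_eq_true] at h1
    have h2 := h1 j.val (List.mem_range.mpr j.isLt)
    rw [Bool.or_eq_true, beq_iff_eq, List.any_eq_true] at h2
    rcases h2 with h2 | ⟨k, hk, h2⟩
    · exact hne (Fin.ext h2)
    · rw [List.mem_range] at hk
      rw [decide_eq_true_eq] at h2
      exact rowV_ne F chevB2 _ _ k (by show k < 2 + 8; omega) h2 h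
  have hact : ∀ r < chevB2.nroots, ∀ i : Fin 6,
      Matrix.vecMul (rowV F chevB2 (b2W.getD i.val [])) (chevB2.x F r 1) =
        rowV F chevB2 (b2W.getD (b2Perm r i).val []) := by
    intro r hr i
    exact act_of_cert chevB2 hD _ _ (b2Len_ok i) r hr (b2Act_ok r hr i)
  obtain ⟨φ, hφ⟩ := perm_rep h01 chevB2 hD 6 _ hinj b2Perm hact
  have hg : ∀ r < 8, b2Perm r ∈ φ.range := fun r hr => ⟨_, hφ r hr⟩
  have hs0 : Equiv.swap (Fin.castSucc (0 : Fin 5)) (Fin.succ 0) ∈ φ.range := by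
    have e : Equiv.swap (Fin.castSucc (0 : Fin 5)) (Fin.succ 0) = b2Perm 0 :=
      Equiv.ext (by decide)
    rw [e]
    exact hg 0 (by norm_num)
  have hs1 : Equiv.swap (Fin.castSucc (1 : Fin 5)) (Fin.succ 1) ∈ φ.range := by
    have e : Equiv.swap (Fin.castSucc (1 : Fin 5)) (Fin.succ 1) =
        b2Perm 0 * b2Perm 7 * b2Perm 0 := Equiv.ext (by decide)
    rw [e]
    exact mul_mem (mul_mem (hg 0 (by norm_num)) (hg 7 (by norm_num))) (hg 0 (by norm_num))
  have hs2 : Equiv.swap (Fin.castSucc (2 : Fin 5)) (Fin.succ 2) ∈ φ.range := by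
    have e : Equiv.swap (Fin.castSucc (2 : Fin 5)) (Fin.succ 2) =
        b2Perm 3 * b2Perm 1 * b2Perm 0 := Equiv.ext (by decide)
    rw [e]
    exact mul_mem (mul_mem (hg 3 (by norm_num)) (hg 1 (by norm_num))) (hg 0 (by norm_num))
  have hs3 : Equiv.swap (Fin.castSucc (3 : Fin 5)) (Fin.succ 3) ∈ φ.range := by
    have e : Equiv.swap (Fin.castSucc (3 : Fin 5)) (Fin.succ 3) =
        b2Perm 3 * b2Perm 4 * b2Perm 3 := Equiv.ext (by decide)
    rw [e]
    exact mul_mem (mul_mem (hg 3 (by norm_num)) (hg 4 (by norm_num))) (hg 3 (by norm_num))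
  have hs4 : Equiv.swap (Fin.castSucc (4 : Fin 5)) (Fin.succ 4) ∈ φ.range := by
    have e : Equiv.swap (Fin.castSucc (4 : Fin 5)) (Fin.succ 4) = b2Perm 3 :=
      Equiv.ext (by decide)
    rw [e]
    exact hg 3 (by norm_num)
  have hsw : ∀ i : Fin 5, Equiv.swap i.castSucc i.succ ∈ φ.range := by
    intro i
    fin_cases i
    · exact hs0
    · exact hs1
    · exact hs2
    · exact hs3
    · exact hs4
  have htop : (⊤ : Submonoid (Equiv.Perm (Fin 6))) ≤ φ.range.toSubmonoid := by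
    rw [← Equiv.Perm.mclosure_swap_castSucc_succ 5, Submonoid.closure_le]
    rintro _ ⟨i, rfl⟩
    exact hsw i
  have hsurj : Function.Surjective φ := by
    intro σ
    exact htop (Submonoid.mem_top σ)
  have hcard : Nat.card ↥(chevB2.group F) = 720 := by
    have := Cfsg.Agent.S1060.result (F := F) hF
    norm_num at this
    exact this
  have hcard2 : Nat.card (Equiv.Perm (Fin 6)) = 720 := by
    rw [Nat.card_eq_fintype_card, Fintype.card_perm, Fintype.card_fin]
    rfl
  have hbij : Function.Bijective φ :=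
    hsurj.bijective_of_nat_card_le (by rw [hcard, hcard2])
  exact ⟨MulEquiv.ofBijective φ hbij⟩


/-- B₂(2) ≅ S₆. -/
theorem result {F : Type*} [Field F] [Fintype F] (hF : Fintype.card F = 2) :
    Nonempty (↥(Cfsg.Lie.chevB2.group F) ≃* Equiv.Perm (Fin 6)) := by
  exact main hF

end Cfsg.Agent.S1058
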