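import Cfsg.Statements.S1062
import Cfsg.Agent.Lib.helper11b.Count5

set_option autoImplicit false
open Cfsg

namespace Cfsg.Agent.S1062
open Cfsg Cfsg.Lie Cfsg.Agent.Lib.helper11

/-- `|F₄(q)| = q²⁴ (q² - 1)(q⁶ - 1)(q⁸ - 1)(q¹² - 1)`. -/
theorem result {F : Type*} [Field F] [Fintype F] {q : ℕ} (hq : Fintype.card F = q) : Nat.card ↥(Cfsg.Lie.chevF4.group F) = q ^ 24 * (q ^ 2 - 1) * (q ^ 6 - 1) * (q ^ 8 - 1) * (q ^ 12 - 1) := by
  have h := card_final (F := F) chevF4 (by simp) [2, 6, 8, 12] _ hcard_F4 (fun hnx q hq => poin_F4 hnx q hq)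
  have hn : chevF4.nroots / 2 = 24 := rfl
  simp only [List.map_cons, List.map_nil, List.prod_cons, List.prod_nil, mul_one, one_mul] at h
  rw [Nat.card_eq_fintype_card (α := F), hq, hn] at h
  rw [h]
  ring

end Cfsg.Agent.S1062
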