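import Cfsg.Statements.S1074
import Cfsg.Agent.Lib.helper9.TitsO
import Cfsg.Agent.Lib.helper9.CE0459AS
import Cfsg.Agent.Lib.helper9.HomImage

set_option autoImplicit false
open Cfsg

namespace Cfsg.Agent.S1074

open Cfsg.Lie Cfsg.Agent.Lib.helper9 Cfsg.Agent.Lib.helper9.BM Cfsg.Agent.Lib.helper9.CE
open Cfsg.Agent.Lib.helper9.TD Cfsg.Agent.Lib.helper9.TO
open Cfsg.Spor.Fi23 (Gen)

set_option maxRecDepth 100000

/-- the ambient group -/
abbrev G : Type := GL Idx (ZMod 2)

/-- the group of type 2F4 over the field of two elements -/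
abbrev X : Subgroup G := twistedF4 (ZMod 2) 1

/-- the presented Tits group -/
abbrev P : Type := PresentedGroup (relSet CE0459At.RL)

/-- the generators of the group -/
noncomputable def f2 (x : Gen) : G :=
  mkGL (σ2 (x, true)) (σ2 (x, false)) (σ2_inv x).1 (σ2_inv x).2 (σ2_length _) (σ2_length _)

/-- the generators of the derived subgroup -/
noncomputable def f1 (x : Gen) : G :=
  mkGL (σ1 (x, true)) (σ1 (x, false)) (σ1_inv x).1 (σ1_inv x).2 (σ1_length _) (σ1_length _)

theorem lift2 (L : Word Gen) : (FreeGroup.lift f2 (FreeGroup.mk L)).val = toMat (evalB σ2 L) :=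
  evalB_spec f2 σ2 (fun _ => rfl) (fun _ => rfl) σ2_length L

theorem lift1 (L : Word Gen) : (FreeGroup.lift f1 (FreeGroup.mk L)).val = toMat (evalB σ1 L) :=
  evalB_spec f1 σ1 (fun _ => rfl) (fun _ => rfl) σ1_length L

theorem mem_of_word (g : G) (w : List (ℕ × ZMod 2)) (hw : w ∈ f4Words (ZMod 2) 1)
    (h : g.val = chevF4.wordMat (ZMod 2) w) : g ∈ X :=
  Subgroup.subset_closure ⟨w, hw, h⟩

theorem f2_one (x : Gen) (h1 : σ2 (x, true) = bone) : f2 x = 1 :=
  Units.ext (by
    show toMat (σ2 (x, true)) = 1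
    rw [h1, toMat_one])

theorem f1_one (x : Gen) (h1 : σ1 (x, true) = bone) : f1 x = 1 :=
  Units.ext (by
    show toMat (σ1 (x, true)) = 1
    rw [h1, toMat_one])

theorem f2_mem : ∀ x : Gen, f2 x ∈ X := by
  intro x
  cases x
  · exact mem_of_word _ (f4PairWord 1 f4p1 f4p4 1) (Or.inl ⟨1, Or.inl rfl⟩)
      (by rw [wordMat_eq _ (by decide), hU]; rfl)
  · exact mem_of_word _ (f4PairWord 1 f4m1 f4m4 1) (Or.inl ⟨1, Or.inr rfl⟩)
      (by rw [wordMat_eq _ (by decide), hV]; rfl)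
  · exact mem_of_word _ (b2ClassWord 1 f4a f4b f4ab f4aab 1 0) (Or.inr ⟨1, 0, Or.inl rfl⟩)
      (by rw [wordMat_eq _ (by decide), hW]; rfl)
  · exact mem_of_word _ (b2ClassWord 1 f4ma f4mb f4mab f4maab 1 0) (Or.inr ⟨1, 0, Or.inr rfl⟩)
      (by rw [wordMat_eq _ (by decide), hN]; rfl)
  · rw [f2_one Gen.e rfl]; exact X.one_mem
  · rw [f2_one Gen.f rfl]; exact X.one_mem
  · rw [f2_one Gen.g rfl]; exact X.one_mem
  · rw [f2_one Gen.j rfl]; exact X.one_mem
  · rw [f2_one Gen.h rfl]; exact X.one_mem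
  · rw [f2_one Gen.i rfl]; exact X.one_mem

theorem lift2_mem : ∀ L : Word Gen, FreeGroup.lift f2 (FreeGroup.mk L) ∈ X
  | [] => X.one_mem
  | (x, b) :: L => by
    have h1 : (FreeGroup.mk ((x, b) :: L) : FreeGroup Gen) =
        FreeGroup.mk [(x, b)] * FreeGroup.mk L := rfl
    have h2 : FreeGroup.lift f2 (FreeGroup.mk [(x, b)]) = cond b (f2 x) (f2 x)⁻¹ := by
      rw [FreeGroup.lift_mk]
      simp
    rw [h1, map_mul, h2]
    apply X.mul_mem _ (lift2_mem L)
    cases b
    · exact X.inv_mem (f2_mem x)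
    · exact f2_mem x

theorem f1_mem (x : Gen) : f1 x ∈ X := by
  have h : f1 x = FreeGroup.lift f2 (FreeGroup.mk (LW x)) := by
    apply Units.ext
    rw [lift2, hLW]
    rfl
  rw [h]
  exact lift2_mem _

theorem hrels : ∀ r ∈ relSet CE0459At.RL, FreeGroup.lift f1 r = 1 := by
  rintro r ⟨L, hL, rfl⟩
  apply Units.ext
  rw [lift1, hrel L hL, toMat_one]
  rfl

/-- the homomorphism from the presented Tits group -/
noncomputable def φ0 : P →* G := PresentedGroup.toGroup hrels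

theorem φ0_word (L : Word Gen) : (φ0 (wordG (relSet CE0459At.RL) L)).val = toMat (evalB σ1 L) :=
  lift1 L

theorem φ0_of (x : Gen) : φ0 (PresentedGroup.of x) = f1 x := PresentedGroup.toGroup.of hrels

theorem hAB : f1 Gen.a * f1 Gen.b ≠ f1 Gen.b * f1 Gen.a := by
  intro h
  apply hnc
  intro i j
  have h3 := congrArg Units.val h
  rw [Units.val_mul, Units.val_mul] at h3
  have e1 : toMat (bmul dA dB) = toMat dA * toMat dB := toMat_mul _ _ (by decide)
  have e2 : toMat (bmul dB dA) = toMat dB * toMat dA := toMat_mul _ _ (by decide)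
  rw [e1, e2]
  exact congrFun (congrFun h3 i) j

theorem word_case (g : G) (w : List (ℕ × ZMod 2)) (hg : g.val = chevF4.wordMat (ZMod 2) w)
    (L : Word Gen) (b : Bool)
    (h : (∀ p ∈ w, p.1 ∈ roots12) ∧ wdata w = cond b (bmul (evalB σ1 L) dW) (evalB σ1 L)) :
    g ∈ φ0.range ∨ g * (f2 Gen.c)⁻¹ ∈ φ0.range := by
  rw [wordMat_eq w h.1, h.2] at hg
  cases b
  · left
    exact ⟨wordG _ L, Units.ext (by rw [φ0_word]; exact hg.symm)⟩
  · right
    refine ⟨wordG _ L, ?_⟩
    have h2 : g = φ0 (wordG _ L) * f2 Gen.c := by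
      apply Units.ext
      rw [hg, cond_true, toMat_mul _ _ (by decide), ← φ0_word]
      rfl
    rw [h2, mul_inv_cancel_right]

theorem zmod2_cases (t : ZMod 2) : t = 0 ∨ t = 1 := by
  revert t
  decide

theorem hS (g : G) (hg : ∃ w ∈ f4Words (ZMod 2) 1, g.val = chevF4.wordMat (ZMod 2) w) :
    g ∈ φ0.range ∨ g * (f2 Gen.c)⁻¹ ∈ φ0.range := by
  obtain ⟨w, hw, hgw⟩ := hg
  rcases hw with ⟨t, rfl | rfl⟩ | ⟨t, u, rfl | rfl⟩
  · rcases zmod2_cases t with rfl | rfl
    · exact word_case g _ hgw _ _ hc0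
    · exact word_case g _ hgw _ _ hc1
  · rcases zmod2_cases t with rfl | rfl
    · exact word_case g _ hgw _ _ hc2
    · exact word_case g _ hgw _ _ hc3
  · rcases zmod2_cases t with rfl | rfl <;> rcases zmod2_cases u with rfl | rfl
    · exact word_case g _ hgw _ _ hc4
    · exact word_case g _ hgw _ _ hc5
    · exact word_case g _ hgw _ _ hc6
    · exact word_case g _ hgw _ _ hc7
  · rcases zmod2_cases t with rfl | rfl <;> rcases zmod2_cases u with rfl | rfl
    · exact word_case g _ hgw _ _ hc8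
    · exact word_case g _ hgw _ _ hc9
    · exact word_case g _ hgw _ _ hc10
    · exact word_case g _ hgw _ _ hc11

/-- the vectors of the orbit are moved among themselves -/
def Pred (g : G) : Prop :=
  ∀ i, i < 12480 → ∃ j, j < 12480 ∧ Matrix.vecMul (toVec (vec i)) g.val = toVec (vec j)

theorem pred_mul {g h : G} (hg : Pred g) (hh : Pred h) : Pred (g * h) := by
  intro i hi
  obtain ⟨j, hj, e1⟩ := hg i hi
  obtain ⟨k, hk, e2⟩ := hh j hj
  refine ⟨k, hk, ?_⟩
  rw [Units.val_mul, ← Matrix.vecMul_vecMul, e1, e2]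

theorem pred_one : Pred 1 := fun i hi => ⟨i, hi, by rw [Units.val_one, Matrix.vecMul_one]⟩

/-- the subgroup of the matrices that, with their inverses, move the orbit into itself -/
def K : Subgroup G where
  carrier := {g | Pred g ∧ Pred g⁻¹}
  mul_mem' := fun {a b} ha hb =>
    ⟨pred_mul ha.1 hb.1, by rw [mul_inv_rev]; exact pred_mul hb.2 ha.2⟩
  one_mem' := ⟨pred_one, by rw [inv_one]; exact pred_one⟩
  inv_mem' := fun {a} ha => ⟨ha.2, by rw [inv_inv]; exact ha.1⟩

theorem pred_of_closed (d : List Nat) (PK : Nat) (hd : d.length = 52) (h : closedK d PK = true)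
    (g : G) (hg : g.val = toMat d) : Pred g := by
  intro i hi
  have h1 := allRange_spec h i (Nat.zero_le _) hi
  have h2 := (Bool.and_eq_true _ _).mp h1
  refine ⟨_, Nat.blt_eq.mp h2.1, ?_⟩
  rw [hg, vecMul_toVec _ _ hd, Nat.eq_of_beq_eq_true h2.2]

theorem f1_inv (x : Gen) : (f1 x)⁻¹ = f1 x := by
  apply Units.ext
  show toMat (σ1 (x, false)) = toMat (σ1 (x, true))
  cases x <;> rfl

theorem f1_K : ∀ x : Gen, f1 x ∈ K := by
  intro x
  have h : Pred (f1 x) := by
    cases x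
    · exact pred_of_closed dA PA (by decide) hclA _ rfl
    · exact pred_of_closed dB PB (by decide) hclB _ rfl
    · exact pred_of_closed dC PC (by decide) hclC _ rfl
    · exact pred_of_closed dD PD (by decide) hclD _ rfl
    · rw [f1_one Gen.e rfl]; exact pred_one
    · rw [f1_one Gen.f rfl]; exact pred_one
    · rw [f1_one Gen.g rfl]; exact pred_one
    · rw [f1_one Gen.j rfl]; exact pred_one
    · rw [f1_one Gen.h rfl]; exact pred_one
    · rw [f1_one Gen.i rfl]; exact pred_one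
  exact ⟨h, by rw [f1_inv]; exact h⟩

theorem vec_lt (j : Nat) : vec j < 2 ^ 52 := by
  unfold vec
  exact lt_of_lt_of_eq (Nat.mod_lt _ (by norm_num)) (by norm_num)

theorem t_not_mem : f2 Gen.c ∉ φ0.range := by
  intro ht
  have hK : φ0.range ≤ K := range_le_of_gens φ0 K (fun x => by rw [φ0_of]; exact f1_K x)
  obtain ⟨j, hj, e⟩ := (hK ht).1 0 (by norm_num)
  rw [hvec0] at e
  have e2 : Matrix.vecMul (toVec 4) (f2 Gen.c).val = toVec (rowMul 4 dW) :=
    vecMul_toVec 4 dW (by decide)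
  rw [e2] at e
  have e3 : rowMul 4 dW = vec j := toVec_inj hlt (vec_lt j) e
  have h1 := allRange_spec hnot j (Nat.zero_le _) hj
  rw [← e3] at h1
  simp at h1

open scoped commutatorElement in
/-- a subgroup that is the union of the isomorphic image of a simple group, not commutative, and of one more
coset of it, has that image as its derived subgroup -/
theorem final {G P : Type*} [Group G] [Group P] (X : Subgroup G) (φ : P →* G) (t : G)
    (hTX : φ.range ≤ X) (htX : t ∈ X) (hZ : ∀ g ∈ X, g ∈ φ.range ∨ g * t⁻¹ ∈ φ.range)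
    (hnot : t ∉ φ.range) (hs : IsSimpleGroup P) (N : ℕ) (hN : Nat.card P = N) (a b : P)
    (hab : φ a * φ b ≠ φ b * φ a) :
    (commutator ↥X).index = 2 ∧ IsSimpleGroup ↥(commutator ↥X) ∧
    ¬ IsMulCommutative ↥(commutator ↥X) ∧ Nat.card ↥(commutator ↥X) = N := by
  have hT := HI.simple_image hs N hN φ a (fun h => hab (by rw [h, one_mul, mul_one]))
  have hidx : (φ.range.subgroupOf X).index = 2 := by
    rw [Subgroup.index_eq_two_iff]
    refine ⟨⟨t⁻¹, X.inv_mem htX⟩, fun b => ?_⟩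
    have key : ¬ (((b : G) ∈ φ.range) ∧ ((b : G) * t⁻¹ ∈ φ.range)) := by
      rintro ⟨h1, h2⟩
      apply hnot
      have := φ.range.mul_mem (φ.range.inv_mem h1) h2
      rw [inv_mul_cancel_left] at this
      exact (Subgroup.inv_mem_iff _).mp this
    rcases hZ b.1 b.2 with h | h
    · exact Or.inr ⟨Subgroup.mem_subgroupOf.mpr h,
        fun h' => key ⟨h, Subgroup.mem_subgroupOf.mp h'⟩⟩
    · exact Or.inl ⟨Subgroup.mem_subgroupOf.mpr h,
        fun h' => key ⟨Subgroup.mem_subgroupOf.mp h', h⟩⟩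
  have hperf : (⊤ : Subgroup P) = ⁅(⊤ : Subgroup P), ⊤⁆ := by
    rcases hs.eq_bot_or_eq_top_of_normal ⁅(⊤ : Subgroup P), ⊤⁆ inferInstance with h | h
    · exfalso
      have hc : ∀ x y : P, x * y = y * x := by
        intro x y
        have h1 : ⁅x, y⁆ ∈ ⁅(⊤ : Subgroup P), ⊤⁆ :=
          Subgroup.commutator_mem_commutator (Subgroup.mem_top x) (Subgroup.mem_top y)
        rw [h, Subgroup.mem_bot] at h1
        exact commutatorElement_eq_one_iff_mul_comm.mp h1
      have h2 := congrArg φ (hc a b)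
      rw [map_mul, map_mul] at h2
      exact hab h2
    · exact h.symm
  have hcomm : commutator ↥X = φ.range.subgroupOf X := by
    apply le_antisymm
    · show ⁅(⊤ : Subgroup ↥X), ⊤⁆ ≤ _
      rw [Subgroup.commutator_le]
      intro g₁ _ g₂ _
      rw [commutatorElement_def, Subgroup.mul_mem_iff_of_index_two hidx,
        Subgroup.mul_mem_iff_of_index_two hidx, Subgroup.mul_mem_iff_of_index_two hidx,
        inv_mem_iff, inv_mem_iff]
      tauto
    · have hH : φ.range.subgroupOf X = (φ.codRestrict X (fun p => hTX ⟨p, rfl⟩)).range := by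
        ext b
        rw [Subgroup.mem_subgroupOf]
        constructor
        · rintro ⟨p, hp⟩
          exact ⟨p, Subtype.ext hp⟩
        · rintro ⟨p, hp⟩
          exact ⟨p, congrArg Subtype.val hp⟩
      show _ ≤ ⁅(⊤ : Subgroup ↥X), ⊤⁆
      rw [hH, MonoidHom.range_eq_map, hperf, Subgroup.map_commutator]
      exact Subgroup.commutator_mono le_top le_top
  have e : ↥(commutator ↥X) ≃* ↥φ.range :=
    (MulEquiv.subgroupCongr hcomm).trans (Subgroup.subgroupOfEquivOfLe hTX)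
  refine ⟨by rw [hcomm]; exact hidx, (MulEquiv.isSimpleGroup_congr e).mpr hT.1, ?_, ?_⟩
  · intro hc
    have h1 := hc.is_comm.comm (e.symm ⟨φ a, ⟨a, rfl⟩⟩) (e.symm ⟨φ b, ⟨b, rfl⟩⟩)
    have h2 := congrArg e h1
    rw [map_mul, map_mul, e.apply_symm_apply, e.apply_symm_apply] at h2
    exact hab (congrArg Subtype.val h2)
  · rw [Nat.card_congr e.toEquiv]
    exact hT.2

theorem main : (commutator ↥X).index = 2 ∧ IsSimpleGroup ↥(commutator ↥X) ∧
    ¬ IsMulCommutative ↥(commutator ↥X) ∧ Nat.card ↥(commutator ↥X) = 17971200 := by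
  obtain ⟨_, _, _, _, _, hs, hN⟩ := CE0459A.main
  have hTX : φ0.range ≤ X := range_le_of_gens φ0 X (fun x => by rw [φ0_of]; exact f1_mem x)
  have htX : f2 Gen.c ∈ X := f2_mem Gen.c
  have ht2 : f2 Gen.c * f2 Gen.c ∈ φ0.range :=
    ⟨wordG _ Wtt, Units.ext (by
      rw [φ0_word, htt, toMat_mul _ _ (by decide)]
      rfl)⟩
  have hconj : ∀ x ∈ φ0.range, f2 Gen.c * x * (f2 Gen.c)⁻¹ ∈ φ0.range := by
    have h := range_le_of_gens ((MulAut.conj (f2 Gen.c)).toMonoidHom.comp φ0) φ0.range (fun x => by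
      show f2 Gen.c * φ0 (PresentedGroup.of x) * (f2 Gen.c)⁻¹ ∈ φ0.range
      rw [φ0_of]
      refine ⟨wordG _ (CW x), Units.ext ?_⟩
      rw [φ0_word, ← hCW, toMat_mul _ _ (by decide), toMat_mul _ _ (σ1_length _)]
      rfl)
    rintro _ ⟨p, rfl⟩
    exact h ⟨p, rfl⟩
  have hZ : ∀ g ∈ X, g ∈ φ0.range ∨ g * (f2 Gen.c)⁻¹ ∈ φ0.range :=
    two_cosets φ0.range (f2 Gen.c) ht2 hconj _ (fun g hg => hS g hg)
  exact final X φ0 (f2 Gen.c) hTX htX hZ t_not_mem hs 17971200 hN (PresentedGroup.of Gen.a)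
    (PresentedGroup.of Gen.b) (by rw [φ0_of, φ0_of]; exact hAB)

/-- ²F₄(2)′ has index 2 in ²F₄(2), is simple, and has order `2¹¹ · 3³ · 5² · 13`. -/
theorem result : (commutator ↥(Cfsg.Lie.twistedF4 (ZMod 2) 1)).index = 2 ∧ IsSimpleGroup Cfsg.Lie.TitsGroup ∧ ¬ IsMulCommutative Cfsg.Lie.TitsGroup ∧
    Nat.card Cfsg.Lie.TitsGroup = 2 ^ 11 * 3 ^ 3 * 5 ^ 2 * 13 := by
  obtain ⟨h1, h2, h3, h4⟩ := main
  exact ⟨h1, h2, h3, by rw [show (2 ^ 11 * 3 ^ 3 * 5 ^ 2 * 13 : ℕ) = 17971200 from by norm_num]; exact h4⟩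

end Cfsg.Agent.S1074
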