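import Cfsg.Statements.S1080
-- import your own Cfsg.Agent.* helpers here
import Mathlib

set_option autoImplicit false
open Cfsg

namespace Cfsg.Agent.S1080

open Cfsg.Lie

theorem xMat_map {F : Type*} [Field F] (D : ChevalleyDatum) (f : F ≃+* F) (r : Fin D.nroots)
    (t : F) : (D.xMat F r t).map f = D.xMat F r (f t) := by
  ext row col
  simp only [Matrix.map_apply, ChevalleyDatum.xMat, Matrix.of_apply]
  rcases col with i | s
  · rcases row with i' | u
    · simp only
      split_ifs <;> simp
    · simp only
      split_ifs <;> simp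
  · simp only
    by_cases h1 : s = r
    · simp only [h1, if_true]
      rcases row with i' | u
      · simp
      · simp only
        split_ifs <;> simp
    · simp only [h1, if_false]
      by_cases h2 : s.val = D.negIdx.getD r.val 0
      · simp only [h2, if_true]
        rcases row with i' | u
        · simp
        · simp only
          split_ifs <;> simp
      · simp only [h2, if_false]
        rcases row with i' | u
        · simp
        · simp only [map_add, map_list_sum, List.map_map]
          congr 1
          · split_ifs <;> simp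
          · congr 1
            apply List.map_congr_left
            intro km _
            simp

/-- The entrywise automorphism of `GL`. -/
noncomputable def glMap {F : Type*} [Field F] (n : Type*) [Fintype n] [DecidableEq n]
    (f : F ≃+* F) : GL n F ≃* GL n F :=
  Units.mapEquiv (f.mapMatrix (m := n)).toMulEquiv

theorem glMap_coe {F : Type*} [Field F] (n : Type*) [Fintype n] [DecidableEq n]
    (f : F ≃+* F) (g : GL n F) :
    ((glMap n f g : GL n F) : Matrix n n F) = (g : Matrix n n F).map f := rfl

theorem glMap_gen {F : Type*} [Field F] (D : ChevalleyDatum) (f : F ≃+* F) :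
    (glMap D.Idx f) '' {g : GL D.Idx F | ∃ (r : Fin D.nroots) (t : F),
        (g : Matrix D.Idx D.Idx F) = D.xMat F r t} =
      {g : GL D.Idx F | ∃ (r : Fin D.nroots) (t : F), (g : Matrix D.Idx D.Idx F) = D.xMat F r t} := by
  ext g
  constructor
  · rintro ⟨g₀, ⟨r, t, h⟩, rfl⟩
    exact ⟨r, f t, by rw [glMap_coe, h, xMat_map]⟩
  · rintro ⟨r, t, h⟩
    refine ⟨(glMap D.Idx f).symm g, ⟨r, f.symm t, ?_⟩, by simp⟩
    have h1 : ((glMap D.Idx f ((glMap D.Idx f).symm g) : GL D.Idx F) : Matrix D.Idx D.Idx F) =
        D.xMat F r t := by rw [MulEquiv.apply_symm_apply]; exact h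
    rw [glMap_coe] at h1
    have h2 : D.xMat F r t = (D.xMat F r (f.symm t)).map f := by
      rw [xMat_map, RingEquiv.apply_symm_apply]
    rw [h2] at h1
    ext i j
    have h3 := congrFun (congrFun h1 i) j
    simp only [Matrix.map_apply] at h3
    exact f.injective h3

theorem glMap_group {F : Type*} [Field F] (D : ChevalleyDatum) (f : F ≃+* F) :
    (D.group F).map (glMap D.Idx f).toMonoidHom = D.group F := by
  unfold ChevalleyDatum.group
  rw [MonoidHom.map_closure]
  congr 1
  exact glMap_gen D f

/-- Field automorphisms: for every field automorphism `f` there is a group automorphism sending each `x_r(t)` to `x_r(f t)`. -/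
theorem result {F : Type*} [Field F] (D : Cfsg.Lie.ChevalleyDatum) (hD : D ∈ [Cfsg.Lie.chevG2, Cfsg.Lie.chevB2, Cfsg.Lie.chevD4, Cfsg.Lie.chevF4, Cfsg.Lie.chevE6, Cfsg.Lie.chevE7, Cfsg.Lie.chevE8]) (f : F ≃+* F) :
    ∃ α : ↥(D.group F) ≃* ↥(D.group F), ∀ (g : ↥(D.group F)) (r : ℕ) (t : F), r < D.nroots →
      ((g : GL D.Idx F) : Matrix D.Idx D.Idx F) = D.x F r t → ((α g : GL D.Idx F) : Matrix D.Idx D.Idx F) = D.x F r (f t) := by
  let α : ↥(D.group F) ≃* ↥(D.group F) :=
    ((glMap D.Idx f).subgroupMap (D.group F)).trans (MulEquiv.subgroupCongr (glMap_group D f))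
  refine ⟨α, ?_⟩
  intro g r t hr hg
  have h1 : ((α g : GL D.Idx F) : Matrix D.Idx D.Idx F) = ((g : GL D.Idx F) : Matrix D.Idx D.Idx F).map f := rfl
  rw [h1, hg]
  unfold ChevalleyDatum.x
  rw [dif_pos hr, dif_pos hr, xMat_map]

end Cfsg.Agent.S1080
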