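import Cfsg.Statements.S1092
import Cfsg.Agent.Lib.helper11c.Cox3

set_option autoImplicit false
open Cfsg

namespace Cfsg.Agent.S1092
open Cfsg.Lie Cfsg.Agent.Lib.helper11

/-- `|W(B₂)| = 8`, `|W(G₂)| = 12`, `|W(D₄)| = 192`, `|W(F₄)| = 1152` for the groups presented by the Coxeter matrices (the product of the degrees of the basic invariants). -/
theorem result (p : (Σ n : ℕ, CoxeterMatrix (Fin n)) × ℕ)
    (hp : p ∈ [(⟨2, CoxeterMatrix.B 2⟩, 8), (⟨2, CoxeterMatrix.G₂⟩, 12), (⟨4, Cfsg.Lie.coxeterD4⟩, 192), (⟨4, CoxeterMatrix.F₄⟩, 1152)]) :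
    Nat.card p.1.2.Group = p.2 := by
  simp only [List.mem_cons, List.not_mem_nil, or_false] at hp
  rcases hp with rfl | rfl | rfl | rfl
  · show Nat.card (CoxeterMatrix.B 2).Group = 8
    rw [card_cox chevB2 (by simp) (nxAll_of_mem chevB2 (by simp)) 2 rfl (CoxeterMatrix.B 2)
      coxOK_B2]
    exact card_Wk_B2 _
  · show Nat.card (CoxeterMatrix.G₂).Group = 12
    rw [card_cox chevG2 (by simp) (nxAll_of_mem chevG2 (by simp)) 2 rfl CoxeterMatrix.G₂
      coxOK_G2]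
    exact card_Wk_G2 _
  · show Nat.card (Cfsg.Lie.coxeterD4).Group = 192
    rw [card_cox chevD4 (by simp) (nxAll_of_mem chevD4 (by simp)) 4 rfl Cfsg.Lie.coxeterD4
      coxOK_D4]
    exact card_Wk_D4 _
  · show Nat.card (CoxeterMatrix.F₄).Group = 1152
    rw [card_cox chevF4 (by simp) (nxAll_of_mem chevF4 (by simp)) 4 rfl CoxeterMatrix.F₄
      coxOK_F4]
    exact card_Wk_F4 _

end Cfsg.Agent.S1092
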