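import Cfsg.Statements.S1094
import Cfsg.Agent.Lib.helper11c.Cox4

set_option autoImplicit false
open Cfsg

namespace Cfsg.Agent.S1094
open Cfsg.Lie Cfsg.Agent.Lib.helper11

/-- The Coxeter element `s₁ s₂ ⋯ s_l` of the Coxeter group of type B₂, G₂, D₄, F₄, E₆, E₇, E₈ has order `h = 2N/l` = 4, 6, 6, 12, 12, 18, 30. -/
theorem result (p : (Σ n : ℕ, CoxeterMatrix (Fin n)) × ℕ)
    (hp : p ∈ [(⟨2, CoxeterMatrix.B 2⟩, 4), (⟨2, CoxeterMatrix.G₂⟩, 6), (⟨4, Cfsg.Lie.coxeterD4⟩, 6), (⟨4, CoxeterMatrix.F₄⟩, 12),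
      (⟨6, CoxeterMatrix.E₆⟩, 12), (⟨7, CoxeterMatrix.E₇⟩, 18), (⟨8, CoxeterMatrix.E₈⟩, 30)]) :
    orderOf ((List.finRange p.1.1).map p.1.2.simple).prod = p.2 := by
  simp only [List.mem_cons, List.not_mem_nil, or_false] at hp
  rcases hp with rfl | rfl | rfl | rfl | rfl | rfl | rfl
  · exact orderOf_coxeter_elt chevB2 (by simp) (nxAll_of_mem chevB2 (by simp)) 2 rfl
      (CoxeterMatrix.B 2) coxOK_B2 poinRB2 poinRB2_ok 4 coxElt_B2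
  · exact orderOf_coxeter_elt chevG2 (by simp) (nxAll_of_mem chevG2 (by simp)) 2 rfl
      CoxeterMatrix.G₂ coxOK_G2 poinRG2 poinRG2_ok 6 coxElt_G2
  · exact orderOf_coxeter_elt chevD4 (by simp) (nxAll_of_mem chevD4 (by simp)) 4 rfl
      Cfsg.Lie.coxeterD4 coxOK_D4 poinRD4 poinRD4_ok 6 coxElt_D4
  · exact orderOf_coxeter_elt chevF4 (by simp) (nxAll_of_mem chevF4 (by simp)) 4 rfl
      CoxeterMatrix.F₄ coxOK_F4 poinRF4 poinRF4_ok 12 coxElt_F4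
  · exact orderOf_coxeter_elt chevE6 (by simp) (nxAll_of_mem chevE6 (by simp)) 6 rfl
      CoxeterMatrix.E₆ coxOK_E6 poinRE6 poinRE6_ok 12 coxElt_E6
  · exact orderOf_coxeter_elt chevE7 (by simp) (nxAll_of_mem chevE7 (by simp)) 7 rfl
      CoxeterMatrix.E₇ coxOK_E7 poinRE7 poinRE7_ok 18 coxElt_E7
  · exact orderOf_coxeter_elt chevE8 (by simp) (nxAll_of_mem chevE8 (by simp)) 8 rfl
      CoxeterMatrix.E₈ coxOK_E8 poinRE8 poinRE8_ok 30 coxElt_E8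

end Cfsg.Agent.S1094
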