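import Cfsg.Statements.S1098
import Cfsg.Agent.Lib.helper11d.Iso4
import Cfsg.Agent.Lib.helper11d.IsoOK

set_option autoImplicit false
open Cfsg

namespace Cfsg.Agent.S1098
open Cfsg Cfsg.Lie Cfsg.Agent.Lib.helper11

/-- Graph automorphisms in characteristic 2 (K perfect): for B₂ (a short, b long) `x_a(t) ↦ x_b(t²)`, `x_b(t) ↦ x_a(t)`, and for F₄ (p₁, p₂ short, p₃, p₄ long) `x_{p₁}(t) ↦ x_{p₄}(t²)`, `x_{p₂}(t) ↦ x_{p₃}(t²)`, `x_{p₃}(t) ↦ x_{p₂}(t)`, `x_{p₄}(t) ↦ x_{p₁}(t)`, likewise on the negatives, extend to an automorphism of the group. -/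
theorem result {K : Type*} [Field K] [CharP K 2] (hperf : ∀ x : K, ∃ y : K, y ^ 2 = x)
    (p : Cfsg.Lie.ChevalleyDatum × List (ℕ × ℕ))
    (hp : p ∈ [(Cfsg.Lie.chevB2, [(1, 2), (0, 1)]), (Cfsg.Lie.chevF4, [(3, 2), (2, 2), (1, 1), (0, 1)])]) :
    ∃ α : ↥(p.1.group K) ≃* ↥(p.1.group K), ∀ (g : ↥(p.1.group K)) (i : ℕ) (t : K), i < p.1.rank →
      (((g : GL p.1.Idx K) : Matrix p.1.Idx p.1.Idx K) = p.1.x K (p.1.simple i) t →
        ((α g : GL p.1.Idx K) : Matrix p.1.Idx p.1.Idx K) = p.1.x K (p.1.simple (p.2.getD i (0, 1)).1) (t ^ (p.2.getD i (0, 1)).2)) ∧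
      (((g : GL p.1.Idx K) : Matrix p.1.Idx p.1.Idx K) = p.1.x K (p.1.neg (p.1.simple i)) t →
        ((α g : GL p.1.Idx K) : Matrix p.1.Idx p.1.Idx K) = p.1.x K (p.1.neg (p.1.simple (p.2.getD i (0, 1)).1)) (t ^ (p.2.getD i (0, 1)).2)) := by
  haveI : Fact (Nat.Prime 2) := ⟨Nat.prime_two⟩
  simp only [List.mem_cons, List.not_mem_nil, or_false] at hp
  rcases hp with rfl | rfl
  · obtain ⟨α, hα⟩ := iso_main (F := K) chevB2 (by simp) isoB2 2 isoCert_B2 hperf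
    refine ⟨α, fun g i t hi => ?_⟩
    have hi' : i < 2 := hi
    interval_cases i
    · exact ⟨fun h => hα g _ t (by decide) h, fun h => hα g _ t (by decide) h⟩
    · exact ⟨fun h => hα g _ t (by decide) h, fun h => hα g _ t (by decide) h⟩
  · obtain ⟨α, hα⟩ := iso_main (F := K) chevF4 (by simp) isoF4 2 isoCert_F4 hperf
    refine ⟨α, fun g i t hi => ?_⟩
    have hi' : i < 4 := hi
    interval_cases i
    · exact ⟨fun h => hα g _ t (by decide) h, fun h => hα g _ t (by decide) h⟩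
    · exact ⟨fun h => hα g _ t (by decide) h, fun h => hα g _ t (by decide) h⟩
    · exact ⟨fun h => hα g _ t (by decide) h, fun h => hα g _ t (by decide) h⟩
    · exact ⟨fun h => hα g _ t (by decide) h, fun h => hα g _ t (by decide) h⟩

end Cfsg.Agent.S1098
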