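import Cfsg.Statements.S1118
-- import your own Cfsg.Agent.* helpers here
import Cfsg.Agent.Lib.helper6.RankOne

set_option autoImplicit false
open Cfsg

namespace Cfsg.Agent.S1118

open Cfsg.Agent.Lib.helper6 MulAction

/-- In the rank-one set-up (`G` finite and doubly transitive on `Ω`, `t` an involution moving `a`, `Q` normal in `G_a` with `G_a = Q D`, `Q ⊓ D = 1` for the two-point stabiliser `D = G_a ⊓ G_{t • a}`, `|Q|` even, `|D|` odd), the normaliser of a subset of `Q` containing a non-identity element lies in `G_a`; consequently `N_G(Q) = N_G(G_a) = G_a`. -/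
theorem result {G Ω : Type*} [Group G] [Finite G] [MulAction G Ω] {a : Ω} {t : G} {Q : Subgroup G}
    (hS : Cfsg.IsRankOneSetup G Ω a t Q) :
    (∀ X : Set G, X ⊆ (Q : Set G) → (∃ x ∈ X, x ≠ 1) → Subgroup.normalizer X ≤ MulAction.stabilizer G a) ∧
      Subgroup.normalizer (Q : Set G) = MulAction.stabilizer G a ∧
      Subgroup.normalizer (MulAction.stabilizer G a : Set G) = MulAction.stabilizer G a := by
  classical
  have hQne : ∃ x ∈ Q, x ≠ (1 : G) := by
    by_contra hcon
    push Not at hcon
    have hbot : Q = ⊥ := by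
      rw [Subgroup.eq_bot_iff_forall]; exact hcon
    have h1 : Nat.card Q = 1 := by
      rw [hbot]; exact Subgroup.card_bot
    have := hS.even_card
    rw [h1] at this
    exact absurd this (by decide)
  have key : ∀ X : Set G, X ⊆ (Q : Set G) → (∃ x ∈ X, x ≠ 1) →
      Subgroup.normalizer X ≤ MulAction.stabilizer G a := by
    intro X hX ⟨x, hx, hx1⟩ n hn
    rw [Subgroup.mem_set_normalizer_iff] at hn
    have h1 : n * x * n⁻¹ ∈ Q := hX ((hn x).mp hx)
    by_contra hna
    have hna' : n • a ≠ a := fun h => hna (mem_stabilizer_iff.mpr h)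
    have h2 : (n * x * n⁻¹) • (n • a) = n • a := by
      rw [mul_smul, mul_smul, inv_smul_smul, mem_stabilizer_iff.mp (hS.le (hX hx))]
    have h3 := ro_semiregular hS h1 hna' h2
    apply hx1
    have : x = n⁻¹ * (n * x * n⁻¹) * n := by group
    rw [this, h3]; group
  refine ⟨key, ?_, ?_⟩
  · apply le_antisymm
    · exact key _ (le_refl _) hQne
    · intro h hh
      rw [Subgroup.mem_normalizer_iff]
      intro x
      constructor
      · exact fun hx => hS.conj_mem h hh x hx
      · intro hx
        have := hS.conj_mem h⁻¹ (inv_mem hh) _ hx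
        have e : h⁻¹ * (h * x * h⁻¹) * h⁻¹⁻¹ = x := by group
        rwa [e] at this
  · apply le_antisymm
    · intro n hn
      obtain ⟨x, hx, hx1⟩ := hQne
      rw [Subgroup.mem_normalizer_iff] at hn
      have h1 : n⁻¹ * x * n ∈ stabilizer G a := by
        have h0 := (hn (n⁻¹ * x * n)).mpr
        have e : n * (n⁻¹ * x * n) * n⁻¹ = x := by group
        rw [e] at h0
        exact h0 (hS.le hx)
      by_contra hna
      have hna' : n • a ≠ a := fun h => hna (mem_stabilizer_iff.mpr h)
      have h2 : x • (n • a) = n • a := by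
        have := mem_stabilizer_iff.mp h1
        rw [mul_smul, mul_smul, inv_smul_eq_iff] at this
        exact this
      exact hx1 (ro_semiregular hS hx hna' h2)
    · exact Subgroup.le_normalizer

end Cfsg.Agent.S1118
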