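import Cfsg.Statements.S1120
-- import your own Cfsg.Agent.* helpers here
import Cfsg.Agent.Lib.helper6.RankOne3

set_option autoImplicit false
open Cfsg

namespace Cfsg.Agent.S1120

open Cfsg.Agent.Lib.helper6 MulAction

/-- In the rank-one set-up (`G` finite and doubly transitive on `Ω`, `t` an involution moving `a`, `Q` normal in `G_a` with `G_a = Q D`, `Q ⊓ D = 1` for the two-point stabiliser `D = G_a ⊓ G_{t • a}`, `|Q|` even, `|D|` odd), if `G` has 2-rank at least 2 then `O_{2'}(G)` equals the normal core of `G_a`. -/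
theorem result {G Ω : Type*} [Group G] [Finite G] [MulAction G Ω] {a : Ω} {t : G} {Q : Subgroup G}
    (hS : Cfsg.IsRankOneSetup G Ω a t Q)
    (h2 : ∃ x y : G, x ≠ 1 ∧ y ≠ 1 ∧ x ≠ y ∧ x * x = 1 ∧ y * y = 1 ∧ x * y = y * x) :
    Cfsg.pPrimeCore 2 G = (MulAction.stabilizer G a).normalCore := by
  obtain ⟨x, y, hx1, hy1, hxy, hxx, hyy, hc⟩ := h2
  have hx := orderOf_two_of_mul_self hxx hx1
  have hy := orderOf_two_of_mul_self hyy hy1
  obtain ⟨p, hxp, -⟩ := ro_invol_fix_exists hS hx
  have h2t := hS.two_transitive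
  have : IsPretransitive G Ω := MulAction.isPretransitive_of_is_two_pretransitive
  apply le_antisymm
  · apply sSup_le
    rintro N ⟨hN, hodd⟩
    rw [Subgroup.normal_le_normalCore]
    intro n hn
    obtain ⟨g, hg⟩ := MulAction.exists_smul_eq G p a
    have h1 : g⁻¹ * n * g⁻¹⁻¹ ∈ N := hN.conj_mem n hn g⁻¹
    have h2 := ro_odd_normal_fix hS hx hy hxy hc hxp hN hodd h1
    rw [inv_inv, mul_smul, mul_smul, hg, inv_smul_eq_iff, hg] at h2
    exact mem_stabilizer_iff.mpr h2
  · apply le_sSup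
    refine ⟨Subgroup.normalCore_normal _, ?_⟩
    rw [Nat.coprime_two_right, ← Nat.not_even_iff_odd]
    intro hcon
    have : Fact (Nat.Prime 2) := ⟨Nat.prime_two⟩
    obtain ⟨s, hs⟩ := exists_prime_orderOf_dvd_card' 2 (even_iff_two_dvd.mp hcon)
    have hso : orderOf (s : G) = 2 := by rw [Subgroup.orderOf_coe]; exact hs
    have hsH : (s : G) ∈ stabilizer G a := Subgroup.normalCore_le _ s.2
    have hst : (s : G) • (t • a) = t • a := by
      have h1 : t⁻¹ * (s : G) * t⁻¹⁻¹ ∈ (stabilizer G a).normalCore :=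
        (Subgroup.normalCore_normal _).conj_mem _ s.2 t⁻¹
      have h2 := mem_stabilizer_iff.mp (Subgroup.normalCore_le _ h1)
      rw [inv_inv, mul_smul, mul_smul, inv_smul_eq_iff] at h2
      exact h2
    exact ro_ne hS (ro_invol_fix hS hso hsH hst)

end Cfsg.Agent.S1120
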