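import Cfsg.Statements.S1121
-- import your own Cfsg.Agent.* helpers here
import Cfsg.Agent.Lib.helper6.RankOne

set_option autoImplicit false
open Cfsg

namespace Cfsg.Agent.S1121

open Cfsg.Agent.Lib.helper6 MulAction

/-- In the rank-one set-up (`G` finite and doubly transitive on `Ω`, `t` an involution moving `a`, `Q` normal in `G_a` with `G_a = Q D`, `Q ⊓ D = 1` for the two-point stabiliser `D = G_a ⊓ G_{t • a}`, `|Q|` even, `|D|` odd): if `s` is an involution of `G_a` and `u` an involution outside `G_a`, then `s u` has odd order; and any two involutions of `G` are conjugate. -/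
theorem result {G Ω : Type*} [Group G] [Finite G] [MulAction G Ω] {a : Ω} {t : G} {Q : Subgroup G}
    (hS : Cfsg.IsRankOneSetup G Ω a t Q) :
    (∀ s u : G, s ∈ MulAction.stabilizer G a → s ≠ 1 → s * s = 1 → u ∉ MulAction.stabilizer G a → u ≠ 1 → u * u = 1 → Odd (orderOf (s * u))) ∧
      ∀ u v : G, u ≠ 1 → u * u = 1 → v ≠ 1 → v * v = 1 → ∃ g : G, g * u * g⁻¹ = v := by
  have hSE := ro_se hS
  have ht := ro_t_order hS
  obtain ⟨s₀, hs₀Q, hs₀⟩ := ro_exists_invol hS
  have hs₀H : s₀ ∈ stabilizer G a := hS.le hs₀Q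
  constructor
  · intro s u hsH hs1 hss huH hu1 huu
    have hs := orderOf_two_of_mul_self hss hs1
    have hu := orderOf_two_of_mul_self huu hu1
    rw [← Nat.not_even_iff_odd]
    intro heven
    exact huH (se_mem_of_even hSE hs hu hsH heven)
  · have claim : ∀ x : G, orderOf x = 2 → IsConj x t := by
      intro x hx
      by_cases hxH : x ∈ stabilizer G a
      · obtain ⟨i, -, hc⟩ := se_exists_conj hSE hx ht hxH hS.not_mem
        exact isConj_iff.mpr ⟨i, hc⟩
      · obtain ⟨i, -, hc⟩ := se_exists_conj hSE hs₀ hx hs₀H hxH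
        obtain ⟨j, -, hc'⟩ := se_exists_conj hSE hs₀ ht hs₀H hS.not_mem
        have h1 : IsConj s₀ x := isConj_iff.mpr ⟨i, hc⟩
        have h2 : IsConj s₀ t := isConj_iff.mpr ⟨j, hc'⟩
        exact h1.symm.trans h2
    intro u v hu1 huu hv1 hvv
    have h := (claim u (orderOf_two_of_mul_self huu hu1)).trans
      (claim v (orderOf_two_of_mul_self hvv hv1)).symm
    exact isConj_iff.mp h

end Cfsg.Agent.S1121
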