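import Cfsg.Statements.S1123
-- import your own Cfsg.Agent.* helpers here
import Cfsg.Agent.Lib.helper6.RankOne2

set_option autoImplicit false
open Cfsg

namespace Cfsg.Agent.S1123

open Cfsg.Agent.Lib.helper6 MulAction

/-- In the rank-one set-up (`G` finite and doubly transitive on `Ω`, `t` an involution moving `a`, `Q` normal in `G_a` with `G_a = Q D`, `Q ⊓ D = 1` for the two-point stabiliser `D = G_a ⊓ G_{t • a}`, `|Q|` even, `|D|` odd), there is a unique pair `(s, r)` with `s` an involution of `G_a`, `r ∈ Q` and `t s t = r⁻¹ t r`. -/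
theorem result {G Ω : Type*} [Group G] [Finite G] [MulAction G Ω] {a : Ω} {t : G} {Q : Subgroup G}
    (hS : Cfsg.IsRankOneSetup G Ω a t Q) :
    ∃! p : G × G, p.1 ∈ Cfsg.involutionsIn (MulAction.stabilizer G a : Set G) ∧ p.2 ∈ Q ∧
      t * p.1 * t = p.2⁻¹ * t * p.2 := by
  have hSE := ro_se hS
  have ht := ro_t_order hS
  have hti := ro_tinv hS
  obtain ⟨s₀, hs₀Q, hs₀⟩ := ro_exists_invol hS
  obtain ⟨i, -, hc⟩ := se_exists_conj hSE hs₀ ht (hS.le hs₀Q) hS.not_mem
  have hw : t • (i • a) = i • a := by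
    rw [← hc, mul_smul, mul_smul, inv_smul_smul, mem_stabilizer_iff.mp (hS.le hs₀Q)]
  have hwa : i • a ≠ a := by
    intro h
    rw [h] at hw
    exact ro_ne hS hw
  obtain ⟨r, hr, hrw⟩ := ro_transitive hS hwa
  have hsH : t * r⁻¹ * t * r * t ∈ stabilizer G a := by
    rw [mem_stabilizer_iff, mul_smul, mul_smul, mul_smul, mul_smul, hrw, hw, ← hrw,
      inv_smul_smul, ro_tt hS]
  have hs1 : t * r⁻¹ * t * r * t ≠ 1 := by
    intro h
    apply hS.ne_one
    have e : t = (t * r⁻¹)⁻¹ * (t * r⁻¹ * t * r * t⁻¹) * (t * r⁻¹) := by group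
    rw [hti] at e
    rw [e, h]; group
  have hss : (t * r⁻¹ * t * r * t) * (t * r⁻¹ * t * r * t) = 1 := by
    have e : (t * r⁻¹ * t * r * t⁻¹) * (t * r⁻¹ * t * r * t⁻¹) = t * r⁻¹ * (t * t) * r * t⁻¹ := by
      group
    rw [hS.mul_self, hti] at e
    rw [e]
    have e2 : t * r⁻¹ * 1 * r * t = t * t := by group
    rw [e2, hS.mul_self]
  have hconj : t * (t * r⁻¹ * t * r * t) * t = r⁻¹ * t * r := by
    have e : t * (t * r⁻¹ * t * r * t) * t = (t * t) * r⁻¹ * t * r * (t * t) := by group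
    rw [e, hS.mul_self]; group
  refine ⟨(t * r⁻¹ * t * r * t, r), ⟨⟨hsH, hs1, hss⟩, hr, hconj⟩, ?_⟩
  rintro ⟨s', r'⟩ ⟨⟨hs'H, hs'1, hs's'⟩, hr', e'⟩
  have hs'H' : s' ∈ stabilizer G a := hs'H
  have hr'' : r' ∈ Q := hr'
  have e'' : t * s' * t = r'⁻¹ * t * r' := e'
  have hs'o := orderOf_two_of_mul_self hs's' hs'1
  have h1 : s' • (t • r'⁻¹ • i • a) = t • r'⁻¹ • i • a := by
    have e3 : s' = t * (t * s' * t) * t := by
      have : t * (t * s' * t) * t = (t * t) * s' * (t * t) := by group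
      rw [this, hS.mul_self]; group
    have h2 : (t * (r'⁻¹ * t * r') * t) • (t • r'⁻¹ • i • a) = t • r'⁻¹ • i • a := by
      rw [mul_smul, mul_smul, mul_smul, mul_smul, ← mul_smul t t, hS.mul_self, one_smul,
        smul_inv_smul, hw]
    rw [← e'', ← e3] at h2
    exact h2
  have h3 := ro_invol_fix hS hs'o hs'H' h1
  have h4 : r' • t • a = i • a := by
    have h5 : t • (t • r'⁻¹ • i • a) = t • a := by rw [h3]
    rw [← mul_smul t t, hS.mul_self, one_smul, inv_smul_eq_iff] at h5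
    exact h5.symm
  have h6 : (r⁻¹ * r') • (t • a) = t • a := by
    rw [mul_smul, h4, ← hrw, inv_smul_smul]
  have h7 := ro_semiregular hS (mul_mem (inv_mem hr) hr'') (ro_ne hS) h6
  have hrr : r' = r := (inv_mul_eq_one.mp h7).symm
  have hs' : s' = t * r⁻¹ * t * r * t := by
    have e3 : s' = t * (t * s' * t) * t := by
      have : t * (t * s' * t) * t = (t * t) * s' * (t * t) := by group
      rw [this, hS.mul_self]; group
    rw [e3, e'', hrr]; group
  exact Prod.ext hs' hrr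

end Cfsg.Agent.S1123
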