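import Cfsg.Statements.S1124
-- import your own Cfsg.Agent.* helpers here
import Cfsg.Agent.Lib.helper6.OddInv

set_option autoImplicit false
open scoped Pointwise
open Cfsg

namespace Cfsg.Agent.S1124

open Cfsg.Agent.Lib.helper6
open scoped Pointwise

/-- Let `t` be an element of order 2 of a finite group normalising a subgroup `X` of odd order, `Y = C_X(t)` and `Z` the set of elements of `X` inverted by `t`. Then `(y, z) ↦ y z` is a bijection `Y × Z → X`, so `|X| = |Y| |Z|`, and the subgroup generated by `Z` is normal in `X`. -/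
theorem result {M : Type*} [Group M] [Finite M]
    (t : M) (ht : orderOf t = 2) (X : Subgroup M) (hodd : Odd (Nat.card X))
    (hnorm : ∀ x ∈ X, t * x * t⁻¹ ∈ X) :
    (∀ x ∈ X, ∃! p : M × M, p.1 ∈ X ⊓ Subgroup.centralizer {t} ∧ p.2 ∈ Cfsg.invertedBy X t ∧ x = p.1 * p.2) ∧
      Nat.card X = Nat.card ↥(X ⊓ Subgroup.centralizer {t}) * Nat.card (Cfsg.invertedBy X t) ∧
      ∀ x ∈ X, MulAut.conj x • Subgroup.closure (Cfsg.invertedBy X t) = Subgroup.closure (Cfsg.invertedBy X t) := by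
  classical
  obtain ⟨k, hk⟩ := hodd
  have hN1 : ∀ y ∈ X, t * y = y * t → ∀ n ∈ Subgroup.closure (Cfsg.invertedBy X t),
      y * n * y⁻¹ ∈ Subgroup.closure (Cfsg.invertedBy X t) := by
    intro y hy hyt n hn
    have hle : Subgroup.closure (Cfsg.invertedBy X t) ≤
        (Subgroup.closure (Cfsg.invertedBy X t)).comap (MulAut.conj y).toMonoidHom := by
      rw [Subgroup.closure_le]
      rintro z ⟨hz, hzi⟩
      show y * z * y⁻¹ ∈ Subgroup.closure (Cfsg.invertedBy X t)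
      apply Subgroup.subset_closure
      refine ⟨X.mul_mem (X.mul_mem hy hz) (X.inv_mem hy), ?_⟩
      have e1 : t * (y * z * y⁻¹) * t⁻¹ =
          (t * y) * t⁻¹ * (t * z * t⁻¹) * ((t * y) * t⁻¹)⁻¹ := by group
      rw [e1, hyt, hzi]; group
    exact hle hn
  have hN : ∀ x ∈ X, ∀ n ∈ Subgroup.closure (Cfsg.invertedBy X t),
      x * n * x⁻¹ ∈ Subgroup.closure (Cfsg.invertedBy X t) := by
    intro x hx n hn
    obtain ⟨y, z, hy, hyt, hz, hzi, e, -⟩ := odd_inv_exists ht hk hnorm hx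
    have hzN : z ∈ Subgroup.closure (Cfsg.invertedBy X t) := Subgroup.subset_closure ⟨hz, hzi⟩
    have e2 : x * n * x⁻¹ = y * (z * n * z⁻¹) * y⁻¹ := by rw [e]; group
    rw [e2]
    exact hN1 y hy hyt _ (mul_mem (mul_mem hzN hn) (inv_mem hzN))
  refine ⟨?_, ?_, ?_⟩
  · intro x hx
    obtain ⟨y, z, hy, hyt, hz, hzi, e, -⟩ := odd_inv_exists ht hk hnorm hx
    refine ⟨(y, z), ⟨⟨hy, Subgroup.mem_centralizer_singleton_iff.mpr hyt.symm⟩, ⟨hz, hzi⟩, e⟩, ?_⟩
    rintro ⟨y', z'⟩ ⟨⟨hy', hyt'⟩, ⟨hz', hzi'⟩, e'⟩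
    have hyt'' : y' ∈ Subgroup.centralizer {t} := hyt'
    rw [Subgroup.mem_centralizer_singleton_iff] at hyt''
    have hz'' : z' ∈ X := hz'
    have hzi'' : t * z' * t⁻¹ = z'⁻¹ := hzi'
    have e'' : x = y' * z' := e'
    have h := odd_inv_unique hk hyt hz hzi hyt''.symm hz'' hzi'' (e.symm.trans e'')
    exact Prod.ext h.1.symm h.2.symm
  · rw [← Nat.card_prod]
    symm
    apply Nat.card_eq_of_bijective
      (fun p : ↥(X ⊓ Subgroup.centralizer {t}) × ↥(Cfsg.invertedBy X t) =>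
        (⟨(p.1 : M) * (p.2 : M), mul_mem p.1.2.1 p.2.2.1⟩ : X))
    constructor
    · rintro ⟨⟨y, hy⟩, ⟨z, hz⟩⟩ ⟨⟨y', hy'⟩, ⟨z', hz'⟩⟩ h
      have e : y * z = y' * z' := congrArg Subtype.val h
      have h1 := odd_inv_unique hk (Subgroup.mem_centralizer_singleton_iff.mp hy.2).symm hz.1 hz.2
        (Subgroup.mem_centralizer_singleton_iff.mp hy'.2).symm hz'.1 hz'.2 e
      exact Prod.ext (Subtype.ext h1.1) (Subtype.ext h1.2)
    · rintro ⟨x, hx⟩
      obtain ⟨y, z, hy, hyt, hz, hzi, e, -⟩ := odd_inv_exists ht hk hnorm hx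
      exact ⟨(⟨y, ⟨hy, Subgroup.mem_centralizer_singleton_iff.mpr hyt.symm⟩⟩, ⟨z, ⟨hz, hzi⟩⟩),
        Subtype.ext e.symm⟩
  · intro x hx
    ext g
    rw [Subgroup.mem_pointwise_smul_iff_inv_smul_mem]
    have e : (MulAut.conj x)⁻¹ • g = x⁻¹ * g * x := by
      simp [MulAut.smul_def]
    rw [e]
    constructor
    · intro h
      have h1 := hN x hx _ h
      have e2 : x * (x⁻¹ * g * x) * x⁻¹ = g := by group
      rwa [e2] at h1
    · intro h
      have h1 := hN x⁻¹ (inv_mem hx) g h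
      rwa [inv_inv] at h1

end Cfsg.Agent.S1124
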