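import Cfsg.Statements.S1127
-- import your own Cfsg.Agent.* helpers here
import Cfsg.Agent.Lib.helper6.RankOne5
import Cfsg.Agent.S1123
import Cfsg.Agent.S1124

set_option autoImplicit false
open Cfsg

namespace Cfsg.Agent.S1127

open Cfsg.Agent.Lib.helper6 MulAction

/-- In the rank-one set-up (`G` finite and doubly transitive on `Ω`, `t` an involution moving `a`, `Q` normal in `G_a` with `G_a = Q D`, `Q ⊓ D = 1` for the two-point stabiliser `D = G_a ⊓ G_{t • a}`, `|Q|` even, `|D|` odd): if `s` is an involution of `G_a` and `r ∈ Q` satisfy `t s t = r⁻¹ t r`, then `C_D(t) = C_D(s)`; moreover `C_D(t) ⊓ C_D(K) = C_D(I ∩ G_a)`, where `K` is the set of elements of `D` inverted by `t` and `I ∩ G_a` the set of involutions of `G_a`. -/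
theorem result {G Ω : Type*} [Group G] [Finite G] [MulAction G Ω] {a : Ω} {t : G} {Q : Subgroup G}
    (hS : Cfsg.IsRankOneSetup G Ω a t Q) :
    (∀ s r : G, s ∈ Cfsg.involutionsIn (MulAction.stabilizer G a : Set G) → r ∈ Q → t * s * t = r⁻¹ * t * r →
        (MulAction.stabilizer G a ⊓ MulAction.stabilizer G (t • a)) ⊓ Subgroup.centralizer {t} = (MulAction.stabilizer G a ⊓ MulAction.stabilizer G (t • a)) ⊓ Subgroup.centralizer {s}) ∧
      (MulAction.stabilizer G a ⊓ MulAction.stabilizer G (t • a)) ⊓ Subgroup.centralizer {t} ⊓ Subgroup.centralizer (Cfsg.invertedBy (MulAction.stabilizer G a ⊓ MulAction.stabilizer G (t • a)) t) =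
        (MulAction.stabilizer G a ⊓ MulAction.stabilizer G (t • a)) ⊓ Subgroup.centralizer (Cfsg.involutionsIn (MulAction.stabilizer G a : Set G)) := by
  have hti := ro_tinv hS
  have hDnorm : ∀ x ∈ stabilizer G a ⊓ stabilizer G (t • a),
      t * x * t⁻¹ ∈ stabilizer G a ⊓ stabilizer G (t • a) := by
    intro x hx
    rw [hti]
    exact ro_t_conj_D hS hx
  have hcardt := (Cfsg.Agent.S1124.result t (ro_t_order hS) _ hS.odd_card hDnorm).2.1
  have hKpos : 0 < Nat.card (Cfsg.invertedBy (stabilizer G a ⊓ stabilizer G (t • a)) t) := by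
    have : Nonempty ↥(Cfsg.invertedBy (stabilizer G a ⊓ stabilizer G (t • a)) t) :=
      ⟨⟨1, one_mem _, by simp⟩⟩
    exact Nat.card_pos
  have partA : ∀ s r : G, s ∈ Cfsg.involutionsIn (stabilizer G a : Set G) → r ∈ Q →
      t * s * t = r⁻¹ * t * r →
      (stabilizer G a ⊓ stabilizer G (t • a)) ⊓ Subgroup.centralizer {t} =
        (stabilizer G a ⊓ stabilizer G (t • a)) ⊓ Subgroup.centralizer {s} := by
    intro s r hs hr e
    have hs' := hs
    obtain ⟨hsH, hs1, hss⟩ := hs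
    have hsH' : s ∈ stabilizer G a := hsH
    have hso := orderOf_two_of_mul_self hss hs1
    have hle : (stabilizer G a ⊓ stabilizer G (t • a)) ⊓ Subgroup.centralizer {t} ≤
        (stabilizer G a ⊓ stabilizer G (t • a)) ⊓ Subgroup.centralizer {s} := by
      intro d hd
      obtain ⟨hdD, hdt⟩ := Subgroup.mem_inf.mp hd
      have hdH : d ∈ stabilizer G a := (Subgroup.mem_inf.mp hdD).1
      have hdt' : d * t = t * d := Subgroup.mem_centralizer_singleton_iff.mp hdt
      refine Subgroup.mem_inf.mpr ⟨hdD, Subgroup.mem_centralizer_singleton_iff.mpr ?_⟩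
      have h1 : (d * s * d⁻¹, d * r * d⁻¹) = (s, r) := by
        apply (Cfsg.Agent.S1123.result hS).unique
        · refine ⟨⟨?_, ?_, ?_⟩, hS.conj_mem d hdH r hr, ?_⟩
          · exact (stabilizer G a).mul_mem ((stabilizer G a).mul_mem hdH hsH') ((stabilizer G a).inv_mem hdH)
          · intro h
            have h' : d * s * d⁻¹ = 1 := h
            apply hs1
            have e2 : s = d⁻¹ * (d * s * d⁻¹) * d := by group
            rw [e2, h']; group
          · have e2 : d * s * d⁻¹ * (d * s * d⁻¹) = d * (s * s) * d⁻¹ := by group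
            show d * s * d⁻¹ * (d * s * d⁻¹) = 1
            rw [e2, hss]; group
          · show t * (d * s * d⁻¹) * t = (d * r * d⁻¹)⁻¹ * t * (d * r * d⁻¹)
            have hdt'' : d⁻¹ * t = t * d⁻¹ := by
              calc d⁻¹ * t = d⁻¹ * (t * d) * d⁻¹ := by group
                _ = d⁻¹ * (d * t) * d⁻¹ := by rw [hdt']
                _ = t * d⁻¹ := by group
            calc t * (d * s * d⁻¹) * t = (t * d) * s * (d⁻¹ * t) := by group
              _ = (d * t) * s * (t * d⁻¹) := by rw [hdt', hdt'']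
              _ = d * (t * s * t) * d⁻¹ := by group
              _ = d * (r⁻¹ * t * r) * d⁻¹ := by rw [e]
              _ = (d * r * d⁻¹)⁻¹ * (d * t) * d⁻¹ * (d * r * d⁻¹) := by group
              _ = (d * r * d⁻¹)⁻¹ * (t * d) * d⁻¹ * (d * r * d⁻¹) := by rw [hdt']
              _ = (d * r * d⁻¹)⁻¹ * t * (d * r * d⁻¹) := by group
        · exact ⟨hs', hr, e⟩
      have h2 : d * s * d⁻¹ = s := congrArg Prod.fst h1
      calc d * s = (d * s * d⁻¹) * d := by group
        _ = s * d := by rw [h2]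
    apply Subgroup.eq_of_le_of_card_ge hle
    have hcards := ro_card_D_cent hS hso hsH'
    have h3 := hcardt.symm.trans hcards
    exact (Nat.eq_of_mul_eq_mul_right hKpos h3).ge
  refine ⟨partA, ?_⟩
  obtain ⟨⟨s₀, r₀⟩, ⟨hs₀, hr₀, e₀⟩, -⟩ := Cfsg.Agent.S1123.result hS
  have hs₀' := hs₀
  obtain ⟨hs₀H, hs₀1, hs₀s⟩ := hs₀
  have hs₀H' : s₀ ∈ stabilizer G a := hs₀H
  have hs₀o := orderOf_two_of_mul_self hs₀s hs₀1
  have hA := partA s₀ r₀ hs₀' hr₀ e₀
  apply le_antisymm
  · intro d hd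
    obtain ⟨hd1, hdK⟩ := Subgroup.mem_inf.mp hd
    obtain ⟨hdD, hdt⟩ := Subgroup.mem_inf.mp hd1
    have hds : d ∈ (stabilizer G a ⊓ stabilizer G (t • a)) ⊓ Subgroup.centralizer {s₀} := by
      rw [← hA]; exact hd1
    have hds' : d * s₀ = s₀ * d :=
      Subgroup.mem_centralizer_singleton_iff.mp (Subgroup.mem_inf.mp hds).2
    refine Subgroup.mem_inf.mpr ⟨hdD, Subgroup.mem_centralizer_iff.mpr ?_⟩
    rintro s' ⟨hs'H, hs'1, hs's'⟩
    obtain ⟨k, hk, hks⟩ := ro_K_conj hS hs₀o hs₀H' (orderOf_two_of_mul_self hs's' hs'1) hs'H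
    have hkd : k * d = d * k := (Subgroup.mem_centralizer_iff.mp hdK) k hk
    have hkd' : k⁻¹ * d = d * k⁻¹ := by
      calc k⁻¹ * d = k⁻¹ * (d * k) * k⁻¹ := by group
        _ = k⁻¹ * (k * d) * k⁻¹ := by rw [hkd]
        _ = d * k⁻¹ := by group
    rw [← hks]
    calc k⁻¹ * s₀ * k * d = k⁻¹ * s₀ * (k * d) := by group
      _ = k⁻¹ * s₀ * (d * k) := by rw [hkd]
      _ = k⁻¹ * (s₀ * d) * k := by group
      _ = k⁻¹ * (d * s₀) * k := by rw [hds']
      _ = (k⁻¹ * d) * s₀ * k := by group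
      _ = (d * k⁻¹) * s₀ * k := by rw [hkd']
      _ = d * (k⁻¹ * s₀ * k) := by group
  · intro d hd
    obtain ⟨hdD, hdI⟩ := Subgroup.mem_inf.mp hd
    have hdI' := Subgroup.mem_centralizer_iff.mp hdI
    have hds : d ∈ (stabilizer G a ⊓ stabilizer G (t • a)) ⊓ Subgroup.centralizer {s₀} :=
      Subgroup.mem_inf.mpr ⟨hdD, Subgroup.mem_centralizer_singleton_iff.mpr (hdI' s₀ hs₀').symm⟩
    have hdt : d ∈ (stabilizer G a ⊓ stabilizer G (t • a)) ⊓ Subgroup.centralizer {t} := by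
      rw [hA]; exact hds
    have hdt' : d * t = t * d :=
      Subgroup.mem_centralizer_singleton_iff.mp (Subgroup.mem_inf.mp hdt).2
    refine Subgroup.mem_inf.mpr ⟨hdt, Subgroup.mem_centralizer_iff.mpr ?_⟩
    intro k hk
    have hkD : k ∈ stabilizer G a ⊓ stabilizer G (t • a) := hk.1
    have hkinv : t * k * t⁻¹ = k⁻¹ := hk.2
    have hk' : d * k * d⁻¹ ∈ Cfsg.invertedBy (stabilizer G a ⊓ stabilizer G (t • a)) t := by
      refine ⟨mul_mem (mul_mem hdD hkD) (inv_mem hdD), ?_⟩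
      calc t * (d * k * d⁻¹) * t⁻¹ = (t * d) * k * (t * d)⁻¹ := by group
        _ = (d * t) * k * (d * t)⁻¹ := by rw [hdt']
        _ = d * (t * k * t⁻¹) * d⁻¹ := by group
        _ = d * k⁻¹ * d⁻¹ := by rw [hkinv]
        _ = (d * k * d⁻¹)⁻¹ := by group
    have hinvol : k⁻¹ * s₀ * k ∈ Cfsg.involutionsIn (stabilizer G a : Set G) := by
      refine ⟨?_, ?_, ?_⟩
      · exact (stabilizer G a).mul_mem ((stabilizer G a).mul_mem ((stabilizer G a).inv_mem hkD.1) hs₀H') hkD.1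
      · intro h
        apply hs₀1
        have e2 : s₀ = k * (k⁻¹ * s₀ * k) * k⁻¹ := by group
        rw [e2, h]; group
      · have e2 : k⁻¹ * s₀ * k * (k⁻¹ * s₀ * k) = k⁻¹ * (s₀ * s₀) * k := by group
        rw [e2, hs₀s]; group
    have h1 : (d * k * d⁻¹)⁻¹ * s₀ * (d * k * d⁻¹) = k⁻¹ * s₀ * k := by
      have c1 : s₀ * d = d * s₀ := hdI' s₀ hs₀'
      have c2 : (k⁻¹ * s₀ * k) * d = d * (k⁻¹ * s₀ * k) := hdI' _ hinvol
      calc (d * k * d⁻¹)⁻¹ * s₀ * (d * k * d⁻¹) = d * k⁻¹ * (d⁻¹ * (s₀ * d)) * k * d⁻¹ := by group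
        _ = d * k⁻¹ * (d⁻¹ * (d * s₀)) * k * d⁻¹ := by rw [c1]
        _ = d * (k⁻¹ * s₀ * k) * d⁻¹ := by group
        _ = (k⁻¹ * s₀ * k) * d * d⁻¹ := by rw [c2]
        _ = k⁻¹ * s₀ * k := by group
    have h2 := ro_K_conj_inj hS hs₀o hs₀H' hk' hk h1
    calc k * d = (d * k * d⁻¹) * d := by rw [h2]
      _ = d * k := by group

end Cfsg.Agent.S1127
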