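import Cfsg.Statements.S1129
import Cfsg.Agent.Lib.helper6.RankOne5
import Cfsg.Agent.S0033
import Mathlib

set_option autoImplicit false
open Cfsg

namespace Cfsg.Agent.S1129

open Cfsg.Agent.Lib.helper6 MulAction

variable {G Ω : Type*} [Group G] [Finite G] [MulAction G Ω] {a : Ω} {t : G} {Q : Subgroup G}

theorem invol_order {x : G} (h1 : x ≠ 1) (h2 : x * x = 1) : orderOf x = 2 := by
  haveI : Fact (Nat.Prime 2) := ⟨Nat.prime_two⟩
  exact orderOf_eq_prime (by rw [pow_two]; exact h2) h1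

/-- Two distinct commuting involutions give two distinct involutions in `G_a`. -/
theorem two_invol (hS : Cfsg.IsRankOneSetup G Ω a t Q)
    (h2 : ∃ x y : G, x ≠ 1 ∧ y ≠ 1 ∧ x ≠ y ∧ x * x = 1 ∧ y * y = 1 ∧ x * y = y * x) :
    ∃ s s' : G, s ∈ stabilizer G a ∧ s' ∈ stabilizer G a ∧ orderOf s = 2 ∧ orderOf s' = 2 ∧ s ≠ s' := by
  obtain ⟨x, y, hx1, hy1, hxy, hxx, hyy, hc⟩ := h2
  have hox := invol_order hx1 hxx
  have hoy := invol_order hy1 hyy
  obtain ⟨w, hw, hwu⟩ := ro_invol_fix_exists hS hox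
  have hyw : y • w = w := by
    apply hwu
    rw [← mul_smul, hc, mul_smul, hw]
  have hex : ∃ g : G, g • w = a := by
    by_cases hwa : w = a
    · exact ⟨1, by rw [one_smul, hwa]⟩
    · obtain ⟨h, hh, hhw⟩ := ro_exists_stab hS hwa
      refine ⟨(h * t)⁻¹, ?_⟩
      rw [← hhw, ← mul_smul h t a, inv_smul_smul]
  obtain ⟨g, hg⟩ := hex
  have hmem : ∀ z : G, z • w = w → g * z * g⁻¹ ∈ stabilizer G a := by
    intro z hz
    rw [mem_stabilizer_iff, mul_smul, mul_smul, ← hg, inv_smul_smul, hz]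
  refine ⟨g * x * g⁻¹, g * y * g⁻¹, hmem x hw, hmem y hyw, ?_, ?_, ?_⟩
  · apply invol_order
    · intro h
      apply hx1
      have : x = g⁻¹ * (g * x * g⁻¹) * g := by group
      rw [this, h]; group
    · have : g * x * g⁻¹ * (g * x * g⁻¹) = g * (x * x) * g⁻¹ := by group
      rw [this, hxx]; group
  · apply invol_order
    · intro h
      apply hy1
      have : y = g⁻¹ * (g * y * g⁻¹) * g := by group
      rw [this, h]; group
    · have : g * y * g⁻¹ * (g * y * g⁻¹) = g * (y * y) * g⁻¹ := by group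
      rw [this, hyy]; group
  · intro h
    apply hxy
    have e1 : x = g⁻¹ * (g * x * g⁻¹) * g := by group
    have e2 : y = g⁻¹ * (g * y * g⁻¹) * g := by group
    rw [e1, e2, h]

/-- A nonidentity element of `K`. -/
theorem exists_K_ne_one (hS : Cfsg.IsRankOneSetup G Ω a t Q)
    (h2 : ∃ x y : G, x ≠ 1 ∧ y ≠ 1 ∧ x ≠ y ∧ x * x = 1 ∧ y * y = 1 ∧ x * y = y * x) :
    ∃ k ∈ Cfsg.invertedBy (stabilizer G a ⊓ stabilizer G (t • a)) t, k ≠ 1 := by
  obtain ⟨s, s', hs, hs', hos, hos', hne⟩ := two_invol hS h2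
  obtain ⟨k, hk, hks⟩ := ro_K_conj hS hos hs hos' hs'
  refine ⟨k, hk, ?_⟩
  rintro rfl
  apply hne
  simpa using hks

theorem K_pow_mem {D : Subgroup G} {k : G} (hk : k ∈ Cfsg.invertedBy D t) (n : ℕ) :
    k ^ n ∈ Cfsg.invertedBy D t := by
  obtain ⟨hkD, hkt⟩ := hk
  refine ⟨pow_mem hkD n, ?_⟩
  rw [← inv_pow, ← hkt]
  exact (conj_pow (a := t) (b := k) (i := n)).symm

/-- An element of `K` of prime order. -/
theorem exists_K_prime (hS : Cfsg.IsRankOneSetup G Ω a t Q)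
    (h2 : ∃ x y : G, x ≠ 1 ∧ y ≠ 1 ∧ x ≠ y ∧ x * x = 1 ∧ y * y = 1 ∧ x * y = y * x) :
    ∃ k ∈ Cfsg.invertedBy (stabilizer G a ⊓ stabilizer G (t • a)) t, (orderOf k).Prime := by
  obtain ⟨k, hk, hk1⟩ := exists_K_ne_one hS h2
  have ho1 : orderOf k ≠ 1 := fun h => hk1 (orderOf_eq_one_iff.mp h)
  obtain ⟨p, hp, hpd⟩ := Nat.exists_prime_and_dvd ho1
  have ho0 : orderOf k ≠ 0 := (orderOf_pos k).ne'
  refine ⟨k ^ (orderOf k / p), K_pow_mem hk _, ?_⟩
  rw [orderOf_pow_orderOf_div ho0 hpd]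
  exact hp

/-- Conjugation by an element of `G_a` as an automorphism of `Q`. -/
noncomputable def conjQ (hS : Cfsg.IsRankOneSetup G Ω a t Q) (y : G) (hy : y ∈ stabilizer G a) :
    Q ≃* Q where
  toFun q := ⟨y * q * y⁻¹, hS.conj_mem y hy q q.2⟩
  invFun q := ⟨y⁻¹ * q * y, by
    have := hS.conj_mem y⁻¹ (inv_mem hy) q q.2
    simpa using this⟩
  left_inv q := by
    apply Subtype.ext
    show y⁻¹ * (y * q * y⁻¹) * y = q
    group
  right_inv q := by
    apply Subtype.ext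
    show y * (y⁻¹ * q * y) * y⁻¹ = q
    group
  map_mul' q r := by
    apply Subtype.ext
    show y * (q * r) * y⁻¹ = (y * q * y⁻¹) * (y * r * y⁻¹)
    group

theorem conjQ_apply (hS : Cfsg.IsRankOneSetup G Ω a t Q) (y : G) (hy : y ∈ stabilizer G a) (q : Q) :
    ((conjQ hS y hy q : Q) : G) = y * q * y⁻¹ := rfl

theorem conjQ_pow (hS : Cfsg.IsRankOneSetup G Ω a t Q) (y : G) (hy : y ∈ stabilizer G a) (n : ℕ)
    (q : Q) : ((((conjQ hS y hy : MulAut Q) ^ n) q : Q) : G) = y ^ n * q * (y ^ n)⁻¹ := by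
  induction n generalizing q with
  | zero => simp
  | succ n ih =>
    rw [pow_succ, MulAut.mul_apply, ih, conjQ_apply, pow_succ]
    group

theorem nilpotent_Q (hS : Cfsg.IsRankOneSetup G Ω a t Q)
    (h2 : ∃ x y : G, x ≠ 1 ∧ y ≠ 1 ∧ x ≠ y ∧ x * x = 1 ∧ y * y = 1 ∧ x * y = y * x) :
    Group.IsNilpotent Q := by
  obtain ⟨k, hk, hp⟩ := exists_K_prime hS h2
  have hk1 : k ≠ 1 := by
    rintro rfl
    rw [orderOf_one] at hp
    exact Nat.not_prime_one hp
  have hfpf := ro_inverted_fpf hS hk hk1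
  have hkD : k ∈ stabilizer G a ⊓ stabilizer G (t • a) := hk.1
  have hka : k ∈ stabilizer G a := hkD.1
  have hF : MonoidHom.FixedPointFree ((conjQ hS k hka : Q ≃* Q) : Q →* Q) := by
    intro q hq
    have h1 : k * (q : G) * k⁻¹ = q := congrArg Subtype.val hq
    have h3 : (q : G) ∈ Q ⊓ Subgroup.centralizer {k} := by
      refine Subgroup.mem_inf.mpr ⟨q.2, ?_⟩
      rw [Subgroup.mem_centralizer_iff]
      intro z hz
      rw [Set.mem_singleton_iff] at hz
      subst hz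
      calc z * (q : G) = (z * q * z⁻¹) * z := by group
        _ = q * z := by rw [h1]
    rw [hfpf, Subgroup.mem_bot] at h3
    exact Subtype.ext h3
  haveI : Fact (orderOf k).Prime := ⟨hp⟩
  have hord : orderOf (conjQ hS k hka : MulAut Q) = orderOf k := by
    apply orderOf_eq_prime
    · apply MulEquiv.ext
      intro q
      apply Subtype.ext
      rw [conjQ_pow, pow_orderOf_eq_one]
      simp
    · intro h
      obtain ⟨s, hsQ, hos⟩ := ro_exists_invol hS
      have h4 := hF ⟨s, hsQ⟩ (by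
        show (conjQ hS k hka : MulAut Q) ⟨s, hsQ⟩ = ⟨s, hsQ⟩
        rw [h]; rfl)
      have h5 : s = 1 := congrArg Subtype.val h4
      rw [h5, orderOf_one] at hos
      omega
  exact Cfsg.Agent.S0033.result (conjQ hS k hka) hF (orderOf k) hp hord

/-- In the rank-one set-up (`G` finite and doubly transitive on `Ω`, `t` an involution moving `a`, `Q` normal in `G_a` with `G_a = Q D`, `Q ⊓ D = 1` for the two-point stabiliser `D = G_a ⊓ G_{t • a}`, `|Q|` even, `|D|` odd), with the action faithful and `G` containing two distinct commuting involutions: `Q` is nilpotent. -/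
theorem result {G Ω : Type*} [Group G] [Finite G] [MulAction G Ω] [FaithfulSMul G Ω] {a : Ω} {t : G} {Q : Subgroup G}
    (hS : Cfsg.IsRankOneSetup G Ω a t Q)
    (h2 : ∃ x y : G, x ≠ 1 ∧ y ≠ 1 ∧ x ≠ y ∧ x * x = 1 ∧ y * y = 1 ∧ x * y = y * x) :
    Group.IsNilpotent Q := by
  exact nilpotent_Q hS h2

end Cfsg.Agent.S1129
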