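import Cfsg.Statements.S1130
import Cfsg.Agent.S1129
import Cfsg.Agent.Lib.helper23.FaithfulP
import Mathlib

set_option autoImplicit false
open Cfsg

namespace Cfsg.Agent.S1130

open Cfsg.Agent.Lib.helper6 MulAction Cfsg.Agent.S1129

variable {G Ω : Type*} [Group G] [Finite G] [MulAction G Ω] {a : Ω} {t : G} {Q : Subgroup G}

/-- There is an involution in the centre of `Q`. -/
theorem exists_central_invol (hS : Cfsg.IsRankOneSetup G Ω a t Q)
    (h2 : ∃ x y : G, x ≠ 1 ∧ y ≠ 1 ∧ x ≠ y ∧ x * x = 1 ∧ y * y = 1 ∧ x * y = y * x) :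
    ∃ z : G, z ∈ Q ∧ orderOf z = 2 ∧ ∀ x ∈ Q, z * x = x * z := by
  haveI : Group.IsNilpotent Q := nilpotent_Q hS h2
  haveI : Fact (Nat.Prime 2) := ⟨Nat.prime_two⟩
  obtain ⟨P⟩ : Nonempty (Sylow 2 Q) := inferInstance
  have hPne : (P : Subgroup Q) ≠ ⊥ := P.ne_bot_of_dvd_card (even_iff_two_dvd.mp hS.even_card)
  have h1 := Cfsg.Agent.Lib.helper23.nilpotent_normal_inf_center_ne_bot (P : Subgroup Q) hPne
  obtain ⟨z, hz, hz1⟩ := (Subgroup.ne_bot_iff_exists_ne_one (H := (P : Subgroup Q) ⊓ Subgroup.center Q)).mp h1 |>.imp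
    (fun z hz => hz) |> fun ⟨z, hz⟩ => (⟨z.1, z.2, fun h => hz (Subtype.ext h)⟩ : ∃ z : Q, z ∈ (P : Subgroup Q) ⊓ Subgroup.center Q ∧ z ≠ 1)
  obtain ⟨hzP, hzC⟩ := Subgroup.mem_inf.mp hz
  obtain ⟨n, hn⟩ := (IsPGroup.iff_orderOf.mp P.isPGroup') ⟨z, hzP⟩
  have hoz : orderOf z = 2 ^ n := by
    rw [← hn]; exact (Subgroup.orderOf_mk z hzP).symm
  have hn0 : n ≠ 0 := by
    rintro rfl
    rw [pow_zero, orderOf_eq_one_iff] at hoz
    exact hz1 hoz
  have h2d : 2 ∣ orderOf z := by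
    rw [hoz]; exact dvd_pow_self 2 hn0
  have ho0 : orderOf z ≠ 0 := by rw [hoz]; positivity
  refine ⟨((z ^ (orderOf z / 2) : Q) : G), (z ^ (orderOf z / 2)).2, ?_, ?_⟩
  · rw [Subgroup.orderOf_coe, orderOf_pow_orderOf_div ho0 h2d]
  · intro x hx
    have hc : z ^ (orderOf z / 2) ∈ Subgroup.center Q := pow_mem hzC _
    have h3 := (Subgroup.mem_center_iff.mp hc) ⟨x, hx⟩
    have h4 := congrArg Subtype.val h3
    exact h4.symm

theorem invol_central (hS : Cfsg.IsRankOneSetup G Ω a t Q)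
    (h2 : ∃ x y : G, x ≠ 1 ∧ y ≠ 1 ∧ x ≠ y ∧ x * x = 1 ∧ y * y = 1 ∧ x * y = y * x)
    {s : G} (hs : s ∈ Cfsg.involutionsIn (stabilizer G a : Set G)) :
    s ∈ Q ∧ ∀ x ∈ Q, s * x = x * s := by
  obtain ⟨hsH, hs1, hss⟩ := hs
  have hsH' : s ∈ stabilizer G a := hsH
  refine ⟨ro_invol_mem_Q hS hss hsH', ?_⟩
  obtain ⟨z, hzQ, hoz, hzc⟩ := exists_central_invol hS h2
  obtain ⟨k, hk, hks⟩ := ro_K_conj hS hoz (hS.le hzQ) (invol_order hs1 hss) hsH'
  have hkD : k ∈ stabilizer G a ⊓ stabilizer G (t • a) := hk.1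
  have hka : k ∈ stabilizer G a := hkD.1
  intro x hx
  have h3 := hzc (k * x * k⁻¹) (hS.conj_mem k hka x hx)
  rw [← hks]
  calc k⁻¹ * z * k * x = k⁻¹ * (z * (k * x * k⁻¹)) * k := by group
    _ = k⁻¹ * ((k * x * k⁻¹) * z) * k := by rw [h3]
    _ = x * (k⁻¹ * z * k) := by group

/-- In the rank-one set-up (`G` finite and doubly transitive on `Ω`, `t` an involution moving `a`, `Q` normal in `G_a` with `G_a = Q D`, `Q ⊓ D = 1` for the two-point stabiliser `D = G_a ⊓ G_{t • a}`, `|Q|` even, `|D|` odd), with the action faithful and `G` containing two distinct commuting involutions: the involutions of `G_a` lie in `Z(Q)`, and together with `1` they are closed under multiplication (so form an elementary abelian 2-subgroup). -/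
theorem result {G Ω : Type*} [Group G] [Finite G] [MulAction G Ω] [FaithfulSMul G Ω] {a : Ω} {t : G} {Q : Subgroup G}
    (hS : Cfsg.IsRankOneSetup G Ω a t Q)
    (h2 : ∃ x y : G, x ≠ 1 ∧ y ≠ 1 ∧ x ≠ y ∧ x * x = 1 ∧ y * y = 1 ∧ x * y = y * x) :
    (∀ s ∈ Cfsg.involutionsIn (MulAction.stabilizer G a : Set G), s ∈ Q ∧ ∀ x ∈ Q, s * x = x * s) ∧
      ∀ s ∈ Cfsg.involutionsIn (MulAction.stabilizer G a : Set G), ∀ s' ∈ Cfsg.involutionsIn (MulAction.stabilizer G a : Set G),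
        s * s' = 1 ∨ s * s' ∈ Cfsg.involutionsIn (MulAction.stabilizer G a : Set G) := by
  refine ⟨fun s hs => invol_central hS h2 hs, ?_⟩
  intro s hs s' hs'
  by_cases h1 : s * s' = 1
  · exact Or.inl h1
  · right
    have hc := (invol_central hS h2 hs).2 s' (invol_central hS h2 hs').1
    obtain ⟨hsH, hs1, hss⟩ := hs
    obtain ⟨hsH', hs1', hss'⟩ := hs'
    refine ⟨?_, h1, ?_⟩
    · exact mul_mem (show s ∈ stabilizer G a from hsH) (show s' ∈ stabilizer G a from hsH')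
    · calc s * s' * (s * s') = s * (s' * s) * s' := by group
        _ = s * (s * s') * s' := by rw [hc]
        _ = (s * s) * (s' * s') := by group
        _ = 1 := by rw [hss, hss', one_mul]

end Cfsg.Agent.S1130
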