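import Cfsg.Statements.S1134
-- import your own Cfsg.Agent.* helpers here
import Cfsg.Agent.Lib.helper6.RankOne5

set_option autoImplicit false
open Cfsg

namespace Cfsg.Agent.S1134

open Cfsg.Agent.Lib.helper6 MulAction

/-- In the rank-one set-up (`G` finite and doubly transitive on `Ω`, `t` an involution moving `a`, `Q` normal in `G_a` with `G_a = Q D`, `Q ⊓ D = 1` for the two-point stabiliser `D = G_a ⊓ G_{t • a}`, `|Q|` even, `|D|` odd), with the action faithful and `G` containing two distinct commuting involutions, with `V = C_D(t)`: subsets of `V` conjugate in `G` are conjugate in `V`. -/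
theorem result {G Ω : Type*} [Group G] [Finite G] [MulAction G Ω] [FaithfulSMul G Ω] {a : Ω} {t : G} {Q : Subgroup G}
    (hS : Cfsg.IsRankOneSetup G Ω a t Q)
    (h2 : ∃ x y : G, x ≠ 1 ∧ y ≠ 1 ∧ x ≠ y ∧ x * x = 1 ∧ y * y = 1 ∧ x * y = y * x)
    (X : Set G) (hX : X ⊆ (((MulAction.stabilizer G a ⊓ MulAction.stabilizer G (t • a)) ⊓ Subgroup.centralizer {t} : Subgroup G) : Set G)) (g : G)
    (hY : (fun x => g * x * g⁻¹) '' X ⊆ (((MulAction.stabilizer G a ⊓ MulAction.stabilizer G (t • a)) ⊓ Subgroup.centralizer {t} : Subgroup G) : Set G)) :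
    ∃ v ∈ (MulAction.stabilizer G a ⊓ MulAction.stabilizer G (t • a)) ⊓ Subgroup.centralizer {t}, (fun x => v * x * v⁻¹) '' X = (fun x => g * x * g⁻¹) '' X := by
  have hti := ro_tinv hS
  have htt := hS.mul_self
  have hXV : ∀ x ∈ X, x ∈ stabilizer G a ⊓ stabilizer G (t • a) ∧ x * t = t * x := by
    intro x hx
    have h1 := Subgroup.mem_inf.mp (hX hx)
    exact ⟨h1.1, Subgroup.mem_centralizer_singleton_iff.mp h1.2⟩
  have hYV : ∀ x ∈ X, g * x * g⁻¹ ∈ stabilizer G a ⊓ stabilizer G (t • a) ∧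
      (g * x * g⁻¹) * t = t * (g * x * g⁻¹) := by
    intro x hx
    have h1 := Subgroup.mem_inf.mp (hY ⟨x, hx, rfl⟩)
    exact ⟨h1.1, Subgroup.mem_centralizer_singleton_iff.mp h1.2⟩
  obtain ⟨w, htw, hwu⟩ := ro_invol_fix_exists hS (ro_t_order hS)
  have hYa : ∀ y ∈ (fun x => g * x * g⁻¹) '' X, y • a = a := by
    rintro y ⟨x, hx, rfl⟩
    exact mem_stabilizer_iff.mp (hYV x hx).1.1
  have hYb : ∀ y ∈ (fun x => g * x * g⁻¹) '' X, y • (t • a) = t • a := by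
    rintro y ⟨x, hx, rfl⟩
    exact mem_stabilizer_iff.mp (hYV x hx).1.2
  have hYw : ∀ y ∈ (fun x => g * x * g⁻¹) '' X, y • w = w := by
    rintro y ⟨x, hx, rfl⟩
    apply hwu
    rw [← mul_smul, ← (hYV x hx).2, mul_smul, htw]
  have hYga : ∀ y ∈ (fun x => g * x * g⁻¹) '' X, y • (g • a) = g • a := by
    rintro y ⟨x, hx, rfl⟩
    show (g * x * g⁻¹) • (g • a) = g • a
    rw [mul_smul, mul_smul, inv_smul_smul, mem_stabilizer_iff.mp (hXV x hx).1.1]
  have hYgb : ∀ y ∈ (fun x => g * x * g⁻¹) '' X, y • (g • (t • a)) = g • (t • a) := by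
    rintro y ⟨x, hx, rfl⟩
    show (g * x * g⁻¹) • (g • (t • a)) = g • (t • a)
    rw [mul_smul, mul_smul, inv_smul_smul, mem_stabilizer_iff.mp (hXV x hx).1.2]
  have hwa : a ≠ w := by
    intro h
    rw [← h] at htw
    exact ro_ne hS htw
  have hwb : t • a ≠ w := by
    intro h
    rw [← h, ro_tt hS] at htw
    exact ro_ne hS htw.symm
  have h3 : ∃ b c d : Ω, b ≠ c ∧ b ≠ d ∧ c ≠ d ∧
      ∀ y ∈ (fun x => g * x * g⁻¹) '' X, y • b = b ∧ y • c = c ∧ y • d = d :=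
    ⟨a, t • a, w, Ne.symm (ro_ne hS), hwa, hwb, fun y hy => ⟨hYa y hy, hYb y hy, hYw y hy⟩⟩
  have hne : g • a ≠ g • (t • a) := fun h => ro_ne hS (smul_left_cancel g h).symm
  obtain ⟨c, hc, hca, hcb⟩ := ro_cent_two_trans hS h3 hYga hYgb hYa hYb hne (Ne.symm (ro_ne hS))
  have hcC := Subgroup.mem_centralizer_iff.mp hc
  have hdD : c * g ∈ stabilizer G a ⊓ stabilizer G (t • a) := by
    refine ⟨mem_stabilizer_iff.mpr ?_, mem_stabilizer_iff.mpr ?_⟩
    · rw [mul_smul, hca]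
    · rw [mul_smul, hcb]
  have hdx : ∀ x ∈ X, (c * g) * x * (c * g)⁻¹ = g * x * g⁻¹ := by
    intro x hx
    have h1 := hcC (g * x * g⁻¹) ⟨x, hx, rfl⟩
    calc (c * g) * x * (c * g)⁻¹ = c * (g * x * g⁻¹) * c⁻¹ := by group
      _ = (g * x * g⁻¹) * c * c⁻¹ := by rw [h1]
      _ = g * x * g⁻¹ := by group
  generalize c * g = d at hdD hdx
  -- `k = d⁻¹ t d t`
  have hkD : d⁻¹ * (t * d * t) ∈ stabilizer G a ⊓ stabilizer G (t • a) :=
    mul_mem (inv_mem hdD) (ro_t_conj_D hS hdD)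
  have hkinv : t * (d⁻¹ * (t * d * t)) * t⁻¹ = (d⁻¹ * (t * d * t))⁻¹ := by
    have htt' : ∀ b : G, t * (t * b) = b := fun b => by rw [← mul_assoc, htt, one_mul]
    simp only [mul_inv_rev, inv_inv, hti, mul_assoc, htt', htt, mul_one]
  have hkX : ∀ x ∈ X, x * (d⁻¹ * (t * d * t)) = (d⁻¹ * (t * d * t)) * x := by
    intro x hx
    have h1 := (hXV x hx).2
    have h2 := (hYV x hx).2
    rw [← hdx x hx] at h2
    calc x * (d⁻¹ * (t * d * t)) = d⁻¹ * ((d * x * d⁻¹) * t) * d * t := by group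
      _ = d⁻¹ * (t * (d * x * d⁻¹)) * d * t := by rw [h2]
      _ = d⁻¹ * t * d * (x * t) := by group
      _ = d⁻¹ * t * d * (t * x) := by rw [h1]
      _ = (d⁻¹ * (t * d * t)) * x := by group
  obtain ⟨m, hm⟩ := hS.odd_card
  have hodd : Odd (orderOf (d⁻¹ * (t * d * t))) := by
    have h1 : orderOf (d⁻¹ * (t * d * t)) ∣ 2 * m + 1 :=
      orderOf_dvd_of_pow_eq_one (odd_pow_card hm hkD)
    exact Odd.of_dvd_nat ⟨m, rfl⟩ h1
  obtain ⟨n, hn⟩ := odd_sqrt hodd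
  have hk₁D : (d⁻¹ * (t * d * t)) ^ n ∈ stabilizer G a ⊓ stabilizer G (t • a) := pow_mem hkD n
  have hk₁inv : t * (d⁻¹ * (t * d * t)) ^ n * t⁻¹ = ((d⁻¹ * (t * d * t)) ^ n)⁻¹ :=
    inv_pow_of_inv hkinv n
  have hk₁X : ∀ x ∈ X, x * (d⁻¹ * (t * d * t)) ^ n = (d⁻¹ * (t * d * t)) ^ n * x := by
    intro x hx
    exact ((show Commute x (d⁻¹ * (t * d * t)) from hkX x hx).pow_right n).eq
  have hconj : d⁻¹ * t * d = (d⁻¹ * (t * d * t)) ^ n * t * ((d⁻¹ * (t * d * t)) ^ n)⁻¹ := by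
    rw [← sq_mul_eq_conj htt hk₁inv, hn]
    simp only [mul_assoc]
    rw [htt, mul_one]
  generalize (d⁻¹ * (t * d * t)) ^ n = k₁ at hk₁D hk₁X hconj
  have hvt : (d * k₁) * t = t * (d * k₁) := by
    calc (d * k₁) * t = d * (k₁ * t * k₁⁻¹) * k₁ := by group
      _ = d * (d⁻¹ * t * d) * k₁ := by rw [hconj]
      _ = t * (d * k₁) := by group
  refine ⟨d * k₁, Subgroup.mem_inf.mpr ⟨mul_mem hdD hk₁D,
    Subgroup.mem_centralizer_singleton_iff.mpr hvt⟩, ?_⟩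
  apply Set.image_congr
  intro x hx
  rw [← hdx x hx]
  calc (d * k₁) * x * (d * k₁)⁻¹ = d * (k₁ * x) * k₁⁻¹ * d⁻¹ := by group
    _ = d * (x * k₁) * k₁⁻¹ * d⁻¹ := by rw [hk₁X x hx]
    _ = d * x * d⁻¹ := by group

end Cfsg.Agent.S1134
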