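import Cfsg.Statements.S1135
import Cfsg.Agent.S1130
import Cfsg.Agent.S1121
import Mathlib

set_option autoImplicit false
open Cfsg

namespace Cfsg.Agent.S1135

open Cfsg.Agent.Lib.helper6 MulAction Cfsg.Agent.S1129

variable {G Ω : Type*} [Group G] [Finite G] [MulAction G Ω] {a : Ω} {t : G} {Q : Subgroup G}

theorem conj_invol {x : G} (g : G) (h1 : x ≠ 1) (h2 : x * x = 1) :
    g * x * g⁻¹ ≠ 1 ∧ (g * x * g⁻¹) * (g * x * g⁻¹) = 1 := by
  constructor
  · intro h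
    apply h1
    have : x = g⁻¹ * (g * x * g⁻¹) * g := by group
    rw [this, h]; group
  · have : g * x * g⁻¹ * (g * x * g⁻¹) = g * (x * x) * g⁻¹ := by group
    rw [this, h2]; group

/-- Two involutions with a common fixed point commute. -/
theorem comm_of_fix (hS : Cfsg.IsRankOneSetup G Ω a t Q)
    (h2 : ∃ x y : G, x ≠ 1 ∧ y ≠ 1 ∧ x ≠ y ∧ x * x = 1 ∧ y * y = 1 ∧ x * y = y * x)
    {u v : G} (hu1 : u ≠ 1) (hu2 : u * u = 1) (hv1 : v ≠ 1) (hv2 : v * v = 1) {p : Ω}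
    (hup : u • p = p) (hvp : v • p = p) : u * v = v * u := by
  have h2' := hS.two_transitive
  have : IsPretransitive G Ω := MulAction.isPretransitive_of_is_two_pretransitive
  obtain ⟨h, hh⟩ := MulAction.exists_smul_eq G p a
  have hh' : h⁻¹ • a = p := by rw [inv_smul_eq_iff]; exact hh.symm
  have hmem : ∀ z : G, z • p = p → h * z * h⁻¹ ∈ stabilizer G a := by
    intro z hz
    rw [mem_stabilizer_iff, mul_smul, mul_smul, hh', hz, hh]
  obtain ⟨a1, a2⟩ := conj_invol h hu1 hu2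
  obtain ⟨b1, b2⟩ := conj_invol h hv1 hv2
  have hu' : h * u * h⁻¹ ∈ Cfsg.involutionsIn (stabilizer G a : Set G) := ⟨hmem u hup, a1, a2⟩
  have hv' : h * v * h⁻¹ ∈ Cfsg.involutionsIn (stabilizer G a : Set G) := ⟨hmem v hvp, b1, b2⟩
  have hc := (Cfsg.Agent.S1130.invol_central hS h2 hu').2 (h * v * h⁻¹)
    (Cfsg.Agent.S1130.invol_central hS h2 hv').1
  calc u * v = h⁻¹ * (h * u * h⁻¹ * (h * v * h⁻¹)) * h := by group
    _ = h⁻¹ * (h * v * h⁻¹ * (h * u * h⁻¹)) * h := by rw [hc]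
    _ = v * u := by group

theorem cent_odd (hS : Cfsg.IsRankOneSetup G Ω a t Q)
    (h2 : ∃ x y : G, x ≠ 1 ∧ y ≠ 1 ∧ x ≠ y ∧ x * x = 1 ∧ y * y = 1 ∧ x * y = y * x)
    (u v : G) (hu1 : u ≠ 1) (hu2 : u * u = 1) (hv1 : v ≠ 1) (hv2 : v * v = 1)
    (hx : (u * v) * (u * v) ≠ 1) : Odd (Nat.card ↥(Subgroup.centralizer {u * v})) := by
  rw [← Nat.not_even_iff_odd]
  intro hev
  haveI : Fact (Nat.Prime 2) := ⟨Nat.prime_two⟩
  obtain ⟨w', hw'⟩ := exists_prime_orderOf_dvd_card' 2 (even_iff_two_dvd.mp hev)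
  have hw2 : orderOf (w' : G) = 2 := by rw [Subgroup.orderOf_coe]; exact hw'
  have hwx : (w' : G) * (u * v) = (u * v) * (w' : G) :=
    (Subgroup.mem_centralizer_iff.mp w'.2 (u * v) (Set.mem_singleton _)).symm
  obtain ⟨p, hwp, hpu⟩ := ro_invol_fix_exists hS hw2
  have hxp : (u * v) • p = p := by
    apply hpu
    rw [← mul_smul, hwx, mul_smul, hwp]
  have hui : u⁻¹ = u := inv_eq_of_mul_eq_one_right hu2
  have hvi : v⁻¹ = v := inv_eq_of_mul_eq_one_right hv2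
  have hux : u * (u * v) * u⁻¹ = (u * v)⁻¹ := by
    rw [mul_inv_rev, hui, hvi, ← mul_assoc, hu2, one_mul]
  have hpp : u • p ≠ p := by
    intro hup
    have hvp : v • p = p := by
      have e : v = u * (u * v) := by rw [← mul_assoc, hu2, one_mul]
      rw [e, mul_smul, hxp, hup]
    have hc := comm_of_fix hS h2 hu1 hu2 hv1 hv2 hup hvp
    apply hx
    calc u * v * (u * v) = u * (v * u) * v := by group
      _ = u * (u * v) * v := by rw [hc]
      _ = (u * u) * (v * v) := by group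
      _ = 1 := by rw [hu2, hv2, one_mul]
  have hxp' : (u * v) • (u • p) = u • p := by
    have h1 : (u * v) * u = u * (u * v)⁻¹ := by rw [mul_inv_rev, hui, hvi, mul_assoc]
    rw [← mul_smul, h1, mul_smul]
    congr 1
    rw [inv_smul_eq_iff]; exact hxp.symm
  have h2t : ∀ {a b c d : Ω}, a ≠ b → c ≠ d → ∃ g : G, g • a = c ∧ g • b = d :=
    MulAction.is_two_pretransitive_iff.mp hS.two_transitive
  obtain ⟨g, hga, hgb⟩ := h2t (Ne.symm (ro_ne hS)) (Ne.symm hpp)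
  have hga' : g⁻¹ • p = a := by rw [inv_smul_eq_iff]; exact hga.symm
  have hgb' : g⁻¹ • (u • p) = t • a := by rw [inv_smul_eq_iff]; exact hgb.symm
  have ht'a : (g⁻¹ * u * g) • a = t • a := by rw [mul_smul, mul_smul, hga, hgb']
  have hS' : Cfsg.IsRankOneSetup G Ω a (g⁻¹ * u * g) Q :=
    { two_transitive := hS.two_transitive
      mul_self := by
        have : g⁻¹ * u * g * (g⁻¹ * u * g) = g⁻¹ * (u * u) * g := by group
        rw [this, hu2]; group
      ne_one := by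
        intro h
        apply hu1
        have : u = g * (g⁻¹ * u * g) * g⁻¹ := by group
        rw [this, h]; group
      not_mem := by
        rw [mem_stabilizer_iff, ht'a]; exact ro_ne hS
      le := hS.le
      conj_mem := hS.conj_mem
      inf_eq_bot := by rw [ht'a]; exact hS.inf_eq_bot
      sup_eq := by rw [ht'a]; exact hS.sup_eq
      even_card := hS.even_card
      odd_card := by rw [ht'a]; exact hS.odd_card }
  have hx1 : u * v ≠ 1 := by
    intro h; apply hx; rw [h, one_mul]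
  have hmemK : g⁻¹ * (u * v) * g ∈
      Cfsg.invertedBy (stabilizer G a ⊓ stabilizer G ((g⁻¹ * u * g) • a)) (g⁻¹ * u * g) := by
    refine ⟨Subgroup.mem_inf.mpr ⟨?_, ?_⟩, ?_⟩
    · rw [mem_stabilizer_iff, mul_smul, mul_smul, hga, hxp, hga']
    · rw [ht'a, mem_stabilizer_iff, mul_smul, mul_smul, hgb, hxp', hgb']
    · have : g⁻¹ * u * g * (g⁻¹ * (u * v) * g) * (g⁻¹ * u * g)⁻¹ = g⁻¹ * (u * (u * v) * u⁻¹) * g := by
        group
      rw [this, hux]; group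
  have hne : g⁻¹ * (u * v) * g ≠ 1 := by
    intro h
    apply hx1
    have : u * v = g * (g⁻¹ * (u * v) * g) * g⁻¹ := by group
    rw [this, h]; group
  have hfpf := ro_inverted_fpf hS' hmemK hne
  have hw1 : (w' : G) ≠ 1 := by
    intro h; rw [h, orderOf_one] at hw2; omega
  have hww : (w' : G) * (w' : G) = 1 := by
    rw [← pow_two, ← hw2, pow_orderOf_eq_one]
  have hwG : g⁻¹ * (w' : G) * g ∈ stabilizer G a := by
    rw [mem_stabilizer_iff, mul_smul, mul_smul, hga, hwp, hga']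
  have hwsq : g⁻¹ * (w' : G) * g * (g⁻¹ * (w' : G) * g) = 1 := by
    have : g⁻¹ * (w' : G) * g * (g⁻¹ * (w' : G) * g) = g⁻¹ * ((w' : G) * (w' : G)) * g := by group
    rw [this, hww]; group
  have hwQ := ro_invol_mem_Q hS hwsq hwG
  have hin : g⁻¹ * (w' : G) * g ∈ Q ⊓ Subgroup.centralizer {g⁻¹ * (u * v) * g} := by
    refine Subgroup.mem_inf.mpr ⟨hwQ, ?_⟩
    rw [Subgroup.mem_centralizer_iff]
    intro z hz
    rw [Set.mem_singleton_iff] at hz
    subst hz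
    calc g⁻¹ * (u * v) * g * (g⁻¹ * (w' : G) * g) = g⁻¹ * ((u * v) * (w' : G)) * g := by group
      _ = g⁻¹ * ((w' : G) * (u * v)) * g := by rw [hwx]
      _ = g⁻¹ * (w' : G) * g * (g⁻¹ * (u * v) * g) := by group
  rw [hfpf, Subgroup.mem_bot] at hin
  apply hw1
  have : (w' : G) = g * (g⁻¹ * (w' : G) * g) * g⁻¹ := by group
  rw [this, hin]; group

theorem conj_to_t (hS : Cfsg.IsRankOneSetup G Ω a t Q)
    (h2 : ∃ x y : G, x ≠ 1 ∧ y ≠ 1 ∧ x ≠ y ∧ x * x = 1 ∧ y * y = 1 ∧ x * y = y * x)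
    (u v : G) (hu1 : u ≠ 1) (hu2 : u * u = 1) (hv1 : v ≠ 1) (hv2 : v * v = 1)
    (hx : (u * v) * (u * v) ≠ 1) :
    ∃ g : G, ∃ u' ∈ Cfsg.involutionsIn (stabilizer G a : Set G), g * (u * v) * g⁻¹ = u' * t := by
  have hou := invol_order hu1 hu2
  have hov := invol_order hv1 hv2
  obtain ⟨cu, hcu, hcuu⟩ := ro_invol_fix_exists hS hou
  obtain ⟨cv, hcv, hcvu⟩ := ro_invol_fix_exists hS hov
  obtain ⟨c, hc, hcu'⟩ := ro_invol_fix_exists hS (ro_t_order hS)
  have hne : cu ≠ cv := by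
    intro h
    rw [← h] at hcv
    have hcomm := comm_of_fix hS h2 hu1 hu2 hv1 hv2 hcu hcv
    apply hx
    calc u * v * (u * v) = u * (v * u) * v := by group
      _ = u * (u * v) * v := by rw [hcomm]
      _ = (u * u) * (v * v) := by group
      _ = 1 := by rw [hu2, hv2, one_mul]
  have hca : c ≠ a := by
    intro h
    rw [h] at hc
    exact hS.not_mem (mem_stabilizer_iff.mpr hc)
  have h2t : ∀ {a b c d : Ω}, a ≠ b → c ≠ d → ∃ g : G, g • a = c ∧ g • b = d :=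
    MulAction.is_two_pretransitive_iff.mp hS.two_transitive
  obtain ⟨g₁, hg₁u, hg₁v⟩ := h2t hne (Ne.symm hca)
  have hg₁u' : g₁⁻¹ • a = cu := by rw [inv_smul_eq_iff]; exact hg₁u.symm
  have hg₁v' : g₁⁻¹ • c = cv := by rw [inv_smul_eq_iff]; exact hg₁v.symm
  have hu₁a : (g₁ * u * g₁⁻¹) • a = a := by rw [mul_smul, mul_smul, hg₁u', hcu, hg₁u]
  have hv₁c : (g₁ * v * g₁⁻¹) • c = c := by rw [mul_smul, mul_smul, hg₁v', hcv, hg₁v]
  obtain ⟨hu₁1, hu₁2⟩ := conj_invol g₁ hu1 hu2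
  obtain ⟨hv₁1, hv₁2⟩ := conj_invol g₁ hv1 hv2
  obtain ⟨g₃, hg₃⟩ := (Cfsg.Agent.S1121.result hS).2 (g₁ * v * g₁⁻¹) t hv₁1 hv₁2 hS.ne_one hS.mul_self
  have hg₃c : g₃ • c = c := by
    apply hcu'
    rw [← hg₃, mul_smul, mul_smul, inv_smul_smul, hv₁c]
  have ha₁ : g₃ • a ≠ c := by
    intro h
    have h' : g₃ • a = g₃ • c := by rw [h, hg₃c]
    exact hca (smul_left_cancel g₃ h').symm
  have h2' := hS.two_transitive
  have : IsPretransitive G Ω := MulAction.isPretransitive_of_is_two_pretransitive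
  obtain ⟨h, hh⟩ := MulAction.exists_smul_eq G a c
  have hh' : h⁻¹ • c = a := by rw [inv_smul_eq_iff]; exact hh.symm
  have hb1 : h⁻¹ • (g₃ • a) ≠ a := by
    intro e
    apply ha₁
    rw [inv_smul_eq_iff] at e
    rw [e, hh]
  have hb2 : h⁻¹ • a ≠ a := by
    intro e
    rw [inv_smul_eq_iff] at e
    apply hca
    rw [← hh, ← e]
  obtain ⟨q, hq, -⟩ := ro_regular hS _ _ hb1 hb2
  have hq' : (h * (q : G) * h⁻¹) • (g₃ • a) = a := by
    rw [mul_smul, mul_smul, hq, smul_inv_smul]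
  have hth : h⁻¹ * t * h⁻¹⁻¹ ∈ Cfsg.involutionsIn (stabilizer G a : Set G) := by
    obtain ⟨h1, h2''⟩ := conj_invol h⁻¹ hS.ne_one hS.mul_self
    refine ⟨?_, h1, h2''⟩
    show h⁻¹ * t * h⁻¹⁻¹ ∈ stabilizer G a
    rw [mem_stabilizer_iff, inv_inv, mul_smul, mul_smul, hh, hc, hh']
  have hcomm := (Cfsg.Agent.S1130.invol_central hS h2 hth).2 (q : G) q.2
  rw [inv_inv] at hcomm
  have hqt : (h * (q : G) * h⁻¹) * t = t * (h * (q : G) * h⁻¹) := by
    calc h * (q : G) * h⁻¹ * t = h * ((q : G) * (h⁻¹ * t * h)) * h⁻¹ := by group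
      _ = h * ((h⁻¹ * t * h) * (q : G)) * h⁻¹ := by rw [← hcomm]
      _ = t * (h * (q : G) * h⁻¹) := by group
  have hg₂a : ((h * (q : G) * h⁻¹) * g₃) • a = a := by rw [mul_smul]; exact hq'
  have e1 : (h * (q : G) * h⁻¹) * g₃ * (g₁ * v * g₁⁻¹) * ((h * (q : G) * h⁻¹) * g₃)⁻¹ = t := by
    calc (h * (q : G) * h⁻¹) * g₃ * (g₁ * v * g₁⁻¹) * ((h * (q : G) * h⁻¹) * g₃)⁻¹
        = (h * (q : G) * h⁻¹) * (g₃ * (g₁ * v * g₁⁻¹) * g₃⁻¹) * (h * (q : G) * h⁻¹)⁻¹ := by group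
      _ = (h * (q : G) * h⁻¹) * t * (h * (q : G) * h⁻¹)⁻¹ := by rw [hg₃]
      _ = t * (h * (q : G) * h⁻¹) * (h * (q : G) * h⁻¹)⁻¹ := by rw [hqt]
      _ = t := by group
  refine ⟨(h * (q : G) * h⁻¹) * g₃ * g₁,
    (h * (q : G) * h⁻¹) * g₃ * (g₁ * u * g₁⁻¹) * ((h * (q : G) * h⁻¹) * g₃)⁻¹, ?_, ?_⟩
  · obtain ⟨h1, h2''⟩ := conj_invol ((h * (q : G) * h⁻¹) * g₃) hu₁1 hu₁2
    refine ⟨?_, h1, h2''⟩
    show _ ∈ stabilizer G a
    exact mul_mem (mul_mem (mem_stabilizer_iff.mpr hg₂a) (mem_stabilizer_iff.mpr hu₁a))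
      (inv_mem (mem_stabilizer_iff.mpr hg₂a))
  · conv_rhs => rw [← e1]
    group

/-- In the rank-one set-up (`G` finite and doubly transitive on `Ω`, `t` an involution moving `a`, `Q` normal in `G_a` with `G_a = Q D`, `Q ⊓ D = 1` for the two-point stabiliser `D = G_a ⊓ G_{t • a}`, `|Q|` even, `|D|` odd), with the action faithful and `G` containing two distinct commuting involutions: if `x = u v` with `u, v` involutions and `x² ≠ 1`, then `x` is conjugate to `u' t` for some involution `u'` of `G_a`, and `|C_G(x)|` is odd. -/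
theorem result {G Ω : Type*} [Group G] [Finite G] [MulAction G Ω] [FaithfulSMul G Ω] {a : Ω} {t : G} {Q : Subgroup G}
    (hS : Cfsg.IsRankOneSetup G Ω a t Q)
    (h2 : ∃ x y : G, x ≠ 1 ∧ y ≠ 1 ∧ x ≠ y ∧ x * x = 1 ∧ y * y = 1 ∧ x * y = y * x)
    (u v : G) (hu1 : u ≠ 1) (hu2 : u * u = 1) (hv1 : v ≠ 1) (hv2 : v * v = 1) (hx : (u * v) * (u * v) ≠ 1) :
    (∃ g : G, ∃ u' ∈ Cfsg.involutionsIn (MulAction.stabilizer G a : Set G), g * (u * v) * g⁻¹ = u' * t) ∧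
      Odd (Nat.card ↥(Subgroup.centralizer {u * v})) := by
  exact ⟨conj_to_t hS h2 u v hu1 hu2 hv1 hv2 hx, cent_odd hS h2 u v hu1 hu2 hv1 hv2 hx⟩

end Cfsg.Agent.S1135
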