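import Cfsg.Statements.S1137
import Mathlib

set_option autoImplicit false
open Cfsg

namespace Cfsg.Agent.S1137


universe u v

/-- regularity of the action on involutions -/
def Reg {G : Type u} [Group G] {K : Type v} [Group K] (φ : K →* MulAut G) : Prop :=
  ∀ x y : G, x ≠ 1 → x * x = 1 → y ≠ 1 → y * y = 1 → ∃! k : K, φ k x = y

theorem aut_center {G : Type u} [Group G] (f : MulAut G) {x : G} (hx : x ∈ Subgroup.center G) :
    f x ∈ Subgroup.center G := by
  rw [Subgroup.mem_center_iff]
  intro g
  have hg : g = f (f.symm g) := (MulEquiv.apply_symm_apply f g).symm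
  rw [hg, ← map_mul, ← map_mul, Subgroup.mem_center_iff.mp hx]

theorem inv_central {G : Type u} [Group G] {K : Type v} [Group K] (φ : K →* MulAut G)
    (hreg : Reg φ) (u₀ : G) (hu₀ : u₀ ∈ Subgroup.center G) (h1 : u₀ ≠ 1) (h2 : u₀ * u₀ = 1) :
    ∀ y : G, y * y = 1 → y ∈ Subgroup.center G := by
  intro y hy
  by_cases hy1 : y = 1
  · rw [hy1]; exact Subgroup.one_mem _
  · obtain ⟨k, hk, _⟩ := hreg u₀ y h1 h2 hy1 hy
    rw [← hk]
    exact aut_center _ hu₀

/-- the subgroup of elements of square one -/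
def Om {G : Type u} [Group G] (hc : ∀ y : G, y * y = 1 → y ∈ Subgroup.center G) : Subgroup G where
  carrier := {x | x * x = 1}
  one_mem' := by
    show (1 : G) * 1 = 1
    rw [mul_one]
  mul_mem' := by
    intro a b ha hb
    have ha' : a * a = 1 := ha
    have hb' : b * b = 1 := hb
    show (a * b) * (a * b) = 1
    have hcm := Subgroup.mem_center_iff.mp (hc a ha') b
    calc (a * b) * (a * b) = a * (b * a) * b := by simp only [mul_assoc]
      _ = a * (a * b) * b := by rw [hcm]
      _ = (a * a) * (b * b) := by simp only [mul_assoc]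
      _ = 1 := by rw [ha', hb', mul_one]
  inv_mem' := by
    intro a ha
    have ha' : a * a = 1 := ha
    show a⁻¹ * a⁻¹ = 1
    rw [← mul_inv_rev, ha', inv_one]

theorem mem_Om {G : Type u} [Group G] (hc : ∀ y : G, y * y = 1 → y ∈ Subgroup.center G) (x : G) :
    x ∈ Om hc ↔ x * x = 1 := Iff.rfl

instance Om_normal {G : Type u} [Group G] (hc : ∀ y : G, y * y = 1 → y ∈ Subgroup.center G) :
    (Om hc).Normal := by
  constructor
  intro n hn g
  have hn' : n * n = 1 := hn
  show (g * n * g⁻¹) * (g * n * g⁻¹) = 1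
  have e : (g * n * g⁻¹) * (g * n * g⁻¹) = g * (n * n) * g⁻¹ := by group
  rw [e, hn', mul_one, mul_inv_cancel]

theorem Om_map {G : Type u} [Group G] {K : Type v} [Group K] (φ : K →* MulAut G)
    (hc : ∀ y : G, y * y = 1 → y ∈ Subgroup.center G) (k : K) :
    (Om hc).map ((φ k : G ≃* G) : G →* G) = Om hc := by
  ext x
  constructor
  · rintro ⟨y, hy, rfl⟩
    have hy' : y * y = 1 := hy
    show (φ k y) * (φ k y) = 1
    rw [← map_mul, hy', map_one]
  · intro hx
    have hx' : x * x = 1 := hx
    refine ⟨(φ k).symm x, ?_, MulEquiv.apply_symm_apply _ _⟩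
    show (φ k).symm x * (φ k).symm x = 1
    rw [← map_mul, hx', map_one]

/-- the induced action on a quotient by an invariant normal subgroup -/
noncomputable def qact {G : Type u} [Group G] {K : Type v} [Group K] (φ : K →* MulAut G)
    (N : Subgroup G) [N.Normal] (hN : ∀ k, N.map ((φ k : G ≃* G) : G →* G) = N) :
    K →* MulAut (G ⧸ N) where
  toFun k := QuotientGroup.congr N N (φ k) (hN k)
  map_one' := by
    ext q
    induction q using QuotientGroup.induction_on with
    | H x =>
      rw [QuotientGroup.congr_mk, map_one]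
      rfl
  map_mul' := by
    intro a b
    ext q
    induction q using QuotientGroup.induction_on with
    | H x =>
      rw [MulAut.mul_apply, QuotientGroup.congr_mk, QuotientGroup.congr_mk, QuotientGroup.congr_mk,
        map_mul]
      rfl

theorem qact_mk {G : Type u} [Group G] {K : Type v} [Group K] (φ : K →* MulAut G)
    (N : Subgroup G) [N.Normal] (hN : ∀ k, N.map ((φ k : G ≃* G) : G →* G) = N) (k : K) (x : G) :
    qact φ N hN k (QuotientGroup.mk x) = QuotientGroup.mk (φ k x) := rfl

theorem step6 {G : Type u} [Group G] [Finite G] (h2 : IsPGroup 2 G)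
    (hna : ¬ ∀ x y : G, x * y = y * x) :
    ∃ x : G, x ∉ Subgroup.center G ∧ ∀ g : G, (x * g * x⁻¹ * g⁻¹) * (x * g * x⁻¹ * g⁻¹) = 1 := by
  classical
  have hnt : Nontrivial (G ⧸ Subgroup.center G) := by
    by_contra hcon
    rw [not_nontrivial_iff_subsingleton] at hcon
    apply hna
    intro x y
    have hy : (QuotientGroup.mk y : G ⧸ Subgroup.center G) = 1 := Subsingleton.elim _ _
    rw [QuotientGroup.eq_one_iff] at hy
    exact Subgroup.mem_center_iff.mp hy x
  have hp : IsPGroup 2 (G ⧸ Subgroup.center G) := h2.to_quotient _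
  haveI : Fact (Nat.Prime 2) := ⟨Nat.prime_two⟩
  have hcn : Nontrivial (Subgroup.center (G ⧸ Subgroup.center G)) := hp.center_nontrivial
  obtain ⟨⟨q, hq⟩, hqne⟩ := exists_ne (1 : Subgroup.center (G ⧸ Subgroup.center G))
  have hq1 : q ≠ 1 := fun h => hqne (Subtype.ext h)
  obtain ⟨x₀, rfl⟩ := QuotientGroup.mk_surjective q
  have hx₀ : x₀ ∉ Subgroup.center G := by
    intro h
    exact hq1 ((QuotientGroup.eq_one_iff _).mpr h)
  have hex : ∃ j, x₀ ^ (2 ^ j) ∈ Subgroup.center G := by
    obtain ⟨j, hj⟩ := h2 x₀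
    exact ⟨j, by rw [hj]; exact Subgroup.one_mem _⟩
  obtain ⟨j, hj, hmin⟩ : ∃ j, x₀ ^ (2 ^ j) ∈ Subgroup.center G ∧
      ∀ i < j, x₀ ^ (2 ^ i) ∉ Subgroup.center G :=
    ⟨Nat.find hex, Nat.find_spec hex, fun i hi => Nat.find_min hex hi⟩
  have hj0 : j ≠ 0 := by
    rintro rfl
    rw [pow_zero, pow_one] at hj
    exact hx₀ hj
  obtain ⟨i, rfl⟩ : ∃ i, j = i + 1 := ⟨j - 1, by omega⟩
  have hxc : x₀ ^ (2 ^ i) ∉ Subgroup.center G := hmin i (Nat.lt_succ_self i)
  have hxx : x₀ ^ (2 ^ i) * x₀ ^ (2 ^ i) ∈ Subgroup.center G := by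
    rw [← pow_add, ← two_mul, ← pow_succ']
    exact hj
  have hS : (QuotientGroup.mk (x₀ ^ (2 ^ i)) : G ⧸ Subgroup.center G) ∈
      Subgroup.center (G ⧸ Subgroup.center G) := by
    rw [QuotientGroup.mk_pow]
    exact Subgroup.pow_mem _ hq _
  refine ⟨x₀ ^ (2 ^ i), hxc, ?_⟩
  generalize x₀ ^ (2 ^ i) = x at hxc hxx hS
  intro g
  have hcg : x * g * x⁻¹ * g⁻¹ ∈ Subgroup.center G := by
    rw [← QuotientGroup.eq_one_iff]
    have h1 := Subgroup.mem_center_iff.mp hS (QuotientGroup.mk g)
    rw [QuotientGroup.mk_mul, QuotientGroup.mk_mul, QuotientGroup.mk_mul, QuotientGroup.mk_inv,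
      QuotientGroup.mk_inv, ← h1]
    group
  have hcx : (x * g * x⁻¹ * g⁻¹) * x = x * (x * g * x⁻¹ * g⁻¹) :=
    (Subgroup.mem_center_iff.mp hcg x).symm
  have e1 : (x * g * x⁻¹ * g⁻¹) * (x * g * x⁻¹ * g⁻¹) =
      ((x * g * x⁻¹ * g⁻¹) * x) * g * x⁻¹ * g⁻¹ := by group
  have e2 : x * (x * g * x⁻¹ * g⁻¹) * g * x⁻¹ * g⁻¹ = (x * x) * g * (x * x)⁻¹ * g⁻¹ := by group
  have hxxg : g * (x * x) = (x * x) * g := Subgroup.mem_center_iff.mp hxx g
  rw [e1, hcx, e2, ← hxxg]
  group

theorem sq_central_aux {G : Type u} [Group G] (x g c : G) (hgx : g * x = x * g * c)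
    (hcx : c * x = x * c) (hc2 : c * c = 1) : g * (x * x) = x * x * g := by
  calc g * (x * x) = (g * x) * x := (mul_assoc _ _ _).symm
    _ = x * g * c * x := by rw [hgx]
    _ = x * g * (c * x) := mul_assoc _ _ _
    _ = x * g * (x * c) := by rw [hcx]
    _ = x * (g * x) * c := by simp only [mul_assoc]
    _ = x * (x * g * c) * c := by rw [hgx]
    _ = x * x * g * (c * c) := by simp only [mul_assoc]
    _ = x * x * g := by rw [hc2, mul_one]

/-- the commutator used below: `y * x = x * y * bt x y` -/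
def bt {G : Type u} [Group G] (x y : G) : G := (x * y)⁻¹ * (y * x)

theorem final_step {G : Type u} [Group G] [Finite G] {K : Type v} [Group K]
    (hK : ∀ a b : K, a * b = b * a) (φ : K →* MulAut G) (hreg : Reg φ)
    (hc : ∀ y : G, y * y = 1 → y ∈ Subgroup.center G)
    (hbt : ∀ x y : G, bt x y * bt x y = 1)
    (θ : G → G) (hθmul : ∀ x y, θ (x * y) = θ x * θ y) (hθ2 : ∀ x, θ x * θ x = 1)
    (hθφ : ∀ k x, θ (φ k x) = φ k (θ x)) (hker : ∀ x, θ x = 1 → x ∈ Subgroup.center G)
    (a : G) (ha : θ a ≠ 1) : ∀ x y : G, x * y = y * x := by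
  have F1 : ∀ x y : G, bt x y ∈ Subgroup.center G := fun x y => hc _ (hbt x y)
  have F2 : ∀ x y y' : G, bt x (y * y') = bt x y * bt x y' := by
    intro x y y'
    have hb := Subgroup.mem_center_iff.mp (F1 x y)
    have e1 : y * x = x * y * bt x y := by unfold bt; group
    have e2 : y' * x = x * y' * bt x y' := by unfold bt; group
    have e3 : (y * y') * x = x * (y * y') * (bt x y * bt x y') := by
      calc (y * y') * x = y * (y' * x) := mul_assoc _ _ _
        _ = y * (x * y' * bt x y') := by rw [e2]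
        _ = (y * x) * y' * bt x y' := by simp only [mul_assoc]
        _ = x * y * bt x y * y' * bt x y' := by rw [e1]
        _ = x * y * (bt x y * y') * bt x y' := by simp only [mul_assoc]
        _ = x * y * (y' * bt x y) * bt x y' := by rw [← hb y']
        _ = x * (y * y') * (bt x y * bt x y') := by simp only [mul_assoc]
    calc bt x (y * y') = (x * (y * y'))⁻¹ * ((y * y') * x) := rfl
      _ = (x * (y * y'))⁻¹ * (x * (y * y') * (bt x y * bt x y')) := by rw [e3]
      _ = bt x y * bt x y' := by group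
  have F3 : ∀ x y : G, bt y x = bt x y := by
    intro x y
    have h1 : bt y x * bt x y = 1 := by unfold bt; group
    have h2 := hbt x y
    calc bt y x = bt y x * (bt x y * bt x y) := by rw [h2, mul_one]
      _ = (bt y x * bt x y) * bt x y := (mul_assoc _ _ _).symm
      _ = bt x y := by rw [h1, one_mul]
  have F4 : ∀ (k : K) (x y : G), bt (φ k x) (φ k y) = φ k (bt x y) := by
    intro k x y
    unfold bt
    rw [map_mul, map_inv, map_mul, map_mul]
  have F5 : ∀ x y : G, y ∈ Subgroup.center G → bt x y = 1 := by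
    intro x y hy
    unfold bt
    rw [Subgroup.mem_center_iff.mp hy x]
    exact inv_mul_cancel _
  have F6 : ∀ x y y' : G, θ y = θ y' → bt x y = bt x y' := by
    intro x y y' h
    have h1 : θ y * θ (y⁻¹ * y') = θ y * 1 := by
      rw [← hθmul, mul_inv_cancel_left, mul_one, h]
    have h2 : θ (y⁻¹ * y') = 1 := mul_left_cancel h1
    have h3 : y' = y * (y⁻¹ * y') := (mul_inv_cancel_left y y').symm
    rw [h3, F2, F5 x _ (hker _ h2), mul_one]
  obtain ⟨e, hee⟩ : ∃ e, θ a = e := ⟨_, rfl⟩
  have he1 : e ≠ 1 := hee ▸ ha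
  have he2 : e * e = 1 := hee ▸ hθ2 a
  have hθk : ∀ k : K, θ (φ k a) = φ k e := fun k => by rw [hθφ, hee]
  have hke2 : ∀ k : K, φ k e * φ k e = 1 := by
    intro k
    rw [← map_mul, he2, map_one]
  have hcomm : ∀ u v : G, u * u = 1 → u * v = v * u :=
    fun u v hu => (Subgroup.mem_center_iff.mp (hc u hu) v).symm
  have hφmul : ∀ (k k' : K) (x : G), φ (k * k') x = φ k (φ k' x) := by
    intro k k' x
    rw [map_mul]; rfl
  have huniq : ∀ (k k' : K) (u : G), u ≠ 1 → u * u = 1 → φ k u = φ k' u → k = k' := by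
    intro k k' u hu1 hu2 h
    have hv1 : φ k' u ≠ 1 := by
      intro h'
      apply hu1
      have : φ k' u = φ k' 1 := by rw [h', map_one]
      exact (φ k').injective this
    have hv2 : φ k' u * φ k' u = 1 := by rw [← map_mul, hu2, map_one]
    obtain ⟨k₀, _, hk₀⟩ := hreg u (φ k' u) hu1 hu2 hv1 hv2
    rw [hk₀ k h, hk₀ k' rfl]
  have htrans : ∀ u : G, u ≠ 1 → u * u = 1 → ∃ k : K, φ k e = u := by
    intro u hu1 hu2
    obtain ⟨k, hk, _⟩ := hreg e u he1 he2 hu1 hu2
    exact ⟨k, hk⟩
  have D1 : bt a (φ 1 a) = 1 := by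
    rw [map_one]
    show bt a a = 1
    unfold bt
    exact inv_mul_cancel _
  have D2 : ∀ k : K, bt a (φ k a) = φ k (bt a (φ k⁻¹ a)) := by
    intro k
    have h1 : φ k (φ k⁻¹ a) = a := by
      rw [← hφmul, mul_inv_cancel, map_one]; rfl
    rw [← F4, h1, F3]
  have D3 : ∀ k k' k'' : K, φ k e * φ k' e = φ k'' e →
      bt a (φ k a) * bt a (φ k' a) = bt a (φ k'' a) := by
    intro k k' k'' h
    rw [← F2]
    apply F6
    rw [hθmul, hθk, hθk, hθk, h]
  have P2 : ∀ k k' : K, φ k' e = φ k e * e → ∀ w : G, w * w = 1 → φ k' w * φ k w = w := by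
    intro k k' h w hw
    by_cases hw1 : w = 1
    · rw [hw1, map_one, map_one, mul_one]
    · obtain ⟨kw, rfl⟩ := htrans w hw1 hw
      rw [← hφmul, ← hφmul, hK k' kw, hK k kw, hφmul, hφmul, ← map_mul, h]
      have : φ k e * e * φ k e = e := by
        rw [mul_assoc, hcomm e (φ k e) he2, ← mul_assoc, hke2, one_mul]
      rw [this]
  have Dsq : ∀ k : K, bt a (φ (k * k) a) = 1 := by
    intro k
    by_cases hk1 : k = 1
    · rw [hk1, mul_one]; exact D1
    · have hne : φ k e ≠ e := by
        intro h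
        apply hk1
        exact huniq k 1 e he1 he2 (by rw [h, map_one]; rfl)
      have hv1 : φ k e * e ≠ 1 := by
        intro h
        apply hne
        calc φ k e = φ k e * (e * e) := by rw [he2, mul_one]
          _ = (φ k e * e) * e := (mul_assoc _ _ _).symm
          _ = e := by rw [h, one_mul]
      have hv2 : (φ k e * e) * (φ k e * e) = 1 := by
        have := hcomm e (φ k e) he2
        calc (φ k e * e) * (φ k e * e) = φ k e * (e * φ k e) * e := by simp only [mul_assoc]
          _ = φ k e * (φ k e * e) * e := by rw [this]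
          _ = (φ k e * φ k e) * (e * e) := by simp only [mul_assoc]
          _ = 1 := by rw [hke2, he2, mul_one]
      obtain ⟨k', hk'⟩ := htrans _ hv1 hv2
      have h_i : bt a (φ k' a) = bt a (φ k a) := by
        have := D3 k 1 k' (by rw [map_one]; exact hk'.symm)
        rw [D1, mul_one] at this
        exact this.symm
      have h_ii : φ k⁻¹ e * φ k'⁻¹ e = φ (k * k')⁻¹ e := by
        have := P2 k k' hk' (φ (k * k')⁻¹ e) (hke2 _)
        rw [← hφmul, ← hφmul] at this
        have e1 : k' * (k * k')⁻¹ = k⁻¹ := by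
          rw [mul_inv_rev, ← mul_assoc, mul_inv_cancel, one_mul]
        have e2 : k * (k * k')⁻¹ = k'⁻¹ := by
          rw [hK k k', mul_inv_rev, ← mul_assoc, mul_inv_cancel, one_mul]
        rw [e1, e2] at this
        exact this
      have h_iii := D3 k⁻¹ k'⁻¹ (k * k')⁻¹ h_ii
      have h_iv : bt a (φ (k * k') a) = bt a (φ k a) := by
        rw [D2 (k * k'), ← h_iii, map_mul (φ (k * k'))]
        have e3 : φ (k * k') (bt a (φ k⁻¹ a)) = φ k' (bt a (φ k a)) := by
          rw [hK k k', hφmul, ← D2 k]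
        have e4 : φ (k * k') (bt a (φ k'⁻¹ a)) = φ k (bt a (φ k a)) := by
          rw [hφmul, ← D2 k', h_i]
        rw [e3, e4]
        exact P2 k k' hk' _ (hbt _ _)
      have h_v : φ (k * k) e * φ k e = φ (k * k') e := by
        rw [hφmul, hφmul, ← map_mul, hk']
      have := D3 (k * k) k (k * k') h_v
      rw [h_iv] at this
      exact mul_right_cancel (this.trans (one_mul _).symm)
  have hKfin : Finite K := by
    apply Finite.of_injective (fun k : K => φ k e)
    intro k k' h
    exact huniq k k' e he1 he2 h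
  have hinv1 : ∀ t : K, t * t = 1 → t = 1 := by
    intro t ht
    by_cases h : φ t e = e
    · exact huniq t 1 e he1 he2 (by rw [h, map_one]; rfl)
    · have hv1 : e * φ t e ≠ 1 := by
        intro h'
        apply h
        calc φ t e = (e * e) * φ t e := by rw [he2, one_mul]
          _ = e * (e * φ t e) := mul_assoc _ _ _
          _ = e := by rw [h', mul_one]
      have hv2 : (e * φ t e) * (e * φ t e) = 1 := by
        have := hcomm e (φ t e) he2
        calc (e * φ t e) * (e * φ t e) = e * (φ t e * e) * φ t e := by simp only [mul_assoc]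
          _ = e * (e * φ t e) * φ t e := by rw [this]
          _ = (e * e) * (φ t e * φ t e) := by simp only [mul_assoc]
          _ = 1 := by rw [hke2, he2, mul_one]
      have hfix : φ t (e * φ t e) = e * φ t e := by
        rw [map_mul, ← hφmul, ht, map_one]
        exact (hcomm e (φ t e) he2).symm
      exact huniq t 1 _ hv1 hv2 (by rw [hfix, map_one]; rfl)
  have hsurj : ∀ k : K, ∃ j : K, j * j = k := by
    have hinj : Function.Injective (fun j : K => j * j) := by
      intro j j' h
      have h' : j * j = j' * j' := h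
      have ht : (j * j'⁻¹) * (j * j'⁻¹) = 1 := by
        calc (j * j'⁻¹) * (j * j'⁻¹) = j * (j'⁻¹ * j) * j'⁻¹ := by simp only [mul_assoc]
          _ = j * (j * j'⁻¹) * j'⁻¹ := by rw [hK j'⁻¹ j]
          _ = (j * j) * (j'⁻¹ * j'⁻¹) := by simp only [mul_assoc]
          _ = 1 := by rw [h', ← mul_inv_rev, mul_inv_cancel]
      have := hinv1 _ ht
      exact mul_inv_eq_one.mp this
    exact Finite.injective_iff_surjective.mp hinj
  have Dall : ∀ k : K, bt a (φ k a) = 1 := by
    intro k
    obtain ⟨j, rfl⟩ := hsurj k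
    exact Dsq j
  have hta : ∀ y : G, bt a y = 1 := by
    intro y
    by_cases hy : θ y = 1
    · exact F5 a y (hker y hy)
    · obtain ⟨k, hk⟩ := htrans (θ y) hy (hθ2 y)
      rw [F6 a y (φ k a) (by rw [hθk, hk])]
      exact Dall k
  have hall : ∀ x : G, x ∈ Subgroup.center G := by
    intro x
    have hac : a ∈ Subgroup.center G := by
      rw [Subgroup.mem_center_iff]
      intro y
      have := hta y
      unfold bt at this
      exact (inv_mul_eq_one.mp this).symm
    by_cases hx : θ x = 1
    · exact hker x hx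
    · obtain ⟨k, hk⟩ := htrans (θ x) hx (hθ2 x)
      have h1 : θ (φ k a) * θ ((φ k a)⁻¹ * x) = θ (φ k a) * 1 := by
        rw [← hθmul, mul_inv_cancel_left, mul_one, hθk, hk]
      have h2 : θ ((φ k a)⁻¹ * x) = 1 := mul_left_cancel h1
      have h3 : x = φ k a * ((φ k a)⁻¹ * x) := (mul_inv_cancel_left _ _).symm
      rw [h3]
      exact Subgroup.mul_mem _ (aut_center _ hac) (hker _ h2)
  intro x y
  exact (Subgroup.mem_center_iff.mp (hall y) x)

theorem T {K : Type v} [Group K] (hK : ∀ a b : K, a * b = b * a) :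
    ∀ n : ℕ, ∀ (G : Type u) [Group G] [Finite G], Nat.card G ≤ n → IsPGroup 2 G →
    ∀ φ : K →* MulAut G, Reg φ → (∃ z ∈ Subgroup.center G, z * z ≠ 1) →
    ∀ x y : G, x * y = y * x := by
  classical
  intro n
  induction n with
  | zero =>
    intro G _ _ hn
    exact absurd hn (by have := Nat.card_pos (α := G); omega)
  | succ n ih =>
    intro G _ _ hn h2 φ hreg hz
    obtain ⟨z, hz, hz2⟩ := hz
    have hex : ∃ j, z ^ (2 ^ j) = 1 := h2 z
    obtain ⟨j, hj, hmin⟩ : ∃ j, z ^ (2 ^ j) = 1 ∧ ∀ i < j, z ^ (2 ^ i) ≠ 1 :=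
      ⟨Nat.find hex, Nat.find_spec hex, fun i hi => Nat.find_min hex hi⟩
    have hj2 : 2 ≤ j := by
      by_contra hlt
      have : j = 0 ∨ j = 1 := by omega
      rcases this with rfl | rfl
      · rw [pow_zero, pow_one] at hj
        rw [hj, mul_one] at hz2
        exact hz2 rfl
      · rw [pow_one, pow_two] at hj
        exact hz2 hj
    obtain ⟨i, rfl⟩ : ∃ i, j = i + 2 := ⟨j - 2, by omega⟩
    obtain ⟨w, hw⟩ : ∃ w, w = z ^ (2 ^ i) := ⟨_, rfl⟩
    have hwc : w ∈ Subgroup.center G := by rw [hw]; exact Subgroup.pow_mem _ hz _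
    have hww : w * w = z ^ (2 ^ (i + 1)) := by
      rw [hw, ← pow_add, ← two_mul, ← pow_succ']
    have hw2 : w * w ≠ 1 := by
      rw [hww]; exact hmin (i + 1) (by omega)
    have hw4 : (w * w) * (w * w) = 1 := by
      rw [hww, ← pow_add, ← two_mul, ← pow_succ']
      exact hj
    have hc : ∀ y : G, y * y = 1 → y ∈ Subgroup.center G :=
      inv_central φ hreg (w * w) (Subgroup.mul_mem _ hwc hwc) hw2 hw4
    have hsq : ∀ u : G, u ≠ 1 → u * u = 1 → ∃ c ∈ Subgroup.center G, c * c = u := by
      intro u hu1 hu2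
      obtain ⟨k, hk, _⟩ := hreg (w * w) u hw2 hw4 hu1 hu2
      exact ⟨φ k w, aut_center _ hwc, by rw [← map_mul]; exact hk⟩
    have h4 : ∀ y : G, (y * y) * (y * y) = 1 → y ∈ Subgroup.center G := by
      intro y hy
      by_cases h : y * y = 1
      · exact hc y h
      · obtain ⟨c, hcc, hc2⟩ := hsq (y * y) h hy
        have hcm : Commute c⁻¹ y := by
          have : Commute c y := (Subgroup.mem_center_iff.mp hcc y).symm
          exact this.inv_left
        have h1 : (y * c⁻¹) * (y * c⁻¹) = 1 := by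
          rw [hcm.mul_mul_mul_comm, ← mul_inv_rev, hc2, mul_inv_cancel]
        have h3 : y = (y * c⁻¹) * c := by rw [inv_mul_cancel_right]
        rw [h3]
        exact Subgroup.mul_mem _ (hc _ h1) hcc
    have hN : ∀ k, (Om hc).map ((φ k : G ≃* G) : G →* G) = Om hc := Om_map φ hc
    have hregq : Reg (qact φ (Om hc) hN) := by
      intro q q'
      refine QuotientGroup.induction_on q ?_
      intro x
      refine QuotientGroup.induction_on q' ?_
      intro y hx1 hx2 hy1 hy2
      have hx1' : x * x ≠ 1 := fun h => hx1 ((QuotientGroup.eq_one_iff _).mpr ((mem_Om hc x).mpr h))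
      have hx2' : (x * x) * (x * x) = 1 := by
        have : ((x * x : G) : G ⧸ Om hc) = 1 := hx2
        exact (QuotientGroup.eq_one_iff _).mp this
      have hy1' : y * y ≠ 1 := fun h => hy1 ((QuotientGroup.eq_one_iff _).mpr ((mem_Om hc y).mpr h))
      have hy2' : (y * y) * (y * y) = 1 := by
        have : ((y * y : G) : G ⧸ Om hc) = 1 := hy2
        exact (QuotientGroup.eq_one_iff _).mp this
      have hyc := h4 y hy2'
      have key : ∀ k : K, (qact φ (Om hc) hN k) (QuotientGroup.mk x) = QuotientGroup.mk y ↔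
          φ k (x * x) = y * y := by
        intro k
        rw [qact_mk, QuotientGroup.eq]
        have hcm : Commute y (φ k x)⁻¹ := by
          have : Commute y (φ k x) := (Subgroup.mem_center_iff.mp hyc (φ k x)).symm
          exact this.inv_right
        have e : ((φ k x)⁻¹ * y) * ((φ k x)⁻¹ * y) = (φ k (x * x))⁻¹ * (y * y) := by
          rw [hcm.mul_mul_mul_comm, ← mul_inv_rev, ← map_mul]
        constructor
        · intro h
          have h' : ((φ k x)⁻¹ * y) * ((φ k x)⁻¹ * y) = 1 := h
          rw [e] at h'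
          exact inv_mul_eq_one.mp h'
        · intro h
          show ((φ k x)⁻¹ * y) * ((φ k x)⁻¹ * y) = 1
          rw [e]
          exact inv_mul_eq_one.mpr h
      obtain ⟨k, hk, huniq⟩ := hreg (x * x) (y * y) hx1' hx2' hy1' hy2'
      exact ⟨k, (key k).mpr hk, fun k' hk' => huniq k' ((key k').mp hk')⟩
    have hΩne : Om hc ≠ ⊥ := by
      intro h
      apply hw2
      have : w * w ∈ Om hc := hw4
      rw [h, Subgroup.mem_bot] at this
      exact this
    have hcard : Nat.card (G ⧸ Om hc) ≤ n := by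
      have h1 := Subgroup.card_eq_card_quotient_mul_card_subgroup (Om hc)
      have h2' : 1 < Nat.card (Om hc) := (Subgroup.one_lt_card_iff_ne_bot (Om hc)).mpr hΩne
      have h3 : 0 < Nat.card (G ⧸ Om hc) := Nat.card_pos
      have h4' : Nat.card (G ⧸ Om hc) < Nat.card (G ⧸ Om hc) * Nat.card (Om hc) :=
        lt_mul_of_one_lt_right h3 h2'
      omega
    by_cases hcase : ∃ q ∈ Subgroup.center (G ⧸ Om hc), q * q ≠ 1
    · have habq := ih (G ⧸ Om hc) hcard (h2.to_quotient _) (qact φ (Om hc) hN) hregq hcase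
      have hbt : ∀ x y : G, bt x y * bt x y = 1 := by
        intro x y
        have h1 : (QuotientGroup.mk (x * y) : G ⧸ Om hc) = QuotientGroup.mk (y * x) :=
          habq (QuotientGroup.mk x) (QuotientGroup.mk y)
        exact QuotientGroup.eq.mp h1
      have hbtc : ∀ x y : G, bt x y ∈ Subgroup.center G := fun x y => hc _ (hbt x y)
      have hsqc : ∀ x : G, x * x ∈ Subgroup.center G := by
        intro x
        rw [Subgroup.mem_center_iff]
        intro g
        apply sq_central_aux x g (bt x g)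
        · unfold bt; group
        · exact (Subgroup.mem_center_iff.mp (hbtc x g) x).symm
        · exact hbt x g
      have h4pow : ∀ x y : G, (x * y) ^ 4 = x ^ 4 * y ^ 4 := by
        intro x y
        have hb := Subgroup.mem_center_iff.mp (hbtc x y)
        have hyy := Subgroup.mem_center_iff.mp (hsqc y)
        have e1 : y * x = x * y * bt x y := by unfold bt; group
        have e2 : (x * y) * (x * y) = (x * x) * (y * y) * bt x y := by
          calc (x * y) * (x * y) = x * (y * x) * y := by simp only [mul_assoc]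
            _ = x * (x * y * bt x y) * y := by rw [e1]
            _ = x * x * y * (bt x y * y) := by simp only [mul_assoc]
            _ = x * x * y * (y * bt x y) := by rw [← hb y]
            _ = (x * x) * (y * y) * bt x y := by simp only [mul_assoc]
        have e3 : (x * y) ^ 4 = ((x * y) * (x * y)) * ((x * y) * (x * y)) := by
          rw [show (4 : ℕ) = 2 * 2 from rfl, pow_mul, pow_two, pow_two]
        have e4 : x ^ 4 = (x * x) * (x * x) := by
          rw [show (4 : ℕ) = 2 * 2 from rfl, pow_mul, pow_two, pow_two]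
        have e5 : y ^ 4 = (y * y) * (y * y) := by
          rw [show (4 : ℕ) = 2 * 2 from rfl, pow_mul, pow_two, pow_two]
        rw [e3, e2, e4, e5]
        have c1 : Commute (bt x y) ((x * x) * (y * y)) := (hb _).symm
        have c2 : Commute (y * y) (x * x) := (hyy _).symm
        rw [c1.mul_mul_mul_comm, hbt, mul_one, c2.mul_mul_mul_comm]
      have hpow : ∀ (l : ℕ) (x y : G),
          (x * y) ^ (4 * 2 ^ l) = x ^ (4 * 2 ^ l) * y ^ (4 * 2 ^ l) := by
        intro l x y
        rw [pow_mul, pow_mul, pow_mul, h4pow]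
        have c : Commute (x ^ 4) (y ^ 4) := by
          have : y ^ 4 ∈ Subgroup.center G := by
            have e5 : y ^ 4 = (y * y) * (y * y) := by
              rw [show (4 : ℕ) = 2 * 2 from rfl, pow_mul, pow_two, pow_two]
            rw [e5]; exact Subgroup.mul_mem _ (hsqc y) (hsqc y)
          exact Subgroup.mem_center_iff.mp this _
        exact c.mul_pow _
      by_cases hsmall : ∀ x : G, (x * x) * (x * x) = 1
      · intro x y
        exact Subgroup.mem_center_iff.mp (h4 y (hsmall y)) x
      · push_neg at hsmall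
        obtain ⟨x₁, hx₁⟩ := hsmall
        have hexm : ∃ m, ∀ x : G, x ^ (2 ^ m) = 1 := by
          haveI : Fact (Nat.Prime 2) := ⟨Nat.prime_two⟩
          obtain ⟨m, hm⟩ := IsPGroup.iff_card.mp h2
          exact ⟨m, fun x => by rw [← hm]; exact pow_card_eq_one'⟩
        obtain ⟨m, hm, hmmin⟩ : ∃ m, (∀ x : G, x ^ (2 ^ m) = 1) ∧
            ∀ i < m, ¬ ∀ x : G, x ^ (2 ^ i) = 1 :=
          ⟨Nat.find hexm, Nat.find_spec hexm, fun i hi => Nat.find_min hexm hi⟩
        have hm3 : 3 ≤ m := by
          by_contra hlt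
          apply hx₁
          have hd : 2 ^ m ∣ 2 ^ 2 := Nat.pow_dvd_pow 2 (by omega)
          have h1 : x₁ ^ 4 = 1 := by
            obtain ⟨d, hd⟩ := hd
            have h44 : (4 : ℕ) = 2 ^ m * d := by rw [← hd]; norm_num
            rw [h44, pow_mul, hm, one_pow]
          have e4 : x₁ ^ 4 = (x₁ * x₁) * (x₁ * x₁) := by
            rw [show (4 : ℕ) = 2 * 2 from rfl, pow_mul, pow_two, pow_two]
          rw [← e4]; exact h1
        obtain ⟨l, rfl⟩ : ∃ l, m = l + 3 := ⟨m - 3, by omega⟩
        have hexp : 2 ^ (l + 2) = 4 * 2 ^ l := by rw [pow_add]; ring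
        obtain ⟨x₂, hx₂⟩ : ∃ x₂ : G, x₂ ^ (2 ^ (l + 2)) ≠ 1 := by
          have := hmmin (l + 2) (by omega)
          push_neg at this
          exact this
        have hθmul : ∀ x y : G,
            (x * y) ^ (2 ^ (l + 2)) = x ^ (2 ^ (l + 2)) * y ^ (2 ^ (l + 2)) := by
          intro x y; rw [hexp]; exact hpow l x y
        have hθ2 : ∀ x : G, x ^ (2 ^ (l + 2)) * x ^ (2 ^ (l + 2)) = 1 := by
          intro x
          rw [← pow_add, ← two_mul, ← pow_succ']
          exact hm x
        have hθφ : ∀ (k : K) (x : G), (φ k x) ^ (2 ^ (l + 2)) = φ k (x ^ (2 ^ (l + 2))) := by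
          intro k x; rw [map_pow]
        have hθsurj : ∀ u : G, u ≠ 1 → u * u = 1 → ∃ t : G, t ^ (2 ^ (l + 2)) = u := by
          intro u hu1 hu2
          obtain ⟨k, hk, _⟩ := hreg (x₂ ^ (2 ^ (l + 2))) u hx₂ (hθ2 x₂) hu1 hu2
          exact ⟨φ k x₂, by rw [hθφ]; exact hk⟩
        have hN' : ∀ j, j ≤ l + 2 → ∀ x : G, x ^ (2 ^ j) = 1 → x ∈ Subgroup.center G := by
          intro j
          induction j with
          | zero =>
            intro _ x hx
            rw [pow_zero, pow_one] at hx
            rw [hx]; exact Subgroup.one_mem _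
          | succ j ihj =>
            intro hj x hx
            by_cases h : x ^ (2 ^ j) = 1
            · exact ihj (by omega) x h
            · have hu2 : x ^ (2 ^ j) * x ^ (2 ^ j) = 1 := by
                rw [← pow_add, ← two_mul, ← pow_succ']; exact hx
              obtain ⟨t, ht⟩ := hθsurj _ h hu2
              obtain ⟨e', he'⟩ : ∃ e', l + 2 = j + (e' + 1) := ⟨l + 1 - j, by omega⟩
              have hs : t ^ (2 ^ (e' + 1)) ∈ Subgroup.center G := by
                have : t ^ (2 ^ (e' + 1)) = t ^ (2 ^ e') * t ^ (2 ^ e') := by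
                  rw [← pow_add, ← two_mul, ← pow_succ']
                rw [this]; exact hsqc _
              have hsj : (t ^ (2 ^ (e' + 1))) ^ (2 ^ j) = x ^ (2 ^ j) := by
                rw [← pow_mul, ← pow_add, add_comm (e' + 1) j, ← he']; exact ht
              have hcm : Commute x (t ^ (2 ^ (e' + 1)))⁻¹ := by
                have : Commute x (t ^ (2 ^ (e' + 1))) := Subgroup.mem_center_iff.mp hs x
                exact this.inv_right
              have hy : (x * (t ^ (2 ^ (e' + 1)))⁻¹) ^ (2 ^ j) = 1 := by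
                rw [hcm.mul_pow, inv_pow, hsj, mul_inv_cancel]
              have hyc := ihj (by omega) _ hy
              have h3 : x = (x * (t ^ (2 ^ (e' + 1)))⁻¹) * t ^ (2 ^ (e' + 1)) := by
                rw [inv_mul_cancel_right]
              rw [h3]
              exact Subgroup.mul_mem _ hyc hs
        have hker : ∀ x : G, x ^ (2 ^ (l + 2)) = 1 → x ∈ Subgroup.center G := hN' (l + 2) le_rfl
        exact final_step hK φ hreg hc hbt (fun x => x ^ (2 ^ (l + 2))) hθmul hθ2 hθφ hker x₂ hx₂
    · push_neg at hcase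
      by_contra hna
      obtain ⟨x, hxc, hxg⟩ := step6 h2 hna
      have hmk : (QuotientGroup.mk x : G ⧸ Om hc) ∈ Subgroup.center (G ⧸ Om hc) := by
        rw [Subgroup.mem_center_iff]
        intro q
        refine QuotientGroup.induction_on q ?_
        intro g
        have h1 : (QuotientGroup.mk (x * g * x⁻¹ * g⁻¹) : G ⧸ Om hc) = 1 :=
          (QuotientGroup.eq_one_iff _).mpr (hxg g)
        rw [QuotientGroup.mk_mul, QuotientGroup.mk_mul, QuotientGroup.mk_mul,
          QuotientGroup.mk_inv, QuotientGroup.mk_inv] at h1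
        have h2' := mul_inv_eq_one.mp h1
        have h3 := mul_inv_eq_iff_eq_mul.mp h2'
        exact h3.symm
      have h5 := hcase _ hmk
      have h6 : (x * x) * (x * x) = 1 := by
        have : ((x * x : G) : G ⧸ Om hc) = 1 := h5
        exact (QuotientGroup.eq_one_iff _).mp this
      exact hxc (h4 x h6)


/-- In a Suzuki 2-group `P` (a finite non-abelian 2-group with more than one involution admitting a cyclic group of automorphisms regular on its involutions) the involutions are exactly the non-identity central elements, and `Z(P)` is elementary abelian. -/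
theorem result {P : Type*} [Group P] (hP : Cfsg.IsSuzukiTwoGroup P) :
    (∀ x : P, (x ≠ 1 ∧ x * x = 1) ↔ (x ∈ Subgroup.center P ∧ x ≠ 1)) ∧
      ∀ z ∈ Subgroup.center P, z * z = 1 := by
  obtain ⟨hfin, h2, ⟨x₀, y₀, hxy⟩, _, K, hKc, hreg⟩ := hP
  haveI := hfin
  have hK : ∀ a b : K, a * b = b * a := by
    intro a b
    haveI := hKc
    letI := IsCyclic.commGroup (α := K)
    exact mul_comm a b
  have hreg' : Reg (K.subtype) := by
    intro x y hx1 hx2 hy1 hy2
    exact hreg x y hx1 hx2 hy1 hy2
  have part2 : ∀ z ∈ Subgroup.center P, z * z = 1 := by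
    intro z hz
    by_contra hzz
    exact hxy (T hK (Nat.card P) P le_rfl h2 K.subtype hreg' ⟨z, hz, hzz⟩ x₀ y₀)
  refine ⟨?_, part2⟩
  intro x
  constructor
  · rintro ⟨hx1, hx2⟩
    refine ⟨?_, hx1⟩
    haveI : Nontrivial P := ⟨⟨x, 1, hx1⟩⟩
    haveI : Fact (Nat.Prime 2) := ⟨Nat.prime_two⟩
    have hcn : Nontrivial (Subgroup.center P) := h2.center_nontrivial
    obtain ⟨⟨u, hu⟩, hune⟩ := exists_ne (1 : Subgroup.center P)
    have hu1 : u ≠ 1 := fun h => hune (Subtype.ext h)
    exact inv_central K.subtype hreg' u hu hu1 (part2 u hu) x hx2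
  · rintro ⟨hxc, hx1⟩
    exact ⟨hx1, part2 x hxc⟩

end Cfsg.Agent.S1137
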