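import Cfsg.Statements.S1141
import Cfsg.Agent.Lib.helper25.U3Syl2

set_option autoImplicit false
open Cfsg

namespace Cfsg.Agent.S1141

/-- Let `q = 2^n ≥ 4` and `|F| = q²`. A Sylow 2-subgroup `S` of `PSU₃(q)` has order `q³`, its centre has order `q`, and `S` is a Suzuki 2-group. -/
theorem result {F : Type*} [Field F] [Fintype F] {n : ℕ} (hn : 2 ≤ n)
    (hF : Fintype.card F = (2 ^ n) ^ 2) (S : Sylow 2 (Cfsg.PSU 3 F (2 ^ n))) :
    Nat.card S = (2 ^ n) ^ 3 ∧ Nat.card (Subgroup.center ↥(S : Subgroup (Cfsg.PSU 3 F (2 ^ n)))) = 2 ^ n ∧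
      Cfsg.IsSuzukiTwoGroup ↥(S : Subgroup (Cfsg.PSU 3 F (2 ^ n))) := by
  have hF' : Fintype.card F = 2 ^ (n * 2) := by rw [hF, pow_mul]
  haveI : CharP F 2 := Cfsg.Agent.Lib.helper25.U3Syl.charP_two_of_card (n * 2) hF'
  obtain ⟨C⟩ := Cfsg.Agent.Lib.helper25.U3Syl.exists_coord hF S
  have h4 : 4 ≤ 2 ^ n := by
    calc 4 = 2 ^ 2 := by norm_num
      _ ≤ 2 ^ n := Nat.pow_le_pow_right (by norm_num) hn
  have he : ∃ r, 2 ^ n = 2 * r := by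
    obtain ⟨m, rfl⟩ : ∃ m, n = m + 1 := ⟨n - 1, by omega⟩
    exact ⟨2 ^ m, by rw [pow_succ]; ring⟩
  exact ⟨C.card hF, C.card_center hF, C.isSuzuki hF h4 he⟩

end Cfsg.Agent.S1141
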