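import Cfsg.Statements.S1160

import Cfsg.Agent.S0065
import Cfsg.Agent.Lib.helper1.NormEA
set_option autoImplicit false
open Cfsg

namespace Cfsg.Agent.S1160

section
variable {P E : Type*} [Group P] [AddCommGroup E] [DistribMulAction P E]

theorem nrm_fix (w : P) (n : ℕ) (hw : w ^ n = 1) (u : E) :
    w • (∑ i ∈ Finset.range n, w ^ i • u) = ∑ i ∈ Finset.range n, w ^ i • u := by
  rw [Finset.smul_sum]
  have h1 : ∑ i ∈ Finset.range n, w • w ^ i • u = ∑ i ∈ Finset.range n, w ^ (i + 1) • u := by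
    apply Finset.sum_congr rfl
    intro i _
    rw [smul_smul, pow_succ']
  rw [h1]
  have h2 := Finset.sum_range_succ (fun i => w ^ i • u) n
  have h3 := Finset.sum_range_succ' (fun i => w ^ i • u) n
  rw [h2] at h3
  simp only [hw, pow_zero, one_smul] at h3
  exact (add_right_cancel h3).symm

theorem pow_smul_fix (w : P) (u : E) (h : w • u = u) (i : ℕ) : w ^ i • u = u := by
  induction i with
  | zero => simp
  | succ k ih => rw [pow_succ, mul_smul, h, ih]

theorem nrm_of_fix (w : P) (u : E) (h : w • u = u) (n : ℕ) :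
    ∑ i ∈ Finset.range n, w ^ i • u = n • u := by
  rw [Finset.sum_congr rfl (fun i _ => pow_smul_fix w u h i), Finset.sum_const, Finset.card_range]

theorem nrm_comm_fix (k w : P) (hkw : k * w = w * k) (u : E) (hk : k • u = u) (n : ℕ) :
    k • (∑ i ∈ Finset.range n, w ^ i • u) = ∑ i ∈ Finset.range n, w ^ i • u := by
  rw [Finset.smul_sum]
  apply Finset.sum_congr rfl
  intro i _
  have h1 : k * w ^ i = w ^ i * k := (Commute.pow_right (show Commute k w from hkw) i).eq
  rw [smul_smul, h1, mul_smul, hk]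

theorem nrm_add (w : P) (n : ℕ) (u v : E) :
    ∑ i ∈ Finset.range n, w ^ i • (u + v) =
      ∑ i ∈ Finset.range n, w ^ i • u + ∑ i ∈ Finset.range n, w ^ i • v := by
  simp only [smul_add, Finset.sum_add_distrib]

theorem eq_zero_of_coprime (a : E) (n q : ℕ) (hn : n • a = 0) (hq : q • a = 0)
    (h : Nat.Coprime n q) : a = 0 := by
  have h1 := addOrderOf_dvd_of_nsmul_eq_zero hn
  have h2 := addOrderOf_dvd_of_nsmul_eq_zero hq
  have h3 : addOrderOf a ∣ 1 := by
    rw [← Nat.Coprime.gcd_eq_one h]; exact Nat.dvd_gcd h1 h2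
  exact AddMonoid.addOrderOf_eq_one_iff.mp (Nat.dvd_one.mp h3)

theorem conj_smul_fix (h b : P) (a : E) (hba : b • a = a) : (h * b * h⁻¹) • h • a = h • a := by
  rw [smul_smul, inv_mul_cancel_right, mul_smul, hba]

theorem central_fpf [FaithfulSMul P E] [Finite P] {q : ℕ}
    (hE : ∀ e : E, q • e = 0)
    (hcop : ∀ g : P, Nat.Coprime (orderOf g) q)
    (hconst : ∀ a b : E, a ≠ 0 → b ≠ 0 →
      Nat.card (MulAction.stabilizer P a) = Nat.card (MulAction.stabilizer P b))
    (x : P) (hx : x ∈ Subgroup.center P) (hx1 : x ≠ 1) (a : E) (ha : x • a = a) : a = 0 := by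
  have hA : ∀ b : E, x • b ≠ b → ∑ i ∈ Finset.range (orderOf x), x ^ i • b = 0 := by
    intro b hb
    by_contra hN
    have hb0 : b ≠ 0 := by
      rintro rfl
      exact hb (smul_zero x)
    have hle : MulAction.stabilizer P b ≤
        MulAction.stabilizer P (∑ i ∈ Finset.range (orderOf x), x ^ i • b) := by
      intro k hk
      rw [MulAction.mem_stabilizer_iff] at hk ⊢
      exact nrm_comm_fix k x (Subgroup.mem_center_iff.mp hx k) b hk _
    have heq := Subgroup.eq_of_le_of_card_ge hle (hconst _ _ hN hb0).le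
    have hxm : x ∈ MulAction.stabilizer P (∑ i ∈ Finset.range (orderOf x), x ^ i • b) := by
      rw [MulAction.mem_stabilizer_iff]
      exact nrm_fix x _ (pow_orderOf_eq_one x) b
    rw [← heq, MulAction.mem_stabilizer_iff] at hxm
    exact hb hxm
  obtain ⟨b, hb⟩ : ∃ b : E, x • b ≠ b := by
    by_contra hcon
    push Not at hcon
    exact hx1 (FaithfulSMul.eq_of_smul_eq_smul (α := E) (fun e => by rw [hcon e, one_smul]))
  have h1 := hA b hb
  have h2 := hA (a + b) (by
    rw [smul_add, ha]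
    intro h
    exact hb (add_left_cancel h))
  rw [nrm_add, h1, add_zero, nrm_of_fix x a ha] at h2
  exact eq_zero_of_coprime a _ q h2 (hE a) (hcop x)

theorem conj_eq_of_mem_zpowers [Finite P] {p : ℕ} [Fact p.Prime] (hP : IsPGroup p P)
    (b k : P) (hb : orderOf b = p) (hc : k * b * k⁻¹ ∈ Subgroup.zpowers b) :
    k * b * k⁻¹ = b := by
  rw [← mem_powers_iff_mem_zpowers] at hc
  obtain ⟨i, hi⟩ := (Submonoid.mem_powers_iff _ _).mp hc
  have key : ∀ n : ℕ, MulAut.conj (k ^ n) b = b ^ (i ^ n) := by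
    intro n
    induction n with
    | zero => simp
    | succ n ih =>
      rw [pow_succ' k n, map_mul, MulAut.mul_apply, ih, map_pow, MulAut.conj_apply, ← hi,
        ← pow_mul, pow_succ' i n]
  obtain ⟨r, hr⟩ := IsPGroup.iff_card.mp hP
  have h1 := key (Nat.card P)
  rw [pow_card_eq_one', map_one, MulAut.one_apply] at h1
  have h2 : (i ^ Nat.card P) ≡ i [MOD p] := by
    rw [← ZMod.natCast_eq_natCast_iff, Nat.cast_pow, hr, ZMod.pow_card_pow]
  have h3 : b ^ (i ^ Nat.card P) = b ^ i := by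
    rw [pow_eq_pow_iff_modEq, hb]; exact h2
  rw [← hi, ← h3, ← h1]

theorem comm_of_sq_comm {p : ℕ} [Fact p.Prime] (hp2 : p ≠ 2) (hP : IsPGroup p P)
    (h b : P) (hc : h ^ 2 * b = b * h ^ 2) : h * b = b * h := by
  obtain ⟨r, hr⟩ := hP h
  have hodd : Odd (p ^ r) := (Nat.Prime.odd_of_ne_two Fact.out hp2).pow
  obtain ⟨m, hm⟩ := hodd
  have h1 : h = (h ^ 2) ^ (m + 1) := by
    rw [← pow_mul, show 2 * (m + 1) = (2 * m + 1) + 1 by ring, pow_succ, ← hm, hr, one_mul]
  have h2 : Commute ((h ^ 2) ^ (m + 1)) b := (show Commute (h ^ 2) b from hc).pow_left _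
  rw [← h1] at h2
  exact h2.eq

theorem exists_fix_of_noncyclic {p : ℕ} [Fact p.Prime] (A : Subgroup P)
    (hAab : ∀ a ∈ A, ∀ b ∈ A, a * b = b * a) (hAexp : ∀ a ∈ A, a ^ p = 1)
    (x y : P) (hxA : x ∈ A) (hyA : y ∈ A) (hx1 : x ≠ 1) (hy : y ∉ Subgroup.zpowers x)
    (hkill : ∀ e : E, p • e = 0 → e = 0) (v : E) (hv : v ≠ 0) :
    ∃ b ∈ A, b ≠ 1 ∧ ∃ a : E, a ≠ 0 ∧ b • a = a := by
  by_contra hcon
  push Not at hcon
  have hN : ∀ b ∈ A, b ≠ 1 → ∀ u : E, ∑ i ∈ Finset.range p, b ^ i • u = 0 := by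
    intro b hb hb1 u
    by_contra h
    exact hcon b hb hb1 _ h (nrm_fix b p (hAexp b hb) u)
  have hxp : orderOf x = p := orderOf_eq_prime (hAexp x hxA) hx1
  have hsum : ∑ j ∈ Finset.range p, ∑ i ∈ Finset.range p, (y * x ^ j) ^ i • v = 0 := by
    apply Finset.sum_eq_zero
    intro j _
    apply hN (y * x ^ j) (A.mul_mem hyA (A.pow_mem hxA j))
    intro h
    apply hy
    have h' : y = (x ^ j)⁻¹ := eq_inv_of_mul_eq_one_left h
    rw [h']
    exact (Subgroup.zpowers x).inv_mem (Subgroup.npow_mem_zpowers x j)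
  rw [Finset.sum_comm] at hsum
  have hterm : ∀ i ∈ Finset.range p, i ≠ 0 →
      ∑ j ∈ Finset.range p, (y * x ^ j) ^ i • v = 0 := by
    intro i hi hi0
    have h1 : ∀ j ∈ Finset.range p, (y * x ^ j) ^ i • v = y ^ i • ((x ^ i) ^ j • v) := by
      intro j _
      have hc : Commute y (x ^ j) := hAab y hyA _ (A.pow_mem hxA j)
      rw [hc.mul_pow, mul_smul, ← pow_mul, ← pow_mul, mul_comm j i]
    have hxi : x ^ i ≠ 1 := by
      intro h
      have h' := orderOf_dvd_of_pow_eq_one h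
      rw [hxp] at h'
      exact hi0 (Nat.eq_zero_of_dvd_of_lt h' (Finset.mem_range.mp hi))
    rw [Finset.sum_congr rfl h1, ← Finset.smul_sum, hN (x ^ i) (A.pow_mem hxA i) hxi v,
      smul_zero]
  rw [Finset.sum_eq_single 0 hterm
    (fun h => absurd (Finset.mem_range.mpr (Fact.out : p.Prime).pos) h)] at hsum
  simp only [pow_zero, one_smul, Finset.sum_const, Finset.card_range] at hsum
  exact hv (hkill v hsum)

theorem star_lemma [Finite P] {p : ℕ} [Fact p.Prime] (hP : IsPGroup p P)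
    (A : Subgroup P) [hAn : A.Normal]
    (hAexp : ∀ a ∈ A, a ^ p = 1) (hAcard : Nat.card A = p ^ 2)
    (x : P) (hxA : x ∈ A) (hxf : ∀ a : E, x • a = a → a = 0)
    (b : P) (hb : b ∈ A) (hb1 : b ≠ 1) (k : P) (hk : k * b * k⁻¹ ≠ b) (u : E)
    (h1 : b • u = u) (h2 : (k * b * k⁻¹) • u = u) : u = 0 := by
  have hpp : p.Prime := Fact.out
  have hbp : orderOf b = p := orderOf_eq_prime (hAexp b hb) hb1
  have hcA : k * b * k⁻¹ ∈ A := hAn.conj_mem b hb k
  obtain ⟨W, hW⟩ : ∃ W : Subgroup P, W = A ⊓ MulAction.stabilizer P u := ⟨_, rfl⟩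
  have hbW : b ∈ W := by
    rw [hW]; exact Subgroup.mem_inf.mpr ⟨hb, MulAction.mem_stabilizer_iff.mpr h1⟩
  have hcW : k * b * k⁻¹ ∈ W := by
    rw [hW]; exact Subgroup.mem_inf.mpr ⟨hcA, MulAction.mem_stabilizer_iff.mpr h2⟩
  have hWA : W ≤ A := by rw [hW]; exact inf_le_left
  have hdvd : Nat.card W ∣ p ^ 2 := by rw [← hAcard]; exact Subgroup.card_dvd_of_le hWA
  obtain ⟨m, hm, hWm⟩ := (Nat.dvd_prime_pow hpp).mp hdvd
  have hzW : Subgroup.zpowers b ≤ W := by rw [Subgroup.zpowers_le]; exact hbW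
  have hzc : Nat.card (Subgroup.zpowers b) = p := by rw [Nat.card_zpowers, hbp]
  interval_cases m
  · exfalso
    have h3 := Subgroup.card_le_of_le hzW
    rw [hzc, hWm, pow_zero] at h3
    have h4 := hpp.one_lt
    omega
  · exfalso
    have heq : Subgroup.zpowers b = W :=
      Subgroup.eq_of_le_of_card_ge hzW (by rw [hzc, hWm, pow_one])
    rw [← heq] at hcW
    exact hk (conj_eq_of_mem_zpowers hP b k hbp hcW)
  · have heq : W = A := Subgroup.eq_of_le_of_card_ge hWA (by rw [hAcard, hWm])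
    have hxW : x ∈ W := by rw [heq]; exact hxA
    rw [hW] at hxW
    exact hxf u (MulAction.mem_stabilizer_iff.mp (Subgroup.mem_inf.mp hxW).2)

theorem final_contra [Finite P] {p : ℕ} [Fact p.Prime] (hp2 : p ≠ 2) (hP : IsPGroup p P)
    (hconst : ∀ a b : E, a ≠ 0 → b ≠ 0 →
      Nat.card (MulAction.stabilizer P a) = Nat.card (MulAction.stabilizer P b))
    (hkill : ∀ e : E, p • e = 0 → e = 0)
    (A : Subgroup P) [hAn : A.Normal] (hAab : ∀ a ∈ A, ∀ b ∈ A, a * b = b * a)
    (hAexp : ∀ a ∈ A, a ^ p = 1)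
    (hstar : ∀ b ∈ A, b ≠ 1 → ∀ k : P, k * b * k⁻¹ ≠ b → ∀ u : E, b • u = u →
      (k * b * k⁻¹) • u = u → u = 0)
    (b : P) (hb : b ∈ A) (hb1 : b ≠ 1) (a : E) (ha0 : a ≠ 0) (hba : b • a = a)
    (g : P) (hg : g * b * g⁻¹ ≠ b) : False := by
  have hGP1 : ∀ b₁ ∈ A, b₁ ≠ 1 → ∀ k : P, k * b₁ * k⁻¹ ≠ b₁ → ∀ u : E,
      (k * b₁ * k⁻¹) • u = u → ∑ i ∈ Finset.range p, b₁ ^ i • u = 0 := by
    intro b₁ hb₁ hb₁1 k hk u hu
    apply hstar b₁ hb₁ hb₁1 k hk
    · exact nrm_fix b₁ p (hAexp b₁ hb₁) u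
    · exact nrm_comm_fix (k * b₁ * k⁻¹) b₁ (hAab _ (hAn.conj_mem b₁ hb₁ k) _ hb₁) u hu p
  have hGP2 : ∀ b₁ ∈ A, b₁ ≠ 1 → ∀ k : P, k * b₁ * k⁻¹ ≠ b₁ → ∀ u : E, b₁ • u = u →
      ∑ i ∈ Finset.range p, (k * b₁ * k⁻¹) ^ i • u = 0 := by
    intro b₁ hb₁ hb₁1 k hk u hu
    have hcA := hAn.conj_mem b₁ hb₁ k
    apply hstar b₁ hb₁ hb₁1 k hk
    · exact nrm_comm_fix b₁ (k * b₁ * k⁻¹) (hAab _ hb₁ _ hcA) u hu p
    · exact nrm_fix (k * b₁ * k⁻¹) p (hAexp _ hcA) u
  obtain ⟨b', hb'⟩ : ∃ b' : P, b' = g * b * g⁻¹ := ⟨_, rfl⟩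
  obtain ⟨a', ha'⟩ : ∃ a' : E, a' = g • a := ⟨_, rfl⟩
  have hne : b' ≠ b := by rw [hb']; exact hg
  have hb'A : b' ∈ A := by rw [hb']; exact hAn.conj_mem b hb g
  have hb'1 : b' ≠ 1 := by
    rw [hb']; intro h; exact hb1 (conj_eq_one_iff.mp h)
  have hb'a' : b' • a' = a' := by rw [hb', ha']; exact conj_smul_fix g b a hba
  have ha'0 : a' ≠ 0 := by
    rw [ha']; intro h; exact ha0 ((smul_eq_zero_iff_eq g).mp h)
  have hconj2 : ∀ h : P, h * g * b * (h * g)⁻¹ = h * b' * h⁻¹ := by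
    intro h; rw [hb']; group
  have hconj3 : ∀ h : P, h * g⁻¹ * b' * (h * g⁻¹)⁻¹ = h * b * h⁻¹ := by
    intro h; rw [hb']; group
  have hNba : ∑ i ∈ Finset.range p, b ^ i • a = p • a := nrm_of_fix b a hba p
  have hNba' : ∑ i ∈ Finset.range p, b ^ i • a' = 0 :=
    hGP1 b hb hb1 g hg a' (by rw [← hb']; exact hb'a')
  have hNb'a : ∑ i ∈ Finset.range p, b' ^ i • a = 0 := by
    rw [hb']; exact hGP2 b hb hb1 g hg a hba
  have hNb'a' : ∑ i ∈ Finset.range p, b' ^ i • a' = p • a' := nrm_of_fix b' a' hb'a' p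
  have hle : MulAction.stabilizer P (a + a') ≤ MulAction.stabilizer P a := by
    intro h hh
    rw [MulAction.mem_stabilizer_iff] at hh ⊢
    rw [smul_add] at hh
    have hf1 : (h * b * h⁻¹) • h • a = h • a := conj_smul_fix h b a hba
    have hf2 : (h * b' * h⁻¹) • h • a' = h • a' := conj_smul_fix h b' a' hb'a'
    have EqB : ∑ i ∈ Finset.range p, b ^ i • (h • a) + ∑ i ∈ Finset.range p, b ^ i • (h • a')
        = p • a := by
      rw [← nrm_add, hh, nrm_add, hNba, hNba', add_zero]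
    have EqB' : ∑ i ∈ Finset.range p, b' ^ i • (h • a) +
        ∑ i ∈ Finset.range p, b' ^ i • (h • a') = p • a' := by
      rw [← nrm_add, hh, nrm_add, hNb'a, hNb'a', zero_add]
    by_cases h1 : h * b * h⁻¹ = b
    · have h2 : h * b' * h⁻¹ ≠ b := by
        intro h2
        exact hne (mul_left_cancel (mul_right_cancel (h2.trans h1.symm)))
      rw [h1] at hf1
      have e1 : ∑ i ∈ Finset.range p, b ^ i • (h • a) = p • (h • a) := nrm_of_fix b _ hf1 p
      have e2 : ∑ i ∈ Finset.range p, b ^ i • (h • a') = 0 :=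
        hGP1 b hb hb1 (h * g) (by rw [hconj2]; exact h2) (h • a') (by rw [hconj2]; exact hf2)
      rw [e1, e2, add_zero] at EqB
      have e3 : p • (h • a - a) = 0 := by rw [smul_sub, EqB, sub_self]
      exact sub_eq_zero.mp (hkill _ e3)
    · exfalso
      have e1 : ∑ i ∈ Finset.range p, b ^ i • (h • a) = 0 := hGP1 b hb hb1 h h1 (h • a) hf1
      by_cases h2 : h * b' * h⁻¹ = b
      · by_cases h3 : h * b * h⁻¹ = b'
        · have h4 : h * (h * b * h⁻¹) * h⁻¹ = b := by rw [h3]; exact h2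
          have h5 : h ^ 2 * b = b * h ^ 2 := by
            calc h ^ 2 * b = (h * (h * b * h⁻¹) * h⁻¹) * h ^ 2 := by simp [pow_two, mul_assoc]
              _ = b * h ^ 2 := by rw [h4]
          have h6 := comm_of_sq_comm hp2 hP h b h5
          exact h1 (mul_inv_eq_iff_eq_mul.mpr h6)
        · have e2 : ∑ i ∈ Finset.range p, b' ^ i • (h • a) = 0 :=
            hGP1 b' hb'A hb'1 (h * g⁻¹) (by rw [hconj3]; exact h3) (h • a)
              (by rw [hconj3]; exact hf1)
          rw [h2] at hf2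
          have e3 : ∑ i ∈ Finset.range p, b' ^ i • (h • a') = 0 := by
            rw [hb']; exact hGP2 b hb hb1 g hg (h • a') hf2
          rw [e2, e3, add_zero] at EqB'
          exact ha'0 (hkill a' EqB'.symm)
      · have e2 : ∑ i ∈ Finset.range p, b ^ i • (h • a') = 0 :=
          hGP1 b hb hb1 (h * g) (by rw [hconj2]; exact h2) (h • a') (by rw [hconj2]; exact hf2)
        rw [e1, e2, add_zero] at EqB
        exact ha0 (hkill a EqB.symm)
  have hbv : b • (a + a') = a + a' := by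
    by_cases hv0 : a + a' = 0
    · rw [hv0, smul_zero]
    · have heq := Subgroup.eq_of_le_of_card_ge hle (hconst _ _ ha0 hv0).le
      have hbm : b ∈ MulAction.stabilizer P a := MulAction.mem_stabilizer_iff.mpr hba
      rw [← heq] at hbm
      exact MulAction.mem_stabilizer_iff.mp hbm
  rw [smul_add, hba] at hbv
  have hba' : b • a' = a' := add_left_cancel hbv
  exact ha'0 (hstar b hb hb1 g hg a' hba' (by rw [← hb']; exact hb'a'))

end

/-- Let `p ≠ 2` be prime and `P` a finite `p`-group acting faithfully by additive automorphisms on a finite elementary abelian `q`-group `E` (`q` prime), such that `|P_a|` is the same for all `a ≠ 0`. Then `P` is cyclic and every non-identity element of `P` fixes only `0`. -/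
theorem result {P E : Type*} [Group P] [Finite P]
    [AddCommGroup E] [Finite E] [DistribMulAction P E] [FaithfulSMul P E]
    {p q : ℕ} [Fact p.Prime] (hp2 : p ≠ 2) (hP : IsPGroup p P) (hq : q.Prime) (hE : ∀ e : E, q • e = 0)
    (hconst : ∀ a b : E, a ≠ 0 → b ≠ 0 →
      Nat.card (MulAction.stabilizer P a) = Nat.card (MulAction.stabilizer P b)) :
    IsCyclic P ∧ ∀ g : P, g ≠ 1 → ∀ a : E, g • a = a → a = 0 := by

  classical
  have hpp : p.Prime := Fact.out
  by_cases hE0 : ∀ a : E, a = 0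
  · have hsub : ∀ g : P, g = 1 := by
      intro g
      apply FaithfulSMul.eq_of_smul_eq_smul (α := E)
      intro e
      rw [hE0 (g • e), hE0 ((1 : P) • e)]
    haveI : Subsingleton P := ⟨fun a b => by rw [hsub a, hsub b]⟩
    exact ⟨inferInstance, fun g hg => absurd (hsub g) hg⟩
  push Not at hE0
  obtain ⟨a₀, ha₀⟩ := hE0
  by_cases hqp : q = p
  · subst hqp
    have hdvd : q ∣ Nat.card E := by
      have h1 : addOrderOf a₀ = q := addOrderOf_eq_prime (hE a₀) ha₀
      rw [← h1]; exact addOrderOf_dvd_natCard a₀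
    obtain ⟨w, hw, hw0⟩ := hP.exists_fixed_point_of_prime_dvd_card_of_fixed_point E hdvd
      (a := (0 : E)) (MulAction.mem_fixedPoints.mpr (fun g => smul_zero g))
    have hwtop : MulAction.stabilizer P w = ⊤ := by
      ext g
      simp only [MulAction.mem_stabilizer_iff, Subgroup.mem_top, iff_true]
      exact MulAction.mem_fixedPoints.mp hw g
    have hsub : ∀ g : P, g = 1 := by
      intro g
      apply FaithfulSMul.eq_of_smul_eq_smul (α := E)
      intro e
      rw [one_smul]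
      by_cases he : e = 0
      · rw [he, smul_zero]
      · have h1 := hconst e w he (Ne.symm hw0)
        rw [hwtop, Subgroup.card_top] at h1
        have h2 : MulAction.stabilizer P e = ⊤ := Subgroup.eq_top_of_card_eq _ h1
        have h3 : g ∈ MulAction.stabilizer P e := by rw [h2]; exact Subgroup.mem_top g
        exact MulAction.mem_stabilizer_iff.mp h3
    haveI : Subsingleton P := ⟨fun a b => by rw [hsub a, hsub b]⟩
    exact ⟨inferInstance, fun g hg => absurd (hsub g) hg⟩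
  · have hcopq : Nat.Coprime p q := (Nat.coprime_primes hpp hq).mpr (Ne.symm hqp)
    have hcop : ∀ g : P, Nat.Coprime (orderOf g) q := by
      intro g
      obtain ⟨k, hk⟩ := hP g
      exact Nat.Coprime.coprime_dvd_left (orderOf_dvd_of_pow_eq_one hk)
        (Nat.Coprime.pow_left k hcopq)
    have hkill : ∀ e : E, p • e = 0 → e = 0 :=
      fun e he => eq_zero_of_coprime e p q he (hE e) hcopq
    have hL1 : ∀ x : P, x ∈ Subgroup.center P → x ≠ 1 → ∀ a : E, x • a = a → a = 0 :=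
      fun x hx hx1 a ha => central_fpf hE hcop hconst x hx hx1 a ha
    have hcyc : IsCyclic P := by
      by_contra hnc
      haveI : Group.IsNilpotent P := hP.isNilpotent
      have hnc' : ¬ IsCyclic (⊤ : Subgroup P) := by
        intro h
        exact hnc ((Subgroup.topEquiv : (⊤ : Subgroup P) ≃* P).isCyclic.mp h)
      obtain ⟨A, -, hAn, hAab, hAexp, hAcard⟩ :=
        Cfsg.Agent.Lib.helper1.exists_normal_ea_sq p hp2 _ P rfl hP ⊤ inferInstance hnc'
      haveI := hAn
      have hAne : A ≠ ⊥ := by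
        intro h
        rw [h, Subgroup.card_bot] at hAcard
        have := hpp.one_lt
        nlinarith
      have hZ := Cfsg.Agent.S0065.normal_inf_center_ne_bot A hAne
      obtain ⟨⟨x, hxm⟩, hx1'⟩ := Subgroup.ne_bot_iff_exists_ne_one.mp hZ
      have hx1 : x ≠ 1 := by
        intro h
        apply hx1'
        exact Subtype.ext h
      have hxA : x ∈ A := (Subgroup.mem_inf.mp hxm).1
      have hxZ : x ∈ Subgroup.center P := (Subgroup.mem_inf.mp hxm).2
      have hxp : orderOf x = p := orderOf_eq_prime (hAexp x hxA) hx1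
      obtain ⟨y, hyA, hyx⟩ : ∃ y ∈ A, y ∉ Subgroup.zpowers x := by
        by_contra hcon
        push Not at hcon
        have h1 : A ≤ Subgroup.zpowers x := hcon
        have h2 := Subgroup.card_le_of_le h1
        rw [hAcard, Nat.card_zpowers, hxp] at h2
        have := hpp.one_lt
        nlinarith
      obtain ⟨b, hbA, hb1, a, ha0, hba⟩ :=
        exists_fix_of_noncyclic A hAab hAexp x y hxA hyA hx1 hyx hkill a₀ ha₀
      have hxf : ∀ e : E, x • e = e → e = 0 := hL1 x hxZ hx1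
      have hbZ : b ∉ Subgroup.center P := fun h => ha0 (hL1 b h hb1 a hba)
      obtain ⟨g, hg⟩ : ∃ g : P, g * b * g⁻¹ ≠ b := by
        by_contra hcon
        push Not at hcon
        apply hbZ
        rw [Subgroup.mem_center_iff]
        intro g
        exact mul_inv_eq_iff_eq_mul.mp (hcon g)
      exact final_contra hp2 hP hconst hkill A hAab hAexp
        (fun b₁ hb₁ hb₁1 k hk u hu1 hu2 =>
          star_lemma hP A hAexp hAcard x hxA hxf b₁ hb₁ hb₁1 k hk u hu1 hu2)
        b hbA hb1 a ha0 hba g hg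
    refine ⟨hcyc, ?_⟩
    intro g hg a ha
    apply hL1 g ?_ hg a ha
    rw [Subgroup.mem_center_iff]
    intro h
    obtain ⟨z, hz⟩ := hcyc.exists_generator
    obtain ⟨m, rfl⟩ := Subgroup.mem_zpowers_iff.mp (hz g)
    obtain ⟨n, rfl⟩ := Subgroup.mem_zpowers_iff.mp (hz h)
    rw [← zpow_add, ← zpow_add, add_comm]

end Cfsg.Agent.S1160
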