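import Cfsg.Statements.S1165
-- import your own Cfsg.Agent.* helpers here
import Cfsg.Agent.Lib.helper6.RankOne

set_option autoImplicit false
open Cfsg

namespace Cfsg.Agent.S1165

open Cfsg.Agent.Lib.helper6 MulAction

/-- In the rank-one set-up (`G` finite and doubly transitive on `Ω`, `t` an involution moving `a`, `Q` normal in `G_a` with `G_a = Q D`, `Q ⊓ D = 1` for the two-point stabiliser `D = G_a ⊓ G_{t • a}`, `|Q|` even, `|D|` odd): every `x ∈ Q`, `x ≠ 1`, determines unique `g, f ∈ Q`, `h ∈ D` with `t x t = g h t f` (a consequence of the canonical form). For these: (H1) the `f`-part of `x⁻¹` is `g⁻¹`; (H2) the `f`-part of `f` is `x`; (H3) for `a ∈ D` the `f`-part of `a⁻¹ x a` is `(t a t)⁻¹ f (t a t)`; (H4) the `h`-part of `a⁻¹ x a` is `(t a t)⁻¹ h a`, that of `x⁻¹` is `t h⁻¹ t`, and that of `f` is `h⁻¹`. -/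
theorem result {G Ω : Type*} [Group G] [Finite G] [MulAction G Ω] {a : Ω} {t : G} {Q : Subgroup G}
    (hS : Cfsg.IsRankOneSetup G Ω a t Q)
    (x g h f : G) (hx : x ∈ Q) (hx1 : x ≠ 1) (hg : g ∈ Q) (hh : h ∈ (MulAction.stabilizer G a ⊓ MulAction.stabilizer G (t • a))) (hf : f ∈ Q)
    (heq : t * x * t = g * h * t * f) :
    (∀ g₁ h₁ f₁ : G, g₁ ∈ Q → h₁ ∈ (MulAction.stabilizer G a ⊓ MulAction.stabilizer G (t • a)) → f₁ ∈ Q → t * x⁻¹ * t = g₁ * h₁ * t * f₁ →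
        f₁ = g⁻¹ ∧ h₁ = t * h⁻¹ * t) ∧
      (∀ g₂ h₂ f₂ : G, g₂ ∈ Q → h₂ ∈ (MulAction.stabilizer G a ⊓ MulAction.stabilizer G (t • a)) → f₂ ∈ Q → t * f * t = g₂ * h₂ * t * f₂ →
        f₂ = x ∧ h₂ = h⁻¹) ∧
      ∀ c ∈ (MulAction.stabilizer G a ⊓ MulAction.stabilizer G (t • a)), ∀ g₃ h₃ f₃ : G, g₃ ∈ Q → h₃ ∈ (MulAction.stabilizer G a ⊓ MulAction.stabilizer G (t • a)) → f₃ ∈ Q →
        t * (c⁻¹ * x * c) * t = g₃ * h₃ * t * f₃ →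
          f₃ = (t * c * t)⁻¹ * f * (t * c * t) ∧ h₃ = (t * c * t)⁻¹ * h * c := by
  have hti : t⁻¹ = t := ro_tinv hS
  have heq' : t * x * t⁻¹ = g * h * t * f := by rw [hti]; exact heq
  have hconj : ∀ d ∈ stabilizer G a, ∀ y ∈ Q, d⁻¹ * y * d ∈ Q := by
    intro d hd y hy
    have := hS.conj_mem d⁻¹ (inv_mem hd) y hy
    rwa [inv_inv] at this
  refine ⟨?_, ?_, ?_⟩
  · intro g₁ h₁ f₁ hg₁ hh₁ hf₁ e₁
    have key : t * x⁻¹ * t⁻¹ = f⁻¹ * (t⁻¹ * h⁻¹ * t⁻¹) * t⁻¹ * g⁻¹ := by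
      calc t * x⁻¹ * t⁻¹ = (t * x * t⁻¹)⁻¹ := by group
        _ = (g * h * t * f)⁻¹ := by rw [heq']
        _ = f⁻¹ * (t⁻¹ * h⁻¹ * t) * t⁻¹ * g⁻¹ := by group
        _ = f⁻¹ * (t⁻¹ * h⁻¹ * t⁻¹) * t⁻¹ * g⁻¹ := by rw [hti]
    rw [hti] at key
    rw [key] at e₁
    have hm : t * h⁻¹ * t ∈ stabilizer G a ⊓ stabilizer G (t • a) :=
      ro_t_conj_D hS (inv_mem hh)
    obtain ⟨-, e2, e3⟩ := ro_unique hS (inv_mem hf) hm (inv_mem hg) hg₁ hh₁ hf₁ e₁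
    exact ⟨e3.symm, e2.symm⟩
  · intro g₂ h₂ f₂ hg₂ hh₂ hf₂ e₂
    have key : t * f * t = (h⁻¹ * g⁻¹ * h) * h⁻¹ * t * x := by
      calc t * f * t = t * (t⁻¹ * h⁻¹ * g⁻¹ * (g * h * t * f)) * t := by group
        _ = t * (t⁻¹ * h⁻¹ * g⁻¹ * (t * x * t⁻¹)) * t := by rw [heq']
        _ = (h⁻¹ * g⁻¹ * h) * h⁻¹ * t * x := by group
    rw [key] at e₂
    have hm : h⁻¹ * g⁻¹ * h ∈ Q := hconj h hh.1 _ (inv_mem hg)
    obtain ⟨-, e2, e3⟩ := ro_unique hS hm (inv_mem hh) hx hg₂ hh₂ hf₂ e₂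
    exact ⟨e3.symm, e2.symm⟩
  · intro c hc g₃ h₃ f₃ hg₃ hh₃ hf₃ e₃
    have key : t * (c⁻¹ * x * c) * t⁻¹ =
        ((t * c * t⁻¹)⁻¹ * g * (t * c * t⁻¹)) * ((t * c * t⁻¹)⁻¹ * h * c) * t *
          ((t⁻¹ * c * t)⁻¹ * f * (t * c * t⁻¹)) := by
      calc t * (c⁻¹ * x * c) * t⁻¹ = (t * c * t⁻¹)⁻¹ * (t * x * t⁻¹) * (t * c * t⁻¹) := by group
        _ = (t * c * t⁻¹)⁻¹ * (g * h * t * f) * (t * c * t⁻¹) := by rw [heq']
        _ = _ := by group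
    rw [hti] at key
    rw [key] at e₃
    have hc' : t * c * t ∈ stabilizer G a ⊓ stabilizer G (t • a) := ro_t_conj_D hS hc
    have hm1 : (t * c * t)⁻¹ * g * (t * c * t) ∈ Q := hconj _ hc'.1 _ hg
    have hm2 : (t * c * t)⁻¹ * h * c ∈ stabilizer G a ⊓ stabilizer G (t • a) :=
      mul_mem (mul_mem (inv_mem hc') hh) hc
    have hm3 : (t * c * t)⁻¹ * f * (t * c * t) ∈ Q := hconj _ hc'.1 _ hf
    obtain ⟨-, e2, e3⟩ := ro_unique hS hm1 hm2 hm3 hg₃ hh₃ hf₃ e₃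
    exact ⟨e3.symm, e2.symm⟩

end Cfsg.Agent.S1165
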