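import Cfsg.Statements.S1166
-- import your own Cfsg.Agent.* helpers here
import Cfsg.Agent.Lib.helper6.RankOne

set_option autoImplicit false
open Cfsg

namespace Cfsg.Agent.S1166

open Cfsg.Agent.Lib.helper6 MulAction

/-- In the rank-one set-up (`G` finite and doubly transitive on `Ω`, `t` an involution moving `a`, `Q` normal in `G_a` with `G_a = Q D`, `Q ⊓ D = 1` for the two-point stabiliser `D = G_a ⊓ G_{t • a}`, `|Q|` even, `|D|` odd), with `t x t = g_x h_x t f_x` and `t y t = g_y h_y t f_y` (`g, f ∈ Q`, `h ∈ D`) for `x, y ∈ Q ∖ 1` with `x y ≠ 1`: then `z = f_x g_y ≠ 1`, and if `t z t = g_z h_z t f_z` and `t (x y) t = g' h' t f'` then `f' = (t h_y t)⁻¹ f_z (t h_y t) f_y` and `h' = h_x h_z h_y` (H6). -/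
theorem result {G Ω : Type*} [Group G] [Finite G] [MulAction G Ω] {a : Ω} {t : G} {Q : Subgroup G}
    (hS : Cfsg.IsRankOneSetup G Ω a t Q)
    (x y gx hx fx gy hy fy : G) (hxQ : x ∈ Q) (hx1 : x ≠ 1) (hyQ : y ∈ Q) (hy1 : y ≠ 1) (hxy : x * y ≠ 1)
    (hgx : gx ∈ Q) (hhx : hx ∈ (MulAction.stabilizer G a ⊓ MulAction.stabilizer G (t • a))) (hfx : fx ∈ Q) (ex : t * x * t = gx * hx * t * fx)
    (hgy : gy ∈ Q) (hhy : hy ∈ (MulAction.stabilizer G a ⊓ MulAction.stabilizer G (t • a))) (hfy : fy ∈ Q) (ey : t * y * t = gy * hy * t * fy) :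
    fx * gy ≠ 1 ∧
      ∀ gz hz fz g' h' f' : G, gz ∈ Q → hz ∈ (MulAction.stabilizer G a ⊓ MulAction.stabilizer G (t • a)) → fz ∈ Q → t * (fx * gy) * t = gz * hz * t * fz →
        g' ∈ Q → h' ∈ (MulAction.stabilizer G a ⊓ MulAction.stabilizer G (t • a)) → f' ∈ Q → t * (x * y) * t = g' * h' * t * f' →
          f' = (t * hy * t)⁻¹ * fz * (t * hy * t) * fy ∧ h' = hx * hz * hy := by
  have hti : t⁻¹ = t := ro_tinv hS
  have ex' : t * x * t⁻¹ = gx * hx * t * fx := by rw [hti]; exact ex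
  have ey' : t * y * t⁻¹ = gy * hy * t * fy := by rw [hti]; exact ey
  have hconj : ∀ d ∈ stabilizer G a, ∀ y ∈ Q, d⁻¹ * y * d ∈ Q := by
    intro d hd y hy
    have := hS.conj_mem d⁻¹ (inv_mem hd) y hy
    rwa [inv_inv] at this
  have he : t * hy * t ∈ stabilizer G a ⊓ stabilizer G (t • a) := ro_t_conj_D hS hhy
  constructor
  · intro hz
    have key : t * (x * y) * t⁻¹ = gx * hx * (t * hy * t) * fy := by
      calc t * (x * y) * t⁻¹ = (t * x * t⁻¹) * (t * y * t⁻¹) := by group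
        _ = (gx * hx * t * fx) * (gy * hy * t * fy) := by rw [ex', ey']
        _ = gx * hx * t * (fx * gy) * hy * t * fy := by group
        _ = gx * hx * (t * hy * t) * fy := by rw [hz]; group
    rw [hti] at key
    have hmem : t * (x * y) * t ∈ stabilizer G a := by
      rw [key]
      exact mul_mem (mul_mem (mul_mem (hS.le hgx) hhx.1) he.1) (hS.le hfy)
    have h1 : (x * y) • (t • a) = t • a := by
      have h2 := mem_stabilizer_iff.mp hmem
      rw [mul_smul, mul_smul] at h2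
      have h3 : t • (t • (x * y) • t • a) = t • a := by rw [h2]
      rwa [← mul_smul t t, hS.mul_self, one_smul] at h3
    exact hxy (ro_semiregular hS (mul_mem hxQ hyQ) (ro_ne hS) h1)
  · intro gz hz fz g' h' f' hgz hhz hfz ez hg' hh' hf' e'
    have ez' : t * (fx * gy) * t⁻¹ = gz * hz * t * fz := by rw [hti]; exact ez
    have key : t * (x * y) * t⁻¹ = (gx * (hx * gz * hx⁻¹)) * (hx * hz * hy) * t *
        ((t⁻¹ * hy * t)⁻¹ * fz * (t * hy * t) * fy) := by
      calc t * (x * y) * t⁻¹ = (t * x * t⁻¹) * (t * y * t⁻¹) := by group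
        _ = (gx * hx * t * fx) * (gy * hy * t * fy) := by rw [ex', ey']
        _ = gx * hx * (t * (fx * gy) * t⁻¹) * t * hy * t * fy := by group
        _ = gx * hx * (gz * hz * t * fz) * t * hy * t * fy := by rw [ez']
        _ = _ := by group
    rw [hti] at key
    rw [key] at e'
    have hm1 : gx * (hx * gz * hx⁻¹) ∈ Q := mul_mem hgx (hS.conj_mem hx hhx.1 gz hgz)
    have hm2 : hx * hz * hy ∈ stabilizer G a ⊓ stabilizer G (t • a) :=
      mul_mem (mul_mem hhx hhz) hhy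
    have hm3 : (t * hy * t)⁻¹ * fz * (t * hy * t) * fy ∈ Q :=
      mul_mem (hconj _ he.1 fz hfz) hfy
    obtain ⟨-, e2, e3⟩ := ro_unique hS hm1 hm2 hm3 hg' hh' hf' e'
    exact ⟨e3.symm, e2.symm⟩

end Cfsg.Agent.S1166
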