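import Cfsg.Statements.S1168
-- import your own Cfsg.Agent.* helpers here
import Cfsg.Agent.Lib.helper6.FieldQuad

set_option autoImplicit false
open Cfsg

namespace Cfsg.Agent.S1168

open Cfsg.Agent.Lib.helper6

/-- For a finite field `F` of characteristic 2: if `q : F → F` is quadratic over the prime field, i.e. `(x, y) ↦ q (x + y) + q x + q y` is additive in each variable, then `q x = Σ c_{σ,τ} σ(x) τ(x)` for some coefficients indexed by pairs of field automorphisms. -/
theorem result {F : Type*} [Field F] [Fintype F] [CharP F 2]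
    (q : F → F)
    (hq : ∀ x y z : F, q (x + y + z) + q (x + y) + q (x + z) + q (y + z) + q x + q y + q z = 0) :
    ∃ (s : Finset ((F ≃+* F) × (F ≃+* F))) (c : (F ≃+* F) × (F ≃+* F) → F),
      ∀ x : F, q x = ∑ p ∈ s, c p * (p.1 x * p.2 x) := by
  classical
  let _ : Fintype (F ≃+* F) := Fintype.ofFinite _
  obtain ⟨c, hc⟩ := quad_isAutQuad q hq
  exact ⟨Finset.univ, c, hc⟩

end Cfsg.Agent.S1168
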