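import Cfsg.Statements.S1176
-- import your own Cfsg.Agent.* helpers here
import Mathlib
import Cfsg.Agent.Lib.helper6.Invol

set_option autoImplicit false
open Cfsg

namespace Cfsg.Agent.S1176

open scoped commutatorElement

/-- Let x₀ be an involution of the finite group G and D its conjugacy class. Assume (a) for each x ∈ D the subgroup W(x) generated by the members of D commuting with x is a 2-group of nilpotency class at most 2, and (b) the product of two distinct commuting members of D again lies in D. Then for all x, y ∈ D, if xy has even order greater than 2, its order is 4. -/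
theorem result {G : Type*} [Group G] [Finite G] (x₀ : G) (hx₀ : orderOf x₀ = 2) (ha : ∀ x : G, IsConj x₀ x → IsPGroup 2 ↥(Subgroup.closure {y : G | IsConj x₀ y ∧ Commute y x}) ∧ ⁅⁅Subgroup.closure {y : G | IsConj x₀ y ∧ Commute y x}, Subgroup.closure {y : G | IsConj x₀ y ∧ Commute y x}⁆, Subgroup.closure {y : G | IsConj x₀ y ∧ Commute y x}⁆ = ⊥) (hb : ∀ x y : G, IsConj x₀ x → IsConj x₀ y → x ≠ y → Commute x y → IsConj x₀ (x * y)) (x y : G) (hx : IsConj x₀ x) (hy : IsConj x₀ y) (heven : Even (orderOf (x * y))) (hgt : 2 < orderOf (x * y)) : orderOf (x * y) = 4 := by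
  have hord : ∀ w : G, IsConj x₀ w → orderOf w = 2 := by
    intro w hw
    obtain ⟨c, rfl⟩ := isConj_iff.mp hw
    have : orderOf (c * x₀ * c⁻¹) = orderOf x₀ := (MulAut.conj c).orderOf_eq x₀
    rw [this]; exact hx₀
  have hx1 := Cfsg.Agent.Lib.helper6.mul_self_of_orderOf_two (hord x hx)
  have hy1 := Cfsg.Agent.Lib.helper6.mul_self_of_orderOf_two (hord y hy)
  have hxi : x⁻¹ = x := Cfsg.Agent.Lib.helper6.inv_eq_self_of_mul_self hx1
  have hyi : y⁻¹ = y := Cfsg.Agent.Lib.helper6.inv_eq_self_of_mul_self hy1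
  obtain ⟨k, hk⟩ := heven
  have hpow : (x * y) ^ (2 * k) = 1 := by rw [two_mul, ← hk]; exact pow_orderOf_eq_one _
  obtain ⟨hzz, hxz, hyz, c, hc⟩ := Cfsg.Agent.Lib.helper6.dihedral_even hx1 hy1 k hpow
  have hz1 : (x * y) ^ k ≠ 1 := by
    apply pow_ne_one_of_lt_orderOf
    · omega
    · omega
  generalize (x * y) ^ k = z at hzz hxz hyz hc hz1
  have hxzD : IsConj x₀ (x * z) := by
    rcases hc with h | h
    · exact hx.trans (isConj_iff.mpr ⟨c, h⟩)
    · exact hy.trans (isConj_iff.mpr ⟨c, h⟩)
  have hzD : IsConj x₀ z := by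
    have h1 : x ≠ x * z := by
      intro h
      apply hz1
      have : x * 1 = x * z := by rw [mul_one]; exact h
      exact (mul_left_cancel this).symm
    have h2 : Commute x (x * z) := by
      show x * (x * z) = x * z * x
      rw [mul_assoc, hxz]
    have := hb x (x * z) hx hxzD h1 h2
    rwa [← mul_assoc, hx1, one_mul] at this
  obtain ⟨-, hcl⟩ := ha z hzD
  have hxW : x ∈ Subgroup.closure {w : G | IsConj x₀ w ∧ Commute w z} :=
    Subgroup.subset_closure ⟨hx, hxz⟩
  have hyW : y ∈ Subgroup.closure {w : G | IsConj x₀ w ∧ Commute w z} :=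
    Subgroup.subset_closure ⟨hy, hyz⟩
  have hcomm : ⁅⁅x, y⁆, y⁆ = 1 := by
    have := Subgroup.commutator_mem_commutator (Subgroup.commutator_mem_commutator hxW hyW) hyW
    rw [hcl] at this
    exact Subgroup.mem_bot.mp this
  have h4 : (x * y) ^ 4 = 1 := by
    rw [commutatorElement_def, commutatorElement_def, hxi, hyi, mul_inv_rev, mul_inv_rev,
      mul_inv_rev, hxi, hyi] at hcomm
    rw [← hcomm]
    simp only [pow_succ, pow_zero, one_mul, mul_assoc]
    rw [← mul_assoc y y, hy1, one_mul]
  have hdvd : orderOf (x * y) ∣ 4 := orderOf_dvd_of_pow_eq_one h4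
  have hle : orderOf (x * y) ≤ 4 := Nat.le_of_dvd (by norm_num) hdvd
  interval_cases h : orderOf (x * y)
  · omega
  · rfl

end Cfsg.Agent.S1176
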