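import Cfsg.Statements.S1177
-- import your own Cfsg.Agent.* helpers here
import Mathlib

set_option autoImplicit false
open Cfsg

namespace Cfsg.Agent.S1177

/-- Let A be a nontrivial elementary abelian 2-subgroup of a finite group G which is a T.I. set (each conjugate of A meets A trivially or equals A) and which does not commute elementwise with any conjugate of A other than A itself. Then for every a ∈ A, a ≠ 1, every conjugate of A contained in C_G(a) is equal to A (A is weakly closed in C_G(a)). -/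
theorem result {G : Type*} [Group G] [Finite G] (A : Subgroup G) (hA : Cfsg.IsElementaryAbelian 2 A) (hA1 : A ≠ ⊥) (hTI : ∀ g : G, A.map (MulAut.conj g).toMonoidHom ⊓ A = ⊥ ∨ A.map (MulAut.conj g).toMonoidHom = A) (hb : ∀ g : G, (∀ a ∈ A, ∀ b ∈ A.map (MulAut.conj g).toMonoidHom, a * b = b * a) → A.map (MulAut.conj g).toMonoidHom = A) (a : G) (ha : a ∈ A) (ha1 : a ≠ 1) (g : G) (hg : A.map (MulAut.conj g).toMonoidHom ≤ Subgroup.centralizer ({a} : Set G)) : A.map (MulAut.conj g).toMonoidHom = A := by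
  by_contra hne
  have hBA : A.map (MulAut.conj g).toMonoidHom ⊓ A = ⊥ := (hTI g).resolve_right hne
  have hmemB : ∀ b : G, b ∈ A.map (MulAut.conj g).toMonoidHom ↔ ∃ α ∈ A, g * α * g⁻¹ = b := by
    intro b
    rw [Subgroup.mem_map]
    simp only [MulEquiv.coe_toMonoidHom, MulAut.conj_apply]
  have hcomm_a : ∀ b ∈ A.map (MulAut.conj g).toMonoidHom, a * b = b * a := by
    intro b hb
    exact Subgroup.mem_centralizer_iff.mp (hg hb) a rfl
  have hTIb : ∀ b ∈ A.map (MulAut.conj g).toMonoidHom, A.map (MulAut.conj b).toMonoidHom = A := by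
    intro b hb
    rcases hTI b with h | h
    · exfalso
      have : a ∈ A.map (MulAut.conj b).toMonoidHom ⊓ A := by
        refine ⟨⟨a, ha, ?_⟩, ha⟩
        simp only [MulEquiv.coe_toMonoidHom, MulAut.conj_apply]
        rw [← hcomm_a b hb, mul_assoc, mul_inv_cancel, mul_one]
      rw [h] at this
      exact ha1 (Subgroup.mem_bot.mp this)
    · exact h
  have hBN : ∀ b ∈ A.map (MulAut.conj g).toMonoidHom, ∀ x ∈ A, b * x * b⁻¹ ∈ A := by
    intro b hb x hx
    have : b * x * b⁻¹ ∈ A.map (MulAut.conj b).toMonoidHom := ⟨x, hx, rfl⟩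
    rwa [hTIb b hb] at this
  have h3 : ∀ x ∈ A, ∀ b ∈ A.map (MulAut.conj g).toMonoidHom, b ≠ 1 → x * b = b * x →
      ∀ b' ∈ A.map (MulAut.conj g).toMonoidHom, x * b' = b' * x := by
    intro x hx b hb hb1 hxb b' hb'
    obtain ⟨α, hα, rfl⟩ := (hmemB b).mp hb
    obtain ⟨β, hβ, rfl⟩ := (hmemB b').mp hb'
    have hα1 : α ≠ 1 := by
      rintro rfl
      apply hb1; group
    have hy : (g⁻¹ * x * g) * α * (g⁻¹ * x * g)⁻¹ = α := by
      calc (g⁻¹ * x * g) * α * (g⁻¹ * x * g)⁻¹ = g⁻¹ * (x * (g * α * g⁻¹)) * x⁻¹ * g := by group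
        _ = g⁻¹ * ((g * α * g⁻¹) * x) * x⁻¹ * g := by rw [hxb]
        _ = α := by group
    have hAy : A.map (MulAut.conj (g⁻¹ * x * g)).toMonoidHom = A := by
      rcases hTI (g⁻¹ * x * g) with h | h
      · exfalso
        have : α ∈ A.map (MulAut.conj (g⁻¹ * x * g)).toMonoidHom ⊓ A := by
          refine ⟨⟨α, hα, ?_⟩, hα⟩
          simp only [MulEquiv.coe_toMonoidHom, MulAut.conj_apply]
          exact hy
        rw [h] at this
        exact hα1 (Subgroup.mem_bot.mp this)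
      · exact h
    have h1 : (g⁻¹ * x * g) * β * (g⁻¹ * x * g)⁻¹ ∈ A := by
      have : (g⁻¹ * x * g) * β * (g⁻¹ * x * g)⁻¹ ∈
          A.map (MulAut.conj (g⁻¹ * x * g)).toMonoidHom := ⟨β, hβ, rfl⟩
      rwa [hAy] at this
    have h2 : x * (g * β * g⁻¹) * x⁻¹ ∈ A.map (MulAut.conj g).toMonoidHom := by
      rw [hmemB]
      refine ⟨_, h1, ?_⟩
      group
    have h4 : x * (g * β * g⁻¹) * x⁻¹ * (g * β * g⁻¹)⁻¹ ∈ A.map (MulAut.conj g).toMonoidHom :=
      mul_mem h2 (inv_mem hb')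
    have h5 : x * (g * β * g⁻¹) * x⁻¹ * (g * β * g⁻¹)⁻¹ ∈ A := by
      have h6 := hBN _ hb' x⁻¹ (inv_mem hx)
      have h7 : x * (g * β * g⁻¹) * x⁻¹ * (g * β * g⁻¹)⁻¹ =
          x * ((g * β * g⁻¹) * x⁻¹ * (g * β * g⁻¹)⁻¹) := by group
      rw [h7]; exact mul_mem hx h6
    have h8 : x * (g * β * g⁻¹) * x⁻¹ * (g * β * g⁻¹)⁻¹ = 1 := by
      have : x * (g * β * g⁻¹) * x⁻¹ * (g * β * g⁻¹)⁻¹ ∈
          A.map (MulAut.conj g).toMonoidHom ⊓ A := ⟨h4, h5⟩
      rw [hBA] at this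
      exact Subgroup.mem_bot.mp this
    calc x * (g * β * g⁻¹) = (x * (g * β * g⁻¹) * x⁻¹ * (g * β * g⁻¹)⁻¹) * ((g * β * g⁻¹) * x) := by
          group
      _ = (g * β * g⁻¹) * x := by rw [h8, one_mul]
  apply hne
  apply hb g
  by_contra hcon
  push Not at hcon
  obtain ⟨x, hx, b₀, hb₀, hxb₀⟩ := hcon
  have hx1 : x ≠ 1 := by
    rintro rfl
    apply hxb₀; simp
  have hfree : ∀ b ∈ A.map (MulAut.conj g).toMonoidHom, x * b = b * x → b = 1 := by
    intro b hb hxb
    by_contra hb1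
    exact hxb₀ (h3 x hx b hb hb1 hxb b₀ hb₀)
  have hcard : Nat.card (A.map (MulAut.conj g).toMonoidHom) = Nat.card A :=
    Subgroup.card_map_of_injective (MulAut.conj g).injective
  have hA : Nat.card A = Nat.card {y : A // y ≠ 1} + 1 := by
    classical
    rw [← Finite.card_option, Nat.card_congr (Equiv.optionSubtypeNe (1 : A))]
  have hle : Nat.card (A.map (MulAut.conj g).toMonoidHom) ≤ Nat.card {y : A // y ≠ 1} := by
    have hne1 : ∀ b : A.map (MulAut.conj g).toMonoidHom,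
        (⟨(b : G) * x * (b : G)⁻¹, hBN b b.2 x hx⟩ : A) ≠ 1 := by
      intro b h0
      have h1 : (b : G) * x * (b : G)⁻¹ = 1 := congrArg Subtype.val h0
      exact hx1 (conj_eq_one_iff.mp h1)
    apply Nat.card_le_card_of_injective
      (fun b : A.map (MulAut.conj g).toMonoidHom =>
        (⟨⟨(b : G) * x * (b : G)⁻¹, hBN b b.2 x hx⟩, hne1 b⟩ : {y : A // y ≠ 1}))
    intro b b' hbb'
    have h1 : (b : G) * x * (b : G)⁻¹ = (b' : G) * x * (b' : G)⁻¹ :=
      congrArg (fun y : {y : A // y ≠ 1} => ((y : A) : G)) hbb'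
    have h2 : x * ((b : G)⁻¹ * b') = ((b : G)⁻¹ * b') * x := by
      calc x * ((b : G)⁻¹ * b') = (b : G)⁻¹ * ((b : G) * x * (b : G)⁻¹) * b' := by group
        _ = (b : G)⁻¹ * ((b' : G) * x * (b' : G)⁻¹) * b' := by rw [h1]
        _ = ((b : G)⁻¹ * b') * x := by group
    have h4 := hfree _ (mul_mem (inv_mem b.2) b'.2) h2
    exact Subtype.ext (inv_mul_eq_one.mp h4)
  omega

end Cfsg.Agent.S1177
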