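import Cfsg.Statements.S1178
-- import your own Cfsg.Agent.* helpers here
import Mathlib

set_option autoImplicit false
open Cfsg

namespace Cfsg.Agent.S1178

theorem conj_map_le_of_le_smul {G : Type*} [Group G] (S Q : Sylow 2 G) (k : G) (hk : k • S = Q)
    (X : Subgroup G) (hX : X ≤ (Q : Subgroup G)) :
    X.map (MulAut.conj k⁻¹).toMonoidHom ≤ (S : Subgroup G) := by
  rintro _ ⟨x, hx, rfl⟩
  have h1 : x ∈ (Q : Subgroup G) := hX hx
  rw [← hk, Sylow.coe_subgroup_smul, Subgroup.mem_pointwise_smul_iff_inv_smul_mem] at h1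
  simpa [MulAut.smul_def] using h1

/-- Let A be a subgroup of a Sylow 2-subgroup S of the finite group G which is weakly closed in S. If a conjugate g A g⁻¹ commutes elementwise with A, then g A g⁻¹ = A. -/
theorem result {G : Type*} [Group G] [Finite G] (S : Sylow 2 G) (A : Subgroup G) (hW : Cfsg.IsWeaklyClosed A (S : Subgroup G)) (g : G) (hc : ∀ a ∈ A, ∀ b ∈ A.map (MulAut.conj g).toMonoidHom, a * b = b * a) : A.map (MulAut.conj g).toMonoidHom = A := by
  have : Fact (Nat.Prime 2) := ⟨Nat.prime_two⟩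
  obtain ⟨hAS, hW⟩ := hW
  have hA2 : IsPGroup 2 A := S.2.to_le hAS
  have hB2 : IsPGroup 2 (A.map (MulAut.conj g).toMonoidHom) := hA2.map _
  have hBN : A.map (MulAut.conj g).toMonoidHom ≤ Subgroup.normalizer (A : Set G) := by
    refine le_trans ?_ (Subgroup.centralizer_le_normalizer (A : Set G))
    intro b hb
    rw [Subgroup.mem_centralizer_iff]
    intro a ha
    exact hc a ha b hb
  have hsup : IsPGroup 2 (A ⊔ A.map (MulAut.conj g).toMonoidHom : Subgroup G) :=
    IsPGroup.to_sup_of_normal_left' hA2 hB2 hBN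
  obtain ⟨Q, hQ⟩ := hsup.exists_le_sylow
  obtain ⟨k, hk⟩ := MulAction.exists_smul_eq G S Q
  have h1 := conj_map_le_of_le_smul S Q k hk A (le_trans le_sup_left hQ)
  have h2 := conj_map_le_of_le_smul S Q k hk _ (le_trans le_sup_right hQ)
  have e1 := hW k⁻¹ h1
  have h3 : (A.map (MulAut.conj g).toMonoidHom).map (MulAut.conj k⁻¹).toMonoidHom =
      A.map (MulAut.conj (k⁻¹ * g)).toMonoidHom := by
    rw [Subgroup.map_map]
    congr 1
    ext x
    simp [mul_assoc]
  rw [h3] at h2
  have e2 := hW (k⁻¹ * g) h2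
  rw [← h3] at e2
  have e3 : (A.map (MulAut.conj g).toMonoidHom).map (MulAut.conj k⁻¹).toMonoidHom =
      A.map (MulAut.conj k⁻¹).toMonoidHom := e2.trans e1.symm
  exact Subgroup.map_injective (MulAut.conj k⁻¹).injective e3

end Cfsg.Agent.S1178
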