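import Cfsg.Statements.S1181
-- import your own Cfsg.Agent.* helpers here
import Mathlib
import Cfsg.Agent.Lib.helper6.Isolated

set_option autoImplicit false
open Cfsg

namespace Cfsg.Agent.S1181

open Cfsg.Agent.Lib.helper6

/-- Let z be an isolated involution of the finite group G and N a normal subgroup with z ∉ N. Then the centralizer of zN in G/N is the image of C_G(z), and zN is an isolated involution of G/N. -/
theorem result {G : Type*} [Group G] [Finite G] (z : G) (hz : Cfsg.IsIsolatedInvolution z) (N : Subgroup G) [N.Normal] (hzN : z ∉ N) : Subgroup.centralizer ({(QuotientGroup.mk z : G ⧸ N)} : Set (G ⧸ N)) = (Subgroup.centralizer ({z} : Set G)).map (QuotientGroup.mk' N) ∧ Cfsg.IsIsolatedInvolution (QuotientGroup.mk z : G ⧸ N) := by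
  have hz1 := iso_mul_self hz
  have hzi : z⁻¹ = z := inv_eq_self_of_mul_self hz1
  have hmkz : (QuotientGroup.mk z : G ⧸ N) * QuotientGroup.mk z = 1 := by
    rw [← QuotientGroup.mk_mul, hz1]; rfl
  have hmkz1 : (QuotientGroup.mk z : G ⧸ N) ≠ 1 := fun h => hzN ((QuotientGroup.eq_one_iff z).mp h)
  constructor
  · ext X
    constructor
    · intro hX
      obtain ⟨g, rfl⟩ := QuotientGroup.mk_surjective X
      have hX' : (QuotientGroup.mk z : G ⧸ N) * QuotientGroup.mk g = QuotientGroup.mk g * QuotientGroup.mk z :=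
        Subgroup.mem_centralizer_iff.mp hX _ rfl
      have hu1 := conj_mul_self hz1 g
      have hui : (g * z * g⁻¹)⁻¹ = g * z * g⁻¹ := inv_eq_self_of_mul_self hu1
      obtain ⟨m, -, hc⟩ := iso_exists_conj hz g
      -- (g z g⁻¹) z ∈ N
      have huzN : (g * z * g⁻¹) * z ∈ N := by
        rw [← QuotientGroup.eq_one_iff]
        have e : ((g * z * g⁻¹ * z : G) : G ⧸ N) =
            (QuotientGroup.mk g * QuotientGroup.mk z) * (QuotientGroup.mk g)⁻¹ * QuotientGroup.mk z := by
          simp only [QuotientGroup.mk_mul, QuotientGroup.mk_inv]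
        rw [e, ← hX']
        simp only [mul_assoc, mul_inv_cancel_left]
        exact hmkz
      have hjN : ((g * z * g⁻¹) * z) ^ (m + 1) ∈ N := N.pow_mem huzN _
      generalize ((g * z * g⁻¹) * z) ^ (m + 1) = j at hc hjN
      rw [Subgroup.mem_map]
      refine ⟨j⁻¹ * g, ?_, ?_⟩
      · rw [Subgroup.mem_centralizer_iff]
        intro x hx
        rw [Set.mem_singleton_iff] at hx
        subst hx
        calc x * (j⁻¹ * g) = j⁻¹ * (j * x * j⁻¹) * g := by group
          _ = j⁻¹ * (g * x * g⁻¹) * g := by rw [hc]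
          _ = j⁻¹ * g * x := by group
      · show ((j⁻¹ * g : G) : G ⧸ N) = (g : G ⧸ N)
        rw [QuotientGroup.mk_mul, (QuotientGroup.eq_one_iff j⁻¹).mpr (N.inv_mem hjN), one_mul]
    · intro hX
      rw [Subgroup.mem_map] at hX
      obtain ⟨c, hc, rfl⟩ := hX
      rw [Subgroup.mem_centralizer_iff]
      intro x hx
      rw [Set.mem_singleton_iff] at hx
      subst hx
      have := Subgroup.mem_centralizer_iff.mp hc z rfl
      show (QuotientGroup.mk z : G ⧸ N) * QuotientGroup.mk c = QuotientGroup.mk c * QuotientGroup.mk z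
      rw [← QuotientGroup.mk_mul, ← QuotientGroup.mk_mul, this]
  · refine ⟨orderOf_two_of_mul_self hmkz hmkz1, ?_⟩
    intro X hX
    obtain ⟨g, rfl⟩ := QuotientGroup.mk_surjective X
    obtain ⟨m, h1, -⟩ := iso_exists_conj hz g
    have e : (QuotientGroup.mk g : G ⧸ N) * QuotientGroup.mk z * (QuotientGroup.mk g)⁻¹
        = ((g * z * g⁻¹ : G) : G ⧸ N) := by
      simp only [QuotientGroup.mk_mul, QuotientGroup.mk_inv]
    rw [e] at hX ⊢
    have hu1 := conj_mul_self hz1 g
    generalize g * z * g⁻¹ = u at *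
    have hmku : (QuotientGroup.mk u : G ⧸ N) * QuotientGroup.mk u = 1 := by
      rw [← QuotientGroup.mk_mul, hu1]; rfl
    set y : G ⧸ N := QuotientGroup.mk z * QuotientGroup.mk u with hy
    have hy2 : y * y = 1 := by
      have := hX.eq
      calc y * y = QuotientGroup.mk z * (QuotientGroup.mk u * QuotientGroup.mk z) * QuotientGroup.mk u := by
            rw [hy]; simp only [mul_assoc]
        _ = QuotientGroup.mk z * (QuotientGroup.mk z * QuotientGroup.mk u) * QuotientGroup.mk u := by
            rw [this]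
        _ = (QuotientGroup.mk z * QuotientGroup.mk z) * (QuotientGroup.mk u * QuotientGroup.mk u) := by
            simp only [mul_assoc]
        _ = 1 := by rw [hmkz, hmku, one_mul]
    have hy3 : y ^ (2 * m + 1) = 1 := by
      rw [hy, ← QuotientGroup.mk_mul, ← QuotientGroup.mk_pow, h1]; rfl
    have hy1 : y = 1 := by
      rw [pow_succ, pow_mul, sq, hy2, one_pow, one_mul] at hy3
      exact hy3
    have : (QuotientGroup.mk u : G ⧸ N) = (QuotientGroup.mk z)⁻¹ := by
      rw [eq_comm, inv_eq_iff_mul_eq_one]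
      exact hy1
    rw [this, inv_eq_iff_mul_eq_one]
    exact hmkz

end Cfsg.Agent.S1181
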