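import Cfsg.Statements.S1182
-- import your own Cfsg.Agent.* helpers here
import Mathlib
import Cfsg.Agent.Lib.helper6.Isolated

set_option autoImplicit false
open Cfsg

namespace Cfsg.Agent.S1182

open Cfsg.Agent.Lib.helper6

/-- Let z be an isolated involution of the finite group G and H a subgroup normalized by z. If x, y ∈ H both commute with z and y = h x h⁻¹ for some h ∈ H, then y = c x c⁻¹ for some c ∈ H commuting with z. -/
theorem result {G : Type*} [Group G] [Finite G] (z : G) (hz : Cfsg.IsIsolatedInvolution z) (H : Subgroup G) (hzH : z ∈ Subgroup.normalizer (H : Set G)) (x y : G) (hx : x ∈ H) (hy : y ∈ H) (hxz : Commute x z) (hyz : Commute y z) (h : G) (hh : h ∈ H) (hconj : h * x * h⁻¹ = y) : ∃ c ∈ H, Commute c z ∧ c * x * c⁻¹ = y := by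
  have hz1 := iso_mul_self hz
  have hzi : z⁻¹ = z := inv_eq_self_of_mul_self hz1
  obtain ⟨m, -, hc⟩ := iso_exists_conj hz h
  have hwH : (h * z * h⁻¹) * z ∈ H := by
    have h1 : z * h⁻¹ * z⁻¹ ∈ H := (Subgroup.mem_normalizer_iff.mp hzH h⁻¹).mp (H.inv_mem hh)
    rw [hzi] at h1
    have : (h * z * h⁻¹) * z = h * (z * h⁻¹ * z) := by group
    rw [this]
    exact H.mul_mem hh h1
  have hyz' : Commute (h * z * h⁻¹) y := by
    rw [← hconj]
    exact (Commute.conj_iff h).mpr hxz.symm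
  have hwy : Commute ((h * z * h⁻¹) * z) y := hyz'.mul_left hyz.symm
  have hjy : Commute (((h * z * h⁻¹) * z) ^ (m + 1)) y := hwy.pow_left _
  obtain ⟨j, hjH, hjy, hc⟩ : ∃ j ∈ H, Commute j y ∧ j * z * j⁻¹ = h * z * h⁻¹ :=
    ⟨_, H.pow_mem hwH _, hjy, hc⟩
  refine ⟨j⁻¹ * h, H.mul_mem (H.inv_mem hjH) hh, ?_, ?_⟩
  · unfold Commute SemiconjBy
    calc (j⁻¹ * h) * z = j⁻¹ * (h * z * h⁻¹) * h := by group
      _ = j⁻¹ * (j * z * j⁻¹) * h := by rw [hc]
      _ = z * (j⁻¹ * h) := by group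
  · have e : j⁻¹ * h * x * (j⁻¹ * h)⁻¹ = j⁻¹ * (h * x * h⁻¹) * j := by group
    rw [e, hconj]
    have := hjy.eq
    rw [mul_assoc, ← this, ← mul_assoc, inv_mul_cancel, one_mul]

end Cfsg.Agent.S1182
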