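import Cfsg.Statements.S1183
import Mathlib
import Cfsg.Agent.Lib.helper16.ZStar4


set_option autoImplicit false
open Cfsg

namespace Cfsg.Agent.S1183

/-- Let z be an isolated involution of the finite group G and C = C_G(z). Then the subgroup of G generated by its elements of odd order is all of G if and only if the subgroup of C generated by its elements of odd order is all of C. -/
theorem result {G : Type*} [Group G] [Finite G] (z : G) (hz : Cfsg.IsIsolatedInvolution z) : Cfsg.pResidual 2 G = ⊤ ↔ Cfsg.pResidual 2 ↥(Subgroup.centralizer ({z} : Set G)) = ⊤ := by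
  classical
  have hOn : (Cfsg.pPrimeCore 2 G).Normal := inferInstance
  have hOc : (Nat.card (Cfsg.pPrimeCore 2 G)).Coprime 2 :=
    Cfsg.Agent.Lib.helper9.pPrimeCore_coprime 2 G
  have hOodd : ∀ a ∈ Cfsg.pPrimeCore 2 G, (orderOf a).Coprime 2 := by
    intro a ha
    exact Nat.Coprime.coprime_dvd_left (Subgroup.orderOf_dvd_natCard _ ha) hOc
  obtain ⟨C, hC⟩ : ∃ C, C = Subgroup.centralizer ({z} : Set G) := ⟨_, rfl⟩
  rw [← hC]
  have hfac : ∀ g : G, ∃ a ∈ Cfsg.pPrimeCore 2 G, ∃ c ∈ C, g = a * c := by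
    intro g
    rw [hC]; exact Cfsg.Agent.Lib.helper16.ZStar.iso_factor hz g
  have hmap : (Cfsg.pResidual 2 ↥C).map C.subtype ≤ Cfsg.pResidual 2 G := by
    rw [Subgroup.map_le_iff_le_comap]
    unfold Cfsg.pResidual
    rw [Subgroup.closure_le]
    intro x hx
    apply Subgroup.subset_closure
    show (orderOf (x : G)).Coprime 2
    rw [Subgroup.orderOf_coe]; exact hx
  constructor
  · intro h
    -- every odd-order element of `G` lies in `O ⊔ K`
    obtain ⟨K, hK⟩ : ∃ K, K = (Cfsg.pResidual 2 ↥C).map C.subtype := ⟨_, rfl⟩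
    have hoddK : ∀ c ∈ C, (orderOf c).Coprime 2 → c ∈ K := by
      intro c hc hco
      rw [hK]
      refine ⟨⟨c, hc⟩, ?_, rfl⟩
      apply Subgroup.subset_closure
      show (orderOf (⟨c, hc⟩ : C)).Coprime 2
      rw [Subgroup.orderOf_mk]; exact hco
    have hKC : K ≤ C := by rw [hK]; exact Subgroup.map_subtype_le _
    have hle : Cfsg.pResidual 2 G ≤ Cfsg.pPrimeCore 2 G ⊔ K := by
      unfold Cfsg.pResidual
      rw [Subgroup.closure_le]
      intro x hx
      obtain ⟨a, ha, c, hc, rfl⟩ := hfac x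
      have hxo : (orderOf (a * c)).Coprime 2 := hx
      refine Subgroup.mul_mem _ (Subgroup.mem_sup_left ha) (Subgroup.mem_sup_right ?_)
      apply hoddK c hc
      -- `c` has odd order
      have h1 : c ^ orderOf (a * c) ∈ Cfsg.pPrimeCore 2 G := by
        rw [← QuotientGroup.eq_one_iff]
        have e : (QuotientGroup.mk c : G ⧸ Cfsg.pPrimeCore 2 G) = QuotientGroup.mk (a * c) := by
          rw [QuotientGroup.eq]
          have : c⁻¹ * (a * c) = c⁻¹ * a * c⁻¹⁻¹ := by group
          rw [this]; exact hOn.conj_mem a ha c⁻¹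
        rw [QuotientGroup.mk_pow, e, ← QuotientGroup.mk_pow, pow_orderOf_eq_one]
        rfl
      have h2 := hOodd _ h1
      have h3 : c ^ (orderOf (a * c) * orderOf (c ^ orderOf (a * c))) = 1 := by
        rw [pow_mul, pow_orderOf_eq_one]
      exact Nat.Coprime.coprime_dvd_left (orderOf_dvd_of_pow_eq_one h3)
        (Nat.Coprime.mul_left hxo h2)
    rw [h] at hle
    rw [eq_top_iff]
    intro c _
    have hcK : (c : G) ∈ K := by
      have h1 : (c : G) ∈ ((Cfsg.pPrimeCore 2 G ⊔ K : Subgroup G) : Set G) := hle (Subgroup.mem_top _)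
      rw [Subgroup.normal_mul] at h1
      obtain ⟨a, ha, k, hk, hak⟩ := Set.mem_mul.mp h1
      have haC : a ∈ C := by
        have : a = (c : G) * k⁻¹ := by rw [← hak]; group
        rw [this]; exact C.mul_mem c.2 (C.inv_mem (hKC hk))
      rw [← hak]
      exact K.mul_mem (hoddK a haC (hOodd a ha)) hk
    rw [hK] at hcK
    obtain ⟨c', hc', hcc⟩ := hcK
    have : c' = c := Subtype.ext hcc
    rw [← this]; exact hc'
  · intro h
    rw [eq_top_iff]
    intro g _
    obtain ⟨a, ha, c, hc, rfl⟩ := hfac g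
    refine Subgroup.mul_mem _ ?_ ?_
    · apply Subgroup.subset_closure
      exact hOodd a ha
    · apply hmap
      refine ⟨⟨c, hc⟩, ?_, rfl⟩
      rw [h]; exact Subgroup.mem_top _

end Cfsg.Agent.S1183
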