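import Cfsg.Statements.S1187
import Mathlib
import Cfsg.Agent.Lib.helper16.ZStarIso
import Cfsg.Agent.Lib.helper14.SylIn
import Cfsg.Agent.Lib.helper8.CoprimeAction
import Cfsg.Agent.Lib.helper7.Sup


set_option autoImplicit false
open Cfsg

namespace Cfsg.Agent.S1187

/-- Let z be an isolated involution of the finite group G and p a prime. If Q is a p-subgroup normalized by z that is maximal among p-subgroups normalized by z, then Q is a Sylow p-subgroup of G. -/
theorem result {G : Type*} [Group G] [Finite G] (z : G) (hz : Cfsg.IsIsolatedInvolution z) {p : ℕ} [Fact p.Prime] (Q : Subgroup G) (hQ : IsPGroup p Q) (hzQ : z ∈ Subgroup.normalizer (Q : Set G)) (hmax : ∀ R : Subgroup G, IsPGroup p R → z ∈ Subgroup.normalizer (R : Set G) → Q ≤ R → R = Q) : ∃ P : Sylow p G, (P : Subgroup G) = Q := by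
  classical
  have h2 : Fact (Nat.Prime 2) := ⟨Nat.prime_two⟩
  have hzz : z * z = 1 := Cfsg.Agent.Lib.helper6.iso_mul_self hz
  have hzi : z⁻¹ = z := inv_eq_of_mul_eq_one_left hzz
  by_cases hp2 : p = 2
  · subst hp2
    -- `z ∈ Q`
    have hzQ' : z ∈ Q := by
      obtain ⟨R, hR⟩ : ∃ R, R = Q ⊔ Subgroup.zpowers z := ⟨_, rfl⟩
      have hzle : Subgroup.zpowers z ≤ Subgroup.normalizer (Q : Set G) := by
        rw [Subgroup.zpowers_le]; exact hzQ
      have hRp : IsPGroup 2 R := by
        have hd := Cfsg.Agent.Lib.helper7.card_sup_dvd_of_le_normalizer Q (Subgroup.zpowers z) hzle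
        obtain ⟨k, hk⟩ := IsPGroup.iff_card.mp hQ
        rw [hk, Nat.card_zpowers, hz.1] at hd
        have hd' : Nat.card R ∣ 2 ^ (k + 1) := by rw [hR, pow_succ]; exact hd
        obtain ⟨j, -, hj⟩ := (Nat.dvd_prime_pow Nat.prime_two).mp hd'
        exact IsPGroup.of_card hj
      have hzR : z ∈ Subgroup.normalizer (R : Set G) := by
        apply Subgroup.le_normalizer
        rw [hR]
        exact Subgroup.mem_sup_right (Subgroup.mem_zpowers z)
      have := hmax R hRp hzR (by rw [hR]; exact le_sup_left)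
      rw [← this, hR]
      exact Subgroup.mem_sup_right (Subgroup.mem_zpowers z)
    obtain ⟨S, hS⟩ := hQ.exists_le_sylow
    refine ⟨S, ?_⟩
    exact hmax S S.isPGroup' (Subgroup.le_normalizer (hS hzQ')) hS
  · -- odd `p`
    have hOn : (Cfsg.pPrimeCore 2 G).Normal := inferInstance
    have hOc : (Nat.card (Cfsg.pPrimeCore 2 G)).Coprime 2 :=
      Cfsg.Agent.Lib.helper9.pPrimeCore_coprime 2 G
    obtain ⟨PG, hQPG⟩ := hQ.exists_le_sylow
    have hpc : Nat.Coprime p 2 := (Nat.coprime_primes Fact.out Nat.prime_two).mpr hp2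
    have hPGc : (Nat.card (PG : Subgroup G)).Coprime 2 := by
      obtain ⟨n, hn⟩ := IsPGroup.iff_card.mp PG.isPGroup'
      rw [hn]; exact Nat.Coprime.pow_left n hpc
    obtain ⟨K, hK⟩ : ∃ K, K = (PG : Subgroup G) ⊔ Cfsg.pPrimeCore 2 G := ⟨_, rfl⟩
    have hKodd : (Nat.card K).Coprime 2 := by
      rw [hK]; exact Cfsg.Agent.Lib.helper9.card_sup_coprime hPGc hOc
    have hzK : Subgroup.zpowers z ≤ Subgroup.normalizer (K : Set G) := by
      have hfw : ∀ k ∈ K, z * k * z⁻¹ ∈ K := by
        intro k hk
        have e : z * k * z⁻¹ = (z * k * z⁻¹ * k⁻¹) * k := by group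
        rw [e]
        refine K.mul_mem ?_ hk
        rw [hK]
        exact Subgroup.mem_sup_right
          (Cfsg.Agent.Lib.helper16.ZStar.zstar_isolated hz k)
      rw [Subgroup.zpowers_le, Subgroup.mem_normalizer_iff]
      intro k
      refine ⟨hfw k, fun h => ?_⟩
      have := hfw _ h
      have e : z * (z * k * z⁻¹) * z⁻¹ = k := by
        rw [hzi]
        calc z * (z * k * z) * z = (z * z) * k * (z * z) := by group
          _ = k := by rw [hzz, one_mul, mul_one]
      rw [e] at this; exact this
    have hcop : (Nat.card (Subgroup.zpowers z)).Coprime (Nat.card K) := by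
      rw [Nat.card_zpowers, hz.1]; exact hKodd.symm
    have hQK : Q ≤ K := by rw [hK]; exact hQPG.trans le_sup_left
    have hzQ'' : Subgroup.zpowers z ≤ Subgroup.normalizer (Q : Set G) := by
      rw [Subgroup.zpowers_le]; exact hzQ
    obtain ⟨P, hQP, hzP⟩ := Cfsg.Agent.Lib.helper8.exists_invariant_sylow_ge
      (Subgroup.zpowers z) K hzK hcop
      (Or.inl (Cfsg.Agent.Lib.helper8.isSolvable_of_isMulCommutative _)) Q hQK hQ hzQ''
    have hPp : IsPGroup p ((P : Subgroup K).map K.subtype) := P.isPGroup'.map _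
    have hPQ := hmax _ hPp (hzP (Subgroup.mem_zpowers z)) hQP
    have hcard1 : Nat.card ((P : Subgroup K).map K.subtype) =
        p ^ (Nat.card K).factorization p := by
      rw [Subgroup.card_map_of_injective K.subtype_injective]
      exact P.card_eq_multiplicity
    have hle1 : Nat.card (PG : Subgroup G) ≤ p ^ (Nat.card K).factorization p :=
      Cfsg.Agent.Lib.helper14.card_le_of_isPGroup_le PG.isPGroup'
        (by rw [hK]; exact le_sup_left)
    have hle2 : Nat.card ((P : Subgroup K).map K.subtype) ≤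
        p ^ (Nat.card (⊤ : Subgroup G)).factorization p :=
      Cfsg.Agent.Lib.helper14.card_le_of_isPGroup_le hPp le_top
    rw [Subgroup.card_top] at hle2
    have hPGcard : Nat.card (PG : Subgroup G) = p ^ (Nat.card G).factorization p :=
      PG.card_eq_multiplicity
    have hQcard : Nat.card Q = p ^ (Nat.card G).factorization p := by
      rw [← hPQ]
      apply le_antisymm hle2
      rw [hcard1, ← hPGcard]; exact hle1
    exact ⟨Sylow.ofCard Q hQcard, Sylow.coe_ofCard Q hQcard⟩

end Cfsg.Agent.S1187
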