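import Cfsg.Statements.S1231
-- import your own Cfsg.Agent.* helpers here
import Cfsg.Agent.Lib.helper6.Rank

set_option autoImplicit false
open Cfsg

namespace Cfsg.Agent.S1231

open Cfsg.Agent.Lib.helper6 in
theorem aux {G : Type*} [Group G] [Finite G] {p : ℕ} [Fact p.Prime] (j : ℕ) (H : Subgroup G)
    (P : Sylow p ↥H) (hP : ¬ Cfsg.PRankLE p j ↥(P : Subgroup ↥H)) :
    (∀ X : Subgroup G, X ≤ (P : Subgroup ↥H).map H.subtype → ¬ Cfsg.PRankLE p j ↥X →
      Subgroup.normalizer (X : Set G) ≤ H) ↔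
    (∀ g : G, g ∉ H → Cfsg.PRankLE p j ↥(H ⊓ H.map (MulAut.conj g).toMonoidHom)) := by
  have hP' : HasERank p j ((P : Subgroup ↥H).map H.subtype) :=
    ((not_pRankLE_iff p j (P : Subgroup ↥H)).mp hP).map _ H.subtype_injective
  have key := rank_control j H P hP'
  constructor
  · intro hA g hg
    by_contra hcon
    exact key.mp (fun X hX hr => hA X hX ((not_pRankLE_iff p j X).mpr hr)) g hg
      ((not_pRankLE_iff _ _ _).mp hcon)
  · intro hB X hX hr
    exact key.mpr (fun g hg hrank => (not_pRankLE_iff _ _ _).mpr hrank (hB g hg)) X hX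
      ((not_pRankLE_iff _ _ _).mp hr)

/-- Let H be a subgroup of the finite group G, p a prime, k ≥ 1, and P a Sylow p-subgroup of H whose p-rank is at least k. Then N_G(X) ≤ H for every subgroup X of P of p-rank at least k if and only if H ∩ gHg⁻¹ has p-rank less than k for every g ∉ H. -/
theorem result {G : Type*} [Group G] [Finite G] {p : ℕ} [Fact p.Prime] (k : ℕ) (hk : 1 ≤ k) (H : Subgroup G) (P : Sylow p ↥H) (hP : ¬ Cfsg.PRankLE p (k - 1) ↥(P : Subgroup ↥H)) : (∀ X : Subgroup G, X ≤ (P : Subgroup ↥H).map H.subtype → ¬ Cfsg.PRankLE p (k - 1) ↥X → Subgroup.normalizer (X : Set G) ≤ H) ↔ (∀ g : G, g ∉ H → Cfsg.PRankLE p (k - 1) ↥(H ⊓ H.map (MulAut.conj g).toMonoidHom)) := by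
  exact aux (k - 1) H P hP

end Cfsg.Agent.S1231
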