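import Cfsg.Statements.S1236
-- import your own Cfsg.Agent.* helpers here
import Cfsg.Agent.Lib.helper6.DihK4

set_option autoImplicit false
open Cfsg

namespace Cfsg.Agent.S1236

/-- Let R be a finite group, t a central involution of R such that R ⧸ ⟨t⟩ is dihedral (of order ≥ 4) or quasi-dihedral, and A ≤ R an elementary abelian subgroup of order 8 containing t. Then C_R(A) = A. -/
theorem result {R : Type*} [Group R] [Finite R] (t : R) (ht : orderOf t = 2) (htz : t ∈ Subgroup.center R) [(Subgroup.zpowers t).Normal] (hq : (∃ m : ℕ, 2 ≤ m ∧ Nonempty (R ⧸ Subgroup.zpowers t ≃* DihedralGroup m)) ∨ Cfsg.IsQuasiDihedral (R ⧸ Subgroup.zpowers t)) (A : Subgroup R) (hA : Cfsg.IsElementaryAbelian 2 A) (hA8 : Nat.card A = 8) (htA : t ∈ A) : Subgroup.centralizer (A : Set R) = A := by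
  have hZA : Subgroup.zpowers t ≤ A := Subgroup.zpowers_le.mpr htA
  have hZc : Nat.card (Subgroup.zpowers t) = 2 := by rw [Nat.card_zpowers, ht]
  have hker : (QuotientGroup.mk' (Subgroup.zpowers t)).ker ≤ A := by rw [QuotientGroup.ker_mk']; exact hZA
  have hidx : (A.map (QuotientGroup.mk' (Subgroup.zpowers t))).index = A.index :=
    Subgroup.index_map_eq A (QuotientGroup.mk'_surjective (Subgroup.zpowers t)) hker
  have hcard : Nat.card (A.map (QuotientGroup.mk' (Subgroup.zpowers t))) = 4 := by
    have h1 := Subgroup.card_mul_index (A.map (QuotientGroup.mk' (Subgroup.zpowers t)))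
    have h2 := Subgroup.card_mul_index A
    have h3 := Subgroup.card_eq_card_quotient_mul_card_subgroup (Subgroup.zpowers t)
    rw [hidx] at h1
    rw [hA8] at h2
    rw [hZc] at h3
    have hpos : 0 < A.index := Nat.pos_of_ne_zero Subgroup.index_ne_zero_of_finite
    have h4 : Nat.card (A.map (QuotientGroup.mk' (Subgroup.zpowers t))) * A.index = 4 * A.index := by omega
    exact Nat.eq_of_mul_eq_mul_right hpos h4
  have hsq : ∀ s ∈ A.map (QuotientGroup.mk' (Subgroup.zpowers t)), s * s = 1 := by
    rintro s ⟨a, ha, rfl⟩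
    rw [← map_mul, ← pow_two, hA.2 a ha, map_one]
  have hK : IsKleinFour (A.map (QuotientGroup.mk' (Subgroup.zpowers t))) :=
    Cfsg.Agent.Lib.helper6.klein_of _ hcard hsq
  have key : ∀ gbar : R ⧸ (Subgroup.zpowers t), (∀ s ∈ A.map (QuotientGroup.mk' (Subgroup.zpowers t)), s * gbar = gbar * s) →
      gbar ∈ A.map (QuotientGroup.mk' (Subgroup.zpowers t)) := by
    intro gbar hg
    rcases hq with ⟨m, hm, ⟨e⟩⟩ | hqd
    · have hm0 : NeZero m := ⟨by omega⟩
      have hT' : IsKleinFour ((A.map (QuotientGroup.mk' (Subgroup.zpowers t))).map e.toMonoidHom) := by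
        apply Cfsg.Agent.Lib.helper6.klein_of
        · rw [Subgroup.card_map_of_injective e.injective]; exact hcard
        · rintro s ⟨s', hs', rfl⟩
          rw [← map_mul, hsq s' hs', map_one]
      have h1 := Cfsg.Agent.Lib.helper6.dih_klein_cent _ hT' (e gbar) (by
        rintro s ⟨s', hs', rfl⟩
        show e s' * e gbar = e gbar * e s'
        rw [← map_mul, ← map_mul, hg s' hs'])
      obtain ⟨s', hs', h2⟩ := h1
      have h3 : s' = gbar := e.injective h2
      rw [← h3]; exact hs'
    · obtain ⟨n, m, x, y, h, hc⟩ := Cfsg.Agent.Lib.helper6.qd_of hqd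
      have h1 := h.klein_cent _ hK
      have h2 : gbar ∈ Subgroup.centralizer
          ((A.map (QuotientGroup.mk' (Subgroup.zpowers t)) : Subgroup (R ⧸ (Subgroup.zpowers t))) : Set (R ⧸ (Subgroup.zpowers t))) := by
        rw [Subgroup.mem_centralizer_iff]; exact hg
      rw [h1] at h2; exact h2
  apply le_antisymm
  · intro g hg
    rw [Subgroup.mem_centralizer_iff] at hg
    have h1 : QuotientGroup.mk' (Subgroup.zpowers t) g ∈ A.map (QuotientGroup.mk' (Subgroup.zpowers t)) := by
      apply key
      rintro s ⟨a, ha, rfl⟩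
      rw [← map_mul, ← map_mul, hg a ha]
    obtain ⟨a, ha, h2⟩ := h1
    have h3 : a⁻¹ * g ∈ (Subgroup.zpowers t) := QuotientGroup.eq.mp h2
    have h4 : g = a * (a⁻¹ * g) := by group
    rw [h4]; exact A.mul_mem ha (hZA h3)
  · intro g hg
    rw [Subgroup.mem_centralizer_iff]
    intro a ha
    have h1 := hA.1.is_comm.comm ⟨a, ha⟩ ⟨g, hg⟩
    exact congrArg Subtype.val h1

end Cfsg.Agent.S1236
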