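import Cfsg.Statements.S1239
-- import your own Cfsg.Agent.* helpers here
import Cfsg.Agent.Lib.helper6.WR23

set_option autoImplicit false
open Cfsg

namespace Cfsg.Agent.S1239

/-- Let X be a finite group whose Sylow 2-subgroup S is quasi-dihedral or wreathed, and suppose some involution of S is isolated in X. Then the product of the largest normal odd-order subgroup O(X) with the centre of S is normal in X. -/
theorem result {X : Type*} [Group X] [Finite X] (S : Sylow 2 X) (hS : Cfsg.IsQuasiDihedral (S : Subgroup X) ∨ Cfsg.IsWreathed (S : Subgroup X)) (z : X) (hzS : z ∈ S) (hz : Cfsg.IsIsolatedInvolution z) : (Cfsg.oddCore X ⊔ (Subgroup.center (S : Subgroup X)).map (S : Subgroup X).subtype).Normal := by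
  haveI : Fact (Nat.Prime 2) := ⟨Nat.prime_two⟩
  rcases hS with hS | hS
  · obtain ⟨n, m, x₁, y₁, hq, hcard⟩ := Cfsg.Agent.Lib.helper6.qd_of hS
    exact Cfsg.Agent.Lib.helper6.core_center_normal S _ hq.center_eq
      (Cfsg.Agent.Lib.helper6.QD.iso_ctrl S hq z hzS hz)
  · obtain ⟨n, q, x₁, y₁, z₁, h, hcard⟩ := Cfsg.Agent.Lib.helper6.wr_of hS
    exact Cfsg.Agent.Lib.helper6.core_center_normal S _ h.center_eq
      (Cfsg.Agent.Lib.helper6.WR.s_iso_ctrl S h z hzS hz)

end Cfsg.Agent.S1239
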