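import Cfsg.Statements.S1242
-- import your own Cfsg.Agent.* helpers here
import Mathlib

set_option autoImplicit false
open Cfsg

namespace Cfsg.Agent.S1242

theorem normal_closure_of_conj {G : Type*} [Group G] (S : Set G)
    (h : ∀ s ∈ S, ∀ g : G, g * s * g⁻¹ ∈ S) : (Subgroup.closure S).Normal := by
  constructor
  intro n hn g
  induction hn using Subgroup.closure_induction with
  | mem x hx => exact Subgroup.subset_closure (h x hx g)
  | one => simp
  | mul x y _ _ hx hy =>
    have : g * (x * y) * g⁻¹ = (g * x * g⁻¹) * (g * y * g⁻¹) := by group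
    rw [this]; exact mul_mem hx hy
  | inv x _ hx =>
    have : g * x⁻¹ * g⁻¹ = (g * x * g⁻¹)⁻¹ := by group
    rw [this]; exact inv_mem hx

theorem pResidual_normal (p : ℕ) (G : Type*) [Group G] : (Cfsg.pResidual p G).Normal := by
  apply normal_closure_of_conj
  intro s hs g
  show Nat.Coprime (orderOf (g * s * g⁻¹)) p
  have : orderOf (g * s * g⁻¹) = orderOf s := (MulAut.conj g).orderOf_eq s
  rw [this]; exact hs

open scoped IsMulCommutative in
theorem main {G : Type*} [Group G] [Finite G] {p : ℕ} [Fact p.Prime] (H : Subgroup G) (hidx : Nat.Coprime p H.index) (hfus : ∀ g ∈ H, (∃ k : ℕ, orderOf g = p ^ k) → ∀ a : G, a * g * a⁻¹ ∈ H → ∃ h ∈ H, h * g * h⁻¹ = a * g * a⁻¹) : (Cfsg.pResidual p G ⊔ commutator G) ⊓ H = (Cfsg.pResidual p ↥H ⊔ commutator ↥H).map H.subtype := by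
  classical
  have hp : p.Prime := Fact.out
  set K' : Subgroup H := Cfsg.pResidual p ↥H ⊔ commutator ↥H with hK'
  have : (Cfsg.pResidual p ↥H).Normal := pResidual_normal p H
  have : K'.Normal := by rw [hK']; infer_instance
  have hcomm : IsMulCommutative (H ⧸ K') :=
    Subgroup.Normal.quotient_commutative_iff_commutator_le.mpr le_sup_right
  let ϕ : H →* H ⧸ K' := QuotientGroup.mk' K'
  have hϕ1 : ∀ h : H, ϕ h = 1 ↔ h ∈ K' := fun h => QuotientGroup.eq_one_iff h
  -- elements of p'-order of H are in K'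
  have hres : ∀ w : H, Nat.Coprime (orderOf w) p → w ∈ K' := fun w hw =>
    Subgroup.mem_sup_left (Subgroup.subset_closure hw)
  -- the quotient is a p-group
  have hpq : ∀ z : H ⧸ K', ∃ k : ℕ, z ^ (p ^ k) = 1 := by
    intro z
    obtain ⟨h, rfl⟩ := QuotientGroup.mk'_surjective K' z
    obtain ⟨a, m, hm, hord⟩ := Nat.exists_eq_pow_mul_and_not_dvd (orderOf_pos h).ne' p hp.ne_one
    refine ⟨a, ?_⟩
    rw [← map_pow]
    apply (hϕ1 _).mpr
    apply hres
    have h1 : orderOf (h ^ p ^ a) ∣ m := by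
      apply orderOf_dvd_of_pow_eq_one
      rw [← pow_mul, ← hord, pow_orderOf_eq_one]
    have h2 : Nat.Coprime m p := ((Nat.Prime.coprime_iff_not_dvd hp).2 hm).symm
    exact Nat.Coprime.coprime_dvd_left h1 h2
  have hkill : ∀ (z : H ⧸ K') (n : ℕ), Nat.Coprime n p → z ^ n = 1 → z = 1 := by
    intro z n hn hz
    obtain ⟨k, hk⟩ := hpq z
    have hc : Nat.Coprime n (p ^ k) := Nat.Coprime.pow_right k hn
    have := Nat.dvd_gcd (orderOf_dvd_of_pow_eq_one hz) (orderOf_dvd_of_pow_eq_one hk)
    rw [hc.gcd_eq_one] at this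
    exact orderOf_eq_one_iff.mp (Nat.dvd_one.mp this)
  let V : G →* H ⧸ K' := MonoidHom.transfer ϕ
  have hV1 : ∀ x ∈ Cfsg.pResidual p G ⊔ commutator G, V x = 1 := by
    intro x hx
    have hle : Cfsg.pResidual p G ⊔ commutator G ≤ V.ker := by
      apply sup_le
      · unfold Cfsg.pResidual
        rw [Subgroup.closure_le]
        intro g hg
        show g ∈ V.ker
        rw [MonoidHom.mem_ker]
        apply hkill (V g) (orderOf g) hg
        rw [← map_pow, pow_orderOf_eq_one, map_one]
      · exact Abelianization.commutator_subset_ker V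
    exact hle hx
  have hVy : ∀ y : H, (∃ k, orderOf (y : G) = p ^ k) → V (y : G) = (ϕ y) ^ H.index := by
    rintro y ⟨k, hk⟩
    have : Fintype (Quotient (MulAction.orbitRel (Subgroup.zpowers (y : G)) (G ⧸ H))) :=
      Fintype.ofFinite _
    show MonoidHom.transfer ϕ (y : G) = _
    rw [Subgroup.index_eq_sum_minimalPeriod H (y : G), ← Finset.prod_pow_eq_pow_sum,
      MonoidHom.transfer_eq_prod_quotient_orbitRel_zpowers_quot]
    apply Finset.prod_congr rfl
    intro q _
    set n := Function.minimalPeriod (fun x : G ⧸ H => (y : G) • x) q.out with hn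
    have hmem := QuotientGroup.out_conj_pow_minimalPeriod_mem H (y : G) q.out
    have hord : ∃ j, orderOf ((y : G) ^ n) = p ^ j := by
      have h1 : orderOf ((y : G) ^ n) ∣ orderOf (y : G) := orderOf_pow_dvd n
      rw [hk] at h1
      obtain ⟨j, _, hj⟩ := (Nat.dvd_prime_pow hp).1 h1
      exact ⟨j, hj⟩
    obtain ⟨h, hh, hconj⟩ := hfus ((y : G) ^ n) (H.pow_mem y.2 n) hord (q.out.out⁻¹)
      (by simpa using hmem)
    rw [← map_pow]
    have e : (⟨q.out.out⁻¹ * (y : G) ^ n * q.out.out, hmem⟩ : H) = ⟨h, hh⟩ * y ^ n * ⟨h, hh⟩⁻¹ := by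
      ext
      simp [hconj]
    rw [e, map_mul, map_mul, map_inv, mul_comm, inv_mul_cancel_left]
  apply le_antisymm
  · rintro x ⟨hx1, hxH⟩
    have hxH' : x ∈ H := hxH
    set xH : H := ⟨x, hxH'⟩ with hxHdef
    obtain ⟨a, m, hm, hord⟩ := Nat.exists_eq_pow_mul_and_not_dvd (orderOf_pos xH).ne' p hp.ne_one
    have hcop : Nat.Coprime (p ^ a) m := Nat.Coprime.pow_left a ((Nat.Prime.coprime_iff_not_dvd hp).2 hm)
    have hbez := Nat.gcd_eq_gcd_ab (p ^ a) m
    rw [hcop.gcd_eq_one] at hbez
    set α := Nat.gcdA (p ^ a) m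
    set β := Nat.gcdB (p ^ a) m
    set w : H := xH ^ ((p ^ a : ℕ) * α : ℤ) with hw
    set y : H := xH ^ ((m : ℕ) * β : ℤ) with hy
    have hwy : w * y = xH := by
      rw [hw, hy, ← zpow_add]
      have : ((p ^ a : ℕ) : ℤ) * α + (m : ℤ) * β = 1 := by rw [← hbez]; simp
      rw [this, zpow_one]
    have hwm : w ^ m = 1 := by
      rw [hw, ← zpow_natCast, ← zpow_mul]
      have : ((p ^ a : ℕ) : ℤ) * α * (m : ℤ) = ((orderOf xH : ℕ) : ℤ) * α := by
        rw [hord]; push_cast; ring
      rw [this, zpow_mul, zpow_natCast, pow_orderOf_eq_one, one_zpow]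
    have hypa : y ^ (p ^ a) = 1 := by
      rw [hy, ← zpow_natCast, ← zpow_mul]
      have : (m : ℤ) * β * ((p ^ a : ℕ) : ℤ) = ((orderOf xH : ℕ) : ℤ) * β := by
        rw [hord]; push_cast; ring
      rw [this, zpow_mul, zpow_natCast, pow_orderOf_eq_one, one_zpow]
    have hwcop : Nat.Coprime (orderOf w) p :=
      Nat.Coprime.coprime_dvd_left (orderOf_dvd_of_pow_eq_one hwm)
        ((Nat.Prime.coprime_iff_not_dvd hp).2 hm).symm
    have hwK : w ∈ K' := hres w hwcop
    obtain ⟨j, _, hj⟩ := (Nat.dvd_prime_pow hp).1 (orderOf_dvd_of_pow_eq_one hypa)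
    have hyG : orderOf (y : G) = p ^ j := by rw [Subgroup.orderOf_coe]; exact hj
    have hVx : V x = 1 := hV1 x hx1
    have hVw : V (w : G) = 1 := by
      apply hV1
      apply Subgroup.mem_sup_left
      apply Subgroup.subset_closure
      show Nat.Coprime (orderOf (w : G)) p
      rw [Subgroup.orderOf_coe]; exact hwcop
    have hx_eq : x = (w : G) * (y : G) := by
      have := congrArg (fun z : H => (z : G)) hwy
      simpa [hxHdef] using this.symm
    have hVyy : V (y : G) = 1 := by
      rw [hx_eq, map_mul, hVw, one_mul] at hVx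
      exact hVx
    rw [hVy y ⟨j, hyG⟩] at hVyy
    have hyK : y ∈ K' := (hϕ1 y).mp (hkill _ _ hidx.symm hVyy)
    refine ⟨xH, ?_, rfl⟩
    rw [← hwy]
    exact K'.mul_mem hwK hyK
  · rw [hK', Subgroup.map_sup]
    apply le_inf
    · apply sup_le_sup
      · unfold Cfsg.pResidual
        rw [Subgroup.map_le_iff_le_comap, Subgroup.closure_le]
        intro g hg
        show (g : G) ∈ Subgroup.closure _
        apply Subgroup.subset_closure
        show Nat.Coprime (orderOf (g : G)) p
        rw [Subgroup.orderOf_coe]; exact hg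
      · rw [Subgroup.map_subtype_commutator]
        exact Subgroup.commutator_mono le_top le_top
    · rw [← Subgroup.map_sup]
      exact Subgroup.map_subtype_le _

/-- Let G be a finite group, p a prime and H a subgroup of index prime to p such that any two elements of H of p-power order that are conjugate in G are conjugate in H. Then (O^p(G)·G') ∩ H = O^p(H)·H', where O^p denotes the subgroup generated by the elements of order prime to p. -/
theorem result {G : Type*} [Group G] [Finite G] {p : ℕ} [Fact p.Prime] (H : Subgroup G) (hidx : Nat.Coprime p H.index) (hfus : ∀ g ∈ H, (∃ k : ℕ, orderOf g = p ^ k) → ∀ a : G, a * g * a⁻¹ ∈ H → ∃ h ∈ H, h * g * h⁻¹ = a * g * a⁻¹) : (Cfsg.pResidual p G ⊔ commutator G) ⊓ H = (Cfsg.pResidual p ↥H ⊔ commutator ↥H).map H.subtype := by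
  exact main H hidx hfus

end Cfsg.Agent.S1242
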