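import Cfsg.Statements.S1243
import Cfsg.Agent.Lib.helper9.StrEmb

set_option autoImplicit false
open Cfsg

namespace Cfsg.Agent.S1243

open Subgroup Cfsg.Agent.Lib.helper9 in
theorem aux {G : Type*} [Group G] [Finite G] {p : ℕ} [Fact p.Prime] (T : Sylow p G) (W : Subgroup G)
    (hW : Cfsg.IsWeaklyClosed W (T : Subgroup G)) (d g : G)
    (hd : d ∈ Subgroup.centralizer (W : Set G))
    (hgd : g * d * g⁻¹ ∈ Subgroup.centralizer (W : Set G)) :
    ∃ h ∈ Subgroup.normalizer (W : Set G), h * d * h⁻¹ = g * d * g⁻¹ := by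
  obtain ⟨hWT, hwc⟩ := hW
  set e : G := g * d * g⁻¹ with he
  set C : Subgroup G := centralizer ({e} : Set G) with hC
  have hWp : IsPGroup p W := T.2.to_le hWT
  have hWC : W ≤ C := by
    intro w hw
    rw [hC, mem_centralizer_iff]
    intro x hx
    rw [Set.mem_singleton_iff] at hx
    subst hx
    exact (mem_centralizer_iff.mp hgd w hw).symm
  have hgWC : W.map (MulAut.conj g).toMonoidHom ≤ C := by
    rintro _ ⟨w, hw, rfl⟩
    rw [hC, mem_centralizer_iff]
    intro x hx
    rw [Set.mem_singleton_iff] at hx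
    subst hx
    have h1 : w * d = d * w := mem_centralizer_iff.mp hd w hw
    simp only [MulEquiv.coe_toMonoidHom, MulAut.conj_apply, he]
    calc g * d * g⁻¹ * (g * w * g⁻¹) = g * (d * w) * g⁻¹ := by group
      _ = g * (w * d) * g⁻¹ := by rw [h1]
      _ = g * w * g⁻¹ * (g * d * g⁻¹) := by group
  -- Sylow of C containing W
  obtain ⟨R, hR⟩ := (hWp.comap_subtype (K := C)).exists_le_sylow
  have hgWp : IsPGroup p (W.map (MulAut.conj g).toMonoidHom) := hWp.map _
  obtain ⟨c, hcC, hc⟩ := rel_sylow_conj R _ hgWC hgWp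
  obtain ⟨Q, hQ⟩ := (R.2.map C.subtype).exists_le_sylow
  obtain ⟨x, hx⟩ := MulAction.exists_smul_eq G Q T
  -- x Q x⁻¹ = T
  have key : ∀ y : G, (∀ w ∈ W, y * w * y⁻¹ ∈ (R : Subgroup C).map C.subtype) →
      x * y ∈ normalizer (W : Set G) := by
    intro y hy
    have h1 : W.map (MulAut.conj (x * y)).toMonoidHom ≤ T := by
      rintro _ ⟨w, hw, rfl⟩
      have h2 := sylow_smul_mem' x Q T hx _ (hQ (hy w hw))
      simp only [MulEquiv.coe_toMonoidHom, MulAut.conj_apply]
      have : x * y * w * (x * y)⁻¹ = x * (y * w * y⁻¹) * x⁻¹ := by group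
      rw [this]; exact h2
    exact Subgroup.mem_normalizer_iff_map_conj_eq.mpr (hwc _ h1)
  have h1 : x * 1 ∈ normalizer (W : Set G) := by
    apply key
    intro w hw
    refine ⟨⟨w, hWC hw⟩, hR ?_, by simp⟩
    exact hw
  have h2 : x * (c * g) ∈ normalizer (W : Set G) := by
    apply key
    intro w hw
    have := hc (g * w * g⁻¹) ⟨w, hw, rfl⟩
    have e2 : c * g * w * (c * g)⁻¹ = c * (g * w * g⁻¹) * c⁻¹ := by group
    rw [e2]; exact this
  rw [mul_one] at h1
  have h3 : c * g ∈ normalizer (W : Set G) := by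
    have := mul_mem (inv_mem h1) h2
    simpa using this
  refine ⟨c * g, h3, ?_⟩
  have hce : c * e = e * c := by
    rw [hC, mem_centralizer_iff] at hcC
    exact (hcC e rfl).symm
  calc c * g * d * (c * g)⁻¹ = c * e * c⁻¹ := by rw [he]; group
    _ = e := by rw [hce]; group

/-- Let T be a Sylow p-subgroup of the finite group G and W ≤ T a subgroup weakly closed in T. If d and g d g⁻¹ both centralize W, then g d g⁻¹ = h d h⁻¹ for some h ∈ N_G(W). -/
theorem result {G : Type*} [Group G] [Finite G] {p : ℕ} [Fact p.Prime] (T : Sylow p G) (W : Subgroup G) (hW : Cfsg.IsWeaklyClosed W (T : Subgroup G)) (d g : G) (hd : d ∈ Subgroup.centralizer (W : Set G)) (hgd : g * d * g⁻¹ ∈ Subgroup.centralizer (W : Set G)) : ∃ h ∈ Subgroup.normalizer (W : Set G), h * d * h⁻¹ = g * d * g⁻¹ := by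
  exact aux T W hW d g hd hgd

end Cfsg.Agent.S1243
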