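import Cfsg.Statements.S1244
import Cfsg.Agent.Lib.helper7.TypeP

set_option autoImplicit false
open Cfsg

namespace Cfsg.Agent.S1244

open Subgroup Cfsg.Agent.Lib.helper7 Cfsg.Agent.Lib.helper8 in
open scoped IsMulCommutative in
theorem aux {G : Type*} [Group G] [Finite G] (hG : ∀ H : Subgroup G, H.index ≠ 2) (S : Sylow 2 G)
    (hS : IsMulCommutative (S : Subgroup G)) (r : ℕ) (hr1 : 1 ≤ r)
    (hSr : Cfsg.PRankLE 2 r (S : Subgroup G) ∧ ¬ Cfsg.PRankLE 2 (r - 1) (S : Subgroup G))
    (R : Subgroup G) (hRS : R ≤ S)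
    (hRr : Cfsg.PRankLE 2 (r - 1) R ∧ (r = 1 ∨ ¬ Cfsg.PRankLE 2 (r - 2) R)) (t : G)
    (ht : orderOf t = 2) (htS : t ∈ S) :
    ∃ n ∈ Subgroup.normalizer ((S : Subgroup G) : Set G), n * t * n⁻¹ ∈ R := by
  by_contra hcon
  simp only [not_exists, not_and] at hcon
  haveI : Fact (Nat.Prime 2) := ⟨Nat.prime_two⟩
  haveI := hS
  have hcommS : ∀ a ∈ (S : Subgroup G), ∀ b ∈ (S : Subgroup G), a * b = b * a :=
    fun a ha b hb => congrArg Subtype.val (mul_comm' (⟨a, ha⟩ : (S : Subgroup G)) ⟨b, hb⟩)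
  let V : Subgroup G :=
    { carrier := {s | s ∈ (S : Subgroup G) ∧ s ^ 2 = 1}
      one_mem' := ⟨one_mem _, one_pow 2⟩
      mul_mem' := by
        rintro a b ⟨ha, ha2⟩ ⟨hb, hb2⟩
        exact ⟨mul_mem ha hb, by
          rw [(show Commute a b from hcommS a ha b hb).mul_pow, ha2, hb2, one_mul]⟩
      inv_mem' := by
        rintro a ⟨ha, ha2⟩
        exact ⟨inv_mem ha, by rw [inv_pow, ha2, inv_one]⟩ }
  have hVmem : ∀ s, s ∈ V ↔ s ∈ (S : Subgroup G) ∧ s ^ 2 = 1 := fun s => Iff.rfl
  have hVS : V ≤ S := fun s hs => hs.1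
  set U : Subgroup G := V ⊓ R with hUdef
  have hUV : U ≤ V := inf_le_left
  have hUR : U ≤ R := inf_le_right
  have hVp : IsPGroup 2 V := S.2.to_le hVS
  have hUp : IsPGroup 2 U := hVp.to_le hUV
  -- cardinalities
  have hVcard : Nat.card V = 2 ^ r := by
    obtain ⟨k, hk⟩ := IsPGroup.iff_card.mp hVp
    have hup : Nat.card V ≤ 2 ^ r := by
      have h1 := hSr.1 (V.subgroupOf S)
        ⟨⟨fun a b => Subtype.ext (mul_comm' (a : (S : Subgroup G)) b)⟩⟩
        (fun a ha => by
          apply Subtype.ext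
          have : ((a : (S : Subgroup G)) : G) ^ 2 = 1 := (mem_subgroupOf.mp ha).2
          simpa using this)
      rwa [card_subgroupOf_of_le hVS] at h1
    have hlo : 2 ^ (r - 1) < Nat.card V := by
      have h2 := hSr.2
      simp only [Cfsg.PRankLE, not_forall] at h2
      obtain ⟨A, hAc, hA2, hAcard⟩ := h2
      have hle : A.map (S : Subgroup G).subtype ≤ V := by
        rintro _ ⟨a, ha, rfl⟩
        refine ⟨a.2, ?_⟩
        have := congrArg Subtype.val (hA2 a ha)
        simpa using this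
      have h3 : Nat.card A ≤ Nat.card V := by
        rw [← Subgroup.card_map_of_injective (Subgroup.subtype_injective (S : Subgroup G))]
        exact Nat.le_of_dvd Nat.card_pos (Subgroup.card_dvd_of_le hle)
      omega
    rw [hk] at hup hlo ⊢
    have h4 : k ≤ r := (Nat.pow_le_pow_iff_right (by norm_num)).mp hup
    have h5 : r - 1 < k := (Nat.pow_lt_pow_iff_right (by norm_num)).mp hlo
    have : k = r := by omega
    rw [this]
  have hUcard : Nat.card U = 2 ^ (r - 1) := by
    obtain ⟨k, hk⟩ := IsPGroup.iff_card.mp hUp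
    have hup : Nat.card U ≤ 2 ^ (r - 1) := by
      have h1 := hRr.1 (U.subgroupOf R)
        ⟨⟨fun a b => Subtype.ext (Subtype.ext (hcommS a (hRS a.1.2) b (hRS b.1.2)))⟩⟩
        (fun a ha => by
          apply Subtype.ext
          have : ((a : R) : G) ^ 2 = 1 := ((mem_subgroupOf.mp ha).1).2
          simpa using this)
      rwa [card_subgroupOf_of_le hUR] at h1
    rw [hk] at hup ⊢
    have h4 : k ≤ r - 1 := (Nat.pow_le_pow_iff_right (by norm_num)).mp hup
    rcases hRr.2 with h | h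
    · have : k = r - 1 := by omega
      rw [this]
    · simp only [Cfsg.PRankLE, not_forall] at h
      obtain ⟨A, hAc, hA2, hAcard⟩ := h
      have hle : A.map R.subtype ≤ U := by
        rintro _ ⟨a, ha, rfl⟩
        refine Subgroup.mem_inf.mpr ⟨⟨hRS a.2, ?_⟩, a.2⟩
        have := congrArg Subtype.val (hA2 a ha)
        simpa using this
      have h3 : Nat.card A ≤ Nat.card U := by
        rw [← Subgroup.card_map_of_injective (Subgroup.subtype_injective R)]
        exact Nat.le_of_dvd Nat.card_pos (Subgroup.card_dvd_of_le hle)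
      have hlo : 2 ^ (r - 2) < 2 ^ k := by rw [← hk]; omega
      have h5 : r - 2 < k := (Nat.pow_lt_pow_iff_right (by norm_num)).mp hlo
      have : k = r - 1 := by omega
      rw [this]
  have hidx : (U.subgroupOf V).index = 2 := by
    have h1 : Nat.card U * U.relIndex V = Nat.card V := card_mul_relIndex_of_le hUV
    rw [hUcard, hVcard] at h1
    have h2 : 2 ^ r = 2 ^ (r - 1) * 2 := by
      rw [← pow_succ]; congr 1; omega
    rw [h2] at h1
    exact Nat.eq_of_mul_eq_mul_left (by positivity) h1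
  have hVU : ∀ y z : G, y ∈ V → y ∉ U → z ∈ V → z ∉ U → y⁻¹ * z ∈ U := by
    intro y z hy hyU hz hzU
    have h1 := Subgroup.mul_mem_iff_of_index_two hidx (a := (⟨y, hy⟩ : V)⁻¹) (b := ⟨z, hz⟩)
    have h2 : (⟨y, hy⟩ : V)⁻¹ ∉ U.subgroupOf V := by
      rw [Subgroup.inv_mem_iff, mem_subgroupOf]; exact hyU
    have h3 : (⟨z, hz⟩ : V) ∉ U.subgroupOf V := by
      rw [mem_subgroupOf]; exact hzU
    have h4 := h1.mpr (by simp [h2, h3])
    rw [mem_subgroupOf] at h4
    simpa using h4
  -- the quotient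
  set U' : Subgroup (S : Subgroup G) := U.subgroupOf S with hU'
  haveI hU'n : U'.Normal := ⟨fun n hn g => by
    have : g * n * g⁻¹ = n := by rw [mul_comm' g n, mul_inv_cancel_right]
    rw [this]; exact hn⟩
  haveI : IsMulCommutative ((S : Subgroup G) ⧸ U') := ⟨⟨fun a b => by
    obtain ⟨a, rfl⟩ := QuotientGroup.mk_surjective a
    obtain ⟨b, rfl⟩ := QuotientGroup.mk_surjective b
    rw [← QuotientGroup.mk_mul, ← QuotientGroup.mk_mul, mul_comm' a b]⟩⟩
  let ϕ : (S : Subgroup G) →* (S : Subgroup G) ⧸ U' := QuotientGroup.mk' U'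
  have hϕ1 : ∀ y : (S : Subgroup G), ϕ y = 1 ↔ (y : G) ∈ U := by
    intro y
    show (QuotientGroup.mk' U') y = 1 ↔ _
    rw [QuotientGroup.mk'_apply, QuotientGroup.eq_one_iff, hU', Subgroup.mem_subgroupOf]
  have ht2 : t ^ 2 = 1 := by rw [← ht]; exact pow_orderOf_eq_one t
  have htV : t ∈ V := ⟨htS, ht2⟩
  have htR : t ∉ R := by
    have := hcon 1 (one_mem _)
    simpa using this
  have htU : t ∉ U := fun h => htR (hUR h)
  set a := ϕ ⟨t, htS⟩ with ha
  have ha1 : a ≠ 1 := by
    rw [ha, Ne, hϕ1]; exact htU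
  have ha2 : a ^ 2 = 1 := by
    rw [ha, ← map_pow]
    have : (⟨t, htS⟩ : (S : Subgroup G)) ^ 2 = 1 := Subtype.ext (by simpa using ht2)
    rw [this, map_one]
  have hterm : ∀ (x : G) (m : ℕ) (hm : x⁻¹ * t ^ m * x ∈ (S : Subgroup G)), m = 1 ∨ m = 2 →
      ϕ ⟨x⁻¹ * t ^ m * x, hm⟩ = a ^ m := by
    intro x m hm hm12
    rcases hm12 with rfl | rfl
    · have h1 : a ^ 1 = a := pow_one a
      rw [h1, ha]
      have hm' : x⁻¹ * t * x ∈ (S : Subgroup G) := by simpa using hm
      obtain ⟨n, hn, hn2⟩ := S.conj_eq_normalizer_conj_of_mem t x htS hm'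
      have h2 : x⁻¹ * t * x ∉ R := by
        rw [hn2]
        have := hcon n⁻¹ (inv_mem hn)
        simpa using this
      have h3 : x⁻¹ * t * x ∈ V := ⟨hm', by
        have : (x⁻¹ * t * x) ^ 2 = x⁻¹ * t ^ 2 * x := by rw [pow_two, pow_two]; group
        rw [this, ht2]; group⟩
      have h4 := hVU _ _ h3 (fun h => h2 (hUR h)) htV htU
      show (QuotientGroup.mk' U') _ = (QuotientGroup.mk' U') _
      rw [QuotientGroup.mk'_apply, QuotientGroup.mk'_apply, QuotientGroup.eq, hU',
        Subgroup.mem_subgroupOf]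
      simpa using h4
    · rw [ha2]
      rw [hϕ1]
      simp [ht2]
  haveI : Fintype (Quotient (MulAction.orbitRel (Subgroup.zpowers t) (G ⧸ (S : Subgroup G)))) :=
    Fintype.ofFinite _
  have hT := MonoidHom.transfer_eq_prod_quotient_orbitRel_zpowers_quot ϕ t
  have hmp : ∀ q : G ⧸ (S : Subgroup G), Function.minimalPeriod (t • ·) q = 1 ∨
      Function.minimalPeriod (t • ·) q = 2 := by
    intro q
    have hper : Function.IsPeriodicPt (t • ·) 2 q := by
      show (t • ·)^[2] q = q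
      rw [smul_iterate, ht2]; simp
    exact (Nat.dvd_prime Nat.prime_two).mp hper.minimalPeriod_dvd
  have hT2 : MonoidHom.transfer ϕ t = a ^ (S : Subgroup G).index := by
    rw [hT, Subgroup.index_eq_sum_minimalPeriod (S : Subgroup G) t, ← Finset.prod_pow_eq_pow_sum]
    apply Finset.prod_congr rfl
    intro q _
    exact hterm _ _ _ (hmp _)
  have hodd : Odd (S : Subgroup G).index := Nat.odd_iff.mpr (Nat.two_dvd_ne_zero.mp S.not_dvd_index)
  obtain ⟨k, hk⟩ := hodd
  have hT3 : MonoidHom.transfer ϕ t = a := by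
    rw [hT2, hk, pow_succ, pow_mul, ha2, one_pow, one_mul]
  -- the range is a nontrivial 2-group
  set T := MonoidHom.transfer ϕ with hTdef
  have hXp : IsPGroup 2 T.range := (S.2.to_quotient U').to_subgroup _
  obtain ⟨j, hj⟩ := IsPGroup.iff_card.mp hXp
  have hj1 : 1 ≤ j := by
    by_contra hj0
    have hj0' : j = 0 := by omega
    rw [hj0', pow_zero] at hj
    have hsub : Subsingleton T.range := (Nat.card_eq_one_iff_unique.mp hj).1
    have h1 : (⟨a, ⟨t, hT3⟩⟩ : T.range) = 1 := Subsingleton.elim _ _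
    exact ha1 (congrArg Subtype.val h1)
  obtain ⟨K, hK⟩ := Sylow.exists_subgroup_card_pow_prime (G := T.range) 2 (n := j - 1)
    (by rw [hj]; exact pow_dvd_pow 2 (by omega))
  have hKidx : K.index = 2 := by
    have h1 := K.card_mul_index
    rw [hK, hj] at h1
    have h2 : 2 ^ j = 2 ^ (j - 1) * 2 := by
      rw [← pow_succ]; congr 1; omega
    rw [h2] at h1
    exact Nat.eq_of_mul_eq_mul_left (by positivity) h1
  have h3 : (K.comap T.rangeRestrict).index = 2 := by
    rw [Subgroup.index_comap_of_surjective K T.rangeRestrict_surjective]; exact hKidx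
  exact hG _ h3

/-- Let G be a finite group with no subgroup of index 2 whose Sylow 2-subgroup S is commutative, and let R ≤ S be a subgroup whose 2-rank is exactly one less than the 2-rank r of S. Then every involution of S is conjugate, by an element of N_G(S), to an element of R. -/
theorem result {G : Type*} [Group G] [Finite G] (hG : ∀ H : Subgroup G, H.index ≠ 2) (S : Sylow 2 G) (hS : IsMulCommutative (S : Subgroup G)) (r : ℕ) (hr1 : 1 ≤ r) (hSr : Cfsg.PRankLE 2 r (S : Subgroup G) ∧ ¬ Cfsg.PRankLE 2 (r - 1) (S : Subgroup G)) (R : Subgroup G) (hRS : R ≤ S) (hRr : Cfsg.PRankLE 2 (r - 1) R ∧ (r = 1 ∨ ¬ Cfsg.PRankLE 2 (r - 2) R)) (t : G) (ht : orderOf t = 2) (htS : t ∈ S) : ∃ n ∈ Subgroup.normalizer ((S : Subgroup G) : Set G), n * t * n⁻¹ ∈ R := by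
  exact aux hG S hS r hr1 hSr R hRS hRr t ht htS

end Cfsg.Agent.S1244
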