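import Cfsg.Statements.S1248
import Cfsg.Agent.Lib.helper25.U3Syl2

set_option autoImplicit false
open Cfsg

namespace Cfsg.Agent.S1248

/-- Let F be a field with 16 elements and S a Sylow 2-subgroup of PSU(3) over F (the unitary group U₃(4)). Then |S| = 64; the centre Z(S) is a Klein four-group and coincides with the subgroup generated by the involutions of S and with the derived subgroup; and every element of S ⧸ Z(S) squares to the identity, S ⧸ Z(S) having order 16. -/
theorem result {F : Type*} [Field F] [Fintype F] (hF : Fintype.card F = 16) (S : Sylow 2 (Cfsg.PSU 3 F 4)) : Nat.card S = 64 ∧ IsKleinFour (Subgroup.center (S : Subgroup (Cfsg.PSU 3 F 4))) ∧ Subgroup.center (S : Subgroup (Cfsg.PSU 3 F 4)) = Subgroup.closure {x : (S : Subgroup (Cfsg.PSU 3 F 4)) | orderOf x = 2} ∧ Subgroup.center (S : Subgroup (Cfsg.PSU 3 F 4)) = commutator (S : Subgroup (Cfsg.PSU 3 F 4)) ∧ Nat.card ((S : Subgroup (Cfsg.PSU 3 F 4)) ⧸ Subgroup.center (S : Subgroup (Cfsg.PSU 3 F 4))) = 16 ∧ ∀ x : (S : Subgroup (Cfsg.PSU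 3 F 4)) ⧸ Subgroup.center (S : Subgroup (Cfsg.PSU 3 F 4)), x ^ 2 = 1 := by
  have hF' : Fintype.card F = 2 ^ 4 := by rw [hF]; norm_num
  have hK : Fintype.card F = 4 ^ 2 := by rw [hF]; norm_num
  haveI : CharP F 2 := Cfsg.Agent.Lib.helper25.U3Syl.charP_two_of_card 4 hF'
  obtain ⟨C⟩ := Cfsg.Agent.Lib.helper25.U3Syl.exists_coord hK S
  haveI := C.finite
  have hcard : Nat.card (S : Subgroup (Cfsg.PSU 3 F 4)) = 64 := by
    rw [C.card hK]; norm_num
  have hcz : Nat.card (Subgroup.center (S : Subgroup (Cfsg.PSU 3 F 4))) = 4 := C.card_center hK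
  have hsq : ∀ z : (S : Subgroup (Cfsg.PSU 3 F 4)),
      z ∈ Subgroup.center (S : Subgroup (Cfsg.PSU 3 F 4)) → z ^ 2 = 1 := by
    intro z hz
    rw [pow_two, C.mul_self_eq_one_iff hK]
    exact (C.mem_center_iff hK z).1 hz
  refine ⟨hcard, ⟨hcz, ?_⟩, ?_, (C.commutator_eq_center hK).symm, ?_, ?_⟩
  · have h1 : Monoid.exponent (Subgroup.center (S : Subgroup (Cfsg.PSU 3 F 4))) ∣ 2 := by
      apply Monoid.exponent_dvd_of_forall_pow_eq_one
      intro z
      apply Subtype.ext
      exact hsq z.1 z.2
    have h2 : Monoid.exponent (Subgroup.center (S : Subgroup (Cfsg.PSU 3 F 4))) ≠ 1 := by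
      intro h
      rw [Monoid.exp_eq_one_iff] at h
      have := Nat.card_of_subsingleton (1 : Subgroup.center (S : Subgroup (Cfsg.PSU 3 F 4)))
      omega
    rcases (Nat.dvd_prime Nat.prime_two).1 h1 with h | h
    · exact absurd h h2
    · exact h
  · apply le_antisymm
    · intro z hz
      by_cases hz1 : z = 1
      · rw [hz1]; exact Subgroup.one_mem _
      · apply Subgroup.subset_closure
        exact orderOf_eq_prime (hsq z hz) hz1
    · rw [Subgroup.closure_le]
      intro x hx
      have hx' : orderOf x = 2 := hx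
      have h1 : x ^ 2 = 1 := by
        have := pow_orderOf_eq_one x
        rwa [hx'] at this
      rw [pow_two, C.mul_self_eq_one_iff hK] at h1
      exact (C.mem_center_iff hK x).2 h1
  · have h := Subgroup.card_eq_card_quotient_mul_card_subgroup
      (Subgroup.center (S : Subgroup (Cfsg.PSU 3 F 4)))
    rw [hcard, hcz] at h
    omega
  · intro x
    induction x using QuotientGroup.induction_on with
    | H s =>
      rw [← QuotientGroup.mk_pow, QuotientGroup.eq_one_iff, pow_two]
      exact C.sq_mem_center hK s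

end Cfsg.Agent.S1248
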