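import Cfsg.Statements.S1253
import Mathlib
import Cfsg.Agent.Lib.helper16.ZStar5


set_option autoImplicit false
open Cfsg

namespace Cfsg.Agent.S1253

/-- Let z be an isolated involution of the finite group G with centralizer C, p an odd prime and P a Sylow p-subgroup of G normalized by z. Then P ∩ C has p-power-free index in C (it is a Sylow p-subgroup of C), and |P : C_P(z)| equals the number of elements x ∈ P with z x z⁻¹ = x⁻¹. -/
theorem result {G : Type*} [Group G] [Finite G] (z : G) (hz : Cfsg.IsIsolatedInvolution z) {p : ℕ} [Fact p.Prime] (hp : p ≠ 2) (P : Sylow p G) (hzP : z ∈ Subgroup.normalizer ((P : Subgroup G) : Set G)) : ¬ p ∣ ((P : Subgroup G) ⊓ Subgroup.centralizer ({z} : Set G)).relIndex (Subgroup.centralizer ({z} : Set G)) ∧ ((P : Subgroup G) ⊓ Subgroup.centralizer ({z} : Set G)).relIndex (P : Subgroup G) = Nat.card {x : G // x ∈ P ∧ z * x * z⁻¹ = x⁻¹} := by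
  classical
  have hzz : z * z = 1 := Cfsg.Agent.Lib.helper6.iso_mul_self hz
  have hzi : z⁻¹ = z := inv_eq_of_mul_eq_one_left hzz
  obtain ⟨C, hC⟩ : ∃ C, C = Subgroup.centralizer ({z} : Set G) := ⟨_, rfl⟩
  rw [← hC]
  have hmemC : ∀ x : G, x ∈ C ↔ z * x = x * z := by
    intro x
    rw [hC, Subgroup.mem_centralizer_iff]
    constructor
    · intro h; exact h z rfl
    · intro h y hy; rw [Set.mem_singleton_iff.mp hy]; exact h
  constructor
  · -- `P ∩ C` is a Sylow `p`-subgroup of `C`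
    obtain ⟨R₀⟩ : Nonempty (Sylow p ↥C) := inferInstance
    obtain ⟨R, hR⟩ : ∃ R, R = (R₀ : Subgroup ↥C).map C.subtype := ⟨_, rfl⟩
    have hRp : IsPGroup p R := by rw [hR]; exact R₀.isPGroup'.map _
    have hRC : R ≤ C := by rw [hR]; exact Subgroup.map_subtype_le _
    have hRcard : Nat.card R = p ^ (Nat.card C).factorization p := by
      rw [hR]; exact Cfsg.Agent.Lib.helper8.card_sylow_map C R₀
    obtain ⟨c, hc, hcR⟩ := Cfsg.Agent.Lib.helper16.ZStar.iso_conj_into hz hp P hzP R hRp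
      (by rw [← hC]; exact hRC)
    rw [← hC] at hc
    have hle : R.map (MulAut.conj c).toMonoidHom ≤ (P : Subgroup G) ⊓ C := by
      rintro _ ⟨x, hx, rfl⟩
      exact ⟨hcR x hx, C.mul_mem (C.mul_mem hc (hRC hx)) (C.inv_mem hc)⟩
    have h1 : Nat.card R ≤ Nat.card ↥((P : Subgroup G) ⊓ C) := by
      rw [← Cfsg.Agent.Lib.helper14.card_map_conj R c]
      exact Subgroup.card_le_of_le hle
    have h2 : Nat.card ↥((P : Subgroup G) ⊓ C) ≤ p ^ (Nat.card C).factorization p :=
      Cfsg.Agent.Lib.helper14.card_le_of_isPGroup_le (P.isPGroup'.to_le inf_le_left) inf_le_right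
    have h3 : Nat.card ↥(((P : Subgroup G) ⊓ C).subgroupOf C) =
        p ^ (Nat.card C).factorization p := by
      rw [Cfsg.Agent.Lib.helper8.card_subgroupOf_of_le inf_le_right]
      exact le_antisymm h2 (hRcard ▸ h1)
    have h4 := (Sylow.ofCard _ h3).not_dvd_index
    rw [Sylow.coe_ofCard] at h4
    exact h4
  · -- counting the inverted elements
    have hconjP : ∀ x : G, x ∈ (P : Subgroup G) → z * x * z⁻¹ ∈ (P : Subgroup G) := by
      intro x hx
      exact (Subgroup.mem_normalizer_iff.mp hzP x).mp hx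
    have hfun : ∀ x : ↥(P : Subgroup G), z * (x : G) * z⁻¹ * (x : G)⁻¹ ∈ P ∧
        z * (z * (x : G) * z⁻¹ * (x : G)⁻¹) * z⁻¹ = (z * (x : G) * z⁻¹ * (x : G)⁻¹)⁻¹ := by
      intro x
      refine ⟨(P : Subgroup G).mul_mem (hconjP _ x.2) ((P : Subgroup G).inv_mem x.2), ?_⟩
      rw [hzi]
      calc z * (z * (x : G) * z * (x : G)⁻¹) * z = (z * z) * (x : G) * z * (x : G)⁻¹ * z := by
            group
        _ = (x : G) * z * (x : G)⁻¹ * z := by rw [hzz, one_mul]
        _ = (z * (x : G) * z * (x : G)⁻¹)⁻¹ := by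
            rw [mul_inv_rev, mul_inv_rev, mul_inv_rev, inv_inv, hzi]; group
    obtain ⟨f, hf⟩ : ∃ f : ↥(P : Subgroup G) → {x : G // x ∈ P ∧ z * x * z⁻¹ = x⁻¹},
        ∀ x, (f x : G) = z * (x : G) * z⁻¹ * (x : G)⁻¹ :=
      ⟨fun x => ⟨z * (x : G) * z⁻¹ * (x : G)⁻¹, hfun x⟩, fun x => rfl⟩
    have hfiff : ∀ x y : ↥(P : Subgroup G), f x = f y ↔
        x⁻¹ * y ∈ ((P : Subgroup G) ⊓ C).subgroupOf (P : Subgroup G) := by
      intro x y
      rw [Subtype.ext_iff, hf, hf, Subgroup.mem_subgroupOf, Subgroup.mem_inf, hmemC, hzi]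
      constructor
      · intro h
        refine ⟨(x⁻¹ * y).2, ?_⟩
        show z * ((x : G)⁻¹ * (y : G)) = (x : G)⁻¹ * (y : G) * z
        have h1 : (x : G) * z * (x : G)⁻¹ = (y : G) * z * (y : G)⁻¹ := by
          have : z * ((x : G) * z * (x : G)⁻¹) = z * ((y : G) * z * (y : G)⁻¹) := by
            simpa [mul_assoc] using h
          exact mul_left_cancel this
        calc z * ((x : G)⁻¹ * (y : G))
            = (x : G)⁻¹ * ((x : G) * z * (x : G)⁻¹) * (y : G) := by group
          _ = (x : G)⁻¹ * ((y : G) * z * (y : G)⁻¹) * (y : G) := by rw [h1]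
          _ = (x : G)⁻¹ * (y : G) * z := by group
      · rintro ⟨-, h⟩
        have h' : z * ((x : G)⁻¹ * (y : G)) = (x : G)⁻¹ * (y : G) * z := h
        calc z * (x : G) * z * (x : G)⁻¹
            = z * (x : G) * (z * ((x : G)⁻¹ * (y : G))) * (y : G)⁻¹ := by group
          _ = z * (x : G) * ((x : G)⁻¹ * (y : G) * z) * (y : G)⁻¹ := by rw [h']
          _ = z * (y : G) * z * (y : G)⁻¹ := by group
    unfold Subgroup.relIndex
    rw [Subgroup.index_eq_card]
    apply Nat.card_congr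
    refine Equiv.ofBijective
      (Quotient.lift f (fun a b hab => (hfiff a b).mpr (QuotientGroup.leftRel_apply.mp hab)))
      ⟨?_, ?_⟩
    · intro q₁ q₂ h
      obtain ⟨a, rfl⟩ := QuotientGroup.mk_surjective q₁
      obtain ⟨b, rfl⟩ := QuotientGroup.mk_surjective q₂
      have h' : f a = f b := h
      exact QuotientGroup.eq.mpr ((hfiff a b).mp h')
    · rintro ⟨w, hwP, hw⟩
      -- `w` has odd order
      have hwodd : Odd (orderOf w) := by
        obtain ⟨n, hn⟩ := IsPGroup.iff_card.mp P.isPGroup'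
        have hd : orderOf w ∣ Nat.card (P : Subgroup G) := Subgroup.orderOf_dvd_natCard _ hwP
        rw [hn] at hd
        have hpodd : Odd p := (Fact.out : p.Prime).odd_of_ne_two hp
        exact Odd.of_dvd_nat hpodd.pow hd
      obtain ⟨k, hk⟩ := hwodd
      have hw2k : w ^ (2 * k) = w⁻¹ := by
        apply eq_inv_of_mul_eq_one_left
        rw [← pow_succ, ← hk, pow_orderOf_eq_one]
      have hconjk : z * w ^ k * z⁻¹ = (w ^ k)⁻¹ := by
        have : z * w ^ k * z⁻¹ = (z * w * z⁻¹) ^ k := by rw [conj_pow]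
        rw [this, hw, inv_pow]
      refine ⟨QuotientGroup.mk ⟨w ^ k, (P : Subgroup G).pow_mem hwP k⟩, ?_⟩
      apply Subtype.ext
      show (f ⟨w ^ k, _⟩ : G) = w
      rw [hf]
      show z * w ^ k * z⁻¹ * (w ^ k)⁻¹ = w
      rw [hconjk, ← mul_inv_rev, ← pow_add, ← two_mul, hw2k, inv_inv]

end Cfsg.Agent.S1253
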