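import Cfsg.Statements.S1270
import Cfsg.Agent.Lib.helper7.Diag

set_option autoImplicit false
open Cfsg

namespace Cfsg.Agent.S1270

open scoped commutatorElement
open Cfsg.Agent.Lib.helper7 Cfsg.Agent.Lib.helper8 Cfsg.Agent.Lib.helper9

/-- Let G be finite with O_{p'}(G) = 1, x of order p, and L a component with ⁅L, ⟨x⟩⁆ ≠ L. Then ⁅L, O_{p'}(C_G(x))⁆ = 1. -/
theorem result {G : Type*} [Group G] [Finite G] (p : ℕ) [Fact p.Prime] (hO : Cfsg.pPrimeCore p G = ⊥) (x : G) (hx : orderOf x = p) (L : Subgroup G) (hL : Cfsg.IsComponent L) (hne : ⁅L, Subgroup.zpowers x⁆ ≠ L) : ⁅L, Cfsg.centralizerPPrimeCore p x⁆ = ⊥ := by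
  classical
  have hpP : p.Prime := Fact.out
  have hxp : x ^ p = 1 := by rw [← hx]; exact pow_orderOf_eq_one x
  have hred := fun A => comp_comm_of_commutator_le_centralizer hL A
  show ⁅L, (Cfsg.pPrimeCore p ↥(Subgroup.centralizer ({x} : Set G))).map
    (Subgroup.centralizer ({x} : Set G)).subtype⁆ = ⊥
  have hWcop : (Nat.card (Cfsg.pPrimeCore p ↥(Subgroup.centralizer ({x} : Set G)))).Coprime p :=
    pPrimeCore_coprime p _
  haveI hWn : (Cfsg.pPrimeCore p ↥(Subgroup.centralizer ({x} : Set G))).Normal := ppc_normal p _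
  by_cases hxN : x ∈ Subgroup.normalizer (L : Set G)
  · have hxz : Subgroup.zpowers x ≤ Subgroup.normalizer (L : Set G) := Subgroup.zpowers_le.mpr hxN
    have h1 : ⁅L, Subgroup.zpowers x⁆ ≤ L := commutator_le_of_le_normalizer hxz
    have hn : ((⁅L, Subgroup.zpowers x⁆).subgroupOf L).Normal :=
      (Subgroup.normal_subgroupOf_iff_le_normalizer h1).mpr
        (le_normalizer_commutator_left L (Subgroup.zpowers x))
    rcases qs_normal hL.2 _ hn with h | h
    · exfalso; apply hne
      rw [Subgroup.subgroupOf_eq_top] at h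
      exact le_antisymm h1 h
    · have h2 : ⁅L, Subgroup.zpowers x⁆ ≤ Subgroup.centralizer (L : Set G) := by
        intro y hy
        have h3 : (⟨y, h1 hy⟩ : ↥L) ∈ Subgroup.center ↥L := h (Subgroup.mem_subgroupOf.mpr hy)
        rw [Subgroup.mem_center_iff] at h3
        rw [Subgroup.mem_centralizer_iff]
        intro l hl
        exact congrArg Subtype.val (h3 ⟨l, hl⟩)
      have h3 := hred _ h2
      have hLC : L ≤ Subgroup.centralizer ({x} : Set G) := by
        intro l hl
        rw [Subgroup.mem_centralizer_iff]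
        intro y hy
        rw [Set.mem_singleton_iff] at hy
        rw [hy]
        have h4 := (Subgroup.commutator_eq_bot_iff_le_centralizer.mp h3) hl
        exact (Subgroup.mem_centralizer_iff.mp h4) x (Subgroup.mem_zpowers x)
      have hcomp : Cfsg.IsComponent (L.subgroupOf (Subgroup.centralizer ({x} : Set G))) :=
        comp_subgroupOf hL hLC
      rcases comp_le_or_comm _ (Cfsg.pPrimeCore p ↥(Subgroup.centralizer ({x} : Set G))) hcomp
        (Subgroup.Normal.isSubnormal hWn) with h | h
      · exfalso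
        have hcop : (Nat.card L).Coprime p := by
          have h5 := Subgroup.card_dvd_of_le h
          rw [card_subgroupOf_of_le hLC] at h5
          exact Nat.Coprime.coprime_dvd_left h5 hWcop
        have h6 : L ≤ Cfsg.pPrimeCore p G := subnormal_le_pPrimeCore hL.1 hcop
        rw [hO, le_bot_iff] at h6
        have := qs_nontrivial hL.2
        exact absurd h6 ((Subgroup.nontrivial_iff_ne_bot L).mp this)
      · have h5 := congrArg (Subgroup.map (Subgroup.centralizer ({x} : Set G)).subtype) h
        rw [Subgroup.map_commutator, Subgroup.map_bot, Subgroup.map_subgroupOf_eq_of_le hLC] at h5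
        exact h5
  · have hc0 := comp_conj_mem_centralizer hL
    have hpow : ∀ i, 1 ≤ i → i ≤ p - 1 → x ^ i ∉ Subgroup.normalizer (L : Set G) := by
      intro i h1 h2 hmem
      apply hxN
      have hcop : Nat.Coprime i p :=
        ((Nat.Prime.coprime_iff_not_dvd hpP).mpr
          (Nat.not_dvd_of_pos_of_lt (by omega) (by omega))).symm
      exact pow_coprime_mem _ x hcop hmem (by rw [hxp]; exact one_mem _)
    have hH0 : ∀ i, 1 ≤ i → i ≤ p - 1 → ∀ l ∈ L,
        x ^ i * l * (x ^ i)⁻¹ ∈ Subgroup.centralizer (L : Set G) :=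
      fun i h1 h2 => hc0 _ (hpow i h1 h2)
    have hMc : ∀ l ∈ L, conjProd x l (p - 1) ∈ Subgroup.centralizer (L : Set G) := fun l hl =>
      conjProd_mem x l _ _ (fun i h1 h2 => hH0 i h1 h2 l hl)
    obtain ⟨f, hf, hfcomp, hfker⟩ := diag_component p x hxp L hL hH0
    have hβ : ⁅f.range, Cfsg.pPrimeCore p ↥(Subgroup.centralizer ({x} : Set G))⁆ = ⊥ := by
      rcases comp_le_or_comm _ (Cfsg.pPrimeCore p ↥(Subgroup.centralizer ({x} : Set G))) hfcomp
        (Subgroup.Normal.isSubnormal hWn) with h | h
      · exfalso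
        have hcop : (Nat.card f.range).Coprime p :=
          Nat.Coprime.coprime_dvd_left (Subgroup.card_dvd_of_le h) hWcop
        have hidx : f.ker.index.Coprime p := by rw [Subgroup.index_ker]; exact hcop
        have htop := comp_normal_coprime_index_eq_top hO hL f.ker hidx
        exact qs_center_ne_top hL.2 (top_le_iff.mp (htop ▸ hfker))
      · exact h
    have hβ' : ∀ l ∈ L, ∀ w ∈ (Cfsg.pPrimeCore p ↥(Subgroup.centralizer ({x} : Set G))).map
        (Subgroup.centralizer ({x} : Set G)).subtype,
        w * (l * conjProd x l (p - 1)) * w⁻¹ = l * conjProd x l (p - 1) := by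
      rintro l hl _ ⟨w', hw', rfl⟩
      have h1 : f ⟨l, hl⟩ ∈ Subgroup.centralizer
          ((Cfsg.pPrimeCore p ↥(Subgroup.centralizer ({x} : Set G)) : Subgroup _) : Set _) :=
        (Subgroup.commutator_eq_bot_iff_le_centralizer.mp hβ) (MonoidHom.mem_range.mpr ⟨_, rfl⟩)
      have h2 := (Subgroup.mem_centralizer_iff.mp h1) w' hw'
      have h3 := congrArg Subtype.val h2
      simp only [Subgroup.coe_mul, hf] at h3
      rw [Subgroup.coe_subtype, h3]; group
    have hWC : ∀ w ∈ (Cfsg.pPrimeCore p ↥(Subgroup.centralizer ({x} : Set G))).map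
        (Subgroup.centralizer ({x} : Set G)).subtype, w * x = x * w := by
      rintro _ ⟨w', -, rfl⟩
      exact ((Subgroup.mem_centralizer_iff.mp w'.2) x rfl).symm
    have hWord : ∀ w ∈ (Cfsg.pPrimeCore p ↥(Subgroup.centralizer ({x} : Set G))).map
        (Subgroup.centralizer ({x} : Set G)).subtype, (orderOf w).Coprime p := by
      intro w hw
      have hc : (Nat.card ((Cfsg.pPrimeCore p ↥(Subgroup.centralizer ({x} : Set G))).map
          (Subgroup.centralizer ({x} : Set G)).subtype)).Coprime p := by
        rw [Subgroup.card_map_of_injective (Subgroup.subtype_injective _)]; exact hWcop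
      exact Nat.Coprime.coprime_dvd_left (Subgroup.orderOf_dvd_natCard _ hw) hc
    have hWN : ∀ w ∈ (Cfsg.pPrimeCore p ↥(Subgroup.centralizer ({x} : Set G))).map
        (Subgroup.centralizer ({x} : Set G)).subtype, w ∈ Subgroup.normalizer (L : Set G) := by
      intro w hw
      by_contra hwN
      by_cases hB : ∃ j, 1 ≤ j ∧ j ≤ p - 1 ∧ x ^ j * w ∈ Subgroup.normalizer (L : Set G)
      · obtain ⟨j, hj1, hj2, hj⟩ := hB
        have hcomm : Commute (x ^ j) w := ((show Commute w x from hWC w hw).pow_right j).symm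
        have h1 : (x ^ j * w) ^ orderOf w = x ^ (j * orderOf w) := by
          rw [hcomm.mul_pow, pow_orderOf_eq_one, mul_one, ← pow_mul]
        have h2 : x ^ (j * orderOf w) ∈ Subgroup.normalizer (L : Set G) := by
          rw [← h1]; exact Subgroup.pow_mem _ hj _
        have hcj : Nat.Coprime j p :=
          ((Nat.Prime.coprime_iff_not_dvd hpP).mpr
            (Nat.not_dvd_of_pos_of_lt (by omega) (by omega))).symm
        have hcop : (j * orderOf w).Coprime p := Nat.Coprime.mul_left hcj (hWord w hw)
        exact hxN (pow_coprime_mem _ x hcop h2 (by rw [hxp]; exact one_mem _))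
      · push_neg at hB
        have hall : L ≤ Subgroup.centralizer (L : Set G) := by
          intro l hl
          have h1 := hβ' l hl w hw
          have h2 := conjProd_conj_of_commute x l w (hWC w hw) (p - 1)
          have h3 : w * l * w⁻¹ ∈ Subgroup.centralizer (L : Set G) := hc0 w hwN l hl
          have h4 : conjProd x (w * l * w⁻¹) (p - 1) ∈ Subgroup.centralizer (L : Set G) := by
            apply conjProd_mem
            intro i hi1 hi2
            have h5 := hc0 (x ^ i * w) (hB i hi1 hi2) l hl
            have e : x ^ i * (w * l * w⁻¹) * (x ^ i)⁻¹ = (x ^ i * w) * l * (x ^ i * w)⁻¹ := by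
              generalize x ^ i = y
              group
            rw [e]; exact h5
          have h5 := hMc l hl
          have e : l = (w * l * w⁻¹) * conjProd x (w * l * w⁻¹) (p - 1) *
              (conjProd x l (p - 1))⁻¹ := by
            rw [← h2]
            have e2 : w * l * w⁻¹ * (w * conjProd x l (p - 1) * w⁻¹) =
                w * (l * conjProd x l (p - 1)) * w⁻¹ := by group
            rw [e2, h1]; group
          rw [e]
          exact Subgroup.mul_mem _ (Subgroup.mul_mem _ h3 h4) (Subgroup.inv_mem _ h5)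
        apply qs_center_ne_top hL.2
        rw [eq_top_iff]
        intro l _
        rw [Subgroup.mem_center_iff]
        intro g
        exact Subtype.ext ((Subgroup.mem_centralizer_iff.mp (hall l.2)) g g.2)
    apply hred
    rw [Subgroup.commutator_le]
    intro l hl w hw
    have hl' := L.inv_mem hl
    have h1 := hβ' l⁻¹ hl' w hw
    have h2 := conjProd_conj_of_commute x l⁻¹ w (hWC w hw) (p - 1)
    have hwl : w * l⁻¹ * w⁻¹ ∈ L := conj_mem_of_mem_normalizer (hWN w hw) hl'
    have h4 : conjProd x (w * l⁻¹ * w⁻¹) (p - 1) ∈ Subgroup.centralizer (L : Set G) := hMc _ hwl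
    have h5 : conjProd x l⁻¹ (p - 1) ∈ Subgroup.centralizer (L : Set G) := hMc _ hl'
    have e : ⁅l, w⁆ = conjProd x l⁻¹ (p - 1) * (conjProd x (w * l⁻¹ * w⁻¹) (p - 1))⁻¹ := by
      rw [← h2, commutatorElement_def]
      generalize conjProd x l⁻¹ (p - 1) = M at h1 ⊢
      calc l * w * l⁻¹ * w⁻¹ = l * (w * (l⁻¹ * M) * w⁻¹) * (w * M * w⁻¹)⁻¹ := by group
        _ = l * (l⁻¹ * M) * (w * M * w⁻¹)⁻¹ := by rw [h1]
        _ = M * (w * M * w⁻¹)⁻¹ := by group
    rw [e]
    exact Subgroup.mul_mem _ h5 (Subgroup.inv_mem _ h4)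

end Cfsg.Agent.S1270
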