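import Cfsg.Statements.S1279
import Cfsg.Agent.Lib.helper7.Balance
import Cfsg.Agent.Lib.helper7.Sig

set_option autoImplicit false
open Cfsg

namespace Cfsg.Agent.S1279

open Subgroup Cfsg.Agent.Lib.helper7 Cfsg.Agent.Lib.helper8 Cfsg.Agent.Lib.helper9 in
theorem core_conj_mem {G : Type*} [Group G] (p : ℕ) (a g x : G)
    (hg : g ∈ centralizer ({a} : Set G)) (hx : x ∈ Cfsg.centralizerPPrimeCore p a) :
    g * x * g⁻¹ ∈ Cfsg.centralizerPPrimeCore p a := by
  obtain ⟨x', hx', rfl⟩ := hx
  have hn : (Cfsg.pPrimeCore p ↥(centralizer ({a} : Set G))).Normal := inferInstance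
  exact ⟨⟨g, hg⟩ * x' * ⟨g, hg⟩⁻¹, hn.conj_mem x' hx' ⟨g, hg⟩, rfl⟩

open Subgroup Cfsg.Agent.Lib.helper7 Cfsg.Agent.Lib.helper8 Cfsg.Agent.Lib.helper9 in
theorem aux {G : Type*} [Group G] [Finite G] (p : ℕ) [hp : Fact p.Prime] (A : Subgroup G)
    (hA : Cfsg.IsElementaryAbelian p A)
    (hsolv : ∀ a ∈ A, a ≠ 1 → Group.IsSolvable ↥(Subgroup.centralizer ({a} : Set G))) :
    Cfsg.IsSolvableSignalizerFunctor p A (fun a => Cfsg.centralizerPPrimeCore p a) := by
  have hcomm : ∀ a ∈ A, ∀ b ∈ A, b ∈ centralizer ({a} : Set G) := by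
    intro a ha b hb
    rw [mem_centralizer_iff]
    intro y hy
    rw [Set.mem_singleton_iff] at hy
    subst hy
    exact ea_comm hA y ha b hb
  have hcard : ∀ a : G, (Nat.card (Cfsg.centralizerPPrimeCore p a)).Coprime p := by
    intro a
    unfold Cfsg.centralizerPPrimeCore
    rw [Subgroup.card_map_of_injective (Subgroup.subtype_injective _)]
    exact pPrimeCore_coprime p _
  have hle : ∀ a : G, Cfsg.centralizerPPrimeCore p a ≤ centralizer ({a} : Set G) :=
    fun a => Subgroup.map_subtype_le _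
  refine ⟨⟨?_, ?_, ?_, ?_⟩, ?_⟩
  · intro a ha ha1
    exact hle a
  · intro a ha ha1 hdvd
    exact (Nat.Prime.coprime_iff_not_dvd hp.out).mp (hcard a).symm hdvd
  · intro a ha ha1 b hb x hx
    exact core_conj_mem p a b x (hcomm a ha b hb) hx
  · intro a ha ha1 b hb hb1
    show Cfsg.centralizerPPrimeCore p a ⊓ centralizer {b} ≤ Cfsg.centralizerPPrimeCore p b
    set Cb : Subgroup G := centralizer ({b} : Set G) with hCb
    haveI : Group.IsSolvable ↥Cb := hsolv b hb hb1
    have haCb : a ∈ Cb := hcomm b hb a ha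
    set D : Subgroup ↥Cb := (Cfsg.centralizerPPrimeCore p a ⊓ Cb).subgroupOf Cb with hD
    set P : Subgroup ↥Cb := (zpowers a).subgroupOf Cb with hP
    have hPp : IsPGroup p P :=
      (ea_isPGroup (ea_le hA (zpowers_le.mpr ha))).comap_subtype
    have hDc : (Nat.card D).Coprime p := by
      rw [hD, card_subgroupOf_of_le inf_le_right]
      exact Nat.Coprime.coprime_dvd_left (Subgroup.card_dvd_of_le inf_le_left) (hcard a)
    have hDP : D ≤ centralizer (P : Set ↥Cb) := by
      intro d hd
      rw [mem_centralizer_iff]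
      intro y hy
      apply Subtype.ext
      rw [hD, mem_subgroupOf] at hd
      have hy' : (y : G) ∈ zpowers a := hy
      obtain ⟨k, hk⟩ := hy'
      have h1 : (d : G) ∈ centralizer ({a} : Set G) := hle a (Subgroup.mem_inf.mp hd).1
      have h2 : Commute a (d : G) := mem_centralizer_iff.mp h1 a rfl
      show (y : G) * (d : G) = (d : G) * (y : G)
      rw [← hk]
      exact (h2.zpow_left k).eq
    have hDn : centralizer (P : Set ↥Cb) ≤ normalizer (D : Set ↥Cb) := by
      apply le_normalizer_of_conj_mem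
      intro y hy d hd
      rw [hD, mem_subgroupOf] at hd ⊢
      have hya : (y : G) ∈ centralizer ({a} : Set G) := by
        rw [mem_centralizer_iff]
        intro z hz
        rw [Set.mem_singleton_iff] at hz
        subst hz
        have h1 : (⟨z, haCb⟩ : ↥Cb) ∈ P := by
          rw [hP, mem_subgroupOf]; exact mem_zpowers z
        have h2 := mem_centralizer_iff.mp hy _ h1
        exact congrArg Subtype.val h2
      refine Subgroup.mem_inf.mpr ⟨?_, ?_⟩
      · exact core_conj_mem p a y d hya (Subgroup.mem_inf.mp hd).1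
      · exact (y * d * y⁻¹).2
    have key := core_centralizer_le_core (p := p) pLayer_eq_bot_of_solvable P D hPp hDc hDP hDn
    intro x hx
    have hxCb : x ∈ Cb := (Subgroup.mem_inf.mp hx).2
    exact ⟨⟨x, hxCb⟩, key (by rw [hD, mem_subgroupOf]; exact hx), rfl⟩
  · intro a ha ha1
    haveI := hsolv a ha ha1
    exact Group.isSolvable_of_isSolvable_injective (Subgroup.inclusion_injective (hle a))

/-- Let A be a noncyclic elementary abelian p-subgroup of the finite group G such that C_G(a) is solvable for every non-identity a ∈ A. Then a ↦ O_{p'}(C_G(a)) is a solvable A-signalizer functor on G. -/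
theorem result {G : Type*} [Group G] [Finite G] (p : ℕ) [Fact p.Prime] (A : Subgroup G) (hA : Cfsg.IsElementaryAbelian p A) (hA2 : p ^ 2 ≤ Nat.card ↥A) (hsolv : ∀ a ∈ A, a ≠ 1 → Group.IsSolvable ↥(Subgroup.centralizer ({a} : Set G))) : Cfsg.IsSolvableSignalizerFunctor p A (fun a => Cfsg.centralizerPPrimeCore p a) := by
  exact aux p A hA hsolv

end Cfsg.Agent.S1279
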