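import Cfsg.Statements.S1281
import Cfsg.Agent.Lib.helper7.Sup

set_option autoImplicit false
open Cfsg

namespace Cfsg.Agent.S1281

open Subgroup Cfsg.Agent.Lib.helper7 Cfsg.Agent.Lib.helper8 in
theorem aux {G : Type*} [Group G] [Finite G] (p : ℕ) [Fact p.Prime] (A : Subgroup G)
    (hA : Cfsg.IsElementaryAbelian p A) (θ : G → Subgroup G)
    (hθ : Cfsg.IsSignalizerFunctor p A θ) (N : Subgroup G) [N.Normal]
    (hN : ¬ p ∣ Nat.card ↥N) (a b : G) (ha : a ∈ A) (ha1 : a ≠ 1) (hb : b ∈ A) (hb1 : b ≠ 1) :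
    (θ a).map (QuotientGroup.mk' N) ⊓ Subgroup.centralizer {QuotientGroup.mk' N b} ≤
      (θ b).map (QuotientGroup.mk' N) := by
  obtain ⟨hcen, hpp, hinv, hbal⟩ := hθ
  have hp : p.Prime := Fact.out
  intro ub hub
  obtain ⟨⟨u, hu, rfl⟩, hc⟩ := Subgroup.mem_inf.mp hub
  have hnN : θ a ≤ normalizer (N : Set G) := by
    rw [Subgroup.normalizer_eq_top]; exact le_top
  have hnbN : zpowers b ≤ normalizer (N : Set G) := by
    rw [Subgroup.normalizer_eq_top]; exact le_top
  have hcard : ¬ p ∣ Nat.card (N ⊔ θ a : Subgroup G) := by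
    intro h
    have h1 := h.trans (card_sup_dvd_of_le_normalizer N (θ a) hnN)
    rcases (Nat.Prime.dvd_mul hp).mp h1 with h2 | h2
    · exact hN h2
    · exact hpp a ha ha1 h2
  have hbp : b ^ p = 1 := hA.2 b hb
  have hcop := coprime_zpowers_of_pow_eq_one hbp hcard
  have hfix : ∀ a' ∈ zpowers b, a' * u * a'⁻¹ * u⁻¹ ∈ N := by
    rintro _ ⟨k, rfl⟩
    rw [← QuotientGroup.ker_mk' N, MonoidHom.mem_ker]
    have h1 : Commute (QuotientGroup.mk' N b) (QuotientGroup.mk' N u) := by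
      rw [mem_centralizer_iff] at hc
      exact hc _ rfl
    have h2 := (h1.zpow_left k).eq
    simp only [map_mul, map_inv, map_zpow]
    rw [h2]; group
  have hNK : N ≤ N ⊔ θ a := le_sup_left
  have hKN : N ⊔ θ a ≤ normalizer (N : Set G) := by
    rw [Subgroup.normalizer_eq_top]; exact le_top
  obtain ⟨c, hcK, hcN⟩ := coprime_fixed_quot (zpowers b) (N ⊔ θ a) hcop
    (Or.inl (isSolvable_zpowers b)) N hNK hKN hnbN u (le_sup_right (a := N) hu) hfix
  obtain ⟨hcK1, hcK2⟩ := Subgroup.mem_inf.mp hcK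
  obtain ⟨n, hn, x, hx, rfl⟩ := (mem_sup_iff_of_le_normalizer hnN c).mp hcK1
  have hbinv : b⁻¹ ∈ A := inv_mem hb
  have hnθ : zpowers b ≤ normalizer (θ a : Set G) :=
    zpowers_le_normalizer_of_conj (hinv a ha ha1 b hb)
      (fun x hx => by simpa using hinv a ha ha1 b⁻¹ hbinv x hx)
  obtain ⟨n', hn', x', hx', hnx⟩ := coprime_fixed_mul (zpowers b) (N ⊔ θ a) hcop
    (Or.inl (isSolvable_zpowers b)) N (θ a) hNK hnbN hnθ n x hn hx hcK2
  rw [centralizer_zpowers_eq] at hx'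
  have hx'b : x' ∈ θ b := hbal a ha ha1 b hb hb1 hx'
  refine ⟨x', hx'b, ?_⟩
  have e1 : QuotientGroup.mk' N n' = 1 := by
    rw [← MonoidHom.mem_ker, QuotientGroup.ker_mk']; exact (Subgroup.mem_inf.mp hn').1
  have e2 : QuotientGroup.mk' N (u⁻¹ * (n * x)) = 1 := by
    rw [← MonoidHom.mem_ker, QuotientGroup.ker_mk']; exact hcN
  rw [hnx] at e2
  simp only [map_mul, map_inv, e1, one_mul] at e2
  exact (inv_mul_eq_one.mp e2).symm

/-- Let θ be a solvable A-signalizer functor on the finite group G (A a noncyclic elementary abelian p-subgroup) and N a normal subgroup of order prime to p. Then for all non-identity a, b ∈ A, the image of θ a in G / N meets the centralizer of the image of b inside the image of θ b. -/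
theorem result {G : Type*} [Group G] [Finite G] (p : ℕ) [Fact p.Prime] (A : Subgroup G) (hA : Cfsg.IsElementaryAbelian p A) (hA2 : p ^ 2 ≤ Nat.card ↥A) (θ : G → Subgroup G) (hθ : Cfsg.IsSolvableSignalizerFunctor p A θ) (N : Subgroup G) [N.Normal] (hN : ¬ p ∣ Nat.card ↥N) (a b : G) (ha : a ∈ A) (ha1 : a ≠ 1) (hb : b ∈ A) (hb1 : b ≠ 1) : (θ a).map (QuotientGroup.mk' N) ⊓ Subgroup.centralizer {QuotientGroup.mk' N b} ≤ (θ b).map (QuotientGroup.mk' N) := by
  exact aux p A hA θ hθ.1 N hN a b ha ha1 hb hb1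

end Cfsg.Agent.S1281
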