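import Cfsg.Statements.S1286
import Mathlib

set_option autoImplicit false
open Cfsg

namespace Cfsg.Agent.S1286

abbrev P9 := Equiv.Perm (ZMod 3 × ZMod 3)

def tx : P9 := ⟨fun p => (p.1 + 1, p.2), fun p => (p.1 - 1, p.2), by decide, by decide⟩
def ty : P9 := ⟨fun p => (p.1, p.2 + p.1), fun p => (p.1, p.2 - p.1), by decide, by decide⟩
def ta : P9 := ⟨fun p => (p.1, -p.2), fun p => (p.1, -p.2), by decide, by decide⟩
def tb : P9 := ⟨fun p => (-p.1, -p.2), fun p => (-p.1, -p.2), by decide, by decide⟩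

def tA : Subgroup P9 where
  carrier := {g | g = 1 ∨ g = ta ∨ g = tb ∨ g = ta * tb}
  one_mem' := Or.inl rfl
  mul_mem' := by
    rintro g h (rfl | rfl | rfl | rfl) (rfl | rfl | rfl | rfl) <;> decide
  inv_mem' := by
    rintro g (rfl | rfl | rfl | rfl) <;> decide

theorem mem_tA (g : P9) : g ∈ tA ↔ g = 1 ∨ g = ta ∨ g = tb ∨ g = ta * tb := Iff.rfl

def tθ (g : P9) : Subgroup P9 :=
  if g = ta then Subgroup.zpowers tx else if g = tb then Subgroup.zpowers ty else ⊥

theorem tθ_a : tθ ta = Subgroup.zpowers tx := if_pos rfl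
theorem tθ_b : tθ tb = Subgroup.zpowers ty := by
  unfold tθ
  rw [if_neg (by decide), if_pos rfl]
theorem tθ_ab : tθ (ta * tb) = ⊥ := by
  unfold tθ
  rw [if_neg (by decide), if_neg (by decide)]

open Subgroup in
theorem inv_cent {X : Type*} [Group X] (c w : X) (hw3 : w ^ 3 = 1) (hinv : c * w * c⁻¹ = w⁻¹) :
    zpowers w ⊓ centralizer {c} ≤ ⊥ := by
  intro g hg
  obtain ⟨⟨k, rfl⟩, hg2⟩ := Subgroup.mem_inf.mp hg
  rw [mem_centralizer_iff] at hg2
  have h1 : c * w ^ k = w ^ k * c := hg2 c rfl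
  have h2 : c * w ^ k * c⁻¹ = (w ^ k)⁻¹ := by
    rw [← conj_zpow, hinv, inv_zpow]
  have h3 : w ^ k = (w ^ k)⁻¹ := by
    rw [← h2, h1]; group
  have h4 : (w ^ k) ^ 2 = 1 := by
    rw [pow_two]
    nth_rewrite 1 [h3]
    exact inv_mul_cancel _
  have h5 : (w ^ k) ^ 3 = 1 := by
    rw [← zpow_natCast, ← zpow_mul, mul_comm, zpow_mul, zpow_natCast, hw3, one_zpow]
  rw [Subgroup.mem_bot]
  calc w ^ k = (w ^ k) ^ 3 * ((w ^ k) ^ 2)⁻¹ := by group
    _ = 1 := by rw [h4, h5]; simp

open Subgroup in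
theorem conj_mem_zpowers {X : Type*} [Group X] (c w : X) (h : c * w * c⁻¹ ∈ zpowers w) :
    ∀ g ∈ zpowers w, c * g * c⁻¹ ∈ zpowers w := by
  rintro _ ⟨k, rfl⟩
  show c * w ^ k * c⁻¹ ∈ zpowers w
  rw [← conj_zpow]
  exact zpow_mem h k

theorem tx_conj : ∀ g ∈ tA, g * tx * g⁻¹ ∈ Subgroup.zpowers tx := by
  rintro g (rfl | rfl | rfl | rfl)
  · rw [show (1 : P9) * tx * 1⁻¹ = tx by decide]; exact Subgroup.mem_zpowers _
  · rw [show ta * tx * ta⁻¹ = tx by decide]; exact Subgroup.mem_zpowers _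
  · rw [show tb * tx * tb⁻¹ = tx⁻¹ by decide]; exact inv_mem (Subgroup.mem_zpowers _)
  · rw [show (ta * tb) * tx * (ta * tb)⁻¹ = tx⁻¹ by decide]; exact inv_mem (Subgroup.mem_zpowers _)

theorem ty_conj : ∀ g ∈ tA, g * ty * g⁻¹ ∈ Subgroup.zpowers ty := by
  rintro g (rfl | rfl | rfl | rfl)
  · rw [show (1 : P9) * ty * 1⁻¹ = ty by decide]; exact Subgroup.mem_zpowers _
  · rw [show ta * ty * ta⁻¹ = ty⁻¹ by decide]; exact inv_mem (Subgroup.mem_zpowers _)
  · rw [show tb * ty * tb⁻¹ = ty by decide]; exact Subgroup.mem_zpowers _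
  · rw [show (ta * tb) * ty * (ta * tb)⁻¹ = ty⁻¹ by decide]; exact inv_mem (Subgroup.mem_zpowers _)

theorem card_zx : Nat.card (Subgroup.zpowers tx) = 3 := by
  rw [Nat.card_zpowers]
  exact orderOf_eq_prime (by decide) (by decide)

theorem card_zy : Nat.card (Subgroup.zpowers ty) = 3 := by
  rw [Nat.card_zpowers]
  exact orderOf_eq_prime (by decide) (by decide)

theorem solv_z {X : Type*} [Group X] (w : X) : Group.IsSolvable (Subgroup.zpowers w) := by
  haveI : IsMulCommutative (Subgroup.zpowers w) := inferInstance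
  exact Group.isSolvable_of_comm (fun a b => mul_comm' a b)

open Subgroup in
theorem sig : Cfsg.IsSignalizerFunctor 2 tA tθ := by
  refine ⟨?_, ?_, ?_, ?_⟩
  · rintro g (rfl | rfl | rfl | rfl) hg1
    · exact absurd rfl hg1
    · rw [tθ_a, zpowers_le, mem_centralizer_iff]
      intro h hh
      rw [Set.mem_singleton_iff] at hh
      subst hh
      decide
    · rw [tθ_b, zpowers_le, mem_centralizer_iff]
      intro h hh
      rw [Set.mem_singleton_iff] at hh
      subst hh
      decide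
    · rw [tθ_ab]; exact bot_le
  · rintro g (rfl | rfl | rfl | rfl) hg1
    · exact absurd rfl hg1
    · rw [tθ_a, card_zx]; decide
    · rw [tθ_b, card_zy]; decide
    · rw [tθ_ab, Subgroup.card_bot]; decide
  · rintro g (rfl | rfl | rfl | rfl) hg1 b hb y hy
    · exact absurd rfl hg1
    · rw [tθ_a] at hy ⊢
      exact conj_mem_zpowers b tx (tx_conj b hb) y hy
    · rw [tθ_b] at hy ⊢
      exact conj_mem_zpowers b ty (ty_conj b hb) y hy
    · rw [tθ_ab] at hy ⊢
      rw [Subgroup.mem_bot] at hy ⊢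
      rw [hy]; group
  · rintro g (rfl | rfl | rfl | rfl) hg1 h (rfl | rfl | rfl | rfl) hh1
    · exact absurd rfl hg1
    · exact absurd rfl hg1
    · exact absurd rfl hg1
    · exact absurd rfl hg1
    · exact absurd rfl hh1
    · exact inf_le_left
    · rw [tθ_a]
      exact (inv_cent tb tx (by decide) (by decide)).trans bot_le
    · rw [tθ_a]
      exact (inv_cent (ta * tb) tx (by decide) (by decide)).trans bot_le
    · exact absurd rfl hh1
    · rw [tθ_b]
      exact (inv_cent ta ty (by decide) (by decide)).trans bot_le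
    · exact inf_le_left
    · rw [tθ_b]
      exact (inv_cent (ta * tb) ty (by decide) (by decide)).trans bot_le
    · exact absurd rfl hh1
    · rw [tθ_ab]; exact inf_le_left.trans bot_le
    · rw [tθ_ab]; exact inf_le_left.trans bot_le
    · exact inf_le_left

open Subgroup in
theorem aux : ∃ (X : Type) (_ : Group X) (_ : Finite X) (A : Subgroup X) (θ : X → Subgroup X),
    Cfsg.IsElementaryAbelian 2 A ∧ Nat.card ↥A = 4 ∧ Cfsg.IsSolvableSignalizerFunctor 2 A θ ∧
      ¬ Cfsg.IsCompleteSignalizerFunctor 2 A θ := by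
  refine ⟨P9, inferInstance, inferInstance, tA, tθ, ⟨?_, ?_⟩, ?_, ⟨sig, ?_⟩, ?_⟩
  · refine ⟨⟨fun g h => ?_⟩⟩
    obtain ⟨g, hg⟩ := g
    obtain ⟨h, hh⟩ := h
    apply Subtype.ext
    show g * h = h * g
    rcases hg with (rfl | rfl | rfl | rfl) <;> rcases hh with (rfl | rfl | rfl | rfl) <;> decide
  · rintro g (rfl | rfl | rfl | rfl) <;> decide
  · have h1 : (tA : Set P9) = ↑({1, ta, tb, ta * tb} : Finset P9) := by
      ext g
      simp only [SetLike.mem_coe, mem_tA, Finset.coe_insert, Finset.coe_singleton,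
        Set.mem_insert_iff, Set.mem_singleton_iff]
    have h2 : Nat.card tA = (tA : Set P9).ncard := rfl
    rw [h2, h1, Set.ncard_coe_finset]
    decide
  · rintro g (rfl | rfl | rfl | rfl) hg1
    · exact absurd rfl hg1
    · rw [tθ_a]; exact solv_z _
    · rw [tθ_b]; exact solv_z _
    · rw [tθ_ab]; infer_instance
  · rintro ⟨-, X₀, -, -, hX⟩
    have h1 := hX ta (Or.inr (Or.inl rfl)) (by decide)
    have h2 := hX tb (Or.inr (Or.inr (Or.inl rfl))) (by decide)
    have h3 := hX (ta * tb) (Or.inr (Or.inr (Or.inr rfl))) (by decide)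
    rw [tθ_a] at h1
    rw [tθ_b] at h2
    rw [tθ_ab] at h3
    have hx : tx ∈ X₀ := by
      have : tx ∈ X₀ ⊓ centralizer {ta} := h1 ▸ mem_zpowers tx
      exact (Subgroup.mem_inf.mp this).1
    have hy : ty ∈ X₀ := by
      have : ty ∈ X₀ ⊓ centralizer {tb} := h2 ▸ mem_zpowers ty
      exact (Subgroup.mem_inf.mp this).1
    have hz : tx * ty * tx⁻¹ * ty⁻¹ ∈ X₀ ⊓ centralizer {ta * tb} := by
      refine Subgroup.mem_inf.mpr ⟨mul_mem (mul_mem (mul_mem hx hy) (inv_mem hx)) (inv_mem hy), ?_⟩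
      rw [mem_centralizer_iff]
      intro h hh
      rw [Set.mem_singleton_iff] at hh
      subst hh
      decide
    rw [h3, Subgroup.mem_bot] at hz
    exact absurd hz (by decide)

/-- There exist a finite group X, an elementary abelian subgroup A of order 4 and a solvable A-signalizer functor θ on X for the prime 2 which is not complete. -/
theorem result : ∃ (X : Type) (_ : Group X) (_ : Finite X) (A : Subgroup X) (θ : X → Subgroup X), Cfsg.IsElementaryAbelian 2 A ∧ Nat.card ↥A = 4 ∧ Cfsg.IsSolvableSignalizerFunctor 2 A θ ∧ ¬ Cfsg.IsCompleteSignalizerFunctor 2 A θ := by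
  exact aux

end Cfsg.Agent.S1286
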