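import Cfsg.Statements.S1300
import Mathlib

set_option autoImplicit false
open Cfsg

namespace Cfsg.Agent.S1300

open Subgroup in
theorem core_le_cent {G : Type*} [Group G] (x : G) :
    Cfsg.centralizerPPrimeCore 2 x ≤ centralizer ({x} : Set G) := by
  rintro _ ⟨c, -, rfl⟩
  exact c.2

open Subgroup in
theorem aux {G : Type*} [Group G] [Finite G] : Cfsg.IsBalanced G ↔ Cfsg.IsKBalanced 2 1 G := by
  constructor
  · intro hB A hA hcard b hb hcomm
    have hne : ∃ x ∈ A, x ≠ 1 := by
      by_contra hcon
      simp only [not_exists, not_and, not_not] at hcon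
      have : A = ⊥ := (Subgroup.eq_bot_iff_forall A).mpr hcon
      rw [this] at hcard
      simp at hcard
    obtain ⟨x, hx, hx1⟩ := hne
    have hx2 : orderOf x = 2 := orderOf_eq_prime (hA.2 x hx) hx1
    have h1 : Cfsg.signalizerDelta 2 A ≤ Cfsg.centralizerPPrimeCore 2 x :=
      iInf_le (fun a : {a : G // a ∈ A ∧ a ≠ 1} => Cfsg.centralizerPPrimeCore 2 (a : G))
        ⟨x, hx, hx1⟩
    have h2 := hB x b hx2 hb (hcomm x hx)
    calc Cfsg.signalizerDelta 2 A ⊓ centralizer {b}
        ≤ Cfsg.centralizerPPrimeCore 2 x ⊓ centralizer {b} := inf_le_inf_right _ h1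
      _ = Cfsg.centralizerPPrimeCore 2 b ⊓ centralizer {x} := h2
      _ ≤ Cfsg.centralizerPPrimeCore 2 b := inf_le_left
  · intro hK
    have key : ∀ x y : G, orderOf x = 2 → orderOf y = 2 → x * y = y * x →
        Cfsg.centralizerPPrimeCore 2 x ⊓ centralizer {y} ≤
          Cfsg.centralizerPPrimeCore 2 y ⊓ centralizer {x} := by
      intro x y hx hy hxy
      have hx2 : x ^ 2 = 1 := by rw [← hx]; exact pow_orderOf_eq_one x
      have hEA : Cfsg.IsElementaryAbelian 2 (zpowers x) := by
        refine ⟨inferInstance, ?_⟩
        rintro _ ⟨k, rfl⟩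
        rw [← zpow_natCast, ← zpow_mul, mul_comm, zpow_mul, zpow_natCast, hx2, one_zpow]
      have hcard : Nat.card (zpowers x) = 2 ^ 1 := by
        rw [Nat.card_zpowers, hx]; norm_num
      have hcomm : ∀ a ∈ zpowers x, a * y = y * a := by
        rintro _ ⟨k, rfl⟩
        have : Commute x y := hxy
        exact (this.zpow_left k).eq
      have h1 := hK (zpowers x) hEA hcard y hy hcomm
      have h2 : Cfsg.centralizerPPrimeCore 2 x ≤ Cfsg.signalizerDelta 2 (zpowers x) := by
        refine le_iInf ?_
        rintro ⟨a, ha, ha1⟩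
        have hax : a = x := by
          obtain ⟨k, rfl⟩ := ha
          beta_reduce at ha1 ⊢
          rcases Int.emod_two_eq_zero_or_one k with h | h
          · exfalso; apply ha1
            have : k = 2 * (k / 2) := by omega
            rw [this, zpow_mul, zpow_ofNat, hx2, one_zpow]
          · have : k = 2 * (k / 2) + 1 := by omega
            rw [this, zpow_add, zpow_mul, zpow_ofNat, hx2, one_zpow, one_mul, zpow_one]
        subst hax
        exact le_rfl
      exact le_inf ((inf_le_inf_right _ h2).trans h1) (inf_le_left.trans (core_le_cent x))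
    intro x y hx hy hxy
    exact le_antisymm (key x y hx hy hxy) (key y x hy hx hxy.symm)

/-- For a finite group G, balance in the sense of commuting involutions is the same as 1-balance for the prime 2. -/
theorem result {G : Type*} [Group G] [Finite G] : Cfsg.IsBalanced G ↔ Cfsg.IsKBalanced 2 1 G := by
  exact aux

end Cfsg.Agent.S1300
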