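import Cfsg.Statements.S1303
import Cfsg.Agent.Lib.helper7.PConstr

set_option autoImplicit false
open Cfsg

namespace Cfsg.Agent.S1303

abbrev S23 := Matrix.SpecialLinearGroup (Fin 2) (ZMod 3)

set_option maxRecDepth 100000 in
theorem pow24 : ∀ g : S23, g ^ 24 = 1 := by decide

set_option maxRecDepth 100000 in
theorem q_mul : ∀ g h : S23, g ^ 4 = 1 → h ^ 4 = 1 → (g * h) ^ 4 = 1 := by decide

set_option maxRecDepth 100000 in
theorem q_cent : ∀ c : S23, (∀ q : S23, q ^ 4 = 1 → q * c = c * q) → c ^ 4 = 1 := by decide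

set_option maxRecDepth 100000 in
theorem invol_central : ∀ t g : S23, t ^ 2 = 1 → g * t = t * g := by decide

set_option maxRecDepth 100000 in
theorem three_gen : ∀ n : S23, n ^ 3 = 1 → n ≠ 1 →
    ∃ g : S23, (n * (g * n⁻¹ * g⁻¹)) ^ 4 = 1 ∧ n * (g * n⁻¹ * g⁻¹) ≠ 1 := by decide

def u3 : S23 := ⟨!![1, 1; 0, 1], by decide⟩

set_option maxRecDepth 100000 in
theorem u3_pow : u3 ^ 3 = 1 := by decide

set_option maxRecDepth 100000 in
theorem u3_ne : u3 ≠ 1 := by decide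

/-- The quaternion subgroup. -/
def Q8s : Subgroup S23 where
  carrier := {g | g ^ 4 = 1}
  one_mem' := one_pow 4
  mul_mem' := fun {g h} hg hh => q_mul g h hg hh
  inv_mem' := fun {g} hg => by
    show g⁻¹ ^ 4 = 1
    rw [inv_pow, show g ^ 4 = 1 from hg, inv_one]

instance : Q8s.Normal := ⟨fun n hn g => by
  show (g * n * g⁻¹) ^ 4 = 1
  rw [conj_pow, show n ^ 4 = 1 from hn]; group⟩

theorem Q8s_pgroup : IsPGroup 2 Q8s := by
  intro g
  refine ⟨2, ?_⟩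
  apply Subtype.ext
  have : (g : S23) ^ 4 = 1 := g.2
  simpa using this

open Subgroup Cfsg.Agent.Lib.helper7 in
theorem core_bot : Cfsg.pPrimeCore 2 S23 = ⊥ := by
  rw [eq_bot_iff]
  apply sSup_le
  rintro N ⟨hNn, hNc⟩
  intro n hn
  rw [Subgroup.mem_bot]
  by_contra hn1
  have ho : orderOf n ∣ Nat.card N := by
    have := orderOf_dvd_natCard (⟨n, hn⟩ : N)
    rwa [← Subgroup.orderOf_coe] at this
  have h24 : orderOf n ∣ 8 * 3 := orderOf_dvd_of_pow_eq_one (pow24 n)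
  have hcop : (orderOf n).Coprime 2 := Nat.Coprime.coprime_dvd_left ho hNc
  have h3 : orderOf n ∣ 3 :=
    Nat.Coprime.dvd_of_dvd_mul_left (Nat.Coprime.pow_right 3 hcop) h24
  have hn3 : n ^ 3 = 1 := orderOf_dvd_iff_pow_eq_one.mp h3
  obtain ⟨g, hg4, hg1⟩ := three_gen n hn3 hn1
  have hmem : n * (g * n⁻¹ * g⁻¹) ∈ N := mul_mem hn (hNn.conj_mem _ (inv_mem hn) g)
  have ho2 : orderOf (n * (g * n⁻¹ * g⁻¹)) ∣ 2 ^ 2 := orderOf_dvd_of_pow_eq_one hg4
  have ho3 : orderOf (n * (g * n⁻¹ * g⁻¹)) ∣ Nat.card N := by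
    have := orderOf_dvd_natCard (⟨_, hmem⟩ : N)
    rwa [← Subgroup.orderOf_coe] at this
  have ho4 : orderOf (n * (g * n⁻¹ * g⁻¹)) ∣ Nat.gcd (2 ^ 2) (Nat.card N) := Nat.dvd_gcd ho2 ho3
  have hc2 : Nat.gcd (2 ^ 2) (Nat.card N) = 1 := Nat.Coprime.pow_left 2 hNc.symm
  rw [hc2] at ho4
  exact hg1 (orderOf_eq_one_iff.mp (Nat.dvd_one.mp ho4))

open Subgroup Cfsg.Agent.Lib.helper7 in
theorem constr : Cfsg.IsPConstrained 2 S23 := by
  haveI : Fact (Nat.Prime 2) := ⟨Nat.prime_two⟩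
  have hQle : Q8s ≤ Cfsg.pPrimePCore 2 S23 := by
    unfold Cfsg.pPrimePCore
    rw [← Subgroup.map_le_iff_le_comap]
    apply le_sSup
    refine ⟨?_, Q8s_pgroup.map _⟩
    exact Subgroup.Normal.map inferInstance _ (QuotientGroup.mk'_surjective _)
  intro P
  have h1 : IsPGroup 2 (Q8s.subgroupOf (Cfsg.pPrimePCore 2 S23)) := Q8s_pgroup.comap_subtype
  have h2 := IsPGroup.le_sylow_of_normal h1 P
  have h3 : Q8s ≤ (P : Subgroup ↥(Cfsg.pPrimePCore 2 S23)).map (Cfsg.pPrimePCore 2 S23).subtype := by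
    intro q hq
    exact ⟨⟨q, hQle hq⟩, h2 (by rw [mem_subgroupOf]; exact hq), rfl⟩
  intro c hc
  apply hQle
  apply q_cent
  intro q hq
  exact mem_centralizer_iff.mp hc q (h3 hq)

open Subgroup Cfsg.Agent.Lib.helper7 in
theorem aux : Cfsg.IsPConstrained 2 S23 ∧ Cfsg.pPrimeCore 2 S23 = ⊥ ∧
    (∀ t : S23, orderOf t = 2 → t ∈ Subgroup.center S23) ∧
    ∃ Q : Subgroup S23, Nat.card ↥Q = 3 ∧ ¬ (Q ≤ Cfsg.pPrimeCore 2 S23) := by
  refine ⟨constr, core_bot, ?_, zpowers u3, ?_, ?_⟩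
  · intro t ht
    rw [Subgroup.mem_center_iff]
    intro g
    apply invol_central
    have := pow_orderOf_eq_one t
    rwa [ht] at this
  · rw [Nat.card_zpowers]
    exact orderOf_eq_prime u3_pow u3_ne
  · rw [core_bot]
    intro h
    have := h (mem_zpowers u3)
    rw [Subgroup.mem_bot] at this
    exact u3_ne this

/-- The group X = SL(2, 3): it is 2-constrained, O_{2'}(X) = 1, its centre A = Z(X) contains every involution of X = C_X(A), and X has a subgroup of order 3 (normalized by A) not contained in O_{2'}(X). -/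
theorem result : Cfsg.IsPConstrained 2 (Matrix.SpecialLinearGroup (Fin 2) (ZMod 3)) ∧ Cfsg.pPrimeCore 2 (Matrix.SpecialLinearGroup (Fin 2) (ZMod 3)) = ⊥ ∧ (∀ t : Matrix.SpecialLinearGroup (Fin 2) (ZMod 3), orderOf t = 2 → t ∈ Subgroup.center (Matrix.SpecialLinearGroup (Fin 2) (ZMod 3))) ∧ ∃ Q : Subgroup (Matrix.SpecialLinearGroup (Fin 2) (ZMod 3)), Nat.card ↥Q = 3 ∧ ¬ (Q ≤ Cfsg.pPrimeCore 2 (Matrix.SpecialLinearGroup (Fin 2) (ZMod 3))) := by
  exact aux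

end Cfsg.Agent.S1303
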