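import Cfsg.Statements.S1304
import Mathlib

set_option autoImplicit false
open Cfsg

namespace Cfsg.Agent.S1304

open scoped commutatorElement in
theorem key {X : Type*} [Group X] (α : X ≃* X) (h : ∀ x : X, α x * x⁻¹ ∈ Subgroup.center X)
    (x y : X) : α ⁅x, y⁆ = ⁅x, y⁆ := by
  have hx := h x
  have hy := h y
  rw [Subgroup.mem_center_iff] at hx hy
  rw [map_commutatorElement]
  have ex : α x = (α x * x⁻¹) * x := by group
  have ey : α y = (α y * y⁻¹) * y := by group
  generalize α x * x⁻¹ = a at hx ex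
  generalize α y * y⁻¹ = b at hy ey
  rw [ex, ey]
  simp only [commutatorElement_def]
  calc a * x * (b * y) * (a * x)⁻¹ * (b * y)⁻¹
      = (a * (x * (b * y) * x⁻¹)) * a⁻¹ * (b * y)⁻¹ := by group
    _ = ((x * (b * y) * x⁻¹) * a) * a⁻¹ * (b * y)⁻¹ := by rw [hx]
    _ = (x * b) * (y * x⁻¹ * y⁻¹) * b⁻¹ := by group
    _ = (b * x) * (y * x⁻¹ * y⁻¹) * b⁻¹ := by rw [hy]
    _ = (b * (x * y * x⁻¹ * y⁻¹)) * b⁻¹ := by group
    _ = ((x * y * x⁻¹ * y⁻¹) * b) * b⁻¹ := by rw [hy]
    _ = x * y * x⁻¹ * y⁻¹ := by group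

/-- Let X be a perfect group and α an automorphism of X with α(x) x⁻¹ central for every x. Then α is the identity. -/
theorem result {X : Type*} [Group X] (hperf : commutator X = ⊤) (α : X ≃* X) (h : ∀ x : X, α x * x⁻¹ ∈ Subgroup.center X) : ∀ x : X, α x = x := by
  have hle : commutator X ≤ MonoidHom.eqLocus α.toMonoidHom (MonoidHom.id X) := by
    rw [commutator_eq_closure, Subgroup.closure_le]
    rintro g ⟨x, y, rfl⟩
    exact key α h x y
  intro x
  have : x ∈ commutator X := by rw [hperf]; trivial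
  exact hle this

end Cfsg.Agent.S1304
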