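import Cfsg.Statements.S1306
import Cfsg.Agent.Lib.helper7.Layer
import Mathlib

set_option autoImplicit false
open Cfsg

namespace Cfsg.Agent.S1306

open Cfsg.Agent.Lib.helper7

theorem comp_conj {G : Type*} [Group G] (g : G) {A H : Subgroup G}
    (hA : Cfsg.IsComponent (A.subgroupOf H)) :
    Cfsg.IsComponent ((A.map (MulAut.conj g).toMonoidHom).subgroupOf
      (H.map (MulAut.conj g).toMonoidHom)) := by
  have h1 := comp_map_equiv (H.equivMapOfInjective (MulAut.conj g).toMonoidHom
    (MulAut.conj g).injective) hA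
  have h2 : (A.subgroupOf H).map (H.equivMapOfInjective (MulAut.conj g).toMonoidHom
    (MulAut.conj g).injective).toMonoidHom =
      (A.map (MulAut.conj g).toMonoidHom).subgroupOf (H.map (MulAut.conj g).toMonoidHom) := by
    ext z
    rw [Subgroup.mem_map, Subgroup.mem_subgroupOf, Subgroup.mem_map]
    constructor
    · rintro ⟨a, ha, rfl⟩
      exact ⟨a.1, Subgroup.mem_subgroupOf.mp ha, rfl⟩
    · rintro ⟨a, ha, haz⟩
      obtain ⟨b, hb, hbz⟩ := Subgroup.mem_map.mp z.2
      have hab : a = b := by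
        apply (MulAut.conj g).injective
        exact haz.trans hbz.symm
      subst hab
      exact ⟨⟨a, hb⟩, Subgroup.mem_subgroupOf.mpr ha, Subtype.ext haz⟩
  rw [h2] at h1
  exact h1

theorem cent_conj {G : Type*} [Group G] (g w : G) :
    (Subgroup.centralizer ({w} : Set G)).map (MulAut.conj g).toMonoidHom =
      Subgroup.centralizer ({g * w * g⁻¹} : Set G) := by
  ext z
  rw [Subgroup.mem_map, Subgroup.mem_centralizer_singleton_iff]
  constructor
  · rintro ⟨a, ha, rfl⟩
    rw [Subgroup.mem_centralizer_singleton_iff] at ha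
    show g * a * g⁻¹ * (g * w * g⁻¹) = g * w * g⁻¹ * (g * a * g⁻¹)
    calc g * a * g⁻¹ * (g * w * g⁻¹) = g * (a * w) * g⁻¹ := by group
      _ = g * (w * a) * g⁻¹ := by rw [ha]
      _ = _ := by group
  · intro hz
    refine ⟨g⁻¹ * z * g, ?_, ?_⟩
    · rw [Subgroup.mem_centralizer_singleton_iff]
      calc g⁻¹ * z * g * w = g⁻¹ * (z * (g * w * g⁻¹)) * g := by group
        _ = g⁻¹ * (g * w * g⁻¹ * z) * g := by rw [hz]
        _ = _ := by group
    · show g * (g⁻¹ * z * g) * g⁻¹ = z
      group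

theorem key {G : Type*} [Group G] [Finite G] (L : Subgroup G)
    (hne : ∀ y : G, orderOf y = 2 → y ∈ Subgroup.centralizer (L : Set G) →
      L ≤ Subgroup.centralizer ({y} : Set G) ∧
      Cfsg.IsComponent (L.subgroupOf (Subgroup.centralizer ({y} : Set G))))
    (hnc : ∀ g : G, L.map (MulAut.conj g).toMonoidHom ≠ L →
      ⁅L, L.map (MulAut.conj g).toMonoidHom⁆ ≠ ⊥)
    (g w : G) (hw : orderOf w = 2) (hwL : w ∈ Subgroup.centralizer (L : Set G))
    (hgw : g * w * g⁻¹ ∈ Subgroup.centralizer (L : Set G)) :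
    L.map (MulAut.conj g).toMonoidHom = L := by
  by_contra hcon
  apply hnc g hcon
  have hw2 : orderOf (g * w * g⁻¹) = 2 := by
    rw [← MulAut.conj_apply, MulEquiv.orderOf_eq, hw]
  obtain ⟨h1, h2⟩ := hne _ hw2 hgw
  obtain ⟨h3, h4⟩ := hne w hw hwL
  have h5 := comp_conj g h4
  rw [cent_conj] at h5
  have hLg : L.map (MulAut.conj g).toMonoidHom ≤ Subgroup.centralizer ({g * w * g⁻¹} : Set G) := by
    rw [← cent_conj]
    exact Subgroup.map_mono h3
  have hcomm := comp_comm_of_ne h2 h5 (fun heq =>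
    hcon (le_antisymm (sOf_le hLg heq.ge) (sOf_le h1 heq.le)))
  have h6 := sOf_comm hcomm
  rwa [inf_eq_left.mpr h1, inf_eq_left.mpr hLg] at h6

theorem conj_mem {G : Type*} [Group G] (L : Subgroup G) (g : G)
    (hmap : L.map (MulAut.conj g).toMonoidHom = L) :
    (∀ l ∈ L, g * l * g⁻¹ ∈ L) ∧ (∀ l ∈ L, g⁻¹ * l * g ∈ L) := by
  constructor
  · intro l hl
    rw [← hmap]
    exact ⟨l, hl, rfl⟩
  · intro l hl
    rw [← hmap] at hl
    obtain ⟨a, ha, rfl⟩ := hl
    have : g⁻¹ * ((MulAut.conj g).toMonoidHom a) * g = a := by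
      show g⁻¹ * (g * a * g⁻¹) * g = a
      group
    rw [this]
    exact ha

theorem norm_cent {G : Type*} [Group G] (L : Subgroup G) (g : G)
    (hmap : L.map (MulAut.conj g).toMonoidHom = L) :
    g ∈ Subgroup.normalizer ((Subgroup.centralizer (L : Set G) : Subgroup G) : Set G) := by
  obtain ⟨hg1, hg2⟩ := conj_mem L g hmap
  rw [Subgroup.mem_normalizer_iff]
  intro n
  rw [Subgroup.mem_centralizer_iff, Subgroup.mem_centralizer_iff]
  constructor
  · intro hn l hl
    have := hn (g⁻¹ * l * g) (hg2 l hl)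
    calc l * (g * n * g⁻¹) = g * (g⁻¹ * l * g * n) * g⁻¹ := by group
      _ = g * (n * (g⁻¹ * l * g)) * g⁻¹ := by rw [this]
      _ = _ := by group
  · intro hn l hl
    have := hn (g * l * g⁻¹) (hg1 l hl)
    calc l * n = g⁻¹ * (g * l * g⁻¹ * (g * n * g⁻¹)) * g := by group
      _ = g⁻¹ * (g * n * g⁻¹ * (g * l * g⁻¹)) * g := by rw [this]
      _ = _ := by group

/-- Let G be finite, x an involution and L ≤ C_G(x) a component of C_G(x). Suppose L is a component of C_G(y) for every involution y ∈ C_G(L), and ⁅L, g L g⁻¹⁆ ≠ 1 whenever g L g⁻¹ ≠ L. Then L is a standard subgroup of G. -/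
theorem result {G : Type*} [Group G] [Finite G] (x : G) (hx : orderOf x = 2) (L : Subgroup G) (hLx : L ≤ Subgroup.centralizer ({x} : Set G)) (hL : Cfsg.IsComponent (L.subgroupOf (Subgroup.centralizer ({x} : Set G)))) (hne : ∀ y : G, orderOf y = 2 → y ∈ Subgroup.centralizer (L : Set G) → L ≤ Subgroup.centralizer ({y} : Set G) ∧ Cfsg.IsComponent (L.subgroupOf (Subgroup.centralizer ({y} : Set G)))) (hnc : ∀ g : G, L.map (MulAut.conj g).toMonoidHom ≠ L → ⁅L, L.map (MulAut.conj g).toMonoidHom⁆ ≠ ⊥) : Cfsg.IsStandardSubgroup L := by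
  classical
  have hxL : x ∈ Subgroup.centralizer (L : Set G) := by
    rw [Subgroup.mem_centralizer_iff]
    intro l hl
    have := hLx hl
    rw [Subgroup.mem_centralizer_singleton_iff] at this
    exact this
  have hK := key L hne hnc
  refine ⟨?_, ⟨?_, ?_⟩, hnc, ?_⟩
  · exact qs_of_equiv (Subgroup.subgroupOfEquivOfLe hLx) hL.2
  · have h2 : orderOf (⟨x, hxL⟩ : Subgroup.centralizer (L : Set G)) = 2 := by
      rw [Subgroup.orderOf_mk]; exact hx
    exact even_iff_two_dvd.mpr (h2 ▸ orderOf_dvd_natCard _)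
  · intro g hg
    by_contra hodd
    have heven := Nat.not_odd_iff_even.mp hodd
    haveI : Fact (Nat.Prime 2) := ⟨Nat.prime_two⟩
    obtain ⟨y, hy⟩ := exists_prime_orderOf_dvd_card' 2 (even_iff_two_dvd.mp heven)
    obtain ⟨k, hk, hky⟩ := Subgroup.mem_map.mp y.2.2
    have hy2 : orderOf (y : G) = 2 := by rw [Subgroup.orderOf_coe]; exact hy
    have hk2 : orderOf k = 2 := by
      rw [← hy2, ← hky]
      exact ((MulAut.conj g).orderOf_eq k).symm
    have hgk : g * k * g⁻¹ ∈ Subgroup.centralizer (L : Set G) := by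
      have : g * k * g⁻¹ = (y : G) := hky
      rw [this]; exact y.2.1
    exact hg (norm_cent L g (hK g k hk2 hk hgk))
  · ext g
    constructor
    · intro hg
      rw [Subgroup.mem_normalizer_iff] at hg
      apply norm_cent
      apply le_antisymm
      · rintro z ⟨a, ha, rfl⟩
        exact (hg a).mp ha
      · intro z hz
        refine ⟨g⁻¹ * z * g, (hg _).mpr ?_, ?_⟩
        · have : g * (g⁻¹ * z * g) * g⁻¹ = z := by group
          rw [this]; exact hz
        · show g * (g⁻¹ * z * g) * g⁻¹ = z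
          group
    · intro hg
      have hgx : g * x * g⁻¹ ∈ Subgroup.centralizer (L : Set G) :=
        ((Subgroup.mem_normalizer_iff.mp hg) x).mp hxL
      obtain ⟨hg1, hg2⟩ := conj_mem L g (hK g x hx hxL hgx)
      rw [Subgroup.mem_normalizer_iff]
      intro n
      constructor
      · exact hg1 n
      · intro h
        have h3 := hg2 _ h
        have : g⁻¹ * (g * n * g⁻¹) * g = n := by group
        rwa [this] at h3

end Cfsg.Agent.S1306
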