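import Cfsg.Statements.S1307
import Cfsg.Agent.S0016
import Cfsg.Agent.S0201
import Cfsg.Agent.S0219
import Cfsg.Agent.Lib.helper7.QS
import Cfsg.Agent.Lib.helper16.OddQuot
import Mathlib

set_option autoImplicit false
open Cfsg

namespace Cfsg.Agent.S1307

open Cfsg.Agent.Lib.helper7 Cfsg.Agent.Lib.helper16

theorem uniq2 {Q : Type*} [Group Q] [Finite Q] (hQ : IsPGroup 2 Q) [Nontrivial Q]
    (hrk : ∀ A : Subgroup Q, IsMulCommutative A → (∀ a ∈ A, a ^ 2 = 1) → Nat.card A ≤ 2) :
    ∀ H K : Subgroup Q, Nat.card H = 2 → Nat.card K = 2 → H = K := by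
  haveI : Fact (Nat.Prime 2) := ⟨Nat.prime_two⟩
  haveI hcn : Nontrivial (Subgroup.center Q) := hQ.center_nontrivial
  have h2 : 2 ∣ Nat.card (Subgroup.center Q) := by
    obtain ⟨k, hk⟩ := IsPGroup.iff_card.mp (hQ.to_subgroup (Subgroup.center Q))
    have hk0 : k ≠ 0 := by
      rintro rfl
      have : 1 < Nat.card (Subgroup.center Q) := Finite.one_lt_card
      rw [hk] at this
      simp at this
    rw [hk]; exact dvd_pow_self 2 hk0
  obtain ⟨z, hz⟩ := exists_prime_orderOf_dvd_card' 2 h2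
  have hz2 : orderOf (z : Q) = 2 := by rw [Subgroup.orderOf_coe]; exact hz
  have hZ0c : ∀ b ∈ Subgroup.zpowers (z : Q), ∀ g : Q, g * b = b * g := by
    intro b hb g
    have : b ∈ Subgroup.center Q := by
      obtain ⟨k, rfl⟩ := Subgroup.mem_zpowers_iff.mp hb
      exact Subgroup.zpow_mem _ z.2 k
    exact Subgroup.mem_center_iff.mp this g
  haveI hZ0n : (Subgroup.zpowers (z : Q)).Normal := ⟨fun n hn g => by
    have := hZ0c n hn g
    rw [this, mul_inv_cancel_right]; exact hn⟩
  have hZ0card : Nat.card (Subgroup.zpowers (z : Q)) = 2 := by rw [Nat.card_zpowers, hz2]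
  have hZ0sq : ∀ b ∈ Subgroup.zpowers (z : Q), b ^ 2 = 1 := by
    intro b hb
    have := pow_card_eq_one' (x := (⟨b, hb⟩ : Subgroup.zpowers (z : Q)))
    rw [hZ0card] at this
    simpa using congrArg Subtype.val this
  have key : ∀ H : Subgroup Q, Nat.card H = 2 → H = Subgroup.zpowers (z : Q) := by
    intro H hH
    have hHsq : ∀ a ∈ H, a ^ 2 = 1 := by
      intro a ha
      have := pow_card_eq_one' (x := (⟨a, ha⟩ : H))
      rw [hH] at this
      simpa using congrArg Subtype.val this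
    have hinv : ∀ a : Q, a ^ 2 = 1 → a⁻¹ = a := by
      intro a ha
      exact inv_eq_of_mul_eq_one_left (by rw [← sq]; exact ha)
    have hHcomm : ∀ a ∈ H, ∀ b ∈ H, a * b = b * a := by
      intro a ha b hb
      have h1 := hHsq (a * b) (H.mul_mem ha hb)
      have h2 := hinv _ h1
      rw [mul_inv_rev, hinv a (hHsq a ha), hinv b (hHsq b hb)] at h2
      exact h2.symm
    have hmem : ∀ x ∈ H ⊔ Subgroup.zpowers (z : Q), ∃ a ∈ H, ∃ b ∈ Subgroup.zpowers (z : Q),
        a * b = x := by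
      intro x hx
      have : x ∈ ((H ⊔ Subgroup.zpowers (z : Q) : Subgroup Q) : Set Q) := hx
      rw [Subgroup.mul_normal] at this
      exact Set.mem_mul.mp this
    have hA : Nat.card (H ⊔ Subgroup.zpowers (z : Q) : Subgroup Q) ≤ 2 := by
      apply hrk
      · rw [← Subgroup.le_centralizer_iff_isMulCommutative]
        intro x hx
        rw [Subgroup.mem_centralizer_iff]
        intro y hy
        obtain ⟨a, ha, b, hb, rfl⟩ := hmem x hx
        obtain ⟨a', ha', b', hb', rfl⟩ := hmem y hy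
        have e1 : b' * a = a * b' := (hZ0c b' hb' a).symm
        have e2 : a' * a = a * a' := hHcomm a' ha' a ha
        have e3 : b' * b = b * b' := hZ0c b hb b'
        have e4 : a' * b = b * a' := hZ0c b hb a'
        calc a' * b' * (a * b) = a' * (b' * a) * b := by group
          _ = a' * (a * b') * b := by rw [e1]
          _ = (a' * a) * (b' * b) := by group
          _ = (a * a') * (b * b') := by rw [e2, e3]
          _ = a * (a' * b) * b' := by group
          _ = a * (b * a') * b' := by rw [e4]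
          _ = a * b * (a' * b') := by group
      · intro x hx
        obtain ⟨a, ha, b, hb, rfl⟩ := hmem x hx
        have e1 : b * a = a * b := (hZ0c b hb a).symm
        calc (a * b) ^ 2 = a * (b * a) * b := by rw [sq]; group
          _ = a * (a * b) * b := by rw [e1]
          _ = a ^ 2 * b ^ 2 := by rw [sq, sq]; group
          _ = 1 := by rw [hHsq a ha, hZ0sq b hb, one_mul]
    have h1 : H = H ⊔ Subgroup.zpowers (z : Q) :=
      Subgroup.eq_of_le_of_card_ge le_sup_left (by rw [hH]; exact hA)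
    have h2 : Subgroup.zpowers (z : Q) = H ⊔ Subgroup.zpowers (z : Q) :=
      Subgroup.eq_of_le_of_card_ge le_sup_right (by rw [hZ0card]; exact hA)
    exact h1.trans h2.symm
  intro H K hH hK
  rw [key H hH, key K hK]

theorem exists_central_invol {X : Type*} [Group X] [Finite X] (hq : Cfsg.IsQuasisimple X)
    (heven : Even (Nat.card X)) (hrk : Cfsg.PRankLE 2 1 X) :
    ∃ t : X, orderOf t = 2 ∧ (∀ l : X, l * t = t * l) ∧
      ∃ S : Sylow 2 X, ∃ n : ℕ, Nonempty (↥(S : Subgroup X) ≃* QuaternionGroup (2 ^ (n + 1))) := by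
  haveI : Fact (Nat.Prime 2) := ⟨Nat.prime_two⟩
  obtain ⟨P⟩ : Nonempty (Sylow 2 X) := inferInstance
  have hPne : (P : Subgroup X) ≠ ⊥ := P.ne_bot_of_dvd_card (even_iff_two_dvd.mp heven)
  haveI hPnt : Nontrivial ↥(P : Subgroup X) := (Subgroup.nontrivial_iff_ne_bot _).mpr hPne
  have hrkP : ∀ A : Subgroup ↥(P : Subgroup X), IsMulCommutative A → (∀ a ∈ A, a ^ 2 = 1) →
      Nat.card A ≤ 2 := by
    intro A hAc hAe
    have h1 := hrk (A.map (P : Subgroup X).subtype) ?_ ?_
    · rw [Subgroup.card_map_of_injective (Subgroup.subtype_injective _)] at h1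
      simpa using h1
    · rw [← Subgroup.le_centralizer_iff_isMulCommutative]
      rintro x ⟨a, ha, rfl⟩
      rw [Subgroup.mem_centralizer_iff]
      rintro y ⟨b, hb, rfl⟩
      have hab : b * a = a * b := by
        have := mul_comm' (⟨b, hb⟩ : A) ⟨a, ha⟩
        exact congrArg Subtype.val this
      rw [← map_mul, ← map_mul, hab]
    · rintro x ⟨a, ha, rfl⟩
      rw [← map_pow, hAe a ha, map_one]
  have huniq := uniq2 P.2 hrkP
  have hnc : ¬ IsCyclic ↥(P : Subgroup X) := by
    intro hcyc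
    obtain ⟨H, hH⟩ := Cfsg.Agent.S0219.result heven P hcyc
    haveI := Subgroup.normal_of_index_eq_two hH
    have hcard : Nat.card (X ⧸ H) = 2 := by rw [← Subgroup.index_eq_card]; exact hH
    haveI : IsCyclic (X ⧸ H) := isCyclic_of_prime_card hcard
    have hcomm : IsMulCommutative (X ⧸ H) := ⟨⟨fun a b => by
      obtain ⟨g, hg⟩ := IsCyclic.exists_generator (α := X ⧸ H)
      obtain ⟨m, rfl⟩ := Subgroup.mem_zpowers_iff.mp (hg a)
      obtain ⟨k, rfl⟩ := Subgroup.mem_zpowers_iff.mp (hg b)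
      rw [← zpow_add, ← zpow_add, add_comm]⟩⟩
    have hle := Subgroup.Normal.quotient_commutative_iff_commutator_le.mp hcomm
    rw [qs_perfect hq, top_le_iff] at hle
    rw [hle, Subgroup.index_top] at hH
    omega
  obtain hcyc | ⟨-, n, ⟨e⟩⟩ := Cfsg.Agent.S0016.result 2 P.2 huniq
  · exact absurd hcyc hnc
  have hn0 : n ≠ 0 := by
    rintro rfl
    apply hnc
    haveI h1 : IsCyclic (QuaternionGroup (2 ^ 0)) := by
      rw [pow_zero]; exact QuaternionGroup.quaternionGroup_one_isCyclic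
    exact isCyclic_of_surjective e.symm.toMonoidHom e.symm.surjective
  obtain ⟨n', rfl⟩ := Nat.exists_eq_succ_of_ne_zero hn0
  have hNodd : (Nat.card (Cfsg.oddCore X)).Coprime 2 := oddCore_card_coprime X
  have hNn : (Cfsg.oddCore X).Normal := inferInstance
  have hNZ : Cfsg.oddCore X ≤ Subgroup.center X := by
    rcases qs_normal hq (Cfsg.oddCore X) hNn with h | h
    · exfalso
      rw [h, Subgroup.card_top] at hNodd
      have := Nat.coprime_two_right.mp hNodd
      exact (Nat.not_even_iff_odd.mpr this) heven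
    · exact h
  have hf : Function.Surjective (QuotientGroup.mk' (Cfsg.oddCore X)) :=
    QuotientGroup.mk'_surjective _
  have hg : Function.Injective
      ((QuotientGroup.mk' (Cfsg.oddCore X)).comp (P : Subgroup X).subtype) := by
    rw [injective_iff_map_eq_one]
    intro x hx
    have hxN : (x : X) ∈ Cfsg.oddCore X := (QuotientGroup.eq_one_iff (x : X)).mp hx
    obtain ⟨k, hk⟩ := (P.2) x
    have h1 : orderOf (x : X) ∣ 2 ^ k := by
      rw [Subgroup.orderOf_coe]; exact orderOf_dvd_of_pow_eq_one hk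
    have h2 : orderOf (x : X) ∣ Nat.card (Cfsg.oddCore X) := by
      have := orderOf_dvd_natCard (⟨(x : X), hxN⟩ : Cfsg.oddCore X)
      rwa [Subgroup.orderOf_mk] at this
    have h3 : orderOf (x : X) = 1 := by
      have := Nat.dvd_gcd h2 h1
      rw [Nat.Coprime.gcd_eq_one (hNodd.pow_right k)] at this
      exact Nat.dvd_one.mp this
    exact Subtype.ext (orderOf_eq_one_iff.mp h3)
  have hQ : ((P.mapSurjective hf : Sylow 2 (X ⧸ Cfsg.oddCore X)) : Subgroup (X ⧸ Cfsg.oddCore X)) =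
      ((QuotientGroup.mk' (Cfsg.oddCore X)).comp (P : Subgroup X).subtype).range := by
    rw [MonoidHom.range_comp, Subgroup.range_subtype]
    rfl
  have hO : ∀ M : Subgroup (X ⧸ Cfsg.oddCore X), M.Normal → Odd (Nat.card M) → M = ⊥ := by
    intro M hM hodd
    have := le_oddCore hM (Nat.coprime_two_right.mpr hodd)
    rw [oddCore_quotient_eq_bot] at this
    exact le_bot_iff.mp this
  have hc2 := Cfsg.Agent.S0201.result (P.mapSurjective hf) n'
    ((MulEquiv.subgroupCongr hQ).trans ((MonoidHom.ofInjective hg).symm.trans e)) hO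
  have hex : ∃ zb : X ⧸ Cfsg.oddCore X, zb ∈ Subgroup.center (X ⧸ Cfsg.oddCore X) ∧ zb ≠ 1 ∧
      zb ^ 2 = 1 := by
    have hnt : Nontrivial ↥(Subgroup.center (X ⧸ Cfsg.oddCore X)) := by
      rw [← Finite.one_lt_card_iff_nontrivial, hc2]; norm_num
    obtain ⟨z, hz⟩ := exists_ne (1 : ↥(Subgroup.center (X ⧸ Cfsg.oddCore X)))
    refine ⟨z.1, z.2, fun h => hz (Subtype.ext h), ?_⟩
    have := pow_card_eq_one' (x := z)
    rw [hc2] at this
    simpa using congrArg Subtype.val this
  obtain ⟨zb, hzc, hz1, hz2⟩ := hex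
  obtain ⟨u, rfl⟩ := QuotientGroup.mk_surjective zb
  obtain ⟨k, hk⟩ : Odd (Nat.card (Cfsg.oddCore X)) := Nat.coprime_two_right.mp hNodd
  have hmkt : ((u ^ (Nat.card (Cfsg.oddCore X)) : X) : X ⧸ Cfsg.oddCore X) = (u : X ⧸ Cfsg.oddCore X) := by
    rw [QuotientGroup.mk_pow, hk, pow_succ, pow_mul, hz2, one_pow, one_mul]
  have hu2 : u ^ 2 ∈ Cfsg.oddCore X := by
    rw [← QuotientGroup.eq_one_iff, QuotientGroup.mk_pow]; exact hz2
  have ht2 : (u ^ (Nat.card (Cfsg.oddCore X))) ^ 2 = 1 := by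
    rw [← pow_mul, mul_comm, pow_mul]
    have h := congrArg Subtype.val (pow_card_eq_one' (x := (⟨u ^ 2, hu2⟩ : Cfsg.oddCore X)))
    exact h
  have ht1 : u ^ (Nat.card (Cfsg.oddCore X)) ≠ 1 := by
    intro h
    apply hz1
    rw [← hmkt, h]; rfl
  have hto : orderOf (u ^ (Nat.card (Cfsg.oddCore X))) = 2 := orderOf_eq_prime ht2 ht1
  refine ⟨u ^ (Nat.card (Cfsg.oddCore X)), hto, ?_, P, n', ⟨e⟩⟩
  intro l
  generalize htdef : u ^ (Nat.card (Cfsg.oddCore X)) = t at hmkt ht2 ht1 hto ⊢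
  have hcN : l * t * l⁻¹ * t⁻¹ ∈ Cfsg.oddCore X := by
    rw [← QuotientGroup.eq_one_iff]
    simp only [QuotientGroup.mk_mul, QuotientGroup.mk_inv, hmkt]
    have := Subgroup.mem_center_iff.mp hzc (QuotientGroup.mk l)
    rw [this]; group
  have hcZ := Subgroup.mem_center_iff.mp (hNZ hcN)
  have hlt : l * t * l⁻¹ = (l * t * l⁻¹ * t⁻¹) * t := by group
  have hc2' : (l * t * l⁻¹ * t⁻¹) ^ 2 = 1 := by
    have h1 : (l * t * l⁻¹) ^ 2 = 1 := by
      rw [conj_pow, ht2]; simp
    rw [hlt] at h1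
    have h2 : ((l * t * l⁻¹ * t⁻¹) * t) ^ 2 = (l * t * l⁻¹ * t⁻¹) ^ 2 * t ^ 2 := by
      have := hcZ t
      calc ((l * t * l⁻¹ * t⁻¹) * t) ^ 2
          = (l * t * l⁻¹ * t⁻¹) * (t * (l * t * l⁻¹ * t⁻¹)) * t := by rw [sq]; group
        _ = (l * t * l⁻¹ * t⁻¹) * ((l * t * l⁻¹ * t⁻¹) * t) * t := by rw [this]
        _ = (l * t * l⁻¹ * t⁻¹) ^ 2 * t ^ 2 := by rw [sq, sq]; group
    rw [h2, ht2, mul_one] at h1
    exact h1
  have hcm : (l * t * l⁻¹ * t⁻¹) ^ (Nat.card (Cfsg.oddCore X)) = 1 := by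
    have h := congrArg Subtype.val (pow_card_eq_one' (x := (⟨_, hcN⟩ : Cfsg.oddCore X)))
    exact h
  have hc1 : l * t * l⁻¹ * t⁻¹ = 1 := by
    rw [hk, pow_succ, pow_mul, hc2', one_pow, one_mul] at hcm
    exact hcm
  calc l * t = (l * t * l⁻¹ * t⁻¹) * (t * l) := by group
    _ = t * l := by rw [hc1, one_mul]

/-- Let G be finite, x an involution and L ≤ C_G(x) a component of C_G(x) of even order and 2-rank 1, such that L is a component of C_G(y) for every involution y ∈ C_G(L). Then some involution of L is a classical involution of G. -/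
theorem result {G : Type*} [Group G] [Finite G] (x : G) (hx : orderOf x = 2) (L : Subgroup G) (hLx : L ≤ Subgroup.centralizer ({x} : Set G)) (hL : Cfsg.IsComponent (L.subgroupOf (Subgroup.centralizer ({x} : Set G)))) (heven : Even (Nat.card ↥L)) (hrk : Cfsg.PRankLE 2 1 ↥L) (hne : ∀ y : G, orderOf y = 2 → y ∈ Subgroup.centralizer (L : Set G) → L ≤ Subgroup.centralizer ({y} : Set G) ∧ Cfsg.IsComponent (L.subgroupOf (Subgroup.centralizer ({y} : Set G)))) : ∃ t ∈ L, Cfsg.IsClassicalInvolution t := by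
  have hq : Cfsg.IsQuasisimple ↥L := qs_of_equiv (Subgroup.subgroupOfEquivOfLe hLx) hL.2
  obtain ⟨t, hto, hcent, S, n, he⟩ := exists_central_invol hq heven hrk
  have ht2 : orderOf (t : G) = 2 := by rw [Subgroup.orderOf_coe]; exact hto
  have htc : (t : G) ∈ Subgroup.centralizer (L : Set G) := by
    rw [Subgroup.mem_centralizer_iff]
    intro l hl
    exact congrArg Subtype.val (hcent ⟨l, hl⟩)
  obtain ⟨h1, h2⟩ := hne (t : G) ht2 htc
  exact ⟨t, t.2, ht2, L, h1, t.2, h2.1, S, n, he⟩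

end Cfsg.Agent.S1307
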