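import Cfsg.Statements.S1314
import Cfsg.Agent.Lib.helper7.Derived

set_option autoImplicit false
open Cfsg

namespace Cfsg.Agent.S1314

open Subgroup Cfsg.Agent.Lib.helper7 in
theorem aux {G : Type*} [Group G] (x : G) (hx : orderOf x = 2) (L : Subgroup G)
    (hperf : ⁅L, L⁆ = L) (hcomm : ⁅L, L.map (MulAut.conj x).toMonoidHom⁆ = ⊥) :
    ∃ π : ↥L →* G, (∀ l : ↥L, π l = (l : G) * (x * (l : G) * x⁻¹)) ∧
      π.ker ≤ Subgroup.center ↥L ∧ π.range ≤ Subgroup.centralizer ({x} : Set G) ∧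
      ⁅(L ⊔ L.map (MulAut.conj x).toMonoidHom) ⊓ Subgroup.centralizer ({x} : Set G),
        (L ⊔ L.map (MulAut.conj x).toMonoidHom) ⊓ Subgroup.centralizer ({x} : Set G)⁆ =
        π.range := by
  set L' : Subgroup G := L.map (MulAut.conj x).toMonoidHom with hL'
  have hx2 : x * x = 1 := by
    have := pow_orderOf_eq_one x
    rwa [hx, pow_two] at this
  have hxinv : x⁻¹ = x := inv_eq_of_mul_eq_one_left hx2
  have hmemL' : ∀ l ∈ L, x * l * x⁻¹ ∈ L' := fun l hl => ⟨l, hl, rfl⟩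
  -- elements of L commute with elements of L'
  have hc : ∀ a ∈ L, ∀ c ∈ L', a * c = c * a := by
    intro a ha c hc
    have h1 : L ≤ centralizer (L' : Set G) := Subgroup.commutator_eq_bot_iff_le_centralizer.mp hcomm
    exact (mem_centralizer_iff.mp (h1 ha) c hc).symm
  let π : ↥L →* G :=
    { toFun := fun l => (l : G) * (x * (l : G) * x⁻¹)
      map_one' := by simp
      map_mul' := by
        intro l m
        have h := hc m m.2 (x * l * x⁻¹) (hmemL' l l.2)
        show ((l * m : L) : G) * (x * ((l * m : L) : G) * x⁻¹) = _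
        rw [Subgroup.coe_mul]
        calc (l : G) * m * (x * ((l : G) * m) * x⁻¹)
            = l * ((m : G) * (x * l * x⁻¹)) * (x * m * x⁻¹) := by group
          _ = l * ((x * l * x⁻¹) * m) * (x * m * x⁻¹) := by rw [h]
          _ = l * (x * l * x⁻¹) * (m * (x * m * x⁻¹)) := by group }
  have hπ : ∀ l : ↥L, π l = (l : G) * (x * (l : G) * x⁻¹) := fun l => rfl
  have hπmem : π.range ≤ L ⊔ L' := by
    rintro _ ⟨l, rfl⟩
    rw [hπ]
    exact mul_mem ((le_sup_left : L ≤ L ⊔ L') l.2) ((le_sup_right : L' ≤ L ⊔ L') (hmemL' l l.2))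
  have hπcent : π.range ≤ centralizer ({x} : Set G) := by
    rintro _ ⟨l, rfl⟩
    rw [mem_centralizer_iff]
    intro y hy
    rw [Set.mem_singleton_iff] at hy
    subst hy
    rw [hπ]
    have h := hc l l.2 (y * l * y⁻¹) (hmemL' l l.2)
    rw [hxinv] at h ⊢
    calc y * ((l : G) * (y * l * y)) = y * ((y * l * y) * l) := by rw [h]
      _ = (y * y) * l * y * l := by group
      _ = l * y * l * (y * y) := by rw [hx2]; group
      _ = l * (y * l * y) * y := by group
  refine ⟨π, hπ, ?_, hπcent, ?_⟩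
  · intro l hl
    rw [MonoidHom.mem_ker, hπ] at hl
    have h1 : (l : G) ∈ L' := by
      have h2 : (l : G) = x * (l : G)⁻¹ * x⁻¹ := by
        have h3 := eq_inv_of_mul_eq_one_left hl
        calc (l : G) = (x * (l : G) * x⁻¹)⁻¹ := h3
          _ = x * (l : G)⁻¹ * x⁻¹ := by group
      rw [h2]
      exact hmemL' _ (inv_mem l.2)
    rw [Subgroup.mem_center_iff]
    intro m
    apply Subtype.ext
    exact hc m m.2 l h1
  · set Z₀ : Subgroup G := L ⊓ L' with hZ₀
    have hZπ : ∀ e ∈ Z₀, ∀ a ∈ π.range, e * a = a * e := by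
      rintro e he _ ⟨l, rfl⟩
      obtain ⟨he1, he2⟩ := Subgroup.mem_inf.mp he
      rw [hπ]
      have h1 : (l : G) * e = e * l := hc l l.2 e he2
      have h2 : e * (x * l * x⁻¹) = (x * l * x⁻¹) * e := hc e he1 _ (hmemL' l l.2)
      calc e * ((l : G) * (x * l * x⁻¹)) = (e * l) * (x * l * x⁻¹) := by group
        _ = (l * e) * (x * l * x⁻¹) := by rw [h1]
        _ = l * (e * (x * l * x⁻¹)) := by group
        _ = l * ((x * l * x⁻¹) * e) := by rw [h2]
        _ = (l : G) * (x * l * x⁻¹) * e := by group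
    have hZZ : ⁅Z₀, Z₀⁆ = ⊥ := by
      rw [Subgroup.commutator_eq_bot_iff_le_centralizer]
      intro e he
      rw [mem_centralizer_iff]
      intro e' he'
      exact (hc e (Subgroup.mem_inf.mp he).1 e' (Subgroup.mem_inf.mp he').2).symm
    have hD : (L ⊔ L') ⊓ centralizer ({x} : Set G) ≤ Z₀ ⊔ π.range := by
      intro d hd
      obtain ⟨hd1, hd2⟩ := Subgroup.mem_inf.mp hd
      obtain ⟨a, ha, b', hb', rfl⟩ := mem_sup_of_comm hc hd1
      obtain ⟨b, hb, rfl⟩ := hb'
      simp only [MulEquiv.coe_toMonoidHom, MulAut.conj_apply] at hd2 hd1 ⊢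
      have h1 : x * (a * (x * b * x⁻¹)) = (a * (x * b * x⁻¹)) * x :=
        mem_centralizer_iff.mp hd2 x rfl
      have h2 : (x * a * x⁻¹) * b = a * (x * b * x⁻¹) := by
        have e1 : (x * a * x⁻¹) * b = x * (a * (x * b * x⁻¹)) * x⁻¹ := by
          rw [hxinv]
          calc x * a * x * b = x * a * x * b * (x * x) := by rw [hx2, mul_one]
            _ = x * (a * (x * b * x)) * x := by group
        rw [e1, h1]; group
      have h3 : b * (x * a * x⁻¹) = (x * a * x⁻¹) * b := hc b hb _ (hmemL' a ha)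
      have h4 : a⁻¹ * b = x * (b * a⁻¹) * x⁻¹ := by
        have e2 : b * (x * a * x⁻¹) = a * (x * b * x⁻¹) := h3.trans h2
        calc a⁻¹ * b = a⁻¹ * (b * (x * a * x⁻¹)) * (x * a * x⁻¹)⁻¹ := by group
          _ = a⁻¹ * (a * (x * b * x⁻¹)) * (x * a * x⁻¹)⁻¹ := by rw [e2]
          _ = x * (b * a⁻¹) * x⁻¹ := by group
      have h5 : a⁻¹ * b ∈ Z₀ := Subgroup.mem_inf.mpr ⟨mul_mem (inv_mem ha) hb, by
        rw [h4]; exact hmemL' _ (mul_mem hb (inv_mem ha))⟩
      have h6 : b⁻¹ * a ∈ Z₀ := by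
        have := inv_mem h5
        simpa using this
      have h7 : b * (b⁻¹ * a) = (b⁻¹ * a) * b := hc b hb _ (Subgroup.mem_inf.mp h6).2
      have h8 : a * (x * b * x⁻¹) = (b⁻¹ * a) * π ⟨b, hb⟩ := by
        rw [hπ]
        calc a * (x * b * x⁻¹) = (b * (b⁻¹ * a)) * (x * b * x⁻¹) := by group
          _ = ((b⁻¹ * a) * b) * (x * b * x⁻¹) := by rw [h7]
          _ = (b⁻¹ * a) * (b * (x * b * x⁻¹)) := by group
      rw [h8]
      exact mul_mem ((le_sup_left : Z₀ ≤ Z₀ ⊔ π.range) h6)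
        ((le_sup_right : π.range ≤ Z₀ ⊔ π.range) ⟨⟨b, hb⟩, rfl⟩)
    apply le_antisymm
    · calc ⁅(L ⊔ L') ⊓ centralizer ({x} : Set G), (L ⊔ L') ⊓ centralizer ({x} : Set G)⁆
          ≤ ⁅Z₀ ⊔ π.range, Z₀ ⊔ π.range⁆ := Subgroup.commutator_mono hD hD
        _ ≤ ⁅Z₀, Z₀⁆ ⊔ ⁅π.range, π.range⁆ := commutator_sup_le_of_comm hZπ
        _ ≤ π.range := by
          rw [hZZ, bot_sup_eq]
          exact Subgroup.commutator_le_self _
    · have hperf' : ⁅(⊤ : Subgroup L), (⊤ : Subgroup L)⁆ = (⊤ : Subgroup L) := by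
        apply Subgroup.map_injective L.subtype_injective
        rw [Subgroup.map_commutator, ← MonoidHom.range_eq_map, Subgroup.range_subtype, hperf]
      have h1 : π.range = ⁅π.range, π.range⁆ := by
        have e1 : π.range = (⊤ : Subgroup L).map π := MonoidHom.range_eq_map π
        have e2 : Subgroup.map π ⁅(⊤ : Subgroup L), (⊤ : Subgroup L)⁆ =
            ⁅(⊤ : Subgroup L).map π, (⊤ : Subgroup L).map π⁆ :=
          Subgroup.map_commutator _ _ π
        rw [hperf'] at e2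
        rw [← e1] at e2
        exact e2
      rw [h1]
      exact Subgroup.commutator_mono (le_inf hπmem hπcent) (le_inf hπmem hπcent)

/-- Let x be an involution of a group G and L a perfect subgroup with ⁅L, x L x⁻¹⁆ = 1. Then l ↦ l (x l x⁻¹) is a group homomorphism π from L to G whose kernel is central in L and whose image lies in C_G(x); and the commutator subgroup of C_{L ⊔ xLx⁻¹}(x) equals the image of π. -/
theorem result {G : Type*} [Group G] [Finite G] (x : G) (hx : orderOf x = 2) (L : Subgroup G) (hperf : ⁅L, L⁆ = L) (hcomm : ⁅L, L.map (MulAut.conj x).toMonoidHom⁆ = ⊥) : ∃ π : ↥L →* G, (∀ l : ↥L, π l = (l : G) * (x * (l : G) * x⁻¹)) ∧ π.ker ≤ Subgroup.center ↥L ∧ π.range ≤ Subgroup.centralizer ({x} : Set G) ∧ ⁅(L ⊔ L.map (MulAut.conj x).toMonoidHom) ⊓ Subgroup.centralizer ({x} : Set G), (L ⊔ L.map (MulAut.conj x).toMonoidHom) ⊓ Subgroup.centralizer ({x} : Set G)⁆ = π.range := by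
  exact aux x hx L hperf hcomm

end Cfsg.Agent.S1314
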