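import Cfsg.Statements.S1321
import Cfsg.Agent.Lib.helper7.FStar

set_option autoImplicit false
open Cfsg

namespace Cfsg.Agent.S1321

open scoped commutatorElement in
theorem comm_identity {X : Type*} [Group X] (u g₁ g₂ : X)
    (h : (u * g₁⁻¹ * u⁻¹) * (g₁ * g₂ * g₁⁻¹) = (g₁ * g₂ * g₁⁻¹) * (u * g₁⁻¹ * u⁻¹)) :
    ⁅g₁, g₂⁆ = ⁅⁅u, g₁⁻¹⁆, g₂⁆ := by
  simp only [commutatorElement_def]
  symm
  calc u * g₁⁻¹ * u⁻¹ * g₁⁻¹⁻¹ * g₂ * (u * g₁⁻¹ * u⁻¹ * g₁⁻¹⁻¹)⁻¹ * g₂⁻¹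
      = ((u * g₁⁻¹ * u⁻¹) * (g₁ * g₂ * g₁⁻¹)) * (u * g₁⁻¹ * u⁻¹)⁻¹ * g₂⁻¹ := by group
    _ = ((g₁ * g₂ * g₁⁻¹) * (u * g₁⁻¹ * u⁻¹)) * (u * g₁⁻¹ * u⁻¹)⁻¹ * g₂⁻¹ := by rw [h]
    _ = g₁ * g₂ * g₁⁻¹ * g₂⁻¹ := by group

open Cfsg.Agent.Lib.helper7 in
theorem comp_le {X : Type*} [Group X] [Finite X] (U L : Subgroup X) (hL : Cfsg.IsComponent L) :
    L ≤ (Cfsg.layer X ⊓ Subgroup.centralizer (U : Set X)) ⊔ ⁅Cfsg.layer X, U⁆ := by
  have hLE : L ≤ Cfsg.layer X := comp_le_layer hL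
  have hperf : ⁅L, L⁆ = L := Subgroup.isPerfect_iff.mp hL.2.1
  by_cases hU : U ≤ Subgroup.normalizer (L : Set X)
  · have h1 : ⁅L, U⁆ ≤ L := Subgroup.le_normalizer_iff_commutator_le_left.mp hU
    have h2 : L ≤ Subgroup.normalizer ((⁅L, U⁆ : Subgroup X) : Set X) :=
      Subgroup.normalizer_commutator_ge_left L U
    have h3 : ((⁅L, U⁆).subgroupOf L).Normal :=
      (Subgroup.normal_subgroupOf_iff_le_normalizer h1).mpr h2
    rcases qs_normal hL.2 _ h3 with h | h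
    · rw [Subgroup.subgroupOf_eq_top] at h
      exact (h.trans (Subgroup.commutator_mono hLE le_rfl)).trans le_sup_right
    · have h4 : ⁅⁅L, U⁆, L⁆ = ⊥ := by
        rw [Subgroup.commutator_eq_bot_iff_le_centralizer]
        intro x hx
        rw [Subgroup.mem_centralizer_iff]
        intro l hl
        have := Subgroup.mem_center_iff.mp (h (show (⟨x, h1 hx⟩ : L) ∈ (⁅L, U⁆).subgroupOf L from hx))
          ⟨l, hl⟩
        exact congrArg Subtype.val this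
      have h5 : ⁅⁅U, L⁆, L⁆ = ⊥ := by rwa [Subgroup.commutator_comm U L]
      have h6 : ⁅⁅L, L⁆, U⁆ = ⊥ := Subgroup.commutator_commutator_eq_bot_of_rotate h4 h5
      rw [hperf, Subgroup.commutator_eq_bot_iff_le_centralizer] at h6
      exact (le_inf hLE h6).trans le_sup_left
  · obtain ⟨u, huU, hu⟩ := Set.not_subset.mp hU
    have hcomp : Cfsg.IsComponent (L.map (MulAut.conj u).toMonoidHom) := comp_map_equiv _ hL
    have hne : L.map (MulAut.conj u).toMonoidHom ≠ L := by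
      intro h
      apply hu
      rw [SetLike.mem_coe, Subgroup.mem_normalizer_iff_map_conj_eq]
      exact h
    have hcomm := comp_comm_of_ne hcomp hL hne
    rw [Subgroup.commutator_eq_bot_iff_le_centralizer] at hcomm
    have hD : ⁅⁅Cfsg.layer X, U⁆, Cfsg.layer X⁆ ≤ ⁅Cfsg.layer X, U⁆ :=
      Subgroup.le_normalizer_iff_commutator_le_left.mp
        (Subgroup.normalizer_commutator_ge_left (Cfsg.layer X) U)
    have hLD : L ≤ ⁅Cfsg.layer X, U⁆ := by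
      conv_lhs => rw [← hperf]
      rw [Subgroup.commutator_le]
      intro g₁ hg₁ g₂ hg₂
      have ha : u * g₁⁻¹ * u⁻¹ ∈ L.map (MulAut.conj u).toMonoidHom :=
        ⟨g₁⁻¹, L.inv_mem hg₁, rfl⟩
      have hc := Subgroup.mem_centralizer_iff.mp (hcomm ha) (g₁ * g₂ * g₁⁻¹)
        (L.mul_mem (L.mul_mem hg₁ hg₂) (L.inv_mem hg₁))
      rw [comm_identity u g₁ g₂ hc.symm]
      apply hD
      apply Subgroup.commutator_mem_commutator _ (hLE hg₂)
      rw [Subgroup.commutator_comm]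
      exact Subgroup.commutator_mem_commutator huU (hLE (L.inv_mem hg₁))
    exact hLD.trans le_sup_right

/-- Let X be finite and U ≤ X. Then E(X) is generated by C_{E(X)}(U) together with ⁅E(X), U⁆ (indeed it is their product, ⁅E(X), U⁆ being normal in E(X)). -/
theorem result {X : Type*} [Group X] [Finite X] (U : Subgroup X) : Cfsg.layer X = (Cfsg.layer X ⊓ Subgroup.centralizer (U : Set X)) ⊔ ⁅Cfsg.layer X, U⁆ ∧ ⁅Cfsg.layer X, U⁆ ≤ Cfsg.layer X := by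
  have h2 : ⁅Cfsg.layer X, U⁆ ≤ Cfsg.layer X := Subgroup.commutator_le_left _ _
  refine ⟨le_antisymm ?_ (sup_le inf_le_left h2), h2⟩
  apply sSup_le
  intro L hL
  exact comp_le U L hL

end Cfsg.Agent.S1321
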