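import Cfsg.Statements.S1326
import Cfsg.Agent.Lib.helper7.FStar

set_option autoImplicit false
open Cfsg

namespace Cfsg.Agent.S1326

/-- For a finite group X: the Fitting subgroup contains its centralizer if and only if the layer of X is trivial. -/
theorem result {X : Type*} [Group X] [Finite X] : Subgroup.centralizer (Cfsg.fittingSubgroup X : Set X) ≤ Cfsg.fittingSubgroup X ↔ Cfsg.layer X = ⊥ := by
  constructor
  · intro h
    have hE : Cfsg.layer X ≤ Cfsg.fittingSubgroup X := by
      have := Cfsg.Agent.Lib.helper7.layer_comm_fitting X
      rw [Subgroup.commutator_eq_bot_iff_le_centralizer] at this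
      exact this.trans h
    have hsolv : Group.IsSolvable ↥(Cfsg.fittingSubgroup X) := by
      have := Cfsg.Agent.Lib.helper7.fitting_nilpotent X
      infer_instance
    rw [eq_bot_iff]
    apply sSup_le
    intro L hL
    exact absurd ((Cfsg.Agent.Lib.helper7.comp_le_layer hL).trans hE)
      (Cfsg.Agent.Lib.helper7.comp_not_le_solvable hL hsolv)
  · intro h
    have := Cfsg.Agent.Lib.helper7.centralizer_genFitting_le X
    unfold Cfsg.generalizedFittingSubgroup at this
    rwa [h, bot_sup_eq] at this

end Cfsg.Agent.S1326
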