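import Cfsg.Statements.S1331
import Cfsg.Agent.Lib.helper7.Sig

set_option autoImplicit false
open Cfsg

namespace Cfsg.Agent.S1331

open Subgroup Cfsg.Agent.Lib.helper7 Cfsg.Agent.Lib.helper8 Cfsg.Agent.Lib.helper9 in
theorem aux {G : Type*} [Group G] [Finite G] (p : ℕ) [Fact p.Prime] (A : Subgroup G)
    (hA : Cfsg.IsElementaryAbelian p A) (θ : G → Subgroup G)
    (X : Subgroup G) (hX : X ∈ Cfsg.signalizerFamily p A θ) (B : Subgroup G) (hB : B ≤ A)
    (hB2 : p ^ 2 ≤ Nat.card ↥B) :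
    X = ⨆ D : {D : Subgroup G // D ≤ B ∧ D.relIndex B = p},
      X ⊓ Cfsg.signalizerInf (D : Subgroup G) θ := by
  have hpp : p.Prime := Fact.out
  apply le_antisymm _ (iSup_le fun D => inf_le_left)
  have hBea := ea_le hA hB
  haveI := hBea.1
  have hB1 : B ≠ ⊥ := by
    intro h
    rw [h, Subgroup.card_bot] at hB2
    have : 1 < p ^ 2 := Nat.one_lt_pow (by norm_num) hpp.one_lt
    omega
  apply gen_main B X (hB.trans (fam_le_normalizer hX)) (ea_coprime hBea hX.2.1)
  intro B₀ hB₀ ⟨a, ha, hBa⟩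
  obtain ⟨D, hD1, hD2⟩ := exists_hyperplane_le (ea_isPGroup hBea) hB1 hB₀
    (ea_card_dvd hBea hB₀ ha hBa)
  have hDA : D ≤ A := hD1.trans (hB₀.trans hB)
  have h1 : X ⊓ centralizer (B₀ : Set G) ≤ X ⊓ Cfsg.signalizerInf D θ := by
    refine le_inf inf_le_left ?_
    refine le_trans ?_ (fam_cent_le_sigInf hX hDA)
    exact inf_le_inf_left _ (Subgroup.centralizer_le hD1)
  exact h1.trans (le_iSup (fun D : {D : Subgroup G // D ≤ B ∧ D.relIndex B = p} =>
    X ⊓ Cfsg.signalizerInf (D : Subgroup G) θ) ⟨D, hD1.trans hB₀, hD2⟩)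

/-- Let θ be a solvable A-signalizer functor on the finite group G for the prime p, A elementary abelian of rank at least 3, X a member of the family of θ, and B ≤ A with |B| ≥ p². Then X is generated by the subgroups X ∩ ⋂_{d ∈ D, d ≠ 1} θ d, D ranging over the subgroups of index p in B. -/
theorem result {G : Type*} [Group G] [Finite G] (p : ℕ) [Fact p.Prime] (A : Subgroup G) (hA : Cfsg.IsElementaryAbelian p A) (hA3 : p ^ 3 ≤ Nat.card ↥A) (θ : G → Subgroup G) (hθ : Cfsg.IsSolvableSignalizerFunctor p A θ) (X : Subgroup G) (hX : X ∈ Cfsg.signalizerFamily p A θ) (B : Subgroup G) (hB : B ≤ A) (hB2 : p ^ 2 ≤ Nat.card ↥B) : X = ⨆ D : {D : Subgroup G // D ≤ B ∧ D.relIndex B = p}, X ⊓ Cfsg.signalizerInf (D : Subgroup G) θ := by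
  exact aux p A hA θ X hX B hB hB2

end Cfsg.Agent.S1331
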