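import Cfsg.Statements.S1335
import Cfsg.Agent.Lib.helper7.Stab

set_option autoImplicit false
open Cfsg

namespace Cfsg.Agent.S1335

theorem pRankLE_of_equiv {X Y : Type*} [Group X] [Group Y] (e : X ≃* Y) {p k : ℕ}
    (h : Cfsg.PRankLE p k X) : Cfsg.PRankLE p k Y := by
  intro A hAc hAp
  have h1 := h (A.map e.symm.toMonoidHom)
    ⟨⟨fun a b => by
      obtain ⟨a', ha', haa⟩ := a.2
      obtain ⟨b', hb', hbb⟩ := b.2
      apply Subtype.ext
      have hc : a' * b' = b' * a' := congrArg Subtype.val (mul_comm' (⟨a', ha'⟩ : A) ⟨b', hb'⟩)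
      show (a : X) * (b : X) = (b : X) * (a : X)
      rw [← haa, ← hbb, ← map_mul, ← map_mul, hc]⟩⟩
    (by
      rintro _ ⟨a, ha, rfl⟩
      rw [← map_pow, hAp a ha, map_one])
  rwa [Subgroup.card_map_of_injective e.symm.injective] at h1

open Subgroup Cfsg.Agent.Lib.helper7 Cfsg.Agent.Lib.helper8 in
theorem aux {G : Type*} [Group G] [Finite G] {p : ℕ} [Fact p.Prime] (k : ℕ)
    (H : Subgroup G) (P : Sylow p ↥H) (hP : ¬ Cfsg.PRankLE p (k - 1) ↥(P : Subgroup ↥H))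
    (hΓ : (∀ X : Subgroup G, X ≤ (P : Subgroup ↥H).map H.subtype →
      ¬ Cfsg.PRankLE p (k - 1) ↥X → Subgroup.normalizer (X : Set G) ≤ H)) :
    ∃ Q : Sylow p G, (Q : Subgroup G) = (P : Subgroup ↥H).map H.subtype := by
  set P' : Subgroup G := (P : Subgroup ↥H).map H.subtype with hP'
  have hP'H : P' ≤ H := Subgroup.map_subtype_le _
  have hP'p : IsPGroup p P' := P.2.map _
  have hrk : ¬ Cfsg.PRankLE p (k - 1) ↥P' := by
    intro h
    apply hP
    exact pRankLE_of_equiv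
      ((P : Subgroup ↥H).equivMapOfInjective H.subtype H.subtype_injective).symm h
  have hN : normalizer (P' : Set G) ≤ H := hΓ P' le_rfl hrk
  obtain ⟨Q, hQ⟩ := hP'p.exists_le_sylow
  refine ⟨Q, ?_⟩
  by_contra hne
  have hlt : P' < (Q : Subgroup G) := lt_of_le_of_ne hQ (Ne.symm hne)
  obtain ⟨s, hsQ, hsN, hsP⟩ := normalizer_grows Q.2 hlt
  have hsH : s ∈ H := hN hsN
  have hzp : IsPGroup p (zpowers s) := Q.2.to_le (zpowers_le.mpr hsQ)
  have hsup : IsPGroup p (P' ⊔ zpowers s : Subgroup G) :=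
    hP'p.to_sup_of_normal_left' hzp (zpowers_le.mpr hsN)
  have hsupH : P' ⊔ zpowers s ≤ H := sup_le hP'H (zpowers_le.mpr hsH)
  have h1 : IsPGroup p ((P' ⊔ zpowers s).subgroupOf H) := hsup.comap_subtype
  have h2 : (P : Subgroup ↥H) ≤ (P' ⊔ zpowers s).subgroupOf H := by
    intro y hy
    rw [mem_subgroupOf]
    exact (le_sup_left : P' ≤ P' ⊔ zpowers s) ⟨y, hy, rfl⟩
  have h3 := P.is_maximal' h1 h2
  have h4 : (⟨s, hsH⟩ : H) ∈ (P : Subgroup ↥H) := by
    rw [← h3, mem_subgroupOf]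
    exact (le_sup_right : zpowers s ≤ P' ⊔ zpowers s) (mem_zpowers s)
  exact hsP ⟨⟨s, hsH⟩, h4, rfl⟩

/-- Let H be a subgroup of the finite group G, p a prime, k ≥ 1, P a Sylow p-subgroup of H of p-rank at least k, and suppose N_G(X) ≤ H for every subgroup X ≤ P of p-rank at least k. Then P is a Sylow p-subgroup of G. -/
theorem result {G : Type*} [Group G] [Finite G] {p : ℕ} [Fact p.Prime] (k : ℕ) (hk : 1 ≤ k) (H : Subgroup G) (P : Sylow p ↥H) (hP : ¬ Cfsg.PRankLE p (k - 1) ↥(P : Subgroup ↥H)) (hΓ : (∀ X : Subgroup G, X ≤ (P : Subgroup ↥H).map H.subtype → ¬ Cfsg.PRankLE p (k - 1) ↥X → Subgroup.normalizer (X : Set G) ≤ H)) : ∃ Q : Sylow p G, (Q : Subgroup G) = (P : Subgroup ↥H).map H.subtype := by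
  exact aux k H P hP hΓ

end Cfsg.Agent.S1335
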