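import Cfsg.Statements.S1336
import Cfsg.Agent.Lib.helper9.StrEmb2

set_option autoImplicit false
open Cfsg

namespace Cfsg.Agent.S1336

open Cfsg.Agent.Lib.helper9

variable {G : Type*} [Group G]

def R (p : ℕ) (A B : Subgroup G) : Prop :=
  IsElementaryAbelian p A ∧ p ^ 1 ≤ Nat.card ↥A ∧ IsElementaryAbelian p B ∧
        p ^ 1 ≤ Nat.card ↥B ∧ ∀ a ∈ A, ∀ b ∈ B, a * b = b * a

theorem rtg_symm {α : Type*} {r : α → α → Prop} (hs : ∀ a b, r a b → r b a) {a b : α}
    (h : Relation.ReflTransGen r a b) : Relation.ReflTransGen r b a := by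
  induction h with
  | refl => exact Relation.ReflTransGen.refl
  | tail _ hbc ih => exact Relation.ReflTransGen.head (hs _ _ hbc) ih

theorem R_symm (p : ℕ) (A B : Subgroup G) (h : R p A B) : R p B A :=
  ⟨h.2.2.1, h.2.2.2.1, h.1, h.2.1, fun a ha b hb => (h.2.2.2.2 b hb a ha).symm⟩

theorem ea_conj {p : ℕ} {A : Subgroup G} (g : G) (h : IsElementaryAbelian p A) :
    IsElementaryAbelian p (A.map (MulAut.conj g).toMonoidHom) := by
  refine ⟨IsMulCommutative.of_setLike_mul_comm ?_, ?_⟩
  · rintro _ ⟨a, ha, rfl⟩ _ ⟨b, hb, rfl⟩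
    haveI := h.1
    have hab : a * b = b * a := setLike_mul_comm ha hb
    rw [← map_mul, ← map_mul, hab]
  · rintro _ ⟨a, ha, rfl⟩
    rw [← map_pow, h.2 a ha, map_one]

theorem R_conj [Finite G] {p : ℕ} {A B : Subgroup G} (g : G) (h : R p A B) :
    R p (A.map (MulAut.conj g).toMonoidHom) (B.map (MulAut.conj g).toMonoidHom) := by
  refine ⟨ea_conj g h.1, ?_, ea_conj g h.2.2.1, ?_, ?_⟩
  · rw [card_map_conj]; exact h.2.1
  · rw [card_map_conj]; exact h.2.2.2.1
  · rintro _ ⟨a, ha, rfl⟩ _ ⟨b, hb, rfl⟩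
    rw [← map_mul, ← map_mul, h.2.2.2.2 a ha b hb]

theorem rtg_conj [Finite G] {p : ℕ} {A B : Subgroup G} (g : G)
    (h : Relation.ReflTransGen (R p) A B) :
    Relation.ReflTransGen (R p) (A.map (MulAut.conj g).toMonoidHom)
      (B.map (MulAut.conj g).toMonoidHom) := by
  induction h with
  | refl => exact Relation.ReflTransGen.refl
  | tail _ hbc ih => exact ih.tail (R_conj g hbc)

theorem map_conj_conj (A : Subgroup G) (g h : G) :
    (A.map (MulAut.conj h).toMonoidHom).map (MulAut.conj g).toMonoidHom =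
      A.map (MulAut.conj (g * h)).toMonoidHom := by
  ext x
  rw [mem_map_conj', mem_map_conj', mem_map_conj']
  have e : h⁻¹ * (g⁻¹ * x * g) * h = (g * h)⁻¹ * x * (g * h) := by group
  rw [e]

theorem map_conj_one (A : Subgroup G) : A.map (MulAut.conj (1 : G)).toMonoidHom = A := by
  ext x
  rw [mem_map_conj']
  simp

theorem map_conj_inv_self (A : Subgroup G) (g : G) :
    (A.map (MulAut.conj g).toMonoidHom).map (MulAut.conj g⁻¹).toMonoidHom = A := by
  rw [map_conj_conj, inv_mul_cancel, map_conj_one]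

theorem map_conj_self_inv (A : Subgroup G) (g : G) :
    (A.map (MulAut.conj g⁻¹).toMonoidHom).map (MulAut.conj g).toMonoidHom = A := by
  rw [map_conj_conj, mul_inv_cancel, map_conj_one]

theorem map_conj_of_mem (A : Subgroup G) {e : G} (he : e ∈ A) :
    A.map (MulAut.conj e).toMonoidHom = A := by
  ext x
  rw [mem_map_conj']
  constructor
  · intro h
    have := A.mul_mem (A.mul_mem he h) (A.inv_mem he)
    have e' : e * (e⁻¹ * x * e) * e⁻¹ = x := by group
    rwa [e'] at this
  · intro h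
    exact A.mul_mem (A.mul_mem (A.inv_mem he) h) he

theorem ea_isPGroup {p : ℕ} {A : Subgroup G} (h : IsElementaryAbelian p A) : IsPGroup p A := by
  intro a
  refine ⟨1, ?_⟩
  apply Subtype.ext
  rw [pow_one, Subgroup.coe_pow, h.2 a a.2]; rfl

theorem vertex_ne_bot {p : ℕ} [hp : Fact p.Prime] {A : Subgroup G} (hc : p ^ 1 ≤ Nat.card A) :
    A ≠ ⊥ := by
  intro h
  rw [h, Subgroup.card_bot, pow_one] at hc
  exact absurd hc (not_le.mpr hp.out.one_lt)

theorem zpowers_vertex {p : ℕ} [hp : Fact p.Prime] {x : G} (hx : orderOf x = p) :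
    IsElementaryAbelian p (Subgroup.zpowers x) ∧ p ^ 1 ≤ Nat.card (Subgroup.zpowers x) := by
  refine ⟨⟨inferInstance, ?_⟩, ?_⟩
  · intro a ha
    obtain ⟨i, rfl⟩ := Subgroup.mem_zpowers_iff.mp ha
    rw [← zpow_natCast, ← zpow_mul, mul_comm, zpow_mul, zpow_natCast, ← hx, pow_orderOf_eq_one,
      one_zpow]
  · rw [Nat.card_zpowers, hx, pow_one]

/-- Two vertices inside a common `p`-subgroup are joined. -/
theorem joined_of_le_pGroup [Finite G] {p : ℕ} [hp : Fact p.Prime] {S A B : Subgroup G}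
    (hS : IsPGroup p S) (hA : IsElementaryAbelian p A) (hAc : p ^ 1 ≤ Nat.card A) (hAS : A ≤ S)
    (hB : IsElementaryAbelian p B) (hBc : p ^ 1 ≤ Nat.card B) (hBS : B ≤ S) :
    Relation.ReflTransGen (R p) A B := by
  have hSne : S ≠ ⊥ := fun h => vertex_ne_bot hAc (le_bot_iff.mp (h ▸ hAS))
  haveI : Nontrivial S := (Subgroup.nontrivial_iff_ne_bot S).mpr hSne
  haveI := hS.center_nontrivial
  have hdvd : p ∣ Nat.card (Subgroup.center S) := by
    rcases (hS.to_subgroup (Subgroup.center S)).card_eq_or_dvd with h | h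
    · exact absurd (Subgroup.card_eq_one.mp h) (Subgroup.nontrivial_iff_ne_bot _ |>.mp inferInstance)
    · exact h
  obtain ⟨x, hx⟩ := exists_prime_orderOf_dvd_card' p hdvd
  obtain ⟨z, hz⟩ : ∃ z : G, z = ((x : S) : G) := ⟨_, rfl⟩
  have hzo : orderOf z = p := by
    rw [hz, Subgroup.orderOf_coe, Subgroup.orderOf_coe, hx]
  have hzc : ∀ s ∈ S, s * z = z * s := by
    intro s hs
    have h1 := Subgroup.mem_center_iff.mp x.2 ⟨s, hs⟩
    have h2 := congrArg Subtype.val h1
    rw [hz]
    simpa using h2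
  obtain ⟨hZ, hZc⟩ := zpowers_vertex hzo
  have hcomm : ∀ s ∈ S, ∀ b ∈ Subgroup.zpowers z, s * b = b * s := by
    intro s hs b hb
    obtain ⟨i, rfl⟩ := Subgroup.mem_zpowers_iff.mp hb
    exact (Commute.zpow_right (hzc s hs) i)
  have e1 : R p A (Subgroup.zpowers z) := ⟨hA, hAc, hZ, hZc, fun a ha b hb => hcomm a (hAS ha) b hb⟩
  have e2 : R p (Subgroup.zpowers z) B :=
    ⟨hZ, hZc, hB, hBc, fun a ha b hb => (hcomm b (hBS hb) a ha).symm⟩
  exact (Relation.ReflTransGen.single e1).tail e2

/-- The stabilizer of the connected component of `E`. -/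
def stab [Finite G] (p : ℕ) (E : Subgroup G) : Subgroup G where
  carrier := {g | Relation.ReflTransGen (R p) E (E.map (MulAut.conj g).toMonoidHom)}
  mul_mem' := by
    intro g h hg hh
    have h1 := rtg_conj g hh
    rw [map_conj_conj] at h1
    exact hg.trans h1
  one_mem' := by
    show Relation.ReflTransGen (R p) E (E.map (MulAut.conj (1 : G)).toMonoidHom)
    rw [map_conj_one]
  inv_mem' := by
    intro g hg
    have h1 := rtg_conj g⁻¹ hg
    rw [map_conj_inv_self] at h1
    exact rtg_symm (R_symm p) h1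

theorem mem_stab [Finite G] {p : ℕ} {E : Subgroup G} {g : G} :
    g ∈ stab p E ↔ Relation.ReflTransGen (R p) E (E.map (MulAut.conj g).toMonoidHom) := Iff.rfl

theorem le_stab [Finite G] {p : ℕ} (E : Subgroup G) : E ≤ stab p E := by
  intro e he
  rw [mem_stab, map_conj_of_mem E he]

/-- Every vertex inside the stabilizer lies in the component. -/
theorem joined_of_le_stab [Finite G] {p : ℕ} [hp : Fact p.Prime] {E A : Subgroup G}
    (hE : IsElementaryAbelian p E) (hEc : p ^ 1 ≤ Nat.card E)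
    (hA : IsElementaryAbelian p A) (hAc : p ^ 1 ≤ Nat.card A) (hAH : A ≤ stab p E) :
    Relation.ReflTransGen (R p) E A := by
  obtain ⟨S₀, hS₀⟩ := ((ea_isPGroup hE).comap_subtype (K := stab p E)).exists_le_sylow
  have hES : E ≤ (S₀ : Subgroup (stab p E)).map (stab p E).subtype := by
    intro x hx
    exact ⟨⟨x, le_stab E hx⟩, hS₀ (show (⟨x, le_stab E hx⟩ : stab p E) ∈ E.subgroupOf (stab p E) from
      Subgroup.mem_subgroupOf.mpr hx), rfl⟩
  have hSp : IsPGroup p ((S₀ : Subgroup (stab p E)).map (stab p E).subtype) := S₀.isPGroup'.map _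
  obtain ⟨k, hk, hc⟩ := rel_sylow_conj S₀ A hAH (ea_isPGroup hA)
  have hAk : A.map (MulAut.conj k).toMonoidHom ≤ (S₀ : Subgroup (stab p E)).map (stab p E).subtype := by
    rintro _ ⟨a, ha, rfl⟩
    simpa using hc a ha
  have h1 : Relation.ReflTransGen (R p) E (A.map (MulAut.conj k).toMonoidHom) :=
    joined_of_le_pGroup hSp hE hEc hES (ea_conj k hA) (by rw [card_map_conj]; exact hAc) hAk
  have h2 : Relation.ReflTransGen (R p) (E.map (MulAut.conj k).toMonoidHom)
      (A.map (MulAut.conj k).toMonoidHom) := (rtg_symm (R_symm p) (mem_stab.mp hk)).trans h1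
  have h3 := rtg_conj k⁻¹ h2
  rwa [map_conj_inv_self, map_conj_inv_self] at h3

theorem le_normalizer_of_comm [Finite G] {A B : Subgroup G}
    (h : ∀ a ∈ A, ∀ b ∈ B, a * b = b * a) : B ≤ Subgroup.normalizer (A : Set G) := by
  intro b hb
  apply mem_normalizer_of_conj_mem'
  intro a ha
  have : b * a * b⁻¹ = a := by rw [← h a ha b hb]; group
  rw [this]; exact ha

/-- Let G be finite and p prime. Then G has a proper subgroup H with p ∣ |H| and p ∤ |H ∩ gHg⁻¹| for every g ∉ H (a strongly p-embedded subgroup) if and only if G is not 1-connected for p. -/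
theorem result {G : Type*} [Group G] [Finite G] (p : ℕ) [Fact p.Prime] : (∃ H : Subgroup G, H ≠ ⊤ ∧ p ∣ Nat.card ↥H ∧ ∀ g : G, g ∉ H → ¬ p ∣ Nat.card ↥(H ⊓ H.map (MulAut.conj g).toMonoidHom)) ↔ ¬ Cfsg.IsKConnected p 1 G := by
  constructor
  · rintro ⟨H, hH, hpH, hint⟩ hconn
    have hN : NormProp p H := normProp_of_inter hint
    obtain ⟨x, hx⟩ := exists_prime_orderOf_dvd_card' p hpH
    have hxo : orderOf (x : G) = p := by rw [Subgroup.orderOf_coe, hx]
    obtain ⟨hE, hEc⟩ := zpowers_vertex hxo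
    have hEH : Subgroup.zpowers (x : G) ≤ H := Subgroup.zpowers_le.mpr x.2
    obtain ⟨g, hg⟩ : ∃ g : G, g ∉ H := by
      by_contra hc
      push Not at hc
      exact hH (eq_top_iff.mpr fun g _ => hc g)
    have h1 := hconn (Subgroup.zpowers (x : G)) ((Subgroup.zpowers (x : G)).map (MulAut.conj g).toMonoidHom)
      hE hEc (ea_conj g hE) (by rw [card_map_conj]; exact hEc)
    have key : ∀ B : Subgroup G, Relation.ReflTransGen (R p) (Subgroup.zpowers (x : G)) B → B ≤ H := by
      intro B hB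
      induction hB with
      | refl => exact hEH
      | tail _ hbc ih =>
        exact (le_normalizer_of_comm hbc.2.2.2.2).trans
          (hN _ ih (ea_isPGroup hbc.1) (vertex_ne_bot hbc.2.1))
    have h2 := key _ h1
    apply hint g hg
    have h3 : (Subgroup.zpowers (x : G)).map (MulAut.conj g).toMonoidHom ≤
        H ⊓ H.map (MulAut.conj g).toMonoidHom := le_inf h2 (Subgroup.map_mono hEH)
    have h4 : p ∣ Nat.card ((Subgroup.zpowers (x : G)).map (MulAut.conj g).toMonoidHom) := by
      rw [card_map_conj, Nat.card_zpowers, hxo]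
    exact h4.trans (Subgroup.card_dvd_of_le h3)
  · intro hnc
    unfold IsKConnected at hnc
    push Not at hnc
    obtain ⟨E, E', hE, hEc, hE', hE'c, hnot⟩ := hnc
    refine ⟨stab p E, ?_, ?_, ?_⟩
    · intro htop
      apply hnot
      exact joined_of_le_stab hE hEc hE' hE'c (htop ▸ le_top)
    · have h1 : p ∣ Nat.card E := by
        rcases (ea_isPGroup hE).card_eq_or_dvd with h | h
        · exact absurd (Subgroup.card_eq_one.mp h) (vertex_ne_bot hEc)
        · exact h
      exact h1.trans (Subgroup.card_dvd_of_le (le_stab E))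
    · intro g hg hdvd
      obtain ⟨x, hx⟩ := exists_prime_orderOf_dvd_card' p hdvd
      have hxo : orderOf (x : G) = p := by rw [Subgroup.orderOf_coe, hx]
      obtain ⟨hX, hXc⟩ := zpowers_vertex hxo
      have hxH : (x : G) ∈ stab p E := (Subgroup.mem_inf.mp x.2).1
      have hxHg : g⁻¹ * (x : G) * g ∈ stab p E :=
        (mem_map_conj' _ g _).mp (Subgroup.mem_inf.mp x.2).2
      have h1 : Relation.ReflTransGen (R p) E (Subgroup.zpowers (x : G)) :=
        joined_of_le_stab hE hEc hX hXc (Subgroup.zpowers_le.mpr hxH)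
      have hle : (Subgroup.zpowers (x : G)).map (MulAut.conj g⁻¹).toMonoidHom ≤ stab p E := by
        rintro _ ⟨a, ha, rfl⟩
        obtain ⟨i, rfl⟩ := Subgroup.mem_zpowers_iff.mp ha
        have : (MulAut.conj g⁻¹).toMonoidHom ((x : G) ^ i) = (g⁻¹ * (x : G) * g) ^ i := by
          rw [map_zpow]; simp
        rw [this]
        exact (stab p E).zpow_mem hxHg i
      have h2 : Relation.ReflTransGen (R p) E
          ((Subgroup.zpowers (x : G)).map (MulAut.conj g⁻¹).toMonoidHom) :=
        joined_of_le_stab hE hEc (ea_conj g⁻¹ hX) (by rw [card_map_conj]; exact hXc) hle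
      have h3 := rtg_conj g h2
      rw [map_conj_self_inv] at h3
      apply hg
      rw [mem_stab]
      exact h1.trans (rtg_symm (R_symm p) h3)

end Cfsg.Agent.S1336
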