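import Cfsg.Statements.S1342
import Cfsg.Agent.Lib.helper7.ExtLayer2

set_option autoImplicit false
open Cfsg

namespace Cfsg.Agent.S1342

/-- For a finite group X, L*_{2'}(X) is normal in X. -/
theorem result {X : Type*} [Group X] [Finite X] : (Cfsg.extendedTwoLayer X).Normal := by
  exact Cfsg.Agent.Lib.helper7.extendedTwoLayer_normal

end Cfsg.Agent.S1342
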