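import Cfsg.Statements.S1386
import Cfsg.Agent.Lib.helper7.Stab
import Cfsg.Agent.Lib.helper7.Central
import Cfsg.Agent.Lib.helper20.Wielandt

set_option autoImplicit false
open Cfsg

namespace Cfsg.Agent.S1386

open Subgroup Cfsg.Agent.Lib.helper7 Cfsg.Agent.Lib.helper8 Cfsg.Agent.Lib.helper20 in
theorem coprime_of_cyclic_sup {G : Type*} [Group G] [Finite G] (W₁ W₂ : Subgroup G)
    (hd : W₁ ⊓ W₂ = ⊥) (hc : IsCyclic ↥(W₁ ⊔ W₂)) : (Nat.card W₁).Coprime (Nat.card W₂) := by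
  by_contra hn
  obtain ⟨q, hq, hq1, hq2⟩ := Nat.Prime.not_coprime_iff_dvd.mp hn
  haveI : Fact q.Prime := ⟨hq⟩
  obtain ⟨a, ha⟩ := exists_prime_orderOf_dvd_card' q hq1
  obtain ⟨b, hb⟩ := exists_prime_orderOf_dvd_card' q hq2
  set a' : ↥(W₁ ⊔ W₂) := ⟨a, (le_sup_left : W₁ ≤ W₁ ⊔ W₂) a.2⟩ with ha'
  set b' : ↥(W₁ ⊔ W₂) := ⟨b, (le_sup_right : W₂ ≤ W₁ ⊔ W₂) b.2⟩ with hb'
  have hoa : orderOf a' = q := by
    rw [← Subgroup.orderOf_coe, ← ha, ← Subgroup.orderOf_coe a]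
  have hob : orderOf b' = q := by
    rw [← Subgroup.orderOf_coe, ← hb, ← Subgroup.orderOf_coe b]
  have h1 : zpowers a' = zpowers b' := eq_of_card_eq_of_isCyclic _ _ (by
    rw [Nat.card_zpowers, Nat.card_zpowers, hoa, hob])
  have h2 : b' ∈ zpowers a' := h1 ▸ mem_zpowers b'
  obtain ⟨k, hk⟩ := h2
  have h3 : (b : G) = (a : G) ^ k := by
    have := congrArg Subtype.val hk
    simpa [ha', hb'] using this.symm
  have h4 : (b : G) ∈ W₁ ⊓ W₂ := Subgroup.mem_inf.mpr ⟨h3 ▸ zpow_mem a.2 k, b.2⟩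
  rw [hd, Subgroup.mem_bot] at h4
  have h5 : b = 1 := Subtype.ext h4
  rw [h5, orderOf_one] at hb
  exact hq.one_lt.ne hb

open Subgroup Cfsg.Agent.Lib.helper7 Cfsg.Agent.Lib.helper8 in
theorem aux {G : Type*} [Group G] [Finite G] (W₁ W₂ S U W₂' : Subgroup G)
    (hW : Cfsg.IsSelfNormalizingCyclic W₁ W₂)
    (hSW : Cfsg.IsComplIn ⁅S, S⁆ W₁ S) (hW₂S : W₂ ≤ S) (hP : Cfsg.IsTypePWith S W₁ U W₂') :
    W₂' = W₂ := by
  obtain ⟨hW1ne, hW2ne, hdisj, hcomm, hcyc, hnorm⟩ := hW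
  obtain ⟨hS'S, hW1S, hS'W1, hprod⟩ := hSW
  obtain ⟨-, hW2'ne, hdisj', hcomm', -, hnorm'⟩ := hP.selfNormalizing
  have hcop := coprime_of_cyclic_sup W₁ W₂ hdisj hcyc
  obtain ⟨x, hx, hx1⟩ : ∃ x ∈ W₁, x ≠ 1 := by
    by_contra hcon
    simp only [not_exists, not_and, not_not] at hcon
    exact hW1ne ((Subgroup.eq_bot_iff_forall W₁).mpr hcon)
  obtain ⟨w, hw, hw1⟩ : ∃ w ∈ W₂, w ≠ 1 := by
    by_contra hcon
    simp only [not_exists, not_and, not_not] at hcon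
    exact hW2ne ((Subgroup.eq_bot_iff_forall W₂).mpr hcon)
  have hS'n : S ≤ normalizer ((⁅S, S⁆ : Subgroup G) : Set G) := by
    apply le_normalizer_of_conj_mem
    intro s hs y hy
    have h1 : ⁅S, S⁆ ≤ (⁅S, S⁆).comap (MulAut.conj s).toMonoidHom := by
      rw [Subgroup.commutator_le]
      intro a ha b hb
      rw [Subgroup.mem_comap, map_commutatorElement]
      exact Subgroup.commutator_mem_commutator
        (by simpa using mul_mem (mul_mem hs ha) (inv_mem hs))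
        (by simpa using mul_mem (mul_mem hs hb) (inv_mem hs))
    exact h1 hy
  -- W₂ ≤ S'
  have hW2S' : W₂ ≤ ⁅S, S⁆ := by
    intro v hv
    obtain ⟨s', hs', b, hb, rfl⟩ := hprod v (hW₂S hv)
    have h1 := mul_pow_mem_of_mem_normalizer hs' (hS'n (hW1S hb)) (Nat.card W₂)
    have h2 : (s' * b) ^ Nat.card W₂ = 1 := by
      have := pow_card_eq_one' (G := W₂) (x := ⟨s' * b, hv⟩)
      exact congrArg Subtype.val this
    rw [h2, one_mul] at h1
    have h3 : b ^ Nat.card W₂ ∈ ⁅S, S⁆ ⊓ W₁ :=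
      Subgroup.mem_inf.mpr ⟨by simpa using inv_mem h1, pow_mem hb _⟩
    rw [hS'W1, Subgroup.mem_bot] at h3
    have h4 : b ^ Nat.card W₁ = 1 := by
      have := pow_card_eq_one' (G := W₁) (x := ⟨b, hb⟩)
      exact congrArg Subtype.val this
    have h5 : orderOf b ∣ Nat.gcd (Nat.card W₁) (Nat.card W₂) :=
      Nat.dvd_gcd (orderOf_dvd_of_pow_eq_one h4) (orderOf_dvd_of_pow_eq_one h3)
    rw [hcop] at h5
    have h6 : b = 1 := orderOf_eq_one_iff.mp (Nat.dvd_one.mp h5)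
    rw [h6, mul_one]; exact hs'
  have hW2W2' : W₂ ≤ W₂' := by
    rw [← hP.W₂_centralizer x hx hx1]
    refine le_inf hW2S' ?_
    intro v hv
    rw [mem_centralizer_iff]
    intro y hy
    rw [Set.mem_singleton_iff] at hy
    subst hy
    exact hcomm y hx v hv
  -- the element x * w
  have hmem : ∀ V : Subgroup G, W₁ ⊓ V = ⊥ → w ∈ V →
      ({x * w} : Set G) ⊆ (↑(W₁ ⊔ V) : Set G) \ (↑W₁ ∪ ↑V) := by
    intro V hV hwV y hy
    rw [Set.mem_singleton_iff] at hy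
    subst hy
    refine ⟨mul_mem ((le_sup_left : W₁ ≤ W₁ ⊔ V) hx) ((le_sup_right : V ≤ W₁ ⊔ V) hwV), ?_⟩
    rintro (h | h)
    · have h1 : w ∈ W₁ := by
        have := mul_mem (inv_mem hx) h
        simpa using this
      have h2 : w ∈ W₁ ⊓ V := Subgroup.mem_inf.mpr ⟨h1, hwV⟩
      rw [hV, Subgroup.mem_bot] at h2
      exact hw1 h2
    · have h1 : x ∈ V := by
        have := mul_mem h (inv_mem hwV)
        simpa using this
      have h2 : x ∈ W₁ ⊓ V := Subgroup.mem_inf.mpr ⟨hx, h1⟩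
      rw [hV, Subgroup.mem_bot] at h2
      exact hx1 h2
  have e1 := hnorm {x * w} (hmem W₂ hdisj hw) (Set.singleton_nonempty _)
  have e2 := hnorm' {x * w} (hmem W₂' hdisj' (hW2W2' hw)) (Set.singleton_nonempty _)
  have e3 : W₁ ⊔ W₂' = W₁ ⊔ W₂ := by rw [← e1, ← e2]
  apply le_antisymm _ hW2W2'
  intro v hv
  have h1 : v ∈ W₁ ⊔ W₂ := e3 ▸ (le_sup_right : W₂' ≤ W₁ ⊔ W₂') hv
  obtain ⟨a, ha, b, hb, rfl⟩ := mem_sup_of_comm hcomm h1
  have h2 : a ∈ W₁ ⊓ W₂' := by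
    refine Subgroup.mem_inf.mpr ⟨ha, ?_⟩
    have := mul_mem hv (inv_mem (hW2W2' hb))
    simpa using this
  rw [hdisj', Subgroup.mem_bot] at h2
  rw [h2, one_mul]; exact hb

/-- Let G be a finite group, W₁, W₂ subgroups forming a self-normalizing cyclic pair, S a subgroup with W₂ ≤ S and W₁ a complement to S' in S, and (W₁, U, W₂') type-P data for S. Then W₂' = W₂ (that is, C_{S'}(W₁) = W₂). -/
theorem result {G : Type*} [Group G] [Finite G] (W₁ W₂ S U W₂' : Subgroup G) (hW : Cfsg.IsSelfNormalizingCyclic W₁ W₂)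
    (hSW : Cfsg.IsComplIn ⁅S, S⁆ W₁ S) (hW₂S : W₂ ≤ S) (hP : Cfsg.IsTypePWith S W₁ U W₂') :
    W₂' = W₂ := by
  exact aux W₁ W₂ S U W₂' hW hSW hW₂S hP

end Cfsg.Agent.S1386
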