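import Cfsg.Statements.S1388
import Cfsg.Agent.Lib.helper7.TypeP

set_option autoImplicit false
open Cfsg

namespace Cfsg.Agent.S1388

open Subgroup Cfsg.Agent.Lib.helper7 Cfsg.Agent.Lib.helper8 in
theorem aux {G : Type*} [Group G] [Finite G] (M W₁ U W₂ : Subgroup G)
    (hP : Cfsg.IsTypePWith M W₁ U W₂) :
    ⁅U, U⁆ ≤ Subgroup.centralizer (Cfsg.fittingHallOf M : Set G) ∧
      (U ≠ ⊥ → ¬ U ≤ Subgroup.centralizer (Cfsg.fittingHallOf M : Set G)) := by
  set H := Cfsg.fittingHallOf M with hH
  obtain ⟨hHM', hUM', hHU, hprod⟩ := hP.U_compl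
  obtain ⟨hM'M, hW1M, hM'W1, hprod'⟩ := hP.W₁_compl
  constructor
  · intro z hz
    have hzU : z ∈ U := Subgroup.commutator_le_self U hz
    have h1 : z ∈ H ⊔ (U ⊓ centralizer (H : Set G)) := by
      rw [← typeP_fitting_eq M W₁ U W₂ hP, ← hP.fitting_eq]
      exact hP.derived_two_le (Subgroup.commutator_mono hUM' hUM' hz)
    have hcomm : ∀ a ∈ H, ∀ b ∈ U ⊓ centralizer (H : Set G), a * b = b * a :=
      fun a ha b hb => (mem_centralizer_iff.mp (Subgroup.mem_inf.mp hb).2 a ha)
    obtain ⟨h, hh, k, hk, rfl⟩ := mem_sup_of_comm hcomm h1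
    have h2 : h ∈ H ⊓ U := Subgroup.mem_inf.mpr ⟨hh, by
      simpa using mul_mem hzU (inv_mem (Subgroup.mem_inf.mp hk).1)⟩
    rw [hHU, Subgroup.mem_bot] at h2
    rw [h2, one_mul]; exact (Subgroup.mem_inf.mp hk).2
  · intro hUne hUC
    have hMU : M ≤ normalizer (U : Set G) := by
      intro m hm
      obtain ⟨m', hm', w, hw, rfl⟩ := hprod' m hm
      obtain ⟨h, hh, u, hu, rfl⟩ := hprod m' hm'
      refine mul_mem (mul_mem ?_ (Subgroup.le_normalizer hu)) (hP.U_normal hw)
      have h1 : H ≤ centralizer (U : Set G) := by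
        rw [Subgroup.le_centralizer_iff]; exact hUC
      exact Subgroup.centralizer_le_normalizer _ (h1 hh)
    have hUM : U ≤ M := hUM'.trans hM'M
    have hc1 : Nat.card M = Nat.card (⁅M, M⁆ : Subgroup G) * Nat.card W₁ :=
      card_of_isComplIn hP.W₁_compl
    have hc2 : Nat.card (⁅M, M⁆ : Subgroup G) = Nat.card H * Nat.card U :=
      card_of_isComplIn hP.U_compl
    have hc3 : Nat.card U * U.relIndex M = Nat.card M := card_mul_relIndex_of_le hUM
    have hidx : U.relIndex M = Nat.card H * Nat.card W₁ := by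
      have hpos : 0 < Nat.card U := Nat.card_pos
      have h1 : Nat.card U * U.relIndex M = Nat.card U * (Nat.card H * Nat.card W₁) := by
        rw [hc3, hc1, hc2]; ring
      exact Nat.eq_of_mul_eq_mul_left hpos h1
    have hcopH : (Nat.card U).Coprime (Nat.card H) := by
      by_contra hn
      obtain ⟨q, hq, hq1, hq2⟩ := Nat.Prime.not_coprime_iff_dvd.mp hn
      haveI : Fact q.Prime := ⟨hq⟩
      obtain ⟨u, hu⟩ := exists_prime_orderOf_dvd_card' q hq1
      have huq : (u : G) ^ q = 1 := by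
        have h1 : u ^ q = 1 := by rw [← hu]; exact pow_orderOf_eq_one u
        have := congrArg Subtype.val h1
        simpa using this
      have hcop : q.Coprime (H.relIndex M) :=
        Nat.Coprime.coprime_dvd_left hq2 (fittingHallOf_coprime M)
      have huH : (u : G) ∈ H := mem_fittingHallOf_of_pow M (hUM u.2) q huq hcop
      have h1 : (u : G) ∈ H ⊓ U := Subgroup.mem_inf.mpr ⟨huH, u.2⟩
      rw [hHU, Subgroup.mem_bot] at h1
      have h2 : u = 1 := Subtype.ext h1
      rw [h2, orderOf_one] at hu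
      exact hq.one_lt.ne hu
    have hcopW : (Nat.card U).Coprime (Nat.card W₁) := by
      have h1 := hP.W₁_hall
      have h2 : Nat.card W₁ * W₁.relIndex M = Nat.card M := card_mul_relIndex_of_le hW1M
      have h3 : W₁.relIndex M = Nat.card (⁅M, M⁆ : Subgroup G) := by
        have hpos : 0 < Nat.card W₁ := Nat.card_pos
        have h4 : Nat.card W₁ * W₁.relIndex M =
            Nat.card W₁ * Nat.card (⁅M, M⁆ : Subgroup G) := by rw [h2, hc1]; ring
        exact Nat.eq_of_mul_eq_mul_left hpos h4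
      rw [h3, hc2] at h1
      exact (Nat.Coprime.coprime_mul_left_right h1).symm
    have hcop : (Nat.card U).Coprime (U.relIndex M) := by
      rw [hidx]; exact Nat.Coprime.mul_right hcopH hcopW
    have hUH : U ≤ H := le_fittingHallOf M hUM hMU hP.U_nilpotent hcop
    apply hUne
    rw [eq_bot_iff, ← hHU]; exact le_inf hUH le_rfl

/-- Let M be a subgroup of a finite group G with type-P data (W₁, U, W₂) and H = M_F. Then the derived subgroup of U centralizes H, and if U ≠ 1 then U does not centralize H. -/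
theorem result {G : Type*} [Group G] [Finite G] (M W₁ U W₂ : Subgroup G) (hP : Cfsg.IsTypePWith M W₁ U W₂) :
    ⁅U, U⁆ ≤ Subgroup.centralizer (Cfsg.fittingHallOf M : Set G) ∧ (U ≠ ⊥ → ¬ U ≤ Subgroup.centralizer (Cfsg.fittingHallOf M : Set G)) := by
  exact aux M W₁ U W₂ hP

end Cfsg.Agent.S1388
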