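import Cfsg.Statements.S1441
import Cfsg.Agent.Lib.helper7.Stab

set_option autoImplicit false
open Cfsg

namespace Cfsg.Agent.S1441

open Subgroup Cfsg.Agent.Lib.helper7 Cfsg.Agent.Lib.helper8 in
theorem aux {G : Type*} [Group G] [Finite G] (H A : Subgroup G)
    (n : ℕ) (c : Fin (n + 1) → Subgroup G) (hc0 : c 0 = H) (hcn : c (Fin.last n) = ⊥)
    (hanti : Antitone c)
    (hcA : ∀ i, A ≤ Subgroup.normalizer ((c i : Subgroup G) : Set G))
    (htriv : ∀ i : Fin n, ⁅c i.castSucc, A⁆ ≤ c i.succ) :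
    ∀ p : ℕ, p.Prime → p ∣ (A ⊓ Subgroup.centralizer (H : Set G)).relIndex A →
      p ∣ Nat.card H := by
  intro p hp hdvd
  by_contra hnd
  haveI : Fact p.Prime := ⟨hp⟩
  obtain ⟨P⟩ : Nonempty (Sylow p A) := inferInstance
  set P' : Subgroup G := (P : Subgroup A).map A.subtype with hP'
  have hP'A : P' ≤ A := Subgroup.map_subtype_le _
  have hP'p : IsPGroup p P' := P.2.map _
  have hcopH : (Nat.card P').Coprime (Nat.card H) := by
    obtain ⟨k, hk⟩ := IsPGroup.iff_card.mp hP'p
    rw [hk]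
    exact Nat.Coprime.pow_left k ((Nat.Prime.coprime_iff_not_dvd hp).mpr hnd)
  have hle : ∀ i, c i ≤ H := fun i => hc0 ▸ hanti (Fin.zero_le i)
  have hsolv : Group.IsSolvable P' := by
    haveI := hP'p.isNilpotent
    infer_instance
  have key : ∀ i : Fin (n + 1), ⁅H, P'⁆ ≤ ⁅c i, P'⁆ := by
    intro i
    induction i using Fin.induction with
    | zero => rw [hc0]
    | succ i ih =>
      have h1 := commutator_commutator_eq P' (c i.castSucc) (hP'A.trans (hcA _))
        (Nat.Coprime.coprime_dvd_right (Subgroup.card_dvd_of_le (hle _)) hcopH) (Or.inl hsolv)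
      calc ⁅H, P'⁆ ≤ ⁅c i.castSucc, P'⁆ := ih
        _ = ⁅⁅c i.castSucc, P'⁆, P'⁆ := h1.symm
        _ ≤ ⁅c i.succ, P'⁆ :=
          Subgroup.commutator_mono ((Subgroup.commutator_mono le_rfl hP'A).trans (htriv i)) le_rfl
  have h2 : ⁅H, P'⁆ = ⊥ := by
    have := key (Fin.last n)
    rw [hcn, Subgroup.commutator_bot_left] at this
    exact le_bot_iff.mp this
  have h3 : P' ≤ A ⊓ centralizer (H : Set G) := by
    refine le_inf hP'A ?_
    rw [Subgroup.le_centralizer_iff]
    exact Subgroup.commutator_eq_bot_iff_le_centralizer.mp h2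
  have h4 : (P : Subgroup A) ≤ (A ⊓ centralizer (H : Set G)).subgroupOf A := by
    intro x hx
    rw [mem_subgroupOf]
    exact h3 ⟨x, hx, rfl⟩
  have h5 : ((A ⊓ centralizer (H : Set G)).subgroupOf A).index ∣ (P : Subgroup A).index :=
    Subgroup.index_dvd_of_le h4
  exact P.not_dvd_index (hdvd.trans h5)

/-- Let G be a finite group, H a solvable subgroup and A a subgroup normalizing H. Suppose there is a chain H = H₀ ≥ H₁ ≥ ⋯ ≥ H_n = 1 of subgroups normal in H and normalized by A such that A acts trivially on each factor H_{i-1}/H_i (that is, [H_{i-1}, A] ≤ H_i). Then every prime dividing the index of C_A(H) in A divides the order of H. -/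
theorem result {G : Type*} [Group G] [Finite G] (H A : Subgroup G) (hH : Group.IsSolvable H) (hA : (A ≤ Subgroup.normalizer (H : Set G)))
    (n : ℕ) (c : Fin (n + 1) → Subgroup G) (hc0 : c 0 = H) (hcn : c (Fin.last n) = ⊥) (hanti : Antitone c)
    (hcN : ∀ i, H ≤ Subgroup.normalizer ((c i : Subgroup G) : Set G)) (hcA : ∀ i, A ≤ Subgroup.normalizer ((c i : Subgroup G) : Set G))
    (htriv : ∀ i : Fin n, ⁅c i.castSucc, A⁆ ≤ c i.succ) :
    ∀ p : ℕ, p.Prime → p ∣ (A ⊓ Subgroup.centralizer (H : Set G)).relIndex A → p ∣ Nat.card H := by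
  exact aux H A n c hc0 hcn hanti hcA htriv

end Cfsg.Agent.S1441
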