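import Cfsg.Statements.S1442
import Cfsg.Agent.Lib.helper7.Stab

set_option autoImplicit false
open Cfsg

namespace Cfsg.Agent.S1442

open Subgroup Cfsg.Agent.Lib.helper7 Cfsg.Agent.Lib.helper8 in
theorem aux {G : Type*} [Group G] [Finite G] (H A : Subgroup G) (hH : Group.IsNilpotent H)
    (hA : (A ≤ Subgroup.normalizer (H : Set G))) (hcop : (Nat.card A).Coprime (Nat.card H))
    (hC : H ⊓ Subgroup.centralizer (((H ⊓ Subgroup.centralizer (A : Set G)) : Subgroup G) : Set G)
      ≤ (H ⊓ Subgroup.centralizer (A : Set G))) :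
    A ≤ Subgroup.centralizer (H : Set G) := by
  set C : Subgroup G := H ⊓ centralizer (A : Set G) with hCdef
  set N : Subgroup G := H ⊓ normalizer (C : Set G) with hNdef
  have hCH : C ≤ H := inf_le_left
  have hCA : ⁅C, A⁆ = ⊥ := by
    rw [Subgroup.commutator_eq_bot_iff_le_centralizer]; exact inf_le_right
  have hAC : ⁅A, C⁆ = ⊥ := by rw [Subgroup.commutator_comm]; exact hCA
  have hCN : C ≤ N := le_inf hCH Subgroup.le_normalizer
  have hNH : N ≤ H := inf_le_left
  -- A normalizes N
  have hAcC : A ≤ centralizer (C : Set G) := by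
    rw [Subgroup.le_centralizer_iff]; exact inf_le_right
  have hAnC : A ≤ normalizer (C : Set G) := hAcC.trans (Subgroup.centralizer_le_normalizer _)
  have hAN : A ≤ normalizer (N : Set G) := by
    apply le_normalizer_of_conj_mem
    intro a ha x hx
    obtain ⟨hx1, hx2⟩ := Subgroup.mem_inf.mp hx
    exact Subgroup.mem_inf.mpr ⟨conj_mem_of_mem_normalizer (hA ha) hx1,
      mul_mem (mul_mem (hAnC ha) hx2) (inv_mem (hAnC ha))⟩
  have h1 : ⁅⁅A, C⁆, N⁆ = ⊥ := by rw [hAC]; exact Subgroup.commutator_bot_left N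
  have h2 : ⁅⁅C, N⁆, A⁆ = ⊥ := by
    have h3 : ⁅C, N⁆ ≤ C := by
      apply commutator_le_of_le_normalizer
      exact inf_le_right
    exact le_bot_iff.mp ((Subgroup.commutator_mono h3 le_rfl).trans hCA.le)
  have h3 : ⁅⁅N, A⁆, C⁆ = ⊥ := Subgroup.commutator_commutator_eq_bot_of_rotate h1 h2
  have h4 : ⁅N, A⁆ ≤ C := by
    apply le_trans _ hC
    refine le_inf ?_ ((Subgroup.commutator_eq_bot_iff_le_centralizer).mp h3)
    exact (Subgroup.commutator_mono hNH le_rfl).trans (commutator_le_of_le_normalizer hA)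
  have h5 : ⁅⁅N, A⁆, A⁆ = ⊥ := le_bot_iff.mp ((Subgroup.commutator_mono h4 le_rfl).trans hCA.le)
  have hsolvH : Group.IsSolvable H := inferInstance
  have hsolvN : Group.IsSolvable N := Group.isSolvable_of_isSolvable_injective
    (Subgroup.inclusion_injective hNH)
  have hcop' : (Nat.card A).Coprime (Nat.card N) :=
    Nat.Coprime.coprime_dvd_right (Subgroup.card_dvd_of_le hNH) hcop
  have h6 : ⁅N, A⁆ = ⊥ := by
    rw [← commutator_commutator_eq A N hAN hcop' (Or.inr hsolvN)]; exact h5
  have h7 : N ≤ C := le_inf hNH ((Subgroup.commutator_eq_bot_iff_le_centralizer).mp h6)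
  have h8 : C = H := by
    by_contra hne
    have hlt : C < H := lt_of_le_of_ne hCH hne
    obtain ⟨s, hs1, hs2, hs3⟩ := normalizer_grows_nilpotent hH hlt
    exact hs3 (h7 (Subgroup.mem_inf.mpr ⟨hs1, hs2⟩))
  rw [Subgroup.le_centralizer_iff]
  rw [← h8]; exact inf_le_right

/-- Let G be a finite group, H a nilpotent subgroup and A a subgroup normalizing H with the orders of A and H coprime. Put C = H ∩ C_G(A). If H ∩ C_G(C) ≤ C then A centralizes H. -/
theorem result {G : Type*} [Group G] [Finite G] (H A : Subgroup G) (hH : Group.IsNilpotent H) (hA : (A ≤ Subgroup.normalizer (H : Set G))) (hcop : (Nat.card A).Coprime (Nat.card H))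
    (hC : H ⊓ Subgroup.centralizer (((H ⊓ Subgroup.centralizer (A : Set G)) : Subgroup G) : Set G) ≤ (H ⊓ Subgroup.centralizer (A : Set G))) :
    A ≤ Subgroup.centralizer (H : Set G) := by
  exact aux H A hH hA hcop hC

end Cfsg.Agent.S1442
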