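import Cfsg.Statements.S1443
import Cfsg.Agent.Lib.helper7.Stab

set_option autoImplicit false
open Cfsg

namespace Cfsg.Agent.S1443

open Subgroup Cfsg.Agent.Lib.helper7 Cfsg.Agent.Lib.helper8 in
theorem aux {G : Type*} [Group G] [Finite G] (p : ℕ) [Fact p.Prime] (hp : p ≠ 2)
    (H E A : Subgroup G) (hH : IsPGroup p H) (hE : E ≤ H) (hEe : Cfsg.IsElementaryAbelian p E)
    (hA : (A ≤ Subgroup.normalizer (H : Set G))) (hcop : (Nat.card A).Coprime p)
    (hfix : ∀ x ∈ (H ⊓ Subgroup.centralizer (E : Set G)), orderOf x = p →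
      A ≤ Subgroup.centralizer ({x} : Set G)) :
    A ≤ Subgroup.centralizer (H : Set G) := by
  have hpp : p.Prime := Fact.out
  set K : Subgroup G := H ⊓ centralizer (E : Set G) with hKdef
  have hfix' : ∀ x ∈ K, x ^ p = 1 → ∀ a ∈ A, a * x = x * a := by
    intro x hx hxp a ha
    by_cases hx1 : x = 1
    · rw [hx1]; simp
    · have ho : orderOf x = p := orderOf_eq_prime hxp hx1
      have := hfix x hx ho ha
      rw [mem_centralizer_iff] at this
      exact (this x rfl).symm
  have hEK : E ≤ K := by
    refine le_inf hE ?_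
    intro e he
    rw [mem_centralizer_iff]
    intro f hf
    haveI hc := hEe.1
    have := mul_comm' (⟨f, hf⟩ : E) ⟨e, he⟩
    exact congrArg Subtype.val this
  have hAE : A ≤ centralizer (E : Set G) := by
    intro a ha
    rw [mem_centralizer_iff]
    intro e he
    exact (hfix' e (hEK he) (hEe.2 e he) a ha).symm
  have hEA : E ≤ centralizer (A : Set G) := by
    rw [Subgroup.le_centralizer_iff]; exact hAE
  have hAK : A ≤ normalizer (K : Set G) := by
    apply le_normalizer_of_conj_mem
    intro a ha x hx
    obtain ⟨hx1, hx2⟩ := Subgroup.mem_inf.mp hx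
    exact Subgroup.mem_inf.mpr ⟨conj_mem_of_mem_normalizer (hA ha) hx1,
      mul_mem (mul_mem (hAE ha) hx2) (inv_mem (hAE ha))⟩
  have hKp : IsPGroup p K := hH.to_le inf_le_left
  have h1 : A ≤ centralizer (K : Set G) := centralize_of_fix_order_p hp K A hKp hAK hcop hfix'
  have h2 : K ≤ centralizer (A : Set G) := by
    rw [Subgroup.le_centralizer_iff]; exact h1
  exact thompson_pq E A H (hH.to_le hE) hcop hH hEA (hE.trans Subgroup.le_normalizer) hA h2

/-- Let G be a finite group, p an odd prime, H a p-subgroup, E an elementary abelian subgroup of H, and A a subgroup of order coprime to p normalizing H. If A centralizes every element of order p in H ∩ C_G(E), then A centralizes H. -/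
theorem result {G : Type*} [Group G] [Finite G] (p : ℕ) [Fact p.Prime] (hp : p ≠ 2) (H E A : Subgroup G) (hH : IsPGroup p H) (hE : E ≤ H) (hEe : Cfsg.IsElementaryAbelian p E)
    (hA : (A ≤ Subgroup.normalizer (H : Set G))) (hcop : (Nat.card A).Coprime p)
    (hfix : ∀ x ∈ (H ⊓ Subgroup.centralizer (E : Set G)), orderOf x = p → A ≤ Subgroup.centralizer ({x} : Set G)) :
    A ≤ Subgroup.centralizer (H : Set G) := by
  exact aux p hp H E A hH hE hEe hA hcop hfix

end Cfsg.Agent.S1443
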