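import Cfsg.Statements.S1452

import Cfsg.Agent.Lib.helper8.PGroupEA
set_option autoImplicit false
open Cfsg

namespace Cfsg.Agent.S1452

open Cfsg.Agent.Lib.helper8

/-- Let p be an odd prime and R a finite p-group containing an elementary abelian subgroup of order p ^ 3. If E is a normal elementary abelian subgroup of R of order p ^ 2, then E ≤ A for some normal subgroup A of R with C_R(A) = A that contains an elementary abelian subgroup of order p ^ 3. -/
theorem result {R : Type*} [Group R] [Finite R] (p : ℕ) [Fact p.Prime] (hp : p ≠ 2) (hR : IsPGroup p R) (hr : ¬ Cfsg.PRankLE p 2 R)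
    (E : Subgroup R) [E.Normal] (hE : Cfsg.IsElementaryAbelian p E) (hE2 : Nat.card E = p ^ 2) :
    ∃ A : Subgroup R, E ≤ A ∧ A.Normal ∧ Subgroup.centralizer (A : Set R) = A ∧ ¬ Cfsg.PRankLE p 2 A := by

  have hp' : p.Prime := Fact.out
  obtain ⟨x₀, hx₀C, hx₀p, hx₀E⟩ := ce_exists p hR hr E hE hE2
  obtain ⟨x, hxC, hxp, hxE, hxcomm⟩ := nea_exists p hp hR E hE.2 x₀ hx₀C hx₀p hx₀E
  have hEA := isElementaryAbelian_sup_zpowers p E hE x hxC hxp
  have hnorm : (E ⊔ Subgroup.zpowers x).Normal := sup_zpowers_normal E x hxcomm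
  obtain ⟨A, hA₀A, hAn, hAc, hAmax⟩ := exists_max_normal_abelian (E ⊔ Subgroup.zpowers x) hnorm hEA.1
  refine ⟨A, le_sup_left.trans hA₀A, hAn, ?_, ?_⟩
  · haveI := hAn
    exact centralizer_eq_of_max_normal_abelian hR A hAc hAmax
  · intro hrank
    have hcomm : IsMulCommutative ((E ⊔ Subgroup.zpowers x).subgroupOf A) := by
      refine ⟨⟨fun a b => Subtype.ext (Subtype.ext ?_)⟩⟩
      have h0 := congrArg Subtype.val (hEA.1.is_comm.comm ⟨a.1.1, Subgroup.mem_subgroupOf.mp a.2⟩
        ⟨b.1.1, Subgroup.mem_subgroupOf.mp b.2⟩)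
      exact h0
    have h1 := hrank ((E ⊔ Subgroup.zpowers x).subgroupOf A) hcomm (by
      intro a ha
      apply Subtype.ext
      exact hEA.2 a.1 (Subgroup.mem_subgroupOf.mp ha))
    rw [Nat.card_congr (Subgroup.subgroupOfEquivOfLe hA₀A).toEquiv] at h1
    have h2 : Nat.card (E ⊔ Subgroup.zpowers x : Subgroup R) ≤ Nat.card E := by rw [hE2]; exact h1
    have h3 := Subgroup.eq_of_le_of_card_ge (le_sup_left : E ≤ E ⊔ Subgroup.zpowers x) h2
    apply hxE
    rw [h3]
    exact Subgroup.mem_sup_right (Subgroup.mem_zpowers x)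

end Cfsg.Agent.S1452
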