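import Cfsg.Statements.S1459

import Cfsg.Agent.Lib.helper8.CoprimeAction
import Cfsg.Agent.Lib.helper9.PPrimeCore
set_option autoImplicit false
open Cfsg

namespace Cfsg.Agent.S1459

open scoped commutatorElement

open Cfsg.Agent.Lib.helper8 in
theorem part_a {G : Type*} [Group G] [Finite G] [Group.IsSolvable G] (H K : Subgroup G)
    (hHn : H.Normal) (hcop : (Nat.card H).Coprime H.index) (hc : Subgroup.IsComplement' H K)
    (hHG : H ≤ commutator G) :
    H = ⁅H, K⁆ ∧ H ⊓ Subgroup.centralizer (K : Set G) ≤ ⁅H, H⁆ := by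
  have := hHn
  have hKH : K ≤ Subgroup.normalizer (H : Set G) := by
    rw [Subgroup.normalizer_eq_top]; exact le_top
  have hcop' : (Nat.card H).Coprime (Nat.card K) := by
    rw [← hc.symm.index_eq_card]; exact hcop
  have hsup : H ⊔ K = ⊤ := hc.sup_eq_top
  have hNH : ⁅H, K⁆ ≤ H := commutator_le_of_le_normalizer hKH
  have hNn : (⁅H, K⁆ : Subgroup G).Normal := by
    rw [← Subgroup.normalizer_eq_top_iff, eq_top_iff, ← hsup]
    exact sup_le (le_normalizer_commutator_left H K) (le_normalizer_commutator_right hKH)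
  have := hNn
  have hdec : ∀ g : G, ∃ h ∈ H, ∃ k ∈ K, g = h * k := by
    intro g
    have : g ∈ H ⊔ K := by rw [hsup]; exact Subgroup.mem_top g
    exact (mem_sup_iff_of_le_normalizer hKH g).mp this
  have h1 : H ≤ ⁅H, H⁆ ⊔ ⁅H, K⁆ := by
    have hDn : (⁅H, H⁆ ⊔ ⁅H, K⁆ : Subgroup G).Normal := inferInstance
    have hDH : (⁅H, H⁆ ⊔ ⁅H, K⁆ : Subgroup G) ≤ H := sup_le (Subgroup.commutator_le_left H H) hNH
    have hKD : K ≤ Subgroup.normalizer ((⁅H, H⁆ ⊔ ⁅H, K⁆ : Subgroup G) : Set G) := by
      rw [Subgroup.normalizer_eq_top]; exact le_top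
    have hTn : ((⁅H, H⁆ ⊔ ⁅H, K⁆) ⊔ K : Subgroup G).Normal := by
      rw [← Subgroup.normalizer_eq_top_iff, eq_top_iff, ← hsup]
      refine sup_le ?_ (le_sup_right.trans Subgroup.le_normalizer)
      apply le_normalizer_of_conj_mem
      intro h hh t ht
      obtain ⟨d, hd, k, hk, rfl⟩ := (mem_sup_iff_of_le_normalizer hKD t).mp ht
      have e : h * (d * k) * h⁻¹ = (h * d * h⁻¹) * ⁅h, k⁆ * k := by
        rw [commutatorElement_def]; group
      rw [e]
      exact Subgroup.mul_mem _ (Subgroup.mul_mem _ (Subgroup.mem_sup_left (hDn.conj_mem d hd h))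
        (Subgroup.mem_sup_left (Subgroup.mem_sup_right (Subgroup.commutator_mem_commutator hh hk))))
        (Subgroup.mem_sup_right hk)
    have := hTn
    have hGT : commutator G ≤ (⁅H, H⁆ ⊔ ⁅H, K⁆) ⊔ K := by
      rw [commutator_def, Subgroup.commutator_le]
      intro g₁ _ g₂ _
      obtain ⟨h₁, hh₁, k₁, hk₁, rfl⟩ := hdec g₁
      obtain ⟨h₂, hh₂, k₂, hk₂, rfl⟩ := hdec g₂
      rw [← QuotientGroup.eq_one_iff (N := (⁅H, H⁆ ⊔ ⁅H, K⁆) ⊔ K)]
      have hk1 : ((k₁ : G) : G ⧸ ((⁅H, H⁆ ⊔ ⁅H, K⁆) ⊔ K)) = 1 :=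
        (QuotientGroup.eq_one_iff _).mpr (Subgroup.mem_sup_right hk₁)
      have hk2 : ((k₂ : G) : G ⧸ ((⁅H, H⁆ ⊔ ⁅H, K⁆) ⊔ K)) = 1 :=
        (QuotientGroup.eq_one_iff _).mpr (Subgroup.mem_sup_right hk₂)
      have hh : ((⁅h₁, h₂⁆ : G) : G ⧸ ((⁅H, H⁆ ⊔ ⁅H, K⁆) ⊔ K)) = 1 :=
        (QuotientGroup.eq_one_iff _).mpr (Subgroup.mem_sup_left (Subgroup.mem_sup_left
          (Subgroup.commutator_mem_commutator hh₁ hh₂)))
      simp only [commutatorElement_def, QuotientGroup.mk_mul, QuotientGroup.mk_inv, hk1, hk2,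
        mul_one] at hh ⊢
      exact hh
    intro x hx
    have hxT := hGT (hHG hx)
    obtain ⟨d, hd, k, hk, rfl⟩ := (mem_sup_iff_of_le_normalizer hKD x).mp hxT
    have hkH : k ∈ H := by
      have := H.mul_mem (H.inv_mem (hDH hd)) hx
      simpa using this
    have := eq_one_of_coprime hcop' hkH hk
    rw [this, mul_one]; exact hd
  have h2 : H ≤ ⁅H, K⁆ := by
    by_contra hne
    have hmap : H.map (QuotientGroup.mk' ⁅H, K⁆) ≠ ⊥ := by
      rw [Ne, Subgroup.map_eq_bot_iff, QuotientGroup.ker_mk']; exact hne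
    have hlt := commutator_lt_of_solvable _ hmap
    have hle : H.map (QuotientGroup.mk' ⁅H, K⁆) ≤
        ⁅H.map (QuotientGroup.mk' ⁅H, K⁆), H.map (QuotientGroup.mk' ⁅H, K⁆)⁆ := by
      rw [← Subgroup.map_commutator]
      calc H.map (QuotientGroup.mk' ⁅H, K⁆)
          ≤ (⁅H, H⁆ ⊔ ⁅H, K⁆).map (QuotientGroup.mk' ⁅H, K⁆) := Subgroup.map_mono h1
        _ = (⁅H, H⁆).map (QuotientGroup.mk' ⁅H, K⁆) ⊔ (⁅H, K⁆).map (QuotientGroup.mk' ⁅H, K⁆) :=
            Subgroup.map_sup _ _ _
        _ = (⁅H, H⁆).map (QuotientGroup.mk' ⁅H, K⁆) := by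
            have hb : (⁅H, K⁆).map (QuotientGroup.mk' ⁅H, K⁆) = ⊥ :=
              (Subgroup.map_eq_bot_iff _).mpr (by rw [QuotientGroup.ker_mk'])
            rw [hb, sup_bot_eq]
    exact (lt_of_lt_of_le hlt hle).false
  have hHK : ⁅H, K⁆ = H := le_antisymm hNH h2
  refine ⟨hHK.symm, ?_⟩
  have hcomm : IsMulCommutative (H.map (QuotientGroup.mk' (⁅H, H⁆ : Subgroup G))) := by
    rw [← Subgroup.le_centralizer_iff_isMulCommutative,
      ← Subgroup.commutator_eq_bot_iff_le_centralizer, ← Subgroup.map_commutator,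
      Subgroup.map_eq_bot_iff, QuotientGroup.ker_mk']
  have := hcomm
  have hn : K.map (QuotientGroup.mk' (⁅H, H⁆ : Subgroup G)) ≤
      Subgroup.normalizer ((H.map (QuotientGroup.mk' (⁅H, H⁆ : Subgroup G)) : Subgroup _) : Set _) := by
    have : (H.map (QuotientGroup.mk' (⁅H, H⁆ : Subgroup G))).Normal :=
      hHn.map _ (QuotientGroup.mk'_surjective _)
    rw [Subgroup.normalizer_eq_top]; exact le_top
  have hc2 : (Nat.card (K.map (QuotientGroup.mk' (⁅H, H⁆ : Subgroup G)))).Coprime
      (Nat.card (H.map (QuotientGroup.mk' (⁅H, H⁆ : Subgroup G)))) :=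
    (Nat.Coprime.coprime_dvd_left (Subgroup.card_map_dvd _ _)
      (Nat.Coprime.coprime_dvd_right (Subgroup.card_map_dvd _ _) hcop')).symm
  have hfix := fixed_inf_commutator_eq_bot (K.map (QuotientGroup.mk' (⁅H, H⁆ : Subgroup G)))
    (H.map (QuotientGroup.mk' (⁅H, H⁆ : Subgroup G))) hn hc2
  rw [← Subgroup.map_commutator, hHK, inf_of_le_left inf_le_left] at hfix
  intro x hx
  have hx1 : QuotientGroup.mk' (⁅H, H⁆ : Subgroup G) x ∈
      H.map (QuotientGroup.mk' (⁅H, H⁆ : Subgroup G)) ⊓
        Subgroup.centralizer ((K.map (QuotientGroup.mk' (⁅H, H⁆ : Subgroup G)) : Subgroup _) : Set _) := by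
    refine Subgroup.mem_inf.mpr ⟨Subgroup.mem_map_of_mem _ hx.1, ?_⟩
    rw [Subgroup.mem_centralizer_iff]
    rintro _ ⟨k, hk, rfl⟩
    rw [← map_mul, ← map_mul, (Subgroup.mem_centralizer_iff.mp hx.2) k hk]
  rw [hfix, Subgroup.mem_bot] at hx1
  exact (QuotientGroup.eq_one_iff x).mp hx1

theorem commutator_eq_bot_of_nilpotent_of_cyclic {X : Type*} [Group X] [hnil : Group.IsNilpotent X]
    [IsCyclic (X ⧸ commutator X)] : commutator X = ⊥ := by
  have hLle : (⁅commutator X, ⊤⁆ : Subgroup X) ≤ commutator X := Subgroup.commutator_le_left _ _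
  have h12 : commutator X ≤ ⁅commutator X, ⊤⁆ := by
    rw [← Subgroup.Normal.quotient_commutative_iff_commutator_le]
    let f : X ⧸ (⁅commutator X, ⊤⁆ : Subgroup X) →* X ⧸ commutator X :=
      QuotientGroup.map _ (commutator X) (MonoidHom.id X) (by simpa using hLle)
    have hker : f.ker ≤ Subgroup.center (X ⧸ (⁅commutator X, ⊤⁆ : Subgroup X)) := by
      intro y hy
      obtain ⟨x, rfl⟩ := QuotientGroup.mk_surjective y
      rw [MonoidHom.mem_ker] at hy
      have hx : x ∈ commutator X := by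
        have : f (x : X ⧸ (⁅commutator X, ⊤⁆ : Subgroup X)) = ((x : X) : X ⧸ commutator X) := rfl
        rw [this] at hy
        exact (QuotientGroup.eq_one_iff x).mp hy
      rw [Subgroup.mem_center_iff]
      intro z
      obtain ⟨w, rfl⟩ := QuotientGroup.mk_surjective z
      have hc : ⁅x⁻¹, w⁻¹⁆ ∈ (⁅commutator X, ⊤⁆ : Subgroup X) :=
        Subgroup.commutator_mem_commutator (Subgroup.inv_mem _ hx) (Subgroup.mem_top _)
      rw [← QuotientGroup.mk_mul, ← QuotientGroup.mk_mul, QuotientGroup.eq]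
      have e : (w * x)⁻¹ * (x * w) = ⁅x⁻¹, w⁻¹⁆ := by
        rw [commutatorElement_def]; group
      rw [e]
      exact hc
    exact MonoidHom.isMulCommutative_of_isCyclic_of_ker_le_center f hker
  obtain ⟨n, hn⟩ := Subgroup.nilpotent_iff_lowerCentralSeries.mp hnil
  have hall : ∀ m, commutator X ≤ Subgroup.lowerCentralSeries (⊤ : Subgroup X) m := by
    intro m
    induction m with
    | zero => simp
    | succ m ih =>
      calc commutator X ≤ ⁅commutator X, ⊤⁆ := h12
        _ ≤ ⁅Subgroup.lowerCentralSeries (⊤ : Subgroup X) m, ⊤⁆ := Subgroup.commutator_mono ih le_rfl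
        _ = Subgroup.lowerCentralSeries (⊤ : Subgroup X) (m+1) := (Subgroup.lowerCentralSeries_succ _ m).symm
  exact le_bot_iff.mp (hn ▸ hall n)

open Cfsg.Agent.Lib.helper8 Cfsg.Agent.Lib.helper9 in
theorem part_b1 {G : Type*} [Group G] [Finite G] [hnil : Group.IsNilpotent ↥(commutator G)]
    (q : ℕ) (hq : q.Prime) (hidx : (commutator G).index = q) :
    (Nat.card ↥(commutator G)).Coprime q := by
  have : Fact q.Prime := ⟨hq⟩
  have hQn : (pPrimeCore q G).Normal := ppc_normal _ G
  have hQc := pPrimeCore_coprime q G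
  have hpg : IsPGroup q (G ⧸ pPrimeCore q G) := by
    have hcard : Nat.card (G ⧸ pPrimeCore q G) =
        (pPrimeCore q G).index := (Subgroup.index_eq_card _).symm
    have hidx0 : (pPrimeCore q G).index ≠ 0 := Subgroup.index_ne_zero_of_finite
    refine IsPGroup.of_card (n := (pPrimeCore q G).index.primeFactorsList.length) ?_
    rw [hcard]
    refine Nat.eq_prime_pow_of_unique_prime_dvd hidx0 ?_
    intro r hr hrdvd
    by_contra hne
    have : Fact r.Prime := ⟨hr⟩
    obtain ⟨R⟩ : Nonempty (Sylow r ↥(commutator G)) := inferInstance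
    have hRn : (R : Subgroup ↥(commutator G)).Normal := inferInstance
    have hRc : (R : Subgroup ↥(commutator G)).Characteristic := Sylow.characteristic_of_normal R hRn
    have hRGn : ((R : Subgroup ↥(commutator G)).map (commutator G).subtype).Normal :=
      ConjAct.normal_of_characteristic_of_normal
    have hRcard : Nat.card ((R : Subgroup ↥(commutator G)).map (commutator G).subtype) =
        r ^ (Nat.card ↥(commutator G)).factorization r := by
      rw [Subgroup.card_map_of_injective (Subgroup.subtype_injective _)]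
      exact Sylow.card_eq_multiplicity R
    have hRQ : (R : Subgroup ↥(commutator G)).map (commutator G).subtype ≤
        pPrimeCore q G := by
      refine le_pPrimeCore hRGn ?_
      rw [hRcard]
      exact Nat.Coprime.pow_left _ ((Nat.coprime_primes hr hq).mpr hne)
    have h1 : r ^ (Nat.card ↥(commutator G)).factorization r ∣
        Nat.card (pPrimeCore q G) := by
      rw [← hRcard]; exact Subgroup.card_dvd_of_le hRQ
    have h2 : r ^ ((Nat.card ↥(commutator G)).factorization r + 1) ∣
        Nat.card ↥(commutator G) * q := by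
      rw [← hidx, Subgroup.card_mul_index, ← Subgroup.card_mul_index (pPrimeCore q G),
        pow_succ]
      exact mul_dvd_mul h1 hrdvd
    have h3 : r ^ ((Nat.card ↥(commutator G)).factorization r + 1) ∣ Nat.card ↥(commutator G) :=
      Nat.Coprime.dvd_of_dvd_mul_right
        (Nat.Coprime.pow_left _ ((Nat.coprime_primes hr hq).mpr hne)) h2
    exact Nat.pow_succ_factorization_not_dvd Nat.card_pos.ne' hr h3
  have hnilq : Group.IsNilpotent (G ⧸ pPrimeCore q G) := hpg.isNilpotent
  have hcyc0 : IsCyclic (G ⧸ commutator G) :=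
    isCyclic_of_prime_card (p := q) (by rw [← hidx]; exact (Subgroup.index_eq_card _).symm)
  have hle : commutator G ≤ (commutator (G ⧸ pPrimeCore q G)).comap
      (QuotientGroup.mk' (pPrimeCore q G)) := by
    rw [← Subgroup.map_le_iff_le_comap, commutator_def, commutator_def, Subgroup.map_commutator]
    exact Subgroup.commutator_mono le_top le_top
  have hcyc : IsCyclic ((G ⧸ pPrimeCore q G) ⧸
      commutator (G ⧸ pPrimeCore q G)) := by
    refine isCyclic_of_surjective (QuotientGroup.map (commutator G)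
      (commutator (G ⧸ pPrimeCore q G))
      (QuotientGroup.mk' (pPrimeCore q G)) hle) ?_
    intro y
    obtain ⟨z, rfl⟩ := QuotientGroup.mk_surjective y
    obtain ⟨g, rfl⟩ := QuotientGroup.mk_surjective z
    exact ⟨(g : G ⧸ commutator G), rfl⟩
  have hbot := commutator_eq_bot_of_nilpotent_of_cyclic (X := G ⧸ pPrimeCore q G)
  have hDQ : commutator G ≤ pPrimeCore q G := by
    intro x hx
    have := hle hx
    rw [Subgroup.mem_comap, hbot, Subgroup.mem_bot] at this
    exact (QuotientGroup.eq_one_iff x).mp this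
  exact Nat.Coprime.coprime_dvd_left (Subgroup.card_dvd_of_le hDQ) hQc

/-- Let G be a finite solvable group. (a) If H is a normal subgroup of order coprime to its index, K is a complement to H, and H ≤ G', then H = [H, K] and H ∩ C_G(K) ≤ [H, H]. (b) If G' is nilpotent and has prime index in G, then the order of G' is coprime to its index and G' = [G, K] (the subgroup generated by commutators of elements of G with elements of K) for every complement K of G'. -/
theorem result {G : Type*} [Group G] [Finite G] [Group.IsSolvable G] :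
    (∀ (H K : Subgroup G), H.Normal → (Nat.card H).Coprime H.index → Subgroup.IsComplement' H K → H ≤ commutator G →
        H = ⁅H, K⁆ ∧ H ⊓ Subgroup.centralizer (K : Set G) ≤ ⁅H, H⁆) ∧
      (Group.IsNilpotent ↥(commutator G) → (commutator G).index.Prime →
        (Nat.card ↥(commutator G)).Coprime (commutator G).index ∧
        ∀ K : Subgroup G, Subgroup.IsComplement' (commutator G) K → commutator G = ⁅(⊤ : Subgroup G), K⁆) := by

    refine ⟨fun H K hHn hcop hc hHG => part_a H K hHn hcop hc hHG, ?_⟩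
    intro hnil hq
    have hb1 := part_b1 (G := G) (commutator G).index hq rfl
    refine ⟨hb1, ?_⟩
    intro K hK
    have ha := (part_a (commutator G) K inferInstance hb1 hK le_rfl).1
    refine le_antisymm ?_ ?_
    · calc commutator G = ⁅commutator G, K⁆ := ha
        _ ≤ ⁅(⊤ : Subgroup G), K⁆ := Subgroup.commutator_mono le_top le_rfl
    · rw [commutator_def]
      exact Subgroup.commutator_mono le_rfl le_top

end Cfsg.Agent.S1459
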