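import Cfsg.Statements.S1460

import Cfsg.Agent.Lib.helper8.CoprimeAction
set_option autoImplicit false
open Cfsg

namespace Cfsg.Agent.S1460

open scoped commutatorElement

open Cfsg.Agent.Lib.helper8 in
/-- If `K` is normal, `G = K U`, `H ≤ U` has order coprime to `|K|` and `g H g⁻¹ ≤ U`, then
`g = u c` with `u ∈ U` and `c ∈ C_K(H)`. -/
theorem conj_le_factor {G : Type*} [Group G] [Finite G] [Group.IsSolvable G]
    (K U H : Subgroup G) [hKn : K.Normal] (hKU : K ⊔ U = ⊤) (hH : H ≤ U)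
    (hcop : (Nat.card H).Coprime (Nat.card K)) (g : G)
    (hg : ∀ h ∈ H, g * h * g⁻¹ ∈ U) :
    ∃ u ∈ U, ∃ c ∈ K ⊓ Subgroup.centralizer (H : Set G), g = u * c := by
  have hgm : g ∈ U ⊔ K := by rw [sup_comm, hKU]; exact Subgroup.mem_top g
  rw [← SetLike.mem_coe, Subgroup.mul_normal, Set.mem_mul] at hgm
  obtain ⟨u₁, hu₁, k, hk, rfl⟩ := hgm
  have hkH : ∀ h ∈ H, k * h * k⁻¹ ∈ U := by
    intro h hh
    have h1 := U.mul_mem (U.mul_mem (U.inv_mem hu₁) (hg h hh)) hu₁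
    have e : u₁⁻¹ * (u₁ * k * h * (u₁ * k)⁻¹) * u₁ = k * h * k⁻¹ := by group
    rwa [e] at h1
  set N := K ⊓ U with hN
  have hHN : H ≤ Subgroup.normalizer (N : Set G) := le_normalizer_of_conj_mem (by
    intro h hh n hn
    exact Subgroup.mem_inf.mpr ⟨hKn.conj_mem n hn.1 h,
      U.mul_mem (U.mul_mem (hH hh) hn.2) (U.inv_mem (hH hh))⟩)
  have hcopN : (Nat.card N).Coprime (Nat.card H) :=
    (Nat.Coprime.coprime_dvd_right (Subgroup.card_dvd_of_le inf_le_left) hcop).symm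
  have hBle : cj k H ≤ N ⊔ H := by
    intro y hy
    rw [mem_cj] at hy
    have h1 := hkH _ hy
    have e1 : k * (k⁻¹ * y * k) * k⁻¹ = y := by group
    rw [e1] at h1
    have e : y = (y * (k⁻¹ * y * k)⁻¹) * (k⁻¹ * y * k) := by group
    rw [e]
    refine Subgroup.mul_mem _ (Subgroup.mem_sup_left (Subgroup.mem_inf.mpr ⟨?_, ?_⟩))
      (Subgroup.mem_sup_right hy)
    · have e2 : y * (k⁻¹ * y * k)⁻¹ = (y * k⁻¹ * y⁻¹) * k := by group
      rw [e2]
      exact K.mul_mem (hKn.conj_mem _ (K.inv_mem hk) y) hk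
    · exact U.mul_mem h1 (U.inv_mem (hH hy))
  obtain ⟨n, hn, hn2⟩ := szi N H (cj k H) hHN hcopN (Or.inl inferInstance) hBle (card_cj k H)
  have hcH : ∀ h ∈ H, (n⁻¹ * k) * h * (n⁻¹ * k)⁻¹ ∈ H := by
    intro h hh
    have h1 : k * h * k⁻¹ ∈ cj k H := by
      rw [mem_cj]
      have e : k⁻¹ * (k * h * k⁻¹) * k = h := by group
      rw [e]; exact hh
    have h2 := (hn2 _).mp h1
    have e : n⁻¹ * k * h * (n⁻¹ * k)⁻¹ = n⁻¹ * (k * h * k⁻¹) * n := by group
    rw [e]; exact h2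
  have hcK : n⁻¹ * k ∈ K := K.mul_mem (K.inv_mem hn.1) hk
  have hcC : n⁻¹ * k ∈ Subgroup.centralizer (H : Set G) := by
    rw [Subgroup.mem_centralizer_iff]
    intro h hh
    have h1 : (n⁻¹ * k) * h * (n⁻¹ * k)⁻¹ * h⁻¹ ∈ H := H.mul_mem (hcH h hh) (H.inv_mem hh)
    have h2 : (n⁻¹ * k) * h * (n⁻¹ * k)⁻¹ * h⁻¹ ∈ K := by
      have e : (n⁻¹ * k) * h * (n⁻¹ * k)⁻¹ * h⁻¹ = (n⁻¹ * k) * (h * (n⁻¹ * k)⁻¹ * h⁻¹) := by
        group
      rw [e]
      exact K.mul_mem hcK (hKn.conj_mem _ (K.inv_mem hcK) h)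
    have h3 := eq_one_of_coprime hcop h1 h2
    have e : h * (n⁻¹ * k) = ((n⁻¹ * k) * h * (n⁻¹ * k)⁻¹ * h⁻¹)⁻¹ * ((n⁻¹ * k) * h) := by group
    rw [e, h3, inv_one, one_mul]
  exact ⟨u₁ * n, U.mul_mem hu₁ hn.2, n⁻¹ * k, Subgroup.mem_inf.mpr ⟨hcK, hcC⟩, by group⟩

open Cfsg.Agent.Lib.helper8 in
/-- If `K` is normal, `G = K U`, and `H ≤ U` has order coprime to `|K|`, then `H ∩ G' ≤ U'`. -/
theorem inf_commutator_le {G : Type*} [Group G] [Finite G]
    (K U H : Subgroup G) [hKn : K.Normal] (hKU : K ⊔ U = ⊤) (hH : H ≤ U)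
    (hcop : (Nat.card H).Coprime (Nat.card K)) :
    H ⊓ commutator G ≤ ⁅U, U⁆ := by
  have hdec : ∀ g : G, ∃ u ∈ U, ∃ k ∈ K, g = u * k := by
    intro g
    have hgm : g ∈ U ⊔ K := by rw [sup_comm, hKU]; exact Subgroup.mem_top g
    rw [← SetLike.mem_coe, Subgroup.mul_normal, Set.mem_mul] at hgm
    obtain ⟨u, hu, k, hk, rfl⟩ := hgm
    exact ⟨u, hu, k, hk, rfl⟩
  have hmk : ∀ (u k : G), k ∈ K → (QuotientGroup.mk' K) (u * k) = (QuotientGroup.mk' K) u := by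
    intro u k hk
    rw [map_mul, show (QuotientGroup.mk' K) k = 1 from (QuotientGroup.eq_one_iff k).mpr hk, mul_one]
  have hA : commutator G ≤ ⁅U, U⁆ ⊔ K := by
    rw [commutator_def, Subgroup.commutator_le]
    intro g₁ _ g₂ _
    obtain ⟨u₁, hu₁, k₁, hk₁, rfl⟩ := hdec g₁
    obtain ⟨u₂, hu₂, k₂, hk₂, rfl⟩ := hdec g₂
    have h1 : (QuotientGroup.mk' K) (⁅u₁, u₂⁆⁻¹ * ⁅u₁ * k₁, u₂ * k₂⁆) = 1 := by
      rw [map_mul, map_inv, map_commutatorElement, map_commutatorElement, hmk u₁ k₁ hk₁,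
        hmk u₂ k₂ hk₂, inv_mul_cancel]
    have h2 : ⁅u₁, u₂⁆⁻¹ * ⁅u₁ * k₁, u₂ * k₂⁆ ∈ K := (QuotientGroup.eq_one_iff _).mp h1
    have e : ⁅u₁ * k₁, u₂ * k₂⁆ = ⁅u₁, u₂⁆ * (⁅u₁, u₂⁆⁻¹ * ⁅u₁ * k₁, u₂ * k₂⁆) := by group
    rw [e]
    exact Subgroup.mul_mem _ (Subgroup.mem_sup_left (Subgroup.commutator_mem_commutator hu₁ hu₂))
      (Subgroup.mem_sup_right h2)
  intro h hh
  have hhH : h ∈ H := (Subgroup.mem_inf.mp hh).1
  have h1 : h ∈ ⁅U, U⁆ ⊔ K := hA (Subgroup.mem_inf.mp hh).2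
  rw [← SetLike.mem_coe, Subgroup.mul_normal, Set.mem_mul] at h1
  obtain ⟨w, hw, k, hk, hwk⟩ := h1
  have hwU : w ∈ U := commutator_le_of_le_normalizer Subgroup.le_normalizer hw
  have hkU : k ∈ U := by
    have e : k = w⁻¹ * h := by rw [← hwk]; group
    rw [e]; exact U.mul_mem (U.inv_mem hwU) (hH hhH)
  have h2 := mul_pow_mem_of_mem_normalizer (N := ⁅U, U⁆) hw
    (le_normalizer_commutator_left U U hkU) (Nat.card K)
  have hk1 : k ^ Nat.card K = 1 := by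
    have h5 : (⟨k, hk⟩ : K) ^ Nat.card K = 1 := pow_card_eq_one'
    have h6 := congrArg (fun z : K => (z : G)) h5
    exact h6
  rw [hk1, inv_one, mul_one, hwk] at h2
  have hcop' : (Nat.card K).Coprime (orderOf h) :=
    (Nat.Coprime.coprime_dvd_left (Subgroup.orderOf_dvd_natCard H hhH) hcop).symm
  obtain ⟨m, hm⟩ := exists_pow_eq_self_of_coprime hcop'
  rw [← hm]
  exact Subgroup.pow_mem _ h2 m

/-- Let G be a finite solvable group, K a normal subgroup and U a subgroup with G = KU, and H ≤ U a subgroup whose order is coprime to that of K. Then H ∩ G' = H ∩ U'; N_G(H) is generated by K ∩ C_G(H) and U ∩ N_G(H); and if gHg⁻¹ ≤ U for some g ∈ G then g = u c with u ∈ U and c ∈ K ∩ C_G(H). -/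
theorem result {G : Type*} [Group G] [Finite G] [Group.IsSolvable G] (K U H : Subgroup G) [K.Normal] (hKU : K ⊔ U = ⊤) (hH : H ≤ U) (hcop : (Nat.card H).Coprime (Nat.card K)) :
    H ⊓ commutator G = H ⊓ ⁅U, U⁆ ∧
      Subgroup.normalizer (H : Set G) = (K ⊓ Subgroup.centralizer (H : Set G)) ⊔ (U ⊓ Subgroup.normalizer (H : Set G)) ∧
      ∀ g : G, H.map (MulAut.conj g).toMonoidHom ≤ U → ∃ u ∈ U, ∃ c ∈ K ⊓ Subgroup.centralizer (H : Set G), g = u * c := by

    have hCN : K ⊓ Subgroup.centralizer (H : Set G) ≤ Subgroup.normalizer (H : Set G) :=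
      Cfsg.Agent.Lib.helper8.le_normalizer_of_conj_mem (by
        intro c hc h hh
        have h1 := (Subgroup.mem_centralizer_iff.mp (Subgroup.mem_inf.mp hc).2) h hh
        rw [← h1, mul_inv_cancel_right]; exact hh)
    have h3 : ∀ g : G, H.map (MulAut.conj g).toMonoidHom ≤ U →
        ∃ u ∈ U, ∃ c ∈ K ⊓ Subgroup.centralizer (H : Set G), g = u * c := by
      intro g hg
      apply conj_le_factor K U H hKU hH hcop g
      intro h hh
      exact hg (Subgroup.mem_map_of_mem _ hh)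
    refine ⟨?_, ?_, h3⟩
    · apply le_antisymm
      · exact le_inf inf_le_left (inf_commutator_le K U H hKU hH hcop)
      · refine le_inf inf_le_left (inf_le_right.trans ?_)
        rw [commutator_def]
        exact Subgroup.commutator_mono le_top le_top
    · apply le_antisymm
      · intro g hg
        have hmap : H.map (MulAut.conj g).toMonoidHom ≤ U := by
          rintro _ ⟨h, hh, rfl⟩
          exact hH (Cfsg.Agent.Lib.helper8.conj_mem_of_mem_normalizer hg hh)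
        obtain ⟨u, hu, c, hc, rfl⟩ := h3 g hmap
        have huN : u ∈ Subgroup.normalizer (H : Set G) := by
          have e : u = u * c * c⁻¹ := by group
          rw [e]
          exact Subgroup.mul_mem _ hg (Subgroup.inv_mem _ (hCN hc))
        exact Subgroup.mul_mem _ (Subgroup.mem_sup_right (Subgroup.mem_inf.mpr ⟨hu, huN⟩))
          (Subgroup.mem_sup_left hc)
      · exact sup_le hCN inf_le_right

end Cfsg.Agent.S1460
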