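import Cfsg.Statements.S1461

import Cfsg.Agent.S1460
import Cfsg.Agent.Lib.helper9.PPrimeCore
import Cfsg.Agent.Lib.helper15.PCore
set_option autoImplicit false
open Cfsg

namespace Cfsg.Agent.S1461

open Cfsg.Agent.Lib.helper8 Cfsg.Agent.Lib.helper9 Cfsg.Agent.Lib.helper15 in
theorem exists_core_of_pLength_one {G : Type*} [Group G] [Finite G] (p : ℕ) [Fact p.Prime]
    (hpl : Cfsg.PLengthLE p 1 G) (S : Sylow p G) :
    ∃ K : Subgroup G, K.Normal ∧ (Nat.card K).Coprime p ∧
      K ⊔ Subgroup.normalizer ((S : Subgroup G) : Set G) = ⊤ := by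
  have e1 : (upperPSeries p G 1).1 =
      (pPrimeCore p (G ⧸ (upperPSeries p G 0).1)).comap (QuotientGroup.mk' _) := rfl
  have e2 : (upperPSeries p G 2).1 =
      (pCore p (G ⧸ (upperPSeries p G 1).1)).comap (QuotientGroup.mk' _) := rfl
  have e3 : (upperPSeries p G 3).1 =
      (pPrimeCore p (G ⧸ (upperPSeries p G 2).1)).comap (QuotientGroup.mk' _) := rfl
  have e0 : (upperPSeries p G 0).1 = ⊥ := rfl
  have hpl' : (upperPSeries p G 3).1 = ⊤ := hpl
  have hp := (Fact.out : p.Prime)
  have hK : (Nat.card (upperPSeries p G 1).1).Coprime p := by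
    have hinj : Function.Injective (QuotientGroup.mk' (upperPSeries p G 0).1) := by
      rw [← MonoidHom.ker_eq_bot_iff, QuotientGroup.ker_mk', e0]
    have h1 := Subgroup.card_comap_dvd_of_injective (pPrimeCore p (G ⧸ (upperPSeries p G 0).1)) _ hinj
    rw [← e1] at h1
    exact Nat.Coprime.coprime_dvd_left h1 (pPrimeCore_coprime p _)
  have htop : pPrimeCore p (G ⧸ (upperPSeries p G 2).1) = ⊤ := by
    rw [e3] at hpl'
    exact Subgroup.comap_injective (QuotientGroup.mk'_surjective (upperPSeries p G 2).1)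
      (by rw [hpl', Subgroup.comap_top])
  have hS2 : (S : Subgroup G) ≤ (upperPSeries p G 2).1 := by
    intro s hs
    have h1 : QuotientGroup.mk' (upperPSeries p G 2).1 s ∈
        (S : Subgroup G).map (QuotientGroup.mk' (upperPSeries p G 2).1) :=
      Subgroup.mem_map_of_mem _ hs
    have h2 : QuotientGroup.mk' (upperPSeries p G 2).1 s ∈ pPrimeCore p (G ⧸ (upperPSeries p G 2).1) := by
      rw [htop]; exact Subgroup.mem_top _
    have hc : (Nat.card ((S : Subgroup G).map (QuotientGroup.mk' (upperPSeries p G 2).1))).Coprime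
        (Nat.card (pPrimeCore p (G ⧸ (upperPSeries p G 2).1))) := by
      obtain ⟨n, hn⟩ := (S.isPGroup'.map (QuotientGroup.mk' (upperPSeries p G 2).1)).exists_card_eq
      rw [hn]
      exact Nat.Coprime.pow_left n (pPrimeCore_coprime p _).symm
    have h3 := eq_one_of_coprime hc h1 h2
    rw [QuotientGroup.mk'_apply, QuotientGroup.eq_one_iff] at h3
    exact h3
  have h21 : (upperPSeries p G 2).1 ≤ (upperPSeries p G 1).1 ⊔ (S : Subgroup G) := by
    intro g hg
    rw [e2, Subgroup.mem_comap] at hg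
    have h1 := pCore_le_sylow (Sylow.mapSurjective
      (QuotientGroup.mk'_surjective (upperPSeries p G 1).1) S) hg
    rw [Sylow.coe_mapSurjective, Subgroup.mem_map] at h1
    obtain ⟨s, hs, hsg⟩ := h1
    have h2 : s⁻¹ * g ∈ (upperPSeries p G 1).1 := by
      rw [← QuotientGroup.eq]
      exact hsg
    have e : g = (s * (s⁻¹ * g) * s⁻¹) * s := by group
    rw [e]
    exact Subgroup.mul_mem _ (Subgroup.mem_sup_left ((upperPSeries p G 1).2.conj_mem _ h2 s))
      (Subgroup.mem_sup_right hs)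
  have hfr := Sylow.normalizer_sup_eq_top (S.subtype hS2)
  rw [Sylow.coe_subtype, Subgroup.map_subgroupOf_eq_of_le hS2] at hfr
  refine ⟨(upperPSeries p G 1).1, (upperPSeries p G 1).2, hK, ?_⟩
  rw [eq_top_iff, ← hfr]
  refine sup_le le_sup_right (h21.trans (sup_le le_sup_left ?_))
  exact Subgroup.le_normalizer.trans le_sup_right

/-- Let G be a finite solvable group, p a prime with G = O_{p',p,p'}(G), and S a Sylow p-subgroup. Then: if S ≤ G' then S ≤ [N_G(S), N_G(S)]; if Y ⊆ S and xYx⁻¹ ⊆ S then x = g c for some g ∈ N_G(S) and c centralizing Y; and for every p-subgroup Q there is x ∈ C_G(Q ∩ S) with xQx⁻¹ ≤ S. -/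
theorem result {G : Type*} [Group G] [Finite G] [Group.IsSolvable G] (p : ℕ) [Fact p.Prime] (hpl : Cfsg.PLengthLE p 1 G) (S : Sylow p G) :
    ((S : Subgroup G) ≤ commutator G → (S : Subgroup G) ≤ ⁅Subgroup.normalizer ((S : Subgroup G) : Set G), Subgroup.normalizer ((S : Subgroup G) : Set G)⁆) ∧
      (∀ (Y : Set G) (x : G), Y ⊆ (S : Subgroup G) → (fun y => x * y * x⁻¹) '' Y ⊆ (S : Subgroup G) →
        ∃ g ∈ Subgroup.normalizer ((S : Subgroup G) : Set G), ∃ c ∈ Subgroup.centralizer Y, g * c = x) ∧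
      ∀ Q : Subgroup G, IsPGroup p Q → ∃ x ∈ Subgroup.centralizer ((Q ⊓ (S : Subgroup G) : Subgroup G) : Set G), Q.map (MulAut.conj x).toMonoidHom ≤ (S : Subgroup G) := by

    obtain ⟨K, hKn, hKc, hKU⟩ := exists_core_of_pLength_one p hpl S
    have hp := (Fact.out : p.Prime)
    have hcop : (Nat.card (S : Subgroup G)).Coprime (Nat.card K) := by
      obtain ⟨n, hn⟩ := S.isPGroup'.exists_card_eq
      rw [hn]
      exact Nat.Coprime.pow_left n hKc.symm
    have hSN : (S : Subgroup G) ≤ Subgroup.normalizer ((S : Subgroup G) : Set G) :=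
      Subgroup.le_normalizer
    have part2 : ∀ (Y : Set G) (x : G), Y ⊆ (S : Subgroup G) →
        (fun y => x * y * x⁻¹) '' Y ⊆ (S : Subgroup G) →
        ∃ g ∈ Subgroup.normalizer ((S : Subgroup G) : Set G), ∃ c ∈ Subgroup.centralizer Y,
          g * c = x := by
      intro Y x hY hx
      have hH : Subgroup.closure Y ≤ Subgroup.normalizer ((S : Subgroup G) : Set G) :=
        ((Subgroup.closure_le _).mpr hY).trans hSN
      have hcop' : (Nat.card (Subgroup.closure Y)).Coprime (Nat.card K) :=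
        Nat.Coprime.coprime_dvd_left (Subgroup.card_dvd_of_le ((Subgroup.closure_le _).mpr hY)) hcop
      have hg : ∀ h ∈ Subgroup.closure Y, x * h * x⁻¹ ∈ Subgroup.normalizer ((S : Subgroup G) : Set G) := by
        intro h hh
        apply hSN
        induction hh using Subgroup.closure_induction with
        | mem y hy => exact hx ⟨y, hy, rfl⟩
        | one => simp
        | mul a b _ _ iha ihb =>
          have e : x * (a * b) * x⁻¹ = (x * a * x⁻¹) * (x * b * x⁻¹) := by group
          rw [e]; exact Subgroup.mul_mem _ iha ihb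
        | inv a _ iha =>
          have e : x * a⁻¹ * x⁻¹ = (x * a * x⁻¹)⁻¹ := by group
          rw [e]; exact Subgroup.inv_mem _ iha
      obtain ⟨u, hu, c, hc, hxe⟩ := Cfsg.Agent.S1460.conj_le_factor K _ (Subgroup.closure Y) hKU hH hcop' x hg
      refine ⟨u, hu, c, ?_, hxe.symm⟩
      have hc2 := (Subgroup.mem_inf.mp hc).2
      rw [Subgroup.mem_centralizer_iff] at hc2 ⊢
      intro y hy
      exact hc2 y (Subgroup.subset_closure hy)
    refine ⟨?_, part2, ?_⟩
    · intro hS
      have h1 := Cfsg.Agent.S1460.inf_commutator_le K (Subgroup.normalizer ((S : Subgroup G) : Set G)) (S : Subgroup G) hKU hSN hcop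
      exact (le_inf le_rfl hS).trans h1
    · intro Q hQ
      obtain ⟨g, hg⟩ := hQ.exists_le_sylow
      obtain ⟨a, ha⟩ := MulAction.exists_smul_eq G g S
      have hQa : ∀ q ∈ Q, a * q * a⁻¹ ∈ (S : Subgroup G) := by
        intro q hq
        rw [← ha, Sylow.coe_subgroup_smul]
        exact Subgroup.smul_mem_pointwise_smul _ (MulAut.conj a) _ (hg hq)
      obtain ⟨n, hn, c, hc, hnc⟩ := part2 ((Q ⊓ (S : Subgroup G) : Subgroup G) : Set G) a
        (fun y hy => (Subgroup.mem_inf.mp hy).2) (by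
          rintro _ ⟨y, hy, rfl⟩
          exact hQa y (Subgroup.mem_inf.mp hy).1)
      refine ⟨c, hc, ?_⟩
      rintro _ ⟨q, hq, rfl⟩
      show c * q * c⁻¹ ∈ (S : Subgroup G)
      have h1 := hQa q hq
      rw [← hnc] at h1
      have h2 := Cfsg.Agent.Lib.helper8.conj_mem_of_mem_normalizer' hn h1
      have e : n⁻¹ * (n * c * q * (n * c)⁻¹) * n = c * q * c⁻¹ := by group
      rwa [e] at h2

end Cfsg.Agent.S1461
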