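import Cfsg.Statements.S1462

import Cfsg.Agent.S1461
import Cfsg.Agent.Lib.helper10.PSolv
import Cfsg.Agent.Lib.helper15.Omega
import Cfsg.Agent.Lib.helper15.PCore
import Cfsg.Agent.Lib.helper9.PPrimeCore
import Cfsg.Agent.Lib.helper8.PGroupEA
import Cfsg.Agent.Lib.helper8.CoprimeAction
set_option autoImplicit false
open Cfsg

namespace Cfsg.Agent.S1462

open Cfsg.Agent.Lib.helper8

/-- Let G be a finite solvable group, p an odd prime with G = O_{p',p,p'}(G), E an elementary abelian p-subgroup contained in no larger elementary abelian p-subgroup of G, and L a subgroup of order coprime to p normalized by E. Then L ≤ O_{p'}(G). -/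
theorem result {G : Type*} [Group G] [Finite G] [Group.IsSolvable G] (p : ℕ) [Fact p.Prime] (hp : p ≠ 2) (hpl : Cfsg.PLengthLE p 1 G) (E L : Subgroup G) (hE : Cfsg.IsElementaryAbelian p E)
    (hEmax : ∀ B : Subgroup G, Cfsg.IsElementaryAbelian p B → E ≤ B → B = E) (hL : (Nat.card L).Coprime p) (hEL : E ≤ Subgroup.normalizer (L : Set G)) :
    L ≤ Cfsg.pPrimeCore p G := by

  classical
  have hp' : p.Prime := Fact.out
  haveI hNn : (Cfsg.pPrimeCore p G).Normal := Cfsg.Agent.Lib.helper9.ppc_normal p G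
  have hNcop := Cfsg.Agent.Lib.helper9.pPrimeCore_coprime p G
  have hEp : IsPGroup p E := by
    rintro ⟨x, hx⟩
    refine ⟨1, Subtype.ext ?_⟩
    rw [Subgroup.coe_pow, pow_one]
    exact hE.2 x hx
  obtain ⟨S, hES⟩ := hEp.exists_le_sylow
  obtain ⟨K, hKn, hKcop, hKtop⟩ := Cfsg.Agent.S1461.exists_core_of_pLength_one p hpl S
  have hKN : K ≤ Cfsg.pPrimeCore p G := Cfsg.Agent.Lib.helper9.le_pPrimeCore hKn hKcop
  have hSN : ∀ g ∈ (S : Subgroup G), g ∈ Cfsg.pPrimeCore p G → g = 1 := by
    intro g hgS hgN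
    have hc : (Nat.card (S : Subgroup G)).Coprime (Nat.card (Cfsg.pPrimeCore p G)) := by
      obtain ⟨n, hn⟩ := S.isPGroup'.exists_card_eq
      rw [hn]
      exact Nat.Coprime.pow_left n hNcop.symm
    exact eq_one_of_coprime hc hgS hgN
  obtain ⟨π, hπ⟩ : ∃ π : G →* G ⧸ Cfsg.pPrimeCore p G,
      π = QuotientGroup.mk' (Cfsg.pPrimeCore p G) := ⟨_, rfl⟩
  have hπsurj : Function.Surjective π := by rw [hπ]; exact QuotientGroup.mk'_surjective _
  have hπker : ∀ g : G, π g = 1 ↔ g ∈ Cfsg.pPrimeCore p G := by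
    intro g; rw [hπ]; exact QuotientGroup.eq_one_iff g
  have hSbn : ((S : Subgroup G).map π).Normal := by
    rw [← Subgroup.normalizer_eq_top_iff, eq_top_iff]
    intro q _
    obtain ⟨g, rfl⟩ := hπsurj q
    have hg : g ∈ K ⊔ Subgroup.normalizer ((S : Subgroup G) : Set G) := by
      rw [hKtop]; exact Subgroup.mem_top g
    obtain ⟨k, hk, n, hn, rfl⟩ := (mem_sup_iff_of_le_normalizer (N := K)
      (A := Subgroup.normalizer ((S : Subgroup G) : Set G))
      (le_normalizer_of_conj_mem (fun a _ x hx => hKn.conj_mem x hx a)) g).mp hg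
    have hk1 : π k = 1 := (hπker k).mpr (hKN hk)
    rw [map_mul, hk1, one_mul]
    exact Subgroup.le_normalizer_map π (Subgroup.mem_map_of_mem π hn)
  have hSbp : IsPGroup p ((S : Subgroup G).map π) := S.isPGroup'.map π
  have hcore : Cfsg.pPrimeCore p (G ⧸ Cfsg.pPrimeCore p G) = ⊥ :=
    Cfsg.Agent.Lib.helper9.pPrimeCore_quotient_eq_bot p G
  have hHH := Cfsg.Agent.Lib.helper10.centralizer_pCore_le_of_solvable (p := p)
    (inferInstance : Group.IsSolvable (G ⧸ Cfsg.pPrimeCore p G)) hcore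
  have hPeq : Cfsg.pCore p (G ⧸ Cfsg.pPrimeCore p G) = (S : Subgroup G).map π := by
    apply le_antisymm
    · have h0 := Cfsg.Agent.Lib.helper15.pCore_le_sylow (Sylow.mapSurjective hπsurj S)
      rw [Sylow.coe_mapSurjective] at h0
      exact h0
    · exact Cfsg.Agent.Lib.helper15.le_pCore hSbn hSbp
  rw [hPeq] at hHH
  have hLbcop : (Nat.card (L.map π)).Coprime p :=
    Nat.Coprime.coprime_dvd_left (Subgroup.card_map_dvd L π) hL
  have hLP : ∀ x, x ∈ L.map π → x ∈ (S : Subgroup G).map π → x = 1 := by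
    intro x h1 h2
    have hc : (Nat.card (L.map π)).Coprime (Nat.card ((S : Subgroup G).map π)) := by
      obtain ⟨n, hn⟩ := hSbp.exists_card_eq
      rw [hn]; exact Nat.Coprime.pow_right n hLbcop
    exact eq_one_of_coprime hc h1 h2
  have hEb : E.map π ≤ (S : Subgroup G).map π := Subgroup.map_mono hES
  have hELb : E.map π ≤ Subgroup.normalizer ((L.map π : Subgroup _) : Set _) :=
    (Subgroup.map_mono hEL).trans (Subgroup.le_normalizer_map π)
  have hcomm : ∀ l ∈ L.map π, ∀ e ∈ E.map π, l * e = e * l := by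
    intro l hl e he
    have h1 : l * e * l⁻¹ * e⁻¹ ∈ L.map π := by
      have h2 : e * l⁻¹ * e⁻¹ ∈ L.map π := conj_mem_of_mem_normalizer (hELb he) (inv_mem hl)
      have h3 : l * e * l⁻¹ * e⁻¹ = l * (e * l⁻¹ * e⁻¹) := by group
      rw [h3]; exact mul_mem hl h2
    have h4 : l * e * l⁻¹ * e⁻¹ ∈ (S : Subgroup G).map π := by
      have h5 : l * e * l⁻¹ ∈ (S : Subgroup G).map π := hSbn.conj_mem e (hEb he) l
      exact mul_mem h5 (inv_mem (hEb he))
    have h6 := hLP _ h1 h4
    calc l * e = (l * e * l⁻¹ * e⁻¹) * (e * l) := by group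
      _ = e * l := by rw [h6, one_mul]
  have hOm : ∀ x ∈ (S : Subgroup G).map π ⊓
      Subgroup.centralizer ((E.map π : Subgroup _) : Set _), x ^ p = 1 → x ∈ E.map π := by
    rintro _ ⟨⟨s, hsS, rfl⟩, hxC⟩ hxp
    have hsp : s ^ p = 1 := by
      apply hSN _ (pow_mem hsS p)
      rw [← hπker, map_pow]; exact hxp
    have hsC : s ∈ Subgroup.centralizer (E : Set G) := by
      rw [Subgroup.mem_centralizer_iff]
      intro e he
      have h1 : π e * π s = π s * π e :=
        Subgroup.mem_centralizer_iff.mp hxC (π e) (Subgroup.mem_map_of_mem π he)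
      have h2 : e * s * (s * e)⁻¹ = 1 := by
        apply hSN _ (mul_mem (mul_mem (hES he) hsS) (inv_mem (mul_mem hsS (hES he))))
        rw [← hπker, map_mul, map_inv, map_mul, map_mul, h1, mul_inv_cancel]
      calc e * s = (e * s * (s * e)⁻¹) * (s * e) := by group
        _ = s * e := by rw [h2, one_mul]
    have h3 := hEmax _ (isElementaryAbelian_sup_zpowers p E hE s hsC hsp) le_sup_left
    have hsE : s ∈ E := by rw [← h3]; exact Subgroup.mem_sup_right (Subgroup.mem_zpowers s)
    exact Subgroup.mem_map_of_mem π hsE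
  have hconjC : ∀ l' ∈ L.map π, ∀ x ∈ (S : Subgroup G).map π ⊓
      Subgroup.centralizer ((E.map π : Subgroup _) : Set _),
      l' * x * l'⁻¹ ∈ (S : Subgroup G).map π ⊓
        Subgroup.centralizer ((E.map π : Subgroup _) : Set _) := by
    intro l' hl' x hx
    refine ⟨hSbn.conj_mem x hx.1 l', ?_⟩
    change l' * x * l'⁻¹ ∈ Subgroup.centralizer ((E.map π : Subgroup _) : Set _)
    rw [Subgroup.mem_centralizer_iff]
    intro e he
    have h1' : Commute e l' := (hcomm l' hl' e he).symm
    have h2' : Commute e x := Subgroup.mem_centralizer_iff.mp hx.2 e he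
    exact ((h1'.mul_right h2').mul_right h1'.inv_right).eq
  have hLnC := le_normalizer_of_conj_mem hconjC
  have hLC : ∀ l ∈ L.map π, l ∈ Subgroup.centralizer ((((S : Subgroup G).map π ⊓
      Subgroup.centralizer ((E.map π : Subgroup _) : Set _) : Subgroup _)) : Set _) := by
    intro l hl
    exact Cfsg.Agent.Lib.helper15.omega_centralize hp _ (hSbp.to_le inf_le_left) l (hLnC hl)
      (Nat.Coprime.coprime_dvd_left (Subgroup.orderOf_dvd_natCard _ hl) hLbcop)
      (fun x hx hxp => hcomm l hl x (hOm x hx hxp))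
  have hT := thompson_pq (p := p) (E.map π) (L.map π) ((S : Subgroup G).map π) (hEp.map π)
    hLbcop hSbp
    (by
      intro e he
      rw [Subgroup.mem_centralizer_iff]
      intro l hl
      exact hcomm l hl e he)
    (le_normalizer_of_conj_mem (fun a _ x hx => hSbn.conj_mem x hx a))
    (le_normalizer_of_conj_mem (fun a _ x hx => hSbn.conj_mem x hx a))
    (by
      intro x hx
      rw [Subgroup.mem_centralizer_iff]
      intro l hl
      exact (Subgroup.mem_centralizer_iff.mp (hLC l hl) x hx).symm)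
  intro l hl
  have h1 : π l ∈ L.map π := Subgroup.mem_map_of_mem π hl
  have h2 := hLP _ h1 (hHH (hT h1))
  exact (hπker l).mp h2

end Cfsg.Agent.S1462
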