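import Cfsg.Statements.S1464
import Mathlib
import Cfsg.Agent.Lib.helper3.PStableOdd

set_option linter.style.haveILetI false

set_option autoImplicit false
open Cfsg

namespace Cfsg.Agent.S1464

/-- Let p be an odd prime and G a solvable group of odd order, P a p-subgroup with O_{p'}(G)P normal in G, and A a p-subgroup of N_G(P) with [[P, A], A] = 1. Then the image of A in the quotient N_G(P)/C_G(P) is contained in the p-core of that quotient. -/
theorem result {G : Type*} [Group G] [Finite G] [Group.IsSolvable G] (hodd : Odd (Nat.card G)) (p : ℕ) [Fact p.Prime] (hp : p ≠ 2) (P A : Subgroup G) (hP : IsPGroup p P) (hPn : (Cfsg.pPrimeCore p G ⊔ P).Normal)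
    (hA : IsPGroup p A) (hAN : A ≤ Subgroup.normalizer (P : Set G)) (hquad : ⁅⁅P, A⁆, A⁆ = ⊥) :
    (A.subgroupOf (Subgroup.normalizer (P : Set G))).map
        (QuotientGroup.mk' ((Subgroup.centralizer (P : Set G)).subgroupOf (Subgroup.normalizer (P : Set G))))
      ≤ Cfsg.pCore p _ := by
  classical
  rintro y ⟨a, ha, rfl⟩
  have haA : (a : G) ∈ A := Subgroup.mem_subgroupOf.mp ha
  apply Cfsg.Agent.Lib.helper3.pstable_odd hodd P hP a
  · obtain ⟨i, hi⟩ := hA ⟨(a : G), haA⟩
    refine ⟨i, Subtype.ext ?_⟩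
    have := congrArg Subtype.val hi
    simpa using this
  · intro k hk
    have h1 : k * (a : G) * k⁻¹ * (a : G)⁻¹ ∈ ⁅P, A⁆ := Subgroup.commutator_mem_commutator hk haA
    obtain ⟨c, hc⟩ : ∃ c : G, c = k * (a : G) * k⁻¹ * (a : G)⁻¹ := ⟨_, rfl⟩
    rw [← hc] at h1
    have h2 : c * (a : G) * c⁻¹ * (a : G)⁻¹ ∈ ⁅⁅P, A⁆, A⁆ :=
      Subgroup.commutator_mem_commutator h1 haA
    rw [hquad, Subgroup.mem_bot] at h2
    have hcomm : Commute c (a : G) := by
      have h3 : c * (a : G) * c⁻¹ = (a : G) := mul_inv_eq_one.mp h2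
      show c * (a : G) = (a : G) * c
      calc c * (a : G) = (c * (a : G) * c⁻¹) * c := by group
        _ = (a : G) * c := by rw [h3]
    have hcinv : (a : G) * k * (a : G)⁻¹ * k⁻¹ = c⁻¹ := by
      rw [hc]; group
    rw [hcinv]
    have h4 := hcomm.inv_left.eq
    calc (a : G) * c⁻¹ * (a : G)⁻¹ = (c⁻¹ * (a : G)) * (a : G)⁻¹ := by rw [h4]
      _ = c⁻¹ := by group

end Cfsg.Agent.S1464
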