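import Cfsg.Statements.S1467

set_option autoImplicit false
open Cfsg

namespace Cfsg.Agent.S1467

theorem puigStep_anti {G : Type*} [Group G] {X Y : Subgroup G} (h : X ≤ Y) :
    Cfsg.puigStep Y ≤ Cfsg.puigStep X := by
  unfold Cfsg.puigStep
  apply sSup_le_sSup
  rintro A ⟨hA, hY⟩
  exact ⟨hA, h.trans hY⟩

theorem puigSeq_one {G : Type*} [Group G] : Cfsg.puigSeq G 1 = ⊤ := by
  rw [eq_top_iff]
  intro g _
  have h1 : Subgroup.zpowers g ≤ Cfsg.puigSeq G 1 := by
    show Subgroup.zpowers g ≤ Cfsg.puigStep (Cfsg.puigSeq G 0)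
    unfold Cfsg.puigStep
    apply le_sSup
    refine ⟨?_, ?_⟩
    · infer_instance
    · show (⊥ : Subgroup G) ≤ _
      exact bot_le
  exact h1 (Subgroup.mem_zpowers g)

theorem puigSeq_succ {G : Type*} [Group G] (n : ℕ) :
    Cfsg.puigSeq G (n + 1) = Cfsg.puigStep (Cfsg.puigSeq G n) := rfl

theorem even_mono {G : Type*} [Group G] (n : ℕ) :
    Cfsg.puigSeq G (2 * n) ≤ Cfsg.puigSeq G (2 * n + 2) ∧
      Cfsg.puigSeq G (2 * n + 3) ≤ Cfsg.puigSeq G (2 * n + 1) := by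
  induction n with
  | zero =>
    have h0 : Cfsg.puigSeq G 0 ≤ Cfsg.puigSeq G 2 := by
      show (⊥ : Subgroup G) ≤ _
      exact bot_le
    exact ⟨h0, puigStep_anti h0⟩
  | succ n ih =>
    have h1 : Cfsg.puigSeq G (2 * n + 2) ≤ Cfsg.puigSeq G (2 * n + 4) := puigStep_anti ih.2
    have h2 : Cfsg.puigSeq G (2 * n + 5) ≤ Cfsg.puigSeq G (2 * n + 3) := puigStep_anti h1
    exact ⟨h1, h2⟩

theorem even_le_odd {G : Type*} [Group G] (n : ℕ) :
    ∀ m : ℕ, Cfsg.puigSeq G (2 * n) ≤ Cfsg.puigSeq G (2 * m + 1) := by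
  induction n with
  | zero =>
    intro m
    show (⊥ : Subgroup G) ≤ _
    exact bot_le
  | succ n ih =>
    have h1 : ∀ j : ℕ, Cfsg.puigSeq G (2 * j) ≤ Cfsg.puigSeq G (2 * n + 1) := by
      intro j
      cases j with
      | zero =>
        show (⊥ : Subgroup G) ≤ _
        exact bot_le
      | succ j =>
        have := puigStep_anti (ih j)
        exact this
    intro m
    have := puigStep_anti (h1 m)
    exact this

theorem even_monotone {G : Type*} [Group G] : Monotone (fun n => Cfsg.puigSeq G (2 * n)) :=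
  monotone_nat_of_le_succ (fun n => (even_mono n).1)

theorem odd_antitone {G : Type*} [Group G] : Antitone (fun n => Cfsg.puigSeq G (2 * n + 1)) :=
  antitone_nat_of_succ_le (fun n => (even_mono n).2)

/-- Let G be a finite group with Puig series L_n(G). Then L_0 = 1, L_1 = G; L_{2n} ≤ L_{2n+2} ≤ L_{2m+3} ≤ L_{2m+1} for all n, m; there is k with L_{2n}(G) = L_*(G) and L_{2n+1}(G) = L(G) for all n ≥ k; L_*(G) ≤ L(G); and applying one Puig step to L_*(G) gives L(G) and to L(G) gives L_*(G). -/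
theorem result {G : Type*} [Group G] [Finite G] :
    Cfsg.puigSeq G 0 = ⊥ ∧ Cfsg.puigSeq G 1 = ⊤ ∧
      (∀ n m : ℕ, Cfsg.puigSeq G (2 * n) ≤ Cfsg.puigSeq G (2 * n + 2) ∧ Cfsg.puigSeq G (2 * n) ≤ Cfsg.puigSeq G (2 * m + 1) ∧
        Cfsg.puigSeq G (2 * m + 3) ≤ Cfsg.puigSeq G (2 * m + 1)) ∧
      (∃ k : ℕ, ∀ n : ℕ, k ≤ n → Cfsg.puigSeq G (2 * n) = Cfsg.puigLower G ∧ Cfsg.puigSeq G (2 * n + 1) = Cfsg.puigSubgroup G) ∧
      Cfsg.puigLower G ≤ Cfsg.puigSubgroup G ∧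
      Cfsg.puigStep (Cfsg.puigLower G) = Cfsg.puigSubgroup G ∧ Cfsg.puigStep (Cfsg.puigSubgroup G) = Cfsg.puigLower G := by

  have hstab : ∃ k, ∀ m, k ≤ m → Cfsg.puigSeq G (2 * k) = Cfsg.puigSeq G (2 * m) := by
    exact WellFoundedGT.monotone_chain_condition (α := Subgroup G) ⟨fun n => Cfsg.puigSeq G (2 * n), even_monotone⟩
  obtain ⟨k, hk⟩ := hstab
  have hkodd : ∀ m, k ≤ m → Cfsg.puigSeq G (2 * k + 1) = Cfsg.puigSeq G (2 * m + 1) := by
    intro m hm
    rw [puigSeq_succ, puigSeq_succ, hk m hm]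
  have hlow : Cfsg.puigLower G = Cfsg.puigSeq G (2 * k) := by
    unfold Cfsg.puigLower
    apply le_antisymm
    · apply iSup_le
      intro n
      rcases le_total n k with h | h
      · exact even_monotone h
      · rw [hk n h]
    · exact le_iSup (fun n => Cfsg.puigSeq G (2 * n)) k
  have hup : Cfsg.puigSubgroup G = Cfsg.puigSeq G (2 * k + 1) := by
    unfold Cfsg.puigSubgroup
    apply le_antisymm
    · exact iInf_le (fun n => Cfsg.puigSeq G (2 * n + 1)) k
    · apply le_iInf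
      intro n
      rcases le_total n k with h | h
      · exact odd_antitone h
      · rw [hkodd n h]
  refine ⟨rfl, puigSeq_one, fun n m => ⟨(even_mono n).1, even_le_odd n m, (even_mono m).2⟩, ⟨k, fun n hn => ?_⟩, ?_, ?_, ?_⟩
  · rw [hlow, hup, hk n hn, hkodd n hn]
    exact ⟨rfl, rfl⟩
  · rw [hlow, hup]; exact even_le_odd k k
  · rw [hlow, hup]; rfl
  · rw [hlow, hup]
    have : Cfsg.puigSeq G (2 * k) = Cfsg.puigSeq G (2 * (k + 1)) := hk (k + 1) (Nat.le_succ k)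
    rw [this]; rfl

end Cfsg.Agent.S1467
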