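import Cfsg.Statements.S1466

import Cfsg.Agent.S1467
set_option autoImplicit false
open Cfsg

namespace Cfsg.Agent.S1466

theorem exists_central_of_normal {Q : Type*} [Group Q] [Finite Q] {p : ℕ} [Fact p.Prime]
    (hQ : IsPGroup p Q) (N : Subgroup Q) [N.Normal] (hN : N ≠ ⊥) :
    ∃ z ∈ N, z ≠ 1 ∧ z ∈ Subgroup.center Q := by
  have hp : p ∣ Nat.card N := by
    have hNp : IsPGroup p N := hQ.to_subgroup N
    obtain ⟨n, hn⟩ := IsPGroup.iff_card.mp hNp
    have hn0 : n ≠ 0 := by
      rintro rfl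
      rw [pow_zero] at hn
      exact hN (Subgroup.card_eq_one.mp hn)
    rw [hn]; exact dvd_pow_self p hn0
  have hQ' : IsPGroup p (ConjAct Q) := hQ
  have h1 : (1 : N) ∈ MulAction.fixedPoints (ConjAct Q) N := by
    intro g
    exact smul_one g
  obtain ⟨b, hb, hb1⟩ := hQ'.exists_fixed_point_of_prime_dvd_card_of_fixed_point (α := N) hp h1
  refine ⟨b, b.2, ?_, ?_⟩
  · intro h; apply hb1; ext; simp [h]
  · rw [Subgroup.mem_center_iff]
    intro g
    have h2 := congrArg Subtype.val (hb (ConjAct.toConjAct g))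
    rw [ConjAct.Subgroup.val_conj_smul, ConjAct.smul_def, ConjAct.ofConjAct_toConjAct] at h2
    calc g * (b : Q) = g * (b : Q) * g⁻¹ * g := by group
      _ = (b : Q) * g := by rw [h2]

theorem puigStep_normal {R : Type*} [Group R] (X : Subgroup R) [hX : X.Normal] :
    (Cfsg.puigStep X).Normal := by
  constructor
  intro l hl g
  unfold Cfsg.puigStep at hl ⊢
  rw [sSup_eq_iSup'] at hl
  induction hl using Subgroup.iSup_induction' with
  | hp A x hx =>
    have hA := A.2
    have hmem : (A : Subgroup R).map (MulAut.conj g).toMonoidHom ∈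
        {A : Subgroup R | IsMulCommutative A ∧ X ≤ Subgroup.normalizer (A : Set R)} := by
      refine ⟨?_, ?_⟩
      · have := hA.1
        exact Subgroup.map_isMulCommutative _ _
      · rw [Subgroup.le_normalizer_iff]
        intro h hh k hk
        obtain ⟨a, ha, rfl⟩ := hk
        refine ⟨g⁻¹ * h * g * a * (g⁻¹ * h * g)⁻¹, ?_, ?_⟩
        · have h3 : g⁻¹ * h * g ∈ X := by
            have := hX.conj_mem h hh g⁻¹
            simpa using this
          exact (Subgroup.le_normalizer_iff.mp hA.2) _ h3 a ha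
        · simp only [MulEquiv.coe_toMonoidHom, MulAut.conj_apply]
          group
    apply Subgroup.mem_sSup_of_mem hmem
    exact ⟨x, hx, by simp⟩
  | h1 => simp
  | hmul x y hx hy ihx ihy =>
    have : g * (x * y) * g⁻¹ = (g * x * g⁻¹) * (g * y * g⁻¹) := by group
    rw [this]; exact Subgroup.mul_mem _ ihx ihy

theorem centralizer_puigStep_le {R : Type*} [Group R] [Finite R] {p : ℕ} [Fact p.Prime]
    (hR : IsPGroup p R) (X : Subgroup R) [hX : X.Normal] :
    Subgroup.centralizer ((Cfsg.puigStep X : Subgroup R) : Set R) ≤ Cfsg.puigStep X := by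
  have hLn : (Cfsg.puigStep X).Normal := puigStep_normal X
  by_contra hcon
  set L := Cfsg.puigStep X with hL
  set C := Subgroup.centralizer (L : Set R) with hC
  have hCn : C.Normal := Subgroup.normal_centralizer
  have hQ : IsPGroup p (R ⧸ L) := hR.to_quotient L
  have hNn : (C.map (QuotientGroup.mk' L)).Normal :=
    Subgroup.Normal.map hCn _ (QuotientGroup.mk'_surjective L)
  have hN : C.map (QuotientGroup.mk' L) ≠ ⊥ := by
    intro h
    rw [Subgroup.map_eq_bot_iff, QuotientGroup.ker_mk'] at h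
    exact hcon h
  obtain ⟨z, hzN, hz1, hzc⟩ := exists_central_of_normal hQ _ hN
  obtain ⟨c, hcC, rfl⟩ := hzN
  have hcL : c ∉ L := by
    intro h
    apply hz1
    exact (QuotientGroup.eq_one_iff c).mpr h
  have hcomm : ∀ r : R, r * c * r⁻¹ * c⁻¹ ∈ L := by
    intro r
    rw [Subgroup.mem_center_iff] at hzc
    have h1 := hzc (QuotientGroup.mk' L r)
    rw [← (QuotientGroup.eq_one_iff (N := L) (r * c * r⁻¹ * c⁻¹))]
    have h2 : ((r * c * r⁻¹ * c⁻¹ : R) : R ⧸ L) = (QuotientGroup.mk' L r) * (QuotientGroup.mk' L c) * (QuotientGroup.mk' L r)⁻¹ * (QuotientGroup.mk' L c)⁻¹ := by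
      simp
    rw [h2, h1]
    group
  set A := Subgroup.closure (((L ⊓ C : Subgroup R) : Set R) ∪ {c}) with hA
  have hAcomm : IsMulCommutative A := by
    apply Subgroup.isMulCommutative_closure
    intro x hx y hy
    rcases hx with hx | hx <;> rcases hy with hy | hy
    · exact (Subgroup.mem_centralizer_iff.mp hy.2 x hx.1)
    · rw [Set.mem_singleton_iff] at hy; subst hy
      exact (Subgroup.mem_centralizer_iff.mp hcC x hx.1)
    · rw [Set.mem_singleton_iff] at hx; subst hx
      exact (Subgroup.mem_centralizer_iff.mp hcC y hy.1).symm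
    · rw [Set.mem_singleton_iff] at hx hy; subst hx; subst hy; rfl
  have hAnorm : X ≤ Subgroup.normalizer (A : Set R) := by
    rw [Subgroup.le_normalizer_iff]
    intro x hx a ha
    rw [hA] at ha
    induction ha using Subgroup.closure_induction with
    | mem y hy =>
      rcases hy with hy | hy
      · apply Subgroup.subset_closure
        left
        exact ⟨hLn.conj_mem y hy.1 x, hCn.conj_mem y hy.2 x⟩
      · rw [Set.mem_singleton_iff] at hy; subst hy
        have h1 : x * y * x⁻¹ = (x * y * x⁻¹ * y⁻¹) * y := by group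
        rw [h1]
        apply Subgroup.mul_mem
        · apply Subgroup.subset_closure
          left
          refine ⟨hcomm x, ?_⟩
          exact Subgroup.mul_mem _ (hCn.conj_mem y hcC x) (Subgroup.inv_mem _ hcC)
        · apply Subgroup.subset_closure
          right; rfl
    | one => simp
    | mul y z _ _ ihy ihz =>
      have : x * (y * z) * x⁻¹ = (x * y * x⁻¹) * (x * z * x⁻¹) := by group
      rw [this]; exact Subgroup.mul_mem _ ihy ihz
    | inv y _ ihy =>
      have : x * y⁻¹ * x⁻¹ = (x * y * x⁻¹)⁻¹ := by group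
      rw [this]; exact Subgroup.inv_mem _ ihy
  have hAL : A ≤ L := by
    rw [hL]
    unfold Cfsg.puigStep
    exact le_sSup ⟨hAcomm, hAnorm⟩
  exact hcL (hAL (Subgroup.subset_closure (Or.inr rfl)))

theorem puigSeq_normal {R : Type*} [Group R] (n : ℕ) : (Cfsg.puigSeq R n).Normal := by
  induction n with
  | zero => exact Subgroup.normal_bot
  | succ n ih => exact puigStep_normal _

/-- Let p be a prime and R a nontrivial finite p-group. Then for every i > 0, Z(R) ≤ C_R(L_i(R)) ≤ L_i(R); likewise Z(R) ≤ C_R(L_*(R)) ≤ L_*(R) and Z(R) ≤ C_R(L(R)) ≤ L(R); and L(R) ≠ 1, L_*(R) ≠ 1. -/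
theorem result {R : Type*} [Group R] [Finite R] (p : ℕ) [Fact p.Prime] (hR : IsPGroup p R) [Nontrivial R] :
    (∀ i : ℕ, 0 < i → Subgroup.center R ≤ Subgroup.centralizer ((Cfsg.puigSeq R i : Subgroup R) : Set R) ∧
        Subgroup.centralizer ((Cfsg.puigSeq R i : Subgroup R) : Set R) ≤ Cfsg.puigSeq R i) ∧
      (Subgroup.center R ≤ Subgroup.centralizer ((Cfsg.puigLower R : Subgroup R) : Set R) ∧ Subgroup.centralizer ((Cfsg.puigLower R : Subgroup R) : Set R) ≤ Cfsg.puigLower R) ∧
      (Subgroup.center R ≤ Subgroup.centralizer ((Cfsg.puigSubgroup R : Subgroup R) : Set R) ∧ Subgroup.centralizer ((Cfsg.puigSubgroup R : Subgroup R) : Set R) ≤ Cfsg.puigSubgroup R) ∧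
      Cfsg.puigSubgroup R ≠ ⊥ ∧ Cfsg.puigLower R ≠ ⊥ := by

  have key : ∀ i : ℕ, 0 < i → Subgroup.centralizer ((Cfsg.puigSeq R i : Subgroup R) : Set R) ≤ Cfsg.puigSeq R i := by
    intro i hi
    obtain ⟨j, rfl⟩ : ∃ j, i = j + 1 := ⟨i - 1, by omega⟩
    have := puigSeq_normal (R := R) j
    exact centralizer_puigStep_le hR (Cfsg.puigSeq R j)
  obtain ⟨_, _, _, ⟨k, hk⟩, _, _, _⟩ := Cfsg.Agent.S1467.result (G := R)
  have h1 := hk (k + 1) (Nat.le_succ k)
  have hlow : Subgroup.centralizer ((Cfsg.puigLower R : Subgroup R) : Set R) ≤ Cfsg.puigLower R := by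
    rw [← h1.1]; exact key _ (by omega)
  have hup : Subgroup.centralizer ((Cfsg.puigSubgroup R : Subgroup R) : Set R) ≤ Cfsg.puigSubgroup R := by
    rw [← h1.2]; exact key _ (by omega)
  have hne : ∀ L : Subgroup R, Subgroup.centralizer (L : Set R) ≤ L → L ≠ ⊥ := by
    intro L hL h
    rw [h] at hL
    have : (⊤ : Subgroup R) ≤ ⊥ := by
      intro x _
      apply hL
      rw [Subgroup.mem_centralizer_iff]
      intro y hy
      have : y = 1 := hy
      rw [this]; simp
    exact top_ne_bot (le_bot_iff.mp this)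
  exact ⟨fun i hi => ⟨Subgroup.center_le_centralizer _, key i hi⟩, ⟨Subgroup.center_le_centralizer _, hlow⟩,
    ⟨Subgroup.center_le_centralizer _, hup⟩, hne _ hup, hne _ hlow⟩

end Cfsg.Agent.S1466
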