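import Cfsg.Statements.S1468
import Mathlib
import Cfsg.Agent.S1465
import Cfsg.Agent.S1466
import Cfsg.Agent.S1467

set_option autoImplicit false
set_option linter.style.haveILetI false
open Cfsg

namespace Cfsg.Agent.S1468


theorem puigStep_map_le {R R' : Type*} [Group R] [Group R'] (e : R ≃* R') (X : Subgroup R) :
    (Cfsg.puigStep X).map e.toMonoidHom ≤ Cfsg.puigStep (X.map e.toMonoidHom) := by
  unfold Cfsg.puigStep
  rw [Subgroup.map_le_iff_le_comap]
  apply sSup_le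
  rintro A ⟨hA, hX⟩
  rw [← Subgroup.map_le_iff_le_comap]
  apply le_sSup
  refine ⟨?_, ?_⟩
  · haveI := hA
    exact Subgroup.map_isMulCommutative _ _
  · rw [Subgroup.le_normalizer_iff]
    rintro _ ⟨x, hx, rfl⟩ _ ⟨a, ha, rfl⟩
    refine ⟨x * a * x⁻¹, (Subgroup.le_normalizer_iff.mp hX) x hx a ha, ?_⟩
    simp

theorem puigStep_map_equiv {R R' : Type*} [Group R] [Group R'] (e : R ≃* R') (X : Subgroup R) :
    (Cfsg.puigStep X).map e.toMonoidHom = Cfsg.puigStep (X.map e.toMonoidHom) := by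
  apply le_antisymm (puigStep_map_le e X)
  have h1 := puigStep_map_le e.symm (X.map e.toMonoidHom)
  have h2 : (X.map e.toMonoidHom).map e.symm.toMonoidHom = X := by
    ext x
    simp only [Subgroup.mem_map, MulEquiv.coe_toMonoidHom]
    constructor
    · rintro ⟨_, ⟨y, hy, rfl⟩, rfl⟩
      simpa using hy
    · intro hx
      exact ⟨e x, ⟨x, hx, rfl⟩, by simp⟩
  rw [h2] at h1
  intro y hy
  have h3 : e.symm y ∈ Cfsg.puigStep X := h1 ⟨y, hy, rfl⟩
  exact ⟨e.symm y, h3, by simp⟩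

theorem puigSeq_map_equiv {R R' : Type*} [Group R] [Group R'] (e : R ≃* R') (n : ℕ) :
    (Cfsg.puigSeq R n).map e.toMonoidHom = Cfsg.puigSeq R' n := by
  induction n with
  | zero =>
    show (⊥ : Subgroup R).map e.toMonoidHom = ⊥
    exact Subgroup.map_bot _
  | succ n ih =>
    show (Cfsg.puigStep (Cfsg.puigSeq R n)).map e.toMonoidHom = Cfsg.puigStep (Cfsg.puigSeq R' n)
    rw [puigStep_map_equiv, ih]

theorem seq_map_normal {G : Type*} [Group G] (T : Subgroup G) [hT : T.Normal] (n : ℕ) :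
    ((Cfsg.puigSeq ↥T n).map T.subtype).Normal := by
  constructor
  rintro _ ⟨y, hy, rfl⟩ g
  have h1 := puigSeq_map_equiv (MulAut.conjNormal g : ↥T ≃* ↥T) n
  have h2 : (MulAut.conjNormal g : ↥T ≃* ↥T) y ∈ Cfsg.puigSeq ↥T n := by
    rw [← h1]
    exact ⟨y, hy, rfl⟩
  refine ⟨(MulAut.conjNormal g : ↥T ≃* ↥T) y, h2, ?_⟩
  simp [MulAut.conjNormal_apply]

theorem step_le {G : Type*} [Group G] (H : Subgroup G) (X' : Subgroup ↥H) (Y : Subgroup G)
    (h : ∀ A : Subgroup G, A ≤ H → IsMulCommutative A →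
      X'.map H.subtype ≤ Subgroup.normalizer (A : Set G) → A ≤ Y) :
    (Cfsg.puigStep X').map H.subtype ≤ Y := by
  unfold Cfsg.puigStep
  rw [Subgroup.map_le_iff_le_comap]
  apply sSup_le
  rintro A' ⟨hA, hX⟩
  rw [← Subgroup.map_le_iff_le_comap]
  apply h
  · exact Subgroup.map_subtype_le _
  · haveI := hA
    exact Subgroup.map_isMulCommutative _ _
  · rw [Subgroup.le_normalizer_iff]
    rintro _ ⟨x, hx, rfl⟩ _ ⟨a, ha, rfl⟩
    exact ⟨x * a * x⁻¹, (Subgroup.le_normalizer_iff.mp hX) x hx a ha, by simp⟩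

theorem le_step {G : Type*} [Group G] (H : Subgroup G) (X' : Subgroup ↥H) (A : Subgroup G)
    (hAH : A ≤ H) (hA : IsMulCommutative A)
    (hN : X'.map H.subtype ≤ Subgroup.normalizer (A : Set G)) :
    A ≤ (Cfsg.puigStep X').map H.subtype := by
  have h1 : A.subgroupOf H ≤ Cfsg.puigStep X' := by
    unfold Cfsg.puigStep
    apply le_sSup
    refine ⟨?_, ?_⟩
    · haveI := hA
      exact Subgroup.subgroupOf_isMulCommutative _ _
    · rw [Subgroup.le_normalizer_iff]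
      intro x hx a ha
      rw [Subgroup.mem_subgroupOf] at ha ⊢
      have := (Subgroup.le_normalizer_iff.mp hN) (x : G) ⟨x, hx, rfl⟩ (a : G) ha
      simpa using this
  have h2 := Subgroup.map_mono (f := H.subtype) h1
  rwa [Subgroup.map_subgroupOf_eq_of_le hAH] at h2


theorem cent_le {G : Type*} [Group G] [Finite G] (p : ℕ) [Fact p.Prime] (T : Subgroup G)
    (hT : IsPGroup p T) (i : ℕ) (hi : 0 < i) :
    T ⊓ Subgroup.centralizer (((Cfsg.puigSeq ↥T i).map T.subtype : Subgroup G) : Set G) ≤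
      (Cfsg.puigSeq ↥T i).map T.subtype := by
  by_cases hbot : T = ⊥
  · intro x hx
    have hx1 : x ∈ T := hx.1
    rw [hbot, Subgroup.mem_bot] at hx1
    rw [hx1]; exact Subgroup.one_mem _
  · haveI : Nontrivial ↥T := (Subgroup.nontrivial_iff_ne_bot T).mpr hbot
    have h1 := ((Cfsg.Agent.S1466.result (R := ↥T) p hT).1 i hi).2
    intro x hx
    have hx1 : x ∈ T := hx.1
    have hx2 := hx.2
    have h2 : (⟨x, hx1⟩ : ↥T) ∈ Subgroup.centralizer ((Cfsg.puigSeq ↥T i : Subgroup ↥T) : Set ↥T) := by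
      rw [Subgroup.mem_centralizer_iff]
      intro z hz
      have h3 := (Subgroup.mem_centralizer_iff.mp hx2) (z : G) ⟨z, hz, rfl⟩
      exact Subtype.ext h3
    exact ⟨⟨x, hx1⟩, h1 h2, rfl⟩

theorem main_ind {G : Type*} [Group G] [Finite G] [Group.IsSolvable G] (hodd : Odd (Nat.card G))
    (p : ℕ) [Fact p.Prime] (hp : p ≠ 2) (hO : Cfsg.pPrimeCore p G = ⊥) (S : Sylow p G) (n : ℕ) :
    (Cfsg.puigSeq ↥(S : Subgroup G) (2 * n)).map (S : Subgroup G).subtype ≤
        (Cfsg.puigSeq ↥(Cfsg.pCore p G) (2 * n)).map (Cfsg.pCore p G).subtype ∧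
      (Cfsg.puigSeq ↥(Cfsg.pCore p G) (2 * n + 1)).map (Cfsg.pCore p G).subtype ≤
        (Cfsg.puigSeq ↥(S : Subgroup G) (2 * n + 1)).map (S : Subgroup G).subtype := by
  have hTn : (Cfsg.pCore p G).Normal := Cfsg.Agent.Lib.helper3.pCore_normal3 p G
  have hTp : IsPGroup p (Cfsg.pCore p G) := Cfsg.Agent.Lib.helper3.pCore_isPGroup3 p G
  have hTS : Cfsg.pCore p G ≤ (S : Subgroup G) := Cfsg.Agent.Lib.helper3.pCore_le_sylow3 S
  -- odd step from even step
  have ostep : ∀ m : ℕ,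
      (Cfsg.puigSeq ↥(S : Subgroup G) (2 * m)).map (S : Subgroup G).subtype ≤
        (Cfsg.puigSeq ↥(Cfsg.pCore p G) (2 * m)).map (Cfsg.pCore p G).subtype →
      (Cfsg.puigSeq ↥(Cfsg.pCore p G) (2 * m + 1)).map (Cfsg.pCore p G).subtype ≤
        (Cfsg.puigSeq ↥(S : Subgroup G) (2 * m + 1)).map (S : Subgroup G).subtype := by
    intro m hm
    show (Cfsg.puigStep (Cfsg.puigSeq ↥(Cfsg.pCore p G) (2 * m))).map (Cfsg.pCore p G).subtype ≤
      (Cfsg.puigStep (Cfsg.puigSeq ↥(S : Subgroup G) (2 * m))).map (S : Subgroup G).subtype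
    apply step_le
    intro A hAT hA hN
    exact le_step _ _ A (hAT.trans hTS) hA (hm.trans hN)
  induction n with
  | zero =>
    have h0 : (Cfsg.puigSeq ↥(S : Subgroup G) (2 * 0)).map (S : Subgroup G).subtype ≤
        (Cfsg.puigSeq ↥(Cfsg.pCore p G) (2 * 0)).map (Cfsg.pCore p G).subtype := by
      show (⊥ : Subgroup ↥(S : Subgroup G)).map (S : Subgroup G).subtype ≤ _
      rw [Subgroup.map_bot]; exact bot_le
    exact ⟨h0, ostep 0 h0⟩
  | succ n ih =>
    have he : (Cfsg.puigSeq ↥(S : Subgroup G) (2 * (n + 1))).map (S : Subgroup G).subtype ≤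
        (Cfsg.puigSeq ↥(Cfsg.pCore p G) (2 * (n + 1))).map (Cfsg.pCore p G).subtype := by
      show (Cfsg.puigStep (Cfsg.puigSeq ↥(S : Subgroup G) (2 * n + 1))).map (S : Subgroup G).subtype ≤
        (Cfsg.puigStep (Cfsg.puigSeq ↥(Cfsg.pCore p G) (2 * n + 1))).map (Cfsg.pCore p G).subtype
      apply step_le
      intro A hAS hA hN
      -- A ≤ T by S1465
      haveI hPn : ((Cfsg.puigSeq ↥(Cfsg.pCore p G) (2 * n + 1)).map (Cfsg.pCore p G).subtype).Normal :=
        seq_map_normal (Cfsg.pCore p G) (2 * n + 1)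
      have hPT : (Cfsg.puigSeq ↥(Cfsg.pCore p G) (2 * n + 1)).map (Cfsg.pCore p G).subtype ≤
          Cfsg.pCore p G := Subgroup.map_subtype_le _
      have hPp : IsPGroup p ((Cfsg.puigSeq ↥(Cfsg.pCore p G) (2 * n + 1)).map (Cfsg.pCore p G).subtype) :=
        hTp.to_le hPT
      have hPA : (Cfsg.puigSeq ↥(Cfsg.pCore p G) (2 * n + 1)).map (Cfsg.pCore p G).subtype ≤
          Subgroup.normalizer (A : Set G) := ih.2.trans hN
      have hfam := (Cfsg.Agent.S1465.result hodd p hp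
        ((Cfsg.puigSeq ↥(Cfsg.pCore p G) (2 * n + 1)).map (Cfsg.pCore p G).subtype) hPp {A}
        (by
          intro B hB
          rw [Set.mem_singleton_iff] at hB
          subst hB
          exact ⟨hA, S.isPGroup'.to_le hAS, hPA⟩)).2 hO
        (cent_le p (Cfsg.pCore p G) hTp (2 * n + 1) (by omega))
      rw [sSup_singleton] at hfam
      exact le_step _ _ A hfam hA hPA
    exact ⟨he, ostep (n + 1) he⟩

/-- Let p be an odd prime, G a solvable group of odd order with O_{p'}(G) = 1, S a Sylow p-subgroup and T = O_p(G). Then, viewing the Puig subgroups of S and of T inside G, L_*(S) ≤ L_*(T) ≤ L(T) ≤ L(S). -/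
theorem result {G : Type*} [Group G] [Finite G] [Group.IsSolvable G] (hodd : Odd (Nat.card G)) (p : ℕ) [Fact p.Prime] (hp : p ≠ 2) (hO : Cfsg.pPrimeCore p G = ⊥) (S : Sylow p G) :
    (Cfsg.puigLower ↥(S : Subgroup G)).map (S : Subgroup G).subtype ≤ (Cfsg.puigLower ↥(Cfsg.pCore p G)).map (Cfsg.pCore p G).subtype ∧
      (Cfsg.puigLower ↥(Cfsg.pCore p G)).map (Cfsg.pCore p G).subtype ≤ (Cfsg.puigSubgroup ↥(Cfsg.pCore p G)).map (Cfsg.pCore p G).subtype ∧
      (Cfsg.puigSubgroup ↥(Cfsg.pCore p G)).map (Cfsg.pCore p G).subtype ≤ (Cfsg.puigSubgroup ↥(S : Subgroup G)).map (S : Subgroup G).subtype := by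
  obtain ⟨_, _, _, ⟨kS, hkS⟩, _, _, _⟩ := Cfsg.Agent.S1467.result (G := ↥(S : Subgroup G))
  obtain ⟨_, _, _, ⟨kT, hkT⟩, hLT, _, _⟩ := Cfsg.Agent.S1467.result (G := ↥(Cfsg.pCore p G))
  have hS := hkS (max kS kT) (le_max_left _ _)
  have hT := hkT (max kS kT) (le_max_right _ _)
  have hmain := main_ind hodd p hp hO S (max kS kT)
  refine ⟨?_, Subgroup.map_mono hLT, ?_⟩
  · rw [← hS.1, ← hT.1]; exact hmain.1
  · rw [← hS.2, ← hT.2]; exact hmain.2

end Cfsg.Agent.S1468
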