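import Cfsg.Statements.S1469
import Mathlib
import Cfsg.Agent.S1468
import Cfsg.Agent.Lib.helper3.OddSolvQuad
import Cfsg.Agent.Lib.helper9.PPrimeCore
import Cfsg.Agent.Lib.helper1.SZ

set_option autoImplicit false
set_option linter.style.haveILetI false
open Cfsg

namespace Cfsg.Agent.S1469

universe u

/-- `L_H(X)` computed inside the ambient group. -/
def stepIn {G : Type*} [Group G] (H X : Subgroup G) : Subgroup G :=
  sSup {A : Subgroup G | A ≤ H ∧ IsMulCommutative A ∧ X ≤ Subgroup.normalizer (A : Set G)}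

/-- The Puig series of `H` computed inside the ambient group. -/
def seqIn {G : Type*} [Group G] (H : Subgroup G) : ℕ → Subgroup G
  | 0 => ⊥
  | n + 1 => stepIn H (seqIn H n)

theorem le_stepIn {G : Type*} [Group G] {H X A : Subgroup G} (hAH : A ≤ H)
    (hA : IsMulCommutative A) (hN : X ≤ Subgroup.normalizer (A : Set G)) : A ≤ stepIn H X :=
  le_sSup ⟨hAH, hA, hN⟩

theorem stepIn_le {G : Type*} [Group G] (H X : Subgroup G) : stepIn H X ≤ H :=
  sSup_le (fun _ hA => hA.1)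

theorem stepIn_anti {G : Type*} [Group G] (H : Subgroup G) {X Y : Subgroup G} (h : X ≤ Y) :
    stepIn H Y ≤ stepIn H X :=
  sSup_le_sSup (fun _ hA => ⟨hA.1, hA.2.1, h.trans hA.2.2⟩)

theorem stepIn_mono_left {G : Type*} [Group G] {H H' : Subgroup G} (h : H ≤ H') (X : Subgroup G) :
    stepIn H X ≤ stepIn H' X :=
  sSup_le_sSup (fun _ hA => ⟨hA.1.trans h, hA.2.1, hA.2.2⟩)

theorem map_puigStep {G : Type*} [Group G] (H : Subgroup G) (X' : Subgroup ↥H) :
    (Cfsg.puigStep X').map H.subtype = stepIn H (X'.map H.subtype) :=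
  le_antisymm
    (Cfsg.Agent.S1468.step_le H X' _ (fun _ hAH hA hN => le_stepIn hAH hA hN))
    (sSup_le (fun A hA => Cfsg.Agent.S1468.le_step H X' A hA.1 hA.2.1 hA.2.2))

theorem map_puigSeq {G : Type*} [Group G] (H : Subgroup G) (n : ℕ) :
    (Cfsg.puigSeq ↥H n).map H.subtype = seqIn H n := by
  induction n with
  | zero =>
    show (⊥ : Subgroup ↥H).map H.subtype = ⊥
    exact Subgroup.map_bot _
  | succ n ih =>
    show (Cfsg.puigStep (Cfsg.puigSeq ↥H n)).map H.subtype = stepIn H (seqIn H n)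
    rw [map_puigStep, ih]

theorem map_stepIn {G G' : Type*} [Group G] [Group G'] (f : G →* G') (H X : Subgroup G)
    (hinj : ∀ x ∈ H, ∀ y ∈ H, f x = f y → x = y) (hX : X ≤ H) :
    (stepIn H X).map f = stepIn (H.map f) (X.map f) := by
  apply le_antisymm
  · unfold stepIn
    rw [Subgroup.map_le_iff_le_comap]
    apply sSup_le
    rintro A ⟨hAH, hA, hN⟩
    rw [← Subgroup.map_le_iff_le_comap]
    apply le_sSup
    refine ⟨Subgroup.map_mono hAH, ?_, ?_⟩
    · haveI := hA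
      exact Subgroup.map_isMulCommutative _ _
    · rw [Subgroup.le_normalizer_iff]
      rintro _ ⟨x, hx, rfl⟩ _ ⟨a, ha, rfl⟩
      exact ⟨x * a * x⁻¹, (Subgroup.le_normalizer_iff.mp hN) x hx a ha, by simp⟩
  · apply sSup_le
    rintro A' ⟨hAH, hA, hN⟩
    have hA1 : H ⊓ A'.comap f ≤ stepIn H X := by
      apply le_stepIn inf_le_left
      · refine ⟨⟨?_⟩⟩
        rintro ⟨a, ha⟩ ⟨b, hb⟩
        apply Subtype.ext
        show a * b = b * a
        apply hinj _ (H.mul_mem ha.1 hb.1) _ (H.mul_mem hb.1 ha.1)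
        rw [map_mul, map_mul]
        have := hA.is_comm.comm (⟨f a, ha.2⟩ : ↥A') ⟨f b, hb.2⟩
        exact congrArg Subtype.val this
      · rw [Subgroup.le_normalizer_iff]
        intro x hx a ha
        refine ⟨H.mul_mem (H.mul_mem (hX hx) ha.1) (H.inv_mem (hX hx)), ?_⟩
        show f (x * a * x⁻¹) ∈ A'
        rw [map_mul, map_mul, map_inv]
        exact (Subgroup.le_normalizer_iff.mp hN) (f x) ⟨x, hx, rfl⟩ (f a) ha.2
    intro a' ha'
    obtain ⟨h, hh, rfl⟩ := hAH ha'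
    exact ⟨h, hA1 ⟨hh, ha'⟩, rfl⟩

theorem seqIn_le {G : Type*} [Group G] (H : Subgroup G) (n : ℕ) : seqIn H n ≤ H := by
  cases n with
  | zero => exact bot_le
  | succ n => exact stepIn_le H _

theorem map_seqIn {G G' : Type*} [Group G] [Group G'] (f : G →* G') (H : Subgroup G)
    (hinj : ∀ x ∈ H, ∀ y ∈ H, f x = f y → x = y) (n : ℕ) :
    (seqIn H n).map f = seqIn (H.map f) n := by
  induction n with
  | zero =>
    show (⊥ : Subgroup G).map f = ⊥
    exact Subgroup.map_bot _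
  | succ n ih =>
    show (stepIn H (seqIn H n)).map f = stepIn (H.map f) (seqIn (H.map f) n)
    rw [map_stepIn f H _ hinj (seqIn_le H n), ih]

/-- `L(H)` inside the ambient group. -/
def puigIn {G : Type*} [Group G] (H : Subgroup G) : Subgroup G :=
  (Cfsg.puigSubgroup ↥H).map H.subtype

/-- `L_*(H)` inside the ambient group. -/
def lowIn {G : Type*} [Group G] (H : Subgroup G) : Subgroup G :=
  (Cfsg.puigLower ↥H).map H.subtype

theorem exists_stab {G : Type*} [Group G] [Finite G] (H : Subgroup G) :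
    ∃ k : ℕ, ∀ n : ℕ, k ≤ n → seqIn H (2 * n) = lowIn H ∧ seqIn H (2 * n + 1) = puigIn H := by
  obtain ⟨_, _, _, ⟨k, hk⟩, _, _, _⟩ := Cfsg.Agent.S1467.result (G := ↥H)
  refine ⟨k, fun n hn => ⟨?_, ?_⟩⟩
  · rw [← map_puigSeq, (hk n hn).1]; rfl
  · rw [← map_puigSeq, (hk n hn).2]; rfl

theorem stepIn_lowIn {G : Type*} [Group G] [Finite G] (H : Subgroup G) :
    stepIn H (lowIn H) = puigIn H := by
  obtain ⟨_, _, _, _, _, h1, _⟩ := Cfsg.Agent.S1467.result (G := ↥H)
  unfold lowIn puigIn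
  rw [← map_puigStep, h1]

theorem stepIn_puigIn {G : Type*} [Group G] [Finite G] (H : Subgroup G) :
    stepIn H (puigIn H) = lowIn H := by
  obtain ⟨_, _, _, _, _, _, h2⟩ := Cfsg.Agent.S1467.result (G := ↥H)
  unfold lowIn puigIn
  rw [← map_puigStep, h2]

theorem puigIn_le {G : Type*} [Group G] (H : Subgroup G) : puigIn H ≤ H :=
  Subgroup.map_subtype_le _

theorem lowIn_le {G : Type*} [Group G] (H : Subgroup G) : lowIn H ≤ H :=
  Subgroup.map_subtype_le _

theorem map_puigIn {G G' : Type*} [Group G] [Group G'] [Finite G] [Finite G'] (f : G →* G')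
    (H : Subgroup G) (hinj : ∀ x ∈ H, ∀ y ∈ H, f x = f y → x = y) :
    (puigIn H).map f = puigIn (H.map f) := by
  obtain ⟨k, hk⟩ := exists_stab H
  obtain ⟨k', hk'⟩ := exists_stab (H.map f)
  rw [← (hk (max k k') (le_max_left _ _)).2, ← (hk' (max k k') (le_max_right _ _)).2]
  exact map_seqIn f H hinj _

/-- `Z(L(H))` inside the ambient group. -/
def ZIn {G : Type*} [Group G] (H : Subgroup G) : Subgroup G :=
  puigIn H ⊓ Subgroup.centralizer (puigIn H : Set G)

theorem map_ZIn {G G' : Type*} [Group G] [Group G'] [Finite G] [Finite G'] (f : G →* G')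
    (H : Subgroup G) (hinj : ∀ x ∈ H, ∀ y ∈ H, f x = f y → x = y) :
    (ZIn H).map f = ZIn (H.map f) := by
  unfold ZIn
  rw [← map_puigIn f H hinj]
  ext y
  constructor
  · intro hy
    obtain ⟨z, hz, rfl⟩ := Subgroup.mem_map.mp hy
    obtain ⟨hz1, hz2⟩ := Subgroup.mem_inf.mp hz
    refine Subgroup.mem_inf.mpr ⟨Subgroup.mem_map.mpr ⟨z, hz1, rfl⟩,
      Subgroup.mem_centralizer_iff.mpr ?_⟩
    intro y' hy'
    obtain ⟨l, hl, rfl⟩ := Subgroup.mem_map.mp hy'
    rw [← map_mul, ← map_mul, (Subgroup.mem_centralizer_iff.mp hz2) l hl]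
  · intro hy
    obtain ⟨hy1, hc⟩ := Subgroup.mem_inf.mp hy
    obtain ⟨z, hz, rfl⟩ := Subgroup.mem_map.mp hy1
    refine Subgroup.mem_map.mpr ⟨z, Subgroup.mem_inf.mpr ⟨hz, Subgroup.mem_centralizer_iff.mpr ?_⟩, rfl⟩
    intro l hl
    have h1 := (Subgroup.mem_centralizer_iff.mp hc) (f l) (Subgroup.mem_map.mpr ⟨l, hl, rfl⟩)
    rw [← map_mul, ← map_mul] at h1
    exact hinj _ (H.mul_mem (puigIn_le H hl) (puigIn_le H hz)) _
      (H.mul_mem (puigIn_le H hz) (puigIn_le H hl)) h1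

theorem zexpr_eq {G : Type*} [Group G] (H : Subgroup G) :
    ((Subgroup.center ↥(Cfsg.puigSubgroup ↥H)).map (Cfsg.puigSubgroup ↥H).subtype).map H.subtype =
      ZIn H := by
  unfold ZIn puigIn
  ext x
  constructor
  · intro hx
    obtain ⟨x1, hx1, rfl⟩ := Subgroup.mem_map.mp hx
    obtain ⟨z, hz, rfl⟩ := Subgroup.mem_map.mp hx1
    refine Subgroup.mem_inf.mpr ⟨Subgroup.mem_map.mpr ⟨(z : ↥H), z.2, rfl⟩,
      Subgroup.mem_centralizer_iff.mpr ?_⟩
    intro y hy
    obtain ⟨l, hl, rfl⟩ := Subgroup.mem_map.mp hy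
    have h1 := (Subgroup.mem_center_iff.mp hz) ⟨l, hl⟩
    have h2 := congrArg (fun w : ↥(Cfsg.puigSubgroup ↥H) => ((w : ↥H) : G)) h1
    simpa using h2
  · intro hx
    obtain ⟨hx1, hc⟩ := Subgroup.mem_inf.mp hx
    obtain ⟨l, hl, rfl⟩ := Subgroup.mem_map.mp hx1
    refine Subgroup.mem_map.mpr ⟨l, Subgroup.mem_map.mpr ⟨⟨l, hl⟩, ?_, rfl⟩, rfl⟩
    refine Subgroup.mem_center_iff.mpr ?_
    intro w
    apply Subtype.ext
    apply Subtype.ext
    have h1 := (Subgroup.mem_centralizer_iff.mp hc) ((w : ↥H) : G)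
      (Subgroup.mem_map.mpr ⟨(w : ↥H), w.2, rfl⟩)
    simpa using h1

theorem puigIn_conj {G : Type*} [Group G] [Finite G] (H : Subgroup G) {h l : G} (hh : h ∈ H)
    (hl : l ∈ puigIn H) : h * l * h⁻¹ ∈ puigIn H := by
  obtain ⟨_, _, _, ⟨k, hk⟩, _, _, _⟩ := Cfsg.Agent.S1467.result (G := ↥H)
  have hn : (Cfsg.puigSubgroup ↥H).Normal := by
    rw [← (hk k le_rfl).2]; exact Cfsg.Agent.S1466.puigSeq_normal _
  obtain ⟨l', hl', rfl⟩ := Subgroup.mem_map.mp hl
  exact Subgroup.mem_map.mpr ⟨⟨h, hh⟩ * l' * ⟨h, hh⟩⁻¹, hn.conj_mem l' hl' ⟨h, hh⟩, rfl⟩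

theorem Z_conj_of {G : Type*} [Group G] (L : Subgroup G) {g : G}
    (hg : ∀ l ∈ L, g * l * g⁻¹ ∈ L ∧ g⁻¹ * l * g ∈ L) {z : G}
    (hz : z ∈ L ⊓ Subgroup.centralizer (L : Set G)) :
    g * z * g⁻¹ ∈ L ⊓ Subgroup.centralizer (L : Set G) := by
  obtain ⟨hz1, hz2⟩ := Subgroup.mem_inf.mp hz
  refine Subgroup.mem_inf.mpr ⟨(hg z hz1).1, Subgroup.mem_centralizer_iff.mpr ?_⟩
  intro l hl
  have h1 := (Subgroup.mem_centralizer_iff.mp hz2) (g⁻¹ * l * g) (hg l hl).2
  calc l * (g * z * g⁻¹) = g * ((g⁻¹ * l * g) * z) * g⁻¹ := by group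
    _ = g * (z * (g⁻¹ * l * g)) * g⁻¹ := by rw [h1]
    _ = g * z * g⁻¹ * l := by group

theorem self_le_normalizer_ZIn {G : Type*} [Group G] [Finite G] (H : Subgroup G) :
    H ≤ Subgroup.normalizer (ZIn H : Set G) := by
  rw [Subgroup.le_normalizer_iff]
  intro h hh z hz
  apply Z_conj_of (puigIn H) _ hz
  intro l hl
  refine ⟨puigIn_conj H hh hl, ?_⟩
  have := puigIn_conj H (H.inv_mem hh) hl
  simpa using this

theorem eq_one_of_pow {X : Type*} [Group X] {p : ℕ} (x : X) (k : ℕ)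
    (h1 : x ^ (p ^ k) = 1) (m : ℕ) (hm : m.Coprime p) (h2 : x ^ m = 1) : x = 1 := by
  have d1 : orderOf x ∣ p ^ k := orderOf_dvd_of_pow_eq_one h1
  have d2 : orderOf x ∣ m := orderOf_dvd_of_pow_eq_one h2
  have d3 : orderOf x ∣ Nat.gcd (p ^ k) m := Nat.dvd_gcd d1 d2
  have hc : Nat.gcd (p ^ k) m = 1 := Nat.Coprime.pow_left k hm.symm
  rw [hc, Nat.dvd_one] at d3
  exact orderOf_eq_one_iff.mp d3

theorem frat {G : Type*} [Group G] [Finite G] {p : ℕ} [Fact p.Prime] (S : Sylow p G)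
    (N : Subgroup G) [hN : N.Normal] :
    Subgroup.normalizer (((S : Subgroup G) ⊓ N : Subgroup G) : Set G) ⊔ N = ⊤ := by
  have hpg : IsPGroup p (((S : Subgroup G) ⊓ N).subgroupOf N) :=
    (S.isPGroup'.to_le inf_le_left).comap_subtype
  obtain ⟨P₀, hP₀⟩ := hpg.exists_le_sylow
  have h1 : (S : Subgroup G) ⊓ N ≤ (P₀ : Subgroup ↥N).map N.subtype := by
    intro x hx
    exact ⟨⟨x, hx.2⟩, hP₀ (Subgroup.mem_subgroupOf.mpr hx), rfl⟩
  have hP1 : IsPGroup p ((P₀ : Subgroup ↥N).map N.subtype) := P₀.isPGroup'.map _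
  obtain ⟨Q, hQ⟩ := hP1.exists_le_sylow
  obtain ⟨g, hg⟩ := MulAction.exists_smul_eq G S Q
  have hmem : ∀ x ∈ (P₀ : Subgroup ↥N).map N.subtype, g⁻¹ * x * g ∈ (S : Subgroup G) ⊓ N := by
    intro x hx
    refine ⟨?_, ?_⟩
    · have hxQ : x ∈ (Q : Subgroup G) := hQ hx
      rw [← hg, Sylow.coe_subgroup_smul] at hxQ
      exact (Cfsg.Agent.Lib.helper1.mem_conj_smul g x _).mp hxQ
    · have hxN : x ∈ N := Subgroup.map_subtype_le _ hx
      have := hN.conj_mem x hxN g⁻¹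
      simpa using this
  have h2 : Nat.card ((P₀ : Subgroup ↥N).map N.subtype) ≤
      Nat.card ((S : Subgroup G) ⊓ N : Subgroup G) := by
    apply Nat.card_le_card_of_injective (fun x : ((P₀ : Subgroup ↥N).map N.subtype) =>
      (⟨g⁻¹ * (x : G) * g, hmem x x.2⟩ : ((S : Subgroup G) ⊓ N : Subgroup G)))
    intro x y hxy
    apply Subtype.ext
    have := congrArg Subtype.val hxy
    simpa using this
  have h3 : (S : Subgroup G) ⊓ N = (P₀ : Subgroup ↥N).map N.subtype :=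
    Subgroup.eq_of_le_of_card_ge h1 h2
  rw [h3]
  exact Sylow.normalizer_sup_eq_top P₀

theorem ih_apply {G : Type u} [Group G] [Finite G] [Group.IsSolvable G] (hodd : Odd (Nat.card G))
    (p : ℕ) [Fact p.Prime] (hO : Cfsg.pPrimeCore p G = ⊥) (S : Sylow p G)
    (ih : ∀ m < Nat.card G, ∀ (X : Type u) [Group X] [Finite X] [Group.IsSolvable X],
      Nat.card X = m → Odd (Nat.card X) → Cfsg.pPrimeCore p X = ⊥ →
        ∀ S' : Sylow p X, (ZIn (S' : Subgroup X)).Normal)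
    (H : Subgroup G) (hSH : (S : Subgroup G) ≤ H) (hH : H ≠ ⊤) :
    H ≤ Subgroup.normalizer (ZIn (S : Subgroup G) : Set G) := by
  have hlt : Nat.card ↥H < Nat.card G :=
    lt_of_le_of_ne (Subgroup.card_le_card_group H) (fun h => hH (Subgroup.eq_top_of_card_eq H h))
  have hoddH : Odd (Nat.card ↥H) := Odd.of_dvd_nat hodd (Subgroup.card_subgroup_dvd_card H)
  have hTS := Cfsg.Agent.Lib.helper3.pCore_le_sylow3 S
  have hTn := Cfsg.Agent.Lib.helper3.pCore_normal3 p G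
  have hTp := Cfsg.Agent.Lib.helper3.pCore_isPGroup3 p G
  have hcent := Cfsg.Agent.Lib.helper3.centralizer_pCore_le_of_pPrimeCore_bot (X := G) (p := p) hO
  obtain ⟨hQn, hQc⟩ := Cfsg.Agent.Lib.helper9.pPrimeCore_mem p ↥H
  have key : ∀ q : ↥H, q ∈ Cfsg.pPrimeCore p ↥H → (q : G) ∈ Cfsg.pCore p G → q = 1 := by
    intro q hq hqT
    obtain ⟨k, hk⟩ := hTp ⟨(q : G), hqT⟩
    have hk' : q ^ (p ^ k) = 1 := by
      apply Subtype.ext
      have := congrArg Subtype.val hk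
      simpa using this
    have hm : q ^ (Nat.card (Cfsg.pPrimeCore p ↥H)) = 1 := by
      have h0 : (⟨q, hq⟩ : ↥(Cfsg.pPrimeCore p ↥H)) ^ (Nat.card (Cfsg.pPrimeCore p ↥H)) = 1 :=
        pow_card_eq_one'
      have h1 := congrArg (fun w : ↥(Cfsg.pPrimeCore p ↥H) => (w : ↥H)) h0
      simp only [Subgroup.coe_pow, Subgroup.coe_one] at h1
      exact h1
    exact eq_one_of_pow q k hk' _ hQc hm
  have hOH : Cfsg.pPrimeCore p ↥H = ⊥ := by
    rw [eq_bot_iff]
    intro q hq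
    rw [Subgroup.mem_bot]
    apply key q hq
    apply hcent
    rw [Subgroup.mem_centralizer_iff]
    intro t ht
    have htH : t ∈ H := hSH (hTS ht)
    have hc2 : q * (⟨t, htH⟩ * q⁻¹ * ⟨t, htH⟩⁻¹) ∈ Cfsg.pPrimeCore p ↥H :=
      (Cfsg.pPrimeCore p ↥H).mul_mem hq
        (hQn.conj_mem q⁻¹ ((Cfsg.pPrimeCore p ↥H).inv_mem hq) ⟨t, htH⟩)
    have hc1 : ((q * (⟨t, htH⟩ * q⁻¹ * ⟨t, htH⟩⁻¹) : ↥H) : G) ∈ Cfsg.pCore p G := by
      have h5 : (q : G) * t * (q : G)⁻¹ * t⁻¹ ∈ Cfsg.pCore p G :=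
        (Cfsg.pCore p G).mul_mem (hTn.conj_mem t ht q) ((Cfsg.pCore p G).inv_mem ht)
      have h6 : ((q * (⟨t, htH⟩ * q⁻¹ * ⟨t, htH⟩⁻¹) : ↥H) : G) = (q : G) * t * (q : G)⁻¹ * t⁻¹ := by
        simp [mul_assoc]
      rw [h6]; exact h5
    have h7 := key _ hc2 hc1
    have h8 := congrArg Subtype.val h7
    have h9 : (q : G) * (t * (q : G)⁻¹ * t⁻¹) = 1 := by simpa using h8
    calc t * (q : G) = ((q : G) * (t * (q : G)⁻¹ * t⁻¹))⁻¹ * ((q : G) * t) := by group
      _ = (q : G) * t := by rw [h9]; group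
  have hn := ih _ hlt ↥H rfl hoddH hOH (S.subtype hSH)
  have e1 : (ZIn ((S.subtype hSH : Sylow p ↥H) : Subgroup ↥H)).map H.subtype =
      ZIn (S : Subgroup G) := by
    rw [map_ZIn H.subtype _ (fun x _ y _ h => Subtype.ext h)]
    congr 1
    rw [Sylow.coe_subtype]
    exact Subgroup.map_subgroupOf_eq_of_le hSH
  rw [← e1, Subgroup.le_normalizer_iff]
  rintro h hh _ ⟨y, hy, rfl⟩
  exact ⟨⟨h, hh⟩ * y * ⟨h, hh⟩⁻¹, hn.conj_mem y hy ⟨h, hh⟩, rfl⟩

theorem fixed_pair {G : Type u} [Group G] [Finite G] [Group.IsSolvable G] (hodd : Odd (Nat.card G))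
    (p : ℕ) [Fact p.Prime] (hp : p ≠ 2) (hO : Cfsg.pPrimeCore p G = ⊥) (S : Sylow p G)
    (hLT : puigIn (S : Subgroup G) ≤ Cfsg.pCore p G) :
    puigIn (S : Subgroup G) = puigIn (Cfsg.pCore p G) := by
  have hTp := Cfsg.Agent.Lib.helper3.pCore_isPGroup3 p G
  have hTS := Cfsg.Agent.Lib.helper3.pCore_le_sylow3 S
  obtain ⟨c1, c2, c3⟩ := Cfsg.Agent.S1468.result hodd p hp hO S
  have c3' : puigIn (Cfsg.pCore p G) ≤ puigIn (S : Subgroup G) := c3
  apply le_antisymm _ c3'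
  have e1 : stepIn (Cfsg.pCore p G) (lowIn (S : Subgroup G)) = puigIn (S : Subgroup G) := by
    apply le_antisymm
    · calc stepIn (Cfsg.pCore p G) (lowIn (S : Subgroup G))
          ≤ stepIn (S : Subgroup G) (lowIn (S : Subgroup G)) := stepIn_mono_left hTS _
        _ = puigIn (S : Subgroup G) := stepIn_lowIn _
    · conv_lhs => rw [← stepIn_lowIn (S : Subgroup G)]
      apply sSup_le
      rintro A ⟨hAS, hA, hN⟩
      have hAY : A ≤ puigIn (S : Subgroup G) := by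
        rw [← stepIn_lowIn (S : Subgroup G)]; exact le_stepIn hAS hA hN
      exact le_stepIn (hAY.trans hLT) hA hN
  obtain ⟨k, hk⟩ := exists_stab (Cfsg.pCore p G)
  have hPeq : puigIn (Cfsg.pCore p G) =
      (Cfsg.puigSeq ↥(Cfsg.pCore p G) (2 * k + 1)).map (Cfsg.pCore p G).subtype := by
    rw [map_puigSeq]; exact ((hk k le_rfl).2).symm
  have e2 : stepIn (Cfsg.pCore p G) (puigIn (S : Subgroup G)) = lowIn (S : Subgroup G) := by
    apply le_antisymm
    · calc stepIn (Cfsg.pCore p G) (puigIn (S : Subgroup G))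
          ≤ stepIn (S : Subgroup G) (puigIn (S : Subgroup G)) := stepIn_mono_left hTS _
        _ = lowIn (S : Subgroup G) := stepIn_puigIn _
    · conv_lhs => rw [← stepIn_puigIn (S : Subgroup G)]
      apply sSup_le
      rintro B ⟨hBS, hB, hN⟩
      haveI hPn : ((Cfsg.puigSeq ↥(Cfsg.pCore p G) (2 * k + 1)).map (Cfsg.pCore p G).subtype).Normal :=
        haveI := Cfsg.Agent.Lib.helper3.pCore_normal3 p G
        Cfsg.Agent.S1468.seq_map_normal (Cfsg.pCore p G) (2 * k + 1)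
      have hPT : (Cfsg.puigSeq ↥(Cfsg.pCore p G) (2 * k + 1)).map (Cfsg.pCore p G).subtype ≤
          Cfsg.pCore p G := Subgroup.map_subtype_le _
      have hPB : (Cfsg.puigSeq ↥(Cfsg.pCore p G) (2 * k + 1)).map (Cfsg.pCore p G).subtype ≤
          Subgroup.normalizer (B : Set G) := by
        rw [← hPeq]; exact c3'.trans hN
      have hfam := (Cfsg.Agent.S1465.result hodd p hp
        ((Cfsg.puigSeq ↥(Cfsg.pCore p G) (2 * k + 1)).map (Cfsg.pCore p G).subtype)
        (hTp.to_le hPT) {B}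
        (by
          intro B' hB'
          rw [Set.mem_singleton_iff] at hB'
          subst hB'
          exact ⟨hB, S.isPGroup'.to_le hBS, hPB⟩)).2 hO
        (Cfsg.Agent.S1468.cent_le p (Cfsg.pCore p G) hTp (2 * k + 1) (by omega))
      rw [sSup_singleton] at hfam
      exact le_stepIn hfam hB hN
  have ind : ∀ n : ℕ, seqIn (Cfsg.pCore p G) (2 * n) ≤ lowIn (S : Subgroup G) ∧
      puigIn (S : Subgroup G) ≤ seqIn (Cfsg.pCore p G) (2 * n + 1) := by
    intro n
    induction n with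
    | zero =>
      refine ⟨bot_le, ?_⟩
      have h0 : stepIn (Cfsg.pCore p G) (lowIn (S : Subgroup G)) ≤ stepIn (Cfsg.pCore p G) ⊥ :=
        stepIn_anti _ bot_le
      rw [e1] at h0
      exact h0
    | succ n ih =>
      have h1 : seqIn (Cfsg.pCore p G) (2 * (n + 1)) ≤ lowIn (S : Subgroup G) := by
        have h0 : stepIn (Cfsg.pCore p G) (seqIn (Cfsg.pCore p G) (2 * n + 1)) ≤
            stepIn (Cfsg.pCore p G) (puigIn (S : Subgroup G)) := stepIn_anti _ ih.2
        rw [e2] at h0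
        exact h0
      refine ⟨h1, ?_⟩
      have h0 : stepIn (Cfsg.pCore p G) (lowIn (S : Subgroup G)) ≤
          stepIn (Cfsg.pCore p G) (seqIn (Cfsg.pCore p G) (2 * (n + 1))) := stepIn_anti _ h1
      rw [e1] at h0
      exact h0
  rw [← (hk k le_rfl).2]
  exact (ind k).2

theorem core_step {G : Type u} [Group G] [Finite G] [Group.IsSolvable G] (hodd : Odd (Nat.card G))
    (p : ℕ) [Fact p.Prime] (hp : p ≠ 2) (hO : Cfsg.pPrimeCore p G = ⊥) (S : Sylow p G)
    (ih : ∀ m < Nat.card G, ∀ (X : Type u) [Group X] [Finite X] [Group.IsSolvable X],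
      Nat.card X = m → Odd (Nat.card X) → Cfsg.pPrimeCore p X = ⊥ →
        ∀ S' : Sylow p X, (ZIn (S' : Subgroup X)).Normal)
    (V : Subgroup G) [V.Normal] (hZV : ZIn (S : Subgroup G) ≤ V)
    (hfam : (puigIn (S : Subgroup G)).map (QuotientGroup.mk' (Subgroup.centralizer (V : Set G))) ≤
      Cfsg.pCore p (G ⧸ Subgroup.centralizer (V : Set G)))
    (hZTn : (ZIn (Cfsg.pCore p G)).Normal) : (ZIn (S : Subgroup G)).Normal := by
  have hNn : ((Cfsg.pCore p (G ⧸ Subgroup.centralizer (V : Set G))).comap (QuotientGroup.mk' (Subgroup.centralizer (V : Set G)))).Normal :=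
    (Cfsg.Agent.Lib.helper3.pCore_normal3 p (G ⧸ Subgroup.centralizer (V : Set G))).comap _
  have hLN : puigIn (S : Subgroup G) ≤ (Cfsg.pCore p (G ⧸ Subgroup.centralizer (V : Set G))).comap (QuotientGroup.mk' (Subgroup.centralizer (V : Set G))) :=
    Subgroup.map_le_iff_le_comap.mp hfam
  have hNJ : (Cfsg.pCore p (G ⧸ Subgroup.centralizer (V : Set G))).comap (QuotientGroup.mk' (Subgroup.centralizer (V : Set G))) ≤ (S : Subgroup G) ⊔ Subgroup.centralizer (V : Set G) := by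
    intro x hx
    have hx' : QuotientGroup.mk' (Subgroup.centralizer (V : Set G)) x ∈ Cfsg.pCore p (G ⧸ Subgroup.centralizer (V : Set G)) := hx
    have h2 := Cfsg.Agent.Lib.helper3.pCore_le_sylow3
      (S.mapSurjective (QuotientGroup.mk'_surjective (Subgroup.centralizer (V : Set G)))) hx'
    rw [Sylow.coe_mapSurjective] at h2
    obtain ⟨s, hs, hsx⟩ := h2
    have h3 : s⁻¹ * x ∈ Subgroup.centralizer (V : Set G) := QuotientGroup.eq.mp hsx
    have h4 : x = s * (s⁻¹ * x) := by group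
    rw [h4]
    exact Subgroup.mul_mem _ (Subgroup.mem_sup_left hs) (Subgroup.mem_sup_right h3)
  have hSnorm : (S : Subgroup G) ≤ Subgroup.normalizer (ZIn (S : Subgroup G) : Set G) :=
    self_le_normalizer_ZIn _
  have hCnorm : Subgroup.centralizer (V : Set G) ≤ Subgroup.normalizer (ZIn (S : Subgroup G) : Set G) := by
    rw [Subgroup.le_normalizer_iff]
    intro c hc z hz
    have h0 := (Subgroup.mem_centralizer_iff.mp hc) z (hZV hz)
    have e : c * z * c⁻¹ = z := by rw [← h0]; group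
    rw [e]; exact hz
  haveI := hNn
  have hfr := frat S ((Cfsg.pCore p (G ⧸ Subgroup.centralizer (V : Set G))).comap (QuotientGroup.mk' (Subgroup.centralizer (V : Set G))))
  rw [← Subgroup.normalizer_eq_top_iff]
  by_cases hH : Subgroup.normalizer ((((S : Subgroup G) ⊓
      (Cfsg.pCore p (G ⧸ Subgroup.centralizer (V : Set G))).comap (QuotientGroup.mk' (Subgroup.centralizer (V : Set G))) : Subgroup G)) : Set G) = ⊤
  · have hS1n : ((S : Subgroup G) ⊓ (Cfsg.pCore p (G ⧸ Subgroup.centralizer (V : Set G))).comap (QuotientGroup.mk' (Subgroup.centralizer (V : Set G)))).Normal :=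
      Subgroup.normalizer_eq_top_iff.mp hH
    have hS1T : (S : Subgroup G) ⊓ (Cfsg.pCore p (G ⧸ Subgroup.centralizer (V : Set G))).comap (QuotientGroup.mk' (Subgroup.centralizer (V : Set G))) ≤
        Cfsg.pCore p G :=
      Cfsg.Agent.Lib.helper1.le_pCore hS1n (S.isPGroup'.to_le inf_le_left)
    have hLT : puigIn (S : Subgroup G) ≤ Cfsg.pCore p G :=
      (le_inf (puigIn_le _) hLN).trans hS1T
    have heq := fixed_pair hodd p hp hO S hLT
    have hZeq : ZIn (S : Subgroup G) = ZIn (Cfsg.pCore p G) := by unfold ZIn; rw [heq]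
    rw [hZeq]
    exact Subgroup.normalizer_eq_top_iff.mpr hZTn
  · have hSH : (S : Subgroup G) ≤ Subgroup.normalizer ((((S : Subgroup G) ⊓
        (Cfsg.pCore p (G ⧸ Subgroup.centralizer (V : Set G))).comap (QuotientGroup.mk' (Subgroup.centralizer (V : Set G))) : Subgroup G)) : Set G) := by
      rw [Subgroup.le_normalizer_iff]
      intro s hs x hx
      exact ⟨(S : Subgroup G).mul_mem ((S : Subgroup G).mul_mem hs hx.1)
        ((S : Subgroup G).inv_mem hs), hNn.conj_mem x hx.2 s⟩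
    have hHle := ih_apply hodd p hO S ih _ hSH hH
    rw [eq_top_iff, ← hfr]
    exact sup_le hHle (hNJ.trans (sup_le hSnorm hCnorm))


theorem normal_aux (p : ℕ) [Fact p.Prime] (hp : p ≠ 2) : ∀ (n : ℕ) (G : Type u) [Group G]
    [Finite G] [Group.IsSolvable G], Nat.card G = n → Odd (Nat.card G) →
    Cfsg.pPrimeCore p G = ⊥ → ∀ S : Sylow p G, (ZIn (S : Subgroup G)).Normal := by
  intro n
  induction n using Nat.strong_induction_on with
  | _ n ih =>
    intro G _ _ _ hn hodd hO S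
    subst hn
    have hTp := Cfsg.Agent.Lib.helper3.pCore_isPGroup3 p G
    have hTS := Cfsg.Agent.Lib.helper3.pCore_le_sylow3 S
    obtain ⟨c1, c2, c3⟩ := Cfsg.Agent.S1468.result hodd p hp hO S
    have c1' : lowIn (S : Subgroup G) ≤ lowIn (Cfsg.pCore p G) := c1
    have c2' : lowIn (Cfsg.pCore p G) ≤ puigIn (Cfsg.pCore p G) := c2
    have c3' : puigIn (Cfsg.pCore p G) ≤ puigIn (S : Subgroup G) := c3
    have hLTn : (puigIn (Cfsg.pCore p G)).Normal := by
      obtain ⟨k, hk⟩ := exists_stab (Cfsg.pCore p G)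
      rw [← (hk k le_rfl).2, ← map_puigSeq]
      haveI := Cfsg.Agent.Lib.helper3.pCore_normal3 p G
      exact Cfsg.Agent.S1468.seq_map_normal _ _
    have hZTn : (ZIn (Cfsg.pCore p G)).Normal := by
      unfold ZIn
      haveI := hLTn
      exact Subgroup.normal_inf_normal _ _
    have hZS : ZIn (S : Subgroup G) ≤ S := inf_le_left.trans (puigIn_le _)
    have hZlow : ZIn (S : Subgroup G) ≤ lowIn (S : Subgroup G) := by
      rw [← stepIn_puigIn (S : Subgroup G)]
      apply le_stepIn hZS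
      · refine ⟨⟨fun a b => Subtype.ext ?_⟩⟩
        exact ((Subgroup.mem_centralizer_iff.mp (Subgroup.mem_inf.mp b.2).2) a
          (Subgroup.mem_inf.mp a.2).1)
      · rw [Subgroup.le_normalizer_iff]
        intro l hl z hz
        have h0 := (Subgroup.mem_centralizer_iff.mp (Subgroup.mem_inf.mp hz).2) l hl
        have e : l * z * l⁻¹ = z := by rw [h0]; group
        rw [e]; exact hz
    have hZZT : ZIn (S : Subgroup G) ≤ ZIn (Cfsg.pCore p G) := by
      intro z hz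
      exact Subgroup.mem_inf.mpr ⟨c2' (c1' (hZlow hz)),
        Subgroup.centralizer_le c3' (Subgroup.mem_inf.mp hz).2⟩
    have hVn : (Subgroup.normalClosure (ZIn (S : Subgroup G) : Set G)).Normal :=
      Subgroup.normalClosure_normal
    have hZV : ZIn (S : Subgroup G) ≤ Subgroup.normalClosure (ZIn (S : Subgroup G) : Set G) :=
      Subgroup.le_normalClosure
    have hVZT : Subgroup.normalClosure (ZIn (S : Subgroup G) : Set G) ≤ ZIn (Cfsg.pCore p G) := by
      haveI := hZTn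
      exact Subgroup.normalClosure_le_normal hZZT
    have hVT : Subgroup.normalClosure (ZIn (S : Subgroup G) : Set G) ≤ Cfsg.pCore p G :=
      hVZT.trans (inf_le_left.trans (puigIn_le _))
    have hVcomm : IsMulCommutative (Subgroup.normalClosure (ZIn (S : Subgroup G) : Set G)) := by
      refine ⟨⟨fun a b => Subtype.ext ?_⟩⟩
      have ha := hVZT a.2
      have hb := hVZT b.2
      exact ((Subgroup.mem_centralizer_iff.mp (Subgroup.mem_inf.mp hb).2) a
        (Subgroup.mem_inf.mp ha).1)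
    have hVlow : Subgroup.normalClosure (ZIn (S : Subgroup G) : Set G) ≤ lowIn (S : Subgroup G) := by
      rw [← stepIn_puigIn (S : Subgroup G)]
      apply le_stepIn (hVT.trans hTS) hVcomm
      rw [Subgroup.le_normalizer_iff]
      intro l _ v hv
      exact hVn.conj_mem v hv l
    haveI := hVn
    have hfam := (Cfsg.Agent.S1465.result hodd p hp
      (Subgroup.normalClosure (ZIn (S : Subgroup G) : Set G)) (hTp.to_le hVT)
      {A : Subgroup G | A ≤ (S : Subgroup G) ∧ IsMulCommutative A ∧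
        lowIn (S : Subgroup G) ≤ Subgroup.normalizer (A : Set G)}
      (fun B hB => ⟨hB.2.1, S.isPGroup'.to_le hB.1, hVlow.trans hB.2.2⟩)).1
    have hsup : sSup {A : Subgroup G | A ≤ (S : Subgroup G) ∧ IsMulCommutative A ∧
        lowIn (S : Subgroup G) ≤ Subgroup.normalizer (A : Set G)} = puigIn (S : Subgroup G) :=
      stepIn_lowIn _
    rw [hsup] at hfam
    exact core_step hodd p hp hO S ih _ hZV hfam hZTn

theorem part_one {G : Type u} [Group G] [Finite G] [Group.IsSolvable G] (hodd : Odd (Nat.card G))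
    (p : ℕ) [Fact p.Prime] (hp : p ≠ 2) (S : Sylow p G) :
    Cfsg.pPrimeCore p G ⊔ Subgroup.normalizer (ZIn (S : Subgroup G) : Set G) = ⊤ := by
  haveI hKn : (Cfsg.pPrimeCore p G).Normal := Cfsg.Agent.Lib.helper9.ppc_normal p G
  have hKc := Cfsg.Agent.Lib.helper9.pPrimeCore_coprime p G
  have hfs : Function.Surjective (QuotientGroup.mk' (Cfsg.pPrimeCore p G)) :=
    QuotientGroup.mk'_surjective _
  have hpk : ∀ x : G, x ∈ Cfsg.pPrimeCore p G → (∃ k : ℕ, x ^ (p ^ k) = 1) → x = 1 := by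
    intro x hx ⟨k, hk⟩
    have hm : x ^ (Nat.card (Cfsg.pPrimeCore p G)) = 1 := by
      have h0 : (⟨x, hx⟩ : ↥(Cfsg.pPrimeCore p G)) ^ (Nat.card (Cfsg.pPrimeCore p G)) = 1 :=
        pow_card_eq_one'
      have h1' := congrArg (fun w : ↥(Cfsg.pPrimeCore p G) => (w : G)) h0
      simp only [Subgroup.coe_pow, Subgroup.coe_one] at h1'
      exact h1'
    exact eq_one_of_pow x k hk _ hKc hm
  have hinj : ∀ x ∈ (S : Subgroup G), ∀ y ∈ (S : Subgroup G),
      QuotientGroup.mk' (Cfsg.pPrimeCore p G) x = QuotientGroup.mk' (Cfsg.pPrimeCore p G) y →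
        x = y := by
    intro x hx y hy hxy
    have h1 : x⁻¹ * y ∈ Cfsg.pPrimeCore p G := QuotientGroup.eq.mp hxy
    have h2 : x⁻¹ * y ∈ (S : Subgroup G) :=
      (S : Subgroup G).mul_mem ((S : Subgroup G).inv_mem hx) hy
    have h3 : x⁻¹ * y = 1 := by
      apply hpk _ h1
      obtain ⟨k, hk⟩ := S.isPGroup' ⟨x⁻¹ * y, h2⟩
      refine ⟨k, ?_⟩
      have h4 := congrArg Subtype.val hk
      simpa using h4
    exact inv_mul_eq_one.mp h3
  have hoddQ : Odd (Nat.card (G ⧸ Cfsg.pPrimeCore p G)) :=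
    Odd.of_dvd_nat hodd (Subgroup.card_quotient_dvd_card _)
  have hOQ : Cfsg.pPrimeCore p (G ⧸ Cfsg.pPrimeCore p G) = ⊥ :=
    Cfsg.Agent.Lib.helper9.pPrimeCore_quotient_eq_bot p G
  have hnq := normal_aux p hp _ (G ⧸ Cfsg.pPrimeCore p G) rfl hoddQ hOQ (S.mapSurjective hfs)
  rw [Sylow.coe_mapSurjective, ← map_ZIn _ _ hinj] at hnq
  haveI hN0 : (ZIn (S : Subgroup G) ⊔ Cfsg.pPrimeCore p G).Normal := by
    have h := hnq.comap (QuotientGroup.mk' (Cfsg.pPrimeCore p G))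
    rw [Subgroup.comap_map_eq, QuotientGroup.ker_mk'] at h
    exact h
  have hZp : IsPGroup p (ZIn (S : Subgroup G)) :=
    S.isPGroup'.to_le (inf_le_left.trans (puigIn_le _))
  have hZp' : IsPGroup p ((ZIn (S : Subgroup G)).subgroupOf
      (ZIn (S : Subgroup G) ⊔ Cfsg.pPrimeCore p G)) := hZp.comap_subtype
  obtain ⟨P₀, hP₀⟩ := hZp'.exists_le_sylow
  have h1 : ZIn (S : Subgroup G) ≤ (P₀ : Subgroup ↥(ZIn (S : Subgroup G) ⊔ Cfsg.pPrimeCore p G)).map
      (ZIn (S : Subgroup G) ⊔ Cfsg.pPrimeCore p G).subtype := by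
    intro x hx
    exact ⟨⟨x, (le_sup_left : ZIn (S : Subgroup G) ≤ _) hx⟩,
      hP₀ (Subgroup.mem_subgroupOf.mpr hx), rfl⟩
  have h2 : (P₀ : Subgroup ↥(ZIn (S : Subgroup G) ⊔ Cfsg.pPrimeCore p G)).map
      (ZIn (S : Subgroup G) ⊔ Cfsg.pPrimeCore p G).subtype ≤ ZIn (S : Subgroup G) := by
    rintro _ ⟨x, hx, rfl⟩
    have hx0 : QuotientGroup.mk' (Cfsg.pPrimeCore p G) (x : G) ∈
        (ZIn (S : Subgroup G) ⊔ Cfsg.pPrimeCore p G).map (QuotientGroup.mk' (Cfsg.pPrimeCore p G)) :=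
      ⟨x, x.2, rfl⟩
    rw [Subgroup.map_sup, (Subgroup.map_eq_bot_iff (Cfsg.pPrimeCore p G)).mpr
      (le_of_eq (QuotientGroup.ker_mk' (Cfsg.pPrimeCore p G)).symm), sup_bot_eq] at hx0
    obtain ⟨z, hz, hzx⟩ := hx0
    have h3 : z⁻¹ * (x : G) ∈ Cfsg.pPrimeCore p G := QuotientGroup.eq.mp hzx
    have hzP : (⟨z, (le_sup_left : ZIn (S : Subgroup G) ≤ _) hz⟩ :
        ↥(ZIn (S : Subgroup G) ⊔ Cfsg.pPrimeCore p G)) ∈
        (P₀ : Subgroup ↥(ZIn (S : Subgroup G) ⊔ Cfsg.pPrimeCore p G)) :=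
      hP₀ (Subgroup.mem_subgroupOf.mpr hz)
    have h4 := Subgroup.mul_mem _ (Subgroup.inv_mem _ hzP) hx
    obtain ⟨k, hk⟩ := P₀.isPGroup' ⟨_, h4⟩
    have h5 : z⁻¹ * (x : G) = 1 := by
      apply hpk _ h3
      refine ⟨k, ?_⟩
      have h6 := congrArg (fun w : ↥(P₀ : Subgroup ↥(ZIn (S : Subgroup G) ⊔ Cfsg.pPrimeCore p G)) =>
        ((w : ↥(ZIn (S : Subgroup G) ⊔ Cfsg.pPrimeCore p G)) : G)) hk
      simpa using h6
    have h7 : z = (x : G) := inv_mul_eq_one.mp h5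
    show ((x : ↥(ZIn (S : Subgroup G) ⊔ Cfsg.pPrimeCore p G)) : G) ∈ ZIn (S : Subgroup G)
    rw [← h7]; exact hz
  have h3 := Sylow.normalizer_sup_eq_top P₀
  rw [le_antisymm h2 h1] at h3
  rw [eq_top_iff, ← h3]
  exact sup_le le_sup_right (sup_le (Subgroup.le_normalizer.trans le_sup_right) le_sup_left)

/-- Let p be an odd prime, G a solvable group of odd order and S a Sylow p-subgroup, and let Z be the centre of the Puig subgroup L(S), viewed inside G. Then G is generated by O_{p'}(G) and N_G(Z); and if O_{p'}(G) = 1 then Z is normal in G. -/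
theorem result {G : Type*} [Group G] [Finite G] [Group.IsSolvable G] (hodd : Odd (Nat.card G)) (p : ℕ) [Fact p.Prime] (hp : p ≠ 2) (S : Sylow p G) :
    Cfsg.pPrimeCore p G ⊔ Subgroup.normalizer ((((Subgroup.center ↥(Cfsg.puigSubgroup ↥(S : Subgroup G))).map (Cfsg.puigSubgroup ↥(S : Subgroup G)).subtype).map (S : Subgroup G).subtype : Subgroup G) : Set G) = ⊤ ∧
      (Cfsg.pPrimeCore p G = ⊥ → (((Subgroup.center ↥(Cfsg.puigSubgroup ↥(S : Subgroup G))).map (Cfsg.puigSubgroup ↥(S : Subgroup G)).subtype).map (S : Subgroup G).subtype).Normal) := by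
  rw [zexpr_eq]
  exact ⟨part_one hodd p hp S, fun hO => normal_aux p hp _ G rfl hodd hO S⟩

end Cfsg.Agent.S1469
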