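import Cfsg.Statements.S1470

set_option autoImplicit false
open Cfsg

namespace Cfsg.Agent.S1470

/-- Let p and q be odd primes with (p^q − 1)/(p − 1) coprime to p − 1, and let E be the set of elements a of the field with p ^ q elements whose norm to the prime field is 1 and for which 2 − a also has norm 1. If a⁻¹ ∈ E for every a ∈ E and E has at least two elements, then p ≤ q. -/
theorem result (p q : ℕ) [Fact p.Prime] [Fact q.Prime] (hp : p ≠ 2) (hq : q ≠ 2) (hA : Nat.Coprime ((p ^ q - 1) / (p - 1)) (p - 1))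
    (hinv : ∀ a ∈ {a : GaloisField p q | Algebra.norm (ZMod p) a = 1 ∧ Algebra.norm (ZMod p) (2 - a) = 1}, a⁻¹ ∈ {a : GaloisField p q | Algebra.norm (ZMod p) a = 1 ∧ Algebra.norm (ZMod p) (2 - a) = 1})
    (h2 : 2 ≤ Set.ncard {a : GaloisField p q | Algebra.norm (ZMod p) a = 1 ∧ Algebra.norm (ZMod p) (2 - a) = 1}) :
    p ≤ q := by

  classical
  have hp' : p.Prime := Fact.out
  have hq' : q.Prime := Fact.out
  obtain ⟨a₀, b', ha₀E, hbE, hab⟩ := (Set.one_lt_ncard_iff (Set.toFinite _)).mp h2
  obtain ⟨a, haE, ha1⟩ : ∃ a ∈ {a : GaloisField p q | Algebra.norm (ZMod p) a = 1 ∧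
      Algebra.norm (ZMod p) (2 - a) = 1}, a ≠ 1 := by
    by_cases h : a₀ = 1
    · exact ⟨b', hbE, fun hb => hab (h.trans hb.symm)⟩
    · exact ⟨a₀, ha₀E, h⟩
  have ha10 : a - 1 ≠ 0 := sub_ne_zero.mpr ha1
  obtain ⟨b, hb⟩ : ∃ b : GaloisField p q, b = (a - 1)⁻¹ := ⟨_, rfl⟩
  have hb0 : b ≠ 0 := by rw [hb]; exact inv_ne_zero ha10
  have hN0 : Algebra.norm (ZMod p) (0 : GaloisField p q) = 0 := Algebra.norm_zero
  have key : ∀ k : ℕ, b + (k : GaloisField p q) ≠ 0 ∧
      (1 + (b + (k : GaloisField p q))⁻¹) ∈ {a : GaloisField p q |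
        Algebra.norm (ZMod p) a = 1 ∧ Algebra.norm (ZMod p) (2 - a) = 1} ∧
      Algebra.norm (ZMod p) (b + (k : GaloisField p q)) = Algebra.norm (ZMod p) b := by
    intro k
    induction k with
    | zero =>
      refine ⟨by rw [Nat.cast_zero, add_zero]; exact hb0, ?_, by rw [Nat.cast_zero, add_zero]⟩
      have h0 : 1 + (b + ((0 : ℕ) : GaloisField p q))⁻¹ = a := by
        rw [Nat.cast_zero, add_zero, hb, inv_inv]; ring
      rw [h0]; exact haE
    | succ k ih =>
      obtain ⟨hx0, hxE, hxN⟩ := ih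
      obtain ⟨x, hx⟩ : ∃ x : GaloisField p q, x = b + (k : GaloisField p q) := ⟨_, rfl⟩
      rw [← hx] at hx0 hxE hxN
      have hcast : b + ((k + 1 : ℕ) : GaloisField p q) = x + 1 := by
        rw [hx, Nat.cast_succ]; ring
      rw [hcast]
      have h1 : 1 + x⁻¹ = (x + 1) * x⁻¹ := by field_simp
      have hak0 : 1 + x⁻¹ ≠ 0 := by
        intro h0
        have h3 := hxE.1
        rw [h0, hN0] at h3
        exact zero_ne_one h3
      have hx1 : x + 1 ≠ 0 := by
        intro h0
        apply hak0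
        rw [h1, h0, zero_mul]
      have hinvE := hinv _ hxE
      have heq : 1 + (x + 1)⁻¹ = 2 - (1 + x⁻¹)⁻¹ := by
        rw [h1, mul_inv, inv_inv]
        field_simp
        ring
      refine ⟨hx1, ?_, ?_⟩
      · rw [heq]
        refine ⟨hinvE.2, ?_⟩
        have h4 : (2 : GaloisField p q) - (2 - (1 + x⁻¹)⁻¹) = (1 + x⁻¹)⁻¹ := by ring
        rw [h4]; exact hinvE.1
      · have h5 : x + 1 = (1 + x⁻¹) * x := by field_simp
        rw [h5, map_mul, hxE.1, one_mul, hxN]
  have hNk : ∀ k : ℕ, Algebra.norm (ZMod p) (b + (k : GaloisField p q)) =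
      Algebra.norm (ZMod p) b := fun k => (key k).2.2
  obtain ⟨F, hF⟩ : ∃ F : Polynomial (GaloisField p q),
      F = ∏ σ : (GaloisField p q) ≃ₐ[ZMod p] (GaloisField p q),
        (Polynomial.X + Polynomial.C (σ b)) -
        Polynomial.C (algebraMap (ZMod p) (GaloisField p q) (Algebra.norm (ZMod p) b)) :=
    ⟨_, rfl⟩
  have hdeg : (∏ σ : (GaloisField p q) ≃ₐ[ZMod p] (GaloisField p q),
      (Polynomial.X + Polynomial.C (σ b))).natDegree = q := by
    rw [Polynomial.natDegree_prod_of_monic _ _ (fun σ _ => Polynomial.monic_X_add_C _)]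
    simp only [Polynomial.natDegree_X_add_C, Finset.sum_const, Finset.card_univ, smul_eq_mul,
      mul_one]
    rw [← Nat.card_eq_fintype_card, IsGalois.card_aut_eq_finrank, GaloisField.finrank p hq'.ne_zero]
  have hFdeg : F.natDegree = q := by rw [hF, Polynomial.natDegree_sub_C, hdeg]
  have hF0 : F ≠ 0 := by
    intro h0
    rw [h0, Polynomial.natDegree_zero] at hFdeg
    exact hq'.ne_zero hFdeg.symm
  have hroot : ∀ k : ℕ, Polynomial.IsRoot F (k : GaloisField p q) := by
    intro k
    rw [Polynomial.IsRoot, hF, Polynomial.eval_sub, Polynomial.eval_C, Polynomial.eval_prod]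
    simp only [Polynomial.eval_add, Polynomial.eval_X, Polynomial.eval_C]
    have h1 : ∀ σ : (GaloisField p q) ≃ₐ[ZMod p] (GaloisField p q),
        (k : GaloisField p q) + σ b = σ (b + (k : GaloisField p q)) := by
      intro σ; rw [map_add, map_natCast, add_comm]
    rw [Finset.prod_congr rfl (fun σ _ => h1 σ), ← Algebra.norm_eq_prod_automorphisms, hNk k,
      sub_self]
  have hinj : Set.InjOn (fun k : ℕ => (k : GaloisField p q)) (Finset.range p) := by
    intro i hi j hj hij
    have hi' : i < p := Finset.mem_range.mp hi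
    have hj' : j < p := Finset.mem_range.mp hj
    have h1 := (CharP.natCast_eq_natCast (GaloisField p q) p).mp hij
    exact Nat.ModEq.eq_of_lt_of_lt h1 hi' hj'
  have hcard : ((Finset.range p).image (fun k : ℕ => (k : GaloisField p q))).card = p := by
    rw [Finset.card_image_of_injOn hinj, Finset.card_range]
  have hsub : ((Finset.range p).image (fun k : ℕ => (k : GaloisField p q))).val ⊆ F.roots := by
    intro x hx
    rw [Finset.mem_val, Finset.mem_image] at hx
    obtain ⟨k, -, rfl⟩ := hx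
    exact (Polynomial.mem_roots hF0).mpr (hroot k)
  have hfin := Polynomial.card_le_degree_of_subset_roots hsub
  rw [hcard, hFdeg] at hfin
  exact hfin

end Cfsg.Agent.S1470
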