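import Cfsg.Statements.S1471
import Cfsg.Agent.Lib.helper5.NormPairA
import Cfsg.Agent.Lib.helper5.NormPairB

set_option autoImplicit false
open Cfsg

namespace Cfsg.Agent.S1471


/-- Let p and q be odd primes with (p^q − 1)/(p − 1) coprime to p − 1. Then there are at least two elements a of the field with p ^ q elements such that both a and 2 − a have norm 1 to the prime field. -/
theorem result (p q : ℕ) [Fact p.Prime] [Fact q.Prime] (hp : p ≠ 2) (hq : q ≠ 2) (hA : Nat.Coprime ((p ^ q - 1) / (p - 1)) (p - 1)) :
    2 ≤ Set.ncard {a : GaloisField p q | Algebra.norm (ZMod p) a = 1 ∧ Algebra.norm (ZMod p) (2 - a) = 1} := by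
  have hqp : q.Prime := Fact.out
  have hq2 := hqp.two_le
  have hq4 : q ≠ 4 := by
    rintro rfl
    exact absurd hqp (by decide)
  rcases (by omega : q = 3 ∨ 5 ≤ q) with h3 | h5
  · subst h3
    exact Cfsg.Agent.Lib.helper5.NormPair.two_le_ncard_three p hp
  · haveI : Fintype (GaloisField p q) := Fintype.ofFinite _
    exact Cfsg.Agent.Lib.helper5.NormPair.two_le_ncard_of_five_le p q hp h5

end Cfsg.Agent.S1471
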