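import Cfsg.Statements.S1473

import Cfsg.Agent.Lib.helper8.CN
set_option autoImplicit false
open Cfsg

namespace Cfsg.Agent.S1473

open Cfsg.Agent.Lib.helper8 in
theorem cn_quot_abelian_pgroup {G : Type*} [Group G] [Finite G] (hCN : Cfsg.IsCNGroup G)
    (N : Subgroup G) [hNn : N.Normal] (p : ℕ) [hp : Fact p.Prime] (hNp : IsPGroup p N)
    (hN1 : N ≠ ⊥) (hNab : ∀ a ∈ N, ∀ b ∈ N, a * b = b * a) : Cfsg.IsCNGroup (G ⧸ N) := by
  classical
  have key : ∀ (q : ℕ) (y : G), q.Prime → orderOf (y : G ⧸ N) = q →
      Group.IsNilpotent (Subgroup.centralizer ({(y : G ⧸ N)} : Set (G ⧸ N))) := by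
    intro q y hq hyq
    have hy1 : (y : G ⧸ N) ≠ 1 := by
      intro h
      rw [h, orderOf_one] at hyq
      exact hq.one_lt.ne hyq
    have hyqN : y ^ q ∈ N := by
      rw [← QuotientGroup.eq_one_iff, QuotientGroup.mk_pow, ← hyq, pow_orderOf_eq_one]
    obtain ⟨a, ha⟩ := IsPGroup.iff_card.mp hNp
    by_cases hqp : q = p
    · have hyp : orderOf (y : G ⧸ N) = p := hqp ▸ hyq
      obtain ⟨C, hC⟩ : ∃ C : Subgroup G, C = (Subgroup.centralizer
        ({(y : G ⧸ N)} : Set (G ⧸ N))).comap (QuotientGroup.mk' N) := ⟨_, rfl⟩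
      have hNC : N ≤ C := by
        intro n hn
        rw [hC, Subgroup.mem_comap, QuotientGroup.mk'_apply, (QuotientGroup.eq_one_iff n).mpr hn]
        exact Subgroup.one_mem _
      have hCmem : ∀ g ∈ C, (y : G ⧸ N) * (g : G ⧸ N) = (g : G ⧸ N) * (y : G ⧸ N) := by
        intro g hg
        rw [hC] at hg
        exact Subgroup.mem_centralizer_iff.mp (Subgroup.mem_comap.mp hg) _ (Set.mem_singleton _)
      have hpprime : ∀ g ∈ C, (orderOf g).Coprime p → ∀ n ∈ N, g * n = n * g := by
        intro g hg hgp n hn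
        have hcopA : (Nat.card (Subgroup.zpowers g)).Coprime (Nat.card N) := by
          rw [Nat.card_zpowers, ha]; exact Nat.Coprime.pow_right _ hgp
        obtain ⟨d, hd, hfix⟩ := coset_fix (Subgroup.zpowers g) N
          (by rw [Subgroup.normalizer_eq_top]; exact le_top) hcopA
          (Or.inl (isSolvable_of_isMulCommutative _)) y (by
            intro a' ha'
            have haC : a' ∈ C := (Subgroup.zpowers_le.mpr hg) ha'
            have hk := hCmem a' haC
            rw [← QuotientGroup.eq_one_iff]
            calc ((y⁻¹ * a' * y * a'⁻¹ : G) : G ⧸ N)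
                = (y : G ⧸ N)⁻¹ * ((a' : G ⧸ N) * (y : G ⧸ N)) * (a' : G ⧸ N)⁻¹ := by
                  simp [mul_assoc]
              _ = (y : G ⧸ N)⁻¹ * ((y : G ⧸ N) * (a' : G ⧸ N)) * (a' : G ⧸ N)⁻¹ := by rw [hk]
              _ = 1 := by group)
        obtain ⟨x₁, hx₁⟩ : ∃ x₁, x₁ = y * d := ⟨_, rfl⟩
        have hgx₁ : g * x₁ = x₁ * g := by rw [hx₁]; exact hfix g (Subgroup.mem_zpowers g)
        have hx₁bar : (x₁ : G ⧸ N) = (y : G ⧸ N) := by
          rw [hx₁, QuotientGroup.mk_mul, (QuotientGroup.eq_one_iff d).mpr hd, mul_one]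
        have hx₁1 : x₁ ≠ 1 := by
          intro h
          apply hy1
          rw [← hx₁bar, h]
          rfl
        have hx₁p : x₁ ^ p ∈ N := by
          rw [← QuotientGroup.eq_one_iff, QuotientGroup.mk_pow, hx₁bar, ← hyp, pow_orderOf_eq_one]
        have hzp : IsPGroup p (Subgroup.zpowers x₁) := by
          have h1 : x₁ ^ (p * p ^ a) = 1 := by
            rw [pow_mul]
            have := pow_card_eq_one' (G := N) (x := ⟨x₁ ^ p, hx₁p⟩)
            rw [ha] at this
            exact congrArg Subtype.val this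
          have h2 : orderOf x₁ ∣ p ^ (a + 1) := by
            rw [pow_succ']; exact orderOf_dvd_of_pow_eq_one h1
          obtain ⟨m, -, hm⟩ := (Nat.dvd_prime_pow hp.out).mp h2
          exact IsPGroup.of_card (n := m) (by rw [Nat.card_zpowers, hm])
        have hP₁ : IsPGroup p (N ⊔ Subgroup.zpowers x₁ : Subgroup G) :=
          IsPGroup.to_sup_of_normal_left hNp hzp
        obtain ⟨z₁, hz₁N, hz₁1, hz₁c⟩ := exists_central_of_pgroup N (N ⊔ Subgroup.zpowers x₁) hP₁
          le_sup_left hN1 (by rw [Subgroup.normalizer_eq_top]; exact le_top)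
        have hxz : x₁ * z₁ = z₁ * x₁ :=
          hz₁c x₁ (Subgroup.mem_sup_right (Subgroup.mem_zpowers x₁))
        have hgz : g * z₁ = z₁ * g := by
          apply commute_of_mem_nilpotent (Subgroup.centralizer ({x₁} : Set G)) (hCN x₁ hx₁1)
          · rw [Subgroup.mem_centralizer_iff]
            intro w hw
            rw [Set.mem_singleton_iff] at hw
            rw [hw]; exact hgx₁.symm
          · rw [Subgroup.mem_centralizer_iff]
            intro w hw
            rw [Set.mem_singleton_iff] at hw
            rw [hw]; exact hxz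
          · exact coprime_orderOf_of_mem_pgroup hNp hz₁N hgp
        apply commute_of_mem_nilpotent (Subgroup.centralizer ({z₁} : Set G)) (hCN z₁ hz₁1)
        · rw [Subgroup.mem_centralizer_iff]
          intro w hw
          rw [Set.mem_singleton_iff] at hw
          rw [hw]; exact hgz.symm
        · rw [Subgroup.mem_centralizer_iff]
          intro w hw
          rw [Set.mem_singleton_iff] at hw
          rw [hw]; exact hNab z₁ hz₁N n hn
        · exact coprime_orderOf_of_mem_pgroup hNp hn hgp
      obtain ⟨Q, hQ⟩ := (hNp.comap_subtype (K := C)).exists_le_sylow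
      obtain ⟨S, hS⟩ : ∃ S : Subgroup G, S = (Q : Subgroup ↥C).map C.subtype := ⟨_, rfl⟩
      have hSp : IsPGroup p S := by rw [hS]; exact Q.isPGroup'.map _
      have hNS : N ≤ S := by
        intro n hn
        rw [hS]
        exact ⟨⟨n, hNC hn⟩, hQ (Subgroup.mem_subgroupOf.mpr hn), rfl⟩
      obtain ⟨z', hz'N, hz'1, hz'c⟩ := exists_central_of_pgroup N S hSp hNS hN1
        (by rw [Subgroup.normalizer_eq_top]; exact le_top)
      have hCle : C ≤ Subgroup.centralizer ({z'} : Set G) := by
        refine (Cfsg.Agent.Lib.helper15.le_pprime_closure_sup_sylow p C Q).trans (sup_le ?_ ?_)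
        · rw [Subgroup.closure_le]
          rintro g ⟨hgC, hgp⟩
          rw [SetLike.mem_coe, Subgroup.mem_centralizer_iff]
          intro w hw
          rw [Set.mem_singleton_iff] at hw
          rw [hw]
          exact (hpprime g hgC hgp z' hz'N).symm
        · intro s hs
          rw [Subgroup.mem_centralizer_iff]
          intro w hw
          rw [Set.mem_singleton_iff] at hw
          rw [hw]
          exact (hz'c s (by rw [hS]; exact hs)).symm
      have hCnil : Group.IsNilpotent C := isNilpotent_of_le' hCle (hCN z' hz'1)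
      have hEq : Subgroup.centralizer ({(y : G ⧸ N)} : Set (G ⧸ N)) =
          C.map (QuotientGroup.mk' N) := by
        rw [hC, Subgroup.map_comap_eq_self_of_surjective (QuotientGroup.mk'_surjective N)]
      rw [hEq]
      exact isNilpotent_map' _ _ hCnil
    · obtain ⟨x, hx⟩ : ∃ x, x = y ^ (p ^ a) := ⟨_, rfl⟩
      have hxq : x ^ q = 1 := by
        rw [hx, ← pow_mul, mul_comm, pow_mul]
        have := pow_card_eq_one' (G := N) (x := ⟨y ^ q, hyqN⟩)
        rw [ha] at this
        exact congrArg Subtype.val this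
      have hxbar : (x : G ⧸ N) ≠ 1 := by
        rw [hx, QuotientGroup.mk_pow]
        intro h
        have := orderOf_dvd_of_pow_eq_one h
        rw [hyq] at this
        exact hqp ((Nat.prime_dvd_prime_iff_eq hq hp.out).mp (hq.dvd_of_dvd_pow this))
      have hx1 : x ≠ 1 := fun h => hxbar (by rw [h]; rfl)
      have hxord : orderOf x = q := by
        rcases (Nat.dvd_prime hq).mp (orderOf_dvd_of_pow_eq_one hxq) with h | h
        · exact absurd (orderOf_eq_one_iff.mp h) hx1
        · exact h
      have hcop : (Nat.card (Subgroup.zpowers x)).Coprime (Nat.card N) := by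
        rw [Nat.card_zpowers, hxord, ha]
        exact Nat.Coprime.pow_right _ ((Nat.coprime_primes hq hp.out).mpr hqp)
      have hnil := hCN x hx1
      have hle : Subgroup.centralizer ({(y : G ⧸ N)} : Set (G ⧸ N)) ≤
          (Subgroup.centralizer ({x} : Set G)).map (QuotientGroup.mk' N) := by
        intro c hc
        obtain ⟨g, rfl⟩ := QuotientGroup.mk_surjective c
        have hgx : (g : G ⧸ N) * (x : G ⧸ N) = (x : G ⧸ N) * (g : G ⧸ N) := by
          have := Subgroup.mem_centralizer_iff.mp hc _ (Set.mem_singleton _)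
          rw [hx, QuotientGroup.mk_pow]
          exact ((show Commute (y : G ⧸ N) g from this).pow_left _).eq.symm
        obtain ⟨d, hd, hfix⟩ := coset_fix (Subgroup.zpowers x) N
          (by rw [Subgroup.normalizer_eq_top]; exact le_top) hcop
          (Or.inl (isSolvable_of_isMulCommutative _)) g (by
            intro a' ha'
            obtain ⟨k, rfl⟩ := Subgroup.mem_zpowers_iff.mp ha'
            rw [← QuotientGroup.eq_one_iff]
            have hk : (g : G ⧸ N) * (x : G ⧸ N) ^ k = (x : G ⧸ N) ^ k * (g : G ⧸ N) :=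
              ((show Commute (g : G ⧸ N) x from hgx).zpow_right k).eq
            calc ((g⁻¹ * x ^ k * g * (x ^ k)⁻¹ : G) : G ⧸ N)
                = (g : G ⧸ N)⁻¹ * ((x : G ⧸ N) ^ k * (g : G ⧸ N)) * ((x : G ⧸ N) ^ k)⁻¹ := by
                  simp [mul_assoc]
              _ = (g : G ⧸ N)⁻¹ * ((g : G ⧸ N) * (x : G ⧸ N) ^ k) * ((x : G ⧸ N) ^ k)⁻¹ := by
                  rw [hk]
              _ = 1 := by group)
        refine ⟨g * d, ?_, ?_⟩
        · rw [SetLike.mem_coe, Subgroup.mem_centralizer_iff]
          intro z hz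
          rw [Set.mem_singleton_iff] at hz
          rw [hz]
          exact hfix x (Subgroup.mem_zpowers x)
        · show ((g * d : G) : G ⧸ N) = g
          rw [QuotientGroup.mk_mul, (QuotientGroup.eq_one_iff d).mpr hd, mul_one]
      exact isNilpotent_of_le' hle (isNilpotent_map' _ _ hnil)
  intro xbar hx
  obtain ⟨x, rfl⟩ := QuotientGroup.mk_surjective xbar
  have hord : orderOf (x : G ⧸ N) ≠ 1 := by rwa [Ne, orderOf_eq_one_iff]
  obtain ⟨q, hq, hqd⟩ := Nat.exists_prime_and_dvd hord
  have hpos : orderOf (x : G ⧸ N) ≠ 0 := (orderOf_pos _).ne'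
  have h1 := orderOf_pow_orderOf_div hpos hqd
  have h2 := key q (x ^ (orderOf (x : G ⧸ N) / q)) hq (by rw [QuotientGroup.mk_pow]; exact h1)
  refine isNilpotent_of_le' ?_ h2
  intro c hc
  rw [Subgroup.mem_centralizer_iff] at hc ⊢
  intro z hz
  rw [Set.mem_singleton_iff] at hz
  rw [hz]
  have := hc _ (Set.mem_singleton _)
  rw [QuotientGroup.mk_pow]
  exact ((show Commute (x : G ⧸ N) c from this).pow_left _).eq

open Cfsg.Agent.Lib.helper8 in
theorem cn_quot_solvable_aux.{u} (n : ℕ) : ∀ (G : Type u) [Group G] [Finite G], Cfsg.IsCNGroup G →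
    ∀ (H : Subgroup G) [H.Normal], Group.IsSolvable H → Nat.card H ≤ n →
    Cfsg.IsCNGroup (G ⧸ H) := by
  induction n with
  | zero =>
    intro G _ _ _ H _ _ h
    exact absurd h (by have := Nat.card_pos (α := H); omega)
  | succ n ih =>
    intro G _ _ hCN H _ hH hcard
    by_cases hbot : H = ⊥
    · subst hbot
      exact isCNGroup_of_mulEquiv (QuotientGroup.quotientBot (G := G)).symm hCN
    obtain ⟨N, p, hNn, hNH, hN1, hp, hNp, hNab⟩ := exists_normal_abelian_pgroup H hH hbot
    haveI := hNn
    haveI : Fact p.Prime := ⟨hp⟩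
    have hCN₁ := cn_quot_abelian_pgroup hCN N p hNp hN1 hNab
    haveI hnorm : (H.map (QuotientGroup.mk' N)).Normal :=
      Subgroup.Normal.map inferInstance _ (QuotientGroup.mk'_surjective N)
    have hsolv : Group.IsSolvable (H.map (QuotientGroup.mk' N)) :=
      solvable_of_surjective ((QuotientGroup.mk' N).subgroupMap_surjective H)
    have hc : Nat.card (H.map (QuotientGroup.mk' N)) ≤ n := by
      have h1 := Cfsg.Agent.Lib.helper1.card_map_mk_mul_card_of_le N H hNH
      have h2 : 2 ≤ Nat.card N := by
        have : Nontrivial N := (Subgroup.nontrivial_iff_ne_bot _).mpr hN1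
        exact Finite.one_lt_card
      nlinarith [Nat.card_pos (α := H.map (QuotientGroup.mk' N))]
    have := ih (G ⧸ N) hCN₁ (H.map (QuotientGroup.mk' N)) hsolv hc
    exact isCNGroup_of_mulEquiv (QuotientGroup.quotientQuotientEquivQuotient N H hNH) this

/-- Let G be a finite group in which the centralizer of every non-identity element is nilpotent, and H a solvable normal subgroup of G. Then in G/H the centralizer of every non-identity element is nilpotent. -/
theorem result {G : Type*} [Group G] [Finite G] (hCN : Cfsg.IsCNGroup G) (H : Subgroup G) [H.Normal] (hH : Group.IsSolvable H) :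
    Cfsg.IsCNGroup (G ⧸ H) := by

    exact cn_quot_solvable_aux _ G hCN H hH le_rfl

end Cfsg.Agent.S1473
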