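import Cfsg.Statements.S1474

import Cfsg.Agent.Lib.helper8.FittingHall
import Cfsg.Agent.Lib.helper8.CoprimeSZ
import Cfsg.Agent.Lib.helper1.FrobStruct
set_option autoImplicit false
open Cfsg

namespace Cfsg.Agent.S1474

open Cfsg.Agent.Lib.helper8

theorem cn_free_action.{u} {G : Type u} [Group G] [Finite G] (hCN : Cfsg.IsCNGroup G)
    (E : Subgroup G) (hc : Subgroup.IsComplement' (Cfsg.fittingHall G) E) :
    ∀ e ∈ E, e ≠ 1 → ∀ h ∈ Cfsg.fittingHall G, h * e = e * h → h = 1 := by
  intro e heE he1 h hhH hcomm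
  by_contra hh1
  have hHnil := fittingHall_isNilpotent G
  have hcop := fittingHall_coprime G
  have hidx : (Cfsg.fittingHall G).index = Nat.card E := hc.symm.index_eq_card
  rw [hidx] at hcop
  have hcompl := isCompl2_of_isComplement' hc
  have hord : orderOf e ≠ 1 := by rw [Ne, orderOf_eq_one_iff]; exact he1
  obtain ⟨q, hq, hqd⟩ := Nat.exists_prime_and_dvd hord
  haveI : Fact q.Prime := ⟨hq⟩
  obtain ⟨e', he'def⟩ : ∃ e', e' = e ^ (orderOf e / q) := ⟨_, rfl⟩
  have he'ord : orderOf e' = q := by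
    rw [he'def]; exact orderOf_pow_orderOf_div (orderOf_pos e).ne' hqd
  have he'E : e' ∈ E := by rw [he'def]; exact E.pow_mem heE _
  have he'1 : e' ≠ 1 := by
    intro h1; rw [h1, orderOf_one] at he'ord; exact hq.ne_one he'ord.symm
  have he'h : h * e' = e' * h := by rw [he'def]; exact (Commute.pow_right hcomm _)
  have hqE : q ∣ Nat.card E := by
    have := Subgroup.orderOf_dvd_natCard E he'E
    rwa [he'ord] at this
  have hqH : ¬ q ∣ Nat.card (Cfsg.fittingHall G) := by
    intro hd
    exact Nat.Prime.not_coprime_iff_dvd.mpr ⟨q, hq, hd, hqE⟩ hcop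
  have hcopx : ∀ x ∈ Cfsg.fittingHall G, (orderOf x).Coprime q := by
    intro x hx
    have h1 := Subgroup.orderOf_dvd_natCard _ hx
    exact ((Nat.Prime.coprime_iff_not_dvd hq).mpr (fun hd => hqH (dvd_trans hd h1))).symm
  obtain ⟨a, haH, ha1, hacen⟩ : ∃ a ∈ Cfsg.fittingHall G, a ≠ 1 ∧
      ∀ x ∈ Cfsg.fittingHall G, x * a = a * x := by
    haveI := hHnil
    have hne : (⊤ : Subgroup (Cfsg.fittingHall G)) ≠ ⊥ := by
      intro hb
      apply hh1
      have : (⟨h, hhH⟩ : Cfsg.fittingHall G) ∈ (⊤ : Subgroup (Cfsg.fittingHall G)) :=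
        Subgroup.mem_top _
      rw [hb, Subgroup.mem_bot] at this
      exact congrArg Subtype.val this
    have h := Cfsg.Agent.Lib.helper7.nilpotent_normal_inf_center_ne_bot
      (⊤ : Subgroup (Cfsg.fittingHall G)) hne
    obtain ⟨⟨w, hw⟩, hw1⟩ := (Subgroup.ne_bot_iff_exists_ne_one).mp h
    refine ⟨(w : G), w.2, ?_, ?_⟩
    · intro h1; apply hw1; apply Subtype.ext; apply Subtype.ext; exact h1
    · intro s hs
      have := Subgroup.mem_center_iff.mp hw.2 ⟨s, hs⟩
      exact congrArg Subtype.val this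
  have hCh := hCN h hh1
  have h3 : e' * a = a * e' := by
    apply commute_of_mem_nilpotent _ hCh
    · rw [Subgroup.mem_centralizer_iff]; intro y hy; rw [Set.mem_singleton_iff] at hy
      rw [hy]; exact he'h
    · rw [Subgroup.mem_centralizer_iff]; intro y hy; rw [Set.mem_singleton_iff] at hy
      rw [hy]; exact hacen h hhH
    · rw [he'ord]; exact (hcopx a haH).symm
  have hCa := hCN a ha1
  have h4 : ∀ x ∈ Cfsg.fittingHall G, e' * x = x * e' := by
    intro x hx
    apply commute_of_mem_nilpotent _ hCa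
    · rw [Subgroup.mem_centralizer_iff]; intro y hy; rw [Set.mem_singleton_iff] at hy
      rw [hy]; exact h3.symm
    · rw [Subgroup.mem_centralizer_iff]; intro y hy; rw [Set.mem_singleton_iff] at hy
      rw [hy]; exact (hacen x hx).symm
    · rw [he'ord]; exact (hcopx x hx).symm
  have hzp : IsPGroup q (Subgroup.zpowers e') := by
    apply IsPGroup.of_card (n := 1)
    rw [Nat.card_zpowers, he'ord, pow_one]
  obtain ⟨Q, hQ⟩ := hzp.exists_le_sylow
  have he'Q : e' ∈ (Q : Subgroup G) := hQ (Subgroup.mem_zpowers e')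
  have hQ1 : (Q : Subgroup G) ≠ ⊥ := by
    intro hb; rw [hb, Subgroup.mem_bot] at he'Q; exact he'1 he'Q
  obtain ⟨y, hyQ, hy1, hycen⟩ := exists_central_of_pgroup (Q : Subgroup G) (Q : Subgroup G)
    Q.isPGroup' le_rfl hQ1 Subgroup.le_normalizer
  have hcopQ : ∀ s ∈ (Q : Subgroup G), ∀ x ∈ Cfsg.fittingHall G,
      (orderOf s).Coprime (orderOf x) := by
    intro s hs x hx
    obtain ⟨k, hk⟩ := exists_orderOf_dvd_pow_of_mem Q.isPGroup' hs
    exact Nat.Coprime.coprime_dvd_left hk (Nat.Coprime.pow_left k (hcopx x hx).symm)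
  have hCe := hCN e' he'1
  have h6 : ∀ x ∈ Cfsg.fittingHall G, y * x = x * y := by
    intro x hx
    apply commute_of_mem_nilpotent _ hCe
    · rw [Subgroup.mem_centralizer_iff]; intro w hw; rw [Set.mem_singleton_iff] at hw
      rw [hw]; exact hycen e' he'Q
    · rw [Subgroup.mem_centralizer_iff]; intro w hw; rw [Set.mem_singleton_iff] at hw
      rw [hw]; exact h4 x hx
    · exact hcopQ y hyQ x hx
  have hCy := hCN y hy1
  have h7 : ∀ s ∈ (Q : Subgroup G), ∀ x ∈ Cfsg.fittingHall G, s * x = x * s := by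
    intro s hs x hx
    apply commute_of_mem_nilpotent _ hCy
    · rw [Subgroup.mem_centralizer_iff]; intro w hw; rw [Set.mem_singleton_iff] at hw
      rw [hw]; exact (hycen s hs).symm
    · rw [Subgroup.mem_centralizer_iff]; intro w hw; rw [Set.mem_singleton_iff] at hw
      rw [hw]; exact h6 x hx
    · exact hcopQ s hs x hx
  have hQC : (Q : Subgroup G) ≤ Subgroup.centralizer (Cfsg.fittingHall G : Set G) := by
    intro s hs
    rw [Subgroup.mem_centralizer_iff]
    intro x hx
    exact (h7 s hs x hx).symm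
  have hCle : Subgroup.centralizer (Cfsg.fittingHall G : Set G) ≤
      Subgroup.centralizer ({a} : Set G) :=
    Subgroup.centralizer_le (Set.singleton_subset_iff.mpr haH)
  have hCnil : Group.IsNilpotent (Subgroup.centralizer (Cfsg.fittingHall G : Set G)) :=
    isNilpotent_of_le' hCle hCa
  have hQn := sylow_normal_of_le_nilpotent_normal Q _ hCnil hQC
  have hQH := sylow_le_fittingHall Q hQn
  exact he'1 (hcompl.1 e' (hQH he'Q) he'E)

/-- Let G be a finite group in which every non-identity element has nilpotent centralizer, not itself nilpotent, and having a nontrivial normal Sylow p-subgroup for some prime p. Let H be the largest normal nilpotent Hall subgroup of G. Then H is a nontrivial proper normal subgroup with a complement E that is a Frobenius complement in G (no non-identity element of E centralizes a non-identity element of H), and G/H is nilpotent. -/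
theorem result {G : Type*} [Group G] [Finite G] (hCN : Cfsg.IsCNGroup G) (hnn : ¬ Group.IsNilpotent G) (p : ℕ) [Fact p.Prime] (P : Sylow p G)
    (hP1 : (P : Subgroup G) ≠ ⊥) (hPn : (P : Subgroup G).Normal) :
    Cfsg.fittingHall G ≠ ⊥ ∧ Cfsg.fittingHall G ≠ ⊤ ∧
      (∃ E : Subgroup G, Subgroup.IsComplement' (Cfsg.fittingHall G) E ∧ Cfsg.IsFrobeniusComplement E ∧
        ∀ e ∈ E, e ≠ 1 → Cfsg.fittingHall G ⊓ Subgroup.centralizer ({e} : Set G) = ⊥) ∧
      Group.IsNilpotent (G ⧸ Cfsg.fittingHall G) := by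

    classical
    have hHnil := fittingHall_isNilpotent G
    have hPH := sylow_le_fittingHall P hPn
    have hH1 : Cfsg.fittingHall G ≠ ⊥ := by
      intro hb; rw [hb, le_bot_iff] at hPH; exact hP1 hPH
    have hHT : Cfsg.fittingHall G ≠ ⊤ := by
      intro ht
      apply hnn
      haveI := hHnil
      refine Group.nilpotent_of_surjective (Cfsg.fittingHall G).subtype ?_
      intro g
      exact ⟨⟨g, by rw [ht]; exact Subgroup.mem_top g⟩, rfl⟩
    obtain ⟨E, hc⟩ := Subgroup.exists_right_complement'_of_coprime (fittingHall_coprime G)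
    have hfree := cn_free_action hCN E hc
    have hcompl := isCompl2_of_isComplement' hc
    have hfpf : ∀ e ∈ E, e ≠ 1 →
        Cfsg.fittingHall G ⊓ Subgroup.centralizer ({e} : Set G) = ⊥ := by
      intro e he he1
      rw [eq_bot_iff]
      intro x hx
      rw [Subgroup.mem_bot]
      have h2 := Subgroup.mem_centralizer_iff.mp hx.2 e (Set.mem_singleton e)
      exact hfree e he he1 x hx.1 h2.symm
    have hE1 : E ≠ ⊥ := by
      intro hb
      apply hHT
      rw [eq_top_iff]
      intro g _
      obtain ⟨n, hn, k, hk, rfl⟩ := hcompl.2 g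
      rw [hb, Subgroup.mem_bot] at hk
      rw [hk, mul_one]; exact hn
    have hET : E ≠ ⊤ := by
      intro ht
      apply hH1
      rw [eq_bot_iff]
      intro x hx
      rw [Subgroup.mem_bot]
      exact hcompl.1 x hx (by rw [ht]; exact Subgroup.mem_top x)
    refine ⟨hH1, hHT, ⟨E, hc, ⟨hE1, hET, ?_⟩, hfpf⟩, ?_⟩
    · intro g hg
      rw [eq_bot_iff]
      intro x hx
      rw [Subgroup.mem_bot]
      by_contra hx1
      have hxE : x ∈ E := hx.1
      have hxg : g⁻¹ * x * g ∈ E := (Cfsg.Agent.Lib.helper1.mem_conj_smul g x E).mp hx.2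
      obtain ⟨n, hn, k, hk, hgnk⟩ := hcompl.2 g
      have h1 : n⁻¹ * x * n ∈ E := by
        have : n⁻¹ * x * n = k * (g⁻¹ * x * g) * k⁻¹ := by rw [hgnk]; group
        rw [this]
        exact E.mul_mem (E.mul_mem hk hxg) (E.inv_mem hk)
      have h2 : x⁻¹ * (n⁻¹ * x * n) ∈ E := E.mul_mem (E.inv_mem hxE) h1
      have h3 : x⁻¹ * (n⁻¹ * x * n) ∈ Cfsg.fittingHall G := by
        have hnorm : (Cfsg.fittingHall G).Normal := inferInstance
        have h4 : x⁻¹ * n⁻¹ * x⁻¹⁻¹ ∈ Cfsg.fittingHall G := hnorm.conj_mem _ (inv_mem hn) x⁻¹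
        have : x⁻¹ * (n⁻¹ * x * n) = (x⁻¹ * n⁻¹ * x⁻¹⁻¹) * n := by group
        rw [this]
        exact mul_mem h4 hn
      have h5 := hcompl.1 _ h3 h2
      have h6 : n * x = x * n := by
        have : x * n = n * x * (x⁻¹ * (n⁻¹ * x * n)) := by group
        rw [h5, mul_one] at this
        exact this.symm
      have hn1 := hfree x hxE hx1 n hn h6
      apply hg
      rw [hgnk, hn1, one_mul]
      exact hk
    · have hcen := Cfsg.Agent.Lib.helper1.frob_center_ne_bot (Cfsg.fittingHall G) E hc hH1 hE1 hfpf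
      obtain ⟨⟨z, hz⟩, hz1⟩ := (Subgroup.ne_bot_iff_exists_ne_one).mp hcen
      have hzG : (z : G) ≠ 1 := by
        intro h1; apply hz1; apply Subtype.ext; apply Subtype.ext; exact h1
      have hEle : E ≤ Subgroup.centralizer ({(z : G)} : Set G) := by
        intro s hs
        rw [Subgroup.mem_centralizer_iff]
        intro w hw
        rw [Set.mem_singleton_iff] at hw
        rw [hw]
        have := Subgroup.mem_center_iff.mp hz ⟨s, hs⟩
        exact (congrArg Subtype.val this).symm
      have hEnil : Group.IsNilpotent E := isNilpotent_of_le' hEle (hCN _ hzG)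
      haveI := hEnil
      refine Group.nilpotent_of_surjective
        ((QuotientGroup.mk' (Cfsg.fittingHall G)).comp E.subtype) ?_
      intro q
      obtain ⟨g, rfl⟩ := QuotientGroup.mk_surjective q
      obtain ⟨n, hn, k, hk, rfl⟩ := hcompl.2 g
      refine ⟨⟨k, hk⟩, ?_⟩
      change (QuotientGroup.mk k : G ⧸ Cfsg.fittingHall G) = QuotientGroup.mk (n * k)
      rw [QuotientGroup.eq]
      have hnorm : (Cfsg.fittingHall G).Normal := inferInstance
      have : k⁻¹ * (n * k) = k⁻¹ * n * k⁻¹⁻¹ := by group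
      rw [this]
      exact hnorm.conj_mem n hn k⁻¹

end Cfsg.Agent.S1474
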