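import Cfsg.Statements.S1477

import Cfsg.Agent.Lib.helper8.CN
set_option autoImplicit false
open Cfsg

namespace Cfsg.Agent.S1477

open Cfsg.Agent.Lib.helper8

theorem centralizer_eq_of_central {G : Type*} [Group G] [Finite G] (hCN : Cfsg.IsCNGroup G)
    (H : Subgroup G) (hmax : ∀ L : Subgroup G, Group.IsNilpotent L → H ≤ L → L = H)
    {a : G} (ha1 : a ≠ 1) (hcomm : ∀ h ∈ H, h * a = a * h) :
    Subgroup.centralizer ({a} : Set G) = H := by
  apply hmax _ (hCN a ha1)
  intro h hh
  rw [Subgroup.mem_centralizer_iff]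
  intro w hw
  rw [Set.mem_singleton_iff] at hw
  rw [hw]
  exact (hcomm h hh).symm

theorem zc {G : Type*} [Group G] [Finite G] (hCN : Cfsg.IsCNGroup G)
    (H : Subgroup G) (hH : Group.IsNilpotent H)
    (hmax : ∀ L : Subgroup G, Group.IsNilpotent L → H ≤ L → L = H)
    (p : ℕ) [Fact p.Prime] (Q : Sylow p ↥H) {y : G} (hyH : y ∈ H) (hy1 : y ≠ 1)
    (hyp : ∃ m, orderOf y ∣ p ^ m)
    (hyQ : ∀ s ∈ (Q : Subgroup ↥H).map H.subtype, s * y = y * s) :
    Subgroup.centralizer ({y} : Set G) = H := by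
  apply centralizer_eq_of_central hCN H hmax hy1
  have hle : H ≤ Subgroup.centralizer ({y} : Set G) := by
    refine (Cfsg.Agent.Lib.helper15.le_pprime_closure_sup_sylow p H Q).trans (sup_le ?_ ?_)
    · rw [Subgroup.closure_le]
      rintro g ⟨hgH, hgp⟩
      rw [SetLike.mem_coe, Subgroup.mem_centralizer_iff]
      intro w hw
      rw [Set.mem_singleton_iff] at hw
      rw [hw]
      obtain ⟨m, hm⟩ := hyp
      exact (commute_of_mem_nilpotent H hH hgH hyH
        (Nat.Coprime.coprime_dvd_right hm (Nat.Coprime.pow_right m hgp))).symm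
    · intro s hs
      rw [Subgroup.mem_centralizer_iff]
      intro w hw
      rw [Set.mem_singleton_iff] at hw
      rw [hw]
      exact (hyQ s hs).symm
  intro h hh
  have := Subgroup.mem_centralizer_iff.mp (hle hh) y (Set.mem_singleton y)
  exact this.symm

theorem exists_central_elt {G : Type*} [Group G] [Finite G] (hCN : Cfsg.IsCNGroup G)
    (H : Subgroup G) (hH : Group.IsNilpotent H)
    (hmax : ∀ L : Subgroup G, Group.IsNilpotent L → H ≤ L → L = H)
    (p : ℕ) [Fact p.Prime] (hp : p ∣ Nat.card H) :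
    ∃ a ∈ H, a ≠ 1 ∧ (∃ m, orderOf a ∣ p ^ m) ∧ Subgroup.centralizer ({a} : Set G) = H ∧
      ∃ S : Sylow p G, (S : Subgroup G) ≤ H := by
  obtain ⟨Q⟩ : Nonempty (Sylow p ↥H) := inferInstance
  obtain ⟨P₀, hP₀⟩ : ∃ P₀ : Subgroup G, P₀ = (Q : Subgroup ↥H).map H.subtype := ⟨_, rfl⟩
  have hP₀p : IsPGroup p P₀ := by rw [hP₀]; exact Q.isPGroup'.map _
  have hP₀H : P₀ ≤ H := by rw [hP₀]; exact Subgroup.map_subtype_le _
  have hP₀1 : P₀ ≠ ⊥ := by
    have h1 : (Q : Subgroup ↥H) ≠ ⊥ := Sylow.ne_bot_of_dvd_card Q hp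
    intro h
    apply h1
    rw [hP₀] at h
    exact (Subgroup.map_eq_bot_iff_of_injective _ H.subtype_injective).mp h
  obtain ⟨a, haP, ha1, hac⟩ := exists_central_of_pgroup P₀ P₀ hP₀p le_rfl hP₀1
    Subgroup.le_normalizer
  have hap := exists_orderOf_dvd_pow_of_mem hP₀p haP
  have hCa := zc hCN H hH hmax p Q (hP₀H haP) ha1 hap (fun s hs => hac s (by rw [hP₀]; exact hs))
  obtain ⟨S, hS⟩ := hP₀p.exists_le_sylow
  have hS1 : (S : Subgroup G) ≠ ⊥ := fun h => hP₀1 (le_bot_iff.mp (h ▸ hS))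
  obtain ⟨z, hzS, hz1, hzc⟩ := exists_central_of_pgroup (S : Subgroup G) (S : Subgroup G)
    S.isPGroup' le_rfl hS1 Subgroup.le_normalizer
  have hza : a * z = z * a := hzc a (hS haP)
  have hzH : z ∈ H := by
    rw [← hCa, Subgroup.mem_centralizer_iff]
    intro w hw
    rw [Set.mem_singleton_iff] at hw
    rw [hw]; exact hza
  have hCz := zc hCN H hH hmax p Q hzH hz1 (exists_orderOf_dvd_pow_of_mem S.isPGroup' hzS)
    (fun s hs => hzc s (hS (by rw [hP₀]; exact hs)))
  refine ⟨a, hP₀H haP, ha1, hap, hCa, S, ?_⟩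
  intro s hs
  rw [← hCz, Subgroup.mem_centralizer_iff]
  intro w hw
  rw [Set.mem_singleton_iff] at hw
  rw [hw]
  exact (hzc s hs).symm

theorem cn_part1 {G : Type*} [Group G] [Finite G] (hCN : Cfsg.IsCNGroup G)
    (H : Subgroup G) (hH : Group.IsNilpotent H)
    (hmax : ∀ L : Subgroup G, Group.IsNilpotent L → H ≤ L → L = H) :
    (Nat.card H).Coprime H.index := by
  apply Nat.coprime_of_dvd
  intro p hp hpH hpI
  haveI : Fact p.Prime := ⟨hp⟩
  obtain ⟨a, -, -, -, -, S, hS⟩ := exists_central_elt hCN H hH hmax p hpH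
  have h1 : p ^ (Nat.card G).factorization p ∣ Nat.card H := by
    rw [← S.card_eq_multiplicity]; exact Subgroup.card_dvd_of_le hS
  have h2 : p ^ ((Nat.card G).factorization p + 1) ∣ Nat.card G := by
    have h3 : p ^ ((Nat.card G).factorization p) * p ∣ Nat.card H * H.index :=
      mul_dvd_mul h1 hpI
    rw [H.card_mul_index] at h3
    rw [pow_succ]; exact h3
  exact Nat.pow_succ_factorization_not_dvd Nat.card_pos.ne' hp h2

theorem centralizer_le_of_not_primePow {G : Type*} [Group G] [Finite G] (hCN : Cfsg.IsCNGroup G)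
    (H : Subgroup G) (hH : Group.IsNilpotent H)
    (hmax : ∀ L : Subgroup G, Group.IsNilpotent L → H ≤ L → L = H)
    (hnpp : ¬ IsPrimePow (Nat.card H)) (h1 : Nat.card H ≠ 1) {x : G} (hx : x ∈ H) (hx1 : x ≠ 1) :
    Subgroup.centralizer ({x} : Set G) ≤ H := by
  apply Cfsg.Agent.Lib.helper15.le_of_forall_sylow
  intro q hq
  obtain ⟨Q⟩ : Nonempty (Sylow q ↥(Subgroup.centralizer ({x} : Set G))) := inferInstance
  refine ⟨Q, ?_⟩
  obtain ⟨p, hp, hpH, hpq⟩ : ∃ p, p.Prime ∧ p ∣ Nat.card H ∧ p ≠ q := by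
    by_contra hcon
    push_neg at hcon
    apply hnpp
    have := Nat.eq_prime_pow_of_unique_prime_dvd (p := q) Nat.card_pos.ne'
      (fun {d} hd hdn => hcon d hd hdn)
    rw [this]
    apply IsPrimePow.pow (Nat.Prime.isPrimePow hq.out)
    intro h0
    apply h1
    rw [this, h0, pow_zero]
  haveI : Fact p.Prime := ⟨hp⟩
  obtain ⟨a, haH, ha1, ⟨m, hm⟩, hCa, -⟩ := exists_central_elt hCN H hH hmax p hpH
  intro c hc
  obtain ⟨c', hc'Q, rfl⟩ := hc
  obtain ⟨k, hk⟩ := exists_orderOf_dvd_pow_of_mem Q.isPGroup' hc'Q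
  have hk' : orderOf (c' : G) ∣ q ^ k := by rwa [Subgroup.orderOf_coe]
  have haC : a ∈ Subgroup.centralizer ({x} : Set G) := by
    rw [Subgroup.mem_centralizer_iff]
    intro w hw
    rw [Set.mem_singleton_iff] at hw
    rw [hw]
    have : x ∈ Subgroup.centralizer ({a} : Set G) := by rw [hCa]; exact hx
    exact (Subgroup.mem_centralizer_iff.mp this a (Set.mem_singleton a)).symm
  have hcomm := commute_of_mem_nilpotent (Subgroup.centralizer ({x} : Set G)) (hCN x hx1) c'.2 haC
    (Nat.Coprime.coprime_dvd_left hk' (Nat.Coprime.coprime_dvd_right hm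
      (Nat.Coprime.pow _ _ ((Nat.coprime_primes hq.out hp).mpr (Ne.symm hpq)))))
  show (c' : G) ∈ H
  rw [← hCa, Subgroup.mem_centralizer_iff]
  intro w hw
  rw [Set.mem_singleton_iff] at hw
  rw [hw]
  exact hcomm.symm

theorem cn_part2 {G : Type*} [Group G] [Finite G] (hCN : Cfsg.IsCNGroup G)
    (H : Subgroup G) (hH : Group.IsNilpotent H)
    (hmax : ∀ L : Subgroup G, Group.IsNilpotent L → H ≤ L → L = H)
    (hnpp : ¬ IsPrimePow (Nat.card H)) (h1 : Nat.card H ≠ 1) (g : G)
    (hg : H.map (MulAut.conj g).toMonoidHom ≠ H) :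
    H ⊓ H.map (MulAut.conj g).toMonoidHom = ⊥ := by
  by_contra hne
  obtain ⟨⟨x, hx⟩, hx1⟩ := (Subgroup.ne_bot_iff_exists_ne_one).mp hne
  have hx1' : x ≠ 1 := fun h => hx1 (Subtype.ext h)
  obtain ⟨hxH, hxHg⟩ := Subgroup.mem_inf.mp hx
  obtain ⟨y, hyH, hyx⟩ := Subgroup.mem_map.mp hxHg
  have hyx' : g * y * g⁻¹ = x := by simpa using hyx
  have hy1 : y ≠ 1 := by
    rintro rfl
    apply hx1'
    rw [← hyx']
    group
  have hCy := centralizer_le_of_not_primePow hCN H hH hmax hnpp h1 hyH hy1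
  obtain ⟨p, hp, hpH⟩ := Nat.exists_prime_and_dvd h1
  haveI : Fact p.Prime := ⟨hp⟩
  obtain ⟨a, haH, ha1, -, hCa, -⟩ := exists_central_elt hCN H hH hmax p hpH
  have hax : a * x = x * a := by
    have : x ∈ Subgroup.centralizer ({a} : Set G) := by rw [hCa]; exact hxH
    exact Subgroup.mem_centralizer_iff.mp this a (Set.mem_singleton a)
  have ha'y : y * (g⁻¹ * a * g) = (g⁻¹ * a * g) * y := by
    have e1 : y = g⁻¹ * x * g := by rw [← hyx']; group
    rw [e1]
    calc g⁻¹ * x * g * (g⁻¹ * a * g) = g⁻¹ * (x * a) * g := by group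
      _ = g⁻¹ * (a * x) * g := by rw [hax]
      _ = g⁻¹ * a * g * (g⁻¹ * x * g) := by group
  have ha'H : g⁻¹ * a * g ∈ H := hCy (by
    rw [Subgroup.mem_centralizer_iff]
    intro w hw
    rw [Set.mem_singleton_iff] at hw
    rw [hw]; exact ha'y)
  have ha'1 : g⁻¹ * a * g ≠ 1 := by
    intro h
    apply ha1
    have : a = g * (g⁻¹ * a * g) * g⁻¹ := by group
    rw [this, h]
    group
  have hCa' := centralizer_le_of_not_primePow hCN H hH hmax hnpp h1 ha'H ha'1
  have hle : H ≤ H.map (MulAut.conj g).toMonoidHom := by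
    intro h hh
    have hha : a * h = h * a := by
      have : h ∈ Subgroup.centralizer ({a} : Set G) := by rw [hCa]; exact hh
      exact Subgroup.mem_centralizer_iff.mp this a (Set.mem_singleton a)
    have hmem : g⁻¹ * h * g ∈ H := hCa' (by
      rw [Subgroup.mem_centralizer_iff]
      intro w hw
      rw [Set.mem_singleton_iff] at hw
      rw [hw]
      calc g⁻¹ * a * g * (g⁻¹ * h * g) = g⁻¹ * (a * h) * g := by group
        _ = g⁻¹ * (h * a) * g := by rw [hha]
        _ = g⁻¹ * h * g * (g⁻¹ * a * g) := by group)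
    refine Subgroup.mem_map.mpr ⟨g⁻¹ * h * g, hmem, ?_⟩
    simp only [MulEquiv.coe_toMonoidHom, MulAut.conj_apply]
    group
  apply hg
  exact (Subgroup.eq_of_le_of_card_ge hle (by
    rw [Subgroup.card_map_of_injective (by exact (MulAut.conj g).injective)])).symm

theorem cn_part3 {G : Type*} [Group G] [Finite G] (hCN : Cfsg.IsCNGroup G)
    (H : Subgroup G) (hH : Group.IsNilpotent H)
    (hmax : ∀ L : Subgroup G, Group.IsNilpotent L → H ≤ L → L = H)
    (hTI : ∀ g : G, H.map (MulAut.conj g).toMonoidHom ≠ H →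
      H ⊓ H.map (MulAut.conj g).toMonoidHom = ⊥) {x : G} (hx : x ∈ H) (hx1 : x ≠ 1) :
    Subgroup.centralizer ({x} : Set G) ≤ H := by
  have hcard1 : Nat.card H ≠ 1 := by
    intro h
    have : H = ⊥ := Subgroup.card_eq_one.mp h
    rw [this, Subgroup.mem_bot] at hx
    exact hx1 hx
  by_cases hpp : IsPrimePow (Nat.card H)
  · obtain ⟨q, k, hq, hk, hqk⟩ := (isPrimePow_nat_iff _).mp hpp
    haveI : Fact q.Prime := ⟨hq⟩
    have hHq : IsPGroup q H := IsPGroup.of_card hqk.symm
    have hqH : q ∣ Nat.card H := by rw [← hqk]; exact dvd_pow_self q hk.ne'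
    obtain ⟨a, haH, ha1, ⟨m, hm⟩, hCa, S, hS⟩ := exists_central_elt hCN H hH hmax q hqH
    have hHS : H = (S : Subgroup G) := S.is_maximal' hHq hS
    have hCN' : Subgroup.centralizer ({x} : Set G) ≤ Subgroup.normalizer (H : Set G) := by
      intro c hc
      have hcx : c * x * c⁻¹ = x := by
        have := Subgroup.mem_centralizer_iff.mp hc x (Set.mem_singleton x)
        rw [← this]; group
      have hmap : H.map (MulAut.conj c).toMonoidHom = H := by
        by_contra hne
        have h0 := hTI c hne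
        have hxmem : x ∈ H ⊓ H.map (MulAut.conj c).toMonoidHom := by
          refine Subgroup.mem_inf.mpr ⟨hx, Subgroup.mem_map.mpr ⟨x, hx, ?_⟩⟩
          simp only [MulEquiv.coe_toMonoidHom, MulAut.conj_apply]
          exact hcx
        rw [h0, Subgroup.mem_bot] at hxmem
        exact hx1 hxmem
      rw [Subgroup.mem_normalizer_iff]
      intro h
      constructor
      · intro hh
        have : c * h * c⁻¹ ∈ H.map (MulAut.conj c).toMonoidHom :=
          Subgroup.mem_map.mpr ⟨h, hh, by simp⟩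
        rwa [hmap] at this
      · intro hh
        rw [← hmap] at hh
        obtain ⟨h', hh', he⟩ := Subgroup.mem_map.mp hh
        have he' : c * h' * c⁻¹ = c * h * c⁻¹ := by simpa using he
        have : h' = h := by
          have e2 : h' = c⁻¹ * (c * h' * c⁻¹) * c := by group
          rw [e2, he']; group
        rw [← this]; exact hh'
    obtain ⟨Q⟩ : Nonempty (Sylow q ↥(Subgroup.centralizer ({x} : Set G))) := inferInstance
    refine (Cfsg.Agent.Lib.helper15.le_pprime_closure_sup_sylow q _ Q).trans (sup_le ?_ ?_)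
    · rw [Subgroup.closure_le]
      rintro g ⟨hgC, hgq⟩
      have haC : a ∈ Subgroup.centralizer ({x} : Set G) := by
        rw [Subgroup.mem_centralizer_iff]
        intro w hw
        rw [Set.mem_singleton_iff] at hw
        rw [hw]
        have : x ∈ Subgroup.centralizer ({a} : Set G) := by rw [hCa]; exact hx
        exact (Subgroup.mem_centralizer_iff.mp this a (Set.mem_singleton a)).symm
      have hcomm := commute_of_mem_nilpotent _ (hCN x hx1) hgC haC
        (Nat.Coprime.coprime_dvd_right hm (Nat.Coprime.pow_right m hgq))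
      show g ∈ H
      rw [← hCa, Subgroup.mem_centralizer_iff]
      intro w hw
      rw [Set.mem_singleton_iff] at hw
      rw [hw]
      exact hcomm.symm
    · intro s hs
      obtain ⟨s', hs'Q, rfl⟩ := hs
      have hsN : (s' : G) ∈ Subgroup.normalizer (H : Set G) := hCN' s'.2
      have hzp : IsPGroup q (Subgroup.zpowers (s' : G)) := by
        obtain ⟨k', hk'⟩ := exists_orderOf_dvd_pow_of_mem Q.isPGroup' hs'Q
        obtain ⟨j, -, hj⟩ := (Nat.dvd_prime_pow hq).mp hk'
        exact IsPGroup.of_card (n := j) (by rw [Nat.card_zpowers, Subgroup.orderOf_coe, hj])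
      have hsup : IsPGroup q (H ⊔ Subgroup.zpowers (s' : G) : Subgroup G) :=
        IsPGroup.to_sup_of_normal_left' hHq hzp (Subgroup.zpowers_le.mpr hsN)
      have heq : H ⊔ Subgroup.zpowers (s' : G) = (S : Subgroup G) :=
        S.is_maximal' hsup (hHS ▸ le_sup_left)
      show (s' : G) ∈ H
      rw [hHS, ← heq]
      exact Subgroup.mem_sup_right (Subgroup.mem_zpowers _)
  · exact centralizer_le_of_not_primePow hCN H hH hmax hpp hcard1 hx hx1

/-- Let G be a finite group in which every non-identity element has nilpotent centralizer, and H a nilpotent subgroup not properly contained in any nilpotent subgroup. Then the order of H is coprime to its index; if the order of H is not a prime power then H ∩ gHg⁻¹ = 1 whenever gHg⁻¹ ≠ H; and if H ∩ gHg⁻¹ = 1 whenever gHg⁻¹ ≠ H, then C_G(x) ≤ H for every non-identity x ∈ H. -/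
theorem result {G : Type*} [Group G] [Finite G] (hCN : Cfsg.IsCNGroup G) (H : Subgroup G) (hH : Group.IsNilpotent H)
    (hmax : ∀ L : Subgroup G, Group.IsNilpotent L → H ≤ L → L = H) :
    (Nat.card H).Coprime H.index ∧
      (¬ IsPrimePow (Nat.card H) → Nat.card H ≠ 1 → ∀ g : G, H.map (MulAut.conj g).toMonoidHom ≠ H → H ⊓ H.map (MulAut.conj g).toMonoidHom = ⊥) ∧
      ((∀ g : G, H.map (MulAut.conj g).toMonoidHom ≠ H → H ⊓ H.map (MulAut.conj g).toMonoidHom = ⊥) → ∀ x ∈ H, x ≠ 1 → Subgroup.centralizer ({x} : Set G) ≤ H) := by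

    exact ⟨cn_part1 hCN H hH hmax, fun hnpp h1 g hg => cn_part2 hCN H hH hmax hnpp h1 g hg,
      fun hTI x hx hx1 => cn_part3 hCN H hH hmax hTI hx hx1⟩

end Cfsg.Agent.S1477
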