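import Cfsg.Statements.S1485

import Cfsg.Agent.Lib.helper24.CharNormal
set_option autoImplicit false
open Cfsg

namespace Cfsg.Agent.S1485

open Cfsg.Agent.Lib.helper24 in
theorem conjFun_eq_iff {G : Type*} [Group G] (H : Subgroup G) [hN : H.Normal] (θ : H → ℂ)
    (a g₀ : G) : Cfsg.Agent.Lib.helper24.conjFun H θ a = Cfsg.Agent.Lib.helper24.conjFun H θ g₀ ↔
      Cfsg.Agent.Lib.helper24.conjFun H θ (a * g₀⁻¹) = θ := by
  constructor
  · intro h
    rw [conjFun_mul, h, ← conjFun_mul, mul_inv_cancel, conjFun_one]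
  · intro h
    have : a = (a * g₀⁻¹) * g₀ := by group
    rw [this, conjFun_mul, h]

open Cfsg.Agent.Lib.helper24 in
theorem card_fiber_conjFun {G : Type*} [Group G] [Fintype G] (H : Subgroup G) [hN : H.Normal]
    (θ : H → ℂ) (g₀ : G) [DecidableEq (H → ℂ)] :
    (Finset.univ.filter (fun a : G => Cfsg.Agent.Lib.helper24.conjFun H θ a =
      Cfsg.Agent.Lib.helper24.conjFun H θ g₀)).card =
      Nat.card {g : G // ∀ h : H, θ ⟨g * h * g⁻¹, hN.conj_mem h h.2 g⟩ = θ h} := by
  rw [← Fintype.card_subtype, ← Nat.card_eq_fintype_card]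
  apply Nat.card_congr
  refine
    { toFun := fun a => ⟨a.1 * g₀⁻¹, ?_⟩
      invFun := fun t => ⟨t.1 * g₀, ?_⟩
      left_inv := ?_
      right_inv := ?_ }
  · intro h
    have := (conjFun_eq_iff H θ a.1 g₀).mp a.2
    exact congrFun this h
  · rw [conjFun_eq_iff]
    funext h
    have := t.2 h
    simpa [conjFun_apply] using this
  · intro a
    apply Subtype.ext
    simp
  · intro t
    apply Subtype.ext
    simp

/-- Let H be a normal subgroup of the finite group G and θ an irreducible character of H. On H, the function induced from θ equals r times the sum of the distinct G-conjugates of θ, where r is the number of elements of G fixing θ under conjugation divided by the order of H (the index of H in the inertia group). -/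
theorem result {G : Type*} [Group G] [Fintype G] (H : Subgroup G) [hN : H.Normal] (θ : H → ℂ) (hθ : Cfsg.IsIrrCharacter H θ) : (fun h : H => Cfsg.indFun H θ h) = ((Nat.card {g : G // ∀ h : H, θ ⟨g * h * g⁻¹, hN.conj_mem h h.2 g⟩ = θ h} : ℂ) / (Nat.card H : ℂ)) • ∑ᶠ ψ ∈ {ψ : H → ℂ | ∃ g : G, ψ = fun h : H => θ ⟨g * h * g⁻¹, hN.conj_mem h h.2 g⟩}, ψ := by

    classical
    funext h
    rw [Cfsg.Agent.Lib.helper24.indFun_apply_normal]
    have hset : {ψ : H → ℂ | ∃ g : G, ψ = fun h : H => θ ⟨g * h * g⁻¹, hN.conj_mem h h.2 g⟩} =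
        ↑(Finset.univ.image (fun g : G => Cfsg.Agent.Lib.helper24.conjFun H θ g)) := by
      ext ψ
      simp only [Set.mem_setOf_eq, Finset.coe_image, Finset.coe_univ, Set.image_univ, Set.mem_range]
      constructor
      · rintro ⟨g, rfl⟩
        exact ⟨g, rfl⟩
      · rintro ⟨g, rfl⟩
        exact ⟨g, rfl⟩
    rw [hset, finsum_mem_coe_finset, Pi.smul_apply, Finset.sum_apply, smul_eq_mul]
    have key := Finset.sum_comp (s := (Finset.univ : Finset G)) (f := fun ψ : H → ℂ => ψ h)
      (g := fun g : G => Cfsg.Agent.Lib.helper24.conjFun H θ g)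
    rw [key]
    have hfib : ∀ ψ ∈ Finset.univ.image (fun g : G => Cfsg.Agent.Lib.helper24.conjFun H θ g),
        (Finset.univ.filter (fun a : G => Cfsg.Agent.Lib.helper24.conjFun H θ a = ψ)).card • ψ h =
        (Nat.card {g : G // ∀ h : H, θ ⟨g * h * g⁻¹, hN.conj_mem h h.2 g⟩ = θ h} : ℂ) * ψ h := by
      intro ψ hψ
      rw [Finset.mem_image] at hψ
      obtain ⟨g₀, -, rfl⟩ := hψ
      rw [card_fiber_conjFun, nsmul_eq_mul]
    rw [Finset.sum_congr rfl hfib, ← Finset.mul_sum]
    ring

end Cfsg.Agent.S1485
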