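import Cfsg.Statements.S1486

import Cfsg.Agent.Lib.helper24.CharNormal
set_option autoImplicit false
open Cfsg

namespace Cfsg.Agent.S1486

open Cfsg.Agent.Lib.helper24 in
theorem extendByZero_conjFun {G : Type*} [Group G] (H : Subgroup G) [hN : H.Normal] (θ : H → ℂ)
    (g z : G) : extendByZero H (Cfsg.Agent.Lib.helper24.conjFun H θ g) z = extendByZero H θ (g * z * g⁻¹) := by
  by_cases hz : z ∈ H
  · rw [extendByZero_apply_mem _ _ hz, extendByZero_apply_mem _ _ (hN.conj_mem z hz g)]
    rfl
  · have hz' : g * z * g⁻¹ ∉ H := by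
      intro h
      apply hz
      have := hN.conj_mem _ h g⁻¹
      simpa [mul_assoc] using this
    rw [extendByZero_apply_not_mem _ _ hz, extendByZero_apply_not_mem _ _ hz']

open Cfsg.Agent.Lib.helper24 in
theorem indFun_conjFun {G : Type*} [Group G] [Fintype G] (H : Subgroup G) [hN : H.Normal]
    (θ : H → ℂ) (g : G) : indFun H (Cfsg.Agent.Lib.helper24.conjFun H θ g) = indFun H θ := by
  funext y
  unfold indFun
  congr 1
  rw [← Equiv.sum_comp (Equiv.mulRight g⁻¹) (fun x => extendByZero H θ (x⁻¹ * y * x))]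
  apply Finset.sum_congr rfl
  intro x _
  rw [extendByZero_conjFun]
  congr 1
  simp only [Equiv.coe_mulRight]
  group

/-- Let H be a normal subgroup of the finite group G and θ, φ irreducible characters of H. If φ is a G-conjugate of θ then the functions induced from θ and φ coincide; if φ is not a G-conjugate of θ then the induced functions are orthogonal. -/
theorem result {G : Type*} [Group G] [Fintype G] (H : Subgroup G) [hN : H.Normal] (θ φ : H → ℂ) (hθ : Cfsg.IsIrrCharacter H θ) (hφ : Cfsg.IsIrrCharacter H φ) : ((∃ g : G, φ = fun h : H => θ ⟨g * h * g⁻¹, hN.conj_mem h h.2 g⟩) → Cfsg.indFun H φ = Cfsg.indFun H θ) ∧ ((¬ ∃ g : G, φ = fun h : H => θ ⟨g * h * g⁻¹, hN.conj_mem h h.2 g⟩) → Cfsg.classInner (Cfsg.indFun H φ) (Cfsg.indFun H θ) = 0) := by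

    classical
    have := Fintype.ofFinite H
    refine ⟨?_, ?_⟩
    · rintro ⟨g, rfl⟩
      exact indFun_conjFun H θ g
    · intro hne
      rw [Cfsg.Agent.Lib.helper24.classInner_indFun_normal]
      have : ∀ g : G, classInner φ (Cfsg.Agent.Lib.helper24.conjFun H θ g) = 0 := by
        intro g
        refine Cfsg.Agent.Lib.helper24.irr_inner_ne (χ := ⟨φ, hφ⟩)
          (ψ := ⟨_, Cfsg.Agent.Lib.helper24.conjFun_isIrr H hθ g⟩) ?_
        intro h
        exact hne ⟨g, congrArg Subtype.val h⟩
      simp [this]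

end Cfsg.Agent.S1486
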