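import Cfsg.Statements.S1487

import Cfsg.Agent.Lib.helper24.CharNormal
set_option autoImplicit false
open Cfsg

namespace Cfsg.Agent.S1487

theorem eq_of_re_eq_of_norm_le {z : ℂ} {n : ℕ} (h1 : z.re = n) (h2 : ‖z‖ ≤ n) : z = n := by
  apply Complex.ext
  · simpa using h1
  · have h3 : ‖z‖ ^ 2 = z.re ^ 2 + z.im ^ 2 := by
      rw [Complex.sq_norm, Complex.normSq_apply]; ring
    have h4 : ‖z‖ ^ 2 ≤ (n : ℝ) ^ 2 := by
      have := norm_nonneg z
      nlinarith
    have h5 : z.im ^ 2 ≤ 0 := by
      rw [h3, h1] at h4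
      linarith
    have h6 : z.im = 0 := by nlinarith [sq_nonneg z.im]
    simpa using h6

/-- Let A ≤ H be normal subgroups of the finite group G and θ an irreducible character of H. Then θ takes the value θ 1 on all of A if and only if the function induced from θ to G takes its value at 1 on all of A. -/
theorem result {G : Type*} [Group G] [Fintype G] (A H : Subgroup G) [A.Normal] [H.Normal] (hAH : A ≤ H) (θ : H → ℂ) (hθ : Cfsg.IsIrrCharacter H θ) : (∀ a : H, (a : G) ∈ A → θ a = θ 1) ↔ (∀ a : G, a ∈ A → Cfsg.indFun H θ a = Cfsg.indFun H θ 1) := by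

    classical
    obtain ⟨n, hn0, hn⟩ := Cfsg.Agent.Lib.helper24.isIrrCharacter_one hθ
    have hH : (Nat.card H : ℂ) ≠ 0 := NeZero.ne _
    have hone : Cfsg.indFun H θ 1 = (Nat.card H : ℂ)⁻¹ * ∑ _g : G, θ 1 := by
      have h1 := Cfsg.Agent.Lib.helper24.indFun_apply_normal H θ 1
      rw [Subgroup.coe_one] at h1
      rw [h1]
      congr 1
      apply Finset.sum_congr rfl
      intro g _
      rw [Cfsg.Agent.Lib.helper24.conjFun_apply]
      congr 1
      apply Subtype.ext
      simp
    constructor
    · intro hA a ha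
      have h1 := Cfsg.Agent.Lib.helper24.indFun_apply_normal H θ ⟨a, hAH ha⟩
      rw [h1, hone]
      congr 1
      apply Finset.sum_congr rfl
      intro g _
      rw [Cfsg.Agent.Lib.helper24.conjFun_apply]
      exact hA ⟨g * a * g⁻¹, _⟩ (‹A.Normal›.conj_mem a ha g)
    · intro hG a ha
      have h1 := Cfsg.Agent.Lib.helper24.indFun_apply_normal H θ a
      rw [hG a ha, hone] at h1
      have h2 : ∑ _g : G, θ 1 = ∑ g : G, Cfsg.Agent.Lib.helper24.conjFun H θ g a :=
        mul_left_cancel₀ (inv_ne_zero hH) h1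
      have h3 : ∑ g : G, (Cfsg.Agent.Lib.helper24.conjFun H θ g a).re = ∑ _g : G, (θ 1).re := by
        have := congrArg Complex.re h2
        rw [Complex.re_sum, Complex.re_sum] at this
        exact this.symm
      have hle : ∀ x : H, ‖θ x‖ ≤ (θ 1).re := fun x =>
        Cfsg.Agent.Lib.helper24.isCharacter_norm_le
          (Cfsg.Agent.Lib.helper24.isCharacter_of_isIrrCharacter hθ) x
      have h4 := (Finset.sum_eq_sum_iff_of_le (s := (Finset.univ : Finset G))
        (f := fun g => (Cfsg.Agent.Lib.helper24.conjFun H θ g a).re) (g := fun _ => (θ 1).re)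
        (fun g _ => (Complex.re_le_norm _).trans (hle _))).mp h3 1 (Finset.mem_univ _)
      rw [Cfsg.Agent.Lib.helper24.conjFun_one] at h4
      have h5 := hle a
      rw [hn] at h4 h5 ⊢
      simp only [Complex.natCast_re] at h4 h5
      exact eq_of_re_eq_of_norm_le h4 h5

end Cfsg.Agent.S1487
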