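import Cfsg.Statements.S1489

import Cfsg.Agent.Lib.helper8.IndLinear
set_option autoImplicit false
open Cfsg

namespace Cfsg.Agent.S1489

/-- Let H be a normal subgroup of the finite group G, θ an irreducible character of H, and T the inertia group of θ (the elements g with θ(g h g⁻¹) = θ(h) for all h ∈ H). If ψ and ψ' are irreducible characters of T having nonzero inner product with the function induced from θ to T, then the function induced from ψ to G is an irreducible character of G, and it equals the one induced from ψ' only if ψ = ψ'. -/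
theorem result {G : Type*} [Group G] [Fintype G] (H T : Subgroup G) [hN : H.Normal] [Fintype T] (θ : H → ℂ) (hθ : Cfsg.IsIrrCharacter H θ) (hT : ∀ g : G, g ∈ T ↔ ∀ h : H, θ ⟨g * h * g⁻¹, hN.conj_mem h h.2 g⟩ = θ h) (hHT : H ≤ T) (ψ ψ' : T → ℂ) (hψ : Cfsg.IsIrrCharacter T ψ) (hψ' : Cfsg.IsIrrCharacter T ψ') (hc : Cfsg.classInner (Cfsg.indFun (H.subgroupOf T) (fun x => θ ⟨(x : T), Subgroup.mem_subgroupOf.mp x.2⟩)) ψ ≠ 0) (hc' : Cfsg.classInner (Cfsg.indFun (H.subgroupOf T) (fun x => θ ⟨(x : T), Subgroup.mem_subgroupOf.mp x.2⟩)) ψ' ≠ 0) : Cfsg.IsIrrCharacter G (Cfsg.indFun T ψ) ∧ (Cfsg.indFun T ψ = Cfsg.indFun T ψ' → ψ = ψ') := by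

    classical
    have := Fintype.ofFinite H
    have hHc : (Nat.card H : ℂ) ≠ 0 := NeZero.ne _
    have hθ' : Cfsg.IsIrrCharacter (H.subgroupOf T)
        (fun x => θ ⟨(x : T), Subgroup.mem_subgroupOf.mp x.2⟩) :=
      Cfsg.Agent.Lib.helper24.isIrrCharacter_comp_equiv (Subgroup.subgroupOfEquivOfLe hHT) hθ
    have hnG : Cfsg.classInner (Cfsg.indFun H θ) (Cfsg.indFun H θ) =
        (Nat.card T : ℂ) / (Nat.card H : ℂ) := by
      have h1 := Cfsg.Agent.Lib.helper24.card_mul_inner_indFun_normal H hθ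
      have h2 : Nat.card {g : G // ∀ h : H, θ ⟨g * h * g⁻¹, hN.conj_mem h h.2 g⟩ = θ h} =
          Nat.card T := Nat.card_congr (Equiv.subtypeEquivRight (fun g => (hT g).symm))
      rw [h2] at h1
      rw [← h1]
      field_simp
    have hnT : Cfsg.classInner
        (Cfsg.indFun (H.subgroupOf T) (fun x => θ ⟨(x : T), Subgroup.mem_subgroupOf.mp x.2⟩))
        (Cfsg.indFun (H.subgroupOf T) (fun x => θ ⟨(x : T), Subgroup.mem_subgroupOf.mp x.2⟩)) =
        (Nat.card T : ℂ) / (Nat.card H : ℂ) := by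
      have h1 := Cfsg.Agent.Lib.helper24.card_mul_inner_indFun_normal (H.subgroupOf T) hθ'
      have h2 : Nat.card {t : T // ∀ h : H.subgroupOf T,
          (fun x : H.subgroupOf T => θ ⟨((x : T) : G), Subgroup.mem_subgroupOf.mp x.2⟩)
            ⟨t * h * t⁻¹, (inferInstance : (H.subgroupOf T).Normal).conj_mem h h.2 t⟩ =
          (fun x : H.subgroupOf T => θ ⟨((x : T) : G), Subgroup.mem_subgroupOf.mp x.2⟩) h} =
          Nat.card T := by
        apply Nat.card_congr
        refine Equiv.subtypeUnivEquiv ?_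
        intro t h
        exact (hT t).mp t.2 ⟨((h : T) : G), Subgroup.mem_subgroupOf.mp h.2⟩
      rw [h2, Cfsg.Agent.Lib.helper24.card_subgroupOf_of_le hHT] at h1
      rw [← h1]
      field_simp
    refine Cfsg.Agent.Lib.helper8.induction_irr_of_norm_eq T
      (Cfsg.indFun (H.subgroupOf T) (fun x => θ ⟨(x : T), Subgroup.mem_subgroupOf.mp x.2⟩))
      (Cfsg.Agent.Lib.helper24.isCharacter_indFun _
        (Cfsg.Agent.Lib.helper24.isCharacter_of_isIrrCharacter hθ')) ?_ ψ ψ' hψ hψ' hc hc'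
    rw [Cfsg.Agent.Lib.helper24.indFun_trans H T hHT θ, hnG, hnT]

end Cfsg.Agent.S1489
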