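import Cfsg.Statements.S1490

import Cfsg.Agent.Lib.helper8.CliffordAb
import Cfsg.Agent.S1489
set_option autoImplicit false
open Cfsg

namespace Cfsg.Agent.S1490

/-- Let H be a normal subgroup of the finite group G, θ an irreducible character of H with inertia group T, and suppose the commutator of any two elements of T lies in H (T/H abelian). Then there are a positive integer e and a finite set C of irreducible characters of G with e ^ 2 * |C| * |H| = |T|, such that the function induced from θ is e times the sum of the members of C and every member of C has degree [G:T] * e * θ(1). -/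
theorem result {G : Type*} [Group G] [Fintype G] (H T : Subgroup G) [hN : H.Normal] (θ : H → ℂ) (hθ : Cfsg.IsIrrCharacter H θ) (hT : ∀ g : G, g ∈ T ↔ ∀ h : H, θ ⟨g * h * g⁻¹, hN.conj_mem h h.2 g⟩ = θ h) (hab : ∀ x ∈ T, ∀ y ∈ T, x * y * x⁻¹ * y⁻¹ ∈ H) : ∃ (e : ℕ) (C : Finset (G → ℂ)), 0 < e ∧ (∀ χ ∈ C, Cfsg.IsIrrCharacter G χ) ∧ e ^ 2 * C.card * Nat.card H = Nat.card T ∧ Cfsg.indFun H θ = (e : ℂ) • ∑ χ ∈ C, χ ∧ ∀ χ ∈ C, χ 1 = (T.index : ℂ) * e * θ 1 := by

    classical
    have := Fintype.ofFinite H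
    have := Fintype.ofFinite T
    have := Fintype.ofFinite (Cfsg.IrrCharacter T)
    have hHT : H ≤ T := by
      intro g hg
      rw [hT]
      intro h
      exact congrFun (Cfsg.Agent.Lib.helper24.conjFun_of_mem H
        (Cfsg.Agent.Lib.helper24.isCharacter_conj_class
          (Cfsg.Agent.Lib.helper24.isCharacter_of_isIrrCharacter hθ)) hg) h
    have hθ' : Cfsg.IsIrrCharacter (H.subgroupOf T)
        (fun x : H.subgroupOf T => θ ⟨(x : T), Subgroup.mem_subgroupOf.mp x.2⟩) :=
      Cfsg.Agent.Lib.helper24.isIrrCharacter_comp_equiv (Subgroup.subgroupOfEquivOfLe hHT) hθ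
    have hinv : ∀ t : T, Cfsg.Agent.Lib.helper24.conjFun (H.subgroupOf T)
        (fun x : H.subgroupOf T => θ ⟨(x : T), Subgroup.mem_subgroupOf.mp x.2⟩) t =
        (fun x : H.subgroupOf T => θ ⟨(x : T), Subgroup.mem_subgroupOf.mp x.2⟩) := by
      intro t
      funext h
      exact (hT t).mp t.2 ⟨((h : T) : G), Subgroup.mem_subgroupOf.mp h.2⟩
    have hQ : IsMulCommutative (T ⧸ H.subgroupOf T) := by
      refine ⟨⟨fun a b => ?_⟩⟩
      obtain ⟨x, rfl⟩ := QuotientGroup.mk_surjective a
      obtain ⟨y, rfl⟩ := QuotientGroup.mk_surjective b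
      rw [← QuotientGroup.mk_mul, ← QuotientGroup.mk_mul, QuotientGroup.eq]
      rw [Subgroup.mem_subgroupOf]
      have h1 := hab _ (T.inv_mem y.2) _ (T.inv_mem x.2)
      have e : (((x * y)⁻¹ * (y * x) : T) : G) = (y : G)⁻¹ * (x : G)⁻¹ * (y : G)⁻¹⁻¹ * (x : G)⁻¹⁻¹ := by
        push_cast
        group
      rw [e]
      exact h1
    have hΦ : Cfsg.IsCharacter T (Cfsg.indFun (H.subgroupOf T)
        (fun x : H.subgroupOf T => θ ⟨(x : T), Subgroup.mem_subgroupOf.mp x.2⟩)) :=
      Cfsg.Agent.Lib.helper24.isCharacter_indFun _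
        (Cfsg.Agent.Lib.helper24.isCharacter_of_isIrrCharacter hθ')
    choose m hm using fun μ : Cfsg.IrrCharacter T =>
      Cfsg.Agent.Lib.helper24.isCharacter_inner_irr_nat hΦ μ
    obtain ⟨hsq, e, he, hme⟩ := Cfsg.Agent.Lib.helper8.abelian_quot_multiplicities
      (H.subgroupOf T) _ hθ' hinv m hm
    have hinj : Set.InjOn (fun μ : Cfsg.IrrCharacter T => Cfsg.indFun T μ.1)
        (↑(Finset.univ.filter (fun μ : Cfsg.IrrCharacter T => m μ ≠ 0)) : Set (Cfsg.IrrCharacter T)) := by
      intro μ hμ ν hν heq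
      rw [Finset.mem_coe, Finset.mem_filter] at hμ hν
      have hc : Cfsg.classInner (Cfsg.indFun (H.subgroupOf T)
          (fun x : H.subgroupOf T => θ ⟨(x : T), Subgroup.mem_subgroupOf.mp x.2⟩)) μ.1 ≠ 0 := by
        rw [hm μ]; exact_mod_cast hμ.2
      have hc' : Cfsg.classInner (Cfsg.indFun (H.subgroupOf T)
          (fun x : H.subgroupOf T => θ ⟨(x : T), Subgroup.mem_subgroupOf.mp x.2⟩)) ν.1 ≠ 0 := by
        rw [hm ν]; exact_mod_cast hν.2
      exact Subtype.ext ((Cfsg.Agent.S1489.result H T θ hθ hT hHT μ.1 ν.1 μ.2 ν.2 hc hc').2 heq)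
    refine ⟨e, (Finset.univ.filter (fun μ : Cfsg.IrrCharacter T => m μ ≠ 0)).image
      (fun μ : Cfsg.IrrCharacter T => Cfsg.indFun T μ.1), he, ?_, ?_, ?_, ?_⟩
    · intro χ hχ
      rw [Finset.mem_image] at hχ
      obtain ⟨μ, hμ, rfl⟩ := hχ
      rw [Finset.mem_filter] at hμ
      have hc : Cfsg.classInner (Cfsg.indFun (H.subgroupOf T)
          (fun x : H.subgroupOf T => θ ⟨(x : T), Subgroup.mem_subgroupOf.mp x.2⟩)) μ.1 ≠ 0 := by
        rw [hm μ]; exact_mod_cast hμ.2
      exact (Cfsg.Agent.S1489.result H T θ hθ hT hHT μ.1 μ.1 μ.2 μ.2 hc hc).1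
    · rw [Finset.card_image_of_injOn hinj]
      have h1 : ∑ μ : Cfsg.IrrCharacter T, m μ ^ 2 =
          e ^ 2 * (Finset.univ.filter (fun μ : Cfsg.IrrCharacter T => m μ ≠ 0)).card := by
        rw [← Finset.sum_filter_add_sum_filter_not Finset.univ (fun μ : Cfsg.IrrCharacter T => m μ ≠ 0)]
        have h2 : ∑ μ ∈ Finset.univ.filter (fun μ : Cfsg.IrrCharacter T => ¬ m μ ≠ 0), m μ ^ 2 = 0 := by
          apply Finset.sum_eq_zero
          intro μ hμ
          have := (Finset.mem_filter.mp hμ).2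
          simp only [ne_eq, not_not] at this
          rw [this]; simp
        have h3 : ∑ μ ∈ Finset.univ.filter (fun μ : Cfsg.IrrCharacter T => m μ ≠ 0), m μ ^ 2 =
            ∑ _μ ∈ Finset.univ.filter (fun μ : Cfsg.IrrCharacter T => m μ ≠ 0), e ^ 2 := by
          apply Finset.sum_congr rfl
          intro μ hμ
          rcases hme μ with h | h
          · exact absurd h (Finset.mem_filter.mp hμ).2
          · rw [h]
        rw [h2, h3, Finset.sum_const, smul_eq_mul, add_zero, mul_comm]
      rw [← h1, hsq, ← Cfsg.Agent.Lib.helper24.card_subgroupOf_of_le hHT, mul_comm]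
      exact Subgroup.card_mul_index _
    · rw [← Cfsg.Agent.Lib.helper24.indFun_trans H T hHT θ]
      have hexp : Cfsg.indFun (H.subgroupOf T) (fun x : H.subgroupOf T => θ ⟨(x : T), Subgroup.mem_subgroupOf.mp x.2⟩) =
          ∑ μ ∈ Finset.univ.filter (fun μ : Cfsg.IrrCharacter T => m μ ≠ 0), (e : ℂ) • μ.1 := by
        have h1 := Cfsg.Agent.Lib.helper24.classFunction_expansion
          (Cfsg.Agent.Lib.helper24.isCharacter_conj_class hΦ)
        rw [Finset.sum_congr rfl (fun μ _ => by rw [hm μ])] at h1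
        rw [h1, ← Finset.sum_filter_add_sum_filter_not Finset.univ
          (fun μ : Cfsg.IrrCharacter T => m μ ≠ 0)]
        have h2 : ∑ μ ∈ Finset.univ.filter (fun μ : Cfsg.IrrCharacter T => ¬ m μ ≠ 0),
            (m μ : ℂ) • μ.1 = 0 := by
          apply Finset.sum_eq_zero
          intro μ hμ
          have := (Finset.mem_filter.mp hμ).2
          simp only [ne_eq, not_not] at this
          rw [this]; simp
        rw [h2, add_zero]
        apply Finset.sum_congr rfl
        intro μ hμ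
        rcases hme μ with h | h
        · exact absurd h (Finset.mem_filter.mp hμ).2
        · rw [h]
      rw [hexp, Cfsg.Agent.Lib.helper8.indFun_finset_sum, Finset.sum_image hinj, Finset.smul_sum]
      exact Finset.sum_congr rfl (fun μ _ => Cfsg.Agent.Lib.helper8.indFun_smul T _ _)
    · intro χ hχ
      rw [Finset.mem_image] at hχ
      obtain ⟨μ, hμ, rfl⟩ := hχ
      rw [Finset.mem_filter] at hμ
      have he' : m μ = e := by
        rcases hme μ with h | h
        · exact absurd h hμ.2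
        · exact h
      have h1 := Cfsg.Agent.Lib.helper8.restrict_eq_of_invariant (H.subgroupOf T) _ hθ' hinv μ (m μ)
        (hm μ) hμ.2 1
      rw [Cfsg.Agent.Lib.helper24.indFun_one]
      have h2 : μ.1 1 = (e : ℂ) * θ 1 := by
        rw [he'] at h1
        exact h1
      rw [h2]
      ring

end Cfsg.Agent.S1490
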