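import Cfsg.Statements.S1492

import Cfsg.Agent.Lib.helper24.CharMisc
import Cfsg.Agent.Lib.helper23.GaloisApps
set_option autoImplicit false
open Cfsg

namespace Cfsg.Agent.S1492

theorem eq_of_re_eq_of_norm_le {z : ℂ} {n : ℕ} (h1 : z.re = n) (h2 : ‖z‖ ≤ n) : z = n := by
  apply Complex.ext
  · simpa using h1
  · have h3 : ‖z‖ ^ 2 = z.re ^ 2 + z.im ^ 2 := by
      rw [Complex.sq_norm, Complex.normSq_apply]; ring
    have h4 : ‖z‖ ^ 2 ≤ (n : ℝ) ^ 2 := by
      have := norm_nonneg z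
      nlinarith
    have h5 : z.im ^ 2 ≤ 0 := by
      rw [h3, h1] at h4
      linarith
    have h6 : z.im = 0 := by nlinarith [sq_nonneg z.im]
    simpa using h6

open Cfsg.Agent.Lib.helper24 Cfsg.Agent.Lib.helper23 in
theorem irr_central_section_bound {C : Type*} [Group C] [Finite C] (lam : C → ℂ)
    (hlam : Cfsg.IsIrrCharacter C lam) (B D : Subgroup C)
    (hcent : ∀ d ∈ D, ∀ c : C, d * c * d⁻¹ * c⁻¹ ∈ B) (hker : ∀ b ∈ B, lam b = lam 1) :
    (lam 1).re ^ 2 * (Nat.card D : ℝ) ≤ (Nat.card C : ℝ) := by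
  classical
  have := Fintype.ofFinite C
  obtain ⟨n, σ, hirr, rfl⟩ := hlam
  have := hirr
  have h1 : σ.character 1 = (Module.finrank ℂ (Fin n → ℂ) : ℂ) := Representation.char_one σ
  have hB : ∀ b ∈ B, σ b = 1 := fun b hb => (char_eq_finrank_iff σ b).mp (by rw [hker b hb, h1])
  have hD : ∀ d ∈ D, ‖σ.character d‖ = (Module.finrank ℂ (Fin n → ℂ) : ℝ) := by
    intro d hd
    have hcomm : ∀ c, σ d ∘ₗ σ c = σ c ∘ₗ σ d := by
      intro c
      have h2 := hB _ (hcent d hd c)
      have h3 : σ (d * c) = σ (c * d) := by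
        have : d * c = (d * c * d⁻¹ * c⁻¹) * (c * d) := by group
        rw [this, map_mul, h2, one_mul]
      rw [map_mul, map_mul] at h3
      exact h3
    obtain ⟨c, hc⟩ := irr_commuting_scalar n σ (σ d) hcomm
    exact genrep_norm_eq_of_scalar σ d (isOfFinOrder_of_finite d) c hc
  have hsum := genrep_sum_normSq σ
  have hDsum : (Nat.card D : ℝ) * (Module.finrank ℂ (Fin n → ℂ) : ℝ) ^ 2 ≤
      ∑ g : C, ‖σ.character g‖ ^ 2 := by
    calc (Nat.card D : ℝ) * (Module.finrank ℂ (Fin n → ℂ) : ℝ) ^ 2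
        = ∑ g ∈ Finset.univ.filter (fun g : C => g ∈ D),
            (Module.finrank ℂ (Fin n → ℂ) : ℝ) ^ 2 := by
          rw [Finset.sum_const, nsmul_eq_mul]
          congr 2
          rw [Nat.card_eq_fintype_card, Fintype.card_subtype]
      _ = ∑ g ∈ Finset.univ.filter (fun g : C => g ∈ D), ‖σ.character g‖ ^ 2 :=
          Finset.sum_congr rfl (fun g hg => by rw [hD g (Finset.mem_filter.mp hg).2])
      _ ≤ ∑ g : C, ‖σ.character g‖ ^ 2 :=
          Finset.sum_le_sum_of_subset_of_nonneg (Finset.filter_subset _ _)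
            (fun _ _ _ => sq_nonneg _)
  rw [h1, Complex.natCast_re]
  linarith

/-- Let ψ be an irreducible character of the finite group G and B ≤ D ≤ C subgroups with B normal in C, every commutator of an element of D with an element of C lying in B (so D/B is central in C/B), and ψ constant equal to ψ 1 on B. Then ψ(1) ^ 2 * |C| * |D| ≤ |G| ^ 2. -/
theorem result {G : Type*} [Group G] [Finite G] (ψ : G → ℂ) (hψ : Cfsg.IsIrrCharacter G ψ) (B C D : Subgroup G) (hBD : B ≤ D) (hDC : D ≤ C) (hBn : ∀ c ∈ C, ∀ b ∈ B, c * b * c⁻¹ ∈ B) (hcent : ∀ d ∈ D, ∀ c ∈ C, d * c * d⁻¹ * c⁻¹ ∈ B) (hker : ∀ b ∈ B, ψ b = ψ 1) : ‖ψ 1‖ ^ 2 * (Nat.card C : ℝ) * (Nat.card D : ℝ) ≤ (Nat.card G : ℝ) ^ 2 := by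

    classical
    have := Fintype.ofFinite G
    have := Fintype.ofFinite C
    obtain ⟨N, hN0, hN⟩ := Cfsg.Agent.Lib.helper24.isIrrCharacter_one hψ
    have hψc : Cfsg.IsCharacter G ψ := Cfsg.Agent.Lib.helper24.isCharacter_of_isIrrCharacter hψ
    have hψC : Cfsg.IsCharacter C (fun c : C => ψ c) :=
      Cfsg.Agent.Lib.helper24.isCharacter_restrict C hψc
    have := Fintype.ofFinite (Cfsg.IrrCharacter C)
    choose m hm using fun μ : Cfsg.IrrCharacter C =>
      Cfsg.Agent.Lib.helper24.isCharacter_inner_irr_nat hψC μ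
    have hexp : ∀ x : C, ψ x = ∑ μ : Cfsg.IrrCharacter C, (m μ : ℂ) * μ.1 x := by
      intro x
      have h1 := Cfsg.Agent.Lib.helper24.classFunction_expansion_apply
        (Cfsg.Agent.Lib.helper24.isCharacter_conj_class hψC) x
      rw [Finset.sum_congr rfl (fun μ _ => by rw [hm μ])] at h1
      exact h1
    have hex : ∃ μ, m μ ≠ 0 := by
      by_contra hcon
      push_neg at hcon
      have h1 := hexp 1
      simp only [hcon, Nat.cast_zero, zero_mul, Finset.sum_const_zero] at h1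
      rw [Subgroup.coe_one, hN] at h1
      have : N = 0 := by exact_mod_cast h1
      omega
    obtain ⟨lam, hlam⟩ := hex
    have hkerlam : ∀ b : C, (b : G) ∈ B → lam.1 b = lam.1 1 := by
      intro b hb
      have e1 := hexp b
      have e2 := hexp 1
      rw [Subgroup.coe_one] at e2
      have e3 : ∑ μ : Cfsg.IrrCharacter C, (m μ : ℝ) * (μ.1 b).re =
          ∑ μ : Cfsg.IrrCharacter C, (m μ : ℝ) * (μ.1 1).re := by
        have h3 := congrArg Complex.re (e1.symm.trans ((hker b hb).trans e2))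
        simpa [Complex.re_sum] using h3
      have hle : ∀ μ ∈ (Finset.univ : Finset (Cfsg.IrrCharacter C)),
          (m μ : ℝ) * (μ.1 b).re ≤ (m μ : ℝ) * (μ.1 1).re := fun μ _ =>
        mul_le_mul_of_nonneg_left ((Complex.re_le_norm _).trans
          (Cfsg.Agent.Lib.helper24.isCharacter_norm_le
            (Cfsg.Agent.Lib.helper24.isCharacter_irr μ) b)) (Nat.cast_nonneg _)
      have h4 := (Finset.sum_eq_sum_iff_of_le hle).mp e3 lam (Finset.mem_univ _)
      have hre : (lam.1 b).re = (lam.1 1).re :=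
        mul_left_cancel₀ (Nat.cast_ne_zero.mpr hlam) h4
      obtain ⟨k, _, hk⟩ := Cfsg.Agent.Lib.helper24.isIrrCharacter_one lam.2
      have h5 := Cfsg.Agent.Lib.helper24.isCharacter_norm_le
        (Cfsg.Agent.Lib.helper24.isCharacter_irr lam) b
      rw [hk] at hre h5 ⊢
      simp only [Complex.natCast_re] at hre h5
      exact eq_of_re_eq_of_norm_le hre h5
    have hfrob : Cfsg.classInner (Cfsg.indFun C lam.1) ψ ≠ 0 := by
      rw [Cfsg.Agent.Lib.helper24.frobenius_reciprocity C lam.1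
        (Cfsg.Agent.Lib.helper24.isCharacter_conj_class hψc),
        Cfsg.Agent.Lib.helper24.classInner_conj_symm, hm lam]
      simpa using hlam
    have hdeg := Cfsg.Agent.Lib.helper24.irr_degree_le_of_inner_ne_zero
      (Cfsg.Agent.Lib.helper24.isCharacter_indFun C (Cfsg.Agent.Lib.helper24.isCharacter_irr lam))
      ⟨ψ, hψ⟩ hfrob
    rw [Cfsg.Agent.Lib.helper24.indFun_one] at hdeg
    have hb := irr_central_section_bound lam.1 lam.2 (B.subgroupOf C) (D.subgroupOf C)
      (by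
        intro d hd c
        exact Subgroup.mem_subgroupOf.mpr (hcent d (Subgroup.mem_subgroupOf.mp hd) c c.2))
      (by
        intro b hb
        exact hkerlam b (Subgroup.mem_subgroupOf.mp hb))
    rw [Cfsg.Agent.Lib.helper24.card_subgroupOf_of_le hDC] at hb
    obtain ⟨k, hk0, hk⟩ := Cfsg.Agent.Lib.helper24.isIrrCharacter_one lam.2
    rw [hk] at hb hdeg
    simp only [hN, Complex.natCast_re, Complex.mul_re, Complex.natCast_im, mul_zero, sub_zero] at hb hdeg
    rw [hN, Complex.norm_natCast]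
    have hidx : (Nat.card C : ℝ) * (C.index : ℝ) = Nat.card G := by
      exact_mod_cast Subgroup.card_mul_index C
    have hNn : (0 : ℝ) ≤ N := Nat.cast_nonneg _
    have hin : (0 : ℝ) ≤ (C.index : ℝ) * k := by positivity
    have hc0 : (0 : ℝ) ≤ Nat.card C := Nat.cast_nonneg _
    have hd0 : (0 : ℝ) ≤ Nat.card D := Nat.cast_nonneg _
    have h1 : (N : ℝ) ^ 2 ≤ ((C.index : ℝ) * k) ^ 2 := pow_le_pow_left₀ hNn hdeg 2
    calc (N : ℝ) ^ 2 * (Nat.card C : ℝ) * (Nat.card D : ℝ)
        ≤ ((C.index : ℝ) * k) ^ 2 * (Nat.card C : ℝ) * (Nat.card D : ℝ) := by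
          apply mul_le_mul_of_nonneg_right _ hd0
          exact mul_le_mul_of_nonneg_right h1 hc0
      _ = (C.index : ℝ) ^ 2 * (Nat.card C : ℝ) * ((k : ℝ) ^ 2 * (Nat.card D : ℝ)) := by ring
      _ ≤ (C.index : ℝ) ^ 2 * (Nat.card C : ℝ) * (Nat.card C : ℝ) := by
          apply mul_le_mul_of_nonneg_left hb
          positivity
      _ = (Nat.card G : ℝ) ^ 2 := by rw [← hidx]; ring

end Cfsg.Agent.S1492
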