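import Cfsg.Statements.S1494

import Cfsg.Agent.Lib.helper24.CharOps
import Cfsg.Agent.Lib.helper23.CharInt
set_option autoImplicit false
open Cfsg

namespace Cfsg.Agent.S1494

open Cfsg.Agent.Lib.helper24 Cfsg.Agent.Lib.helper23 in
theorem irr_comm_diff {A : Type*} [Group A] [Finite A] [IsMulCommutative A] (ψ : IrrCharacter A)
    (p : ℕ) (hp : p.Prime) (x y : A) (hx : orderOf x = p) :
    ∃ ω : ℂ, IsIntegral ℤ ω ∧
      ψ.1 (x * y) - ψ.1 y = (1 - Complex.exp (2 * Real.pi * Complex.I / p)) * ω := by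
  have hε : IsPrimitiveRoot (Complex.exp (2 * Real.pi * Complex.I / p)) p :=
    Complex.isPrimitiveRoot_exp p hp.ne_zero
  have h1 : ψ.1 x ^ p = 1 := by
    have := irr_pow_orderOf_of_comm ψ x
    rwa [hx] at this
  have : NeZero p := ⟨hp.ne_zero⟩
  obtain ⟨i, -, hi⟩ := hε.eq_pow_of_pow_eq_one h1
  refine ⟨-(∑ j ∈ Finset.range i, Complex.exp (2 * Real.pi * Complex.I / p) ^ j) * ψ.1 y, ?_, ?_⟩
  · refine IsIntegral.mul (IsIntegral.neg (IsIntegral.sum _ (fun j _ => (hε.isIntegral hp.pos).pow j))) ?_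
    exact isCharacter_isIntegral (isCharacter_irr ψ) y
  · rw [irr_mul_of_comm, ← hi]
    have := mul_neg_geom_sum (Complex.exp (2 * Real.pi * Complex.I / p)) i
    linear_combination (ψ.1 y) * this

open Cfsg.Agent.Lib.helper24 Cfsg.Agent.Lib.helper23 in
theorem list_comm_diff {A : Type*} [Group A] [Finite A] [IsMulCommutative A]
    (p : ℕ) (hp : p.Prime) (x y : A) (hx : orderOf x = p) (l : List (IrrCharacter A)) :
    ∃ ω : ℂ, IsIntegral ℤ ω ∧
      (l.map (fun ψ : IrrCharacter A => ψ.1)).sum (x * y) - (l.map (fun ψ : IrrCharacter A => ψ.1)).sum y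
        = (1 - Complex.exp (2 * Real.pi * Complex.I / p)) * ω := by
  induction l with
  | nil => exact ⟨0, isIntegral_zero, by simp⟩
  | cons ψ l ih =>
    obtain ⟨ω₁, h1, h2⟩ := ih
    obtain ⟨ω₂, h3, h4⟩ := irr_comm_diff ψ p hp x y hx
    refine ⟨ω₂ + ω₁, h3.add h1, ?_⟩
    simp only [List.map_cons, List.sum_cons, Pi.add_apply]
    linear_combination h2 + h4

open Cfsg.Agent.Lib.helper24 Cfsg.Agent.Lib.helper23 in
theorem char_comm_diff {G : Type*} [Group G] [Finite G] (χ : G → ℂ) (hχ : Cfsg.IsCharacter G χ)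
    (p : ℕ) (hp : p.Prime) (x y : G) (hx : orderOf x = p) (hxy : x * y = y * x) :
    ∃ ω : ℂ, IsIntegral ℤ ω ∧
      χ (x * y) - χ y = (1 - Complex.exp (2 * Real.pi * Complex.I / p)) * ω := by
  have hk : ∀ a ∈ ({x, y} : Set G), ∀ b ∈ ({x, y} : Set G), a * b = b * a := by
    intro a ha b hb
    rcases ha with rfl | rfl <;> rcases hb with rfl | rfl
    · rfl
    · exact hxy
    · exact hxy.symm
    · rfl
  have hcomm : IsMulCommutative ↥(Subgroup.closure ({x, y} : Set G)) :=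
    Subgroup.isMulCommutative_closure hk
  have hxA : x ∈ Subgroup.closure ({x, y} : Set G) := Subgroup.subset_closure (by simp)
  have hyA : y ∈ Subgroup.closure ({x, y} : Set G) := Subgroup.subset_closure (by simp)
  have hres := isCharacter_restrict (Subgroup.closure ({x, y} : Set G)) hχ
  obtain ⟨l, hl⟩ := isCharacter_iff_exists_list.mp hres
  obtain ⟨ω, h1, h2⟩ := list_comm_diff p hp (⟨x, hxA⟩ : ↥(Subgroup.closure ({x, y} : Set G)))
    ⟨y, hyA⟩ (by rw [Subgroup.orderOf_mk]; exact hx) l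
  refine ⟨ω, h1, ?_⟩
  rw [← hl] at h2
  exact h2

/-- Let χ be a generalized character of the finite group G, p a prime, x an element of order p and y an element commuting with x. Then χ(x * y) − χ(y) = (1 − ε) * ω for some algebraic integer ω, where ε = exp(2πi/p). -/
theorem result {G : Type*} [Group G] [Finite G] (χ : G → ℂ) (hχ : Cfsg.IsGeneralizedCharacter G χ) (p : ℕ) (hp : p.Prime) (x y : G) (hx : orderOf x = p) (hxy : x * y = y * x) : ∃ ω : ℂ, IsIntegral ℤ ω ∧ χ (x * y) - χ y = (1 - Complex.exp (2 * Real.pi * Complex.I / p)) * ω := by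

    obtain ⟨χ₁, χ₂, h1, h2, rfl⟩ := hχ
    obtain ⟨ω₁, hω₁, e₁⟩ := char_comm_diff χ₁ h1 p hp x y hx hxy
    obtain ⟨ω₂, hω₂, e₂⟩ := char_comm_diff χ₂ h2 p hp x y hx hxy
    refine ⟨ω₁ - ω₂, hω₁.sub hω₂, ?_⟩
    simp only [Pi.sub_apply]
    linear_combination e₁ - e₂

end Cfsg.Agent.S1494
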