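import Cfsg.Statements.S1495

import Mathlib
set_option autoImplicit false
open Cfsg

namespace Cfsg.Agent.S1495

theorem one_sub_pow_eq_prime_mul (p : ℕ) (hp : p.Prime) :
    ∃ Γ : ℂ, IsIntegral ℤ Γ ∧
      (1 - Complex.exp (2 * Real.pi * Complex.I / p)) ^ (p - 1) = (p : ℂ) * Γ := by
  have : Fact p.Prime := ⟨hp⟩
  have hε : IsPrimitiveRoot (Complex.exp (2 * Real.pi * Complex.I / p)) p :=
    Complex.isPrimitiveRoot_exp p hp.ne_zero
  set ε := Complex.exp (2 * Real.pi * Complex.I / p) with hεdef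
  have hprod : ∏ μ ∈ primitiveRoots p ℂ, (1 - μ) = (p : ℂ) := by
    have h1 := Polynomial.cyclotomic_eq_prod_X_sub_primitiveRoots hε
    have h2 := congrArg (Polynomial.eval 1) h1
    rw [Polynomial.eval_one_cyclotomic_prime, Polynomial.eval_prod] at h2
    rw [h2]
    apply Finset.prod_congr rfl
    intro μ _
    simp
  have hex : ∀ μ ∈ primitiveRoots p ℂ, ∃ γ : ℂ, IsIntegral ℤ γ ∧ 1 - ε = (1 - μ) * γ := by
    intro μ hμ
    rw [mem_primitiveRoots hp.pos] at hμ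
    obtain ⟨i, -, hi⟩ := hμ.eq_pow_of_pow_eq_one hε.pow_eq_one
    refine ⟨∑ j ∈ Finset.range i, μ ^ j, ?_, ?_⟩
    · exact IsIntegral.sum _ (fun j _ => (hμ.isIntegral hp.pos).pow j)
    · rw [mul_neg_geom_sum, hi]
  choose! γ hγ1 hγ2 using hex
  refine ⟨∏ μ ∈ primitiveRoots p ℂ, γ μ, IsIntegral.prod _ (fun μ hμ => hγ1 μ hμ), ?_⟩
  have hcard : (primitiveRoots p ℂ).card = p - 1 := by
    rw [hε.card_primitiveRoots, Nat.totient_prime hp]
  rw [← hcard, ← Finset.prod_const, ← hprod, ← Finset.prod_mul_distrib]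
  exact Finset.prod_congr rfl (fun μ hμ => hγ2 μ hμ)

/-- Let p be a prime, ε = exp(2πi/p), and n an integer such that n = (1 − ε) * ω for some algebraic integer ω. Then p divides n. -/
theorem result (p : ℕ) (hp : p.Prime) (n : ℤ) (ω : ℂ) (hω : IsIntegral ℤ ω) (h : (n : ℂ) = (1 - Complex.exp (2 * Real.pi * Complex.I / p)) * ω) : (p : ℤ) ∣ n := by

    obtain ⟨Γ, hΓ, hΓeq⟩ := one_sub_pow_eq_prime_mul p hp
    have hpc : (p : ℂ) ≠ 0 := Nat.cast_ne_zero.mpr hp.ne_zero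
    have h1 : ((n ^ (p - 1) : ℤ) : ℂ) = (p : ℂ) * (Γ * ω ^ (p - 1)) := by
      push_cast
      rw [h, mul_pow, hΓeq]
      ring
    have hint : IsIntegral ℤ (Γ * ω ^ (p - 1)) := hΓ.mul (hω.pow _)
    have h2 : Γ * ω ^ (p - 1) = (((n ^ (p - 1) : ℤ) : ℚ) / (p : ℚ) : ℚ) := by
      push_cast
      push_cast at h1
      rw [h1]
      field_simp
    rw [h2] at hint
    have hint' : IsIntegral ℤ (((n ^ (p - 1) : ℤ) : ℚ) / (p : ℚ) : ℚ) :=
      (isIntegral_algebraMap_iff (algebraMap ℚ ℂ).injective).mp hint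
    obtain ⟨z, hz⟩ := IsIntegrallyClosed.isIntegral_iff.mp hint'
    have hpq : (p : ℚ) ≠ 0 := Nat.cast_ne_zero.mpr hp.ne_zero
    have h3 : n ^ (p - 1) = (p : ℤ) * z := by
      have : ((n ^ (p - 1) : ℤ) : ℚ) = (p : ℚ) * (z : ℚ) := by
        have hz' : (z : ℚ) = ((n ^ (p - 1) : ℤ) : ℚ) / (p : ℚ) := hz
        rw [hz']
        field_simp
      exact_mod_cast this
    have hpi : Prime (p : ℤ) := Nat.prime_iff_prime_int.mp hp
    exact hpi.dvd_of_dvd_pow (Dvd.intro z h3.symm)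

end Cfsg.Agent.S1495
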