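import Cfsg.Statements.S1496

import Cfsg.Agent.Lib.helper8.CoprimeAction
set_option autoImplicit false
open Cfsg

namespace Cfsg.Agent.S1496

/-- Let H be a subgroup of the finite group G and g an element normalising H whose order is coprime to the order of H. Then for every h ∈ H there are x ∈ H and c ∈ H commuting with g such that x * (h * g) * x⁻¹ = c * g. -/
theorem result {G : Type*} [Group G] [Finite G] (H : Subgroup G) (g : G) (hg : g ∈ Subgroup.normalizer (H : Set G)) (hcop : Nat.Coprime (orderOf g) (Nat.card H)) (h : G) (hh : h ∈ H) : ∃ x ∈ H, ∃ c ∈ H, c * g = g * c ∧ x * (h * g) * x⁻¹ = c * g := by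

    obtain ⟨k, hk, hk2⟩ := Cfsg.Agent.Lib.helper8.exists_conj_commute H g (h * g) hg hcop
      ⟨h⁻¹, H.inv_mem hh, by group⟩
    refine ⟨k, hk, k * h * (g * k⁻¹ * g⁻¹), H.mul_mem (H.mul_mem hk hh)
      (Cfsg.Agent.Lib.helper8.conj_mem_of_mem_normalizer hg (H.inv_mem hk)), ?_, by group⟩
    have e : k * (h * g) * k⁻¹ = k * h * (g * k⁻¹ * g⁻¹) * g := by group
    rw [e] at hk2
    have h3 : g * (k * h * (g * k⁻¹ * g⁻¹)) * g = k * h * (g * k⁻¹ * g⁻¹) * g * g := by
      rw [mul_assoc]; exact hk2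
    exact (mul_right_cancel h3).symm

end Cfsg.Agent.S1496
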