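import Cfsg.Statements.S1497

set_option autoImplicit false
open Cfsg

namespace Cfsg.Agent.S1497

/-- Let A be a nonempty subset of the finite group G not containing 1 and L a subgroup. Then A is a TI-subset whose normaliser is L if and only if the Dade hypothesis holds for A, L and the constant choice H(a) = ⊥. -/
theorem result {G : Type*} [Group G] [Finite G] (A : Set G) (hA : A.Nonempty) (h1 : (1 : G) ∉ A) (L : Subgroup G) : (Cfsg.IsTISubset A ∧ Subgroup.normalizer A = L) ↔ Cfsg.DadeHypothesis A L (fun _ => ⊥) := by

    have hnorm : ∀ g : G, g ∈ Subgroup.normalizer A ↔ ∀ n, n ∈ A ↔ g * n * g⁻¹ ∈ A :=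
      fun g => Subgroup.mem_set_normalizer_iff
    constructor
    · rintro ⟨hTI, hN⟩
      have hAL : ∀ a ∈ A, a ∈ L := by
        intro a ha
        rw [← hN]
        by_contra hcon
        have h2 := hTI a hcon a ha (by rw [mul_inv_cancel_right]; exact ha)
        exact h1 (h2 ▸ ha)
      have hCL : ∀ a ∈ A, ∀ c ∈ Subgroup.centralizer ({a} : Set G), c ∈ L := by
        intro a ha c hc
        rw [← hN]
        by_contra hcon
        have hca : c * a * c⁻¹ = a := by
          have h2 := (Subgroup.mem_centralizer_iff.mp hc) a rfl
          rw [← h2, mul_inv_cancel_right]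
        have h3 := hTI c hcon a ha (by rw [hca]; exact ha)
        exact h1 (h3 ▸ ha)
      refine ⟨h1, hAL, ?_, ?_, ?_, ?_, ?_, ?_, ?_⟩
      · intro x hx a ha
        rw [← hN] at hx
        exact ((hnorm x).mp hx a).mp ha
      · intro a ha g hg
        by_cases hgN : g ∈ Subgroup.normalizer A
        · exact ⟨g, hN ▸ hgN, rfl⟩
        · exact absurd (hTI g hgN a ha hg ▸ ha) h1
      · intro a ha; exact bot_le
      · intro a ha c hc u hu
        rw [Subgroup.mem_bot] at hu ⊢
        rw [hu]; group
      · intro a ha; exact bot_inf_eq _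
      · intro a ha
        rw [bot_sup_eq]
        exact inf_eq_right.mpr (fun c hc => hCL a ha c hc)
      · intro a ha b hb
        simp
    · intro hD
      have hCL : ∀ a ∈ A, Subgroup.centralizer ({a} : Set G) ≤ L := by
        intro a ha
        have h2 := hD.sup_eq a ha
        rw [bot_sup_eq] at h2
        rw [← h2]; exact inf_le_left
      have hfus : ∀ a ∈ A, ∀ g : G, g * a * g⁻¹ ∈ A → g ∈ L := by
        intro a ha g hg
        obtain ⟨x, hx, hxa⟩ := hD.fusion a ha g hg
        have hc : x⁻¹ * g ∈ Subgroup.centralizer ({a} : Set G) := by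
          rw [Subgroup.mem_centralizer_iff]
          intro y hy
          rw [Set.mem_singleton_iff] at hy; subst hy
          have h2 : x⁻¹ * (x * y * x⁻¹) * g = x⁻¹ * (g * y * g⁻¹) * g := by rw [hxa]
          have e1 : x⁻¹ * (x * y * x⁻¹) * g = y * (x⁻¹ * g) := by group
          have e2 : x⁻¹ * (g * y * g⁻¹) * g = x⁻¹ * g * y := by group
          rw [e1, e2] at h2; exact h2
        have h3 := L.mul_mem hx (hCL a ha hc)
        rwa [mul_inv_cancel_left] at h3
      have hN : Subgroup.normalizer A = L := by
        apply le_antisymm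
        · intro g hg
          obtain ⟨a, ha⟩ := hA
          exact hfus a ha g (((hnorm g).mp hg a).mp ha)
        · intro x hx
          rw [hnorm]
          intro n
          constructor
          · exact hD.conj_mem x hx n
          · intro hn
            have h2 := hD.conj_mem x⁻¹ (L.inv_mem hx) _ hn
            have e : x⁻¹ * (x * n * x⁻¹) * x⁻¹⁻¹ = n := by group
            rwa [e] at h2
      refine ⟨?_, hN⟩
      intro g hg x hx hgx
      exact absurd (hN ▸ hfus x hx g hgx) hg

end Cfsg.Agent.S1497
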