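import Cfsg.Statements.S1498

import Cfsg.Agent.Lib.helper8.CoprimeAction
set_option autoImplicit false
open Cfsg

namespace Cfsg.Agent.S1498

open Cfsg.Agent.Lib.helper8 in
theorem mem_cent_singleton {G : Type*} [Group G] {c a : G} :
    c ∈ Subgroup.centralizer ({a} : Set G) ↔ a * c = c * a := by
  rw [Subgroup.mem_centralizer_iff]
  constructor
  · intro h; exact h a rfl
  · intro h y hy
    rw [Set.mem_singleton_iff] at hy; rw [hy]; exact h

theorem mem_cent_conj {G : Type*} [Group G] (x a c : G) :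
    c ∈ Subgroup.centralizer ({x * a * x⁻¹} : Set G) ↔
      x⁻¹ * c * x ∈ Subgroup.centralizer ({a} : Set G) := by
  rw [mem_cent_singleton, mem_cent_singleton]
  constructor
  · intro h
    calc a * (x⁻¹ * c * x) = x⁻¹ * (x * a * x⁻¹ * c) * x := by group
      _ = x⁻¹ * (c * (x * a * x⁻¹)) * x := by rw [h]
      _ = x⁻¹ * c * x * a := by group
  · intro h
    calc x * a * x⁻¹ * c = x * (a * (x⁻¹ * c * x)) * x⁻¹ := by group
      _ = x * (x⁻¹ * c * x * a) * x⁻¹ := by rw [h]
      _ = c * (x * a * x⁻¹) := by group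

/-- Under the Dade hypothesis for (A, L, H): for a ∈ A and x ∈ L, the subgroup attached to x * a * x⁻¹ is the conjugate of H a by x. -/
theorem result {G : Type*} [Group G] [Finite G] (A : Set G) (L : Subgroup G) (H : G → Subgroup G) (hD : Cfsg.DadeHypothesis A L H) (a : G) (ha : a ∈ A) (x : G) (hx : x ∈ L) : H (x * a * x⁻¹) = (H a).map (MulAut.conj x).toMonoidHom := by

    have ha'A : x * a * x⁻¹ ∈ A := hD.conj_mem x hx a ha
    have hN2 : ∀ y, y ∈ (H a).map (MulAut.conj x).toMonoidHom ↔ x⁻¹ * y * x ∈ H a := by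
      intro y
      rw [Subgroup.mem_map_equiv, MulAut.conj_symm_apply]
    have hcentN1 : Subgroup.centralizer ({x * a * x⁻¹} : Set G) ≤
        Subgroup.normalizer ((H (x * a * x⁻¹) : Subgroup G) : Set G) := by
      apply Cfsg.Agent.Lib.helper8.le_normalizer_of_conj_mem
      intro c hc u hu
      exact hD.conj_mem_H _ ha'A c hc u hu
    have hcentN2 : Subgroup.centralizer ({x * a * x⁻¹} : Set G) ≤
        Subgroup.normalizer (((H a).map (MulAut.conj x).toMonoidHom : Subgroup G) : Set G) := by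
      apply Cfsg.Agent.Lib.helper8.le_normalizer_of_conj_mem
      intro c hc y hy
      rw [hN2] at hy ⊢
      have h1 := hD.conj_mem_H a ha _ ((mem_cent_conj x a c).mp hc) _ hy
      have e : x⁻¹ * (c * y * c⁻¹) * x = x⁻¹ * c * x * (x⁻¹ * y * x) * (x⁻¹ * c * x)⁻¹ := by group
      rw [e]; exact h1
    have hN2cent : (H a).map (MulAut.conj x).toMonoidHom ≤
        Subgroup.centralizer ({x * a * x⁻¹} : Set G) := by
      intro y hy
      rw [hN2] at hy
      exact (mem_cent_conj x a y).mpr (hD.le_centralizer a ha hy)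
    have hQcent : L ⊓ Subgroup.centralizer ({x * a * x⁻¹} : Set G) ≤
        Subgroup.centralizer ({x * a * x⁻¹} : Set G) := inf_le_right
    apply le_antisymm
    · refine Cfsg.Agent.Lib.helper8.le_of_coprime_of_mul
        ((H a).map (MulAut.conj x).toMonoidHom) (L ⊓ Subgroup.centralizer ({x * a * x⁻¹} : Set G))
        (H (x * a * x⁻¹)) (hQcent.trans hcentN2) ?_ (hD.coprime _ ha'A _ ha'A) ?_
      · intro y hy hyQ
        rw [hN2] at hy
        have h1 : x⁻¹ * y * x ∈ H a ⊓ (L ⊓ Subgroup.centralizer ({a} : Set G)) :=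
          Subgroup.mem_inf.mpr ⟨hy, Subgroup.mem_inf.mpr
            ⟨L.mul_mem (L.mul_mem (L.inv_mem hx) (Subgroup.mem_inf.mp hyQ).1) hx,
              (mem_cent_conj x a y).mp (Subgroup.mem_inf.mp hyQ).2⟩⟩
        rw [hD.inf_eq_bot a ha, Subgroup.mem_bot] at h1
        have e : y = x * (x⁻¹ * y * x) * x⁻¹ := by group
        rw [e, h1]; group
      · intro u hu
        have h1 : x⁻¹ * u * x ∈ Subgroup.centralizer ({a} : Set G) :=
          (mem_cent_conj x a u).mp (hD.le_centralizer _ ha'A hu)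
        rw [← hD.sup_eq a ha] at h1
        have hQN : L ⊓ Subgroup.centralizer ({a} : Set G) ≤
            Subgroup.normalizer ((H a : Subgroup G) : Set G) := by
          apply Cfsg.Agent.Lib.helper8.le_normalizer_of_conj_mem
          intro c hc v hv
          exact hD.conj_mem_H a ha c (Subgroup.mem_inf.mp hc).2 v hv
        obtain ⟨n, hn, q, hq, hnq⟩ :=
          (Cfsg.Agent.Lib.helper8.mem_sup_iff_of_le_normalizer hQN _).mp h1
        refine ⟨x * n * x⁻¹, ?_, x * q * x⁻¹, ?_, ?_⟩
        · rw [hN2]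
          have e : x⁻¹ * (x * n * x⁻¹) * x = n := by group
          rw [e]; exact hn
        · refine Subgroup.mem_inf.mpr ⟨L.mul_mem (L.mul_mem hx (Subgroup.mem_inf.mp hq).1)
            (L.inv_mem hx), ?_⟩
          rw [mem_cent_conj]
          have e : x⁻¹ * (x * q * x⁻¹) * x = q := by group
          rw [e]; exact (Subgroup.mem_inf.mp hq).2
        · have e : u = x * (x⁻¹ * u * x) * x⁻¹ := by group
          rw [e, hnq]; group
    · refine Cfsg.Agent.Lib.helper8.le_of_coprime_of_mul (H (x * a * x⁻¹))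
        (L ⊓ Subgroup.centralizer ({x * a * x⁻¹} : Set G))
        ((H a).map (MulAut.conj x).toMonoidHom) (hQcent.trans hcentN1) ?_ ?_ ?_
      · intro y hy hyQ
        have h1 : y ∈ H (x * a * x⁻¹) ⊓ (L ⊓ Subgroup.centralizer ({x * a * x⁻¹} : Set G)) :=
          Subgroup.mem_inf.mpr ⟨hy, hyQ⟩
        rw [hD.inf_eq_bot _ ha'A, Subgroup.mem_bot] at h1
        exact h1
      · rw [Subgroup.card_map_of_injective (MulAut.conj x).injective]
        exact hD.coprime a ha _ ha'A
      · intro y hy
        have h1 := hN2cent hy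
        rw [← hD.sup_eq _ ha'A] at h1
        exact (Cfsg.Agent.Lib.helper8.mem_sup_iff_of_le_normalizer (hQcent.trans hcentN1) _).mp h1

end Cfsg.Agent.S1498
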