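import Cfsg.Statements.S1499

import Cfsg.Agent.Lib.helper8.CoprimeAction
set_option autoImplicit false
open Cfsg

namespace Cfsg.Agent.S1499

theorem mem_cent_singleton {G : Type*} [Group G] {c a : G} :
    c ∈ Subgroup.centralizer ({a} : Set G) ↔ a * c = c * a := by
  rw [Subgroup.mem_centralizer_iff]
  constructor
  · intro h; exact h a rfl
  · intro h y hy
    rw [Set.mem_singleton_iff] at hy; rw [hy]; exact h

theorem dade_pow {G : Type*} [Group G] [Finite G] {A : Set G} {L : Subgroup G}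
    {H : G → Subgroup G} (hD : Cfsg.DadeHypothesis A L H) {a : G} (ha : a ∈ A) {u : G}
    (hu : u ∈ H a) {j : ℕ} (h1 : j ≡ 1 [MOD orderOf a]) (h0 : orderOf u ∣ j) :
    (a * u) ^ j = a := by
  have hcomm : Commute a u := mem_cent_singleton.mp (hD.le_centralizer a ha hu)
  rw [hcomm.mul_pow, orderOf_dvd_iff_pow_eq_one.mp h0, mul_one]
  have h2 : a ^ j = a ^ 1 := pow_eq_pow_iff_modEq.mpr h1
  rw [h2, pow_one]

theorem dade_conj {G : Type*} [Group G] [Finite G] {A : Set G} {L : Subgroup G}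
    {H : G → Subgroup G} (hD : Cfsg.DadeHypothesis A L H) {a b : G} (ha : a ∈ A) (hb : b ∈ A)
    {u v g : G} (hu : u ∈ H a) (hv : v ∈ H b) (hg : g * (a * u) * g⁻¹ = b * v) :
    g * a * g⁻¹ = b := by
  have hmemC : ∀ c ∈ A, c ∈ L ⊓ Subgroup.centralizer ({c} : Set G) := fun c hc =>
    Subgroup.mem_inf.mpr ⟨hD.subset hc, mem_cent_singleton.mpr rfl⟩
  have hoL : ∀ c ∈ A, orderOf c ∣ Nat.card ↥(L ⊓ Subgroup.centralizer ({c} : Set G)) :=
    fun c hc => Subgroup.orderOf_dvd_natCard _ (hmemC c hc)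
  have hoH : ∀ c ∈ A, ∀ w ∈ H c, orderOf w ∣ Nat.card (H c) :=
    fun c _ w hw => Subgroup.orderOf_dvd_natCard _ hw
  have hc : ∀ c ∈ A, ∀ d ∈ A, ∀ w ∈ H c, (orderOf d).Coprime (orderOf w) := by
    intro c hc d hd w hw
    exact (Nat.Coprime.coprime_dvd_left (hoH c hc w hw)
      (Nat.Coprime.coprime_dvd_right (hoL d hd) (hD.coprime c hc d hd))).symm
  have hcop : (orderOf a * orderOf b).Coprime (orderOf u * orderOf v) :=
    Nat.Coprime.mul_left
      (Nat.Coprime.mul_right (hc a ha a ha u hu) (hc b hb a ha v hv))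
      (Nat.Coprime.mul_right (hc a ha b hb u hu) (hc b hb b hb v hv))
  obtain ⟨j, hj1, hj0⟩ := Nat.chineseRemainder hcop 1 0
  have hj1a : j ≡ 1 [MOD orderOf a] := hj1.of_mul_right _
  have hj1b : j ≡ 1 [MOD orderOf b] := hj1.of_mul_left _
  have hj0' : orderOf u * orderOf v ∣ j := (Nat.modEq_zero_iff_dvd).mp hj0
  have hj0u : orderOf u ∣ j := (dvd_mul_right _ _).trans hj0'
  have hj0v : orderOf v ∣ j := (dvd_mul_left _ _).trans hj0'
  have h2 : (g * (a * u) * g⁻¹) ^ j = (b * v) ^ j := by rw [hg]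
  rw [conj_pow, dade_pow hD ha hu hj1a hj0u, dade_pow hD hb hv hj1b hj0v] at h2
  exact h2

/-- Under the Dade hypothesis for (A, L, H), let a, b ∈ A. If an element of the coset a·H(a) is conjugate in G to an element of b·H(b), then a and b are conjugate by an element of L. Moreover the set normaliser of the coset a·H(a) is the centraliser of a. -/
theorem result {G : Type*} [Group G] [Finite G] (A : Set G) (L : Subgroup G) (H : G → Subgroup G) (hD : Cfsg.DadeHypothesis A L H) (a b : G) (ha : a ∈ A) (hb : b ∈ A) : ((∃ u ∈ H a, ∃ v ∈ H b, ∃ g : G, g * (a * u) * g⁻¹ = b * v) → ∃ x ∈ L, x * a * x⁻¹ = b) ∧ Subgroup.normalizer ((fun u : G => a * u) '' (H a : Set G)) = Subgroup.centralizer ({a} : Set G) := by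

    constructor
    · rintro ⟨u, hu, v, hv, g, hg⟩
      have h1 := dade_conj hD ha hb hu hv hg
      obtain ⟨x, hx, hxa⟩ := hD.fusion a ha g (by rw [h1]; exact hb)
      exact ⟨x, hx, hxa.trans h1⟩
    · apply le_antisymm
      · intro g hg
        rw [Subgroup.mem_set_normalizer_iff] at hg
        have h1 : g * a * g⁻¹ ∈ (fun u : G => a * u) '' (H a : Set G) :=
          (hg a).mp ⟨1, (H a).one_mem, mul_one a⟩
        obtain ⟨u, hu, hua⟩ := h1
        have h2 : g * (a * 1) * g⁻¹ = a * u := by rw [mul_one]; exact hua.symm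
        have h3 := dade_conj hD ha ha (H a).one_mem hu h2
        rw [mem_cent_singleton]
        calc a * g = g * a * g⁻¹ * g := by rw [h3]
          _ = g * a := by group
      · intro c hc
        have hca : a * c = c * a := mem_cent_singleton.mp hc
        have hc' : c⁻¹ ∈ Subgroup.centralizer ({a} : Set G) := Subgroup.inv_mem _ hc
        rw [Subgroup.mem_set_normalizer_iff]
        intro h
        constructor
        · rintro ⟨u, hu, rfl⟩
          refine ⟨c * u * c⁻¹, hD.conj_mem_H a ha c hc u hu, ?_⟩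
          change a * (c * u * c⁻¹) = c * (a * u) * c⁻¹
          calc a * (c * u * c⁻¹) = a * c * u * c⁻¹ := by group
            _ = c * a * u * c⁻¹ := by rw [hca]
            _ = c * (a * u) * c⁻¹ := by group
        · rintro ⟨u, hu, hua⟩
          refine ⟨c⁻¹ * u * c⁻¹⁻¹, hD.conj_mem_H a ha c⁻¹ hc' u hu, ?_⟩
          change a * (c⁻¹ * u * c⁻¹⁻¹) = h
          have hua' : a * u = c * h * c⁻¹ := hua
          have hca' : a * c⁻¹ = c⁻¹ * a := mem_cent_singleton.mp hc'
          calc a * (c⁻¹ * u * c⁻¹⁻¹) = (a * c⁻¹) * u * c := by group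
            _ = c⁻¹ * a * u * c := by rw [hca']
            _ = c⁻¹ * (a * u) * c := by group
            _ = c⁻¹ * (c * h * c⁻¹) * c := by rw [hua']
            _ = h := by group

end Cfsg.Agent.S1499
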