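import Cfsg.Statements.S1504

import Cfsg.Agent.Lib.helper24.CharLin
import Cfsg.Agent.Lib.helper24.CharOrth
import Cfsg.Agent.Lib.helper8.CoprimeAction
set_option autoImplicit false
open Cfsg

namespace Cfsg.Agent.S1504

theorem hom_eq_of_eq_on {G : Type*} [Group G] (W₁ W₂ : Subgroup G)
    (hcomm : ∀ a ∈ W₁, ∀ b ∈ W₂, a * b = b * a) (α β : ↥(W₁ ⊔ W₂) →* ℂˣ)
    (h1 : ∀ w : ↥(W₁ ⊔ W₂), (w : G) ∈ W₁ → α w = β w)
    (h2 : ∀ w : ↥(W₁ ⊔ W₂), (w : G) ∈ W₂ → α w = β w) : α = β := by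
  apply MonoidHom.ext
  intro w
  have hnorm : W₂ ≤ Subgroup.normalizer (W₁ : Set G) := by
    apply Cfsg.Agent.Lib.helper8.le_normalizer_of_conj_mem
    intro a ha x hx
    have := hcomm x hx a ha
    have e : a * x * a⁻¹ = x := by rw [← this]; group
    rw [e]; exact hx
  obtain ⟨n, hn, a, ha, hw⟩ :=
    (Cfsg.Agent.Lib.helper8.mem_sup_iff_of_le_normalizer hnorm (w : G)).mp w.2
  have hw' : w = ⟨n, Subgroup.mem_sup_left hn⟩ * ⟨a, Subgroup.mem_sup_right ha⟩ := Subtype.ext hw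
  rw [hw', map_mul, map_mul, h1 _ hn, h2 _ ha]

open Cfsg.Agent.Lib.helper24 in
theorem hom_orthonormal {W : Type*} [Group W] [Fintype W] (α β : W →* ℂˣ) [Decidable (α = β)] :
    Cfsg.classInner (fun w => (α w : ℂ)) (fun w => (β w : ℂ)) = if α = β then 1 else 0 := by
  classical
  have h := irr_orthonormal (⟨fun w => (α w : ℂ), isIrrCharacter_of_hom α⟩ : Cfsg.IrrCharacter W)
    ⟨fun w => (β w : ℂ), isIrrCharacter_of_hom β⟩
  rw [h]
  have : ((⟨fun w => (α w : ℂ), isIrrCharacter_of_hom α⟩ : Cfsg.IrrCharacter W) =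
      ⟨fun w => (β w : ℂ), isIrrCharacter_of_hom β⟩) ↔ α = β := by
    constructor
    · intro h
      have h' := congrArg Subtype.val h
      apply MonoidHom.ext; intro w
      exact Units.ext (congrFun h' w)
    · rintro rfl; rfl
  simp only [this]

open Cfsg.Agent.Lib.helper24 in
theorem inner_one_sub_mul {W : Type*} [Group W] [Fintype W] (φ ψ ω : W →* ℂˣ) :
    Cfsg.classInner (fun w => 1 - (φ w : ℂ) - (ψ w : ℂ) + (φ w : ℂ) * (ψ w : ℂ))
      (fun w => (ω w : ℂ)) =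
      (if 1 = ω then 1 else 0) - (if φ = ω then 1 else 0) - (if ψ = ω then 1 else 0)
        + (if φ * ψ = ω then 1 else 0) := by
  classical
  have e : (fun w => 1 - (φ w : ℂ) - (ψ w : ℂ) + (φ w : ℂ) * (ψ w : ℂ)) =
      (fun w => (((1 : W →* ℂˣ) w : ℂˣ) : ℂ)) - (fun w => (φ w : ℂ)) - (fun w => (ψ w : ℂ))
        + (fun w => (((φ * ψ) w : ℂˣ) : ℂ)) := by
    funext w
    rfl
  rw [e, classInner_add_left, classInner_sub_left, classInner_sub_left, hom_orthonormal,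
    hom_orthonormal, hom_orthonormal, hom_orthonormal]

/-- Let W₁, W₂ be subgroups of a finite group with W₁ ⊓ W₂ = ⊥ whose elements commute, and W = W₁ ⊔ W₂. For linear characters φ, ψ of W with φ trivial on W₂ and ψ trivial on W₁, the function (1 − φ)(1 − ψ) vanishes on W₁ ∪ W₂; and the family of these functions, indexed by pairs (φ, ψ) with φ ≠ 1 ≠ ψ, is linearly independent over ℂ. -/
theorem result {G : Type*} [Group G] [Finite G] (W₁ W₂ : Subgroup G) (hdisj : W₁ ⊓ W₂ = ⊥) (hcomm : ∀ a ∈ W₁, ∀ b ∈ W₂, a * b = b * a) : (∀ φ ψ : ↥(W₁ ⊔ W₂) →* ℂˣ, (∀ w : ↥(W₁ ⊔ W₂), (w : G) ∈ W₂ → φ w = 1) → (∀ w : ↥(W₁ ⊔ W₂), (w : G) ∈ W₁ → ψ w = 1) → ∀ w : ↥(W₁ ⊔ W₂), ((w : G) ∈ W₁ ∨ (w : G) ∈ W₂) → (1 - (φ w : ℂ) - (ψ w : ℂ) + (φ w : ℂ) * (ψ w : ℂ)) = 0) ∧ LinearIndependent ℂ (fun p : {p : (↥(W₁ ⊔ W₂) →* ℂˣ) × (↥(W₁ ⊔ W₂) →* ℂˣ) // p.1 ≠ 1 ∧ p.2 ≠ 1 ∧ (∀ w : ↥(W₁ ⊔ W₂), (w : G) ∈ W₂ → p.1 w = 1) ∧ (∀ w : ↥(W₁ ⊔ W₂),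 (w : G) ∈ W₁ → p.2 w = 1)} => fun w : ↥(W₁ ⊔ W₂) => 1 - (p.1.1 w : ℂ) - (p.1.2 w : ℂ) + (p.1.1 w : ℂ) * (p.1.2 w : ℂ)) := by

    classical
    have := Fintype.ofFinite ↥(W₁ ⊔ W₂)
    refine ⟨?_, ?_⟩
    · intro φ ψ hφ hψ w hw
      rcases hw with hw | hw
      · rw [hψ w hw]; simp
      · rw [hφ w hw]; simp
    · rw [linearIndependent_iff']
      intro s g hsum p₀ hp₀
      have h0 := congrArg (fun f => Cfsg.classInner f
        (fun w => (((p₀.1.1 * p₀.1.2) w : ℂˣ) : ℂ))) hsum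
      beta_reduce at h0
      rw [Cfsg.Agent.Lib.helper24.classInner_sum_left,
        Cfsg.Agent.Lib.helper24.classInner_zero_left] at h0
      have hone : ∀ α : ↥(W₁ ⊔ W₂) →* ℂˣ, (∀ w : ↥(W₁ ⊔ W₂), (w : G) ∈ W₁ → α w = 1) →
          (∀ w : ↥(W₁ ⊔ W₂), (w : G) ∈ W₂ → α w = 1) → α = 1 := by
        intro α h1 h2
        apply hom_eq_of_eq_on W₁ W₂ hcomm
        · intro w hw; rw [h1 w hw]; rfl
        · intro w hw; rw [h2 w hw]; rfl
      have key : ∀ p : {p : (↥(W₁ ⊔ W₂) →* ℂˣ) × (↥(W₁ ⊔ W₂) →* ℂˣ) // p.1 ≠ 1 ∧ p.2 ≠ 1 ∧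
          (∀ w : ↥(W₁ ⊔ W₂), (w : G) ∈ W₂ → p.1 w = 1) ∧
          (∀ w : ↥(W₁ ⊔ W₂), (w : G) ∈ W₁ → p.2 w = 1)},
          Cfsg.classInner (fun w : ↥(W₁ ⊔ W₂) => 1 - (p.1.1 w : ℂ) - (p.1.2 w : ℂ)
            + (p.1.1 w : ℂ) * (p.1.2 w : ℂ)) (fun w => (((p₀.1.1 * p₀.1.2) w : ℂˣ) : ℂ)) =
            if p = p₀ then 1 else 0 := by
        rintro ⟨⟨φ, ψ⟩, hφ1, hψ1, hφ2, hψ2⟩
        obtain ⟨⟨φ₀, ψ₀⟩, hφ₀1, hψ₀1, hφ₀2, hψ₀2⟩ := p₀
        simp only at hφ1 hψ1 hφ2 hψ2 hφ₀1 hψ₀1 hφ₀2 hψ₀2 ⊢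
        rw [inner_one_sub_mul]
        have n1 : (1 : ↥(W₁ ⊔ W₂) →* ℂˣ) ≠ φ₀ * ψ₀ := by
          intro h
          apply hφ₀1
          apply hone _ _ hφ₀2
          intro w hw
          have := DFunLike.congr_fun h w
          rw [MonoidHom.mul_apply, hψ₀2 w hw, mul_one] at this
          rw [← this]; rfl
        have n2 : φ ≠ φ₀ * ψ₀ := by
          intro h
          apply hψ₀1
          apply hone _ hψ₀2
          intro w hw
          have := DFunLike.congr_fun h w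
          rw [MonoidHom.mul_apply, hφ₀2 w hw, one_mul, hφ2 w hw] at this
          exact this.symm
        have n3 : ψ ≠ φ₀ * ψ₀ := by
          intro h
          apply hφ₀1
          apply hone _ _ hφ₀2
          intro w hw
          have := DFunLike.congr_fun h w
          rw [MonoidHom.mul_apply, hψ₀2 w hw, mul_one, hψ2 w hw] at this
          exact this.symm
        rw [if_neg n1, if_neg n2, if_neg n3]
        by_cases hpp : φ * ψ = φ₀ * ψ₀
        · have e1 : φ = φ₀ := by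
            apply hom_eq_of_eq_on W₁ W₂ hcomm
            · intro w hw
              have := DFunLike.congr_fun hpp w
              rw [MonoidHom.mul_apply, MonoidHom.mul_apply, hψ₀2 w hw, hψ2 w hw, mul_one,
                mul_one] at this
              exact this
            · intro w hw
              rw [hφ2 w hw, hφ₀2 w hw]
          have e2 : ψ = ψ₀ := by
            apply hom_eq_of_eq_on W₁ W₂ hcomm
            · intro w hw
              rw [hψ2 w hw, hψ₀2 w hw]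
            · intro w hw
              have := DFunLike.congr_fun hpp w
              rw [MonoidHom.mul_apply, MonoidHom.mul_apply, hφ₀2 w hw, hφ2 w hw, one_mul,
                one_mul] at this
              exact this
          subst e1 e2
          simp
        · rw [if_neg hpp, if_neg]
          · simp
          · intro h
            apply hpp
            have h' := congrArg Subtype.val h
            simp only [Prod.mk.injEq] at h'
            rw [h'.1, h'.2]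
      have h1 : ∑ i ∈ s, Cfsg.classInner (g i • (fun w : ↥(W₁ ⊔ W₂) => 1 - (i.1.1 w : ℂ) - (i.1.2 w : ℂ)
            + (i.1.1 w : ℂ) * (i.1.2 w : ℂ))) (fun w => (((p₀.1.1 * p₀.1.2) w : ℂˣ) : ℂ)) = g p₀ := by
        rw [Finset.sum_eq_single p₀]
        · rw [Cfsg.Agent.Lib.helper24.classInner_smul_left, key, if_pos rfl, mul_one]
        · intro p _ hp
          rw [Cfsg.Agent.Lib.helper24.classInner_smul_left, key, if_neg hp, mul_zero]
        · intro h; exact absurd hp₀ h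
      rw [← h1]
      exact h0

end Cfsg.Agent.S1504
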