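import Cfsg.Statements.S1509

import Cfsg.Agent.Lib.helper24.CharNormal
set_option autoImplicit false
open Cfsg

namespace Cfsg.Agent.S1509

open Cfsg.Agent.Lib.helper24 in
theorem signed_irr {X : Type*} [Group X] (α : X → ℂ)
    (h : Cfsg.IsIrrCharacter X α ∨ Cfsg.IsIrrCharacter X (-α)) :
    ∃ (ε : ℝ) (χ : Cfsg.IrrCharacter X) (n : ℝ), (ε = 1 ∨ ε = -1) ∧ 0 < n ∧ χ.1 1 = (n : ℂ) ∧
      α = (ε : ℂ) • χ.1 := by
  rcases h with h | h
  · obtain ⟨n, hn, hn1⟩ := isIrrCharacter_one h
    exact ⟨1, ⟨α, h⟩, n, Or.inl rfl, by exact_mod_cast hn, by simpa using hn1, by simp⟩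
  · obtain ⟨n, hn, hn1⟩ := isIrrCharacter_one h
    exact ⟨-1, ⟨-α, h⟩, n, Or.inr rfl, by exact_mod_cast hn, by simpa using hn1, by simp⟩

open Cfsg.Agent.Lib.helper24 in
theorem inner_signed {X : Type*} [Group X] [Fintype X] (ε₁ ε₂ : ℝ) (χ₁ χ₂ : Cfsg.IrrCharacter X)
    [Decidable (χ₁ = χ₂)] :
    Cfsg.classInner ((ε₁ : ℂ) • χ₁.1) ((ε₂ : ℂ) • χ₂.1) =
      ((ε₁ * ε₂ * (if χ₁ = χ₂ then 1 else 0) : ℝ) : ℂ) := by
  classical
  rw [classInner_smul_left, classInner_smul_right, irr_orthonormal, Complex.conj_ofReal]
  split_ifs <;> push_cast <;> ring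

theorem sign_eq_of_mul_eq {εa εb na nb : ℝ} (ha : εa = 1 ∨ εa = -1) (hb : εb = 1 ∨ εb = -1)
    (hna : 0 < na) (hnb : 0 < nb) (h : εa * na = εb * nb) : εa = εb ∧ na = nb := by
  rcases ha with rfl | rfl <;> rcases hb with rfl | rfl
  · exact ⟨rfl, by linarith⟩
  · exfalso; linarith
  · exfalso; linarith
  · exact ⟨rfl, by linarith⟩

theorem signs_contra {εa εb εc εd n u v : ℝ} (ha : εa = 1 ∨ εa = -1)
    (hc : εc = 1 ∨ εc = -1) (hd : εd = 1 ∨ εd = -1) (hn : 0 < n) (hu : u ≠ 0) (hv : v ≠ 0)
    (hab : εa = εb) (h2 : u * (εc * n) = v * (εd * n))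
    (h3 : u * (εa * εc) + v * (εb * εd) = 0) : False := by
  subst hab
  have h4 : u * εc = v * εd := by
    have : (u * εc - v * εd) * n = 0 := by linarith
    rcases mul_eq_zero.mp this with h | h
    · linarith
    · exact absurd h hn.ne'
  have h5 : εa * (u * εc + v * εd) = 0 := by linarith
  have h6 : u * εc + v * εd = 0 := by
    rcases mul_eq_zero.mp h5 with h | h
    · rcases ha with rfl | rfl <;> norm_num at h
    · exact h
  have h7 : u * εc = 0 := by linarith
  rcases mul_eq_zero.mp h7 with h | h
  · exact hu h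
  · rcases hc with rfl | rfl <;> norm_num at h

/-- Let α, β, γ, δ be functions on a finite group X each of which is an irreducible character or the negative of one, and u, v nonzero real numbers. Suppose ⟨α, β⟩ = ⟨γ, δ⟩ = 0, ⟨α − β, uγ − vδ⟩ = 0, α 1 = β 1 and u γ 1 = v δ 1. Then also ⟨α, γ⟩ = ⟨α, δ⟩ = ⟨β, γ⟩ = ⟨β, δ⟩ = 0. -/
theorem result {X : Type*} [Group X] [Fintype X] (α β γ δ : X → ℂ) (hα : Cfsg.IsIrrCharacter X α ∨ Cfsg.IsIrrCharacter X (-α)) (hβ : Cfsg.IsIrrCharacter X β ∨ Cfsg.IsIrrCharacter X (-β)) (hγ : Cfsg.IsIrrCharacter X γ ∨ Cfsg.IsIrrCharacter X (-γ)) (hδ : Cfsg.IsIrrCharacter X δ ∨ Cfsg.IsIrrCharacter X (-δ)) (u v : ℝ) (hu : u ≠ 0) (hv : v ≠ 0) (hab : Cfsg.classInner α β = 0) (hcd : Cfsg.classInner γ δ = 0) (hmix : Cfsg.classInner (α - β) ((u : ℂ) • γ - (v : ℂ) • δ) = 0) (h1 : α 1 = β 1) (h2 : (u : ℂ) * γ 1 = (v : ℂ) * δ 1) : Cfsg.classInner α γ = 0 ∧ Cfsg.classInner α δ = 0 ∧ Cfsg.classInner β γ = 0 ∧ Cfsg.classInner β δ = 0 := by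

    classical
    obtain ⟨εa, χa, na, hεa, hna, hna1, rfl⟩ := signed_irr α hα
    obtain ⟨εb, χb, nb, hεb, hnb, hnb1, rfl⟩ := signed_irr β hβ
    obtain ⟨εc, χc, nc, hεc, hnc, hnc1, rfl⟩ := signed_irr γ hγ
    obtain ⟨εd, χd, nd, hεd, hnd, hnd1, rfl⟩ := signed_irr δ hδ
    have hεa0 : εa ≠ 0 := by rcases hεa with rfl | rfl <;> norm_num
    have hεb0 : εb ≠ 0 := by rcases hεb with rfl | rfl <;> norm_num
    have hεc0 : εc ≠ 0 := by rcases hεc with rfl | rfl <;> norm_num
    have hεd0 : εd ≠ 0 := by rcases hεd with rfl | rfl <;> norm_num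
    rw [inner_signed] at hab hcd
    have hneab : χa ≠ χb := by
      intro h
      rw [if_pos h] at hab
      have : εa * εb * 1 = 0 := by exact_mod_cast hab
      rcases mul_eq_zero.mp (by linarith : εa * εb = 0) with h | h
      · exact hεa0 h
      · exact hεb0 h
    have hnecd : χc ≠ χd := by
      intro h
      rw [if_pos h] at hcd
      have : εc * εd * 1 = 0 := by exact_mod_cast hcd
      rcases mul_eq_zero.mp (by linarith : εc * εd = 0) with h | h
      · exact hεc0 h
      · exact hεd0 h
    have h1' : εa * na = εb * nb := by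
      simp only [Pi.smul_apply, smul_eq_mul, hna1, hnb1] at h1
      exact_mod_cast h1
    have h2' : u * (εc * nc) = v * (εd * nd) := by
      simp only [Pi.smul_apply, smul_eq_mul, hnc1, hnd1] at h2
      exact_mod_cast h2
    obtain ⟨hεab, hnab⟩ := sign_eq_of_mul_eq hεa hεb hna hnb h1'
    have hmix' : u * (εa * εc * (if χa = χc then 1 else 0)) - v * (εa * εd * (if χa = χd then 1 else 0))
        - (u * (εb * εc * (if χb = χc then 1 else 0)) - v * (εb * εd * (if χb = χd then 1 else 0))) = 0 := by
      simp only [Cfsg.Agent.Lib.helper24.classInner_sub_left, Cfsg.Agent.Lib.helper24.classInner_sub_right,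
        Cfsg.Agent.Lib.helper24.classInner_smul_right, Cfsg.Agent.Lib.helper24.classInner_smul_left,
        Cfsg.Agent.Lib.helper24.irr_orthonormal, Complex.conj_ofReal] at hmix
      have h0 : ((u * (εa * εc * (if χa = χc then 1 else 0)) - v * (εa * εd * (if χa = χd then 1 else 0))
        - (u * (εb * εc * (if χb = χc then 1 else 0)) - v * (εb * εd * (if χb = χd then 1 else 0))) : ℝ) : ℂ) = 0 := by
        have e : ∀ (P : Prop) [Decidable P], ((if P then (1:ℝ) else 0 : ℝ) : ℂ) = if P then 1 else 0 :=
          fun P _ => by split_ifs <;> simp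
        push_cast
        simp only [e]
        linear_combination hmix
      exact_mod_cast h0
    have key : χa ≠ χc ∧ χa ≠ χd ∧ χb ≠ χc ∧ χb ≠ χd := by
      by_cases hac : χa = χc
      · exfalso
        have had : χa ≠ χd := fun h => hnecd (hac.symm.trans h)
        have hbc : χb ≠ χc := fun h => hneab (hac.trans h.symm)
        rw [if_pos hac, if_neg had, if_neg hbc] at hmix'
        by_cases hbd : χb = χd
        · rw [if_pos hbd] at hmix'
          have hnc' : nc = na := by
            have : (nc : ℂ) = (na : ℂ) := by rw [← hnc1, ← hna1, hac]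
            exact_mod_cast this
          have hnd' : nd = na := by
            have : (nd : ℂ) = (nb : ℂ) := by rw [← hnd1, ← hnb1, hbd]
            rw [hnab]; exact_mod_cast this
          rw [hnc', hnd'] at h2'
          exact signs_contra hεa hεc hεd hna hu hv hεab h2' (by linarith)
        · rw [if_neg hbd] at hmix'
          have : u * (εa * εc) = 0 := by linarith
          rcases mul_eq_zero.mp this with h | h
          · exact hu h
          · rcases mul_eq_zero.mp h with h | h
            · exact hεa0 h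
            · exact hεc0 h
      · by_cases had : χa = χd
        · exfalso
          have hbd : χb ≠ χd := fun h => hneab (had.trans h.symm)
          rw [if_neg hac, if_pos had, if_neg hbd] at hmix'
          by_cases hbc : χb = χc
          · rw [if_pos hbc] at hmix'
            have hnd' : nd = na := by
              have : (nd : ℂ) = (na : ℂ) := by rw [← hnd1, ← hna1, had]
              exact_mod_cast this
            have hnc' : nc = na := by
              have : (nc : ℂ) = (nb : ℂ) := by rw [← hnc1, ← hnb1, hbc]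
              rw [hnab]; exact_mod_cast this
            rw [hnc', hnd'] at h2'
            exact signs_contra (εa := εa) (εb := εb) (εc := εd) (εd := εc) (u := v) (v := u)
              hεa hεd hεc hna hv hu hεab h2'.symm (by linarith)
          · rw [if_neg hbc] at hmix'
            have : v * (εa * εd) = 0 := by linarith
            rcases mul_eq_zero.mp this with h | h
            · exact hv h
            · rcases mul_eq_zero.mp h with h | h
              · exact hεa0 h
              · exact hεd0 h
        · rw [if_neg hac, if_neg had] at hmix'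
          refine ⟨hac, had, ?_, ?_⟩
          · intro hbc
            have hbd : χb ≠ χd := fun h => hnecd (hbc.symm.trans h)
            rw [if_pos hbc, if_neg hbd] at hmix'
            have : u * (εb * εc) = 0 := by linarith
            rcases mul_eq_zero.mp this with h | h
            · exact hu h
            · rcases mul_eq_zero.mp h with h | h
              · exact hεb0 h
              · exact hεc0 h
          · intro hbd
            have hbc : χb ≠ χc := fun h => hnecd (h.symm.trans hbd)
            rw [if_neg hbc, if_pos hbd] at hmix'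
            have : v * (εb * εd) = 0 := by linarith
            rcases mul_eq_zero.mp this with h | h
            · exact hv h
            · rcases mul_eq_zero.mp h with h | h
              · exact hεb0 h
              · exact hεd0 h
    obtain ⟨k1, k2, k3, k4⟩ := key
    refine ⟨?_, ?_, ?_, ?_⟩
    · rw [inner_signed, if_neg k1]; simp
    · rw [inner_signed, if_neg k2]; simp
    · rw [inner_signed, if_neg k3]; simp
    · rw [inner_signed, if_neg k4]; simp

end Cfsg.Agent.S1509
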