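import Cfsg.Statements.S1510

set_option autoImplicit false
open Cfsg

namespace Cfsg.Agent.S1510

/-- Let L be a finite group with a normal subgroup K and a nontrivial cyclic subgroup W₁ of order coprime to its index, K ⊓ W₁ = ⊥ and K ⊔ W₁ = ⊤; let W₂ ≠ ⊥ be a cyclic subgroup of K with K ⊓ C_L(x) = W₂ for every non-identity x ∈ W₁, and suppose W₁ ⊔ W₂ has odd order. Then (W₁, W₂) is a self-normalising cyclic pair in L. -/
theorem result {L : Type*} [Group L] [Fintype L] (K W₁ W₂ : Subgroup L) [hK : K.Normal] (hKW₁ : K ⊓ W₁ = ⊥) (hKW₁' : K ⊔ W₁ = ⊤) (hW₁ : W₁ ≠ ⊥) (hW₁c : IsCyclic W₁) (hHall : Nat.Coprime (Nat.card W₁) W₁.index) (hW₂ : W₂ ≠ ⊥) (hW₂c : IsCyclic W₂) (hW₂K : W₂ ≤ K) (hC : ∀ x ∈ W₁, x ≠ 1 → K ⊓ Subgroup.centralizer ({x} : Set L) = W₂) (hodd : Odd (Nat.card ↥(W₁ ⊔ W₂))) : Cfsg.IsSelfNormalizingCyclic W₁ W₂ := by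

  classical
  have hdisj : W₁ ⊓ W₂ = ⊥ := by
    apply le_antisymm _ bot_le
    rw [← hKW₁]
    exact le_inf (inf_le_right.trans hW₂K) inf_le_left
  have hcomm : ∀ a ∈ W₁, ∀ b ∈ W₂, a * b = b * a := by
    intro a ha b hb
    by_cases h : a = 1
    · subst h; simp
    · have hb' : b ∈ K ⊓ Subgroup.centralizer ({a} : Set L) := by rw [hC a ha h]; exact hb
      exact Subgroup.mem_centralizer_iff.mp hb'.2 a rfl
  have hcompl : Subgroup.IsComplement' K W₁ := by
    apply Subgroup.isComplement'_of_disjoint_and_mul_eq_univ (disjoint_iff.mpr hKW₁)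
    rw [← Subgroup.normal_mul, hKW₁']; rfl
  have hcard : Nat.card K * Nat.card W₁ = Nat.card L := hcompl.card_mul_card
  have hKidx : Nat.card K = W₁.index := by
    have h1 := W₁.card_mul_index
    have hpos : 0 < Nat.card W₁ := Nat.card_pos
    apply Nat.eq_of_mul_eq_mul_left hpos
    rw [h1, ← hcard, mul_comm]
  have hcop : (Nat.card W₁).Coprime (Nat.card W₂) := by
    apply Nat.Coprime.coprime_dvd_right (Subgroup.card_dvd_of_le hW₂K)
    rw [hKidx]; exact hHall
  have hcomm' : ∀ (m : W₁) (n : W₂), Commute (W₁.subtype m) (W₂.subtype n) := fun m n => hcomm m m.2 n n.2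
  let f : W₁ × W₂ →* L := MonoidHom.noncommCoprod W₁.subtype W₂.subtype hcomm'
  have hrange : f.range = W₁ ⊔ W₂ := by
    show (MonoidHom.noncommCoprod W₁.subtype W₂.subtype hcomm').range = W₁ ⊔ W₂
    rw [MonoidHom.noncommCoprod_range]; simp
  have hcyc : IsCyclic ↥(W₁ ⊔ W₂) := by
    rw [← hrange]
    have : IsCyclic (W₁ × W₂) := Group.isCyclic_prod_iff.mpr ⟨hW₁c, hW₂c, hcop⟩
    exact isCyclic_of_surjective f.rangeRestrict f.rangeRestrict_surjective
  have hdecomp : ∀ w ∈ W₁ ⊔ W₂, ∃ a ∈ W₁, ∃ b ∈ W₂, w = a * b := by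
    intro w hw
    rw [← hrange] at hw
    obtain ⟨⟨a, b⟩, rfl⟩ := hw
    exact ⟨a, a.2, b, b.2, by show (MonoidHom.noncommCoprod W₁.subtype W₂.subtype hcomm') (a, b) = _; rw [MonoidHom.noncommCoprod_apply]; rfl⟩
  have hW₁comm : ∀ a ∈ W₁, ∀ a' ∈ W₁, a * a' = a' * a := by
    intro a ha a' ha'
    have := (IsCyclic.commGroup (α := W₁)).mul_comm ⟨a, ha⟩ ⟨a', ha'⟩
    exact congrArg Subtype.val this
  have hW₂comm : ∀ a ∈ W₂, ∀ a' ∈ W₂, a * a' = a' * a := by
    intro a ha a' ha'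
    have := (IsCyclic.commGroup (α := W₂)).mul_comm ⟨a, ha⟩ ⟨a', ha'⟩
    exact congrArg Subtype.val this
  have hWcomm : ∀ x ∈ W₁ ⊔ W₂, ∀ y ∈ W₁ ⊔ W₂, x * y = y * x := by
    intro x hx y hy
    obtain ⟨a, ha, b, hb, rfl⟩ := hdecomp x hx
    obtain ⟨a', ha', b', hb', rfl⟩ := hdecomp y hy
    calc a * b * (a' * b') = a * (b * a') * b' := by group
      _ = a * (a' * b) * b' := by rw [hcomm a' ha' b hb]
      _ = (a * a') * (b * b') := by group
      _ = (a' * a) * (b' * b) := by rw [hW₁comm a ha a' ha', hW₂comm b hb b' hb']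
      _ = a' * (a * b') * b := by group
      _ = a' * (b' * a) * b := by rw [hcomm a ha b' hb']
      _ = a' * b' * (a * b) := by group
  refine ⟨hW₁, hW₂, hdisj, hcomm, hcyc, ?_⟩
  intro X hX hXne
  apply le_antisymm
  · intro g hg
    obtain ⟨w, hwX⟩ := hXne
    have hwW := (hX hwX).1
    have hwn := (hX hwX).2
    obtain ⟨a, ha, b, hb, rfl⟩ := hdecomp w hwW
    have ha1 : a ≠ 1 := by
      rintro rfl
      apply hwn; right; simpa using hb
    have hgw : g * (a * b) * g⁻¹ ∈ X := (Subgroup.mem_set_normalizer_iff.mp hg (a * b)).mp hwX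
    obtain ⟨a', ha', b', hb', hab'⟩ := hdecomp _ (hX hgw).1
    have hgtop : g ∈ K ⊔ W₁ := by rw [hKW₁']; trivial
    obtain ⟨k, hk, u, hu, rfl⟩ := Subgroup.mem_sup_of_normal_left.mp hgtop
    have hu_ab : u * (a * b) * u⁻¹ = a * b := by
      have := hWcomm u (Subgroup.mem_sup_left hu) (a * b) hwW
      rw [this]; group
    have hk_ab : k * (a * b) * k⁻¹ = a' * b' := by
      rw [← hab']
      have : k * u * (a * b) * (k * u)⁻¹ = k * (u * (a * b) * u⁻¹) * k⁻¹ := by group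
      rw [this, hu_ab]
    have ha'a : a' = a := by
      have h1 : a' * a⁻¹ ∈ K := by
        have e : a' * a⁻¹ = (a' * b'⁻¹ * a'⁻¹) * ((k * (a * b) * k⁻¹) * a⁻¹) := by rw [hk_ab]; group
        have e2 : (k * (a * b) * k⁻¹) * a⁻¹ = k * ((a * b) * k⁻¹ * (a * b)⁻¹) * (a * b * a⁻¹) := by group
        rw [e, e2]
        exact K.mul_mem (hK.conj_mem _ (K.inv_mem (hW₂K hb')) _)
          (K.mul_mem (K.mul_mem hk (hK.conj_mem _ (K.inv_mem hk) _)) (hK.conj_mem _ (hW₂K hb) _))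
      have h2 : a' * a⁻¹ ∈ W₁ := W₁.mul_mem ha' (W₁.inv_mem ha)
      have h3 : a' * a⁻¹ ∈ K ⊓ W₁ := ⟨h1, h2⟩
      rw [hKW₁] at h3
      exact mul_inv_eq_one.mp (Subgroup.mem_bot.mp h3)
    subst ha'a
    have hm : 1 < Nat.card W₁ := by
      rw [Subgroup.one_lt_card_iff_ne_bot]; exact hW₁
    obtain ⟨t, -, ht⟩ := Nat.exists_mul_mod_eq_one_of_coprime hcop.symm hm
    have hpowa : ∀ x ∈ W₁, x ^ (Nat.card W₂ * t) = x := by
      intro x hx
      have h1 : x ^ Nat.card W₁ = 1 := orderOf_dvd_iff_pow_eq_one.mp (Subgroup.orderOf_dvd_natCard W₁ hx)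
      have h2 := Nat.div_add_mod (Nat.card W₂ * t) (Nat.card W₁)
      rw [ht] at h2
      rw [← h2, pow_add, pow_mul, h1, one_pow, one_mul, pow_one]
    have hpowb : ∀ x ∈ W₂, x ^ (Nat.card W₂ * t) = 1 := by
      intro x hx
      have h1 : x ^ Nat.card W₂ = 1 := orderOf_dvd_iff_pow_eq_one.mp (Subgroup.orderOf_dvd_natCard W₂ hx)
      rw [pow_mul, h1, one_pow]
    have hkey : k * a' * k⁻¹ = a' := by
      have e1 : (k * (a' * b) * k⁻¹) ^ (Nat.card W₂ * t) = k * a' * k⁻¹ := by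
        rw [conj_pow, (show Commute a' b from hcomm a' ha b hb).mul_pow, hpowa a' ha, hpowb b hb, mul_one]
      have e2 : (a' * b') ^ (Nat.card W₂ * t) = a' := by
        rw [(show Commute a' b' from hcomm a' ha b' hb').mul_pow, hpowa a' ha, hpowb b' hb', mul_one]
      rw [← e1, hk_ab, e2]
    have hkW₂ : k ∈ W₂ := by
      rw [← hC a' ha ha1]
      have hkc : k ∈ Subgroup.centralizer ({a'} : Set L) := by
        rw [Subgroup.mem_centralizer_iff]
        intro h hh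
        rw [Set.mem_singleton_iff] at hh; subst hh
        calc h * k = (k * h * k⁻¹) * k := by rw [hkey]
          _ = k * h := by group
      exact ⟨hk, hkc⟩
    exact Subgroup.mul_mem _ (Subgroup.mem_sup_right hkW₂) (Subgroup.mem_sup_left hu)
  · intro g hg
    rw [Subgroup.mem_set_normalizer_iff]
    intro h
    constructor
    · intro hh
      have := hWcomm g hg h (hX hh).1
      have e : g * h * g⁻¹ = h := by rw [this]; group
      rw [e]; exact hh
    · intro hh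
      have hW' := (hX hh).1
      have hhW : h ∈ W₁ ⊔ W₂ := by
        have : h = g⁻¹ * (g * h * g⁻¹) * g := by group
        rw [this]; exact mul_mem (mul_mem (inv_mem hg) hW') hg
      have := hWcomm g hg h hhW
      have e : g * h * g⁻¹ = h := by rw [this]; group
      rw [e] at hh; exact hh

end Cfsg.Agent.S1510
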