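import Cfsg.Statements.S1512

import Cfsg.Agent.Lib.helper8.CoprimeAction
set_option autoImplicit false
open Cfsg

namespace Cfsg.Agent.S1512

/-- Let K be a normal subgroup of the finite group L and x a non-identity element whose order is coprime to the order of K, such that K ⊓ C_L(y) = W₂ for every non-identity element y of the cyclic group generated by x. Then the number of conjugacy classes of K mapped to themselves by conjugation by x is at most Nat.card W₂. -/
theorem result {L : Type*} [Group L] [Finite L] (K W₂ : Subgroup L) [hK : K.Normal] (x : L) (hx1 : x ≠ 1) (hx : Nat.Coprime (orderOf x) (Nat.card K)) (hC : ∀ y ∈ Subgroup.zpowers x, y ≠ 1 → K ⊓ Subgroup.centralizer ({y} : Set L) = W₂) : Nat.card {C : ConjClasses K // ConjClasses.map (MulEquiv.toMonoidHom ((MulAut.conjNormal x : MulAut K))) C = C} ≤ Nat.card W₂ := by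

    classical
    have hW : K ⊓ Subgroup.centralizer ({x} : Set L) = W₂ := hC x (Subgroup.mem_zpowers x) hx1
    have hxN : x ∈ Subgroup.normalizer (K : Set L) := by
      rw [Subgroup.normalizer_eq_top]; trivial
    have key : ∀ C : {C : ConjClasses K // ConjClasses.map
        (MulEquiv.toMonoidHom ((MulAut.conjNormal x : MulAut K))) C = C},
        ∃ w : W₂, ∃ k : K, (k : L) = w ∧ ConjClasses.mk k = C.1 := by
      rintro ⟨C, hCfix⟩
      obtain ⟨k, rfl⟩ := ConjClasses.mk_surjective C
      have hCfix' : ConjClasses.mk ((MulAut.conjNormal x : MulAut K) k) = ConjClasses.mk k := hCfix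
      rw [ConjClasses.mk_eq_mk_iff_isConj, isConj_iff] at hCfix'
      obtain ⟨c, hc⟩ := hCfix'
      have hc' : (c : L) * (x * (k : L) * x⁻¹) * (c : L)⁻¹ = k := by
        have := congrArg Subtype.val hc
        simpa using this
      have h1 : ∃ u ∈ K, x * (k : L) * x⁻¹ = u * k * u⁻¹ := by
        refine ⟨(c : L)⁻¹, K.inv_mem c.2, ?_⟩
        have e : x * (k : L) * x⁻¹ = (c : L)⁻¹ * ((c : L) * (x * (k : L) * x⁻¹) * (c : L)⁻¹) * c := by
          group
        rw [e, hc', inv_inv]
      obtain ⟨u, hu, hu2⟩ := Cfsg.Agent.Lib.helper8.exists_conj_commute K x k hxN hx h1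
      have hwK : u * (k : L) * u⁻¹ ∈ K := K.mul_mem (K.mul_mem hu k.2) (K.inv_mem hu)
      have hwC : u * (k : L) * u⁻¹ ∈ Subgroup.centralizer ({x} : Set L) := by
        rw [Subgroup.mem_centralizer_iff]
        intro y hy
        rw [Set.mem_singleton_iff] at hy
        rw [hy]; exact hu2
      have hwW : u * (k : L) * u⁻¹ ∈ W₂ := by
        rw [← hW]; exact Subgroup.mem_inf.mpr ⟨hwK, hwC⟩
      refine ⟨⟨_, hwW⟩, ⟨_, hwK⟩, rfl, ?_⟩
      rw [ConjClasses.mk_eq_mk_iff_isConj, isConj_comm, isConj_iff]
      exact ⟨⟨u, hu⟩, Subtype.ext rfl⟩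
    choose f g hf hg using key
    apply Nat.card_le_card_of_injective f
    intro C₁ C₂ h12
    apply Subtype.ext
    have h3 : g C₁ = g C₂ := Subtype.ext (by rw [hf C₁, hf C₂, h12])
    rw [← hg C₁, ← hg C₂, h3]

end Cfsg.Agent.S1512
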