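import Cfsg.Statements.S1514

import Cfsg.Agent.Lib.helper8.GenChar
import Cfsg.Agent.Lib.helper23.Isometry
import Cfsg.Agent.Lib.helper24.CharNormal
set_option autoImplicit false
open Cfsg

namespace Cfsg.Agent.S1514

open Cfsg.Agent.Lib.helper24 in
theorem classInner_neg_left' {G : Type*} [Group G] [Fintype G] (f ψ : G → ℂ) :
    Cfsg.classInner (-f) ψ = -Cfsg.classInner f ψ := by
  have : -f = (-1 : ℂ) • f := by simp
  rw [this, classInner_smul_left]; ring

open Cfsg.Agent.Lib.helper24 in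
theorem classInner_neg_right' {G : Type*} [Group G] [Fintype G] (f ψ : G → ℂ) :
    Cfsg.classInner f (-ψ) = -Cfsg.classInner f ψ := by
  have : -ψ = (-1 : ℂ) • ψ := by simp
  rw [this, classInner_smul_right]; simp

open Cfsg.Agent.Lib.helper24 in
theorem irr_ne_neg_irr {G : Type*} [Group G] (a b : Cfsg.IrrCharacter G) : a.1 ≠ -b.1 := by
  intro h
  obtain ⟨m, hm, hm1⟩ := isIrrCharacter_one a.2
  obtain ⟨n, hn, hn1⟩ := isIrrCharacter_one b.2
  have h1 := congrFun h 1
  rw [Pi.neg_apply, hm1, hn1] at h1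
  have h2 : ((m : ℝ) : ℂ) = ((-(n : ℝ) : ℝ) : ℂ) := by push_cast; exact h1
  have h3 : (m : ℝ) = -(n : ℝ) := by exact_mod_cast h2
  have hm' : (0 : ℝ) < m := by exact_mod_cast hm
  have hn' : (0 : ℝ) < n := by exact_mod_cast hn
  linarith

theorem conjFun_conjFun {X : Type*} (χ : X → ℂ) : Cfsg.conjFun (Cfsg.conjFun χ) = χ := by
  funext x
  simp [Cfsg.conjFun]

open Cfsg.Agent.Lib.helper24 in
theorem four_irr_orth {G : Type*} [Group G] [Fintype G] {a b a' b' : Cfsg.IrrCharacter G}
    (h : a ≠ b) (h' : a' ≠ b') (hin : Cfsg.classInner (a.1 - b.1) (a'.1 - b'.1) = 0) :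
    a ≠ a' ∧ a ≠ b' ∧ b ≠ a' ∧ b ≠ b' := by
  classical
  rw [classInner_sub_left, classInner_sub_right, classInner_sub_right, irr_orthonormal,
    irr_orthonormal, irr_orthonormal, irr_orthonormal] at hin
  by_cases h1 : a = a' <;> by_cases h2 : b = b' <;> by_cases h3 : a = b' <;>
    by_cases h4 : b = a' <;> simp_all <;> norm_num at hin

/-- Let S be a nonempty set of irreducible characters of the finite group L, closed under complex conjugation and containing no real-valued member, and τ a linear isometry on the integer combinations of S vanishing at 1, with values virtual characters of G vanishing at 1. Then there is a choice R making (S, τ, R) a coherence system. -/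
theorem result {L : Type*} [Group L] [Fintype L] {G : Type*} [Group G] [Fintype G] (S : Set (L → ℂ)) (hS : S.Nonempty) (hirr : ∀ χ ∈ S, Cfsg.IsIrrCharacter L χ) (hconj : ∀ χ ∈ S, Cfsg.conjFun χ ∈ S ∧ Cfsg.conjFun χ ≠ χ) (τ : (L → ℂ) → (G → ℂ)) (hτ : Cfsg.IsLinearIsometryOn (Cfsg.zspanOn S {1}ᶜ) τ) (hτ1 : ∀ α ∈ Cfsg.zspanOn S {1}ᶜ, τ α 1 = 0) : ∃ R : (L → ℂ) → Finset (G → ℂ), Cfsg.IsCoherenceSystem S τ R := by

    classical
    obtain ⟨hadd, hsmul, hinner, hgen⟩ := id hτ
    have hirrc : ∀ χ ∈ S, Cfsg.IsIrrCharacter L (Cfsg.conjFun χ) := fun χ h => hirr _ (hconj χ h).1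
    have hmemS : ∀ χ ∈ S, χ - Cfsg.conjFun χ ∈ Cfsg.zspanOn S {1}ᶜ := by
      intro χ hχ
      refine ⟨Submodule.sub_mem _ (Submodule.subset_span hχ)
        (Submodule.subset_span (hconj χ hχ).1), ?_⟩
      intro x hx
      have hx1 : x = 1 := by simpa using hx
      subst hx1
      obtain ⟨n, hn, hn1⟩ := Cfsg.Agent.Lib.helper24.isIrrCharacter_one (hirr χ hχ)
      simp [Cfsg.conjFun, hn1]
    have hin : ∀ χ ∈ S, ∀ φ ∈ S, Cfsg.classInner (χ - Cfsg.conjFun χ) (φ - Cfsg.conjFun φ) =
        (if χ = φ then 1 else 0) - (if χ = Cfsg.conjFun φ then 1 else 0)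
          - ((if Cfsg.conjFun χ = φ then 1 else 0)
          - (if Cfsg.conjFun χ = Cfsg.conjFun φ then 1 else 0)) := by
      intro χ hχ φ hφ
      rw [Cfsg.Agent.Lib.helper24.classInner_sub_left, Cfsg.Agent.Lib.helper24.classInner_sub_right,
        Cfsg.Agent.Lib.helper24.classInner_sub_right,
        Cfsg.Agent.Lib.helper24.classInner_irr_fun (hirr χ hχ) (hirr φ hφ),
        Cfsg.Agent.Lib.helper24.classInner_irr_fun (hirr χ hχ) (hirrc φ hφ),
        Cfsg.Agent.Lib.helper24.classInner_irr_fun (hirrc χ hχ) (hirr φ hφ),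
        Cfsg.Agent.Lib.helper24.classInner_irr_fun (hirrc χ hχ) (hirrc φ hφ)]
    have hex : ∀ χ ∈ S, ∃ α β : Cfsg.IrrCharacter G, α ≠ β ∧
        τ (χ - Cfsg.conjFun χ) = α.1 - β.1 := by
      intro χ hχ
      apply Cfsg.Agent.Lib.helper23.genchar_norm_two (hgen _ (hmemS χ hχ)) (hτ1 _ (hmemS χ hχ))
      rw [hinner _ (hmemS χ hχ) _ (hmemS χ hχ), hin χ hχ χ hχ]
      rw [if_pos rfl, if_pos rfl, if_neg (fun h => (hconj χ hχ).2 h.symm), if_neg (hconj χ hχ).2]
      norm_num
    choose α β hαβ hτeq using hex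
    refine ⟨fun χ => if h : χ ∈ S then {(α χ h).1, -(β χ h).1} else ∅, ?_⟩
    constructor
    · exact hS
    · intro χ hχ; exact Cfsg.Agent.Lib.helper24.isCharacter_of_isIrrCharacter (hirr χ hχ)
    · exact fun χ h => (hconj χ h).1
    · exact fun χ h => (hconj χ h).2
    · exact hτ
    · exact hτ1
    · intro χ hχ φ hφ hne
      rw [Cfsg.Agent.Lib.helper24.classInner_irr_fun (hirr χ hχ) (hirr φ hφ), if_neg hne]
    · intro χ hχ a ha b hb
      simp only [dif_pos hχ, Finset.mem_insert, Finset.mem_singleton] at ha hb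
      rcases ha with rfl | rfl <;> rcases hb with rfl | rfl
      · rw [Cfsg.Agent.Lib.helper24.irr_inner_self, if_pos rfl]
      · rw [if_neg (irr_ne_neg_irr _ _), classInner_neg_right',
          Cfsg.Agent.Lib.helper24.irr_inner_ne (hαβ χ hχ), neg_zero]
      · rw [if_neg (fun h => irr_ne_neg_irr _ _ h.symm), classInner_neg_left',
          Cfsg.Agent.Lib.helper24.irr_inner_ne (hαβ χ hχ).symm, neg_zero]
      · rw [if_pos rfl, classInner_neg_left', classInner_neg_right', neg_neg,
          Cfsg.Agent.Lib.helper24.irr_inner_self]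
    · intro χ hχ a ha
      simp only [dif_pos hχ, Finset.mem_insert, Finset.mem_singleton] at ha
      rcases ha with rfl | rfl
      · exact Cfsg.Agent.Lib.helper8.isGeneralizedCharacter_of_isCharacter
          (Cfsg.Agent.Lib.helper24.isCharacter_of_isIrrCharacter (α χ hχ).2)
      · exact Cfsg.Agent.Lib.helper8.isGeneralizedCharacter_neg
          (Cfsg.Agent.Lib.helper8.isGeneralizedCharacter_of_isCharacter
            (Cfsg.Agent.Lib.helper24.isCharacter_of_isIrrCharacter (β χ hχ).2))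
    · intro χ hχ
      simp only [dif_pos hχ]
      rw [Finset.sum_pair (irr_ne_neg_irr _ _), hτeq χ hχ, sub_eq_add_neg]
    · intro χ hχ φ hφ h1 h2 a ha b hb
      have hne1 : φ ≠ χ := by
        intro h
        rw [h, Cfsg.Agent.Lib.helper24.isIrrCharacter_inner_self (hirr χ hχ)] at h1
        exact one_ne_zero h1
      have hne2 : φ ≠ Cfsg.conjFun χ := by
        intro h
        rw [h, Cfsg.Agent.Lib.helper24.isIrrCharacter_inner_self (hirrc χ hχ)] at h2
        exact one_ne_zero h2
      have hne3 : Cfsg.conjFun φ ≠ χ := by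
        intro h
        apply hne2
        rw [← h, conjFun_conjFun]
      have hne4 : Cfsg.conjFun φ ≠ Cfsg.conjFun χ := by
        intro h
        apply hne1
        rw [← conjFun_conjFun φ, h, conjFun_conjFun]
      have h0 : Cfsg.classInner ((α φ hφ).1 - (β φ hφ).1) ((α χ hχ).1 - (β χ hχ).1) = 0 := by
        rw [← hτeq φ hφ, ← hτeq χ hχ, hinner _ (hmemS φ hφ) _ (hmemS χ hχ), hin φ hφ χ hχ,
          if_neg hne1, if_neg hne2, if_neg hne3, if_neg hne4]
        norm_num
      obtain ⟨k1, k2, k3, k4⟩ := four_irr_orth (hαβ φ hφ) (hαβ χ hχ) h0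
      simp only [dif_pos hχ, dif_pos hφ, Finset.mem_insert, Finset.mem_singleton] at ha hb
      rcases ha with rfl | rfl <;> rcases hb with rfl | rfl
      · exact Cfsg.Agent.Lib.helper24.irr_inner_ne k1
      · rw [classInner_neg_right', Cfsg.Agent.Lib.helper24.irr_inner_ne k2, neg_zero]
      · rw [classInner_neg_left', Cfsg.Agent.Lib.helper24.irr_inner_ne k3, neg_zero]
      · rw [classInner_neg_left', classInner_neg_right', Cfsg.Agent.Lib.helper24.irr_inner_ne k4]
        simp

end Cfsg.Agent.S1514
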