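import Cfsg.Statements.S1515

import Cfsg.Agent.Lib.helper8.GenChar
set_option autoImplicit false
open Cfsg

namespace Cfsg.Agent.S1515

theorem int_sum_sq_ge {ι : Type*} (s : Finset ι) (a : ι → ℤ) : ∑ i ∈ s, a i ≤ ∑ i ∈ s, a i ^ 2 :=
  Finset.sum_le_sum (fun i _ => Int.le_self_sq (a i))

theorem int_zero_or_one_of_sum {ι : Type*} (s : Finset ι) (a : ι → ℤ)
    (h : ∑ i ∈ s, a i ^ 2 ≤ ∑ i ∈ s, a i) : ∀ i ∈ s, a i = 0 ∨ a i = 1 := by
  intro i hi
  have h1 : ∑ j ∈ s, (a j ^ 2 - a j) ≤ 0 := by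
    rw [Finset.sum_sub_distrib]; linarith
  have h2 : ∀ j ∈ s, 0 ≤ a j ^ 2 - a j := fun j _ => by linarith [Int.le_self_sq (a j)]
  have h3 : ∑ j ∈ s, (a j ^ 2 - a j) = 0 := le_antisymm h1 (Finset.sum_nonneg h2)
  have h4 := (Finset.sum_eq_zero_iff_of_nonneg h2).mp h3 i hi
  have h5 : a i * (a i - 1) = 0 := by linarith
  rcases mul_eq_zero.mp h5 with h | h
  · left; exact h
  · right; linarith

/-- Let (S, τ, R) be a coherence system from L to G, χ ∈ S, and ψ an integer combination of S with ⟨χ, ψ⟩ = ⟨conj χ, ψ⟩ = 0. Let τ₁ be a linear isometry on the integer combinations of χ − ψ and χ − conj χ, with virtual-character values, agreeing with τ on integer multiples of χ − conj χ. Then the sum over α ∈ R χ of the squared absolute values of ⟨τ₁(χ − ψ), α⟩ is at least ⟨χ, χ⟩; and if ⟨τ₁(χ − ψ), τ₁(χ − ψ)⟩ minus that sum is at least ⟨ψ, ψ⟩, then the sum equals ⟨χ, χ⟩ and every ⟨τ₁(χ − ψ), α⟩ with α ∈ R χ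 is 0 or 1. -/
theorem result {L : Type*} [Group L] [Fintype L] {G : Type*} [Group G] [Fintype G] (S : Set (L → ℂ)) (τ : (L → ℂ) → (G → ℂ)) (R : (L → ℂ) → Finset (G → ℂ)) (hS : Cfsg.IsCoherenceSystem S τ R) (χ : L → ℂ) (hχ : χ ∈ S) (ψ : L → ℂ) (hψ : ψ ∈ Cfsg.zspan S) (h1 : Cfsg.classInner χ ψ = 0) (h2 : Cfsg.classInner (Cfsg.conjFun χ) ψ = 0) (τ₁ : (L → ℂ) → (G → ℂ)) (hτ₁ : Cfsg.IsLinearIsometryOn (Cfsg.zspan {χ - ψ, χ - Cfsg.conjFun χ}) τ₁) (hagree : ∀ n : ℤ, τ₁ (n • (χ - Cfsg.conjFun χ)) = τ (n • (χ - Cfsg.conjFun χ))) : (Cfsg.classInner χ χ).re ≤ ∑ α ∈ R χ, ‖Cfsg.classInner (τ₁ (χ - ψ)) α‖ ^ 2 ∧ ((Cfsg.classInner ψ ψ).re ≤ (Cfsg.classInner (τ₁ (χ - ψ)) (τ₁ (χ - ψ))).re - ∑ α ∈ R χ, ‖Cfsg.classInner (τ₁ (χ - ψ)) α‖ ^ 2 → (∑ α ∈ R χ, ‖Cfsg.classInner (τ₁ (χ - ψ)) α‖ ^ 2 = (Cfsg.classInner χ χ).re ∧ ∀ α ∈ R χ, Cfsg.classInner (τ₁ (χ - ψ)) α = 0 ∨ Cfsg.classInner (τ₁ (χ - ψ)) α = 1)) := by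

    classical
    obtain ⟨hadd, hsmul, hinner, hgen⟩ := hτ₁
    have hE : χ - ψ ∈ Cfsg.zspan {χ - ψ, χ - Cfsg.conjFun χ} :=
      Submodule.subset_span (by simp)
    have hD : χ - Cfsg.conjFun χ ∈ Cfsg.zspan {χ - ψ, χ - Cfsg.conjFun χ} :=
      Submodule.subset_span (by simp)
    have hsum : τ₁ (χ - Cfsg.conjFun χ) = ∑ α ∈ R χ, α := by
      have := hagree 1
      rw [one_zsmul] at this
      rw [this, hS.sum_eq χ hχ]
    have hχc : Cfsg.IsCharacter L χ := hS.isCharacter χ hχ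
    obtain ⟨n, hn⟩ := Cfsg.Agent.Lib.helper24.isCharacter_inner_nat hχc hχc
    have horth : Cfsg.classInner χ (Cfsg.conjFun χ) = 0 :=
      hS.orthogonal χ hχ _ (hS.conj_mem χ hχ) (fun h => hS.conj_ne χ hχ h.symm)
    have h1' : Cfsg.classInner ψ χ = 0 := by
      rw [Cfsg.Agent.Lib.helper24.classInner_conj_symm, h1, map_zero]
    have h2' : Cfsg.classInner ψ (Cfsg.conjFun χ) = 0 := by
      rw [Cfsg.Agent.Lib.helper24.classInner_conj_symm, h2, map_zero]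
    have hED : Cfsg.classInner (τ₁ (χ - ψ)) (τ₁ (χ - Cfsg.conjFun χ)) = n := by
      rw [hinner _ hE _ hD, Cfsg.Agent.Lib.helper24.classInner_sub_left,
        Cfsg.Agent.Lib.helper24.classInner_sub_right, Cfsg.Agent.Lib.helper24.classInner_sub_right,
        hn, horth, h1', h2']
      ring
    have hEE : Cfsg.classInner (τ₁ (χ - ψ)) (τ₁ (χ - ψ)) = n + Cfsg.classInner ψ ψ := by
      rw [hinner _ hE _ hE, Cfsg.Agent.Lib.helper24.classInner_sub_left,
        Cfsg.Agent.Lib.helper24.classInner_sub_right, Cfsg.Agent.Lib.helper24.classInner_sub_right,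
        hn, h1, h1']
      ring
    have hint : ∀ α : G → ℂ, ∃ z : ℤ, α ∈ R χ → Cfsg.classInner (τ₁ (χ - ψ)) α = z := by
      intro α
      by_cases hα : α ∈ R χ
      · obtain ⟨z, hz⟩ := Cfsg.Agent.Lib.helper8.genchar_inner_genchar_int (hgen _ hE)
          (hS.virtual χ hχ α hα)
        exact ⟨z, fun _ => hz⟩
      · exact ⟨0, fun h => absurd h hα⟩
    choose a ha using hint
    have hsumA : ∑ α ∈ R χ, a α = n := by
      have : ((∑ α ∈ R χ, a α : ℤ) : ℂ) = ((n : ℤ) : ℂ) := by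
        push_cast
        rw [← hED, hsum, Cfsg.Agent.Lib.helper24.classInner_sum_right]
        exact (Finset.sum_congr rfl (fun α hα => ha α hα)).symm
      exact_mod_cast this
    have hnorm : ∑ α ∈ R χ, ‖Cfsg.classInner (τ₁ (χ - ψ)) α‖ ^ 2 =
        ((∑ α ∈ R χ, a α ^ 2 : ℤ) : ℝ) := by
      push_cast
      apply Finset.sum_congr rfl
      intro α hα
      rw [ha α hα, Complex.norm_intCast, sq_abs]
    have hre : (Cfsg.classInner χ χ).re = ((n : ℤ) : ℝ) := by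
      rw [hn]; simp
    constructor
    · rw [hnorm, hre]
      have := int_sum_sq_ge (R χ) a
      rw [hsumA] at this
      exact_mod_cast this
    · intro hle
      rw [hEE, hnorm] at hle
      have hle' : ((∑ α ∈ R χ, a α ^ 2 : ℤ) : ℝ) ≤ ((n : ℤ) : ℝ) := by
        have : ((n : ℂ) + Cfsg.classInner ψ ψ).re = (n : ℝ) + (Cfsg.classInner ψ ψ).re := by simp
        rw [this] at hle
        push_cast at hle ⊢
        linarith
      have hle'' : ∑ α ∈ R χ, a α ^ 2 ≤ ∑ α ∈ R χ, a α := by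
        rw [hsumA]; exact_mod_cast hle'
      constructor
      · rw [hnorm, hre]
        have h3 := int_sum_sq_ge (R χ) a
        have : ∑ α ∈ R χ, a α ^ 2 = n := le_antisymm (by rw [← hsumA]; exact hle'') (by rw [← hsumA]; exact h3)
        rw [this]
      · intro α hα
        rcases int_zero_or_one_of_sum (R χ) a hle'' α hα with h | h
        · left; rw [ha α hα, h]; simp
        · right; rw [ha α hα, h]; simp

end Cfsg.Agent.S1515
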