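import Cfsg.Statements.S1516

import Cfsg.Agent.Lib.helper8.Coherence4
set_option autoImplicit false
open Cfsg

namespace Cfsg.Agent.S1516

open Cfsg.Agent.Lib.helper8 Cfsg.Agent.Lib.helper24

/-- Let (S, τ, R) be a coherence system from L to G with degrees φ 1 = d φ and squared norms ⟨φ, φ⟩ = n φ for φ ∈ S. Let S₁ ⊆ S be a finite subset closed under complex conjugation such that (S₁, L minus 1, τ) is coherent, let χ ∈ S with χ ∉ S₁ and conj χ ∉ S₁, and let χ₁ ∈ S₁ with d χ₁ dividing d χ and 2 d χ d χ₁ < Σ_{φ ∈ S₁} (d φ)² / n φ. Then S₁ together with χ and conj χ is coherent. -/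
theorem result {L : Type*} [Group L] [Fintype L] {G : Type*} [Group G] [Fintype G] (S : Set (L → ℂ)) (τ : (L → ℂ) → (G → ℂ)) (R : (L → ℂ) → Finset (G → ℂ)) (hS : Cfsg.IsCoherenceSystem S τ R) (d n : (L → ℂ) → ℕ) (hd : ∀ φ ∈ S, φ 1 = (d φ : ℂ)) (hn : ∀ φ ∈ S, Cfsg.classInner φ φ = (n φ : ℂ)) (S₁ : Finset (L → ℂ)) (hS₁ : ↑S₁ ⊆ S) (hS₁c : ∀ φ ∈ S₁, Cfsg.conjFun φ ∈ S₁) (hcoh : Cfsg.IsCoherent (↑S₁ : Set (L → ℂ)) {1}ᶜ τ) (χ : L → ℂ) (hχ : χ ∈ S) (hχ₁ : χ ∉ S₁) (hχ₂ : Cfsg.conjFun χ ∉ S₁) (χ₁ : L → ℂ) (hχ₁S : χ₁ ∈ S₁) (hdvd : d χ₁ ∣ d χ) (hineq : (2 * d χ * d χ₁ : ℝ) < ∑ φ ∈ S₁, ((d φ : ℝ) ^ 2 / (n φ : ℝ))) : Cfsg.IsCoherent (↑S₁ ∪ {χ, Cfsg.conjFun χ} : Set (L → ℂ)) {1}ᶜ τ := by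

  classical
  obtain ⟨htadd, htsmul, htinner, htgen⟩ := hS.isometry
  obtain ⟨⟨α₀, hα₀, hα₀ne⟩, τ₁, hτ₁, hτ₁τ⟩ := hcoh
  obtain ⟨h1add, h1smul, h1inner, h1gen⟩ := hτ₁
  have hχc := hS.conj_mem χ hχ
  have hS₁S : ∀ φ ∈ S₁, φ ∈ S := fun φ h => hS₁ (Finset.mem_coe.mpr h)
  have hmem : ∀ ξ ∈ S, ξ ∈ Cfsg.zspan S := fun ξ h => Submodule.subset_span h
  have hmem₁ : ∀ ξ ∈ S₁, ξ ∈ Cfsg.zspan (↑S₁ : Set (L → ℂ)) :=
    fun ξ h => Submodule.subset_span (Finset.mem_coe.mpr h)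
  have hup : ∀ z ∈ Cfsg.zspan (↑S₁ : Set (L → ℂ)), z ∈ Cfsg.zspan S := fun z hz => zspan_mono hS₁ hz
  have hon : ∀ z ∈ Cfsg.zspan S, z 1 = 0 → z ∈ Cfsg.zspanOn S {1}ᶜ :=
    fun z hz h1 => (mem_zspanOn_one _ z).mpr ⟨hz, h1⟩
  have hon₁ : ∀ z ∈ Cfsg.zspan (↑S₁ : Set (L → ℂ)), z 1 = 0 →
      z ∈ Cfsg.zspanOn (↑S₁ : Set (L → ℂ)) {1}ᶜ := fun z hz h1 => (mem_zspanOn_one _ z).mpr ⟨hz, h1⟩
  have hone : ∀ ξ ∈ S, Cfsg.conjFun ξ 1 = ξ 1 := fun ξ hξ => coh_conj_one S τ R hS ξ hξ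
  have hnpos : ∀ ξ ∈ S, 0 < n ξ := by
    intro ξ hξ
    rcases Nat.eq_zero_or_pos (n ξ) with h0 | h0
    · exfalso
      have h := hn ξ hξ
      rw [h0, Nat.cast_zero] at h
      have hz := eq_zero_of_classInner_self h
      apply hS.conj_ne ξ hξ
      rw [hz]; funext x; simp [Cfsg.conjFun]
    · exact h0
  have hdpos : ∀ ξ ∈ S, 0 < d ξ := by
    intro ξ hξ
    rcases Nat.eq_zero_or_pos (d ξ) with h0 | h0
    · exfalso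
      have h := hd ξ hξ
      rw [h0, Nat.cast_zero] at h
      have hz := isCharacter_eq_zero_of_one (hS.isCharacter ξ hξ) h
      apply hS.conj_ne ξ hξ
      rw [hz]; funext x; simp [Cfsg.conjFun]
    · exact h0
  have hχ₁S' := hS₁S χ₁ hχ₁S
  have hne1 : ∀ φ ∈ S₁, φ ≠ χ := fun φ hφ h => hχ₁ (h ▸ hφ)
  have hne2 : ∀ φ ∈ S₁, φ ≠ Cfsg.conjFun χ := fun φ hφ h => hχ₂ (h ▸ hφ)
  have oS₁ : ∀ φ ∈ S₁, ∀ φ' ∈ S₁, Cfsg.classInner φ φ' = if φ = φ' then (n φ : ℂ) else 0 := by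
    intro φ hφ φ' hφ'
    by_cases h : φ = φ'
    · rw [if_pos h, ← h, hn φ (hS₁S φ hφ)]
    · rw [if_neg h, hS.orthogonal φ (hS₁S φ hφ) φ' (hS₁S φ' hφ') h]
  have oχφ : ∀ φ ∈ S₁, Cfsg.classInner χ φ = 0 :=
    fun φ hφ => hS.orthogonal χ hχ φ (hS₁S φ hφ) (Ne.symm (hne1 φ hφ))
  have oφχ : ∀ φ ∈ S₁, Cfsg.classInner φ χ = 0 :=
    fun φ hφ => hS.orthogonal φ (hS₁S φ hφ) χ hχ (hne1 φ hφ)
  have oφχc : ∀ φ ∈ S₁, Cfsg.classInner φ (Cfsg.conjFun χ) = 0 :=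
    fun φ hφ => hS.orthogonal φ (hS₁S φ hφ) _ hχc (hne2 φ hφ)
  have oχcφ : ∀ φ ∈ S₁, Cfsg.classInner (Cfsg.conjFun χ) φ = 0 :=
    fun φ hφ => hS.orthogonal _ hχc φ (hS₁S φ hφ) (Ne.symm (hne2 φ hφ))
  have oχχc : Cfsg.classInner χ (Cfsg.conjFun χ) = 0 :=
    hS.orthogonal χ hχ _ hχc (Ne.symm (hS.conj_ne χ hχ))
  have oχcχ : Cfsg.classInner (Cfsg.conjFun χ) χ = 0 :=
    hS.orthogonal _ hχc χ hχ (hS.conj_ne χ hχ)
  have oχcχc : Cfsg.classInner (Cfsg.conjFun χ) (Cfsg.conjFun χ) = (n χ : ℂ) := by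
    have h := classInner_conj_conj χ χ
    rw [hn χ hχ, Complex.conj_natCast] at h
    exact h
  have hRχ := hS.orthonormal χ hχ
  have hRφχ : ∀ φ ∈ S₁, ∀ β ∈ R φ, ∀ α ∈ R χ, Cfsg.classInner β α = 0 :=
    fun φ hφ => hS.disjoint χ hχ φ (hS₁S φ hφ) (oφχ φ hφ) (oφχc φ hφ)
  have hτ₁R : ∀ φ ∈ S₁, ∀ α ∈ R χ, Cfsg.classInner (τ₁ φ) α = 0 := by
    intro φ hφ α hα
    have hφc := hS₁c φ hφ
    have hsub : φ - Cfsg.conjFun φ ∈ Cfsg.zspanOn (↑S₁ : Set (L → ℂ)) {1}ᶜ := by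
      apply hon₁ _ (Submodule.sub_mem _ (hmem₁ φ hφ) (hmem₁ _ hφc))
      rw [Pi.sub_apply, hone φ (hS₁S φ hφ), sub_self]
    have huv : τ₁ φ - τ₁ (Cfsg.conjFun φ) = ∑ β ∈ R φ, β := by
      rw [← hS.sum_eq φ (hS₁S φ hφ), ← hτ₁τ _ hsub]
      have e : φ - Cfsg.conjFun φ = φ + (-1 : ℤ) • Cfsg.conjFun φ := by
        rw [neg_one_zsmul]; abel
      rw [e, h1add _ (hmem₁ φ hφ) _ (Submodule.smul_mem _ _ (hmem₁ _ hφc)),
        h1smul _ (hmem₁ _ hφc), neg_one_zsmul]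
      abel
    obtain ⟨a', ha'⟩ := coh_in_span S τ R hS φ (hS₁S φ hφ) (τ₁ φ) (τ₁ (Cfsg.conjFun φ))
      (h1gen φ (hmem₁ φ hφ)) huv (n φ : ℤ)
      (by rw [h1inner φ (hmem₁ φ hφ) φ (hmem₁ φ hφ), hn φ (hS₁S φ hφ)]; push_cast; rfl)
      (by
        rw [h1inner φ (hmem₁ φ hφ) _ (hmem₁ _ hφc)]
        exact hS.orthogonal φ (hS₁S φ hφ) _ (hS.conj_mem φ (hS₁S φ hφ))
          (Ne.symm (hS.conj_ne φ (hS₁S φ hφ))))
    rw [ha', inner_sum_zsmul_left]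
    exact Finset.sum_eq_zero (fun β hβ => by rw [hRφχ φ hφ β hβ α hα, mul_zero])
  have hRτ₁ : ∀ φ ∈ S₁, ∀ α ∈ R χ, Cfsg.classInner α (τ₁ φ) = 0 := by
    intro φ hφ α hα
    rw [classInner_conj_symm, hτ₁R φ hφ α hα, map_zero]
  obtain ⟨a, ha⟩ := hdvd
  have hdχ₁ := hd χ₁ hχ₁S'
  have hdχ := hd χ hχ
  obtain ⟨α, hαdef⟩ : ∃ α : L → ℂ, α = χ + (-(a : ℤ)) • χ₁ := ⟨_, rfl⟩
  have hαmem : α ∈ Cfsg.zspan S := by
    rw [hαdef]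
    exact Submodule.add_mem _ (hmem χ hχ) (Submodule.smul_mem _ _ (hmem χ₁ hχ₁S'))
  have hα1 : α 1 = 0 := by
    rw [hαdef]
    simp only [Pi.add_apply, Pi.smul_apply]
    rw [hdχ, hdχ₁, ha]
    simp only [zsmul_eq_mul]
    push_cast
    ring
  have hαon := hon α hαmem hα1
  have hθgen := htgen α hαon
  have hexc : ∀ φ, ∃ z : ℤ, φ ∈ S₁ → Cfsg.classInner (τ α) (τ₁ φ) = z := by
    intro φ
    by_cases h : φ ∈ S₁
    · obtain ⟨z, hz⟩ := genchar_inner_genchar_int hθgen (h1gen φ (hmem₁ φ h))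
      exact ⟨z, fun _ => hz⟩
    · exact ⟨0, fun h' => absurd h' h⟩
  choose c hc using hexc
  have hexx : ∀ α', ∃ z : ℤ, α' ∈ R χ → Cfsg.classInner (τ α) α' = z := by
    intro α'
    by_cases h : α' ∈ R χ
    · obtain ⟨z, hz⟩ := genchar_inner_genchar_int hθgen (hS.virtual χ hχ α' h)
      exact ⟨z, fun _ => hz⟩
    · exact ⟨0, fun h' => absurd h' h⟩
  choose x hx using hexx
  have hχsub := coh_sub_conj_mem S τ R hS χ hχ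
  have hsx : ∑ α' ∈ R χ, x α' = (n χ : ℤ) := by
    have e := htinner α hαon _ hχsub
    rw [hS.sum_eq χ hχ, classInner_sum_right, Finset.sum_congr rfl (fun α' hα' => hx α' hα')] at e
    have e2 : Cfsg.classInner α (χ - Cfsg.conjFun χ) = (n χ : ℂ) := by
      rw [hαdef, classInner_add_left, inner_zsmul_left, classInner_sub_right,
        classInner_sub_right, hn χ hχ, oχχc, oφχ χ₁ hχ₁S, oφχc χ₁ hχ₁S]
      ring
    rw [e2] at e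
    have e3 : ((∑ α' ∈ R χ, x α' : ℤ) : ℂ) = ((n χ : ℤ) : ℂ) := by push_cast; exact e
    exact_mod_cast e3
  obtain ⟨β, hβdef⟩ : ∃ β : (L → ℂ) → (L → ℂ),
      β = fun φ => (d χ₁ : ℤ) • φ + (-(d φ : ℤ)) • χ₁ := ⟨_, rfl⟩
  have hβmem : ∀ φ ∈ S₁, β φ ∈ Cfsg.zspan (↑S₁ : Set (L → ℂ)) := by
    intro φ hφ
    rw [hβdef]
    exact Submodule.add_mem _ (Submodule.smul_mem _ _ (hmem₁ φ hφ))
      (Submodule.smul_mem _ _ (hmem₁ χ₁ hχ₁S))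
  have hβ1 : ∀ φ ∈ S₁, β φ 1 = 0 := by
    intro φ hφ
    rw [hβdef]
    simp only [Pi.add_apply, Pi.smul_apply]
    rw [hd φ (hS₁S φ hφ), hdχ₁]
    simp only [zsmul_eq_mul]
    push_cast
    ring
  have hτβ : ∀ φ ∈ S₁, τ (β φ) = (d χ₁ : ℤ) • τ₁ φ + (-(d φ : ℤ)) • τ₁ χ₁ := by
    intro φ hφ
    rw [← hτ₁τ (β φ) (hon₁ _ (hβmem φ hφ) (hβ1 φ hφ)), hβdef]
    simp only []
    rw [h1add _ (Submodule.smul_mem _ _ (hmem₁ φ hφ)) _ (Submodule.smul_mem _ _ (hmem₁ χ₁ hχ₁S)),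
      h1smul φ (hmem₁ φ hφ), h1smul χ₁ (hmem₁ χ₁ hχ₁S)]
  have hE1 : ∀ φ ∈ S₁, (d χ₁ : ℤ) * c φ - (d φ : ℤ) * c χ₁ =
      (a : ℤ) * (n χ₁ : ℤ) * (d φ : ℤ) -
        (if φ = χ₁ then (a : ℤ) * (n χ₁ : ℤ) * (d χ₁ : ℤ) else 0) := by
    intro φ hφ
    have h1 := htinner α hαon (β φ) (hon _ (hup _ (hβmem φ hφ)) (hβ1 φ hφ))
    rw [hτβ φ hφ, classInner_add_right, inner_zsmul_right, inner_zsmul_right, hc φ hφ,
      hc χ₁ hχ₁S] at h1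
    have h2 : Cfsg.classInner α (β φ) = (((a : ℤ) * (n χ₁ : ℤ) * (d φ : ℤ) -
        (if φ = χ₁ then (a : ℤ) * (n χ₁ : ℤ) * (d χ₁ : ℤ) else 0) : ℤ) : ℂ) := by
      rw [hαdef, hβdef]
      simp only []
      rw [classInner_add_left, classInner_add_right, classInner_add_right, inner_zsmul_left,
        inner_zsmul_left, inner_zsmul_right, inner_zsmul_right, inner_zsmul_right, inner_zsmul_right,
        oχφ φ hφ, oχφ χ₁ hχ₁S, oS₁ χ₁ hχ₁S φ hφ, oS₁ χ₁ hχ₁S χ₁ hχ₁S, if_pos rfl]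
      by_cases hφχ : φ = χ₁
      · rw [if_pos hφχ.symm, if_pos hφχ]; push_cast; ring
      · rw [if_neg (Ne.symm hφχ), if_neg hφχ]; push_cast; ring
    rw [h2] at h1
    have h3 : (((d χ₁ : ℤ) * c φ - (d φ : ℤ) * c χ₁ : ℤ) : ℂ) =
        (((a : ℤ) * (n χ₁ : ℤ) * (d φ : ℤ) -
          (if φ = χ₁ then (a : ℤ) * (n χ₁ : ℤ) * (d χ₁ : ℤ) else 0) : ℤ) : ℂ) := by
      rw [← h1]; push_cast; ring
    exact_mod_cast h3
  obtain ⟨m, hmdef⟩ : ∃ m : ℤ, m = c χ₁ + (a : ℤ) * (n χ₁ : ℤ) := ⟨_, rfl⟩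
  have hcm : ∀ φ ∈ S₁, (d χ₁ : ℤ) * c φ =
      m * (d φ : ℤ) - (if φ = χ₁ then (a : ℤ) * (n χ₁ : ℤ) * (d χ₁ : ℤ) else 0) := by
    intro φ hφ
    have h := hE1 φ hφ
    rw [hmdef]
    linarith
  have hTin₁ : ∀ φ ∈ S₁, ∀ φ' ∈ S₁,
      Cfsg.classInner (τ₁ φ) (τ₁ φ') = if φ = φ' then (n φ : ℂ) else 0 := by
    intro φ hφ φ' hφ'
    rw [h1inner φ (hmem₁ φ hφ) φ' (hmem₁ φ' hφ'), oS₁ φ hφ φ' hφ']
  have hnne : ∀ φ ∈ S₁, (n φ : ℂ) ≠ 0 := by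
    intro φ hφ
    exact_mod_cast (hnpos φ (hS₁S φ hφ)).ne'
  obtain ⟨Δ, hΔdef⟩ : ∃ Δ : G → ℂ, Δ = τ α - (∑ α' ∈ R χ, x α' • α' +
      ∑ φ ∈ S₁, ((c φ : ℂ) / (n φ : ℂ)) • τ₁ φ) := ⟨_, rfl⟩
  have hΔα : ∀ α' ∈ R χ, Cfsg.classInner Δ α' = 0 := by
    intro α' hα'
    rw [hΔdef, classInner_sub_left, classInner_add_left, inner_sum_zsmul_left, classInner_sum_left,
      hx α' hα']
    rw [Finset.sum_congr (s₁ := R χ) rfl (fun α'' hα'' => by rw [hRχ α'' hα'' α' hα'])]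
    rw [Finset.sum_congr (s₁ := S₁) rfl (fun φ hφ => by
      rw [classInner_smul_left, hτ₁R φ hφ α' hα', mul_zero])]
    simp only [mul_ite, mul_one, mul_zero]
    rw [Finset.sum_ite_eq' (R χ) α' (fun α'' => (x α'' : ℂ)), if_pos hα', Finset.sum_const_zero]
    ring
  have hΔφ : ∀ φ ∈ S₁, Cfsg.classInner Δ (τ₁ φ) = 0 := by
    intro φ hφ
    rw [hΔdef, classInner_sub_left, classInner_add_left, inner_sum_zsmul_left, classInner_sum_left,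
      hc φ hφ]
    rw [Finset.sum_congr (s₁ := R χ) rfl (fun α'' hα'' => by rw [hRτ₁ φ hφ α'' hα'', mul_zero])]
    rw [Finset.sum_congr (s₁ := S₁) rfl (fun φ' hφ' => by
      rw [classInner_smul_left, hTin₁ φ' hφ' φ hφ])]
    simp only [mul_ite, mul_zero]
    rw [Finset.sum_ite_eq' S₁ φ (fun φ' => (c φ' : ℂ) / (n φ' : ℂ) * (n φ' : ℂ)), if_pos hφ,
      Finset.sum_const_zero, div_mul_cancel₀ _ (hnne φ hφ)]
    ring
  have hθθ : Cfsg.classInner (τ α) (τ α) = (n χ : ℂ) + (a : ℂ) ^ 2 * (n χ₁ : ℂ) := by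
    rw [htinner α hαon α hαon, hαdef, classInner_add_left, classInner_add_right,
      classInner_add_right, inner_zsmul_left, inner_zsmul_left, inner_zsmul_right, inner_zsmul_right,
      hn χ hχ, oχφ χ₁ hχ₁S, oφχ χ₁ hχ₁S, hn χ₁ hχ₁S']
    push_cast
    ring
  have hΔΔ : Cfsg.classInner Δ Δ = (((n χ : ℝ) + (a : ℝ) ^ 2 * (n χ₁ : ℝ) -
      ∑ α' ∈ R χ, (x α' : ℝ) ^ 2 - ∑ φ ∈ S₁, (c φ : ℝ) ^ 2 / (n φ : ℝ) : ℝ) : ℂ) := by
    have e1 : Cfsg.classInner Δ Δ = Cfsg.classInner Δ (τ α) := by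
      conv_lhs => rhs; rw [hΔdef]
      rw [classInner_sub_right, classInner_add_right, inner_sum_zsmul_right, classInner_sum_right]
      rw [Finset.sum_congr (s₁ := R χ) rfl (fun α' hα' => by rw [hΔα α' hα', mul_zero])]
      rw [Finset.sum_congr (s₁ := S₁) rfl (fun φ hφ => by
        rw [classInner_smul_right, hΔφ φ hφ, mul_zero])]
      simp
    rw [e1, hΔdef, classInner_sub_left, classInner_add_left, inner_sum_zsmul_left,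
      classInner_sum_left, hθθ]
    rw [Finset.sum_congr (s₁ := R χ) rfl (fun α' hα' => by
      rw [classInner_conj_symm, hx α' hα', map_intCast])]
    rw [Finset.sum_congr (s₁ := S₁) rfl (fun φ hφ => by
      rw [classInner_smul_left, classInner_conj_symm, hc φ hφ, map_intCast])]
    push_cast
    have s1 : ∑ α' ∈ R χ, (x α' : ℂ) * (x α' : ℂ) = ∑ α' ∈ R χ, (x α' : ℂ) ^ 2 :=
      Finset.sum_congr rfl (fun α' _ => by ring)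
    have s2 : ∑ φ ∈ S₁, (c φ : ℂ) / (n φ : ℂ) * (c φ : ℂ) = ∑ φ ∈ S₁, (c φ : ℂ) ^ 2 / (n φ : ℂ) :=
      Finset.sum_congr rfl (fun φ _ => by ring)
    rw [s1, s2]
    ring
  have hr0 := classInner_self_real_nonneg hΔΔ
  have hxsq : (n χ : ℝ) ≤ ∑ α' ∈ R χ, (x α' : ℝ) ^ 2 := by
    have hna : ∀ α' ∈ R χ, 0 ≤ x α' ^ 2 - x α' := by
      intro α' _
      rcases le_or_gt (x α') 0 with h | h
      · nlinarith [sq_nonneg (x α')]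
      · have : 1 ≤ x α' := h
        nlinarith
    have hA := Finset.sum_nonneg hna
    rw [Finset.sum_sub_distrib, hsx] at hA
    have hA' : ((n χ : ℤ) : ℝ) ≤ ((∑ α' ∈ R χ, x α' ^ 2 : ℤ) : ℝ) := by exact_mod_cast (by linarith)
    push_cast at hA'
    exact hA'
  obtain ⟨D, hDdef⟩ : ∃ D : ℝ, D = ∑ φ ∈ S₁, ((d φ : ℝ) ^ 2 / (n φ : ℝ)) := ⟨_, rfl⟩
  rw [← hDdef] at hineq
  have hn₁pos : (0 : ℝ) < (n χ₁ : ℝ) := by exact_mod_cast hnpos χ₁ hχ₁S'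
  have hd₁pos : (0 : ℝ) < (d χ₁ : ℝ) := by exact_mod_cast hdpos χ₁ hχ₁S'
  have hsumsq : (d χ₁ : ℝ) ^ 2 * ∑ φ ∈ S₁, (c φ : ℝ) ^ 2 / (n φ : ℝ) =
      (m : ℝ) ^ 2 * D - 2 * (m : ℝ) * (a : ℝ) * (d χ₁ : ℝ) ^ 2 +
        (a : ℝ) ^ 2 * (n χ₁ : ℝ) * (d χ₁ : ℝ) ^ 2 := by
    have e1 : ∀ φ ∈ S₁, (d χ₁ : ℝ) ^ 2 * ((c φ : ℝ) ^ 2 / (n φ : ℝ)) =
        (m : ℝ) ^ 2 * ((d φ : ℝ) ^ 2 / (n φ : ℝ)) -
        (if φ = χ₁ then (2 * (m : ℝ) * (d φ : ℝ) * ((a : ℝ) * (n χ₁ : ℝ) * (d χ₁ : ℝ)) -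
          ((a : ℝ) * (n χ₁ : ℝ) * (d χ₁ : ℝ)) ^ 2) / (n φ : ℝ) else 0) := by
      intro φ hφ
      have h := hcm φ hφ
      have h' : (d χ₁ : ℝ) * (c φ : ℝ) = (m : ℝ) * (d φ : ℝ) -
          (if φ = χ₁ then (a : ℝ) * (n χ₁ : ℝ) * (d χ₁ : ℝ) else 0) := by
        have := congrArg (Int.cast : ℤ → ℝ) h
        push_cast at this ⊢
        exact this
      have e : (d χ₁ : ℝ) ^ 2 * ((c φ : ℝ) ^ 2 / (n φ : ℝ)) =
          ((d χ₁ : ℝ) * (c φ : ℝ)) ^ 2 / (n φ : ℝ) := by ring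
      rw [e, h']
      split_ifs <;> ring
    rw [Finset.mul_sum, Finset.sum_congr rfl e1, Finset.sum_sub_distrib, ← Finset.mul_sum, ← hDdef,
      Finset.sum_ite_eq' S₁ χ₁ (fun φ => (2 * (m : ℝ) * (d φ : ℝ) *
        ((a : ℝ) * (n χ₁ : ℝ) * (d χ₁ : ℝ)) - ((a : ℝ) * (n χ₁ : ℝ) * (d χ₁ : ℝ)) ^ 2) / (n φ : ℝ)),
      if_pos hχ₁S]
    field_simp
    ring
  have hineq' : 2 * (a : ℝ) * (d χ₁ : ℝ) ^ 2 < D := by
    have e : (d χ : ℝ) = (d χ₁ : ℝ) * (a : ℝ) := by rw [ha]; push_cast; ring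
    rw [e] at hineq
    linarith
  have hanon : (0 : ℝ) ≤ (a : ℝ) := Nat.cast_nonneg a
  have hm0 : m = 0 := by
    by_contra hm0
    have hle : (m : ℝ) ^ 2 * D - 2 * (m : ℝ) * (a : ℝ) * (d χ₁ : ℝ) ^ 2 ≤ 0 := by
      have h1 : ∑ φ ∈ S₁, (c φ : ℝ) ^ 2 / (n φ : ℝ) ≤ (a : ℝ) ^ 2 * (n χ₁ : ℝ) := by linarith
      have h2 : (d χ₁ : ℝ) ^ 2 * ∑ φ ∈ S₁, (c φ : ℝ) ^ 2 / (n φ : ℝ) ≤
          (d χ₁ : ℝ) ^ 2 * ((a : ℝ) ^ 2 * (n χ₁ : ℝ)) :=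
        mul_le_mul_of_nonneg_left h1 (by positivity)
      rw [hsumsq] at h2
      linarith
    have hDpos : 0 < D := by
      have : 0 ≤ 2 * (a : ℝ) * (d χ₁ : ℝ) ^ 2 := by positivity
      linarith
    rcases lt_or_gt_of_ne hm0 with hneg | hpos
    · have hm : (m : ℝ) < 0 := by exact_mod_cast hneg
      have h1 : 0 < (m : ℝ) ^ 2 * D := by
        have : 0 < (m : ℝ) ^ 2 := by positivity
        positivity
      have h2 : 0 ≤ (-(m : ℝ)) * ((a : ℝ) * (d χ₁ : ℝ) ^ 2) :=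
        mul_nonneg (by linarith) (by positivity)
      linarith
    · have hm : (1 : ℝ) ≤ (m : ℝ) := by exact_mod_cast hpos
      have h4 : (m : ℝ) * (2 * (a : ℝ) * (d χ₁ : ℝ) ^ 2) < (m : ℝ) * D :=
        mul_lt_mul_of_pos_left hineq' (by linarith)
      have h5 : (m : ℝ) * D ≤ (m : ℝ) * ((m : ℝ) * D) := by
        have : 0 ≤ (m : ℝ) * D := by positivity
        nlinarith
      nlinarith
  have hcval : ∀ φ ∈ S₁, c φ = if φ = χ₁ then -((a : ℤ) * (n χ₁ : ℤ)) else 0 := by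
    intro φ hφ
    have h := hcm φ hφ
    have hd₁ne : (d χ₁ : ℤ) ≠ 0 := by exact_mod_cast (hdpos χ₁ hχ₁S').ne'
    rw [hm0, zero_mul, zero_sub] at h
    by_cases hφχ : φ = χ₁
    · rw [if_pos hφχ] at h ⊢
      have h' : (d χ₁ : ℤ) * c φ = (d χ₁ : ℤ) * (-((a : ℤ) * (n χ₁ : ℤ))) := by rw [h]; ring
      exact mul_left_cancel₀ hd₁ne h'
    · rw [if_neg hφχ] at h ⊢
      rw [neg_zero] at h
      exact (mul_eq_zero.mp h).resolve_left hd₁ne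
  have hsumc : ∑ φ ∈ S₁, (c φ : ℝ) ^ 2 / (n φ : ℝ) = (a : ℝ) ^ 2 * (n χ₁ : ℝ) := by
    have e : ∀ φ ∈ S₁, (c φ : ℝ) ^ 2 / (n φ : ℝ) =
        if φ = χ₁ then ((a : ℝ) * (n χ₁ : ℝ)) ^ 2 / (n φ : ℝ) else 0 := by
      intro φ hφ
      rw [hcval φ hφ]
      split_ifs
      · push_cast; ring
      · push_cast; ring
    rw [Finset.sum_congr rfl e,
      Finset.sum_ite_eq' S₁ χ₁ (fun φ => ((a : ℝ) * (n χ₁ : ℝ)) ^ 2 / (n φ : ℝ)), if_pos hχ₁S]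
    field_simp
  have hxsq' : ∑ α' ∈ R χ, (x α' : ℝ) ^ 2 = (n χ : ℝ) := by linarith
  have hxsqZ : ∑ α' ∈ R χ, x α' ^ 2 = (n χ : ℤ) := by
    have : ((∑ α' ∈ R χ, x α' ^ 2 : ℤ) : ℝ) = ((n χ : ℤ) : ℝ) := by push_cast; exact hxsq'
    exact_mod_cast this
  have hΔ0 : Δ = 0 := by
    apply eq_zero_of_classInner_self
    rw [hΔΔ, hsumc, hxsq']
    push_cast
    ring
  obtain ⟨X, hXdef⟩ : ∃ X : G → ℂ, X = ∑ α' ∈ R χ, x α' • α' := ⟨_, rfl⟩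
  obtain ⟨Y, hYdef⟩ : ∃ Y : G → ℂ, Y = ∑ α' ∈ R χ, (x α' - 1) • α' := ⟨_, rfl⟩
  have hθeq : τ α = X + (-(a : ℤ)) • τ₁ χ₁ := by
    have h1 : ∑ φ ∈ S₁, ((c φ : ℂ) / (n φ : ℂ)) • τ₁ φ = (-(a : ℤ)) • τ₁ χ₁ := by
      have e : ∀ φ ∈ S₁, ((c φ : ℂ) / (n φ : ℂ)) • τ₁ φ =
          if φ = χ₁ then (-(a : ℤ)) • τ₁ φ else 0 := by
        intro φ hφ
        rw [hcval φ hφ]
        by_cases hφχ : φ = χ₁
        · rw [if_pos hφχ, if_pos hφχ, hφχ, ← Int.cast_smul_eq_zsmul ℂ]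
          congr 1
          push_cast
          have hne' := hnne χ₁ hχ₁S
          rw [neg_div, neg_inj]
          exact mul_div_cancel_right₀ _ hne'
        · rw [if_neg hφχ, if_neg hφχ, Int.cast_zero, zero_div, zero_smul]
      rw [Finset.sum_congr rfl e, Finset.sum_ite_eq' S₁ χ₁ (fun φ => (-(a : ℤ)) • τ₁ φ),
        if_pos hχ₁S]
    rw [hΔdef, h1, ← hXdef] at hΔ0
    exact sub_eq_zero.mp hΔ0
  have hXY : X - Y = τ (χ - Cfsg.conjFun χ) := by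
    rw [hS.sum_eq χ hχ, hXdef, hYdef, ← Finset.sum_sub_distrib]
    apply Finset.sum_congr rfl
    intro α' _
    rw [← sub_smul]
    have : x α' - (x α' - 1) = 1 := by ring
    rw [this, one_smul]
  have hcardR := coh_card_R S τ R hS χ hχ (n χ) (hn χ hχ)
  have hXgen : Cfsg.IsGeneralizedCharacter G X := by
    rw [hXdef]
    apply isGeneralizedCharacter_finset_sum
    intro α' hα'
    exact isGeneralizedCharacter_zsmul _ (hS.virtual χ hχ α' hα')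
  have hYgen : Cfsg.IsGeneralizedCharacter G Y := by
    rw [hYdef]
    apply isGeneralizedCharacter_finset_sum
    intro α' hα'
    exact isGeneralizedCharacter_zsmul _ (hS.virtual χ hχ α' hα')
  have hXX : Cfsg.classInner X X = (n χ : ℂ) := by
    rw [hXdef, orthonormal_sum_inner (R χ) hRχ]
    have h : ∑ α' ∈ R χ, x α' * x α' = (n χ : ℤ) := by
      rw [← hxsqZ]; apply Finset.sum_congr rfl; intro α' _; ring
    rw [h]; push_cast; rfl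
  have hXYin : Cfsg.classInner X Y = 0 := by
    rw [hXdef, hYdef, orthonormal_sum_inner (R χ) hRχ]
    have h : ∑ α' ∈ R χ, x α' * (x α' - 1) = 0 := by
      have e : ∀ α' ∈ R χ, x α' * (x α' - 1) = x α' ^ 2 - x α' := fun α' _ => by ring
      rw [Finset.sum_congr rfl e, Finset.sum_sub_distrib, hxsqZ, hsx, sub_self]
    rw [h]; push_cast; rfl
  have hYXin : Cfsg.classInner Y X = 0 := by
    rw [classInner_conj_symm, hXYin, map_zero]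
  have hYY : Cfsg.classInner Y Y = (n χ : ℂ) := by
    rw [hYdef, orthonormal_sum_inner (R χ) hRχ]
    have h : ∑ α' ∈ R χ, (x α' - 1) * (x α' - 1) = (n χ : ℤ) := by
      have e : ∀ α' ∈ R χ, (x α' - 1) * (x α' - 1) = x α' ^ 2 - 2 * x α' + 1 :=
        fun α' _ => by ring
      rw [Finset.sum_congr rfl e, Finset.sum_add_distrib, Finset.sum_sub_distrib, hxsqZ,
        ← Finset.mul_sum, hsx, Finset.sum_const, hcardR]
      simp only [nsmul_eq_mul, mul_one]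
      push_cast
      ring
    rw [h]; push_cast; rfl
  have hτ₁X : ∀ φ ∈ S₁, Cfsg.classInner (τ₁ φ) X = 0 := by
    intro φ hφ
    rw [hXdef, inner_sum_zsmul_right]
    exact Finset.sum_eq_zero (fun α' hα' => by rw [hτ₁R φ hφ α' hα', mul_zero])
  have hτ₁Y : ∀ φ ∈ S₁, Cfsg.classInner (τ₁ φ) Y = 0 := by
    intro φ hφ
    rw [hYdef, inner_sum_zsmul_right]
    exact Finset.sum_eq_zero (fun α' hα' => by rw [hτ₁R φ hφ α' hα', mul_zero])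
  have hXτ₁ : ∀ φ ∈ S₁, Cfsg.classInner X (τ₁ φ) = 0 := by
    intro φ hφ
    rw [classInner_conj_symm, hτ₁X φ hφ, map_zero]
  have hYτ₁ : ∀ φ ∈ S₁, Cfsg.classInner Y (τ₁ φ) = 0 := by
    intro φ hφ
    rw [classInner_conj_symm, hτ₁Y φ hφ, map_zero]
  have hχcne : Cfsg.conjFun χ ≠ χ := hS.conj_ne χ hχ
  obtain ⟨T', hT'def⟩ : ∃ T' : (L → ℂ) → (G → ℂ),
      T' = fun ξ => if ξ = χ then X else if ξ = Cfsg.conjFun χ then Y else τ₁ ξ := ⟨_, rfl⟩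
  have hT'χ : T' χ = X := by rw [hT'def]; simp
  have hT'χc : T' (Cfsg.conjFun χ) = Y := by rw [hT'def]; simp [hχcne]
  have hT'S : ∀ φ ∈ S₁, T' φ = τ₁ φ := by
    intro φ hφ
    rw [hT'def]; simp [hne1 φ hφ, hne2 φ hφ]
  have hS'mem : ∀ ξ ∈ S₁ ∪ {χ, Cfsg.conjFun χ}, ξ ∈ S₁ ∨ ξ = χ ∨ ξ = Cfsg.conjFun χ := by
    intro ξ hξ
    rcases Finset.mem_union.mp hξ with h | h
    · exact Or.inl h
    · rcases Finset.mem_insert.mp h with h | h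
      · exact Or.inr (Or.inl h)
      · exact Or.inr (Or.inr (Finset.mem_singleton.mp h))
  have hS'S : ∀ ξ ∈ S₁ ∪ {χ, Cfsg.conjFun χ}, ξ ∈ S := by
    intro ξ hξ
    rcases hS'mem ξ hξ with h | h | h
    · exact hS₁S ξ h
    · rw [h]; exact hχ
    · rw [h]; exact hχc
  obtain ⟨τ₂, h2add, h2smul, h2iso, h2gen⟩ := coherent_ext (S₁ ∪ {χ, Cfsg.conjFun χ}) T'
    (fun ξ hξ => by
      rw [hn ξ (hS'S ξ hξ)]; exact_mod_cast (hnpos ξ (hS'S ξ hξ)).ne')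
    (fun ξ hξ η hη hne => hS.orthogonal ξ (hS'S ξ hξ) η (hS'S η hη) hne)
    (fun ξ hξ => by
      rcases hS'mem ξ hξ with h | h | h
      · rw [hT'S ξ h]; exact h1gen ξ (hmem₁ ξ h)
      · rw [h, hT'χ]; exact hXgen
      · rw [h, hT'χc]; exact hYgen)
    (fun ξ hξ η hη => by
      rcases hS'mem ξ hξ with h | h | h
      · rcases hS'mem η hη with h' | h' | h'
        · rw [hT'S ξ h, hT'S η h', hTin₁ ξ h η h', oS₁ ξ h η h']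
        · rw [hT'S ξ h, h', hT'χ, hτ₁X ξ h, oφχ ξ h]
        · rw [hT'S ξ h, h', hT'χc, hτ₁Y ξ h, oφχc ξ h]
      · rcases hS'mem η hη with h' | h' | h'
        · rw [h, hT'χ, hT'S η h', hXτ₁ η h', oχφ η h']
        · rw [h, h', hT'χ, hXX, hn χ hχ]
        · rw [h, h', hT'χ, hT'χc, hXYin, oχχc]
      · rcases hS'mem η hη with h' | h' | h'
        · rw [h, hT'χc, hT'S η h', hYτ₁ η h', oχcφ η h']
        · rw [h, h', hT'χ, hT'χc, hYXin, oχcχ]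
        · rw [h, h', hT'χc, hYY, oχcχc])
  have hcoe : (↑(S₁ ∪ {χ, Cfsg.conjFun χ}) : Set (L → ℂ)) = ↑S₁ ∪ {χ, Cfsg.conjFun χ} := by
    push_cast; rfl
  rw [hcoe] at h2iso
  have h2S : ∀ b ∈ Cfsg.zspan (↑S₁ : Set (L → ℂ)), τ₂ b = τ₁ b := by
    intro b hb
    have hb' : b ∈ Submodule.span ℤ (↑S₁ : Set (L → ℂ)) := hb
    induction hb' using Submodule.span_induction with
    | mem ξ hξ =>
      rw [h2gen ξ (Finset.mem_union_left _ (Finset.mem_coe.mp hξ)), hT'S ξ (Finset.mem_coe.mp hξ)]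
    | zero =>
      have e1 := h2smul 0 0
      rw [zero_smul, zero_smul] at e1
      rw [e1, zspan_zero_map _ τ₁ h1smul]
    | add x y hx hy ihx ihy =>
      rw [h2add, h1add x hx y hy, ihx hx, ihy hy]
    | smul k x hx ih =>
      rw [h2smul, h1smul x hx k, ih hx]
  have h2χ : τ₂ χ = X := by
    rw [h2gen χ (Finset.mem_union_right _ (Finset.mem_insert_self _ _)), hT'χ]
  have h2χc : τ₂ (Cfsg.conjFun χ) = Y := by
    rw [h2gen _ (Finset.mem_union_right _ (Finset.mem_insert_of_mem (Finset.mem_singleton_self _))),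
      hT'χc]
  have h2α : τ₂ α = τ α := by
    rw [hθeq, hαdef, h2add, h2smul, h2χ, h2S χ₁ (hmem₁ χ₁ hχ₁S)]
  have h2sub : τ₂ (χ + (-1 : ℤ) • Cfsg.conjFun χ) = τ (χ - Cfsg.conjFun χ) := by
    rw [h2add, h2smul, h2χ, h2χc, ← hXY, neg_one_zsmul]; abel
  refine ⟨⟨α₀, (mem_zspanOn_one _ α₀).mpr ⟨zspan_mono Set.subset_union_left
    ((mem_zspanOn_one _ α₀).mp hα₀).1, ((mem_zspanOn_one _ α₀).mp hα₀).2⟩, hα₀ne⟩, τ₂, h2iso, ?_⟩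
  intro f hf
  obtain ⟨hfmem, hf1⟩ := (mem_zspanOn_one _ f).mp hf
  obtain ⟨b, hb, y, hy, hfby⟩ := zspan_union_decomp _ _ f hfmem
  have hy' : y ∈ Submodule.span ℤ ({χ, Cfsg.conjFun χ} : Set (L → ℂ)) := hy
  obtain ⟨p, q, hpq⟩ := Submodule.mem_span_pair.mp hy'
  obtain ⟨β', hβ'def⟩ : ∃ β' : L → ℂ, β' = b + ((p + q) * a) • χ₁ := ⟨_, rfl⟩
  have hβ'mem : β' ∈ Cfsg.zspan (↑S₁ : Set (L → ℂ)) := by
    rw [hβ'def]
    exact Submodule.add_mem _ hb (Submodule.smul_mem _ _ (hmem₁ χ₁ hχ₁S))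
  have hfeq : f = β' + (p + q) • α + (-q) • (χ + (-1 : ℤ) • Cfsg.conjFun χ) := by
    rw [hfby, ← hpq, hβ'def, hαdef]
    funext z
    simp only [Pi.add_apply, Pi.smul_apply]
    simp only [zsmul_eq_mul]
    push_cast
    ring
  have hsub1 : (χ + (-1 : ℤ) • Cfsg.conjFun χ) 1 = 0 := by
    rw [Pi.add_apply, Pi.smul_apply, hone χ hχ, neg_one_zsmul, add_neg_cancel]
  have hsubeq : χ + (-1 : ℤ) • Cfsg.conjFun χ = χ - Cfsg.conjFun χ := by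
    rw [neg_one_zsmul]; abel
  have hβ'1 : β' 1 = 0 := by
    have h := congrFun hfeq 1
    rw [Pi.add_apply, Pi.add_apply, Pi.smul_apply, Pi.smul_apply, hα1, hsub1, hf1, smul_zero,
      smul_zero, add_zero, add_zero] at h
    exact h.symm
  have hβ'on : β' ∈ Cfsg.zspanOn S {1}ᶜ := hon _ (hup _ hβ'mem) hβ'1
  have hnα : (p + q) • α ∈ Cfsg.zspanOn S {1}ᶜ := by
    apply hon _ (Submodule.smul_mem _ _ hαmem)
    rw [Pi.smul_apply, hα1, smul_zero]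
  have hsubon : χ + (-1 : ℤ) • Cfsg.conjFun χ ∈ Cfsg.zspanOn S {1}ᶜ := by
    rw [hsubeq]; exact hχsub
  have hqsub : (-q) • (χ + (-1 : ℤ) • Cfsg.conjFun χ) ∈ Cfsg.zspanOn S {1}ᶜ := by
    apply hon _ (Submodule.smul_mem _ _ ((mem_zspanOn_one _ _).mp hsubon).1)
    rw [Pi.smul_apply, hsub1, smul_zero]
  have hsum1 : β' + (p + q) • α ∈ Cfsg.zspanOn S {1}ᶜ := by
    apply hon _ (Submodule.add_mem _ (hup _ hβ'mem) (Submodule.smul_mem _ _ hαmem))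
    rw [Pi.add_apply, Pi.smul_apply, hβ'1, hα1, smul_zero, add_zero]
  rw [hfeq, h2add, h2add, h2smul, h2smul, h2α, h2S β' hβ'mem, h2sub,
    htadd _ hsum1 _ hqsub, htadd _ hβ'on _ hnα, htsmul α hαon, htsmul _ hsubon,
    hτ₁τ β' (hon₁ _ hβ'mem hβ'1), hsubeq]

end Cfsg.Agent.S1516
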