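import Cfsg.Statements.S1517

import Cfsg.Agent.Lib.helper8.Coherence3
set_option autoImplicit false
open Cfsg

namespace Cfsg.Agent.S1517

open Cfsg.Agent.Lib.helper8 Cfsg.Agent.Lib.helper24

/-- Let (S, τ, R) be a coherence system from L to G such that φ 1 = ψ 1 for all φ, ψ ∈ S. Then (S, L minus 1, τ) is coherent. -/
theorem result {L : Type*} [Group L] [Fintype L] {G : Type*} [Group G] [Fintype G] (S : Set (L → ℂ)) (τ : (L → ℂ) → (G → ℂ)) (R : (L → ℂ) → Finset (G → ℂ)) (hS : Cfsg.IsCoherenceSystem S τ R) (hdeg : ∀ φ ∈ S, ∀ ψ ∈ S, φ 1 = ψ 1) : Cfsg.IsCoherent S {1}ᶜ τ := by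

  classical
  obtain ⟨htadd, htsmul, htinner, htgen⟩ := hS.isometry
  obtain ⟨χ₀, hχ₀⟩ := hS.nonempty
  have hmem : ∀ ξ ∈ S, ξ ∈ Cfsg.zspan S := fun ξ h => Submodule.subset_span h
  have hone : ∀ ξ ∈ S, Cfsg.conjFun ξ 1 = ξ 1 := by
    intro ξ hξ
    obtain ⟨n, hn⟩ := isCharacter_one (hS.isCharacter ξ hξ)
    show (starRingEnd ℂ) (ξ 1) = ξ 1
    rw [hn, Complex.conj_natCast]
  have hsubmem : ∀ ξ ∈ S, ∀ η ∈ S, ξ - η ∈ Cfsg.zspanOn S {1}ᶜ := by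
    intro ξ hξ η hη
    apply (mem_zspanOn_one S _).mpr
    refine ⟨Submodule.sub_mem _ (hmem ξ hξ) (hmem η hη), ?_⟩
    rw [Pi.sub_apply, hdeg ξ hξ η hη, sub_self]
  have hnorm : ∀ ξ ∈ S, ∃ n : ℕ, Cfsg.classInner ξ ξ = (n : ℂ) ∧ 0 < n := by
    intro ξ hξ
    obtain ⟨n, hn⟩ := isCharacter_inner_nat (hS.isCharacter ξ hξ) (hS.isCharacter ξ hξ)
    refine ⟨n, hn, Nat.pos_of_ne_zero ?_⟩
    intro h0
    rw [h0, Nat.cast_zero] at hn
    have hz := eq_zero_of_classInner_self hn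
    apply hS.conj_ne ξ hξ
    rw [hz]; funext x; simp [Cfsg.conjFun]
  have hτ0 : τ 0 = 0 := by
    have h := htsmul (χ₀ - χ₀) (hsubmem χ₀ hχ₀ χ₀ hχ₀) 0
    rw [zero_smul, zero_smul] at h
    exact h
  obtain ⟨d, hd⟩ := isCharacter_one (hS.isCharacter χ₀ hχ₀)
  have hd0 : (d : ℂ) ≠ 0 := by
    intro h
    rw [h] at hd
    have hz := isCharacter_eq_zero_of_one (hS.isCharacter χ₀ hχ₀) hd
    apply hS.conj_ne χ₀ hχ₀
    rw [hz]; funext x; simp [Cfsg.conjFun]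
  have hSfin : S.Finite := orth_set_finite S (fun ξ hξ => by
      obtain ⟨n, hn, hpos⟩ := hnorm ξ hξ
      rw [hn]; exact_mod_cast hpos.ne') hS.orthogonal
  obtain ⟨n₀, hn₀, hn₀pos⟩ := hnorm χ₀ hχ₀
  have hχ₀c := hS.conj_mem χ₀ hχ₀
  have hRon := hS.orthonormal χ₀ hχ₀
  have hsumR : τ (χ₀ - Cfsg.conjFun χ₀) = ∑ α ∈ R χ₀, (1 : ℤ) • α := by
    rw [hS.sum_eq χ₀ hχ₀]; simp
  have hA : ∃ a : (G → ℂ) → ℤ, ∑ α ∈ R χ₀, a α = (n₀ : ℤ) ∧ ∑ α ∈ R χ₀, a α ^ 2 = (n₀ : ℤ) ∧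
      ∀ ψ ∈ S, ψ ≠ χ₀ → ψ ≠ Cfsg.conjFun χ₀ →
        Cfsg.classInner (τ (χ₀ - ψ)) (∑ α ∈ R χ₀, a α • α) = (n₀ : ℂ) := by
    by_cases hcase : ∃ ψ₁ ∈ S, ψ₁ ≠ χ₀ ∧ ψ₁ ≠ Cfsg.conjFun χ₀
    · obtain ⟨ψ₁, hψ₁, hne1, hne2⟩ := hcase
      obtain ⟨n₁, hn₁, _⟩ := hnorm ψ₁ hψ₁
      obtain ⟨a, b, hθ, ha, hsa, hsa2⟩ := subcoh_pair S τ R hS χ₀ ψ₁ hχ₀ hψ₁ hne1 hne2
        (hdeg χ₀ hχ₀ ψ₁ hψ₁) (n₀ : ℤ) (n₁ : ℤ) (by rw [hn₀]; push_cast; rfl)
        (by rw [hn₁]; push_cast; rfl)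
      refine ⟨a, hsa, hsa2, ?_⟩
      intro ψ hψ hψne hψne'
      have e1 : Cfsg.classInner (τ (χ₀ - ψ₁)) (∑ α ∈ R χ₀, a α • α) = (n₀ : ℂ) := by
        rw [inner_sum_zsmul_right]
        rw [Finset.sum_congr rfl (fun α hα => by rw [ha α hα])]
        have h : ((∑ α ∈ R χ₀, a α ^ 2 : ℤ) : ℂ) = ((n₀ : ℤ) : ℂ) := by rw [hsa2]
        push_cast at h
        rw [← h]
        apply Finset.sum_congr rfl
        intro α _; ring
      have oψ₁ : Cfsg.classInner ψ₁ χ₀ = 0 := hS.orthogonal ψ₁ hψ₁ χ₀ hχ₀ hne1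
      have oψ₁' : Cfsg.classInner ψ₁ (Cfsg.conjFun χ₀) = 0 := hS.orthogonal ψ₁ hψ₁ _ hχ₀c hne2
      have hR1 : ∀ β ∈ R ψ₁, ∀ α ∈ R χ₀, Cfsg.classInner β α = 0 :=
        hS.disjoint χ₀ hχ₀ ψ₁ hψ₁ oψ₁ oψ₁'
      have oψ : Cfsg.classInner ψ χ₀ = 0 := hS.orthogonal ψ hψ χ₀ hχ₀ hψne
      have oψ' : Cfsg.classInner ψ (Cfsg.conjFun χ₀) = 0 := hS.orthogonal ψ hψ _ hχ₀c hψne'
      have hR2 : ∀ β ∈ R ψ, ∀ α ∈ R χ₀, Cfsg.classInner β α = 0 :=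
        hS.disjoint χ₀ hχ₀ ψ hψ oψ oψ'
      have e2 : ∀ α ∈ R χ₀, Cfsg.classInner (τ (ψ₁ - ψ)) α = 0 := by
        intro α hα
        by_cases h1 : ψ = ψ₁
        · rw [h1, sub_self, hτ0, classInner_zero_left]
        · by_cases h2 : ψ = Cfsg.conjFun ψ₁
          · rw [h2, hS.sum_eq ψ₁ hψ₁, classInner_sum_left]
            exact Finset.sum_eq_zero (fun β hβ => hR1 β hβ α hα)
          · obtain ⟨n₂, hn₂, _⟩ := hnorm ψ hψ
            obtain ⟨a', b', hθ', _, _, _⟩ := subcoh_pair S τ R hS ψ₁ ψ hψ₁ hψ h1 h2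
              (hdeg ψ₁ hψ₁ ψ hψ) (n₁ : ℤ) (n₂ : ℤ) (by rw [hn₁]; push_cast; rfl)
              (by rw [hn₂]; push_cast; rfl)
            rw [hθ', classInner_add_left, inner_sum_zsmul_left, inner_sum_zsmul_left]
            rw [Finset.sum_congr (s₁ := R ψ₁) rfl (fun β hβ => by rw [hR1 β hβ α hα, mul_zero])]
            rw [Finset.sum_congr (s₁ := R ψ) rfl (fun β hβ => by rw [hR2 β hβ α hα, mul_zero])]
            simp
      have e3 : Cfsg.classInner (τ (ψ₁ - ψ)) (∑ α ∈ R χ₀, a α • α) = 0 := by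
        rw [inner_sum_zsmul_right]
        exact Finset.sum_eq_zero (fun α hα => by rw [e2 α hα, mul_zero])
      have e4 : χ₀ - ψ = (χ₀ - ψ₁) + (ψ₁ - ψ) := by abel
      rw [e4, htadd _ (hsubmem χ₀ hχ₀ ψ₁ hψ₁) _ (hsubmem ψ₁ hψ₁ ψ hψ), classInner_add_left, e1, e3,
        add_zero]
    · push_neg at hcase
      have hcard : (R χ₀).card = 2 * n₀ := by
        have e := htinner _ (hsubmem χ₀ hχ₀ _ hχ₀c) _ (hsubmem χ₀ hχ₀ _ hχ₀c)
        rw [hsumR, orthonormal_sum_inner (R χ₀) hRon] at e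
        have o3 : Cfsg.classInner χ₀ (Cfsg.conjFun χ₀) = 0 :=
          hS.orthogonal χ₀ hχ₀ _ hχ₀c (Ne.symm (hS.conj_ne χ₀ hχ₀))
        have o3' : Cfsg.classInner (Cfsg.conjFun χ₀) χ₀ = 0 :=
          hS.orthogonal _ hχ₀c χ₀ hχ₀ (hS.conj_ne χ₀ hχ₀)
        have o4 : Cfsg.classInner (Cfsg.conjFun χ₀) (Cfsg.conjFun χ₀) = (n₀ : ℂ) := by
          have h := classInner_conj_conj χ₀ χ₀
          rw [hn₀, Complex.conj_natCast] at h
          exact h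
        rw [classInner_sub_left, classInner_sub_right, classInner_sub_right, hn₀, o3, o3', o4] at e
        have e' : (((R χ₀).card : ℕ) : ℂ) = ((2 * n₀ : ℕ) : ℂ) := by
          have h : ((∑ α ∈ R χ₀, (1 : ℤ) * 1 : ℤ) : ℂ) = ((R χ₀).card : ℂ) := by simp
          rw [← h, e]; push_cast; ring
        exact_mod_cast e'
      obtain ⟨A, hAsub, hAcard⟩ := Finset.exists_subset_card_eq (s := R χ₀) (n := n₀) (by omega)
      refine ⟨fun α => if α ∈ A then 1 else 0, ?_, ?_, ?_⟩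
      · rw [Finset.sum_ite_mem, Finset.inter_eq_right.mpr hAsub]
        simp [hAcard]
      · have h : ∀ α : G → ℂ, (if α ∈ A then (1 : ℤ) else 0) ^ 2 = if α ∈ A then 1 else 0 := by
          intro α; split_ifs <;> simp
        rw [Finset.sum_congr rfl (fun α _ => h α), Finset.sum_ite_mem,
          Finset.inter_eq_right.mpr hAsub]
        simp [hAcard]
      · intro ψ hψ h1 h2
        exact absurd (hcase ψ hψ h1) h2
  obtain ⟨a, hsa, hsa2, hPa⟩ := hA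
  obtain ⟨X₀, hX₀def⟩ : ∃ X₀ : G → ℂ, X₀ = ∑ α ∈ R χ₀, a α • α := ⟨_, rfl⟩
  have hX₀gen : Cfsg.IsGeneralizedCharacter G X₀ := by
    rw [hX₀def]
    apply isGeneralizedCharacter_finset_sum
    intro α hα
    exact isGeneralizedCharacter_zsmul _ (hS.virtual χ₀ hχ₀ α hα)
  have hX₀n : Cfsg.classInner X₀ X₀ = (n₀ : ℂ) := by
    rw [hX₀def, orthonormal_sum_inner (R χ₀) hRon]
    have h : ∑ α ∈ R χ₀, a α * a α = (n₀ : ℤ) := by
      rw [← hsa2]; apply Finset.sum_congr rfl; intro α _; ring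
    rw [h]; push_cast; rfl
  have hp : ∀ ψ ∈ S, Cfsg.classInner (τ (ψ - χ₀)) X₀ = (if ψ = χ₀ then (n₀ : ℂ) else 0) - n₀ := by
    intro ψ hψ
    by_cases h1 : ψ = χ₀
    · rw [if_pos h1, h1, sub_self, hτ0, classInner_zero_left, sub_self]
    · rw [if_neg h1, zero_sub]
      have e : ψ - χ₀ = (-1 : ℤ) • (χ₀ - ψ) := by rw [neg_one_zsmul]; abel
      rw [e, htsmul _ (hsubmem χ₀ hχ₀ ψ hψ), inner_zsmul_left]
      by_cases h2 : ψ = Cfsg.conjFun χ₀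
      · rw [h2, hsumR, hX₀def, orthonormal_sum_inner (R χ₀) hRon]
        have h : ∑ α ∈ R χ₀, 1 * a α = (n₀ : ℤ) := by
          rw [← hsa]; apply Finset.sum_congr rfl; intro α _; ring
        rw [h]; push_cast; ring
      · rw [hX₀def, hPa ψ hψ h1 h2]; push_cast; ring
  have hq : ∀ ψ ∈ S, Cfsg.classInner ψ χ₀ = if ψ = χ₀ then (n₀ : ℂ) else 0 := by
    intro ψ hψ
    by_cases h1 : ψ = χ₀
    · rw [if_pos h1, h1, hn₀]
    · rw [if_neg h1, hS.orthogonal ψ hψ χ₀ hχ₀ h1]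
  have hq' : ∀ ψ ∈ S, Cfsg.classInner χ₀ ψ = if ψ = χ₀ then (n₀ : ℂ) else 0 := by
    intro ψ hψ
    by_cases h1 : ψ = χ₀
    · rw [if_pos h1, h1, hn₀]
    · rw [if_neg h1, hS.orthogonal χ₀ hχ₀ ψ hψ (Ne.symm h1)]
  obtain ⟨T, hTdef⟩ : ∃ T : (L → ℂ) → (G → ℂ), T = fun ψ => τ (ψ - χ₀) + X₀ := ⟨_, rfl⟩
  have hTgen : ∀ ψ ∈ S, Cfsg.IsGeneralizedCharacter G (T ψ) := by
    intro ψ hψ
    rw [hTdef]
    exact isGeneralizedCharacter_add (htgen _ (hsubmem ψ hψ χ₀ hχ₀)) hX₀gen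
  have hTin : ∀ ψ ∈ S, ∀ φ ∈ S, Cfsg.classInner (T ψ) (T φ) = Cfsg.classInner ψ φ := by
    intro ψ hψ φ hφ
    rw [hTdef]
    simp only []
    have hconj : Cfsg.classInner X₀ (τ (φ - χ₀)) = (if φ = χ₀ then (n₀ : ℂ) else 0) - n₀ := by
      rw [classInner_conj_symm, hp φ hφ, map_sub, Complex.conj_natCast]
      split_ifs
      · rw [Complex.conj_natCast]
      · rw [map_zero]
    rw [classInner_add_left, classInner_add_right, classInner_add_right,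
      htinner _ (hsubmem ψ hψ χ₀ hχ₀) _ (hsubmem φ hφ χ₀ hχ₀), hp ψ hψ, hconj, hX₀n,
      classInner_sub_left, classInner_sub_right, classInner_sub_right, hq ψ hψ, hq' φ hφ, hn₀]
    ring
  obtain ⟨τ₂, h2add, h2smul, h2iso, h2gen⟩ := coherent_ext hSfin.toFinset T
    (fun ξ hξ => by
      obtain ⟨n, hn, hpos⟩ := hnorm ξ ((Set.Finite.mem_toFinset hSfin).mp hξ)
      rw [hn]; exact_mod_cast hpos.ne')
    (fun ξ hξ η hη hne => hS.orthogonal ξ ((Set.Finite.mem_toFinset hSfin).mp hξ) η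
      ((Set.Finite.mem_toFinset hSfin).mp hη) hne)
    (fun ξ hξ => hTgen ξ ((Set.Finite.mem_toFinset hSfin).mp hξ))
    (fun ξ hξ η hη => hTin ξ ((Set.Finite.mem_toFinset hSfin).mp hξ) η
      ((Set.Finite.mem_toFinset hSfin).mp hη))
  rw [Set.Finite.coe_toFinset] at h2iso
  have h20 : τ₂ 0 = 0 := by
    have e1 := h2smul 0 0
    rw [zero_smul, zero_smul] at e1
    exact e1
  have hagree : ∀ f ∈ Cfsg.zspan S, ∃ e : ℤ, f 1 = (e : ℂ) * (d : ℂ) ∧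
      f - e • χ₀ ∈ Cfsg.zspanOn S {1}ᶜ ∧ τ₂ f = τ (f - e • χ₀) + e • X₀ := by
    intro f hf
    have hf' : f ∈ Submodule.span ℤ S := hf
    induction hf' using Submodule.span_induction with
    | mem ψ hψ =>
      refine ⟨1, ?_, ?_, ?_⟩
      · rw [hdeg ψ hψ χ₀ hχ₀, hd]; push_cast; ring
      · rw [one_smul]; exact hsubmem ψ hψ χ₀ hχ₀
      · rw [h2gen ψ ((Set.Finite.mem_toFinset hSfin).mpr hψ), hTdef, one_smul, one_smul]
    | zero =>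
      refine ⟨0, ?_, ?_, ?_⟩
      · simp
      · rw [zero_smul, sub_zero]
        have := hsubmem χ₀ hχ₀ χ₀ hχ₀
        rwa [sub_self] at this
      · rw [h20, zero_smul, sub_zero, hτ0, zero_smul, add_zero]
    | add x y hx hy ihx ihy =>
      obtain ⟨e₁, h11, h12, h13⟩ := ihx hx
      obtain ⟨e₂, h21, h22, h23⟩ := ihy hy
      have e : x + y - (e₁ + e₂) • χ₀ = (x - e₁ • χ₀) + (y - e₂ • χ₀) := by
        rw [add_smul]; abel
      refine ⟨e₁ + e₂, ?_, ?_, ?_⟩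
      · rw [Pi.add_apply, h11, h21]; push_cast; ring
      · rw [e]
        apply (mem_zspanOn_one S _).mpr
        refine ⟨Submodule.add_mem _ ((mem_zspanOn_one S _).mp h12).1 ((mem_zspanOn_one S _).mp h22).1,
          ?_⟩
        rw [Pi.add_apply, ((mem_zspanOn_one S _).mp h12).2, ((mem_zspanOn_one S _).mp h22).2,
          add_zero]
      · rw [e, h2add, h13, h23, htadd _ h12 _ h22, add_smul]; abel
    | smul n x hx ih =>
      obtain ⟨e₁, h11, h12, h13⟩ := ih hx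
      have e : n • x - (n * e₁) • χ₀ = n • (x - e₁ • χ₀) := by
        rw [smul_sub, mul_smul]
      refine ⟨n * e₁, ?_, ?_, ?_⟩
      · rw [Pi.smul_apply, h11, zsmul_eq_mul]; push_cast; ring
      · rw [e]
        apply (mem_zspanOn_one S _).mpr
        refine ⟨Submodule.smul_mem _ _ ((mem_zspanOn_one S _).mp h12).1, ?_⟩
        rw [Pi.smul_apply, ((mem_zspanOn_one S _).mp h12).2, smul_zero]
      · rw [e, h2smul, h13, htsmul _ h12, smul_add, mul_smul]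
  refine ⟨⟨χ₀ - Cfsg.conjFun χ₀, hsubmem χ₀ hχ₀ _ hχ₀c, ?_⟩, τ₂, h2iso, ?_⟩
  · intro h
    exact hS.conj_ne χ₀ hχ₀ (sub_eq_zero.mp h).symm
  · intro f hf
    obtain ⟨hfmem, hf1⟩ := (mem_zspanOn_one S f).mp hf
    obtain ⟨e, he1, _, he3⟩ := hagree f hfmem
    rw [hf1] at he1
    have he0 : e = 0 := by
      rcases mul_eq_zero.mp he1.symm with h | h
      · exact_mod_cast h
      · exact absurd h hd0
    rw [he3, he0, zero_smul, zero_smul, sub_zero, add_zero]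

end Cfsg.Agent.S1517
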