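import Cfsg.Statements.S1523
import Cfsg.Agent.Lib.helper24.CharReg
import Cfsg.Agent.Lib.helper24.CharMisc
import Cfsg.Agent.Lib.helper23.CharMod

set_option autoImplicit false
open Cfsg

namespace Cfsg.Agent.S1523

open Cfsg.Agent.Lib.helper23 Cfsg.Agent.Lib.helper24
open scoped ComplexConjugate

theorem free_orbit_sum {Γ : Type*} [Group Γ] [Fintype Γ] {α : Type*} [DecidableEq α]
    (act : Γ → α → α) (h1 : ∀ x, act 1 x = x) (hmul : ∀ a b x, act (a * b) x = act a (act b x))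
    (f : α → ℂ) :
    ∀ (N : ℕ) (X : Finset α), X.card = N → (∀ a, ∀ x ∈ X, act a x ∈ X) →
      (∀ a, ∀ x ∈ X, act a x = x → a = 1) → (∀ a, ∀ x ∈ X, f (act a x) = f x) →
      ∃ s : Finset α, s ⊆ X ∧ ∑ x ∈ X, f x = (Fintype.card Γ : ℂ) * ∑ x ∈ s, f x := by
  intro N
  induction N using Nat.strong_induction_on with
  | _ N ih =>
    intro X hN hst hfree hinv
    by_cases hX : X = ∅
    · subst hX
      exact ⟨∅, Finset.Subset.refl _, by simp⟩
    · obtain ⟨x₀, hx₀⟩ := Finset.nonempty_iff_ne_empty.mpr hX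
      have hinj : Function.Injective (fun a : Γ => act a x₀) := by
        intro a b hab
        have hab' : act a x₀ = act b x₀ := hab
        have h2 : act (b⁻¹ * a) x₀ = x₀ := by
          rw [hmul, hab', ← hmul, inv_mul_cancel, h1]
        have h3 := hfree _ _ hx₀ h2
        exact (inv_mul_eq_one.mp h3).symm
      set O : Finset α := Finset.image (fun a : Γ => act a x₀) Finset.univ with hO
      have hOX : O ⊆ X := by
        intro y hy
        rw [hO, Finset.mem_image] at hy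
        obtain ⟨a, -, rfl⟩ := hy
        exact hst a x₀ hx₀
      have hx₀O : x₀ ∈ O := by
        rw [hO, Finset.mem_image]
        exact ⟨1, Finset.mem_univ _, h1 x₀⟩
      have hsumO : ∑ x ∈ O, f x = (Fintype.card Γ : ℂ) * f x₀ := by
        rw [hO, Finset.sum_image (fun a _ b _ hab => hinj hab)]
        rw [Finset.sum_congr rfl (fun a _ => hinv a x₀ hx₀)]
        simp
      have hst' : ∀ a, ∀ x ∈ X \ O, act a x ∈ X \ O := by
        intro a x hx
        rw [Finset.mem_sdiff] at hx ⊢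
        refine ⟨hst a x hx.1, fun hmem => hx.2 ?_⟩
        rw [hO, Finset.mem_image] at hmem ⊢
        obtain ⟨b, -, hb⟩ := hmem
        refine ⟨a⁻¹ * b, Finset.mem_univ _, ?_⟩
        show act (a⁻¹ * b) x₀ = x
        have hb' : act b x₀ = act a x := hb
        rw [hmul, hb', ← hmul, inv_mul_cancel, h1]
      have hlt : (X \ O).card < N := by
        rw [← hN]
        apply Finset.card_lt_card
        refine ⟨Finset.sdiff_subset, fun hsub => ?_⟩
        have h4 := hsub hx₀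
        rw [Finset.mem_sdiff] at h4
        exact h4.2 hx₀O
      obtain ⟨s, hs, hsum⟩ := ih _ hlt (X \ O) rfl hst'
        (fun a x hx => hfree a x (Finset.mem_sdiff.mp hx).1)
        (fun a x hx => hinv a x (Finset.mem_sdiff.mp hx).1)
      refine ⟨insert x₀ s, ?_, ?_⟩
      · intro y hy
        rw [Finset.mem_insert] at hy
        rcases hy with rfl | hy
        · exact hx₀
        · exact (Finset.mem_sdiff.mp (hs hy)).1
      · have hx₀s : x₀ ∉ s := fun h => (Finset.mem_sdiff.mp (hs h)).2 hx₀O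
        rw [Finset.sum_insert hx₀s, mul_add, ← hsumO, ← hsum]
        rw [← Finset.sum_sdiff hOX]
        ring

theorem conj_pow_odd {G : Type*} [Group G] (t z : G) (h0 : t * z⁻¹ * t⁻¹ = z)
    (h1 : t * z * t⁻¹ = z⁻¹) :
    ∀ k : ℕ, t ^ (2 * k + 1) * z * (t ^ (2 * k + 1))⁻¹ = z⁻¹ := by
  intro k
  induction k with
  | zero => simpa using h1
  | succ k ih =>
    have e : t ^ (2 * (k + 1) + 1) = t * t * t ^ (2 * k + 1) := by
      rw [show 2 * (k + 1) + 1 = 2 + (2 * k + 1) by ring, pow_add, pow_two]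
    rw [e]
    calc t * t * t ^ (2 * k + 1) * z * (t * t * t ^ (2 * k + 1))⁻¹
        = t * (t * (t ^ (2 * k + 1) * z * (t ^ (2 * k + 1))⁻¹) * t⁻¹) * t⁻¹ := by group
      _ = t * (t * z⁻¹ * t⁻¹) * t⁻¹ := by rw [ih]
      _ = t * z * t⁻¹ := by rw [h0]
      _ = z⁻¹ := h1

theorem conj_aux {G : Type*} [Group G] (u t v e z : G) (hve : v * e = e * v)
    (huz : z * u = u * z) :
    (u * t * v⁻¹) * e * (u * t * v⁻¹)⁻¹ * z⁻¹ = u * (t * e * t⁻¹ * z⁻¹) * u⁻¹ := by
  have h1 : v⁻¹ * e * v = e := by rw [mul_assoc, ← hve, inv_mul_cancel_left]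
  have h2 : u⁻¹ * z⁻¹ = z⁻¹ * u⁻¹ := by rw [← mul_inv_rev, ← mul_inv_rev, huz]
  calc (u * t * v⁻¹) * e * (u * t * v⁻¹)⁻¹ * z⁻¹
      = u * t * (v⁻¹ * e * v) * t⁻¹ * (u⁻¹ * z⁻¹) := by group
    _ = u * t * e * t⁻¹ * (z⁻¹ * u⁻¹) := by rw [h1, h2]
    _ = u * (t * e * t⁻¹ * z⁻¹) * u⁻¹ := by group


/-- Let G be a finite group, p a prime, P a Sylow p-subgroup whose underlying set is a TI-subset of G, with L the set normaliser of P of odd order. Let Z ≠ ⊥ be a subgroup of P, normal in L and central in P, such that the centralisers in L of any two non-identity elements of Z have the same order. If ψ is an irreducible character of G taking the same value at all non-identity elements of Z, then for z ∈ Z, z ≠ 1, the value ψ z is an integer n with Nat.card P dividing ψ(1) − n (as integers, ψ 1 being the degree). -/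
theorem result {G : Type*} [Group G] [Finite G] (p : ℕ) [Fact p.Prime] (P : Sylow p G) (hTI : Cfsg.IsTISubset ((P : Subgroup G) : Set G)) (hodd : Odd (Nat.card (Subgroup.normalizer ((P : Subgroup G) : Set G)))) (Z : Subgroup G) (hZ1 : Z ≠ ⊥) (hZP : Z ≤ P) (hZn : ∀ x ∈ Subgroup.normalizer ((P : Subgroup G) : Set G), ∀ z ∈ Z, x * z * x⁻¹ ∈ Z) (hZc : ∀ z ∈ Z, ∀ y ∈ (P : Subgroup G), z * y = y * z) (hCL : ∀ z ∈ Z, ∀ z' ∈ Z, z ≠ 1 → z' ≠ 1 → Nat.card ↥(Subgroup.normalizer ((P : Subgroup G) : Set G) ⊓ Subgroup.centralizer ({z} : Set G)) = Nat.card ↥(Subgroup.normalizer ((P : Subgroup G) : Set G) ⊓ Subgroup.centralizer ({z'} : Set G))) (ψ : G → ℂ) (hψ : Cfsg.IsIrrCharacter G ψ) (hconst : ∀ z ∈ Z, ∀ z' ∈ Z, z ≠ 1 → z' ≠ 1 → ψ z = ψ z') (z : G) (hz : z ∈ Z) (hz1 : z ≠ 1) : ∃ n d : ℤ, ψ z = n ∧ ψ 1 = d ∧ (Nat.card (P : Subgroup G) : ℤ) ∣ d - n := by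
  classical
  haveI := Fintype.ofFinite G
  set L : Subgroup G := Subgroup.normalizer ((P : Subgroup G) : Set G) with hL
  have hPL : (P : Subgroup G) ≤ L := Subgroup.le_normalizer
  have hzP : z ∈ (P : Subgroup G) := hZP hz
  have hTI' : ∀ g x : G, x ∈ (P : Subgroup G) → x ≠ 1 → g * x * g⁻¹ ∈ (P : Subgroup G) → g ∈ L := by
    intro g x hx hx1 hgx
    by_contra hg
    exact hx1 (hTI g hg x hx hgx)
  have hc : Cfsg.IsCharacter G ψ := isIrrCharacter_isCharacter hψ
  have hint : ∀ g, IsIntegral ℤ (ψ g) := fun g => isCharacter_isIntegral hc g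
  have hcl : ∀ w u : G, ψ (u * w * u⁻¹) = ψ w := fun w u => isCharacter_conj_invariant hc w u
  have hzi : z⁻¹ ∈ Z := inv_mem hz
  have hzi1 : z⁻¹ ≠ 1 := fun h => hz1 (inv_eq_one.mp h)
  have hψzi : ψ z⁻¹ = ψ z := hconst z⁻¹ hzi z hz hzi1 hz1
  -- z is not conjugate to its inverse
  have hnc : ∀ t : G, t * z⁻¹ * t⁻¹ ≠ z := by
    intro t h0
    have htL : t ∈ L := hTI' t z⁻¹ (inv_mem hzP) hzi1 (by rw [h0]; exact hzP)
    have h1 : t * z * t⁻¹ = z⁻¹ := by
      have : (t * z⁻¹ * t⁻¹)⁻¹ = z⁻¹ := by rw [h0]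
      rw [← this]; group
    have hoddt : Odd (orderOf t) := by
      have h2 : orderOf (⟨t, htL⟩ : L) ∣ Nat.card L := orderOf_dvd_natCard _
      rw [Subgroup.orderOf_mk] at h2
      exact Odd.of_dvd_nat hodd h2
    obtain ⟨k, hk⟩ := hoddt
    have h3 := conj_pow_odd t z h0 h1 k
    rw [← hk, pow_orderOf_eq_one] at h3
    have hzz : z * z = 1 := by
      have : z = z⁻¹ := by simpa using h3
      calc z * z = z * z⁻¹ := by rw [← this]
        _ = 1 := mul_inv_cancel z
    have hoddz : Odd (orderOf z) := by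
      have h2 : orderOf (⟨z, hPL hzP⟩ : L) ∣ Nat.card L := orderOf_dvd_natCard _
      rw [Subgroup.orderOf_mk] at h2
      exact Odd.of_dvd_nat hodd h2
    have hdvd : orderOf z ∣ 2 := orderOf_dvd_of_pow_eq_one (by rw [pow_two]; exact hzz)
    have h4 : orderOf z = 1 :=
      Nat.Coprime.eq_one_of_dvd (Nat.coprime_two_left.mpr hoddz).symm hdvd
    exact hz1 (orderOf_eq_one_iff.mp h4)
  set C : Subgroup G := Subgroup.centralizer ({z} : Set G) with hC
  have hCL' : C ≤ L := by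
    intro v hv
    rw [hC, Subgroup.mem_centralizer_singleton_iff] at hv
    apply hTI' v z hzP hz1
    rw [hv]; simpa using hzP
  -- p-elements of L lie in P
  have hpL : ∀ y : G, y ∈ L → (∃ k : ℕ, y ^ (p ^ k) = 1) → y ∈ (P : Subgroup G) := by
    intro y hy ⟨k, hk⟩
    have hpg : IsPGroup p (Subgroup.zpowers y) := by
      rintro ⟨g, hg⟩
      obtain ⟨i, rfl⟩ := Subgroup.mem_zpowers_iff.mp hg
      refine ⟨k, Subtype.ext ?_⟩
      show (y ^ i) ^ (p ^ k) = 1
      rw [← zpow_natCast, ← zpow_mul, mul_comm, zpow_mul, zpow_natCast, hk, one_zpow]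
    have h5 := hpg.inf_normalizer_sylow P
    exact (h5.le ⟨Subgroup.mem_zpowers y, hy⟩).2
  obtain ⟨kz, hkz⟩ : ∃ k : ℕ, z ^ (p ^ k) = 1 := by
    obtain ⟨k, hk⟩ := P.2 ⟨z, hzP⟩
    exact ⟨k, by simpa using congrArg Subtype.val hk⟩
  -- the function
  set f : G → ℂ := fun t => ψ (t * z * t⁻¹ * z⁻¹) - ψ (t * z⁻¹ * t⁻¹ * z⁻¹) with hf
  have hfint : ∀ t, IsIntegral ℤ (f t) := fun t => (hint _).sub (hint _)
  have hsum0 : ∑ t : G, f t = 0 := by
    have E1 := irr_sum_conj_mul (⟨ψ, hψ⟩ : Cfsg.IrrCharacter G) z z⁻¹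
    have E2 := irr_sum_conj_mul (⟨ψ, hψ⟩ : Cfsg.IrrCharacter G) z⁻¹ z⁻¹
    simp only at E1 E2
    rw [hf, Finset.sum_sub_distrib, E1, E2, hψzi]
    ring
  -- L-part
  have hLpart : ∑ t ∈ Finset.univ.filter (fun t : G => t ∈ L), f t
      = (Fintype.card C : ℂ) * (ψ 1 - ψ z) := by
    have h7 : ∀ t ∈ Finset.univ.filter (fun t : G => t ∈ L),
        f t = if t ∈ C then (ψ 1 - ψ z) else 0 := by
      intro t ht
      rw [Finset.mem_filter] at ht
      have htL := ht.2
      have hw2 : ψ (t * z⁻¹ * t⁻¹ * z⁻¹) = ψ z := by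
        apply hconst _ (mul_mem (hZn t htL z⁻¹ hzi) hzi) z hz _ hz1
        intro h
        exact hnc t (mul_inv_eq_one.mp h)
      by_cases htC : t ∈ C
      · rw [if_pos htC]
        have h8 : t * z = z * t := Subgroup.mem_centralizer_singleton_iff.mp htC
        have h9 : t * z * t⁻¹ * z⁻¹ = 1 := by rw [h8]; group
        show ψ (t * z * t⁻¹ * z⁻¹) - ψ (t * z⁻¹ * t⁻¹ * z⁻¹) = _
        rw [hw2, h9]
      · rw [if_neg htC]
        have hw1 : ψ (t * z * t⁻¹ * z⁻¹) = ψ z := by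
          apply hconst _ (mul_mem (hZn t htL z hz) hzi) z hz _ hz1
          intro h
          apply htC
          rw [hC, Subgroup.mem_centralizer_singleton_iff]
          have : t * z * t⁻¹ = z := mul_inv_eq_one.mp h
          calc t * z = t * z * t⁻¹ * t := by group
            _ = z * t := by rw [this]
        show ψ (t * z * t⁻¹ * z⁻¹) - ψ (t * z⁻¹ * t⁻¹ * z⁻¹) = _
        rw [hw1, hw2, sub_self]
    rw [Finset.sum_congr rfl h7, ← Finset.sum_filter, Finset.filter_filter, Finset.sum_const,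
      nsmul_eq_mul]
    congr 2
    rw [Fintype.card_subtype]
    congr 1
    ext t
    simp only [Finset.mem_filter, Finset.mem_univ, true_and]
    exact ⟨fun h => h.2, fun h => ⟨hCL' h, h⟩⟩
  -- non-L part
  obtain ⟨s, -, hs⟩ := free_orbit_sum (Γ := ↥(P : Subgroup G) × ↥C)
    (fun a t => (a.1 : G) * t * ((a.2 : G))⁻¹) (by intro t; simp)
    (by intro a b t; simp [mul_assoc]) f _
    (Finset.univ.filter (fun t : G => t ∉ L)) rfl
    (by
      intro a t ht
      rw [Finset.mem_filter] at ht ⊢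
      refine ⟨Finset.mem_univ _, fun h => ht.2 ?_⟩
      have h10 : t = (a.1 : G)⁻¹ * ((a.1 : G) * t * ((a.2 : G))⁻¹) * (a.2 : G) := by group
      rw [h10]
      exact mul_mem (mul_mem (inv_mem (hPL a.1.2)) h) (hCL' a.2.2))
    (by
      rintro ⟨⟨u, hu⟩, ⟨v, hv⟩⟩ t ht hact
      rw [Finset.mem_filter] at ht
      have hact' : u * t * v⁻¹ = t := hact
      have hv' : v * z = z * v := Subgroup.mem_centralizer_singleton_iff.mp hv
      have hu1 : u = 1 := by
        by_contra hu1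
        have hut : u * t = t * v := by
          calc u * t = u * t * v⁻¹ * v := by group
            _ = t * v := by rw [hact']
        have hy : (t * z * t⁻¹) * u * (t * z * t⁻¹)⁻¹ = u := by
          have h11 : u * (t * z * t⁻¹) * u⁻¹ = t * z * t⁻¹ := by
            calc u * (t * z * t⁻¹) * u⁻¹ = (u * t) * z * (u * t)⁻¹ := by group
              _ = (t * v) * z * (t * v)⁻¹ := by rw [hut]
              _ = t * (v * z) * v⁻¹ * t⁻¹ := by group
              _ = t * (z * v) * v⁻¹ * t⁻¹ := by rw [hv']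
              _ = t * z * t⁻¹ := by group
          calc (t * z * t⁻¹) * u * (t * z * t⁻¹)⁻¹
              = (u * (t * z * t⁻¹) * u⁻¹) * u * (t * z * t⁻¹)⁻¹ := by rw [h11]
            _ = u := by group
        have hyL : t * z * t⁻¹ ∈ L := hTI' _ u hu hu1 (by rw [hy]; exact hu)
        have hyP : t * z * t⁻¹ ∈ (P : Subgroup G) := by
          apply hpL _ hyL
          refine ⟨kz, ?_⟩
          rw [conj_pow, hkz]; group
        exact ht.2 (hTI' t z hzP hz1 hyP)
      subst hu1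
      have hv1 : v = 1 := by
        have : t * v⁻¹ = t := by simpa using hact'
        have h12 : v⁻¹ = 1 := mul_eq_left.mp this
        exact inv_eq_one.mp h12
      subst hv1
      rfl)
    (by
      rintro ⟨⟨u, hu⟩, ⟨v, hv⟩⟩ t ht
      have hv' : v * z = z * v := Subgroup.mem_centralizer_singleton_iff.mp hv
      have hvi : v * z⁻¹ = z⁻¹ * v := by
        calc v * z⁻¹ = z⁻¹ * (z * v) * z⁻¹ := by group
          _ = z⁻¹ * (v * z) * z⁻¹ := by rw [hv']
          _ = z⁻¹ * v := by group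
      have huz : z * u = u * z := hZc z hz u hu
      show ψ ((u * t * v⁻¹) * z * (u * t * v⁻¹)⁻¹ * z⁻¹)
          - ψ ((u * t * v⁻¹) * z⁻¹ * (u * t * v⁻¹)⁻¹ * z⁻¹)
        = ψ (t * z * t⁻¹ * z⁻¹) - ψ (t * z⁻¹ * t⁻¹ * z⁻¹)
      rw [conj_aux u t v z z hv' huz, conj_aux u t v z⁻¹ z hvi huz, hcl, hcl])
  have hα : IsIntegral ℤ (∑ x ∈ s, f x) := IsIntegral.sum _ (fun x _ => hfint x)
  set α : ℂ := ∑ x ∈ s, f x with hαdef
  have htot : (Fintype.card C : ℂ) * (ψ 1 - ψ z)
      + (Fintype.card (↥(P : Subgroup G) × ↥C) : ℂ) * α = 0 := by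
    rw [← hLpart, ← hs, Finset.sum_filter_add_sum_filter_not]
    exact hsum0
  have hCne : (Fintype.card C : ℂ) ≠ 0 := by
    exact_mod_cast Fintype.card_ne_zero
  have hPne : (Fintype.card (P : Subgroup G) : ℂ) ≠ 0 := by
    exact_mod_cast Fintype.card_ne_zero
  have hmain : ψ 1 - ψ z = -((Fintype.card (P : Subgroup G) : ℂ) * α) := by
    rw [Fintype.card_prod] at htot
    push_cast at htot
    have : (Fintype.card C : ℂ) * ((ψ 1 - ψ z) + (Fintype.card (P : Subgroup G) : ℂ) * α) = 0 := by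
      linear_combination htot
    have h13 := (mul_eq_zero.mp this).resolve_left hCne
    linear_combination h13
  -- degree
  have hd : ψ 1 = (Cfsg.charDegree ψ : ℂ) := isCharacter_one_eq hc
  -- n is an integer
  obtain ⟨N₀, hN₀⟩ := isCharacter_inner_nat (isCharacter_restrict Z hc)
    (isCharacter_trivial (G := Z))
  have hZcard : 2 ≤ Fintype.card Z := by
    rw [← Nat.card_eq_fintype_card]
    have hnt : Nontrivial Z := by
      refine ⟨⟨⟨z, hz⟩, 1, fun h => hz1 ?_⟩⟩
      simpa using congrArg Subtype.val h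
    exact Finite.one_lt_card
  have hsumZ : ∑ w : Z, ψ w = (Fintype.card Z : ℂ) * ψ z + (ψ 1 - ψ z) := by
    have h14 : ∀ w : Z, ψ w = ψ z + (if w = 1 then (ψ 1 - ψ z) else 0) := by
      intro w
      by_cases hw : w = 1
      · subst hw; simp
      · rw [if_neg hw, add_zero]
        exact hconst w w.2 z hz (fun h => hw (Subtype.ext h)) hz1
    rw [Finset.sum_congr rfl (fun w _ => h14 w), Finset.sum_add_distrib, Finset.sum_const,
      Finset.sum_ite_eq' Finset.univ (1 : Z)]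
    simp
  have hZne : (Fintype.card Z : ℂ) ≠ 0 := by
    exact_mod_cast Fintype.card_ne_zero
  have hZ1ne : (Fintype.card Z : ℂ) - 1 ≠ 0 := by
    have : (2 : ℝ) ≤ (Fintype.card Z : ℝ) := by exact_mod_cast hZcard
    intro h
    have h' : (Fintype.card Z : ℂ) = 1 := by linear_combination h
    have h'' : Fintype.card Z = 1 := by exact_mod_cast h'
    omega
  have hrel : (Fintype.card Z : ℂ) * ψ z + (ψ 1 - ψ z) = (Fintype.card Z : ℂ) * (N₀ : ℂ) := by
    unfold Cfsg.classInner at hN₀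
    rw [Nat.card_eq_fintype_card] at hN₀
    have h15 : ∑ w : Z, ψ w * (starRingEnd ℂ) 1 = ∑ w : Z, ψ w := by
      apply Finset.sum_congr rfl
      intro w _
      simp
    rw [h15, hsumZ] at hN₀
    rw [← hN₀]
    field_simp
  have hnq : ψ z = (((Fintype.card Z : ℚ) * N₀ - Cfsg.charDegree ψ) / ((Fintype.card Z : ℚ) - 1) : ℚ) := by
    push_cast
    rw [eq_div_iff hZ1ne]
    rw [hd] at hrel
    linear_combination hrel
  obtain ⟨n, hn⟩ : ∃ n : ℤ, ψ z = (n : ℂ) := by
    have h16 := hint z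
    rw [hnq] at h16
    obtain ⟨n, hn⟩ := rat_of_isIntegral_complex h16
    refine ⟨n, ?_⟩
    rw [hnq, ← hn]
    push_cast
    rfl
  -- conclusion
  have hαq : α = (((n : ℚ) - Cfsg.charDegree ψ) / (Fintype.card (P : Subgroup G) : ℚ) : ℚ) := by
    push_cast
    rw [eq_div_iff hPne]
    rw [hd, hn] at hmain
    linear_combination hmain
  rw [hαq] at hα
  obtain ⟨j, hj⟩ := rat_of_isIntegral_complex hα
  refine ⟨n, (Cfsg.charDegree ψ : ℤ), hn, by rw [hd]; push_cast; rfl, ?_⟩
  refine ⟨-j, ?_⟩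
  rw [Nat.card_eq_fintype_card]
  have hPq : (Fintype.card (P : Subgroup G) : ℚ) ≠ 0 := by
    exact_mod_cast Fintype.card_ne_zero
  have h17 : ((Cfsg.charDegree ψ : ℚ) - n) = (Fintype.card (P : Subgroup G) : ℚ) * (-(j : ℚ)) := by
    rw [hj]
    field_simp
    ring
  exact_mod_cast h17

end Cfsg.Agent.S1523
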