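import Cfsg.Statements.S1527

import Cfsg.Agent.Lib.helper8.CoprimeAction
set_option autoImplicit false
open Cfsg

namespace Cfsg.Agent.S1527

theorem card_ne_elt {α : Type*} [Finite α] (b : α) : Nat.card {a : α // a ≠ b} = Nat.card α - 1 := by
  classical
  have := Fintype.ofFinite α
  rw [Nat.card_eq_fintype_card, Nat.card_eq_fintype_card, Fintype.card_subtype_compl,
    Fintype.card_subtype_eq]

theorem conj_ne_one {G : Type*} [Group G] {g h : G} (hh : h ≠ 1) : g * h * g⁻¹ ≠ 1 := by
  intro h1
  apply hh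
  have : h = g⁻¹ * (g * h * g⁻¹) * g := by group
  rw [this, h1]
  group

theorem orderOf_conj_dvd {G : Type*} [Group G] [Finite G] (H : Subgroup G) (g : G) (h : H) :
    orderOf (g * (h : G) * g⁻¹) ∣ Nat.card H := by
  have h1 : orderOf (g * (h : G) * g⁻¹) = orderOf (h : G) := by
    have := orderOf_injective (MulAut.conj g).toMonoidHom (MulAut.conj g).injective (h : G)
    simpa using this
  rw [h1, Subgroup.orderOf_coe]
  exact orderOf_dvd_natCard h

/-- Let G be a finite group and H i (i in a finite index type) subgroups of pairwise coprime orders, each of whose underlying sets is a TI-subset of G, such that every non-identity element of G is conjugate to an element of some H i. Then Nat.card G − 1 = Σ_i [G : N_G(H i)] · (Nat.card (H i) − 1). -/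
theorem result {G : Type*} [Group G] [Finite G] {ι : Type*} [Fintype ι] (H : ι → Subgroup G) (hcop : ∀ i j, i ≠ j → Nat.Coprime (Nat.card (H i)) (Nat.card (H j))) (hTI : ∀ i, Cfsg.IsTISubset (H i : Set G)) (hcover : ∀ g : G, g ≠ 1 → ∃ i, ∃ x : G, x * g * x⁻¹ ∈ H i) : Nat.card G - 1 = ∑ i, (Subgroup.normalizer (H i : Set G)).index * (Nat.card (H i) - 1) := by

    classical
    rw [← card_ne_elt (1 : G)]
    have hterm : ∀ i, (Subgroup.normalizer (H i : Set G)).index * (Nat.card (H i) - 1) =
        Nat.card ((G ⧸ Subgroup.normalizer (H i : Set G)) × {h : H i // h ≠ 1}) := by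
      intro i
      rw [Nat.card_prod, card_ne_elt, Subgroup.index_eq_card]
    simp only [hterm]
    rw [← Nat.card_sigma]
    symm
    let f : (Σ i, (G ⧸ Subgroup.normalizer (H i : Set G)) × {h : H i // h ≠ 1}) → {x : G // x ≠ 1} :=
      fun s => ⟨s.2.1.out * (s.2.2.1 : G) * (s.2.1.out)⁻¹,
        conj_ne_one (fun h => s.2.2.2 (Subtype.ext h))⟩
    apply Nat.card_eq_of_bijective f
    constructor
    · rintro ⟨i, q, h, hh⟩ ⟨j, q', h', hh'⟩ hEq
      have hEq' : q.out * (h : G) * (q.out)⁻¹ = q'.out * (h' : G) * (q'.out)⁻¹ :=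
        congrArg Subtype.val hEq
      have hij : i = j := by
        by_contra hne
        have h1 := orderOf_conj_dvd (H i) q.out h
        have h2 := orderOf_conj_dvd (H j) q'.out h'
        rw [← hEq'] at h2
        have h3 := Nat.eq_one_of_dvd_coprimes (hcop i j hne) h1 h2
        rw [orderOf_eq_one_iff] at h3
        exact conj_ne_one (fun h0 => hh (Subtype.ext h0)) h3
      subst hij
      have hconj : (q'.out⁻¹ * q.out) * (h : G) * (q'.out⁻¹ * q.out)⁻¹ = (h' : G) := by
        calc (q'.out⁻¹ * q.out) * (h : G) * (q'.out⁻¹ * q.out)⁻¹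
            = q'.out⁻¹ * (q.out * (h : G) * (q.out)⁻¹) * q'.out := by group
          _ = (h' : G) := by rw [hEq']; group
      have hmem : q'.out⁻¹ * q.out ∈ Subgroup.normalizer (H i : Set G) := by
        by_contra hnot
        have := hTI i _ hnot (h : G) h.2 (by rw [hconj]; exact h'.2)
        exact hh (Subtype.ext this)
      have hq : q' = q := by
        rw [← QuotientGroup.out_eq' q', ← QuotientGroup.out_eq' q]
        exact QuotientGroup.eq.mpr hmem
      subst hq
      have hh2 : (h : G) = (h' : G) := by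
        have : (h' : G) = q'.out⁻¹ * (q'.out * (h' : G) * (q'.out)⁻¹) * q'.out := by group
        rw [this, ← hEq']
        group
      have hh3 : h = h' := Subtype.ext hh2
      subst hh3
      rfl
    · rintro ⟨x, hx⟩
      obtain ⟨i, g, hg⟩ := hcover x hx
      obtain ⟨n, hn⟩ := QuotientGroup.mk_out_eq_mul (Subgroup.normalizer (H i : Set G)) g⁻¹
      have hmem : (n : G)⁻¹ * (g * x * g⁻¹) * (n : G) ∈ H i :=
        Cfsg.Agent.Lib.helper8.conj_mem_of_mem_normalizer' n.2 hg
      have hne : (⟨(n : G)⁻¹ * (g * x * g⁻¹) * (n : G), hmem⟩ : H i) ≠ 1 := by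
        intro h1
        have h2 := congrArg Subtype.val h1
        simp only [Subgroup.coe_one] at h2
        apply hx
        have : x = g⁻¹ * (n : G) * ((n : G)⁻¹ * (g * x * g⁻¹) * (n : G)) * (n : G)⁻¹ * g := by group
        rw [this, h2]
        group
      refine ⟨⟨i, (QuotientGroup.mk g⁻¹ : G ⧸ Subgroup.normalizer (H i : Set G)),
        ⟨⟨(n : G)⁻¹ * (g * x * g⁻¹) * (n : G), hmem⟩, hne⟩⟩, ?_⟩
      apply Subtype.ext
      show (QuotientGroup.mk g⁻¹ : G ⧸ Subgroup.normalizer (H i : Set G)).out *
        ((n : G)⁻¹ * (g * x * g⁻¹) * (n : G)) *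
        ((QuotientGroup.mk g⁻¹ : G ⧸ Subgroup.normalizer (H i : Set G)).out)⁻¹ = x
      rw [hn]
      group

end Cfsg.Agent.S1527
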