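import Cfsg.Statements.S1528

import Cfsg.Agent.Lib.helper24.CharNormal
import Cfsg.Agent.Lib.helper24.CharReg
set_option autoImplicit false
open Cfsg

namespace Cfsg.Agent.S1528

open Cfsg.Agent.Lib.helper24 in
theorem exists_nontriv_constituent {N : Type*} [Group N] [Fintype N] (ψ : N → ℂ)
    (hψ : Cfsg.IsCharacter N ψ) (n : N) (hn : ψ n ≠ ψ 1) :
    ∃ τ : Cfsg.IrrCharacter N, τ ≠ trivIrr N ∧ Cfsg.classInner ψ τ.1 ≠ 0 := by
  classical
  have := Fintype.ofFinite (Cfsg.IrrCharacter N)
  by_contra hcon
  push_neg at hcon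
  apply hn
  have hcf := isCharacter_conj_class hψ
  have e : ∀ x : N, ψ x = Cfsg.classInner ψ (trivIrr N).1 := by
    intro x
    rw [classFunction_expansion_apply hcf x]
    rw [Finset.sum_eq_single (trivIrr N)]
    · rw [trivIrr_apply, mul_one]
    · intro τ _ hτ
      rw [hcon τ hτ, zero_mul]
    · intro h
      exact absurd (Finset.mem_univ _) h
  rw [e n, e 1]

/-- Let N be a normal subgroup of the finite group G such that every element of G commuting with a non-identity element of N lies in N. If χ is an irreducible character of G with χ n ≠ χ 1 for some n ∈ N, then χ is the function induced from some irreducible character of N. -/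
theorem result {G : Type*} [Group G] [Fintype G] (N : Subgroup G) [N.Normal] (hC : ∀ n ∈ N, n ≠ 1 → Subgroup.centralizer ({n} : Set G) ≤ N) (χ : G → ℂ) (hχ : Cfsg.IsIrrCharacter G χ) (hker : ∃ n ∈ N, χ n ≠ χ 1) : ∃ φ : N → ℂ, Cfsg.IsIrrCharacter N φ ∧ χ = Cfsg.indFun N φ := by

    classical
    have := Fintype.ofFinite N
    obtain ⟨n, hnN, hn⟩ := hker
    have hχc := Cfsg.Agent.Lib.helper24.isCharacter_of_isIrrCharacter hχ
    have hψ : Cfsg.IsCharacter N (fun h : N => χ h) :=
      Cfsg.Agent.Lib.helper24.isCharacter_restrict N hχc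
    obtain ⟨τ, hτ, hτi⟩ := exists_nontriv_constituent (fun h : N => χ h) hψ ⟨n, hnN⟩ (by simpa using hn)
    have hNn : N.Normal := inferInstance
    have hK : (Nat.card N : ℂ) ≠ 0 := NeZero.ne _
    have hstab : Cfsg.Agent.Lib.helper24.conjStab N τ.1 = N := by
      apply le_antisymm
      · intro g hg
        by_contra hgN
        apply hτ
        have hα : ∀ x : N, (MulAut.conjNormal g : N ≃* N) x = x → x = 1 := by
          intro x hx
          have hx' := congrArg Subtype.val hx
          rw [MulAut.conjNormal_apply] at hx'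
          by_contra hx1
          have hx1' : (x : G) ≠ 1 := fun h => hx1 (Subtype.ext h)
          apply hgN
          apply hC (x : G) x.2 hx1'
          rw [Subgroup.mem_centralizer_iff]
          intro y hy
          rw [Set.mem_singleton_iff] at hy
          subst hy
          calc (x : G) * g = (g * (x : G) * g⁻¹) * g := by rw [hx']
            _ = g * (x : G) := by group
        exact Cfsg.Agent.Lib.helper24.irr_eq_triv_of_fpf (MulAut.conjNormal g : N ≃* N) hα τ hg
      · intro g hg
        rw [Cfsg.Agent.Lib.helper24.mem_conjStab]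
        exact Cfsg.Agent.Lib.helper24.conjFun_of_mem N
          (Cfsg.Agent.Lib.helper24.isCharacter_conj_class
            (Cfsg.Agent.Lib.helper24.isCharacter_of_isIrrCharacter τ.2)) hg
    have h := Cfsg.Agent.Lib.helper24.card_mul_inner_indFun_normal N τ.2
    have hcard : Nat.card {g : G // ∀ k : N, τ.1 ⟨g * k * g⁻¹, hNn.conj_mem k k.2 g⟩ = τ.1 k}
        = Nat.card N := by
      apply Nat.card_congr
      refine Equiv.subtypeEquivRight ?_
      intro g
      have hiff : g ∈ N ↔ g ∈ Cfsg.Agent.Lib.helper24.conjStab N τ.1 := by rw [hstab]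
      rw [hiff, Cfsg.Agent.Lib.helper24.mem_conjStab]
      constructor
      · intro h'
        funext k
        exact h' k
      · intro h' k
        exact congrFun h' k
    rw [hcard] at h
    have hnorm : Cfsg.classInner (Cfsg.indFun N τ.1) (Cfsg.indFun N τ.1) = 1 :=
      mul_left_cancel₀ hK (h.trans (mul_one _).symm)
    have hirr : Cfsg.IsIrrCharacter G (Cfsg.indFun N τ.1) :=
      Cfsg.Agent.Lib.helper24.isIrrCharacter_of_inner_self_eq_one
        (Cfsg.Agent.Lib.helper24.isCharacter_indFun N
          (Cfsg.Agent.Lib.helper24.isCharacter_of_isIrrCharacter τ.2)) hnorm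
    refine ⟨τ.1, τ.2, ?_⟩
    by_contra hne
    have h0 := Cfsg.Agent.Lib.helper24.classInner_irr_fun hirr hχ
    rw [if_neg (fun h => hne h.symm)] at h0
    rw [Cfsg.Agent.Lib.helper24.frobenius_reciprocity N τ.1
      (Cfsg.Agent.Lib.helper24.isCharacter_conj_class hχc)] at h0
    apply hτi
    rw [Cfsg.Agent.Lib.helper24.classInner_conj_symm, h0, map_zero]

end Cfsg.Agent.S1528
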