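import Cfsg.Statements.S1529

import Cfsg.Agent.Lib.helper8.GenChar
set_option autoImplicit false
open Cfsg

namespace Cfsg.Agent.S1529

open Cfsg.Agent.Lib.helper24 in
theorem signed_eq_of_deg {G : Type*} [Group G] (μ ν : Cfsg.IrrCharacter G) (a b : ℕ) (ha : 0 < a)
    (hb : 0 < b) (ε δ : ℂ) (hε : ε = 1 ∨ ε = -1) (hδ : δ = 1 ∨ δ = -1)
    (h : (a : ℂ) * (ε * μ.1 1) = (b : ℂ) * (δ * ν.1 1)) : ε = δ := by
  obtain ⟨m, hm, hm1⟩ := isIrrCharacter_one μ.2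
  obtain ⟨n, hn, hn1⟩ := isIrrCharacter_one ν.2
  rw [hm1, hn1] at h
  have ha' : (0 : ℝ) < a := by exact_mod_cast ha
  have hb' : (0 : ℝ) < b := by exact_mod_cast hb
  have hm' : (0 : ℝ) < m := by exact_mod_cast hm
  have hn' : (0 : ℝ) < n := by exact_mod_cast hn
  rcases hε with rfl | rfl <;> rcases hδ with rfl | rfl
  · rfl
  · exfalso
    have h' : ((a * m : ℝ) : ℂ) = ((-(b * n) : ℝ) : ℂ) := by push_cast; linear_combination h
    have h'' : (a * m : ℝ) = -(b * n) := by exact_mod_cast h'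
    nlinarith [mul_pos ha' hm', mul_pos hb' hn']
  · exfalso
    have h' : ((-(a * m) : ℝ) : ℂ) = ((b * n : ℝ) : ℂ) := by push_cast; linear_combination h
    have h'' : (-(a * m) : ℝ) = b * n := by exact_mod_cast h'
    nlinarith [mul_pos ha' hm', mul_pos hb' hn']
  · rfl

/-- Let N be a subgroup of the finite group G, S a set of irreducible characters of N with at least two members, and τ₁ a linear isometry on the integer combinations of S with virtual-character values such that τ₁ α vanishes at 1 whenever α ∈ ℤ[S] does. Then there is ε ∈ {1, −1} such that ε • τ₁ χ is an irreducible character of G for every χ ∈ S, and distinct members of S give distinct characters. -/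
theorem result {G : Type*} [Group G] [Fintype G] (N : Subgroup G) [Fintype N] (S : Set (N → ℂ)) (hirr : ∀ χ ∈ S, Cfsg.IsIrrCharacter N χ) (htwo : ∃ χ ∈ S, ∃ ψ ∈ S, χ ≠ ψ) (τ₁ : (N → ℂ) → (G → ℂ)) (hτ₁ : Cfsg.IsLinearIsometryOn (Cfsg.zspan S) τ₁) (h0 : ∀ α ∈ Cfsg.zspan S, α 1 = 0 → τ₁ α 1 = 0) : ∃ ε : ℂ, (ε = 1 ∨ ε = -1) ∧ (∀ χ ∈ S, Cfsg.IsIrrCharacter G (ε • τ₁ χ)) ∧ (∀ χ ∈ S, ∀ ψ ∈ S, τ₁ χ = τ₁ ψ → χ = ψ) := by

    classical
    obtain ⟨hadd, hsmul, hinner, hgen⟩ := hτ₁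
    have hmem : ∀ χ ∈ S, χ ∈ Cfsg.zspan S := fun χ hχ => Submodule.subset_span hχ
    have hsigned : ∀ χ ∈ S, ∃ (μ : Cfsg.IrrCharacter G) (ε : ℂ), (ε = 1 ∨ ε = -1) ∧
        τ₁ χ = ε • μ.1 := by
      intro χ hχ
      have hn : Cfsg.classInner (τ₁ χ) (τ₁ χ) = 1 := by
        rw [hinner χ (hmem χ hχ) χ (hmem χ hχ)]
        exact Cfsg.Agent.Lib.helper24.isIrrCharacter_inner_self (hirr χ hχ)
      obtain ⟨μ, h | h⟩ := Cfsg.Agent.Lib.helper8.genchar_norm_one_signed (hgen χ (hmem χ hχ)) hn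
      · exact ⟨μ, 1, Or.inl rfl, by rw [h, one_smul]⟩
      · exact ⟨μ, -1, Or.inr rfl, by rw [h]; simp⟩
    have hinj : ∀ χ ∈ S, ∀ ψ ∈ S, τ₁ χ = τ₁ ψ → χ = ψ := by
      intro χ hχ ψ hψ h
      by_contra hne
      have h1 : Cfsg.classInner (τ₁ χ) (τ₁ ψ) = 0 := by
        rw [hinner χ (hmem χ hχ) ψ (hmem ψ hψ)]
        exact Cfsg.Agent.Lib.helper24.irr_inner_ne (χ := ⟨χ, hirr χ hχ⟩) (ψ := ⟨ψ, hirr ψ hψ⟩)
          (fun h' => hne (congrArg Subtype.val h'))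
      rw [← h, hinner χ (hmem χ hχ) χ (hmem χ hχ),
        Cfsg.Agent.Lib.helper24.isIrrCharacter_inner_self (hirr χ hχ)] at h1
      exact one_ne_zero h1
    choose μ ε hε hμ using hsigned
    obtain ⟨χ₀, hχ₀, -⟩ := htwo
    refine ⟨ε χ₀ hχ₀, hε χ₀ hχ₀, ?_, hinj⟩
    intro χ hχ
    obtain ⟨a, ha, ha1⟩ := Cfsg.Agent.Lib.helper24.isIrrCharacter_one (hirr χ hχ)
    obtain ⟨b, hb, hb1⟩ := Cfsg.Agent.Lib.helper24.isIrrCharacter_one (hirr χ₀ hχ₀)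
    have hm1 : ((b : ℤ) • χ) ∈ Cfsg.zspan S := Submodule.smul_mem _ _ (hmem χ hχ)
    have hm2 : ((-(a : ℤ)) • χ₀) ∈ Cfsg.zspan S := Submodule.smul_mem _ _ (hmem χ₀ hχ₀)
    have hα : ((b : ℤ) • χ + (-(a : ℤ)) • χ₀) ∈ Cfsg.zspan S := Submodule.add_mem _ hm1 hm2
    have hα1 : ((b : ℤ) • χ + (-(a : ℤ)) • χ₀) 1 = 0 := by
      rw [Pi.add_apply, Pi.smul_apply, Pi.smul_apply, ha1, hb1, zsmul_eq_mul, zsmul_eq_mul]
      push_cast
      ring
    have h1 := h0 _ hα hα1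
    rw [hadd _ hm1 _ hm2, hsmul χ (hmem χ hχ), hsmul χ₀ (hmem χ₀ hχ₀), hμ χ hχ, hμ χ₀ hχ₀] at h1
    rw [Pi.add_apply, Pi.smul_apply, Pi.smul_apply, Pi.smul_apply, Pi.smul_apply, zsmul_eq_mul,
      zsmul_eq_mul, smul_eq_mul, smul_eq_mul] at h1
    have heq : ε χ hχ = ε χ₀ hχ₀ := by
      apply signed_eq_of_deg (μ χ hχ) (μ χ₀ hχ₀) b a hb ha _ _ (hε χ hχ) (hε χ₀ hχ₀)
      push_cast at h1
      linear_combination h1
    rw [hμ χ hχ, ← heq, smul_smul]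
    have : ε χ hχ * ε χ hχ = 1 := by
      rcases hε χ hχ with h | h <;> rw [h] <;> norm_num
    rw [this, one_smul]
    exact (μ χ hχ).2

end Cfsg.Agent.S1529
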