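import Cfsg.Statements.S1530

import Cfsg.Agent.Lib.helper8.Coherence2
set_option autoImplicit false
open Cfsg

namespace Cfsg.Agent.S1530

open Cfsg.Agent.Lib.helper8 Cfsg.Agent.Lib.helper24

/-- Let N be a subgroup of the finite group G and S₀ a finite set of irreducible characters of N, χ an irreducible character of N not in S₀, with degrees ξ 1 = d ξ. Let τ be a linear isometry on the integer combinations of S₀ ∪ {χ} vanishing at 1, with values virtual characters of G vanishing at 1, such that (S₀, N minus 1, τ) is coherent. If some ψ ∈ S₀ has d ψ dividing d χ and 2 · d ψ · d χ < Σ_{ξ ∈ S₀} (d ξ)², then (S₀ ∪ {χ}, N minus 1, τ) is coherent. -/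
theorem result {G : Type*} [Group G] [Fintype G] (N : Subgroup G) [Fintype N] (S₀ : Finset (N → ℂ)) (χ : N → ℂ) (hirr : ∀ ξ ∈ S₀, Cfsg.IsIrrCharacter N ξ) (hχ : Cfsg.IsIrrCharacter N χ) (hχS : χ ∉ S₀) (d : (N → ℂ) → ℕ) (hd : ∀ ξ ∈ insert χ S₀, ξ 1 = (d ξ : ℂ)) (τ : (N → ℂ) → (G → ℂ)) (hτ : Cfsg.IsLinearIsometryOn (Cfsg.zspanOn (↑(insert χ S₀) : Set (N → ℂ)) {1}ᶜ) τ) (hτ1 : ∀ α ∈ Cfsg.zspanOn (↑(insert χ S₀) : Set (N → ℂ)) {1}ᶜ, τ α 1 = 0) (hcoh : Cfsg.IsCoherent (↑S₀ : Set (N → ℂ)) {1}ᶜ τ) (ψ : N → ℂ) (hψ : ψ ∈ S₀) (hdvd : d ψ ∣ d χ) (hlt : 2 * d ψ * d χ < ∑ ξ ∈ S₀, d ξ ^ 2) : Cfsg.IsCoherent (↑(insert χ S₀) : Set (N → ℂ)) {1}ᶜ τ := by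

  classical
  obtain ⟨⟨α₀, hα₀, hα₀ne⟩, τ₁, hτ₁, hτ₁τ⟩ := hcoh
  obtain ⟨h1add, h1smul, h1inner, h1gen⟩ := hτ₁
  obtain ⟨htadd, htsmul, htinner, htgen⟩ := hτ
  have hSsub : (↑S₀ : Set (N → ℂ)) ⊆ ↑(insert χ S₀) := by
    intro x hx
    exact Finset.mem_coe.mpr (Finset.mem_insert_of_mem (Finset.mem_coe.mp hx))
  have hmem₀ : ∀ ξ ∈ S₀, ξ ∈ Cfsg.zspan (↑S₀ : Set (N → ℂ)) :=
    fun ξ h => Submodule.subset_span (Finset.mem_coe.mpr h)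
  have hχmem : χ ∈ Cfsg.zspan (↑(insert χ S₀) : Set (N → ℂ)) :=
    Submodule.subset_span (Finset.mem_coe.mpr (Finset.mem_insert_self χ S₀))
  have hup : ∀ z ∈ Cfsg.zspan (↑S₀ : Set (N → ℂ)), z ∈ Cfsg.zspan (↑(insert χ S₀) : Set (N → ℂ)) :=
    fun z hz => zspan_mono hSsub hz
  have hon₀ : ∀ z ∈ Cfsg.zspan (↑S₀ : Set (N → ℂ)), z 1 = 0 →
      z ∈ Cfsg.zspanOn (↑S₀ : Set (N → ℂ)) {1}ᶜ := fun z hz h1 => (mem_zspanOn_one _ z).mpr ⟨hz, h1⟩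
  have hon : ∀ z ∈ Cfsg.zspan (↑(insert χ S₀) : Set (N → ℂ)), z 1 = 0 →
      z ∈ Cfsg.zspanOn (↑(insert χ S₀) : Set (N → ℂ)) {1}ᶜ :=
    fun z hz h1 => (mem_zspanOn_one _ z).mpr ⟨hz, h1⟩
  have hψχ : ψ ≠ χ := fun h => hχS (h ▸ hψ)
  have inS : ∀ ξ ∈ S₀, ∀ η ∈ S₀, Cfsg.classInner ξ η = if ξ = η then 1 else 0 := by
    intro ξ hξ η hη
    have h := irr_orthonormal (⟨ξ, hirr ξ hξ⟩ : Cfsg.IrrCharacter N) ⟨η, hirr η hη⟩
    simp only [Subtype.mk.injEq] at h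
    exact h
  have inχ : ∀ ξ ∈ S₀, Cfsg.classInner χ ξ = 0 := by
    intro ξ hξ
    exact irr_inner_ne (χ := ⟨χ, hχ⟩) (ψ := ⟨ξ, hirr ξ hξ⟩)
      (fun h => hχS (by have := congrArg Subtype.val h; simp only at this; rw [this]; exact hξ))
  have inχ' : ∀ ξ ∈ S₀, Cfsg.classInner ξ χ = 0 := by
    intro ξ hξ
    rw [classInner_conj_symm, inχ ξ hξ, map_zero]
  have inχχ : Cfsg.classInner χ χ = 1 := irr_inner_self (⟨χ, hχ⟩ : Cfsg.IrrCharacter N)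
  obtain ⟨a, ha⟩ := hdvd
  have hdψ : ψ 1 = (d ψ : ℂ) := hd ψ (Finset.mem_insert_of_mem hψ)
  have hdχ : χ 1 = (d χ : ℂ) := hd χ (Finset.mem_insert_self χ S₀)
  have hdS : ∀ ξ ∈ S₀, ξ 1 = (d ξ : ℂ) := fun ξ hξ => hd ξ (Finset.mem_insert_of_mem hξ)
  have hdψpos : 0 < d ψ := by
    rcases Nat.eq_zero_or_pos (d ψ) with h0 | h0
    · exfalso
      apply irr_one_ne_zero (⟨ψ, hirr ψ hψ⟩ : Cfsg.IrrCharacter N)
      show ψ 1 = 0
      rw [hdψ, h0, Nat.cast_zero]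
    · exact h0
  have hdψne : (d ψ : ℤ) ≠ 0 := by exact_mod_cast hdψpos.ne'
  obtain ⟨α, hαdef⟩ : ∃ α : N → ℂ, α = χ + (-(a : ℤ)) • ψ := ⟨_, rfl⟩
  have hαmem : α ∈ Cfsg.zspan (↑(insert χ S₀) : Set (N → ℂ)) := by
    rw [hαdef]
    exact Submodule.add_mem _ hχmem (Submodule.smul_mem _ _ (hup ψ (hmem₀ ψ hψ)))
  have hα1 : α 1 = 0 := by
    rw [hαdef]
    simp only [Pi.add_apply, Pi.smul_apply]
    rw [hdχ, hdψ, ha]
    simp only [zsmul_eq_mul]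
    push_cast
    ring
  have hαon := hon α hαmem hα1
  have hθgen := htgen α hαon
  have hex : ∀ ξ, ∃ z : ℤ, ξ ∈ S₀ → Cfsg.classInner (τ α) (τ₁ ξ) = z := by
    intro ξ
    by_cases h : ξ ∈ S₀
    · obtain ⟨z, hz⟩ := genchar_inner_genchar_int hθgen (h1gen ξ (hmem₀ ξ h))
      exact ⟨z, fun _ => hz⟩
    · exact ⟨0, fun h' => absurd h' h⟩
  choose c hc using hex
  obtain ⟨β, hβdef⟩ : ∃ β : (N → ℂ) → (N → ℂ), β = fun ξ => (d ψ : ℤ) • ξ + (-(d ξ : ℤ)) • ψ :=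
    ⟨_, rfl⟩
  have hβmem : ∀ ξ ∈ S₀, β ξ ∈ Cfsg.zspan (↑S₀ : Set (N → ℂ)) := by
    intro ξ hξ
    rw [hβdef]
    exact Submodule.add_mem _ (Submodule.smul_mem _ _ (hmem₀ ξ hξ))
      (Submodule.smul_mem _ _ (hmem₀ ψ hψ))
  have hβ1 : ∀ ξ ∈ S₀, β ξ 1 = 0 := by
    intro ξ hξ
    rw [hβdef]
    simp only [Pi.add_apply, Pi.smul_apply]
    rw [hdS ξ hξ, hdψ]
    simp only [zsmul_eq_mul]
    push_cast
    ring
  have hτ₁β : ∀ ξ ∈ S₀, τ₁ (β ξ) = (d ψ : ℤ) • τ₁ ξ + (-(d ξ : ℤ)) • τ₁ ψ := by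
    intro ξ hξ
    rw [hβdef]
    simp only []
    rw [h1add _ (Submodule.smul_mem _ _ (hmem₀ ξ hξ)) _ (Submodule.smul_mem _ _ (hmem₀ ψ hψ)),
      h1smul ξ (hmem₀ ξ hξ), h1smul ψ (hmem₀ ψ hψ)]
  have hτβ : ∀ ξ ∈ S₀, τ (β ξ) = (d ψ : ℤ) • τ₁ ξ + (-(d ξ : ℤ)) • τ₁ ψ := by
    intro ξ hξ
    rw [← hτ₁τ (β ξ) (hon₀ _ (hβmem ξ hξ) (hβ1 ξ hξ)), hτ₁β ξ hξ]
  have hE1 : ∀ ξ ∈ S₀, (d ψ : ℤ) * c ξ - (d ξ : ℤ) * c ψ =
      (a : ℤ) * (d ξ : ℤ) - (if ξ = ψ then (a : ℤ) * (d ψ : ℤ) else 0) := by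
    intro ξ hξ
    have h1 := htinner α hαon (β ξ) (hon _ (hup _ (hβmem ξ hξ)) (hβ1 ξ hξ))
    rw [hτβ ξ hξ, classInner_add_right, inner_zsmul_right, inner_zsmul_right, hc ξ hξ, hc ψ hψ] at h1
    have h2 : Cfsg.classInner α (β ξ) =
        (((a : ℤ) * (d ξ : ℤ) - (if ξ = ψ then (a : ℤ) * (d ψ : ℤ) else 0) : ℤ) : ℂ) := by
      rw [hαdef, hβdef]
      simp only []
      rw [classInner_add_left, classInner_add_right, classInner_add_right, inner_zsmul_left,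
        inner_zsmul_left, inner_zsmul_right, inner_zsmul_right, inner_zsmul_right, inner_zsmul_right,
        inχ ξ hξ, inχ ψ hψ, inS ψ hψ ξ hξ, inS ψ hψ ψ hψ, if_pos rfl]
      by_cases hξψ : ξ = ψ
      · rw [if_pos hξψ.symm, if_pos hξψ]; push_cast; ring
      · rw [if_neg (Ne.symm hξψ), if_neg hξψ]; push_cast; ring
    rw [h2] at h1
    have h3 : (((d ψ : ℤ) * c ξ - (d ξ : ℤ) * c ψ : ℤ) : ℂ) =
        (((a : ℤ) * (d ξ : ℤ) - (if ξ = ψ then (a : ℤ) * (d ψ : ℤ) else 0) : ℤ) : ℂ) := by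
      rw [← h1]; push_cast; ring
    exact_mod_cast h3
  obtain ⟨m, hmdef⟩ : ∃ m : ℤ, m = c ψ + a := ⟨_, rfl⟩
  have hcm : ∀ ξ ∈ S₀, (d ψ : ℤ) * c ξ =
      m * (d ξ : ℤ) - (if ξ = ψ then (a : ℤ) * (d ψ : ℤ) else 0) := by
    intro ξ hξ
    have h := hE1 ξ hξ
    rw [hmdef]
    linarith
  obtain ⟨Δ, hΔdef⟩ : ∃ Δ : G → ℂ, Δ = τ α - ∑ ξ ∈ S₀, c ξ • τ₁ ξ := ⟨_, rfl⟩
  have hTgen : ∀ ξ ∈ S₀, Cfsg.IsGeneralizedCharacter G (τ₁ ξ) := fun ξ hξ => h1gen ξ (hmem₀ ξ hξ)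
  have hTin : ∀ ξ ∈ S₀, ∀ η ∈ S₀, Cfsg.classInner (τ₁ ξ) (τ₁ η) = if ξ = η then 1 else 0 := by
    intro ξ hξ η hη
    rw [h1inner ξ (hmem₀ ξ hξ) η (hmem₀ η hη), inS ξ hξ η hη]
  have hΔgen : Cfsg.IsGeneralizedCharacter G Δ := by
    rw [hΔdef]
    apply isGeneralizedCharacter_sub hθgen
    apply isGeneralizedCharacter_finset_sum
    intro ξ hξ
    exact isGeneralizedCharacter_zsmul _ (hTgen ξ hξ)
  have hΔT : ∀ ξ ∈ S₀, Cfsg.classInner Δ (τ₁ ξ) = 0 := by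
    intro ξ hξ
    rw [hΔdef, classInner_sub_left, classInner_sum_left, hc ξ hξ]
    rw [Finset.sum_congr rfl (fun η hη => by rw [inner_zsmul_left, hTin η hη ξ hξ])]
    simp only [mul_ite, mul_one, mul_zero]
    rw [Finset.sum_ite_eq' S₀ ξ (fun η => (c η : ℂ)), if_pos hξ, sub_self]
  have hθθ : Cfsg.classInner (τ α) (τ α) = (((1 : ℤ) + (a : ℤ) ^ 2 : ℤ) : ℂ) := by
    rw [htinner α hαon α hαon, hαdef, classInner_add_left, classInner_add_right, classInner_add_right,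
      inner_zsmul_left, inner_zsmul_left, inner_zsmul_right, inner_zsmul_right, inχχ, inχ ψ hψ,
      inχ' ψ hψ, inS ψ hψ ψ hψ, if_pos rfl]
    push_cast
    ring
  have hΔnorm : Cfsg.classInner Δ Δ = (((1 : ℤ) + (a : ℤ) ^ 2 - ∑ ξ ∈ S₀, c ξ ^ 2 : ℤ) : ℂ) := by
    have h1 : Cfsg.classInner Δ Δ = Cfsg.classInner Δ (τ α) := by
      conv_lhs => rhs; rw [hΔdef]
      rw [classInner_sub_right, classInner_sum_right]
      rw [Finset.sum_congr rfl (fun η hη => by rw [inner_zsmul_right, hΔT η hη, mul_zero])]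
      rw [Finset.sum_const_zero, sub_zero]
    rw [h1, hΔdef, classInner_sub_left, classInner_sum_left, hθθ]
    rw [Finset.sum_congr rfl (fun η hη => by
      rw [inner_zsmul_left, classInner_conj_symm, hc η hη, map_intCast])]
    push_cast
    congr 1
    apply Finset.sum_congr rfl
    intro η _
    ring
  have hz0 := classInner_self_int_nonneg hΔnorm
  obtain ⟨D, hDdef⟩ : ∃ D : ℤ, D = ∑ ξ ∈ S₀, (d ξ : ℤ) ^ 2 := ⟨_, rfl⟩
  have hDlt : 2 * (d ψ : ℤ) * ((d ψ : ℤ) * a) < D := by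
    rw [hDdef]
    have : ((2 * d ψ * d χ : ℕ) : ℤ) < ((∑ ξ ∈ S₀, d ξ ^ 2 : ℕ) : ℤ) := by exact_mod_cast hlt
    rw [ha] at this
    push_cast at this
    exact this
  have hsumsq : (d ψ : ℤ) ^ 2 * ∑ ξ ∈ S₀, c ξ ^ 2 =
      m ^ 2 * D - (2 * m * (d ψ : ℤ) * ((a : ℤ) * (d ψ : ℤ)) - ((a : ℤ) * (d ψ : ℤ)) ^ 2) := by
    have e1 : ∀ ξ ∈ S₀, (d ψ : ℤ) ^ 2 * c ξ ^ 2 = m ^ 2 * (d ξ : ℤ) ^ 2 -
        (if ξ = ψ then 2 * m * (d ξ : ℤ) * ((a : ℤ) * (d ψ : ℤ)) - ((a : ℤ) * (d ψ : ℤ)) ^ 2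
          else 0) := by
      intro ξ hξ
      have h := hcm ξ hξ
      have e : (d ψ : ℤ) ^ 2 * c ξ ^ 2 = ((d ψ : ℤ) * c ξ) ^ 2 := by ring
      rw [e, h]
      split_ifs <;> ring
    rw [Finset.mul_sum, Finset.sum_congr rfl e1, Finset.sum_sub_distrib, ← Finset.mul_sum, ← hDdef,
      Finset.sum_ite_eq' S₀ ψ (fun ξ => 2 * m * (d ξ : ℤ) * ((a : ℤ) * (d ψ : ℤ)) -
        ((a : ℤ) * (d ψ : ℤ)) ^ 2), if_pos hψ]
  have hanon : (0 : ℤ) ≤ a := Int.natCast_nonneg a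
  have hdψpos' : (0 : ℤ) < d ψ := by exact_mod_cast hdψpos
  by_cases hm0 : m = 0
  · have hcval : ∀ ξ ∈ S₀, c ξ = if ξ = ψ then -(a : ℤ) else 0 := by
      intro ξ hξ
      have h := hcm ξ hξ
      rw [hm0, zero_mul, zero_sub] at h
      by_cases hξψ : ξ = ψ
      · rw [if_pos hξψ] at h ⊢
        have h' : (d ψ : ℤ) * c ξ = (d ψ : ℤ) * (-(a : ℤ)) := by rw [h]; ring
        exact mul_left_cancel₀ hdψne h'
      · rw [if_neg hξψ] at h ⊢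
        rw [neg_zero] at h
        exact (mul_eq_zero.mp h).resolve_left hdψne
    have hsum : ∑ ξ ∈ S₀, c ξ ^ 2 = (a : ℤ) ^ 2 := by
      rw [Finset.sum_congr rfl (fun ξ hξ => by rw [hcval ξ hξ])]
      have e : ∀ ξ, (if ξ = ψ then -(a : ℤ) else 0) ^ 2 = if ξ = ψ then (a : ℤ) ^ 2 else 0 := by
        intro ξ; split_ifs <;> ring
      rw [Finset.sum_congr rfl (fun ξ _ => e ξ), Finset.sum_ite_eq' S₀ ψ (fun _ => (a : ℤ) ^ 2),
        if_pos hψ]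
    have hΔ1 : Cfsg.classInner Δ Δ = 1 := by
      rw [hΔnorm, hsum]; push_cast; ring
    have hθeq : τ α = Δ + (-(a : ℤ)) • τ₁ ψ := by
      have h1 : ∑ ξ ∈ S₀, c ξ • τ₁ ξ = (-(a : ℤ)) • τ₁ ψ := by
        rw [Finset.sum_congr rfl (fun ξ hξ => by rw [hcval ξ hξ])]
        simp only [ite_smul, zero_smul]
        rw [Finset.sum_ite_eq' S₀ ψ (fun ξ => (-(a : ℤ)) • τ₁ ξ), if_pos hψ]
      rw [hΔdef, h1]
      abel
    obtain ⟨T', hT'def⟩ : ∃ T' : (N → ℂ) → (G → ℂ), T' = fun ξ => if ξ = χ then Δ else τ₁ ξ :=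
      ⟨_, rfl⟩
    have hT'χ : T' χ = Δ := by rw [hT'def]; simp
    have hT'S : ∀ ξ ∈ S₀, T' ξ = τ₁ ξ := by
      intro ξ hξ
      have hne : ξ ≠ χ := fun h => hχS (h ▸ hξ)
      rw [hT'def]; simp [hne]
    have hirr' : ∀ ξ ∈ insert χ S₀, Cfsg.IsIrrCharacter N ξ := by
      intro ξ hξ
      rcases Finset.mem_insert.mp hξ with h | h
      · rw [h]; exact hχ
      · exact hirr ξ h
    obtain ⟨τ₂, h2add, h2smul, h2iso, h2gen⟩ := coherent_ext (insert χ S₀) T'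
      (fun ξ hξ => by
        rw [irr_inner_self (⟨ξ, hirr' ξ hξ⟩ : Cfsg.IrrCharacter N)]; exact one_ne_zero)
      (fun ξ hξ η hη hne => irr_inner_ne (χ := ⟨ξ, hirr' ξ hξ⟩) (ψ := ⟨η, hirr' η hη⟩)
        (fun h => hne (congrArg Subtype.val h)))
      (fun ξ hξ => by
        rcases Finset.mem_insert.mp hξ with h | h
        · rw [h, hT'χ]; exact hΔgen
        · rw [hT'S ξ h]; exact hTgen ξ h)
      (fun ξ hξ η hη => by
        rcases Finset.mem_insert.mp hξ with h | h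
        · rcases Finset.mem_insert.mp hη with h' | h'
          · rw [h, h', hT'χ, hΔ1, inχχ]
          · rw [h, hT'χ, hT'S η h', hΔT η h', inχ η h']
        · rcases Finset.mem_insert.mp hη with h' | h'
          · rw [h', hT'χ, hT'S ξ h, classInner_conj_symm, hΔT ξ h, map_zero, inχ' ξ h]
          · rw [hT'S ξ h, hT'S η h', hTin ξ h η h', inS ξ h η h'])
    have h2S : ∀ b ∈ Cfsg.zspan (↑S₀ : Set (N → ℂ)), τ₂ b = τ₁ b := by
      intro b hb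
      have hb' : b ∈ Submodule.span ℤ (↑S₀ : Set (N → ℂ)) := hb
      induction hb' using Submodule.span_induction with
      | mem ξ hξ =>
        rw [h2gen ξ (Finset.mem_insert_of_mem (Finset.mem_coe.mp hξ)), hT'S ξ (Finset.mem_coe.mp hξ)]
      | zero =>
        have e1 := h2smul 0 0
        rw [zero_smul, zero_smul] at e1
        rw [e1, zspan_zero_map _ τ₁ h1smul]
      | add x y hx hy ihx ihy =>
        rw [h2add, h1add x hx y hy, ihx hx, ihy hy]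
      | smul n x hx ih =>
        rw [h2smul, h1smul x hx n, ih hx]
    have h2α : τ₂ α = τ α := by
      rw [hθeq, hαdef, h2add, h2smul, h2gen χ (Finset.mem_insert_self χ S₀), hT'χ,
        h2S ψ (hmem₀ ψ hψ)]
    refine ⟨⟨α₀, (mem_zspanOn_one _ α₀).mpr ⟨hup α₀ ((mem_zspanOn_one _ α₀).mp hα₀).1,
      ((mem_zspanOn_one _ α₀).mp hα₀).2⟩, hα₀ne⟩, τ₂, h2iso, ?_⟩
    intro f hf
    obtain ⟨hfmem, hf1⟩ := (mem_zspanOn_one _ f).mp hf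
    have hcoe : (↑(insert χ S₀) : Set (N → ℂ)) = {χ} ∪ ↑S₀ := by
      rw [Finset.coe_insert, Set.insert_eq]
    rw [hcoe] at hfmem
    obtain ⟨x, hx, b, hb, hfxb⟩ := zspan_union_decomp _ _ f hfmem
    have hx' : x ∈ Submodule.span ℤ ({χ} : Set (N → ℂ)) := hx
    obtain ⟨n, hn⟩ := Submodule.mem_span_singleton.mp hx'
    obtain ⟨β', hβ'def⟩ : ∃ β' : N → ℂ, β' = b + (n * a) • ψ := ⟨_, rfl⟩
    have hβ'mem : β' ∈ Cfsg.zspan (↑S₀ : Set (N → ℂ)) := by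
      rw [hβ'def]
      exact Submodule.add_mem _ hb (Submodule.smul_mem _ _ (hmem₀ ψ hψ))
    have hfeq : f = β' + n • α := by
      rw [hfxb, ← hn, hβ'def, hαdef]
      funext y
      simp only [Pi.add_apply, Pi.smul_apply]
      simp only [zsmul_eq_mul]
      push_cast
      ring
    have hβ'1 : β' 1 = 0 := by
      have h := congrFun hfeq 1
      rw [Pi.add_apply, Pi.smul_apply, hα1, hf1, smul_zero, add_zero] at h
      exact h.symm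
    have hnα : n • α ∈ Cfsg.zspanOn (↑(insert χ S₀) : Set (N → ℂ)) {1}ᶜ := by
      apply hon _ (Submodule.smul_mem _ _ hαmem)
      rw [Pi.smul_apply, hα1, smul_zero]
    rw [hfeq, h2add, h2smul, h2α, h2S β' hβ'mem,
      htadd β' (hon _ (hup _ hβ'mem) hβ'1) (n • α) hnα, htsmul α hαon n,
      hτ₁τ β' (hon₀ _ hβ'mem hβ'1)]
  · exfalso
    have hkey : (d ψ : ℤ) ^ 2 * (1 - (1 + (a : ℤ) ^ 2 - ∑ ξ ∈ S₀, c ξ ^ 2)) =
        m ^ 2 * D - 2 * m * (a : ℤ) * (d ψ : ℤ) ^ 2 := by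
      have e : (d ψ : ℤ) ^ 2 * (1 - (1 + (a : ℤ) ^ 2 - ∑ ξ ∈ S₀, c ξ ^ 2)) =
          (d ψ : ℤ) ^ 2 * ∑ ξ ∈ S₀, c ξ ^ 2 - (d ψ : ℤ) ^ 2 * (a : ℤ) ^ 2 := by ring
      rw [e, hsumsq]; ring
    have hpos : 0 < m ^ 2 * D - 2 * m * (a : ℤ) * (d ψ : ℤ) ^ 2 := by
      rcases lt_or_gt_of_ne hm0 with hneg | hpos
      · have h1 : 0 < m ^ 2 * D := by
          have hD : 0 < D := by nlinarith
          have : 0 < m ^ 2 := by positivity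
          positivity
        have h2 : 0 ≤ -(2 * m * (a : ℤ) * (d ψ : ℤ) ^ 2) := by
          have : 0 ≤ (-m) * ((a : ℤ) * (d ψ : ℤ) ^ 2) :=
            mul_nonneg (by linarith) (mul_nonneg hanon (by positivity))
          linarith
        linarith
      · have h1 : 1 ≤ m := hpos
        have h2 : 0 ≤ (a : ℤ) * (d ψ : ℤ) ^ 2 := mul_nonneg hanon (by positivity)
        have h3 : 2 * ((a : ℤ) * (d ψ : ℤ) ^ 2) < D := by nlinarith
        have h4 : m * (2 * ((a : ℤ) * (d ψ : ℤ) ^ 2)) < m * D := by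
          apply mul_lt_mul_of_pos_left h3 (by linarith)
        have h5 : m * D ≤ m * (m * D) := by
          have hD : 0 < D := by linarith
          have : 0 ≤ m * D := by positivity
          nlinarith
        nlinarith
    have hzz : (1 + (a : ℤ) ^ 2 - ∑ ξ ∈ S₀, c ξ ^ 2) = 0 := by
      rw [← hkey] at hpos
      have h1 : 0 < 1 - (1 + (a : ℤ) ^ 2 - ∑ ξ ∈ S₀, c ξ ^ 2) := by
        by_contra hcon
        push_neg at hcon
        have : (d ψ : ℤ) ^ 2 * (1 - (1 + (a : ℤ) ^ 2 - ∑ ξ ∈ S₀, c ξ ^ 2)) ≤ 0 :=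
          mul_nonpos_of_nonneg_of_nonpos (by positivity) hcon
        linarith
      linarith
    have hΔ0 : Δ = 0 := by
      apply eq_zero_of_classInner_self
      rw [hΔnorm, hzz, Int.cast_zero]
    have hθeq : τ α = ∑ ξ ∈ S₀, c ξ • τ₁ ξ := by
      rw [hΔdef] at hΔ0
      exact sub_eq_zero.mp hΔ0
    have ht1 : ∀ ξ ∈ S₀, (d ψ : ℂ) * τ₁ ξ 1 = (d ξ : ℂ) * τ₁ ψ 1 := by
      intro ξ hξ
      have h := hτ1 (β ξ) (hon _ (hup _ (hβmem ξ hξ)) (hβ1 ξ hξ))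
      rw [hτβ ξ hξ] at h
      simp only [Pi.add_apply, Pi.smul_apply] at h
      simp only [zsmul_eq_mul] at h
      push_cast at h
      linear_combination h
    have h0 : τ α 1 = 0 := hτ1 α hαon
    rw [hθeq] at h0
    simp only [Finset.sum_apply, Pi.smul_apply] at h0
    simp only [zsmul_eq_mul] at h0
    have h1 : ((d ψ : ℤ) : ℂ) ^ 2 * ∑ ξ ∈ S₀, (c ξ : ℂ) * τ₁ ξ 1 =
        τ₁ ψ 1 * ((m * D - (a : ℤ) * (d ψ : ℤ) ^ 2 : ℤ) : ℂ) := by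
      have e1 : ∀ ξ ∈ S₀, ((d ψ : ℤ) : ℂ) ^ 2 * ((c ξ : ℂ) * τ₁ ξ 1) =
          τ₁ ψ 1 * ((m : ℂ) * ((d ξ : ℤ) : ℂ) ^ 2 -
            (if ξ = ψ then ((a : ℤ) : ℂ) * ((d ψ : ℤ) : ℂ) * ((d ξ : ℤ) : ℂ) else 0)) := by
        intro ξ hξ
        have h := hcm ξ hξ
        have h' : ((d ψ : ℤ) : ℂ) * (c ξ : ℂ) = (m : ℂ) * ((d ξ : ℤ) : ℂ) -
            (if ξ = ψ then ((a : ℤ) : ℂ) * ((d ψ : ℤ) : ℂ) else 0) := by
          have := congrArg (Int.cast : ℤ → ℂ) h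
          push_cast at this ⊢
          exact this
        have ht := ht1 ξ hξ
        have e : ((d ψ : ℤ) : ℂ) ^ 2 * ((c ξ : ℂ) * τ₁ ξ 1) =
            (((d ψ : ℤ) : ℂ) * (c ξ : ℂ)) * (((d ψ : ℕ) : ℂ) * τ₁ ξ 1) := by
          push_cast; ring
        rw [e, h', ht]
        split_ifs <;> (push_cast; ring)
      rw [Finset.mul_sum, Finset.sum_congr rfl e1, ← Finset.mul_sum, Finset.sum_sub_distrib,
        ← Finset.mul_sum,
        Finset.sum_ite_eq' S₀ ψ (fun ξ => ((a : ℤ) : ℂ) * ((d ψ : ℤ) : ℂ) * ((d ξ : ℤ) : ℂ)),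
        if_pos hψ, hDdef]
      push_cast
      ring
    rw [h0, mul_zero] at h1
    have hne : (m * D - (a : ℤ) * (d ψ : ℤ) ^ 2 : ℤ) ≠ 0 := by
      rcases lt_or_gt_of_ne hm0 with hneg | hpos'
      · have hD : 0 < D := by nlinarith
        have h2 : 0 ≤ (a : ℤ) * (d ψ : ℤ) ^ 2 := mul_nonneg hanon (by positivity)
        have h3 : m * D < 0 := mul_neg_of_neg_of_pos hneg hD
        linarith
      · have h1' : 1 ≤ m := hpos'
        have h2 : 0 ≤ (a : ℤ) * (d ψ : ℤ) ^ 2 := mul_nonneg hanon (by positivity)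
        have h3 : 2 * ((a : ℤ) * (d ψ : ℤ) ^ 2) < D := by nlinarith
        have hD : 0 < D := by linarith
        have h5 : D ≤ m * D := by nlinarith
        linarith
    have ht0 : τ₁ ψ 1 = 0 := by
      rcases mul_eq_zero.mp h1.symm with h | h
      · exact h
      · exact absurd (Int.cast_eq_zero.mp h) hne
    have hTψ1 : Cfsg.classInner (τ₁ ψ) (τ₁ ψ) = 1 := by
      rw [hTin ψ hψ ψ hψ, if_pos rfl]
    obtain ⟨χ', hχ'⟩ := genchar_norm_one_signed (hTgen ψ hψ) hTψ1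
    have hχ'1 := irr_one_ne_zero χ'
    rcases hχ' with h | h
    · rw [h] at ht0; exact hχ'1 ht0
    · rw [h, Pi.neg_apply, neg_eq_zero] at ht0; exact hχ'1 ht0

end Cfsg.Agent.S1530
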