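import Cfsg.Statements.S1531

import Cfsg.Agent.Lib.helper8.Coherence
import Cfsg.Agent.S1529
set_option autoImplicit false
open Cfsg

namespace Cfsg.Agent.S1531

open Cfsg.Agent.Lib.helper8 Cfsg.Agent.Lib.helper24

/-- Let N be a subgroup of the finite group G, S a set of irreducible characters of N, and α a linear isometry on the integer combinations of S vanishing at 1 with values virtual characters of G vanishing at 1. Let X, Y ⊆ S be disjoint, each with at least two members, and σ, τ linear isometries on ℤ[X], ℤ[Y] into virtual characters agreeing with α on the members vanishing at 1. Then ⟨σ χ, τ η⟩ = 0 for χ ∈ X, η ∈ Y; and if for some χ₀ ∈ X, η₀ ∈ Y with degrees c = χ₀ 1, e = η₀ 1 one has α (c • η₀ − e • χ₀) = c • τ η₀ − e • σ χ₀, then (X ∪ Y, N minus 1, α) is coherent. -/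
theorem result {G : Type*} [Group G] [Fintype G] (N : Subgroup G) [Fintype N] (S X Y : Set (N → ℂ)) (hirr : ∀ ξ ∈ S, Cfsg.IsIrrCharacter N ξ) (hXS : X ⊆ S) (hYS : Y ⊆ S) (hXY : Disjoint X Y) (hX2 : ∃ a ∈ X, ∃ b ∈ X, a ≠ b) (hY2 : ∃ a ∈ Y, ∃ b ∈ Y, a ≠ b) (α : (N → ℂ) → (G → ℂ)) (hα : Cfsg.IsLinearIsometryOn (Cfsg.zspanOn S {1}ᶜ) α) (hα1 : ∀ θ ∈ Cfsg.zspanOn S {1}ᶜ, α θ 1 = 0) (σ τ : (N → ℂ) → (G → ℂ)) (hσ : Cfsg.IsLinearIsometryOn (Cfsg.zspan X) σ) (hσα : ∀ θ ∈ Cfsg.zspanOn X {1}ᶜ, σ θ = α θ) (hτ : Cfsg.IsLinearIsometryOn (Cfsg.zspan Y) τ) (hτα : ∀ θ ∈ Cfsg.zspanOn Y {1}ᶜ, τ θ = α θ) : (∀ χ ∈ X, ∀ η ∈ Y, Cfsg.classInner (σ χ) (τ η) = 0) ∧ ((∃ χ₀ ∈ X, ∃ η₀ ∈ Y, α (χ₀ 1 • η₀ - η₀ 1 • χ₀) = χ₀ 1 • τ η₀ - η₀ 1 • σ χ₀) → Cfsg.IsCoherent (X ∪ Y) {1}ᶜ α) := by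

  classical
  have hα' := hα
  obtain ⟨haadd, hasmul, hainner, hagen⟩ := hα
  have hσ' := hσ
  have hτ' := hτ
  obtain ⟨hsadd, hssmul, hsinner, hsgen⟩ := hσ
  obtain ⟨htadd, htsmul, htinner, htgen⟩ := hτ
  have hXs : ∀ z ∈ Cfsg.zspan X, z ∈ Cfsg.zspan S := fun z hz => zspan_mono hXS hz
  have hYs : ∀ z ∈ Cfsg.zspan Y, z ∈ Cfsg.zspan S := fun z hz => zspan_mono hYS hz
  have hmemX : ∀ χ ∈ X, χ ∈ Cfsg.zspan X := fun χ h => Submodule.subset_span h
  have hmemY : ∀ χ ∈ Y, χ ∈ Cfsg.zspan Y := fun χ h => Submodule.subset_span h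
  have honX : ∀ z ∈ Cfsg.zspan X, z 1 = 0 → z ∈ Cfsg.zspanOn X {1}ᶜ :=
    fun z hz h1 => (mem_zspanOn_one X z).mpr ⟨hz, h1⟩
  have honY : ∀ z ∈ Cfsg.zspan Y, z 1 = 0 → z ∈ Cfsg.zspanOn Y {1}ᶜ :=
    fun z hz h1 => (mem_zspanOn_one Y z).mpr ⟨hz, h1⟩
  have honS : ∀ z ∈ Cfsg.zspan S, z 1 = 0 → z ∈ Cfsg.zspanOn S {1}ᶜ :=
    fun z hz h1 => (mem_zspanOn_one S z).mpr ⟨hz, h1⟩
  have hσ0 : ∀ z ∈ Cfsg.zspan X, z 1 = 0 → σ z 1 = 0 := by
    intro z hz h1
    rw [hσα z (honX z hz h1)]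
    exact hα1 z (honS z (hXs z hz) h1)
  have hτ0 : ∀ z ∈ Cfsg.zspan Y, z 1 = 0 → τ z 1 = 0 := by
    intro z hz h1
    rw [hτα z (honY z hz h1)]
    exact hα1 z (honS z (hYs z hz) h1)
  obtain ⟨εX, hεX, hirrX, hinjX⟩ := Cfsg.Agent.S1529.result N X (fun χ h => hirr χ (hXS h)) hX2 σ
    hσ' hσ0
  obtain ⟨εY, hεY, hirrY, hinjY⟩ := Cfsg.Agent.S1529.result N Y (fun χ h => hirr χ (hYS h)) hY2 τ
    hτ' hτ0
  have hXYorth : ∀ χ ∈ X, ∀ η ∈ Y, Cfsg.classInner χ η = 0 := by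
    intro χ hχ η hη
    exact irr_inner_ne (χ := ⟨χ, hirr χ (hXS hχ)⟩) (ψ := ⟨η, hirr η (hYS hη)⟩) (fun h' => by
      have h2 : χ = η := congrArg Subtype.val h'
      exact Set.disjoint_left.mp hXY hχ (h2 ▸ hη))
  have hspanorth : ∀ a ∈ Cfsg.zspan X, ∀ b ∈ Cfsg.zspan Y, Cfsg.classInner a b = 0 :=
    span_bilin_zero X Y id id (fun _ _ _ _ => rfl) (fun _ _ _ => rfl) (fun _ _ _ _ => rfl)
      (fun _ _ _ => rfl) hXYorth
  have hεX2 : εX * εX = 1 := by rcases hεX with h | h <;> rw [h] <;> norm_num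
  have hεY2 : εY * εY = 1 := by rcases hεY with h | h <;> rw [h] <;> norm_num
  have hεX0 : εX ≠ 0 := by rcases hεX with h | h <;> rw [h] <;> norm_num
  have hεY0 : εY ≠ 0 := by rcases hεY with h | h <;> rw [h] <;> norm_num
  have hconjY : (starRingEnd ℂ) εY = εY := by rcases hεY with h | h <;> rw [h] <;> simp
  have hval : ∀ χ ∈ X, ∀ η ∈ Y, Cfsg.classInner (σ χ) (τ η) =
      εX * εY * (if (εX • σ χ) = (εY • τ η) then 1 else 0) := by
    intro χ hχ η hη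
    have e1 : σ χ = εX • (εX • σ χ) := by rw [smul_smul, hεX2, one_smul]
    have e2 : τ η = εY • (εY • τ η) := by rw [smul_smul, hεY2, one_smul]
    have e3 := irr_orthonormal (⟨εX • σ χ, hirrX χ hχ⟩ : Cfsg.IrrCharacter G)
      ⟨εY • τ η, hirrY η hη⟩
    conv_lhs => rw [e1, e2]
    rw [classInner_smul_left, classInner_smul_right, hconjY, e3]
    simp only [Subtype.mk.injEq]
    ring
  have key1 : ∀ χ ∈ X, ∀ η ∈ Y, Cfsg.classInner (σ χ) (τ η) = 0 := by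
    intro χ hχ η hη
    obtain ⟨χ', hχ', hne⟩ : ∃ χ' ∈ X, χ' ≠ χ := by
      obtain ⟨a, ha, b, hb, hab⟩ := hX2
      by_cases h : a = χ
      · exact ⟨b, hb, fun hb' => hab (h.trans hb'.symm)⟩
      · exact ⟨a, ha, h⟩
    obtain ⟨η', hη', hne'⟩ : ∃ η' ∈ Y, η' ≠ η := by
      obtain ⟨a, ha, b, hb, hab⟩ := hY2
      by_cases h : a = η
      · exact ⟨b, hb, fun hb' => hab (h.trans hb'.symm)⟩
      · exact ⟨a, ha, h⟩
    obtain ⟨a, ha, ha1⟩ := isIrrCharacter_one (hirr χ (hXS hχ))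
    obtain ⟨a', ha', ha1'⟩ := isIrrCharacter_one (hirr χ' (hXS hχ'))
    obtain ⟨b, hb, hb1⟩ := isIrrCharacter_one (hirr η (hYS hη))
    obtain ⟨b', hb', hb1'⟩ := isIrrCharacter_one (hirr η' (hYS hη'))
    have hξ1 : ((a' : ℤ) • χ) ∈ Cfsg.zspan X := Submodule.smul_mem _ _ (hmemX χ hχ)
    have hξ2 : ((-(a : ℤ)) • χ') ∈ Cfsg.zspan X := Submodule.smul_mem _ _ (hmemX χ' hχ')
    have hξ : ((a' : ℤ) • χ + (-(a : ℤ)) • χ') ∈ Cfsg.zspan X := Submodule.add_mem _ hξ1 hξ2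
    have hξ0 : ((a' : ℤ) • χ + (-(a : ℤ)) • χ') 1 = 0 := by
      rw [Pi.add_apply, Pi.smul_apply, Pi.smul_apply, ha1, ha1', zsmul_eq_mul, zsmul_eq_mul]
      push_cast
      ring
    have hζ1 : ((b' : ℤ) • η) ∈ Cfsg.zspan Y := Submodule.smul_mem _ _ (hmemY η hη)
    have hζ2 : ((-(b : ℤ)) • η') ∈ Cfsg.zspan Y := Submodule.smul_mem _ _ (hmemY η' hη')
    have hζ : ((b' : ℤ) • η + (-(b : ℤ)) • η') ∈ Cfsg.zspan Y := Submodule.add_mem _ hζ1 hζ2
    have hζ0 : ((b' : ℤ) • η + (-(b : ℤ)) • η') 1 = 0 := by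
      rw [Pi.add_apply, Pi.smul_apply, Pi.smul_apply, hb1, hb1', zsmul_eq_mul, zsmul_eq_mul]
      push_cast
      ring
    have hrel : Cfsg.classInner (σ ((a' : ℤ) • χ + (-(a : ℤ)) • χ'))
        (τ ((b' : ℤ) • η + (-(b : ℤ)) • η')) = 0 := by
      rw [hσα _ (honX _ hξ hξ0), hτα _ (honY _ hζ hζ0),
        hainner _ (honS _ (hXs _ hξ) hξ0) _ (honS _ (hYs _ hζ) hζ0)]
      exact hspanorth _ hξ _ hζ
    rw [hsadd _ hξ1 _ hξ2, hssmul χ (hmemX χ hχ), hssmul χ' (hmemX χ' hχ'), htadd _ hζ1 _ hζ2,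
      htsmul η (hmemY η hη), htsmul η' (hmemY η' hη')] at hrel
    simp only [classInner_add_left, classInner_add_right, inner_zsmul_left, inner_zsmul_right]
      at hrel
    rw [hval χ hχ η hη, hval χ hχ η' hη', hval χ' hχ' η hη, hval χ' hχ' η' hη'] at hrel
    rw [hval χ hχ η hη]
    by_cases hAB : (εX • σ χ) = (εY • τ η)
    · exfalso
      have hAB' : (εX • σ χ) ≠ (εY • τ η') := by
        intro h
        have h2 : εY • τ η = εY • τ η' := hAB.symm.trans h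
        have h3 : τ η = τ η' := by
          have := congrArg (fun f => εY • f) h2
          simp only [smul_smul, hεY2, one_smul] at this
          exact this
        exact hne' (hinjY η hη η' hη' h3).symm
      have hA'B : (εX • σ χ') ≠ (εY • τ η) := by
        intro h
        have h2 : εX • σ χ' = εX • σ χ := h.trans hAB.symm
        have h3 : σ χ' = σ χ := by
          have := congrArg (fun f => εX • f) h2
          simp only [smul_smul, hεX2, one_smul] at this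
          exact this
        exact hne (hinjX χ' hχ' χ hχ h3)
      rw [if_pos hAB, if_neg hAB', if_neg hA'B] at hrel
      have hprod : εX * εY ≠ 0 := mul_ne_zero hεX0 hεY0
      by_cases hA'B' : (εX • σ χ') = (εY • τ η')
      · rw [if_pos hA'B'] at hrel
        have h5 : (εX * εY) * (((a' * b' + a * b : ℕ) : ℂ)) = 0 := by
          push_cast
          push_cast at hrel
          linear_combination hrel
        have h6 : ((a' * b' + a * b : ℕ) : ℂ) = 0 := (mul_eq_zero.mp h5).resolve_left hprod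
        have h7 : a' * b' + a * b = 0 := by exact_mod_cast h6
        exact absurd (Nat.add_eq_zero_iff.mp h7).1 (Nat.mul_pos ha' hb').ne'
      · rw [if_neg hA'B'] at hrel
        have h5 : (εX * εY) * (((a' * b' : ℕ) : ℂ)) = 0 := by
          push_cast
          push_cast at hrel
          linear_combination hrel
        have h6 : ((a' * b' : ℕ) : ℂ) = 0 := (mul_eq_zero.mp h5).resolve_left hprod
        have h7 : a' * b' = 0 := by exact_mod_cast h6
        exact absurd h7 (Nat.mul_pos ha' hb').ne'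
    · rw [if_neg hAB, mul_zero]
  refine ⟨key1, ?_⟩
  rintro ⟨χ₀, hχ₀, η₀, hη₀, hbridge⟩
  have key1ext : ∀ a ∈ Cfsg.zspan X, ∀ b ∈ Cfsg.zspan Y, Cfsg.classInner (σ a) (τ b) = 0 :=
    span_bilin_zero X Y σ τ hsadd hssmul htadd htsmul key1
  have huniq : ∀ a ∈ Cfsg.zspan X, ∀ b ∈ Cfsg.zspan Y, ∀ a' ∈ Cfsg.zspan X,
      ∀ b' ∈ Cfsg.zspan Y, a + b = a' + b' → a = a' ∧ b = b' := by
    intro a ha b hb a' ha' b' hb' h
    have h1 : a - a' = b' - b := by
      rw [sub_eq_sub_iff_add_eq_add, h, add_comm]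
    have h2 : (a - a') ∈ Cfsg.zspan X := Submodule.sub_mem _ ha ha'
    have h3 : (b' - b) ∈ Cfsg.zspan Y := Submodule.sub_mem _ hb' hb
    have h4 : Cfsg.classInner (a - a') (b' - b) = 0 := hspanorth _ h2 _ h3
    rw [← h1] at h4
    have h5 : a - a' = 0 := eq_zero_of_classInner_self h4
    have h6 : a = a' := sub_eq_zero.mp h5
    refine ⟨h6, ?_⟩
    rw [h6] at h
    exact add_left_cancel h
  obtain ⟨τ₁, hτ₁def⟩ : ∃ τ₁ : (N → ℂ) → (G → ℂ), ∀ a ∈ Cfsg.zspan X, ∀ b ∈ Cfsg.zspan Y,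
      τ₁ (a + b) = σ a + τ b := by
    refine ⟨fun z => if h : ∃ a ∈ Cfsg.zspan X, ∃ b ∈ Cfsg.zspan Y, z = a + b then
      σ (Classical.choose h) + τ (Classical.choose (Classical.choose_spec h).2) else 0, ?_⟩
    intro a ha b hb
    have h : ∃ a' ∈ Cfsg.zspan X, ∃ b' ∈ Cfsg.zspan Y, a + b = a' + b' := ⟨a, ha, b, hb, rfl⟩
    simp only [dif_pos h]
    obtain ⟨e1, e2⟩ := huniq a ha b hb _ (Classical.choose_spec h).1 _
      (Classical.choose_spec (Classical.choose_spec h).2).1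
      (Classical.choose_spec (Classical.choose_spec h).2).2
    exact congrArg₂ (· + ·) (congrArg σ e1.symm) (congrArg τ e2.symm)
  have hdecomp := zspan_union_decomp X Y
  have hXYs : ∀ z ∈ Cfsg.zspan (X ∪ Y), z ∈ Cfsg.zspan S :=
    fun z hz => zspan_mono (Set.union_subset hXS hYS) hz
  constructor
  · obtain ⟨χ, hχ, χ', hχ', hne⟩ := hX2
    obtain ⟨a, ha, ha1⟩ := isIrrCharacter_one (hirr χ (hXS hχ))
    obtain ⟨a', ha', ha1'⟩ := isIrrCharacter_one (hirr χ' (hXS hχ'))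
    have hξ1 : ((a' : ℤ) • χ) ∈ Cfsg.zspan X := Submodule.smul_mem _ _ (hmemX χ hχ)
    have hξ2 : ((-(a : ℤ)) • χ') ∈ Cfsg.zspan X := Submodule.smul_mem _ _ (hmemX χ' hχ')
    have hξ : ((a' : ℤ) • χ + (-(a : ℤ)) • χ') ∈ Cfsg.zspan X := Submodule.add_mem _ hξ1 hξ2
    have hξ0 : ((a' : ℤ) • χ + (-(a : ℤ)) • χ') 1 = 0 := by
      rw [Pi.add_apply, Pi.smul_apply, Pi.smul_apply, ha1, ha1', zsmul_eq_mul, zsmul_eq_mul]
      push_cast
      ring
    refine ⟨_, (mem_zspanOn_one (X ∪ Y) _).mpr ⟨zspan_mono Set.subset_union_left hξ, hξ0⟩, ?_⟩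
    intro h0
    have h1 : Cfsg.classInner ((a' : ℤ) • χ + (-(a : ℤ)) • χ') χ = 0 := by
      rw [h0, classInner_zero_left]
    rw [classInner_add_left, inner_zsmul_left, inner_zsmul_left,
      isIrrCharacter_inner_self (hirr χ (hXS hχ)),
      irr_inner_ne (χ := ⟨χ', hirr χ' (hXS hχ')⟩) (ψ := ⟨χ, hirr χ (hXS hχ)⟩)
        (fun h' => hne (congrArg Subtype.val h').symm)] at h1
    have h2 : ((a' : ℕ) : ℂ) = 0 := by
      push_cast at h1
      linear_combination h1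
    have h3 : a' = 0 := by exact_mod_cast h2
    omega
  · refine ⟨τ₁, ⟨?_, ?_, ?_, ?_⟩, ?_⟩
    · intro z hz w hw
      obtain ⟨a, ha, b, hb, rfl⟩ := hdecomp z hz
      obtain ⟨a', ha', b', hb', rfl⟩ := hdecomp w hw
      have e : (a + b) + (a' + b') = (a + a') + (b + b') := by abel
      rw [e, hτ₁def _ (Submodule.add_mem _ ha ha') _ (Submodule.add_mem _ hb hb'),
        hτ₁def a ha b hb, hτ₁def a' ha' b' hb', hsadd a ha a' ha', htadd b hb b' hb']
      abel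
    · intro z hz n
      obtain ⟨a, ha, b, hb, rfl⟩ := hdecomp z hz
      rw [smul_add, hτ₁def _ (Submodule.smul_mem _ n ha) _ (Submodule.smul_mem _ n hb),
        hτ₁def a ha b hb, hssmul a ha n, htsmul b hb n, smul_add]
    · intro z hz w hw
      obtain ⟨a, ha, b, hb, rfl⟩ := hdecomp z hz
      obtain ⟨a', ha', b', hb', rfl⟩ := hdecomp w hw
      rw [hτ₁def a ha b hb, hτ₁def a' ha' b' hb']
      simp only [classInner_add_left, classInner_add_right]
      rw [hsinner a ha a' ha', htinner b hb b' hb', key1ext a ha b' hb', hspanorth a ha b' hb',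
        classInner_conj_symm (σ a') (τ b), key1ext a' ha' b hb,
        classInner_conj_symm a' b, hspanorth a' ha' b hb]
    · intro z hz
      obtain ⟨a, ha, b, hb, rfl⟩ := hdecomp z hz
      rw [hτ₁def a ha b hb]
      exact isGeneralizedCharacter_add (hsgen a ha) (htgen b hb)
    · intro z hz
      have hz1 : z 1 = 0 := ((mem_zspanOn_one (X ∪ Y) z).mp hz).2
      have hzS : z ∈ Cfsg.zspanOn S {1}ᶜ := honS z (hXYs z hz.1) hz1
      obtain ⟨a, ha, b, hb, hzab⟩ := hdecomp z hz.1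
      obtain ⟨m, hm⟩ := zspan_one_int X (fun χ h => hirr χ (hXS h)) a ha
      have hb1 : b 1 = -(m : ℂ) := by
        have h1 : (a + b) 1 = 0 := by rw [← hzab]; exact hz1
        rw [Pi.add_apply, hm] at h1
        linear_combination h1
      obtain ⟨c, hc, hc1⟩ := isIrrCharacter_one (hirr χ₀ (hXS hχ₀))
      obtain ⟨e, he, he1⟩ := isIrrCharacter_one (hirr η₀ (hYS hη₀))
      have hχ₀X := hmemX χ₀ hχ₀
      have hη₀Y := hmemY η₀ hη₀
      have ha'1 : (((c : ℤ) * e) • a) ∈ Cfsg.zspan X := Submodule.smul_mem _ _ ha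
      have ha'2 : ((-((e : ℤ) * m)) • χ₀) ∈ Cfsg.zspan X := Submodule.smul_mem _ _ hχ₀X
      have ha' : (((c : ℤ) * e) • a + (-((e : ℤ) * m)) • χ₀) ∈ Cfsg.zspan X :=
        Submodule.add_mem _ ha'1 ha'2
      have ha'0 : (((c : ℤ) * e) • a + (-((e : ℤ) * m)) • χ₀) 1 = 0 := by
        rw [Pi.add_apply, Pi.smul_apply, Pi.smul_apply, hm, hc1, zsmul_eq_mul, zsmul_eq_mul]
        push_cast
        ring
      have hb'1 : (((c : ℤ) * e) • b) ∈ Cfsg.zspan Y := Submodule.smul_mem _ _ hb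
      have hb'2 : ((((c : ℤ) * m)) • η₀) ∈ Cfsg.zspan Y := Submodule.smul_mem _ _ hη₀Y
      have hb' : (((c : ℤ) * e) • b + (((c : ℤ) * m)) • η₀) ∈ Cfsg.zspan Y :=
        Submodule.add_mem _ hb'1 hb'2
      have hb'0 : (((c : ℤ) * e) • b + (((c : ℤ) * m)) • η₀) 1 = 0 := by
        rw [Pi.add_apply, Pi.smul_apply, Pi.smul_apply, hb1, he1, zsmul_eq_mul, zsmul_eq_mul]
        push_cast
        ring
      have hβeq : χ₀ 1 • η₀ - η₀ 1 • χ₀ = (c : ℤ) • η₀ + (-(e : ℤ)) • χ₀ := by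
        funext x
        simp only [Pi.sub_apply, Pi.add_apply, Pi.smul_apply]
        simp only [smul_eq_mul, zsmul_eq_mul, hc1, he1]
        push_cast
        ring
      have hβS : ((c : ℤ) • η₀ + (-(e : ℤ)) • χ₀) ∈ Cfsg.zspanOn S {1}ᶜ := by
        apply honS
        · exact Submodule.add_mem _ (Submodule.smul_mem _ _ (hYs _ hη₀Y))
            (Submodule.smul_mem _ _ (hXs _ hχ₀X))
        · rw [Pi.add_apply, Pi.smul_apply, Pi.smul_apply, hc1, he1, zsmul_eq_mul, zsmul_eq_mul]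
          push_cast
          ring
      have ha'S := honS _ (hXs _ ha') ha'0
      have hb'S := honS _ (hYs _ hb') hb'0
      have hmβS : ((-m) • ((c : ℤ) • η₀ + (-(e : ℤ)) • χ₀)) ∈ Cfsg.zspanOn S {1}ᶜ := by
        apply honS
        · exact Submodule.smul_mem _ _ hβS.1
        · rw [Pi.smul_apply, ((mem_zspanOn_one S _).mp hβS).2, smul_zero]
      have hsumS : (((c : ℤ) * e) • a + (-((e : ℤ) * m)) • χ₀) +
          (((c : ℤ) * e) • b + (((c : ℤ) * m)) • η₀) ∈ Cfsg.zspanOn S {1}ᶜ := by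
        apply honS
        · exact Submodule.add_mem _ ha'S.1 hb'S.1
        · rw [Pi.add_apply, ha'0, hb'0, add_zero]
      have hident : ((c : ℤ) * e) • z = ((((c : ℤ) * e) • a + (-((e : ℤ) * m)) • χ₀) +
          (((c : ℤ) * e) • b + (((c : ℤ) * m)) • η₀)) +
          (-m) • ((c : ℤ) • η₀ + (-(e : ℤ)) • χ₀) := by
        rw [hzab]
        funext x
        simp only [Pi.add_apply, Pi.smul_apply]
        simp only [zsmul_eq_mul]
        push_cast
        ring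
      have F4 : ((c : ℤ) * e) • α z = σ (((c : ℤ) * e) • a + (-((e : ℤ) * m)) • χ₀) +
          τ (((c : ℤ) * e) • b + (((c : ℤ) * m)) • η₀) +
          (-m) • (χ₀ 1 • τ η₀ - η₀ 1 • σ χ₀) := by
        rw [← hasmul z hzS, hident, haadd _ hsumS _ hmβS, haadd _ ha'S _ hb'S, hasmul _ hβS,
          ← hβeq, hbridge, hσα _ (honX _ ha' ha'0), hτα _ (honY _ hb' hb'0)]
      have F2 : ((c : ℤ) * e) • σ a = σ (((c : ℤ) * e) • a + (-((e : ℤ) * m)) • χ₀) +
          ((e : ℤ) * m) • σ χ₀ := by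
        rw [hsadd _ ha'1 _ ha'2, hssmul a ha, hssmul χ₀ hχ₀X, neg_smul]
        abel
      have F3 : ((c : ℤ) * e) • τ b = τ (((c : ℤ) * e) • b + (((c : ℤ) * m)) • η₀) +
          (-((c : ℤ) * m)) • τ η₀ := by
        rw [htadd _ hb'1 _ hb'2, htsmul b hb, htsmul η₀ hη₀Y, neg_smul]
        abel
      have hce : ((c : ℤ) * e) ≠ 0 := by
        have : 0 < (c : ℤ) * e := by positivity
        exact this.ne'
      apply zsmul_fun_cancel hce
      rw [F4, hzab, hτ₁def a ha b hb, smul_add, F2, F3]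
      funext x
      simp only [Pi.add_apply, Pi.smul_apply, Pi.sub_apply]
      simp only [zsmul_eq_mul, smul_eq_mul, hc1, he1]
      push_cast
      ring

end Cfsg.Agent.S1531
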