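import Cfsg.Statements.S1536

import Cfsg.Agent.Lib.helper24.CharPerm
import Cfsg.Agent.Lib.helper24.CharReg
import Cfsg.Agent.Lib.helper8.CoprimeAction
set_option autoImplicit false
open Cfsg

namespace Cfsg.Agent.S1536

theorem two_le_card_of_ne {α : Type*} [Finite α] (a b : α) (h : a ≠ b) : 2 ≤ Nat.card α := by
  by_contra hlt
  push_neg at hlt
  have : Nat.card α ≤ 1 := by omega
  exact h ((Finite.card_le_one_iff_subsingleton.mp this).elim a b)

theorem exists_ne_of_two_le_card {α : Type*} [Finite α] (a : α) (h : 2 ≤ Nat.card α) :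
    ∃ b : α, b ≠ a := by
  by_contra hcon
  push_neg at hcon
  have : Subsingleton α := ⟨fun x y => (hcon x).trans (hcon y).symm⟩
  have := Finite.card_le_one_iff_subsingleton.mpr this
  omega

/-- Let H be a normal subgroup of the finite group M whose order is coprime to its index. For x ∈ M: some non-principal irreducible character of H is unchanged under h ↦ θ(x h x⁻¹) if and only if some non-identity element of H commutes with x. -/
theorem result {M : Type*} [Group M] [Finite M] (H : Subgroup M) [hN : H.Normal] (hHall : Nat.Coprime (Nat.card H) H.index) (x : M) : (∃ θ : H → ℂ, Cfsg.IsIrrCharacter H θ ∧ θ ≠ (fun _ => 1) ∧ (fun h : H => θ ⟨x * h * x⁻¹, hN.conj_mem h h.2 x⟩) = θ) ↔ ∃ h ∈ H, h ≠ 1 ∧ x * h = h * x := by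

    classical
    have hcount := Cfsg.Agent.Lib.helper24.brauer_perm_count (G := H)
      (fun g => (MulAut.conjNormal x : H ≃* H) g)
      (fun χ => Cfsg.Agent.Lib.helper24.isIrrCharacter_comp_equiv (MulAut.conjNormal x : H ≃* H) χ.2)
      (fun g h hgh => by
        obtain ⟨c, hc⟩ := isConj_iff.mp hgh
        exact isConj_iff.mpr ⟨(MulAut.conjNormal x : H ≃* H) c, by rw [← hc]; simp⟩)
    have hcoe : ∀ h : H, (((MulAut.conjNormal x : H ≃* H) h : H) : M) = x * h * x⁻¹ := by
      intro h
      rw [MulAut.conjNormal_apply]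
    constructor
    · rintro ⟨θ, hθ, hθ1, hθx⟩
      have hfix : (⟨θ, hθ⟩ : Cfsg.IrrCharacter H).1 ∘ (fun g => (MulAut.conjNormal x : H ≃* H) g) =
          (⟨θ, hθ⟩ : Cfsg.IrrCharacter H).1 := by
        funext h
        have := congrFun hθx h
        simp only [Function.comp_apply]
        rw [← this]
        congr 1
      have h2 : 2 ≤ Nat.card {χ : Cfsg.IrrCharacter H //
          χ.1 ∘ (fun g => (MulAut.conjNormal x : H ≃* H) g) = χ.1} := by
        apply two_le_card_of_ne ⟨⟨θ, hθ⟩, hfix⟩ ⟨Cfsg.Agent.Lib.helper24.trivIrr H, rfl⟩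
        intro h
        apply hθ1
        have := congrArg (fun z => z.1.1) h
        exact this
      rw [hcount] at h2
      have h1mem : ∀ g : H, ConjClasses.mk g = ConjClasses.mk (1 : H) →
          IsConj ((MulAut.conjNormal x : H ≃* H) g) g := by
        intro g hg
        have : g = 1 := by
          have := ConjClasses.mk_eq_mk_iff_isConj.mp hg
          exact isConj_one_left.mp this
        rw [this, map_one]
      obtain ⟨⟨C, hC⟩, hCne⟩ := exists_ne_of_two_le_card
        (⟨ConjClasses.mk (1 : H), h1mem⟩ : {C : ConjClasses H // ∀ g : H, ConjClasses.mk g = C →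
          IsConj ((MulAut.conjNormal x : H ≃* H) g) g}) h2
      obtain ⟨c, rfl⟩ := ConjClasses.mk_surjective C
      have hc1 : c ≠ 1 := by
        intro h
        apply hCne
        apply Subtype.ext
        simp [h]
      have hconj := hC c rfl
      obtain ⟨k, hk⟩ := isConj_iff.mp hconj
      have hk' : (k : M) * (x * c * x⁻¹) * (k : M)⁻¹ = c := by
        have := congrArg Subtype.val hk
        simpa [hcoe] using this
      by_cases hxm : x ^ H.index = 1
      · have hord : (orderOf x).Coprime (Nat.card H) :=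
          (Nat.Coprime.coprime_dvd_left (orderOf_dvd_of_pow_eq_one hxm) hHall.symm)
        obtain ⟨k', hk'H, hk'c⟩ := Cfsg.Agent.Lib.helper8.exists_conj_commute H x (c : M)
          (by rw [Subgroup.normalizer_eq_top]; trivial) hord
          ⟨(k : M)⁻¹, H.inv_mem k.2, by
            calc x * (c : M) * x⁻¹ = (k : M)⁻¹ * ((k : M) * (x * (c : M) * x⁻¹) * (k : M)⁻¹) * ((k : M)⁻¹)⁻¹ := by group
              _ = (k : M)⁻¹ * (c : M) * ((k : M)⁻¹)⁻¹ := by rw [hk']⟩
        refine ⟨k' * c * k'⁻¹, H.mul_mem (H.mul_mem hk'H c.2) (H.inv_mem hk'H), ?_, hk'c⟩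
        intro h
        apply hc1
        apply Subtype.ext
        have : (c : M) = k'⁻¹ * (k' * c * k'⁻¹) * k' := by group
        rw [this, h]
        simp
      · refine ⟨x ^ H.index, ?_, hxm, ?_⟩
        · have : ((x : M ⧸ H) ^ H.index) = 1 := by
            have h1 := pow_card_eq_one' (G := M ⧸ H) (x := (x : M ⧸ H))
            rwa [← Subgroup.index_eq_card] at h1
          rw [← QuotientGroup.mk_pow] at this
          exact (QuotientGroup.eq_one_iff _).mp this
        · rw [← pow_succ', ← pow_succ]
    · rintro ⟨h, hh, hh1, hxh⟩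
      have hxh' : x * h * x⁻¹ = h := by rw [hxh]; group
      have h1mem : ∀ g : H, ConjClasses.mk g = ConjClasses.mk (1 : H) →
          IsConj ((MulAut.conjNormal x : H ≃* H) g) g := by
        intro g hg
        have : g = 1 := by
          have := ConjClasses.mk_eq_mk_iff_isConj.mp hg
          exact isConj_one_left.mp this
        rw [this, map_one]
      have hhmem : ∀ g : H, ConjClasses.mk g = ConjClasses.mk (⟨h, hh⟩ : H) →
          IsConj ((MulAut.conjNormal x : H ≃* H) g) g := by
        intro g hg
        have hgc := ConjClasses.mk_eq_mk_iff_isConj.mp hg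
        have hfix : (MulAut.conjNormal x : H ≃* H) ⟨h, hh⟩ = ⟨h, hh⟩ := by
          apply Subtype.ext
          rw [hcoe]
          exact hxh'
        obtain ⟨c, hc⟩ := isConj_iff.mp hgc
        have h3 : IsConj ((MulAut.conjNormal x : H ≃* H) g) ((MulAut.conjNormal x : H ≃* H) ⟨h, hh⟩) :=
          isConj_iff.mpr ⟨(MulAut.conjNormal x : H ≃* H) c, by rw [← hc]; simp⟩
        rw [hfix] at h3
        exact h3.trans hgc.symm
      have h2 : 2 ≤ Nat.card {C : ConjClasses H // ∀ g : H, ConjClasses.mk g = C →
          IsConj ((MulAut.conjNormal x : H ≃* H) g) g} := by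
        apply two_le_card_of_ne ⟨ConjClasses.mk (⟨h, hh⟩ : H), hhmem⟩ ⟨ConjClasses.mk (1 : H), h1mem⟩
        intro hEq
        apply hh1
        have h4 := congrArg Subtype.val hEq
        have h5 := ConjClasses.mk_eq_mk_iff_isConj.mp h4
        have h6 : (⟨h, hh⟩ : H) = 1 := isConj_one_left.mp h5
        exact congrArg Subtype.val h6
      rw [← hcount] at h2
      obtain ⟨⟨χ, hχ⟩, hχne⟩ := exists_ne_of_two_le_card
        (⟨Cfsg.Agent.Lib.helper24.trivIrr H, rfl⟩ : {χ : Cfsg.IrrCharacter H //
          χ.1 ∘ (fun g => (MulAut.conjNormal x : H ≃* H) g) = χ.1}) h2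
      refine ⟨χ.1, χ.2, ?_, ?_⟩
      · intro h
        apply hχne
        apply Subtype.ext
        apply Subtype.ext
        exact h
      · funext k
        have := congrFun hχ k
        simp only [Function.comp_apply] at this
        rw [← this]
        congr 1

end Cfsg.Agent.S1536
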