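import Cfsg.Statements.S1546

set_option autoImplicit false
open Cfsg

namespace Cfsg.Agent.S1546

/-- Let p and q be odd primes and N = (p ^ q − 1) / (p − 1) = 1 + p + ⋯ + p^(q−1). Then N is odd; if p ≡ 1 (mod q) then q ∣ N; and if p is not ≡ 1 (mod q) then N is coprime to p − 1 and every divisor of N is ≡ 1 (mod q). -/
theorem result (p q : ℕ) (hp : p.Prime) (hq : q.Prime) (hp2 : p ≠ 2) (hq2 : q ≠ 2) : Odd ((p ^ q - 1) / (p - 1)) ∧ (p % q = 1 → q ∣ (p ^ q - 1) / (p - 1)) ∧ (p % q ≠ 1 → Nat.Coprime ((p ^ q - 1) / (p - 1)) (p - 1) ∧ ∀ x : ℕ, x ∣ (p ^ q - 1) / (p - 1) → x % q = 1) := by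

  have hp1 : 2 ≤ p := hp.two_le
  have hq1 : 2 ≤ q := hq.two_le
  have hp3 : Odd p := hp.odd_of_ne_two hp2
  have hq3 : Odd q := hq.odd_of_ne_two hq2
  have hN : (p ^ q - 1) / (p - 1) = ∑ k ∈ Finset.range q, p ^ k := (Nat.geomSum_eq hp1 q).symm
  rw [hN]
  have hNmul : (p - 1) * ∑ k ∈ Finset.range q, p ^ k = p ^ q - 1 := by
    have := Nat.geomSum_eq hp1 q
    rw [this]
    exact Nat.mul_div_cancel' (Nat.sub_one_dvd_pow_sub_one p q)
  have hcast : ∀ (r : ℕ), (p : ZMod r) = 1 → ((∑ k ∈ Finset.range q, p ^ k : ℕ) : ZMod r) = (q : ZMod r) := by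
    intro r hr
    push_cast
    rw [hr]
    simp
  refine ⟨?_, ?_, ?_⟩
  · -- odd
    rw [← Nat.not_even_iff_odd, ← ZMod.natCast_eq_zero_iff_even]
    have h1 : (p : ZMod 2) = 1 := by
      have := (ZMod.natCast_eq_one_iff_odd).mpr hp3
      exact this
    rw [hcast 2 h1]
    have h2 : (q : ZMod 2) = 1 := (ZMod.natCast_eq_one_iff_odd).mpr hq3
    rw [h2]; exact one_ne_zero
  · intro hpq
    rw [← ZMod.natCast_eq_zero_iff]
    have h1 : (p : ZMod q) = 1 := by
      have : (p : ZMod q) = ((p % q : ℕ) : ZMod q) := by simp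
      rw [this, hpq]; simp
    rw [hcast q h1]; simp
  · intro hpq
    have hne1 : ∀ r : ℕ, r.Prime → (p : ZMod r) = 1 → ((q : ZMod r) = 0) → False := by
      intro r hr h1 h0
      have hrq : r ∣ q := (ZMod.natCast_eq_zero_iff q r).mp h0
      have : r = q := (Nat.prime_dvd_prime_iff_eq hr hq).mp hrq
      subst this
      have h2 : p ≡ 1 [MOD r] := by
        rw [← ZMod.natCast_eq_natCast_iff]; simpa using h1
      have h3 : p % r = 1 % r := h2
      rw [Nat.mod_eq_of_lt (by omega : 1 < r)] at h3
      exact hpq h3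
    have hprime : ∀ r : ℕ, r.Prime → r ∣ ∑ k ∈ Finset.range q, p ^ k → r % q = 1 := by
      intro r hr hrN
      have : Fact r.Prime := ⟨hr⟩
      have hpow : (p : ZMod r) ^ q = 1 := by
        have h1 : ((p ^ q - 1 : ℕ) : ZMod r) = 0 := by
          rw [← hNmul]
          rw [ZMod.natCast_eq_zero_iff]
          exact Dvd.dvd.mul_left hrN _
        have h2 : 1 ≤ p ^ q := Nat.one_le_pow _ _ (by omega)
        rw [Nat.cast_sub h2] at h1
        push_cast at h1
        exact sub_eq_zero.mp h1
      have hord : orderOf (p : ZMod r) ∣ q := orderOf_dvd_of_pow_eq_one hpow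
      rcases (Nat.dvd_prime hq).mp hord with h | h
      · exfalso
        have h1 : (p : ZMod r) = 1 := orderOf_eq_one_iff.mp h
        apply hne1 r hr h1
        rw [← hcast r h1, ZMod.natCast_eq_zero_iff]
        exact hrN
      · have hp0 : (p : ZMod r) ≠ 0 := by
          intro h0
          rw [h0, zero_pow (by omega)] at hpow
          exact zero_ne_one hpow
        have hf : (p : ZMod r) ^ (r - 1) = 1 := ZMod.pow_card_sub_one_eq_one hp0
        have hd : q ∣ r - 1 := by
          rw [← h]; exact orderOf_dvd_of_pow_eq_one hf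
        obtain ⟨k, hk⟩ := hd
        have hr1 : 2 ≤ r := hr.two_le
        have : r = q * k + 1 := by omega
        rw [this, Nat.mul_add_mod]
        exact Nat.mod_eq_of_lt (by omega)
    refine ⟨?_, ?_⟩
    · -- coprime
      rw [Nat.coprime_iff_gcd_eq_one]
      by_contra hg
      obtain ⟨r, hr, hrd⟩ := Nat.exists_prime_and_dvd hg
      have hr1 : r ∣ ∑ k ∈ Finset.range q, p ^ k := hrd.trans (Nat.gcd_dvd_left _ _)
      have hr2 : r ∣ p - 1 := hrd.trans (Nat.gcd_dvd_right _ _)
      have h1 : (p : ZMod r) = 1 := by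
        have : ((p - 1 : ℕ) : ZMod r) = 0 := (ZMod.natCast_eq_zero_iff _ _).mpr hr2
        rw [Nat.cast_sub (by omega)] at this
        push_cast at this
        exact sub_eq_zero.mp this
      apply hne1 r hr h1
      rw [← hcast r h1, ZMod.natCast_eq_zero_iff]
      exact hr1
    · intro x
      induction x using Nat.strong_induction_on with
      | _ x ih =>
        intro hx
        by_cases hx1 : x = 1
        · rw [hx1]; exact Nat.mod_eq_of_lt (by omega)
        · have hx0 : x ≠ 0 := by
            rintro rfl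
            rw [zero_dvd_iff] at hx
            have : 0 < ∑ k ∈ Finset.range q, p ^ k := by
              apply Finset.sum_pos
              · intro i _; exact pow_pos (by omega) _
              · exact ⟨0, by simp; omega⟩
            omega
          have hr := Nat.minFac_prime hx1
          have hrx : x.minFac ∣ x := Nat.minFac_dvd x
          obtain ⟨y, hy⟩ := hrx
          have hy0 : y ≠ 0 := by rintro rfl; simp at hy; exact hx0 hy
          have hylt : y < x := by
            rw [hy]
            have := hr.two_le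
            nlinarith [Nat.pos_of_ne_zero hy0]
          have hyd : y ∣ ∑ k ∈ Finset.range q, p ^ k := (Dvd.intro_left _ hy.symm).trans hx
          have h1 := ih y hylt hyd
          have h2 := hprime _ hr ((Nat.minFac_dvd x).trans hx)
          rw [hy, Nat.mul_mod, h1, h2]
          simp
          exact Nat.mod_eq_of_lt (by omega)

end Cfsg.Agent.S1546
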