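import Cfsg.Statements.S1587

set_option autoImplicit false
open Matrix
open Cfsg

namespace Cfsg.Agent.S1587

/-- First step of the characterisation of the rank-24 lattice: in an even lattice without roots, norm-8 vectors congruent modulo 2 are equal, opposite or orthogonal. -/
theorem result (B : Matrix (Fin 24) (Fin 24) ℤ) (hsymm : B.IsSymm) (hpos : ∀ x : Fin 24 → ℤ, x ≠ 0 → 0 < x ⬝ᵥ (B *ᵥ x)) (heven : ∀ x : Fin 24 → ℤ, (2 : ℤ) ∣ x ⬝ᵥ (B *ᵥ x)) (h2 : ∀ x : Fin 24 → ℤ, x ⬝ᵥ (B *ᵥ x) ≠ 2) (x y : Fin 24 → ℤ) (hx : x ⬝ᵥ (B *ᵥ x) = 8) (hy : y ⬝ᵥ (B *ᵥ y) = 8) (hc : ∀ i, (2 : ℤ) ∣ (x - y) i) : y = x ∨ y = -x ∨ x ⬝ᵥ (B *ᵥ y) = 0 := by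

  choose z hz using hc
  have hsym : ∀ u v : Fin 24 → ℤ, u ⬝ᵥ (B *ᵥ v) = v ⬝ᵥ (B *ᵥ u) := by
    intro u v
    rw [Matrix.dotProduct_mulVec, ← Matrix.mulVec_transpose, hsymm.eq, dotProduct_comm]
  have hxz : x = (y + z) + z := by
    funext i
    have := hz i
    simp only [Pi.sub_apply, Pi.add_apply] at this ⊢
    linarith
  have hyz : y = (y + z) - z := by
    funext i
    simp
  generalize y + z = w at hxz hyz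
  have e1 : x ⬝ᵥ (B *ᵥ x) = w ⬝ᵥ (B *ᵥ w) + 2 * (w ⬝ᵥ (B *ᵥ z)) + z ⬝ᵥ (B *ᵥ z) := by
    rw [hxz]
    simp only [Matrix.mulVec_add, add_dotProduct, dotProduct_add]
    rw [hsym z w]; ring
  have e2 : y ⬝ᵥ (B *ᵥ y) = w ⬝ᵥ (B *ᵥ w) - 2 * (w ⬝ᵥ (B *ᵥ z)) + z ⬝ᵥ (B *ᵥ z) := by
    rw [hyz]
    simp only [Matrix.mulVec_sub, sub_dotProduct, dotProduct_sub]
    rw [hsym z w]; ring
  have e3 : x ⬝ᵥ (B *ᵥ y) = w ⬝ᵥ (B *ᵥ w) - z ⬝ᵥ (B *ᵥ z) := by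
    rw [hxz, hyz]
    simp only [Matrix.mulVec_sub, add_dotProduct, dotProduct_sub]
    rw [hsym z w]; ring
  have hz0 : z ≠ 0 → 0 < z ⬝ᵥ (B *ᵥ z) := hpos z
  have hw0 : w ≠ 0 → 0 < w ⬝ᵥ (B *ᵥ w) := hpos w
  have hze := heven z
  have hwe := heven w
  have hz2 := h2 z
  have hw2 := h2 w
  by_cases hzz : z = 0
  · left
    rw [hyz, hxz, hzz]; simp
  by_cases hww : w = 0
  · right; left
    rw [hyz, hxz, hww]; simp
  right; right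
  have p1 := hz0 hzz
  have p2 := hw0 hww
  rw [e3]
  obtain ⟨a, ha⟩ := hze
  obtain ⟨b, hb⟩ := hwe
  omega

end Cfsg.Agent.S1587
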