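import Cfsg.Statements.S1588

set_option autoImplicit false
open Matrix
open Cfsg

namespace Cfsg.Agent.S1588

theorem bform_symm (B : Matrix (Fin 24) (Fin 24) ℤ) (hsymm : B.IsSymm) (x y : Fin 24 → ℤ) :
    x ⬝ᵥ (B *ᵥ y) = y ⬝ᵥ (B *ᵥ x) := by
  rw [Matrix.dotProduct_mulVec, ← Matrix.mulVec_transpose, hsymm.eq, dotProduct_comm]

theorem norm_add' (B : Matrix (Fin 24) (Fin 24) ℤ) (hsymm : B.IsSymm) (x y : Fin 24 → ℤ) :
    (x + y) ⬝ᵥ (B *ᵥ (x + y)) = x ⬝ᵥ (B *ᵥ x) + 2 * (x ⬝ᵥ (B *ᵥ y)) + y ⬝ᵥ (B *ᵥ y) := by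
  rw [Matrix.mulVec_add, dotProduct_add, add_dotProduct, add_dotProduct, bform_symm B hsymm y x]; ring

theorem norm_sub' (B : Matrix (Fin 24) (Fin 24) ℤ) (hsymm : B.IsSymm) (x y : Fin 24 → ℤ) :
    (x - y) ⬝ᵥ (B *ᵥ (x - y)) = x ⬝ᵥ (B *ᵥ x) - 2 * (x ⬝ᵥ (B *ᵥ y)) + y ⬝ᵥ (B *ᵥ y) := by
  rw [Matrix.mulVec_sub, dotProduct_sub, sub_dotProduct, sub_dotProduct, bform_symm B hsymm y x]; ring

theorem norm_two (B : Matrix (Fin 24) (Fin 24) ℤ) (z : Fin 24 → ℤ) :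
    ((2:ℤ) • z) ⬝ᵥ (B *ᵥ ((2:ℤ) • z)) = 4 * (z ⬝ᵥ (B *ᵥ z)) := by
  rw [Matrix.mulVec_smul, dotProduct_smul, smul_dotProduct, smul_eq_mul, smul_eq_mul]; ring

theorem norm_neg (B : Matrix (Fin 24) (Fin 24) ℤ) (z : Fin 24 → ℤ) :
    (-z) ⬝ᵥ (B *ᵥ (-z)) = z ⬝ᵥ (B *ᵥ z) := by
  rw [Matrix.mulVec_neg, dotProduct_neg, neg_dotProduct, neg_neg]

theorem key (B : Matrix (Fin 24) (Fin 24) ℤ) (hsymm : B.IsSymm)
    (hpos : ∀ x : Fin 24 → ℤ, x ≠ 0 → 0 < x ⬝ᵥ (B *ᵥ x))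
    (heven : ∀ x : Fin 24 → ℤ, (2 : ℤ) ∣ x ⬝ᵥ (B *ᵥ x)) (h2 : ∀ x : Fin 24 → ℤ, x ⬝ᵥ (B *ᵥ x) ≠ 2)
    (x y : Fin 24 → ℤ) (hx : x ⬝ᵥ (B *ᵥ x) ≤ 8) (hy : y ⬝ᵥ (B *ᵥ y) ≤ 8)
    (hc : ∀ i, (2 : ℤ) ∣ (x - y) i) (h1 : y ≠ x) (h2' : y ≠ -x) :
    x ⬝ᵥ (B *ᵥ x) = 8 ∧ y ⬝ᵥ (B *ᵥ y) = 8 ∧ x ⬝ᵥ (B *ᵥ y) = 0 := by
  choose z hz using hc
  have hxy : x - y = (2:ℤ) • z := by
    funext i
    rw [hz i]; simp
  have hxy' : x + y = (2:ℤ) • (z + y) := by
    have : x + y = (x - y) + (2:ℤ) • y := by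
      funext i
      simp only [Pi.add_apply, Pi.sub_apply, Pi.smul_apply, smul_eq_mul]; ring
    rw [this, hxy, smul_add]
  have hz0 : z ≠ 0 := by
    rintro rfl
    apply h1
    have : x - y = 0 := by rw [hxy]; simp
    exact (sub_eq_zero.mp this).symm
  have hw0 : z + y ≠ 0 := by
    intro h
    apply h2'
    have : x + y = 0 := by rw [hxy', h]; simp
    exact eq_neg_of_add_eq_zero_right this
  have big : ∀ w : Fin 24 → ℤ, w ≠ 0 → 4 ≤ w ⬝ᵥ (B *ᵥ w) := by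
    intro w hw
    have p := hpos w hw
    obtain ⟨k, hk⟩ := heven w
    have := h2 w
    omega
  have e1 := norm_sub' B hsymm x y
  have e2 := norm_add' B hsymm x y
  rw [hxy, norm_two] at e1
  rw [hxy', norm_two] at e2
  have b1 := big z hz0
  have b2 := big (z + y) hw0
  refine ⟨by linarith, by linarith, by linarith⟩

/-- Second step of the characterisation: under the vector counts of the rank-24 lattice, the norm-8 vectors fall into congruence classes of exactly 48 modulo twice the lattice. -/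
theorem result (B : Matrix (Fin 24) (Fin 24) ℤ) (hsymm : B.IsSymm) (hpos : ∀ x : Fin 24 → ℤ, x ≠ 0 → 0 < x ⬝ᵥ (B *ᵥ x)) (heven : ∀ x : Fin 24 → ℤ, (2 : ℤ) ∣ x ⬝ᵥ (B *ᵥ x)) (h2 : ∀ x : Fin 24 → ℤ, x ⬝ᵥ (B *ᵥ x) ≠ 2) (h4 : {x : Fin 24 → ℤ | x ⬝ᵥ (B *ᵥ x) = 4}.ncard = 196560) (h6 : {x : Fin 24 → ℤ | x ⬝ᵥ (B *ᵥ x) = 6}.ncard = 16773120) (h8 : {x : Fin 24 → ℤ | x ⬝ᵥ (B *ᵥ x) = 8}.ncard = 398034000) (x : Fin 24 → ℤ) (hx : x ⬝ᵥ (B *ᵥ x) = 8) : {y : Fin 24 → ℤ | y ⬝ᵥ (B *ᵥ y) = 8 ∧ ∀ i, (2 : ℤ) ∣ (x - y) i}.ncard = 48 := by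

  classical
  have hfin4 : {x : Fin 24 → ℤ | x ⬝ᵥ (B *ᵥ x) = 4}.Finite :=
    Set.finite_of_ncard_ne_zero (by rw [h4]; norm_num)
  have hfin6 : {x : Fin 24 → ℤ | x ⬝ᵥ (B *ᵥ x) = 6}.Finite :=
    Set.finite_of_ncard_ne_zero (by rw [h6]; norm_num)
  have hfin8 : {x : Fin 24 → ℤ | x ⬝ᵥ (B *ᵥ x) = 8}.Finite :=
    Set.finite_of_ncard_ne_zero (by rw [h8]; norm_num)
  obtain ⟨F4, hF4⟩ : ∃ F : Finset (Fin 24 → ℤ), ∀ v, v ∈ F ↔ v ⬝ᵥ (B *ᵥ v) = 4 :=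
    ⟨hfin4.toFinset, fun v => by simp⟩
  obtain ⟨F6, hF6⟩ : ∃ F : Finset (Fin 24 → ℤ), ∀ v, v ∈ F ↔ v ⬝ᵥ (B *ᵥ v) = 6 :=
    ⟨hfin6.toFinset, fun v => by simp⟩
  obtain ⟨F8, hF8⟩ : ∃ F : Finset (Fin 24 → ℤ), ∀ v, v ∈ F ↔ v ⬝ᵥ (B *ᵥ v) = 8 :=
    ⟨hfin8.toFinset, fun v => by simp⟩
  have c4 : F4.card = 196560 := by
    rw [← h4, ← Set.ncard_coe_finset F4]; congr 1; ext v; simp [hF4]
  have c6 : F6.card = 16773120 := by
    rw [← h6, ← Set.ncard_coe_finset F6]; congr 1; ext v; simp [hF6]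
  have c8 : F8.card = 398034000 := by
    rw [← h8, ← Set.ncard_coe_finset F8]; congr 1; ext v; simp [hF8]
  obtain ⟨c, hc⟩ : ∃ c : (Fin 24 → ℤ) → (Fin 24 → ZMod 2),
      ∀ u v, c u = c v ↔ ∀ i, (2:ℤ) ∣ (u - v) i := by
    refine ⟨fun u i => ((u i : ℤ) : ZMod 2), fun u v => ?_⟩
    rw [funext_iff]
    apply forall_congr'
    intro i
    rw [← sub_eq_zero, ← Int.cast_sub, Pi.sub_apply]
    exact_mod_cast ZMod.intCast_zmod_eq_zero_iff_dvd (u i - v i) 2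
  have hneg : ∀ v, c (-v) = c v := by
    intro v; rw [hc]; intro i
    refine ⟨- v i, ?_⟩
    simp only [Pi.sub_apply, Pi.neg_apply]; ring
  have key' : ∀ u v, u ⬝ᵥ (B *ᵥ u) ≤ 8 → v ⬝ᵥ (B *ᵥ v) ≤ 8 → c u = c v → v ≠ u → v ≠ -u →
      u ⬝ᵥ (B *ᵥ u) = 8 ∧ v ⬝ᵥ (B *ᵥ v) = 8 ∧ u ⬝ᵥ (B *ᵥ v) = 0 :=
    fun u v h1 h2' h3 h4' h5 => key B hsymm hpos heven h2 u v h1 h2' ((hc u v).mp h3) h4' h5
  have hsame : ∀ u v, u ⬝ᵥ (B *ᵥ u) ≤ 8 → v ⬝ᵥ (B *ᵥ v) ≤ 8 → c u = c v →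
      u ⬝ᵥ (B *ᵥ u) = v ⬝ᵥ (B *ᵥ v) := by
    intro u v h1 h2' h3
    by_cases e1 : v = u
    · rw [e1]
    by_cases e2 : v = -u
    · rw [e2, norm_neg]
    obtain ⟨a, b, _⟩ := key' u v h1 h2' h3 e1 e2
    rw [a, b]
  have hdisj : ∀ (k l : ℤ) (Fk Fl : Finset (Fin 24 → ℤ)), (∀ v ∈ Fk, v ⬝ᵥ (B *ᵥ v) = k) →
      (∀ v ∈ Fl, v ⬝ᵥ (B *ᵥ v) = l) → k ≤ 8 → l ≤ 8 → k ≠ l → Disjoint (Fk.image c) (Fl.image c) := by
    intro k l Fk Fl hk hl hk8 hl8 hkl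
    rw [Finset.disjoint_left]
    intro b hb4 hb6
    obtain ⟨u, hu, e⟩ := Finset.mem_image.mp hb4
    obtain ⟨v, hv, e'⟩ := Finset.mem_image.mp hb6
    have := hsame u v (by rw [hk u hu]; exact hk8) (by rw [hl v hv]; exact hl8) (e.trans e'.symm)
    rw [hk u hu, hl v hv] at this
    exact hkl this
  have hz : ∀ v ∈ ({0} : Finset (Fin 24 → ℤ)), v ⬝ᵥ (B *ᵥ v) = 0 := by
    intro v hv
    rw [Finset.mem_singleton] at hv
    rw [hv]; simp
  have h4' : ∀ v ∈ F4, v ⬝ᵥ (B *ᵥ v) = 4 := fun v hv => (hF4 v).mp hv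
  have h6' : ∀ v ∈ F6, v ⬝ᵥ (B *ᵥ v) = 6 := fun v hv => (hF6 v).mp hv
  have h8' : ∀ v ∈ F8, v ⬝ᵥ (B *ᵥ v) = 8 := fun v hv => (hF8 v).mp hv
  have d04 := hdisj 0 4 {0} F4 hz h4' (by norm_num) (by norm_num) (by norm_num)
  have d06 := hdisj 0 6 {0} F6 hz h6' (by norm_num) (by norm_num) (by norm_num)
  have d08 := hdisj 0 8 {0} F8 hz h8' (by norm_num) (by norm_num) (by norm_num)
  have d46 := hdisj 4 6 F4 F6 h4' h6' (by norm_num) (by norm_num) (by norm_num)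
  have d48 := hdisj 4 8 F4 F8 h4' h8' (by norm_num) (by norm_num) (by norm_num)
  have d68 := hdisj 6 8 F6 F8 h6' h8' (by norm_num) (by norm_num) (by norm_num)
  have htot : (({0} : Finset (Fin 24 → ℤ)).image c).card + (F4.image c).card + (F6.image c).card
      + (F8.image c).card ≤ 16777216 := by
    rw [← Finset.card_union_of_disjoint d04, ← Finset.card_union_of_disjoint
      (Finset.disjoint_union_left.mpr ⟨d06, d46⟩), ← Finset.card_union_of_disjoint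
      (Finset.disjoint_union_left.mpr ⟨Finset.disjoint_union_left.mpr ⟨d08, d48⟩, d68⟩)]
    refine (Finset.card_le_univ _).trans ?_
    rw [Fintype.card_fun, ZMod.card, Fintype.card_fin]
    norm_num
  have h0c : (({0} : Finset (Fin 24 → ℤ)).image c).card = 1 := by
    rw [Finset.image_singleton, Finset.card_singleton]
  have fib2 : ∀ (k : ℤ) (F : Finset (Fin 24 → ℤ)), (∀ v, v ∈ F ↔ v ⬝ᵥ (B *ᵥ v) = k) → k ≤ 8 →
      k ≠ 8 → F.card ≤ 2 * (F.image c).card := by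
    intro k F hF hk8 hk
    rw [Finset.card_eq_sum_card_image c F]
    have : ∀ b ∈ F.image c, (F.filter (fun v => c v = b)).card ≤ 2 := by
      intro b hb
      obtain ⟨u, hu, rfl⟩ := Finset.mem_image.mp hb
      have hsub : F.filter (fun v => c v = c u) ⊆ {u, -u} := by
        intro v hv
        rw [Finset.mem_filter] at hv
        rw [Finset.mem_insert, Finset.mem_singleton]
        by_contra hne
        push_neg at hne
        have := key' u v (by rw [(hF u).mp hu]; exact hk8) (by rw [(hF v).mp hv.1]; exact hk8)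
          hv.2.symm hne.1 hne.2
        rw [(hF u).mp hu] at this
        exact hk this.1
      exact (Finset.card_le_card hsub).trans Finset.card_le_two
    calc ∑ b ∈ F.image c, (F.filter (fun v => c v = b)).card ≤ ∑ b ∈ F.image c, 2 :=
          Finset.sum_le_sum this
      _ = 2 * (F.image c).card := by rw [Finset.sum_const, smul_eq_mul, mul_comm]
  have i4 := fib2 4 F4 hF4 (by norm_num) (by norm_num)
  have i6 := fib2 6 F6 hF6 (by norm_num) (by norm_num)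
  have fib48 : ∀ b ∈ F8.image c, (F8.filter (fun v => c v = b)).card ≤ 48 := by
    intro b hb
    obtain ⟨u, hu, rfl⟩ := Finset.mem_image.mp hb
    obtain ⟨F, hFdef⟩ : ∃ F, F = F8.filter (fun v => c v = c u) := ⟨_, rfl⟩
    rw [← hFdef]
    have hFmem : ∀ v, v ∈ F ↔ v ⬝ᵥ (B *ᵥ v) = 8 ∧ c v = c u := by
      intro v; rw [hFdef, Finset.mem_filter, hF8]
    have hFneg : ∀ v ∈ F, -v ∈ F := by
      intro v hv
      rw [hFmem] at hv ⊢
      exact ⟨by rw [norm_neg]; exact hv.1, by rw [hneg]; exact hv.2⟩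
    have horth : ∀ v ∈ F, ∀ w ∈ F, w ≠ v → w ≠ -v → v ⬝ᵥ (B *ᵥ w) = 0 := by
      intro v hv w hw h1 h2'
      rw [hFmem] at hv hw
      exact (key' v w (by rw [hv.1]) (by rw [hw.1]) (hv.2.trans hw.2.symm) h1 h2').2.2
    obtain ⟨P, hP⟩ : ∃ P : Finset (Finset (Fin 24 → ℤ)),
        P = F.image (fun v => ({v, -v} : Finset (Fin 24 → ℤ))) := ⟨_, rfl⟩
    have hne : ∀ p ∈ P, ∃ v ∈ F, p = {v, -v} := by
      intro p hp
      rw [hP, Finset.mem_image] at hp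
      obtain ⟨v, hv, e⟩ := hp
      exact ⟨v, hv, e.symm⟩
    choose! r hr using hne
    have hcardP : P.card ≤ 24 := by
      have hli : LinearIndependent ℤ (fun p : ↥P => r p.1) := by
        rw [Fintype.linearIndependent_iff]
        intro g hg q
        have h0 := congrArg (fun y => (r q.1) ⬝ᵥ (B *ᵥ y)) hg
        beta_reduce at h0
        rw [Matrix.mulVec_sum, dotProduct_sum, Matrix.mulVec_zero, dotProduct_zero] at h0
        rw [Finset.sum_eq_single q] at h0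
        · rw [Matrix.mulVec_smul, dotProduct_smul, ((hFmem _).mp (hr q.1 q.2).1).1] at h0
          simpa using h0
        · intro p _ hpq
          rw [Matrix.mulVec_smul, dotProduct_smul]
          have : r q.1 ⬝ᵥ (B *ᵥ r p.1) = 0 := by
            apply horth _ (hr q.1 q.2).1 _ (hr p.1 p.2).1
            · intro e
              apply hpq
              apply Subtype.ext
              rw [(hr p.1 p.2).2, (hr q.1 q.2).2, e]
            · intro e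
              apply hpq
              apply Subtype.ext
              rw [(hr p.1 p.2).2, (hr q.1 q.2).2, e, neg_neg, Finset.pair_comm]
          rw [this, smul_zero]
        · intro h; exact absurd (Finset.mem_univ q) h
      have := hli.fintype_card_le_finrank
      rw [Module.finrank_fin_fun, Fintype.card_coe] at this
      exact this
    have hsub : F ⊆ P.biUnion id := by
      intro v hv
      rw [Finset.mem_biUnion]
      exact ⟨{v, -v}, by rw [hP]; exact Finset.mem_image_of_mem _ hv, by simp⟩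
    calc F.card ≤ (P.biUnion id).card := Finset.card_le_card hsub
      _ ≤ ∑ p ∈ P, (id p).card := Finset.card_biUnion_le
      _ ≤ ∑ p ∈ P, 2 := by
          apply Finset.sum_le_sum
          intro p hp
          rw [id, (hr p hp).2]
          exact Finset.card_le_two
      _ = 2 * P.card := by rw [Finset.sum_const, smul_eq_mul, mul_comm]
      _ ≤ 48 := by omega
  have hsum : ∑ b ∈ F8.image c, (F8.filter (fun v => c v = b)).card = ∑ b ∈ F8.image c, 48 := by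
    apply le_antisymm (Finset.sum_le_sum fib48)
    rw [← Finset.card_eq_sum_card_image c F8, Finset.sum_const, smul_eq_mul, c8]
    omega
  have hall := (Finset.sum_eq_sum_iff_of_le fib48).mp hsum
  have hxm : c x ∈ F8.image c := Finset.mem_image_of_mem c ((hF8 x).mpr hx)
  have hfinal := hall (c x) hxm
  rw [← hfinal, ← Set.ncard_coe_finset]
  congr 1
  ext y
  simp only [Set.mem_setOf_eq, Finset.coe_filter, hF8]
  rw [← hc x y]
  constructor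
  · rintro ⟨a, b⟩; exact ⟨a, b.symm⟩
  · rintro ⟨a, b⟩; exact ⟨a, b.symm⟩

end Cfsg.Agent.S1588
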