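import Cfsg.Statements.S1606
import Cfsg.Agent.Lib.helper27.NoSub22

set_option autoImplicit false
open scoped Pointwise
open Cfsg

namespace Cfsg.Agent.S1606

/-- The stabiliser of two points in the group of the length-24 code has no subgroups of index 56 or 210. -/
theorem result (p q : Cfsg.GolayPt) (hpq : p ≠ q) (H : Subgroup ↥(MulAction.stabilizer Cfsg.M24 p ⊓ MulAction.stabilizer Cfsg.M24 q)) : H.index ≠ 56 ∧ H.index ≠ 210 := by
  have hG := Cfsg.Agent.Lib.helper28.card_stabilizer_pair p q hpq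
  have hidx := Subgroup.card_mul_index H
  rw [hG] at hidx
  obtain ⟨g, hgM, hg1, hg2⟩ := Cfsg.Agent.Lib.helper28.exists_mem_M24_apply₂ hpq
    (show Cfsg.Agent.Lib.helper28.pt 23 ≠ Cfsg.Agent.Lib.helper28.pt 0 by decide)
  obtain ⟨f1, hf1⟩ : ∃ f1 : ↥(MulAction.stabilizer Cfsg.M24 p ⊓ MulAction.stabilizer Cfsg.M24 q) →*
      Equiv.Perm Cfsg.GolayPt, ∀ x, f1 x = ((x : ↥Cfsg.M24) : Equiv.Perm Cfsg.GolayPt) :=
    ⟨(Subgroup.subtype Cfsg.M24).comp (Subgroup.subtype _), fun _ => rfl⟩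
  have hf1inj : Function.Injective f1 := by
    intro a b hab
    rw [hf1, hf1] at hab
    exact Subtype.ext (Subtype.ext hab)
  have hcard : Nat.card ((H.map f1).map (MulAut.conj g).toMonoidHom) = Nat.card H := by
    rw [Subgroup.card_map_of_injective (MulAut.conj g).injective,
      Subgroup.card_map_of_injective hf1inj]
  have hle : (H.map f1).map (MulAut.conj g).toMonoidHom ≤
      Cfsg.Agent.Lib.helper28.stabM [2 ^ 0, 2 ^ 23] := by
    rintro _ ⟨_, ⟨x, hx, rfl⟩, rfl⟩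
    rw [Cfsg.Agent.Lib.helper27.mem_stabM_22]
    have hx1 : (x : ↥Cfsg.M24) ∈ MulAction.stabilizer Cfsg.M24 p ⊓ MulAction.stabilizer Cfsg.M24 q :=
      x.2
    rw [Subgroup.mem_inf, MulAction.mem_stabilizer_iff, MulAction.mem_stabilizer_iff] at hx1
    have hxp : ((x : ↥Cfsg.M24) : Equiv.Perm Cfsg.GolayPt) p = p := hx1.1
    have hxq : ((x : ↥Cfsg.M24) : Equiv.Perm Cfsg.GolayPt) q = q := hx1.2
    have hgp : g⁻¹ (Cfsg.Agent.Lib.helper28.pt 23) = p := by
      rw [← hg1]; exact Equiv.symm_apply_apply g p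
    have hgq : g⁻¹ (Cfsg.Agent.Lib.helper28.pt 0) = q := by
      rw [← hg2]; exact Equiv.symm_apply_apply g q
    rw [hf1]
    refine ⟨Cfsg.M24.mul_mem (Cfsg.M24.mul_mem hgM (x : ↥Cfsg.M24).2) (Cfsg.M24.inv_mem hgM), ?_, ?_⟩
    · show g (((x : ↥Cfsg.M24) : Equiv.Perm Cfsg.GolayPt) (g⁻¹ (Cfsg.Agent.Lib.helper28.pt 23))) = _
      rw [hgp, hxp, hg1]
    · show g (((x : ↥Cfsg.M24) : Equiv.Perm Cfsg.GolayPt) (g⁻¹ (Cfsg.Agent.Lib.helper28.pt 0))) = _
      rw [hgq, hxq, hg2]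
  constructor
  · intro h56
    rw [h56] at hidx
    exact Cfsg.Agent.Lib.helper27.NS22.no_sub _ hle (Or.inl (by rw [hcard]; omega))
  · intro h210
    rw [h210] at hidx
    exact Cfsg.Agent.Lib.helper27.NS22.no_sub _ hle (Or.inr (by rw [hcard]; omega))

end Cfsg.Agent.S1606
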