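import Mathlib
import Cfsg.Statements.S1610
import Cfsg.Agent.Lib.helper17.U32

set_option autoImplicit false
open Cfsg

namespace Cfsg.Agent.S1610

open Cfsg.Agent.Lib.helper17.U32

/-- the general word of the hexacode -/
def gen {K : Type*} [Field K] (w a b c : K) : Fin 6 → K :=
  ![a * w + b * w ^ 2 + c * w ^ 2, a * w ^ 2 + b * w + c * w, a * w ^ 2 + b * w + c * w ^ 2,
    a * w + b * w ^ 2 + c * w, a * w ^ 2 + b * w ^ 2 + c * w, a * w + b * w + c * w ^ 2]

theorem gen_eq {K : Type*} [Field K] (w a b c : K) :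
    gen w a b c = a • ![w, w ^ 2, w ^ 2, w, w ^ 2, w] + b • ![w ^ 2, w, w, w ^ 2, w ^ 2, w] +
      c • ![w ^ 2, w, w ^ 2, w, w, w ^ 2] := by
  funext i
  fin_cases i <;> simp [gen]

theorem mem_hexacode_iff {K : Type*} [Field K] (w : K) (x : Fin 6 → K) :
    x ∈ Cfsg.hexacode K w ↔ ∃ a b c : K, gen w a b c = x := by
  unfold Cfsg.hexacode
  rw [Submodule.mem_span_triple]
  simp only [gen_eq]

theorem gen_map {K L : Type*} [Field K] [Field L] (e : K ≃+* L) (w a b c : K) (i : Fin 6) :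
    e (gen w a b c i) = gen (e w) (e a) (e b) (e c) i := by
  fin_cases i <;> simp [gen]

/-- the weight of a word over the concrete field -/
def wt4 (x : Fin 6 → F4) : ℕ := (Finset.univ.filter fun i => x i ≠ 0).card

/-- the general word over the concrete field -/
def gen4 (w : F4) (q : F4 × F4 × F4) : Fin 6 → F4 := gen w q.1 q.2.1 q.2.2

set_option maxRecDepth 100000 in
theorem c1 : ∀ w : F4, w ^ 2 + w + 1 = 0 → ∀ q q' : F4 × F4 × F4,
    (∀ i, gen4 w q i = gen4 w q' i) → q = q' := by decide +kernel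

set_option maxRecDepth 100000 in
theorem c2 : ∀ w : F4, w ^ 2 + w + 1 = 0 → ∀ q : F4 × F4 × F4, q ≠ 0 →
    wt4 (gen4 w q) = 4 ∨ wt4 (gen4 w q) = 6 := by decide +kernel

set_option maxRecDepth 100000 in
theorem c3 : ∀ w : F4, w ^ 2 + w + 1 = 0 →
    (Finset.univ.filter fun q : F4 × F4 × F4 => wt4 (gen4 w q) = 4).card = 45 := by decide +kernel

set_option maxRecDepth 100000 in
theorem c4 : ∀ w : F4, w ^ 2 + w + 1 = 0 →
    (Finset.univ.filter fun q : F4 × F4 × F4 => wt4 (gen4 w q) = 6).card = 18 := by decide +kernel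

theorem c0 : ∀ w : F4, gen4 w 0 = 0 := by decide

section
variable {F : Type*} [Field F] [DecidableEq F] (e : F ≃+* F4) (ω : F)

/-- parametrisation of the hexacode by triples over the concrete field -/
def Psi (q : F4 × F4 × F4) : Fin 6 → F := gen ω (e.symm q.1) (e.symm q.2.1) (e.symm q.2.2)

theorem Psi_map (q : F4 × F4 × F4) (i : Fin 6) : e (Psi e ω q i) = gen4 (e ω) q i := by
  rw [Psi, gen_map]
  simp [gen4]

theorem Psi_range (x : Fin 6 → F) : x ∈ Cfsg.hexacode F ω ↔ ∃ q, Psi e ω q = x := by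
  rw [mem_hexacode_iff]
  constructor
  · rintro ⟨a, b, c, rfl⟩
    exact ⟨(e a, e b, e c), by simp [Psi]⟩
  · rintro ⟨q, rfl⟩
    exact ⟨_, _, _, rfl⟩

theorem root_map (hω : ω ^ 2 + ω + 1 = 0) : (e ω) ^ 2 + e ω + 1 = 0 := by
  have := congrArg e hω
  simpa using this

theorem Psi_injective (hω : ω ^ 2 + ω + 1 = 0) : Function.Injective (Psi e ω) := by
  intro q q' h
  apply c1 (e ω) (root_map e ω hω)
  intro i
  rw [← Psi_map, ← Psi_map, h]

theorem wt_Psi (q : F4 × F4 × F4) :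
    (Finset.univ.filter fun i => Psi e ω q i ≠ 0).card = wt4 (gen4 (e ω) q) := by
  unfold wt4
  congr 1
  apply Finset.filter_congr
  intro i _
  rw [← Psi_map e ω q i]
  simp

theorem Psi_zero : Psi e ω 0 = 0 := by
  funext i
  apply e.injective
  rw [Psi_map, c0]
  simp

theorem count (hω : ω ^ 2 + ω + 1 = 0) (k : ℕ) :
    {x : Fin 6 → F | x ∈ Cfsg.hexacode F ω ∧ (Finset.univ.filter fun i => x i ≠ 0).card = k}.ncard =
      (Finset.univ.filter fun q : F4 × F4 × F4 => wt4 (gen4 (e ω) q) = k).card := by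
  have hset : {x : Fin 6 → F | x ∈ Cfsg.hexacode F ω ∧
      (Finset.univ.filter fun i => x i ≠ 0).card = k} =
      Psi e ω '' ((Finset.univ.filter fun q : F4 × F4 × F4 => wt4 (gen4 (e ω) q) = k) :
        Set (F4 × F4 × F4)) := by
    ext x
    simp only [Set.mem_ofPred_eq, Set.mem_image, Finset.coe_filter, Finset.mem_univ, true_and]
    constructor
    · rintro ⟨hx, hk⟩
      obtain ⟨q, rfl⟩ := (Psi_range e ω x).mp hx
      exact ⟨q, by rw [← wt_Psi]; exact hk, rfl⟩
    · rintro ⟨q, hq, rfl⟩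
      exact ⟨(Psi_range e ω _).mpr ⟨q, rfl⟩, by rw [wt_Psi]; exact hq⟩
  rw [hset, Set.ncard_image_of_injective _ (Psi_injective e ω hω), Set.ncard_coe_finset]

end

/-- The hexacode has 64 words, minimum weight 4, and weight distribution 0^1 4^45 6^18. -/
theorem result (F : Type*) [Field F] [Fintype F] [DecidableEq F] (hF : Fintype.card F = 4) (ω : F) (hω : ω ^ 2 + ω + 1 = 0) : Nat.card ↥(Cfsg.hexacode F ω) = 64 ∧ (∀ x ∈ Cfsg.hexacode F ω, x ≠ 0 → (Finset.univ.filter fun i => x i ≠ 0).card = 4 ∨ (Finset.univ.filter fun i => x i ≠ 0).card = 6) ∧ {x : Fin 6 → F | x ∈ Cfsg.hexacode F ω ∧ (Finset.univ.filter fun i => x i ≠ 0).card = 4}.ncard = 45 ∧ {x : Fin 6 → F | x ∈ Cfsg.hexacode F ω ∧ (Finset.univ.filter fun i => x i ≠ 0).card = 6}.ncard = 18 := by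
  have e : F ≃+* F4 := FiniteField.ringEquivOfCardEq (by rw [hF, F4.card])
  have hroot := root_map e ω hω
  refine ⟨?_, ?_, ?_, ?_⟩
  · have hbij : Function.Bijective (fun q : F4 × F4 × F4 =>
        (⟨Psi e ω q, (Psi_range e ω _).mpr ⟨q, rfl⟩⟩ : ↥(Cfsg.hexacode F ω))) := by
      constructor
      · intro q q' h
        exact Psi_injective e ω hω (congrArg Subtype.val h)
      · rintro ⟨x, hx⟩
        obtain ⟨q, rfl⟩ := (Psi_range e ω x).mp hx
        exact ⟨q, rfl⟩
    rw [← Nat.card_congr (Equiv.ofBijective _ hbij), Nat.card_eq_fintype_card]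
    decide
  · intro x hx hx0
    obtain ⟨q, rfl⟩ := (Psi_range e ω x).mp hx
    have hq : q ≠ 0 := by
      rintro rfl
      exact hx0 (Psi_zero e ω)
    rw [wt_Psi]
    exact c2 (e ω) hroot q hq
  · rw [count e ω hω 4]
    exact c3 (e ω) hroot
  · rw [count e ω hω 6]
    exact c4 (e ω) hroot

end Cfsg.Agent.S1610
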