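import Mathlib
import Cfsg.Statements.S1611
import Cfsg.Agent.S1610

set_option autoImplicit false
open Cfsg

namespace Cfsg.Agent.S1611

open Cfsg.Agent.Lib.helper17.U32
open Cfsg.Agent.S1610

/-! ### computations over the concrete field with four elements -/

/-- the parity checks of the hexacode -/
def chk (w : F4) (x : Fin 6 → F4) : Prop :=
  x 3 = x 0 + x 1 + x 2 ∧ x 4 = w ^ 2 * x 0 + w * x 1 + x 2 ∧ x 5 = w * x 0 + w ^ 2 * x 1 + x 2

instance (w : F4) (x : Fin 6 → F4) : Decidable (chk w x) := by unfold chk; infer_instance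

/-- a monomial map preserves the hexacode -/
def valid4 (w : F4) (s : Fin 6 → Fin 6) (d : Fin 6 → F4) : Prop :=
  ∀ q : F4 × F4 × F4, chk w (fun i => d i * gen4 w q (s i))

instance (w : F4) (s : Fin 6 → Fin 6) (d : Fin 6 → F4) : Decidable (valid4 w s d) := by
  unfold valid4; infer_instance

set_option maxRecDepth 100000 in
theorem H1 : ∀ w : F4, w ^ 2 + w + 1 = 0 → ∀ q : F4 × F4 × F4, chk w (gen4 w q) := by decide +kernel

set_option maxRecDepth 100000 in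
theorem H2 : ∀ w : F4, w ^ 2 + w + 1 = 0 → ∀ x0 x1 x2 : F4, ∃ q : F4 × F4 × F4,
    gen4 w q 0 = x0 ∧ gen4 w q 1 = x1 ∧ gen4 w q 2 = x2 := by decide +kernel

set_option maxRecDepth 100000 in
theorem F1 : ∀ w : F4, w ^ 2 + w + 1 = 0 → ∀ d0 : F4, d0 ≠ 0 → ∀ d1 : F4, d1 ≠ 0 → ∀ d2 : F4, d2 ≠ 0 →
    ∀ d3 : F4, d3 ≠ 0 → ∀ d4 : F4, d4 ≠ 0 → ∀ d5 : F4, d5 ≠ 0 →
    valid4 w id ![d0, d1, d2, d3, d4, d5] → d0 = d1 ∧ d0 = d2 ∧ d0 = d3 ∧ d0 = d4 ∧ d0 = d5 := by
  decide +kernel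

set_option synthInstance.maxSize 4096 in
set_option synthInstance.maxHeartbeats 400000 in
set_option maxRecDepth 100000 in
theorem F2 : ∀ w : F4, w ^ 2 + w + 1 = 0 → ∀ d0 : F4, d0 ≠ 0 → ∀ d1 : F4, d1 ≠ 0 → ∀ d2 : F4, d2 ≠ 0 →
    ∀ d3 : F4, d3 ≠ 0 → ∀ d4 : F4, d4 ≠ 0 → ∀ d5 : F4, d5 ≠ 0 →
    ¬ valid4 w (Equiv.swap (0 : Fin 6) 1) ![d0, d1, d2, d3, d4, d5] := by
  decide +kernel

set_option synthInstance.maxSize 4096 in
set_option synthInstance.maxHeartbeats 400000 in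
set_option maxRecDepth 100000 in
theorem F3 : ∀ w : F4, w ^ 2 + w + 1 = 0 → ∀ σ : Equiv.Perm (Fin 6), σ.support.card = 3 →
    ∃ d1 : F4, d1 ≠ 0 ∧ ∃ d2 : F4, d2 ≠ 0 ∧ ∃ d3 : F4, d3 ≠ 0 ∧ ∃ d4 : F4, d4 ≠ 0 ∧ ∃ d5 : F4, d5 ≠ 0 ∧
      valid4 w (⇑σ.symm) ![1, d1, d2, d3, d4, d5] := by decide +kernel

theorem chk_iff (w : F4) (hw : w ^ 2 + w + 1 = 0) (x : Fin 6 → F4) :
    chk w x ↔ ∃ q, gen4 w q = x := by
  constructor
  · intro h
    obtain ⟨q, h0, h1, h2⟩ := H2 w hw (x 0) (x 1) (x 2)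
    refine ⟨q, ?_⟩
    have hq := H1 w hw q
    have e3 : gen4 w q 3 = x 3 := by rw [hq.1, h.1, h0, h1, h2]
    have e4 : gen4 w q 4 = x 4 := by rw [hq.2.1, h.2.1, h0, h1, h2]
    have e5 : gen4 w q 5 = x 5 := by rw [hq.2.2, h.2.2, h0, h1, h2]
    funext i
    fin_cases i
    · exact h0
    · exact h1
    · exact h2
    · exact e3
    · exact e4
    · exact e5
  · rintro ⟨q, rfl⟩
    exact H1 w hw q

theorem vec6 {α : Type*} (d : Fin 6 → α) : d = ![d 0, d 1, d 2, d 3, d 4, d 5] := by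
  funext i
  fin_cases i <;> rfl

/-! ### monomial maps preserving the hexacode over an arbitrary field with four elements -/

/-- the monomial map with permutation `σ` and diagonal `c` preserves the hexacode -/
def V {F : Type*} [Field F] (ω : F) (σ : Equiv.Perm (Fin 6)) (c : Fin 6 → Fˣ) : Prop :=
  ∀ x ∈ Cfsg.hexacode F ω, Cfsg.monomialMap σ c x ∈ Cfsg.hexacode F ω

section
variable {F : Type*} [Field F] [DecidableEq F] (e : F ≃+* F4) (ω : F)

theorem V_iff (hω : ω ^ 2 + ω + 1 = 0) (σ : Equiv.Perm (Fin 6)) (c : Fin 6 → Fˣ) :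
    V ω σ c ↔ valid4 (e ω) (⇑σ.symm) (fun i => e (c i : F)) := by
  have hw := root_map e ω hω
  constructor
  · intro h q
    have hx : Psi e ω q ∈ Cfsg.hexacode F ω := (Psi_range e ω _).mpr ⟨q, rfl⟩
    obtain ⟨q', hq'⟩ := (Psi_range e ω _).mp (h _ hx)
    rw [chk_iff _ hw]
    refine ⟨q', ?_⟩
    funext i
    rw [← Psi_map, hq']
    show e ((c i : F) * Psi e ω q (σ.symm i)) = _
    rw [map_mul, Psi_map]
  · intro h x hx
    obtain ⟨q, rfl⟩ := (Psi_range e ω x).mp hx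
    obtain ⟨q', hq'⟩ := (chk_iff _ hw _).mp (h q)
    rw [Psi_range e ω]
    refine ⟨q', ?_⟩
    funext i
    apply e.injective
    rw [Psi_map, hq']
    show _ = e ((c i : F) * Psi e ω q (σ.symm i))
    rw [map_mul, Psi_map]

include e in
theorem scal (hω : ω ^ 2 + ω + 1 = 0) (c : Fin 6 → Fˣ) (h : V ω 1 c) : ∀ i j, c i = c j := by
  have hw := root_map e ω hω
  have h1 := (V_iff e ω hω 1 c).mp h
  rw [vec6 (fun i => e (c i : F))] at h1
  have hne : ∀ i, e (c i : F) ≠ 0 := fun i => by simp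
  have h2 := F1 (e ω) hw _ (hne 0) _ (hne 1) _ (hne 2) _ (hne 3) _ (hne 4) _ (hne 5) h1
  have key : ∀ i, c 0 = c i := by
    intro i
    apply Units.ext
    apply e.injective
    fin_cases i
    · rfl
    · exact h2.1
    · exact h2.2.1
    · exact h2.2.2.1
    · exact h2.2.2.2.1
    · exact h2.2.2.2.2
  intro i j
  rw [← key i, ← key j]

include e in
theorem noswap (hω : ω ^ 2 + ω + 1 = 0) (c : Fin 6 → Fˣ) : ¬ V ω (Equiv.swap (0 : Fin 6) 1) c := by
  intro h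
  have hw := root_map e ω hω
  have h1 := (V_iff e ω hω _ c).mp h
  rw [vec6 (fun i => e (c i : F))] at h1
  have hne : ∀ i, e (c i : F) ≠ 0 := fun i => by simp
  exact F2 (e ω) hw _ (hne 0) _ (hne 1) _ (hne 2) _ (hne 3) _ (hne 4) _ (hne 5) h1

include e in
theorem three (hω : ω ^ 2 + ω + 1 = 0) (σ : Equiv.Perm (Fin 6)) (hσ : σ.support.card = 3) :
    ∃ c : Fin 6 → Fˣ, V ω σ c := by
  have hw := root_map e ω hω
  obtain ⟨d1, h1, d2, h2, d3, h3, d4, h4, d5, h5, hv⟩ := F3 (e ω) hw σ hσ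
  have u : ∀ d : F4, d ≠ 0 → ∃ c : Fˣ, e (c : F) = d := by
    intro d hd
    exact ⟨Units.mk0 (e.symm d) (by simpa using hd), by simp⟩
  obtain ⟨c1, hc1⟩ := u d1 h1
  obtain ⟨c2, hc2⟩ := u d2 h2
  obtain ⟨c3, hc3⟩ := u d3 h3
  obtain ⟨c4, hc4⟩ := u d4 h4
  obtain ⟨c5, hc5⟩ := u d5 h5
  refine ⟨![1, c1, c2, c3, c4, c5], ?_⟩
  rw [V_iff e ω hω, vec6 (fun i => e ((![1, c1, c2, c3, c4, c5] i : Fˣ) : F))]
  have e0 : e (((![1, c1, c2, c3, c4, c5] : Fin 6 → Fˣ) 0 : Fˣ) : F) = 1 := by simp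
  have e1 : e (((![1, c1, c2, c3, c4, c5] : Fin 6 → Fˣ) 1 : Fˣ) : F) = d1 := hc1
  have e2 : e (((![1, c1, c2, c3, c4, c5] : Fin 6 → Fˣ) 2 : Fˣ) : F) = d2 := hc2
  have e3 : e (((![1, c1, c2, c3, c4, c5] : Fin 6 → Fˣ) 3 : Fˣ) : F) = d3 := hc3
  have e4 : e (((![1, c1, c2, c3, c4, c5] : Fin 6 → Fˣ) 4 : Fˣ) : F) = d4 := hc4
  have e5 : e (((![1, c1, c2, c3, c4, c5] : Fin 6 → Fˣ) 5 : Fˣ) : F) = d5 := hc5
  rw [e0, e1, e2, e3, e4, e5]
  exact hv

end

/-! ### the group of monomial automorphisms -/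

section
variable {F : Type*} [Field F] [Fintype F] (ω : F)

theorem V_mul {σ τ : Equiv.Perm (Fin 6)} {c d : Fin 6 → Fˣ} (hσ : V ω σ c) (hτ : V ω τ d) :
    V ω (σ * τ) (fun i => c i * d (σ.symm i)) := by
  intro x hx
  have h2 := hσ _ (hτ x hx)
  have e1 : Cfsg.monomialMap (σ * τ) (fun i => c i * d (σ.symm i)) x =
      Cfsg.monomialMap σ c (Cfsg.monomialMap τ d x) := by
    funext i
    show ((c i * d (σ.symm i) : Fˣ) : F) * x (τ.symm (σ.symm i)) =
      (c i : F) * ((d (σ.symm i) : F) * x (τ.symm (σ.symm i)))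
    rw [Units.val_mul, mul_assoc]
  rw [e1]
  exact h2

theorem V_surj {σ : Equiv.Perm (Fin 6)} {c : Fin 6 → Fˣ} (h : V ω σ c) :
    ∀ y ∈ Cfsg.hexacode F ω, ∃ x ∈ Cfsg.hexacode F ω, Cfsg.monomialMap σ c x = y := by
  let f : ↥(Cfsg.hexacode F ω) → ↥(Cfsg.hexacode F ω) :=
    fun x => ⟨Cfsg.monomialMap σ c x.1, h x.1 x.2⟩
  have hf : Function.Injective f := by
    intro x x' hxx
    apply Subtype.ext
    funext j
    have h1 := congrFun (congrArg Subtype.val hxx) (σ j)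
    have h2 : (c (σ j) : F) * x.1 (σ.symm (σ j)) = (c (σ j) : F) * x'.1 (σ.symm (σ j)) := h1
    rw [Equiv.symm_apply_apply] at h2
    exact mul_left_cancel₀ (Units.ne_zero _) h2
  have hs := Finite.injective_iff_surjective.mp hf
  intro y hy
  obtain ⟨x, hx⟩ := hs ⟨y, hy⟩
  exact ⟨x.1, x.2, congrArg Subtype.val hx⟩

theorem V_div {σ : Equiv.Perm (Fin 6)} {c c' : Fin 6 → Fˣ} (h : V ω σ c) (h' : V ω σ c') :
    V ω 1 (fun i => c' i * (c i)⁻¹) := by
  intro y hy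
  obtain ⟨x, hx, rfl⟩ := V_surj ω h y hy
  have e1 : Cfsg.monomialMap 1 (fun i => c' i * (c i)⁻¹) (Cfsg.monomialMap σ c x) =
      Cfsg.monomialMap σ c' x := by
    funext i
    show ((c' i * (c i)⁻¹ : Fˣ) : F) * ((c i : F) * x (σ.symm i)) = (c' i : F) * x (σ.symm i)
    rw [Units.val_mul, mul_assoc, ← mul_assoc (((c i)⁻¹ : Fˣ) : F), Units.inv_mul, one_mul]
  rw [e1]
  exact h' x hx

theorem V_smul {σ : Equiv.Perm (Fin 6)} {c : Fin 6 → Fˣ} (h : V ω σ c) (l : Fˣ) :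
    V ω σ (fun i => l * c i) := by
  intro x hx
  have h1 := (Cfsg.hexacode F ω).smul_mem (l : F) (h x hx)
  have e1 : Cfsg.monomialMap σ (fun i => l * c i) x = (l : F) • Cfsg.monomialMap σ c x := by
    funext i
    show ((l * c i : Fˣ) : F) * x (σ.symm i) = (l : F) * ((c i : F) * x (σ.symm i))
    rw [Units.val_mul, mul_assoc]
  rw [e1]
  exact h1

theorem V_inv {σ : Equiv.Perm (Fin 6)} {c : Fin 6 → Fˣ} (h : V ω σ c) :
    V ω σ⁻¹ (fun i => (c (σ i))⁻¹) := by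
  intro y hy
  obtain ⟨x, hx, rfl⟩ := V_surj ω h y hy
  have e1 : Cfsg.monomialMap σ⁻¹ (fun i => (c (σ i))⁻¹) (Cfsg.monomialMap σ c x) = x := by
    funext i
    show (((c (σ i))⁻¹ : Fˣ) : F) * ((c (σ i) : F) * x (σ.symm (σ i))) = x i
    rw [Equiv.symm_apply_apply, ← mul_assoc, Units.inv_mul, one_mul]
  rw [e1]
  exact hx

/-- the permutation parts of the monomial automorphisms -/
def K : Subgroup (Equiv.Perm (Fin 6)) where
  carrier := {σ | ∃ c : Fin 6 → Fˣ, V ω σ c}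
  mul_mem' := by
    rintro σ τ ⟨c, hc⟩ ⟨d, hd⟩
    exact ⟨_, V_mul ω hc hd⟩
  one_mem' := by
    refine ⟨fun _ => 1, ?_⟩
    intro x hx
    have e1 : Cfsg.monomialMap 1 (fun _ => (1 : Fˣ)) x = x := by
      funext i
      show ((1 : Fˣ) : F) * x i = x i
      rw [Units.val_one, one_mul]
    rw [e1]
    exact hx
  inv_mem' := by
    rintro σ ⟨c, hc⟩
    exact ⟨_, V_inv ω hc⟩

end

/-- The monomial automorphism group of the hexacode has order 1080: its diagonal part is the scalars and its permutation parts form the alternating group of degree 6. -/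
theorem result (F : Type*) [Field F] [Fintype F] [DecidableEq F] (hF : Fintype.card F = 4) (ω : F) (hω : ω ^ 2 + ω + 1 = 0) : Nat.card {f : Equiv.Perm (Fin 6) × (Fin 6 → Fˣ) // (∀ x ∈ Cfsg.hexacode F ω, Cfsg.monomialMap f.1 f.2 x ∈ Cfsg.hexacode F ω)} = 1080 ∧ (∀ c : Fin 6 → Fˣ, (∀ x ∈ Cfsg.hexacode F ω, Cfsg.monomialMap 1 c x ∈ Cfsg.hexacode F ω) → ∀ i j, c i = c j) ∧ {σ : Equiv.Perm (Fin 6) | ∃ c : Fin 6 → Fˣ, (∀ x ∈ Cfsg.hexacode F ω, Cfsg.monomialMap σ c x ∈ Cfsg.hexacode F ω)} = (alternatingGroup (Fin 6) : Set (Equiv.Perm (Fin 6))) := by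
  have e : F ≃+* F4 := FiniteField.ringEquivOfCardEq (by rw [hF, F4.card])
  -- the permutation parts form the alternating group
  have hK : K ω = alternatingGroup (Fin 6) := by
    apply le_antisymm
    · intro σ hσ
      by_contra hodd
      rw [Equiv.Perm.mem_alternatingGroup] at hodd
      have hs : Equiv.Perm.sign σ = -1 := (Int.units_eq_one_or _).resolve_left hodd
      have h1 : σ⁻¹ * Equiv.swap (0 : Fin 6) 1 ∈ alternatingGroup (Fin 6) := by
        rw [Equiv.Perm.mem_alternatingGroup, map_mul, map_inv, hs,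
          Equiv.Perm.sign_swap (by decide)]
        rfl
      have h2 : σ⁻¹ * Equiv.swap (0 : Fin 6) 1 ∈ K ω := by
        have h3 : alternatingGroup (Fin 6) ≤ K ω := by
          rw [← Equiv.Perm.closure_three_cycles_eq_alternating, Subgroup.closure_le]
          intro τ hτ
          exact three e ω hω τ (card_support_eq_three_iff.mpr hτ)
        exact h3 h1
      have h4 := (K ω).mul_mem hσ h2
      rw [mul_inv_cancel_left] at h4
      obtain ⟨c, hc⟩ := h4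
      exact noswap e ω hω c hc
    · rw [← Equiv.Perm.closure_three_cycles_eq_alternating, Subgroup.closure_le]
      intro τ hτ
      exact three e ω hω τ (card_support_eq_three_iff.mpr hτ)
  have hmem : ∀ σ : Equiv.Perm (Fin 6), σ ∈ alternatingGroup (Fin 6) ↔ ∃ c : Fin 6 → Fˣ, V ω σ c := by
    intro σ
    rw [← hK]
    rfl
  refine ⟨?_, ?_, ?_⟩
  · choose! c0 hc0 using fun σ (h : σ ∈ alternatingGroup (Fin 6)) => (hmem σ).mp h
    let g : ↥(alternatingGroup (Fin 6)) × Fˣ →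
        {f : Equiv.Perm (Fin 6) × (Fin 6 → Fˣ) //
          (∀ x ∈ Cfsg.hexacode F ω, Cfsg.monomialMap f.1 f.2 x ∈ Cfsg.hexacode F ω)} :=
      fun p => ⟨(p.1.1, fun i => p.2 * c0 p.1.1 i), V_smul ω (hc0 _ p.1.2) p.2⟩
    have hg : Function.Bijective g := by
      constructor
      · rintro ⟨⟨σ, hσ⟩, l⟩ ⟨⟨σ', hσ'⟩, l'⟩ h
        have h1 : (σ, fun i => l * c0 σ i) = (σ', fun i => l' * c0 σ' i) := congrArg Subtype.val h
        have h2 : σ = σ' := congrArg Prod.fst h1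
        subst h2
        have h3 : l * c0 σ 0 = l' * c0 σ 0 := congrFun (congrArg Prod.snd h1) 0
        have h4 : l = l' := mul_right_cancel h3
        rw [h4]
      · rintro ⟨⟨σ, c⟩, hv⟩
        have hσ : σ ∈ alternatingGroup (Fin 6) := (hmem σ).mpr ⟨c, hv⟩
        have h3 := V_div ω (hc0 σ hσ) hv
        have hs := scal e ω hω _ h3
        refine ⟨(⟨σ, hσ⟩, c 0 * (c0 σ 0)⁻¹), ?_⟩
        apply Subtype.ext
        show (σ, fun i => c 0 * (c0 σ 0)⁻¹ * c0 σ i) = (σ, c)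
        congr 1
        funext i
        rw [← hs i 0, inv_mul_cancel_right]
    rw [← Nat.card_congr (Equiv.ofBijective g hg), Nat.card_prod, nat_card_alternatingGroup,
      Nat.card_units, Nat.card_eq_fintype_card (α := F), hF, Nat.card_eq_fintype_card,
      Fintype.card_fin]
    decide
  · intro c hc i j
    exact scal e ω hω c hc i j
  · ext σ
    exact (hmem σ).symm

end Cfsg.Agent.S1611
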