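import Cfsg.Statements.S1612

import Cfsg.Agent.Lib.helper8.Fischer
import Cfsg.Agent.S1613
set_option autoImplicit false
open Cfsg

namespace Cfsg.Agent.S1612

open Cfsg.Agent.Lib.helper8
open scoped Pointwise

/-- In a 3-transposition group (no solvable normal subgroup, perfect derived group), the normaliser of a commuting set of transpositions of maximum size contains a Sylow 2-subgroup and is doubly transitive on the set. -/
theorem result {G : Type*} [Group G] [Finite G] (hsol : ∀ N : Subgroup G, N.Normal → Group.IsSolvable ↥N → N = ⊥) (hperf : ⁅commutator G, commutator G⁆ = commutator G) {D : Set G} (hD : Cfsg.IsThreeTranspositionClass D) {E : Set G} (hE : E ⊆ D) (hc : ∀ a ∈ E, ∀ b ∈ E, Commute a b) (hmax : ∀ E' : Set G, E' ⊆ D → (∀ a ∈ E', ∀ b ∈ E', Commute a b) → E'.ncard ≤ E.ncard) : (∃ P : Sylow 2 G, (P : Subgroup G) ≤ Subgroup.normalizer E) ∧ ∀ a ∈ E, ∀ b ∈ E, ∀ c ∈ E, ∀ d ∈ E, a ≠ b → c ≠ d → ∃ g ∈ Subgroup.normalizer E, g * a * g⁻¹ = c ∧ g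 * b * g⁻¹ = d := by

  classical
  have hs := hD.1
  have hcl := tt_class_closed hD
  have hAcomm : ∀ a ∈ Subgroup.closure E, ∀ b ∈ Subgroup.closure E, a * b = b * a := by
    haveI := Subgroup.isMulCommutative_closure (k := E) (fun a ha b hb => (hc a ha b hb).eq)
    intro a ha b hb
    exact congrArg Subtype.val (mul_comm' (⟨a, ha⟩ : Subgroup.closure E) ⟨b, hb⟩)
  have hAsq : ∀ a ∈ Subgroup.closure E, a * a = 1 := by
    intro a ha
    induction ha using Subgroup.closure_induction with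
    | mem e he => exact tt_sq hs (hE he)
    | one => simp
    | mul a b ha hb iha ihb =>
      have hab : a * b = b * a := hAcomm a ha b hb
      calc a * b * (a * b) = a * (b * a) * b := by group
        _ = a * (a * b) * b := by rw [hab]
        _ = (a * a) * (b * b) := by group
        _ = 1 := by rw [iha, ihb, one_mul]
    | inv a ha iha =>
      calc a⁻¹ * a⁻¹ = (a * a)⁻¹ := by group
        _ = 1 := by rw [iha, inv_one]
  have hA2 : IsPGroup 2 (Subgroup.closure E) := by
    intro g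
    refine ⟨1, ?_⟩
    apply Subtype.ext
    rw [pow_one, pow_two]
    exact hAsq g.1 g.2
  have hL1 : ∀ R : Subgroup G, IsPGroup 2 R → E ⊆ (R : Set G) → ∀ d ∈ D, d ∈ R → d ∈ E := by
    intro R hR hER d hd hdR
    have hcomm' : ∀ a ∈ {d | d ∈ D ∧ d ∈ R}, ∀ b ∈ {d | d ∈ D ∧ d ∈ R}, Commute a b := by
      rintro a ⟨ha, haR⟩ b ⟨hb, hbR⟩
      by_contra hnc
      have h3 := tt_cube hs ha hb hnc
      obtain ⟨k, hk⟩ := hR ⟨a * b, R.mul_mem haR hbR⟩
      have hk' : (a * b) ^ 2 ^ k = 1 := congrArg Subtype.val hk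
      have h1 : orderOf (a * b) ∣ 3 := orderOf_dvd_of_pow_eq_one h3
      have h2 : orderOf (a * b) ∣ 2 ^ k := orderOf_dvd_of_pow_eq_one hk'
      have h4 : orderOf (a * b) ∣ Nat.gcd 3 (2 ^ k) := Nat.dvd_gcd h1 h2
      have h5 : Nat.gcd 3 (2 ^ k) = 1 := by
        apply Nat.Coprime.pow_right
        norm_num
      rw [h5, Nat.dvd_one, orderOf_eq_one_iff] at h4
      have h6 : a = b := by
        have h7 := eq_inv_of_mul_eq_one_left h4
        rw [h7, tt_inv hs hb]
      subst h6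
      exact hnc (Commute.refl a)
    have hle := hmax {d | d ∈ D ∧ d ∈ R} (fun d hd => hd.1) hcomm'
    have heq := Set.eq_of_subset_of_ncard_le
      (fun e he => (⟨hE he, hER he⟩ : e ∈ {d | d ∈ D ∧ d ∈ R})) hle (Set.toFinite _)
    rw [heq]; exact ⟨hd, hdR⟩
  have hnorm : ∀ k : G, (∀ e ∈ E, k * e * k⁻¹ ∈ E) → k ∈ Subgroup.normalizer E := by
    intro k hk
    rw [Subgroup.mem_normalizer_iff_conj_image_eq]
    apply Set.eq_of_subset_of_ncard_le
    · rintro _ ⟨e, he, rfl⟩
      simpa [MulAut.conj_apply] using hk e he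
    · rw [Set.ncard_image_of_injective _ (MulAut.conj k).injective]
    · exact Set.toFinite _
  have hL2 : ∀ X : Subgroup G, ∀ g : G, E ⊆ (X : Set G) → (∀ e ∈ E, g * e * g⁻¹ ∈ X) →
      ∃ h ∈ X, ∀ e ∈ E, h * (g * e * g⁻¹) * h⁻¹ ∈ E := by
    intro X g hEX hgX
    have hA'2 : IsPGroup 2 ((Subgroup.closure E).map (MulAut.conj g).toMonoidHom) := hA2.map _
    obtain ⟨Q, hQ⟩ := (hA2.comap_subtype (K := X)).exists_le_sylow
    obtain ⟨Q', hQ'⟩ := (hA'2.comap_subtype (K := X)).exists_le_sylow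
    obtain ⟨h, hh⟩ := MulAction.exists_smul_eq X Q' Q
    refine ⟨h.1, h.2, ?_⟩
    intro e he
    have hR2 : IsPGroup 2 ((Q : Subgroup X).map X.subtype) := Q.isPGroup'.map _
    have hER : E ⊆ (((Q : Subgroup X).map X.subtype : Subgroup G) : Set G) := by
      intro e' he'
      exact ⟨⟨e', hEX he'⟩, hQ (show (⟨e', hEX he'⟩ : X) ∈ (Subgroup.closure E).comap X.subtype
        from Subgroup.subset_closure he'), rfl⟩
    apply hL1 _ hR2 hER _ (hcl _ _ (hcl g e (hE he)))
    have h1 : (⟨g * e * g⁻¹, hgX e he⟩ : X) ∈ Q' := by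
      apply hQ'
      show g * e * g⁻¹ ∈ (Subgroup.closure E).map (MulAut.conj g).toMonoidHom
      exact ⟨e, Subgroup.subset_closure he, rfl⟩
    have h2 : MulAut.conj h • (⟨g * e * g⁻¹, hgX e he⟩ : X) ∈ MulAut.conj h • (Q' : Subgroup X) :=
      Subgroup.smul_mem_pointwise_smul _ _ _ h1
    rw [← Sylow.coe_subgroup_smul, hh] at h2
    exact ⟨_, h2, rfl⟩
  refine ⟨?_, ?_⟩
  · obtain ⟨P, hAP⟩ := hA2.exists_le_sylow
    refine ⟨P, ?_⟩
    intro g hg
    apply hnorm
    intro e he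
    exact hL1 P P.isPGroup' (fun e' he' => hAP (Subgroup.subset_closure he')) _ (hcl g e (hE he))
      (Subgroup.mul_mem _ (Subgroup.mul_mem _ hg (hAP (Subgroup.subset_closure he)))
        (Subgroup.inv_mem _ hg))
  · have htrans1 : ∀ a ∈ E, ∀ c ∈ E, ∃ g ∈ Subgroup.normalizer E, g * a * g⁻¹ = c := by
      intro a ha c hc'
      obtain ⟨g, hg⟩ := tt_class_trans hD (hE ha) (hE hc')
      have hEX : E ⊆ ((Subgroup.centralizer {c} : Subgroup G) : Set G) := by
        intro e he
        exact Subgroup.mem_centralizer_singleton_iff.mpr (hc e he c hc').eq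
      have hgX : ∀ e ∈ E, g * e * g⁻¹ ∈ Subgroup.centralizer {c} := by
        intro e he
        apply Subgroup.mem_centralizer_singleton_iff.mpr
        rw [← hg]
        have h1 : e * a = a * e := (hc e he a ha).eq
        calc g * e * g⁻¹ * (g * a * g⁻¹) = g * (e * a) * g⁻¹ := by group
          _ = g * (a * e) * g⁻¹ := by rw [h1]
          _ = g * a * g⁻¹ * (g * e * g⁻¹) := by group
      obtain ⟨h, hhX, hh⟩ := hL2 (Subgroup.centralizer {c}) g hEX hgX
      refine ⟨h * g, hnorm _ ?_, ?_⟩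
      · intro e he
        have e1 : h * g * e * (h * g)⁻¹ = h * (g * e * g⁻¹) * h⁻¹ := by group
        rw [e1]; exact hh e he
      · have e1 : h * g * a * (h * g)⁻¹ = h * (g * a * g⁻¹) * h⁻¹ := by group
        have h3 := Subgroup.mem_centralizer_singleton_iff.mp hhX
        rw [e1, hg, h3, mul_inv_cancel_right]
    have htrans2 : ∀ a ∈ E, ∀ b ∈ E, ∀ d ∈ E, b ≠ a → d ≠ a →
        ∃ g ∈ Subgroup.normalizer E, g * a * g⁻¹ = a ∧ g * b * g⁻¹ = d := by
      intro a ha b hb d hd hba hda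
      have hbS : b ∈ {y : G | y ∈ D ∧ y ≠ a ∧ Commute a y} := ⟨hE hb, hba, hc a ha b hb⟩
      have hdS : d ∈ {y : G | y ∈ D ∧ y ≠ a ∧ Commute a y} := ⟨hE hd, hda, hc a ha d hd⟩
      obtain ⟨g, hgcl, hg⟩ := Cfsg.Agent.S1613.result hsol hperf hD a (hE ha) b hbS d hdS
      have hga : g * a = a * g := by
        have hle : Subgroup.closure {y : G | y ∈ D ∧ y ≠ a ∧ Commute a y}
            ≤ Subgroup.centralizer {a} := by
          rw [Subgroup.closure_le]
          intro y hy
          exact Subgroup.mem_centralizer_singleton_iff.mpr hy.2.2.eq.symm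
        exact Subgroup.mem_centralizer_singleton_iff.mp (hle hgcl)
      have hga' : g⁻¹ * a = a * g⁻¹ := by
        calc g⁻¹ * a = g⁻¹ * (a * g) * g⁻¹ := by group
          _ = g⁻¹ * (g * a) * g⁻¹ := by rw [hga]
          _ = a * g⁻¹ := by group
      have hEX : E ⊆ ((Subgroup.centralizer {a} ⊓ Subgroup.centralizer {d} : Subgroup G) : Set G) := by
        intro e he
        exact Subgroup.mem_inf.mpr ⟨Subgroup.mem_centralizer_singleton_iff.mpr (hc e he a ha).eq,
          Subgroup.mem_centralizer_singleton_iff.mpr (hc e he d hd).eq⟩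
      have hgX : ∀ e ∈ E, g * e * g⁻¹ ∈ Subgroup.centralizer {a} ⊓ Subgroup.centralizer {d} := by
        intro e he
        refine Subgroup.mem_inf.mpr ⟨Subgroup.mem_centralizer_singleton_iff.mpr ?_,
          Subgroup.mem_centralizer_singleton_iff.mpr ?_⟩
        · have h1 : e * a = a * e := (hc e he a ha).eq
          calc g * e * g⁻¹ * a = g * e * (g⁻¹ * a) := by group
            _ = g * e * (a * g⁻¹) := by rw [hga']
            _ = g * (e * a) * g⁻¹ := by group
            _ = g * (a * e) * g⁻¹ := by rw [h1]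
            _ = (g * a) * e * g⁻¹ := by group
            _ = (a * g) * e * g⁻¹ := by rw [hga]
            _ = a * (g * e * g⁻¹) := by group
        · rw [← hg]
          have h1 : e * b = b * e := (hc e he b hb).eq
          calc g * e * g⁻¹ * (g * b * g⁻¹) = g * (e * b) * g⁻¹ := by group
            _ = g * (b * e) * g⁻¹ := by rw [h1]
            _ = g * b * g⁻¹ * (g * e * g⁻¹) := by group
      obtain ⟨h, hhX, hh⟩ := hL2 _ g hEX hgX
      have hha := Subgroup.mem_centralizer_singleton_iff.mp (Subgroup.mem_inf.mp hhX).1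
      have hhd := Subgroup.mem_centralizer_singleton_iff.mp (Subgroup.mem_inf.mp hhX).2
      refine ⟨h * g, hnorm _ ?_, ?_, ?_⟩
      · intro e he
        have e1 : h * g * e * (h * g)⁻¹ = h * (g * e * g⁻¹) * h⁻¹ := by group
        rw [e1]; exact hh e he
      · calc h * g * a * (h * g)⁻¹ = h * ((g * a) * g⁻¹) * h⁻¹ := by group
          _ = h * ((a * g) * g⁻¹) * h⁻¹ := by rw [hga]
          _ = (h * a) * h⁻¹ := by group
          _ = (a * h) * h⁻¹ := by rw [hha]
          _ = a := by group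
      · calc h * g * b * (h * g)⁻¹ = h * (g * b * g⁻¹) * h⁻¹ := by group
          _ = (h * d) * h⁻¹ := by rw [hg]
          _ = (d * h) * h⁻¹ := by rw [hhd]
          _ = d := by group
    intro a ha b hb c hc' d hd hab hcd
    obtain ⟨g₁, hg₁, hg₁a⟩ := htrans1 a ha c hc'
    have hb' : g₁ * b * g₁⁻¹ ∈ E := ((Subgroup.mem_set_normalizer_iff).mp hg₁ b).mp hb
    have hb'c : g₁ * b * g₁⁻¹ ≠ c := by
      intro h
      apply hab
      rw [← hg₁a] at h
      calc a = g₁⁻¹ * (g₁ * a * g₁⁻¹) * g₁ := by group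
        _ = g₁⁻¹ * (g₁ * b * g₁⁻¹) * g₁ := by rw [h]
        _ = b := by group
    obtain ⟨g₂, hg₂, hg₂c, hg₂b⟩ := htrans2 c hc' _ hb' d hd hb'c (fun h => hcd h.symm)
    refine ⟨g₂ * g₁, Subgroup.mul_mem _ hg₂ hg₁, ?_, ?_⟩
    · calc g₂ * g₁ * a * (g₂ * g₁)⁻¹ = g₂ * (g₁ * a * g₁⁻¹) * g₂⁻¹ := by group
        _ = c := by rw [hg₁a, hg₂c]
    · calc g₂ * g₁ * b * (g₂ * g₁)⁻¹ = g₂ * (g₁ * b * g₁⁻¹) * g₂⁻¹ := by group
        _ = d := hg₂b

end Cfsg.Agent.S1612
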