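import Cfsg.Statements.S1615

import Cfsg.Agent.Lib.helper8.Fischer
import Cfsg.Agent.Lib.helper8.FischerK
import Cfsg.Agent.Lib.helper8.FischerO3
import Cfsg.Agent.Lib.helper8.FischerS5
set_option autoImplicit false
open Cfsg

namespace Cfsg.Agent.S1615

open Cfsg.Agent.Lib.helper8

/-- If O(⟨D_x⟩) is not central in ⟨D_x⟩ for some transposition x, the 3-transposition group is the symmetric group of degree 5. -/
theorem result {G : Type*} [Group G] [Finite G] (hsol : ∀ N : Subgroup G, N.Normal → Group.IsSolvable ↥N → N = ⊥) (hperf : ⁅commutator G, commutator G⁆ = commutator G) {D : Set G} (hD : Cfsg.IsThreeTranspositionClass D) (x : G) (hx : x ∈ D) (h : ¬ Cfsg.oddCore ↥(Subgroup.closure {y : G | y ∈ D ∧ y ≠ x ∧ Commute x y}) ≤ Subgroup.center ↥(Subgroup.closure {y : G | y ∈ D ∧ y ≠ x ∧ Commute x y})) : Nonempty (G ≃* Equiv.Perm (Fin 5)) := by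

  classical
  have hs := hD.1
  have hcl := tt_class_closed hD
  have hK1 := fo_K1 hsol hperf hD hx h
  have hpair : ∀ p ∈ D, ∀ c ∈ ttDc D p, ∀ d ∈ ttDc D p, c ≠ d → ¬ Commute c d :=
    fun p hp c hc d hd hne =>
      fk_ncomm hs hK1 hp hc.1 hd.1 hne (fk_m1 hsol hperf hD hK1 hp hc hd)
  have hex : ∀ p ∈ D, ∀ d ∈ ttDc D p, ∃ d' ∈ ttDc D p, d' ≠ d := by
    intro p hp d hd
    obtain ⟨d', hd', hne, -⟩ := fk_exists hs hcl hK1 hp hd
    exact ⟨d', hd', hne⟩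
  obtain ⟨c0, hc0⟩ := fo_nonempty h
  have hR3 : ∀ p ∈ D, IsPGroup 3 ↥(foR D p) := by
    intro p hp
    obtain ⟨g, rfl⟩ := tt_class_trans hD hx hp
    exact fo_R3 hs hcl (hpair _ hp) ⟨g * c0 * g⁻¹, fo_Dc_conj hcl g hc0⟩
  have hZ : ∀ p ∈ D, ∀ d ∈ ttDc D p, foZ D p = ⊥ :=
    fun p hp d hd => fo_Z_bot hsol hperf hD hR3 hpair hex hp hd
  have hab : ∀ p ∈ D, ∀ a ∈ foR D p, ∀ b ∈ foR D p, a * b = b * a := by
    intro p hp
    obtain ⟨g, rfl⟩ := tt_class_trans hD hx hp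
    exact fo_R_ab hsol hperf hD hR3 hex hZ hp (fo_Dc_conj hcl g hc0)
  have htf : ∀ d ∈ D, ∀ f ∈ D, ¬ Commute d f → ∀ x ∈ ttDc D d, ∀ y ∈ ttDc D d,
      Commute f x → Commute f y → x ≠ y → False :=
    fun d hd f hf hdf x hx y hy hxf hyf hxy =>
      fo_tf hsol hperf hD hpair hab hd hf hdf hx hy hxf hyf hxy
  have hlines : ∀ x ∈ D, ∀ d ∈ ttDc D x, ∀ e ∈ ttDc D x, ∀ f ∈ ttDc D x, d ≠ e →
      f = d ∨ f = e ∨ f = d * e * d :=
    fun x hx d hd e he f hf hde => fo_lines hsol hperf hD hpair hex hab hx hd he hf hde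
  exact fo_S5 hsol hperf hD hpair hex htf hlines hx hc0

end Cfsg.Agent.S1615
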