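import Cfsg.Statements.S1629
-- import your own Cfsg.Agent.* helpers here
import Cfsg.Agent.Lib.helper4.OrthF2
import Cfsg.Agent.S2562

set_option autoImplicit false
open scoped MatrixGroups
open Cfsg

namespace Cfsg.Agent.S1629

/-- The orthogonal transvections of the plus-type orthogonal group in dimension 2m ≥ 6 over the field with two elements form a generating conjugacy class of 3-transpositions. -/
theorem result (m : ℕ) (hm : 3 ≤ m) : Cfsg.IsThreeTranspositionClass {g : ↥(Cfsg.isometryGroup (ZMod 2) (Cfsg.quadFormPlus m (ZMod 2))) | (((g : GL (Fin m ⊕ Fin m) (ZMod 2)) : Matrix (Fin m ⊕ Fin m) (Fin m ⊕ Fin m) (ZMod 2)) - 1).rank = 1} := by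
  classical
  have h : Cfsg.quadFormPlus m (ZMod 2) = ⇑(Cfsg.Agent.S2562.qP (ZMod 2) m) :=
    funext fun v => (Cfsg.Agent.S2562.qP_apply m v).symm
  rw [h]
  have hcard : Fintype.card (Fin m ⊕ Fin m) ≠ 4 := by
    rw [Fintype.card_sum, Fintype.card_fin]
    omega
  refine Cfsg.Agent.Lib.helper4.three_transp_f2 hcard _ (Cfsg.Agent.S2562.nondeg_qP m)
    (Sum.elim (Pi.single (⟨0, by omega⟩ : Fin m) 1) (Pi.single (⟨0, by omega⟩ : Fin m) 1)) ?_
  rw [Cfsg.Agent.S2562.qP_apply]
  unfold Cfsg.quadFormPlus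
  rw [Finset.sum_eq_single (⟨0, by omega⟩ : Fin m)]
  · simp
  · intro b _ hb
    simp [hb]
  · intro hb
    exact absurd (Finset.mem_univ _) hb

end Cfsg.Agent.S1629
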