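import Cfsg.Statements.S1630
-- import your own Cfsg.Agent.* helpers here
import Cfsg.Agent.Lib.helper4.OrthF2
import Cfsg.Agent.S2562

set_option autoImplicit false
open scoped MatrixGroups
open Cfsg

namespace Cfsg.Agent.S1630

/-- The orthogonal transvections of the minus-type orthogonal group in dimension ≥ 6 over the field with two elements form a generating conjugacy class of 3-transpositions. -/
theorem result (m : ℕ) (hm : 2 ≤ m) : Cfsg.IsThreeTranspositionClass {g : ↥(Cfsg.isometryGroup (ZMod 2) (Cfsg.quadFormMinus m (ZMod 2) 1 1)) | (((g : GL ((Fin m ⊕ Fin m) ⊕ Fin 2) (ZMod 2)) : Matrix ((Fin m ⊕ Fin m) ⊕ Fin 2) ((Fin m ⊕ Fin m) ⊕ Fin 2) (ZMod 2)) - 1).rank = 1} := by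
  classical
  have h : Cfsg.quadFormMinus m (ZMod 2) 1 1 = ⇑(Cfsg.Agent.S2562.qM (ZMod 2) m 1) :=
    funext fun v => (Cfsg.Agent.S2562.qM_apply m 1 v).symm
  rw [h]
  have hcard : Fintype.card ((Fin m ⊕ Fin m) ⊕ Fin 2) ≠ 4 := by
    rw [Fintype.card_sum, Fintype.card_sum, Fintype.card_fin, Fintype.card_fin]
    omega
  have hζ : ∀ t : ZMod 2, t ^ 2 + t + 1 ≠ 0 := by decide
  refine Cfsg.Agent.Lib.helper4.three_transp_f2 hcard _ (Cfsg.Agent.S2562.nondeg_qM m 1 hζ)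
    (Pi.single (Sum.inr 0) 1) ?_
  rw [Cfsg.Agent.S2562.qM_apply]
  unfold Cfsg.quadFormMinus
  simp

end Cfsg.Agent.S1630
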