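import Cfsg.Statements.S1631
-- import your own Cfsg.Agent.* helpers here
import Cfsg.Agent.Lib.helper4.UThree

set_option autoImplicit false
open scoped MatrixGroups
open Cfsg

namespace Cfsg.Agent.S1631

/-- The unitary transvections of SU(n, 2), n ≥ 4, form a generating conjugacy class of 3-transpositions. -/
theorem result (F : Type) [Field F] [Fintype F] [DecidableEq F] (hF : Fintype.card F = 4) (n : ℕ) (hn : 4 ≤ n) : Cfsg.IsThreeTranspositionClass {g : ↥(Cfsg.SU n F 2) | (((g : Matrix.SpecialLinearGroup (Fin n) F) : Matrix (Fin n) (Fin n) F) - 1).rank = 1} := by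
  classical
  have hF2 : Fintype.card F = 2 ^ 2 := by rw [hF]; norm_num
  have hD : ∀ g : ↥(Cfsg.SU n F 2), g ∈ {g : ↥(Cfsg.SU n F 2) | (((g : Matrix.SpecialLinearGroup (Fin n) F) : Matrix (Fin n) (Fin n) F) - 1).rank = 1} ↔ ∃ x : Fin n → F, x ≠ 0 ∧ Cfsg.hermForm n F 2 x x = 0 ∧ g = Cfsg.Agent.Lib.helper4.utvSU hF2 x (-1) :=
    fun g => Cfsg.Agent.Lib.helper4.u3_mem_iff hF2 g
  refine ⟨⟨?_, ?_⟩, ?_, ?_⟩
  · intro d hd
    obtain ⟨x, hx0, hx, rfl⟩ := (hD d).mp hd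
    apply orderOf_eq_prime
    · rw [pow_two]; exact Cfsg.Agent.Lib.helper4.u3_sq hF2 x hx
    · intro h1
      have hr := (Cfsg.Agent.Lib.helper4.u3_mem_iff hF2 _).mpr ⟨x, hx0, hx, rfl⟩
      rw [h1, Cfsg.Agent.Lib.helper4.suM_one, sub_self, Matrix.rank_zero] at hr
      exact zero_ne_one hr
  · intro d hd e he
    obtain ⟨x, hx0, hx, rfl⟩ := (hD d).mp hd
    obtain ⟨y, hy0, hy, rfl⟩ := (hD e).mp he
    exact Cfsg.Agent.Lib.helper4.u3_prod hF2 x y hx hy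
  · obtain ⟨x₀, hx₀0, hx₀⟩ := Cfsg.Agent.Lib.helper4.exists_iso_ne_zero hF2 (by omega : 2 ≤ n)
    refine ⟨Cfsg.Agent.Lib.helper4.utvSU hF2 x₀ (-1), (hD _).mpr ⟨x₀, hx₀0, hx₀, rfl⟩, ?_⟩
    ext e
    have hmem : e ∈ conjugatesOf (Cfsg.Agent.Lib.helper4.utvSU hF2 x₀ (-1))
        ↔ ∃ g, g * Cfsg.Agent.Lib.helper4.utvSU hF2 x₀ (-1) * g⁻¹ = e := isConj_iff
    rw [hmem, hD]
    constructor
    · rintro ⟨y, hy0, hy, rfl⟩
      exact Cfsg.Agent.Lib.helper4.su_tv_conj hF2 (by omega) x₀ y (-1) (-1) hx₀0 hx₀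
        (neg_ne_zero.mpr one_ne_zero) (by ring) hy0 hy (neg_ne_zero.mpr one_ne_zero) (by ring)
    · rintro ⟨g, rfl⟩
      refine ⟨Matrix.mulVec (Cfsg.Agent.Lib.helper4.suM g) x₀, ?_, ?_, ?_⟩
      · intro h0
        apply hx₀0
        rw [← Cfsg.Agent.Lib.helper4.suM_inv_mulVec g x₀, h0, Matrix.mulVec_zero]
      · rw [Cfsg.Agent.Lib.helper4.su_pres]; exact hx₀
      · rw [Cfsg.Agent.Lib.helper4.utvSU_conj hF2 g x₀ (-1) hx₀ (by ring), mul_inv_cancel_right]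
  · rw [eq_top_iff, ← Cfsg.Agent.Lib.helper4.su_eq_uT hF2 n (by omega) (by omega)]
    unfold Cfsg.Agent.Lib.helper4.uT
    rw [Subgroup.closure_le]
    rintro A ⟨v, c, hv, hA⟩
    have hA' : Cfsg.Agent.Lib.helper4.suM A = Cfsg.unitaryTransvection n 2 v c := hA
    by_cases hvc : v = 0 ∨ c = 0
    · have hA1 : A = 1 := by
        apply Cfsg.Agent.Lib.helper4.su_ext
        intro x
        rw [hA', Cfsg.Agent.Lib.helper4.utv_mulVec, Cfsg.Agent.Lib.helper4.suM_one, Matrix.one_mulVec]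
        rcases hvc with h | h
        · rw [h, smul_zero, add_zero]
        · rw [h, zero_mul, zero_smul, add_zero]
      rw [hA1]
      exact one_mem _
    · push Not at hvc
      apply Subgroup.subset_closure
      show (Cfsg.Agent.Lib.helper4.suM A - 1).rank = 1
      rw [hA']
      exact Cfsg.Agent.Lib.helper4.rank_utv_sub_one hF2 v c hvc.1 hvc.2

end Cfsg.Agent.S1631
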