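import Cfsg.Statements.S1680
import Cfsg.Agent.Lib.helper9.CE1680C0
import Cfsg.Agent.Lib.helper9.CE1680C1
import Cfsg.Agent.Lib.helper9.CE1680C2
import Cfsg.Agent.Lib.helper9.CE1680C3

set_option autoImplicit false
open Cfsg

namespace Cfsg.Agent.S1680

open Cfsg.Agent.Lib.helper9.CE Cfsg.Agent.Lib.helper9.CE1680
open Cfsg.Spor
open Cfsg.Spor.Suz (Gen)

/-- the generators of the subgroup -/
abbrev S0 : Set (FreeGroup Gen) := {Cfsg.Spor.Suz.a, Cfsg.Spor.Suz.b, Cfsg.Spor.Suz.c, Cfsg.Spor.Suz.d, Cfsg.Spor.Suz.e, Cfsg.Spor.Suz.f}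

theorem hS1 : ∀ s ∈ S0, ∃ L ∈ SW, s = FreeGroup.mk L := by
  intro s hs
  rcases hs with rfl | rfl | rfl | rfl | rfl | rfl
  · exact ⟨[(Gen.a, true)], by decide, rfl⟩
  · exact ⟨[(Gen.b, true)], by decide, rfl⟩
  · exact ⟨[(Gen.c, true)], by decide, rfl⟩
  · exact ⟨[(Gen.d, true)], by decide, rfl⟩
  · exact ⟨[(Gen.e, true)], by decide, rfl⟩
  · exact ⟨[(Gen.f, true)], by decide, rfl⟩

theorem hS2 : ∀ L ∈ SW, FreeGroup.mk L ∈ S0 := by
  intro L hL
  simp only [SW, List.mem_cons, List.mem_nil_iff, or_false] at hL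
  rcases hL with rfl | rfl | rfl | rfl | rfl | rfl
  · exact Or.inl rfl
  · exact Or.inr (Or.inl rfl)
  · exact Or.inr (Or.inr (Or.inl rfl))
  · exact Or.inr (Or.inr (Or.inr (Or.inl rfl)))
  · exact Or.inr (Or.inr (Or.inr (Or.inr (Or.inl rfl))))
  · exact Or.inr (Or.inr (Or.inr (Or.inr (Or.inr (rfl)))))

theorem hperm : ∀ x : Gen, ∀ i, i < D.n → D.permK x i = true := by
  intro x i hi
  cases x
  · exact allRange_spec hperm_a i (Nat.zero_le _) hi
  · exact allRange_spec hperm_b i (Nat.zero_le _) hi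
  · exact allRange_spec hperm_c i (Nat.zero_le _) hi
  · exact allRange_spec hperm_d i (Nat.zero_le _) hi
  · exact allRange_spec hperm_e i (Nat.zero_le _) hi
  · exact allRange_spec hperm_f i (Nat.zero_le _) hi
  · exact allRange_spec hperm_g i (Nat.zero_le _) hi

theorem hfin : ∀ x : Gen, ∀ i, i < D.n → D.finK x i = true := by
  intro x i hi
  cases x
  · exact allRange_spec hfin_a i (Nat.zero_le _) hi
  · exact allRange_spec hfin_b i (Nat.zero_le _) hi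
  · exact allRange_spec hfin_c i (Nat.zero_le _) hi
  · exact allRange_spec hfin_d i (Nat.zero_le _) hi
  · exact allRange_spec hfin_e i (Nat.zero_le _) hi
  · exact allRange_spec hfin_f i (Nat.zero_le _) hi
  · exact allRange_spec hfin_g i (Nat.zero_le _) hi

theorem hrel : ∀ L ∈ RW, ∀ i, 0 ≤ i → i < D.n → D.walk L i = i :=
  (D.rels_join (D.relsK_spec hrel_0) (D.relsK_spec hrel_1))

theorem cert : Cert D rels S0 SW WT where
  hn := by decide
  hperm := hperm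
  hlift := cox_lift Suz.edges Suz.extra nl EW hnl hE (D.perm hperm) (fun L hL =>
    D.lift_mk_eq_one hperm L (fun i hi => hrel L (hRW ▸ hL) i (Nat.zero_le _) hi))
  hS1 := hS1
  hsub := D.subK_spec hsubK
  hdec := hdec
  hm := hm
  hWT := hWTeq ▸ mkWT_spec rels S0 _ RWP TW SW hinv
    (fun wp hwp => hRW1 wp.1 (hRWP ▸ List.mem_map_of_mem hwp)) hS2
  hpi0 := hpi0
  htree := (allRange_spec htree_0)
  hrn0 := hrn0
  hrn := fun i hi => allRange_spec hrnK i (Nat.zero_le _) hi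
  hfact := fun id hid => (allRange_join (allRange_spec hfact_0) (allRange_join (allRange_spec hfact_1) (allRange_spec hfact_2))) id (Nat.zero_le _) hid
  hfin := hfin

theorem hinvO : ∀ L ∈ SW, ∀ i, 0 ≤ i → i < D.n → O.lab (D.walk L i) = O.lab i :=
  (O.invsK_spec D hinvO_0)

/-- In the presented sporadic Suzuki group, let H be the subgroup generated by the images of a, …, f. Then H has index 1782, H has orbits of sizes 416 and 1365 on the cosets of H other than H itself (with the index 1782 this makes the action rank 3). -/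
theorem result : (((Subgroup.closure ({Cfsg.Spor.Suz.a, Cfsg.Spor.Suz.b, Cfsg.Spor.Suz.c, Cfsg.Spor.Suz.d, Cfsg.Spor.Suz.e, Cfsg.Spor.Suz.f} : Set (FreeGroup Cfsg.Spor.Suz.Gen))).map (PresentedGroup.mk (Cfsg.Spor.coxRelators Cfsg.Spor.Suz.edges ∪ {r | r ∈ Cfsg.Spor.Suz.extra})))).index = 1782 ∧ ∃ q₁ q₂ : Cfsg.Spor.Suz ⧸ (((Subgroup.closure ({Cfsg.Spor.Suz.a, Cfsg.Spor.Suz.b, Cfsg.Spor.Suz.c, Cfsg.Spor.Suz.d, Cfsg.Spor.Suz.e, Cfsg.Spor.Suz.f} : Set (FreeGroup Cfsg.Spor.Suz.Gen))).map (PresentedGroup.mk (Cfsg.Spor.coxRelators Cfsg.Spor.Suz.edges ∪ {r | r ∈ Cfsg.Spor.Suz.extra})))), (MulAction.orbit (((Subgroup.closure ({Cfsg.Spor.Suz.a, Cfsg.Spor.Suz.b, Cfsg.Spor.Suz.c, Cfsg.Spor.Suz.d, Cfsg.Spor.Suz.e, Cfsg.Spor.Suz.f} : Set (FreeGroup Cfsg.Spor.Suz.Gen))).map (PresentedGroup.mk (Cfsg.Spor.coxRelators Cfsg.Spor.Suz.edges ∪ {r | r ∈ Cfsg.Spor.Suz.extra})))) q₁).ncard = 416 ∧ (MulAction.orbit (((Subgroup.closure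 ({Cfsg.Spor.Suz.a, Cfsg.Spor.Suz.b, Cfsg.Spor.Suz.c, Cfsg.Spor.Suz.d, Cfsg.Spor.Suz.e, Cfsg.Spor.Suz.f} : Set (FreeGroup Cfsg.Spor.Suz.Gen))).map (PresentedGroup.mk (Cfsg.Spor.coxRelators Cfsg.Spor.Suz.edges ∪ {r | r ∈ Cfsg.Spor.Suz.extra})))) q₂).ncard = 1365 := by
  obtain ⟨ρ, e, he, hρ, _⟩ := cert.main
  have hinvO' : ∀ L ∈ SW, ∀ i, i < D.n → O.lab (D.walk L i) = O.lab i :=
    fun L hL i hi => hinvO L hL i (Nat.zero_le _) hi
  have horbO' : ∀ j, j < D.n → O.orbK D SW j = true :=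
    fun j hj => allRange_spec horbO j (Nat.zero_le _) hj
  refine ⟨cert.index, e ⟨47, by decide⟩, e ⟨1, by decide⟩, ?_, ?_⟩
  · exact orbit_ncard O ρ e he hρ hS1 hS2 hinvO' horbO' ⟨47, by decide⟩ 2 416 hlab_2 hroot_2 hpc0_2
      (fun k hk => allRange_spec hpc_2 k (Nat.zero_le _) hk) hpcn_2
  · exact orbit_ncard O ρ e he hρ hS1 hS2 hinvO' horbO' ⟨1, by decide⟩ 1 1365 hlab_1 hroot_1 hpc0_1
      (fun k hk => allRange_spec hpc_1 k (Nat.zero_le _) hk) hpcn_1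

end Cfsg.Agent.S1680
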