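import Cfsg.Statements.S1682
import Cfsg.Agent.Lib.helper9.HeSp

set_option autoImplicit false
open Cfsg

namespace Cfsg.Agent.S1682

open Cfsg.Agent.Lib.helper9 Cfsg.Agent.Lib.helper9.CE

theorem key : ∃ N : Subgroup ↥(subH HeSp.R0 HeSp.S0), N.Normal ∧ N.index = 2 ∧
    Nonempty (N ≃* Matrix.symplecticGroup (Fin 2) SP.F4) := by
  obtain ⟨ρ, e, he, hinj, hfix, ψ, hψ⟩ := HeSp.core
  obtain ⟨φ⟩ := SP.iso
  obtain ⟨_, _, _, _, _, hsS, hNS⟩ := CE0462B.main
  have hHe : IsSimpleGroup (PresentedGroup HeSp.R0) ∧ Nat.card (PresentedGroup HeSp.R0) = 4030387200 :=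
    Cfsg.Agent.S1695.result
  have hcardN : Nat.card ψ.range = 979200 := by
    rw [← Nat.card_congr (MonoidHom.ofInjective hψ).toEquiv]
    exact hNS
  have hK : Nat.card (subH HeSp.R0 HeSp.S0) = 1958400 := by
    have h1 := Subgroup.index_mul_card (subH HeSp.R0 HeSp.S0)
    rw [Cfsg.Agent.S1683.cert.index, hHe.2] at h1
    exact Nat.eq_of_mul_eq_mul_left (by decide : 0 < CE1683.D.n)
      (h1.trans (by decide : 4030387200 = CE1683.D.n * 1958400))
  have hidx : ψ.range.index = 2 := by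
    have h2 := Subgroup.index_mul_card ψ.range
    rw [hcardN, hK] at h2
    omega
  exact ⟨ψ.range, Subgroup.normal_of_index_eq_two hidx, hidx,
    ⟨(MonoidHom.ofInjective hψ).symm.trans φ⟩⟩

/-- In the presented Held group, the subgroup H generated by the images of a, c, d, e, f, (ab)^2 and (bcde)^7 has a normal subgroup of index 2 isomorphic to the 4-dimensional symplectic group over a field with four elements. -/
theorem result : ∃ (N : Subgroup (((Subgroup.closure ({Cfsg.Spor.He.a, Cfsg.Spor.He.c, Cfsg.Spor.He.d, Cfsg.Spor.He.e, Cfsg.Spor.He.f, (Cfsg.Spor.He.a * Cfsg.Spor.He.b) ^ 2, (Cfsg.Spor.He.b * Cfsg.Spor.He.c * Cfsg.Spor.He.d * Cfsg.Spor.He.e) ^ 7} : Set (FreeGroup Cfsg.Spor.He.Gen))).map (PresentedGroup.mk (Cfsg.Spor.coxRelators Cfsg.Spor.He.edges ∪ {r | r ∈ Cfsg.Spor.He.extra}))))) (K : Type) (_ : Field K) (_ : Fintype K), N.Normal ∧ N.index = 2 ∧ Fintype.card K = 4 ∧ Nonempty (N ≃* Matrix.symplecticGroup (Fin 2) K)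 := by
  obtain ⟨N, h1, h2, h3⟩ := key
  exact ⟨N, SP.F4, inferInstance, inferInstance, h1, h2, SP.F4.card, h3⟩

end Cfsg.Agent.S1682
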