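import Cfsg.Statements.S1687
import Cfsg.Agent.Lib.helper9.CE1687C0
import Cfsg.Agent.Lib.helper9.CE1687C1
import Cfsg.Agent.Lib.helper9.CE1687C2
import Cfsg.Agent.Lib.helper9.CE1687C3

set_option autoImplicit false
open Cfsg

namespace Cfsg.Agent.S1687

open Cfsg.Agent.Lib.helper9.CE Cfsg.Agent.Lib.helper9.CE1687
open Cfsg.Spor
open Cfsg.Spor.Fi22 (Gen)

/-- the generators of the subgroup -/
abbrev S0 : Set (FreeGroup Gen) := {Cfsg.Spor.Fi22.a, Cfsg.Spor.Fi22.c, Cfsg.Spor.Fi22.d, Cfsg.Spor.Fi22.e, Cfsg.Spor.Fi22.f, Cfsg.Spor.Fi22.g, Cfsg.Spor.Fi22.h, Cfsg.Spor.Fi22.i, (Cfsg.Spor.Fi22.a * Cfsg.Spor.Fi22.b * Cfsg.Spor.Fi22.c * Cfsg.Spor.Fi22.d * Cfsg.Spor.Fi22.e * Cfsg.Spor.Fi22.h) ^ 5}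

theorem hS1 : ∀ s ∈ S0, ∃ L ∈ SW, s = FreeGroup.mk L := by
  intro s hs
  rcases hs with rfl | rfl | rfl | rfl | rfl | rfl | rfl | rfl | rfl
  · exact ⟨[(Gen.a, true)], by decide, rfl⟩
  · exact ⟨[(Gen.c, true)], by decide, rfl⟩
  · exact ⟨[(Gen.d, true)], by decide, rfl⟩
  · exact ⟨[(Gen.e, true)], by decide, rfl⟩
  · exact ⟨[(Gen.f, true)], by decide, rfl⟩
  · exact ⟨[(Gen.g, true)], by decide, rfl⟩
  · exact ⟨[(Gen.h, true)], by decide, rfl⟩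
  · exact ⟨[(Gen.i, true)], by decide, rfl⟩
  · exact ⟨[(Gen.a, true), (Gen.b, true), (Gen.c, true), (Gen.d, true), (Gen.e, true), (Gen.h, true), (Gen.a, true), (Gen.b, true), (Gen.c, true), (Gen.d, true), (Gen.e, true), (Gen.h, true), (Gen.a, true), (Gen.b, true), (Gen.c, true), (Gen.d, true), (Gen.e, true), (Gen.h, true), (Gen.a, true), (Gen.b, true), (Gen.c, true), (Gen.d, true), (Gen.e, true), (Gen.h, true), (Gen.a, true), (Gen.b, true), (Gen.c, true), (Gen.d, true), (Gen.e, true), (Gen.h, true)], by decide, rfl⟩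

theorem hS2 : ∀ L ∈ SW, FreeGroup.mk L ∈ S0 := by
  intro L hL
  simp only [SW, List.mem_cons, List.mem_nil_iff, or_false] at hL
  rcases hL with rfl | rfl | rfl | rfl | rfl | rfl | rfl | rfl | rfl
  · exact Or.inl rfl
  · exact Or.inr (Or.inl rfl)
  · exact Or.inr (Or.inr (Or.inl rfl))
  · exact Or.inr (Or.inr (Or.inr (Or.inl rfl)))
  · exact Or.inr (Or.inr (Or.inr (Or.inr (Or.inl rfl))))
  · exact Or.inr (Or.inr (Or.inr (Or.inr (Or.inr (Or.inl rfl)))))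
  · exact Or.inr (Or.inr (Or.inr (Or.inr (Or.inr (Or.inr (Or.inl rfl))))))
  · exact Or.inr (Or.inr (Or.inr (Or.inr (Or.inr (Or.inr (Or.inr (Or.inl rfl)))))))
  · exact Or.inr (Or.inr (Or.inr (Or.inr (Or.inr (Or.inr (Or.inr (Or.inr (rfl))))))))

theorem hperm : ∀ x : Gen, ∀ i, i < D.n → D.permK x i = true := by
  intro x i hi
  cases x
  · exact allRange_spec hperm_a i (Nat.zero_le _) hi
  · exact allRange_spec hperm_b i (Nat.zero_le _) hi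
  · exact allRange_spec hperm_c i (Nat.zero_le _) hi
  · exact allRange_spec hperm_d i (Nat.zero_le _) hi
  · exact allRange_spec hperm_e i (Nat.zero_le _) hi
  · exact allRange_spec hperm_f i (Nat.zero_le _) hi
  · exact allRange_spec hperm_g i (Nat.zero_le _) hi
  · exact allRange_spec hperm_h i (Nat.zero_le _) hi
  · exact allRange_spec hperm_i i (Nat.zero_le _) hi

theorem hfin : ∀ x : Gen, ∀ i, i < D.n → D.finK x i = true := by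
  intro x i hi
  cases x
  · exact allRange_spec hfin_a i (Nat.zero_le _) hi
  · exact allRange_spec hfin_b i (Nat.zero_le _) hi
  · exact allRange_spec hfin_c i (Nat.zero_le _) hi
  · exact allRange_spec hfin_d i (Nat.zero_le _) hi
  · exact allRange_spec hfin_e i (Nat.zero_le _) hi
  · exact allRange_spec hfin_f i (Nat.zero_le _) hi
  · exact allRange_spec hfin_g i (Nat.zero_le _) hi
  · exact allRange_spec hfin_h i (Nat.zero_le _) hi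
  · exact allRange_spec hfin_i i (Nat.zero_le _) hi

theorem hrel : ∀ L ∈ RW, ∀ i, 0 ≤ i → i < D.n → D.walk L i = i :=
  (D.rels_join (D.relsK_spec hrel_0) (D.rels_join (D.relsK_spec hrel_1) (D.rels_join (D.relsK_spec hrel_2) (D.relsK_spec hrel_3))))

theorem cert : Cert D rels S0 SW WT where
  hn := by decide
  hperm := hperm
  hlift := cox_lift Fi22.edges Fi22.extra nl EW hnl hE (D.perm hperm) (fun L hL =>
    D.lift_mk_eq_one hperm L (fun i hi => hrel L (hRW ▸ hL) i (Nat.zero_le _) hi))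
  hS1 := hS1
  hsub := D.subK_spec hsubK
  hdec := hdec
  hm := hm
  hWT := hWTeq ▸ mkWT_spec rels S0 _ RWP TW SW hinv
    (fun wp hwp => hRW1 wp.1 (hRWP ▸ List.mem_map_of_mem hwp)) hS2
  hpi0 := hpi0
  htree := (allRange_spec htree_0)
  hrn0 := hrn0
  hrn := fun i hi => allRange_spec hrnK i (Nat.zero_le _) hi
  hfact := fun id hid => (allRange_join (allRange_spec hfact_0) (allRange_spec hfact_1)) id (Nat.zero_le _) hid
  hfin := hfin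

theorem hinvO : ∀ L ∈ SW, ∀ i, 0 ≤ i → i < D.n → O.lab (D.walk L i) = O.lab i :=
  (O.invsK_spec D hinvO_0)

/-- In the presented Fischer group Fi₂₂, let H be the subgroup generated by the images of a, c, d, e, f, g, h, i and (abcdeh)^5. Then H has index 3510, H has orbits of sizes 693 and 2816 on the cosets of H other than H itself. -/
theorem result : (((Subgroup.closure ({Cfsg.Spor.Fi22.a, Cfsg.Spor.Fi22.c, Cfsg.Spor.Fi22.d, Cfsg.Spor.Fi22.e, Cfsg.Spor.Fi22.f, Cfsg.Spor.Fi22.g, Cfsg.Spor.Fi22.h, Cfsg.Spor.Fi22.i, (Cfsg.Spor.Fi22.a * Cfsg.Spor.Fi22.b * Cfsg.Spor.Fi22.c * Cfsg.Spor.Fi22.d * Cfsg.Spor.Fi22.e * Cfsg.Spor.Fi22.h) ^ 5} : Set (FreeGroup Cfsg.Spor.Fi22.Gen))).map (PresentedGroup.mk (Cfsg.Spor.coxRelators Cfsg.Spor.Fi22.edges ∪ {r | r ∈ Cfsg.Spor.Fi22.extra})))).index = 3510 ∧ ∃ q₁ q₂ : Cfsg.Spor.Fi22 ⧸ (((Subgroup.closure ({Cfsg.Spor.Fi22.a, Cfsg.Spor.Fi22.c,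 Cfsg.Spor.Fi22.d, Cfsg.Spor.Fi22.e, Cfsg.Spor.Fi22.f, Cfsg.Spor.Fi22.g, Cfsg.Spor.Fi22.h, Cfsg.Spor.Fi22.i, (Cfsg.Spor.Fi22.a * Cfsg.Spor.Fi22.b * Cfsg.Spor.Fi22.c * Cfsg.Spor.Fi22.d * Cfsg.Spor.Fi22.e * Cfsg.Spor.Fi22.h) ^ 5} : Set (FreeGroup Cfsg.Spor.Fi22.Gen))).map (PresentedGroup.mk (Cfsg.Spor.coxRelators Cfsg.Spor.Fi22.edges ∪ {r | r ∈ Cfsg.Spor.Fi22.extra})))), (MulAction.orbit (((Subgroup.closure ({Cfsg.Spor.Fi22.a, Cfsg.Spor.Fi22.c, Cfsg.Spor.Fi22.d, Cfsg.Spor.Fi22.e, Cfsg.Spor.Fi22.f, Cfsg.Spor.Fi22.g, Cfsg.Spor.Fi22.h, Cfsg.Spor.Fi22.i, (Cfsg.Spor.Fi22.a * Cfsg.Spor.Fi22.b * Cfsg.Spor.Fi22.c * Cfsg.Spor.Fi22.d * Cfsg.Spor.Fi22.e * Cfsg.Spor.Fi22.h) ^ 5} : Set (FreeGroup Cfsg.Spor.Fi22.Gen))).map (PresentedGroup.mk (Cfsg.Spor.coxRelators Cfsg.Spor.Fi22.edges ∪ {r | r ∈ Cfsg.Spor.Fi22.extra})))) q₁).ncard = 693 ∧ (MulAction.orbit (((Subgroup.closure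 ({Cfsg.Spor.Fi22.a, Cfsg.Spor.Fi22.c, Cfsg.Spor.Fi22.d, Cfsg.Spor.Fi22.e, Cfsg.Spor.Fi22.f, Cfsg.Spor.Fi22.g, Cfsg.Spor.Fi22.h, Cfsg.Spor.Fi22.i, (Cfsg.Spor.Fi22.a * Cfsg.Spor.Fi22.b * Cfsg.Spor.Fi22.c * Cfsg.Spor.Fi22.d * Cfsg.Spor.Fi22.e * Cfsg.Spor.Fi22.h) ^ 5} : Set (FreeGroup Cfsg.Spor.Fi22.Gen))).map (PresentedGroup.mk (Cfsg.Spor.coxRelators Cfsg.Spor.Fi22.edges ∪ {r | r ∈ Cfsg.Spor.Fi22.extra})))) q₂).ncard = 2816 := by
  obtain ⟨ρ, e, he, hρ, _⟩ := cert.main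
  have hinvO' : ∀ L ∈ SW, ∀ i, i < D.n → O.lab (D.walk L i) = O.lab i :=
    fun L hL i hi => hinvO L hL i (Nat.zero_le _) hi
  have horbO' : ∀ j, j < D.n → O.orbK D SW j = true :=
    fun j hj => allRange_spec horbO j (Nat.zero_le _) hj
  refine ⟨cert.index, e ⟨4, by decide⟩, e ⟨1, by decide⟩, ?_, ?_⟩
  · exact orbit_ncard O ρ e he hρ hS1 hS2 hinvO' horbO' ⟨4, by decide⟩ 2 693 hlab_2 hroot_2 hpc0_2
      (fun k hk => allRange_spec hpc_2 k (Nat.zero_le _) hk) hpcn_2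
  · exact orbit_ncard O ρ e he hρ hS1 hS2 hinvO' horbO' ⟨1, by decide⟩ 1 2816 hlab_1 hroot_1 hpc0_1
      (fun k hk => allRange_spec hpc_1 k (Nat.zero_le _) hk) hpcn_1

end Cfsg.Agent.S1687
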