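import Cfsg.Statements.S1691

set_option autoImplicit false
open Cfsg

namespace Cfsg.Agent.S1691

open Cfsg.Spor

theorem cox_sq {α : Type*} [DecidableEq α] (edges : List (α × ℕ × α)) (extra : List (FreeGroup α))
    (x : α) (hx : x ∈ coxNodes edges) :
    (PresentedGroup.of x : CoxPresented α edges extra) * PresentedGroup.of x = 1 := by
  have h : (FreeGroup.of x * FreeGroup.of x) ^ coxLabel edges x x ∈
      coxRelators edges ∪ {r | r ∈ extra} := Or.inl ⟨x, hx, x, hx, rfl⟩
  have h2 := PresentedGroup.one_of_mem h
  have h3 : coxLabel edges x x = 1 := by simp [coxLabel]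
  rw [h3, pow_one, map_mul] at h2
  exact h2

theorem cox_edge {α : Type*} [DecidableEq α] (edges : List (α × ℕ × α)) (extra : List (FreeGroup α))
    (x y : α) (hx : x ∈ coxNodes edges) (hy : y ∈ coxNodes edges) :
    ((PresentedGroup.of x : CoxPresented α edges extra) * PresentedGroup.of y) ^ coxLabel edges x y
      = 1 := by
  have h : (FreeGroup.of x * FreeGroup.of y) ^ coxLabel edges x y ∈
      coxRelators edges ∪ {r | r ∈ extra} := Or.inl ⟨x, hx, y, hy, rfl⟩
  have h2 := PresentedGroup.one_of_mem h
  rw [map_pow, map_mul] at h2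
  exact h2

theorem eq_of_cube {A : Type*} [CommGroup A] {s t : A} (hs : s * s = 1) (ht : t * t = 1)
    (h : (s * t) ^ 3 = 1) : s = t := by
  have h1 : s * t = 1 := by
    calc s * t = (s * s) * (t * t) * (s * t) := by rw [hs, ht]; simp
      _ = (s * t) ^ 3 := by rw [pow_succ, pow_two]; ac_rfl
      _ = 1 := h
  have h2 : s = t⁻¹ := mul_eq_one_iff_eq_inv.mp h1
  rw [h2]
  exact inv_eq_of_mul_eq_one_right ht

/-- images of the generators in the abelianization -/
noncomputable def u (x : Fi24.Gen) : Abelianization Fi24 :=
  Abelianization.of (PresentedGroup.of x : Fi24)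

theorem u_sq (x : Fi24.Gen) (hx : x ∈ coxNodes Fi24.edges) : u x * u x = 1 := by
  unfold u
  rw [← map_mul, cox_sq Fi24.edges Fi24.extra x hx, map_one]

theorem u_edge (x y : Fi24.Gen) (hx : x ∈ coxNodes Fi24.edges) (hy : y ∈ coxNodes Fi24.edges)
    (h3 : coxLabel Fi24.edges x y = 3) : u x = u y := by
  apply eq_of_cube (u_sq x hx) (u_sq y hy)
  unfold u
  rw [← map_mul, ← map_pow, ← h3, cox_edge Fi24.edges Fi24.extra x y hx hy, map_one]

theorem u_all (x : Fi24.Gen) : u x = u Fi24.Gen.l := by
  have hk : u .k = u .l := (u_edge .l .k (by decide) (by decide) (by decide)).symm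
  have ha : u .a = u .l := (u_edge .k .a (by decide) (by decide) (by decide)).symm.trans hk
  have hb : u .b = u .l := (u_edge .a .b (by decide) (by decide) (by decide)).symm.trans ha
  have hc : u .c = u .l := (u_edge .b .c (by decide) (by decide) (by decide)).symm.trans hb
  have hd : u .d = u .l := (u_edge .c .d (by decide) (by decide) (by decide)).symm.trans hc
  have he : u .e = u .l := (u_edge .d .e (by decide) (by decide) (by decide)).symm.trans hd
  have hh : u .h = u .l := (u_edge .d .h (by decide) (by decide) (by decide)).symm.trans hd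
  have hf : u .f = u .l := (u_edge .e .f (by decide) (by decide) (by decide)).symm.trans he
  have hg : u .g = u .l := (u_edge .f .g (by decide) (by decide) (by decide)).symm.trans hf
  have hj : u .j = u .l := (u_edge .g .j (by decide) (by decide) (by decide)).symm.trans hg
  have hi : u .i = u .l := (u_edge .h .i (by decide) (by decide) (by decide)).symm.trans hh
  cases x <;> first | rfl | assumption

def sgnFun : Fi24.Gen → Multiplicative (ZMod 2) := fun _ => Multiplicative.ofAdd 1

theorem sgn_rel : ∀ r ∈ coxRelators Fi24.edges ∪ {r | r ∈ Fi24.extra},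
    FreeGroup.lift sgnFun r = 1 := by
  intro r hr
  rcases hr with ⟨x, _, y, _, rfl⟩ | hr
  · simp only [map_pow, map_mul, FreeGroup.lift_apply_of, sgnFun]
    have : (Multiplicative.ofAdd (1 : ZMod 2)) * Multiplicative.ofAdd 1 = 1 := by decide
    rw [this, one_pow]
  · simp only [Set.mem_setOf_eq, Fi24.extra, List.mem_cons, List.not_mem_nil, or_false] at hr
    rcases hr with rfl | rfl
    · simp only [map_mul, map_inv, map_pow, FreeGroup.lift_apply_of, sgnFun]
      decide
    · simp only [map_mul, map_inv, map_pow, FreeGroup.lift_apply_of, sgnFun]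
      decide

/-- the sign homomorphism -/
def sgn : Fi24 →* Multiplicative (ZMod 2) := PresentedGroup.toGroup sgn_rel

theorem sgn_of (x : Fi24.Gen) : sgn (PresentedGroup.of x) = Multiplicative.ofAdd 1 :=
  PresentedGroup.toGroup.of sgn_rel

/-- The commutator subgroup of the presented group Fi₂₄ has index 2 (the presented group is Fi₂₄′:2 with Fi₂₄′ its derived subgroup). -/
theorem result : (commutator Cfsg.Spor.Fi24).index = 2 := by
  have hle : commutator Fi24 ≤ sgn.ker := Abelianization.commutator_subset_ker sgn
  have hge : sgn.ker ≤ commutator Fi24 := by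
    intro y hy
    let Φ : Fi24 →* Multiplicative (ZMod 2) × Abelianization Fi24 := sgn.prod Abelianization.of
    let v : Multiplicative (ZMod 2) × Abelianization Fi24 := (Multiplicative.ofAdd 1, u .l)
    have hmem := PresentedGroup.generated_by _ ((Subgroup.zpowers v).comap Φ)
      (fun j => by
        rw [Subgroup.mem_comap]
        have : Φ (PresentedGroup.of j) = v := by
          show (sgn (PresentedGroup.of j), Abelianization.of (PresentedGroup.of j)) = v
          rw [sgn_of]
          exact Prod.ext rfl (u_all j)
        rw [this]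
        exact Subgroup.mem_zpowers v) y
    obtain ⟨n, hn⟩ := Subgroup.mem_zpowers_iff.mp (Subgroup.mem_comap.mp hmem)
    have h1 : (Multiplicative.ofAdd (1 : ZMod 2)) ^ n = sgn y := congrArg Prod.fst hn
    have h2 : (u .l) ^ n = Abelianization.of y := congrArg Prod.snd hn
    rw [MonoidHom.mem_ker.mp hy] at h1
    have ho : orderOf (Multiplicative.ofAdd (1 : ZMod 2)) = 2 := by
      apply orderOf_eq_prime
      · decide
      · decide
    have hdvd : (2 : ℤ) ∣ n := by
      have := orderOf_dvd_iff_zpow_eq_one.mpr h1
      rwa [ho] at this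
    obtain ⟨m, rfl⟩ := hdvd
    have h3 : Abelianization.of y = 1 := by
      rw [← h2, zpow_mul, zpow_ofNat, pow_two, u_sq .l (by decide), one_zpow]
    rw [← Abelianization.ker_of]
    exact MonoidHom.mem_ker.mpr h3
  have heq : commutator Fi24 = sgn.ker := le_antisymm hle hge
  rw [heq, Subgroup.index_ker]
  have hsurj : Function.Surjective sgn := by
    intro z
    have hz : z = 1 ∨ z = Multiplicative.ofAdd 1 := by revert z; decide
    rcases hz with rfl | rfl
    · exact ⟨1, map_one _⟩
    · exact ⟨PresentedGroup.of Fi24.Gen.l, sgn_of _⟩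
  rw [MonoidHom.range_eq_top.mpr hsurj]
  simp [Nat.card_eq_fintype_card]

end Cfsg.Agent.S1691
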