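import Cfsg.Statements.S1693
import Cfsg.Agent.S1699
import Cfsg.Agent.Lib.helper9.CosetCover
import Cfsg.Agent.Lib.helper9.L37ON

set_option autoImplicit false
open Cfsg

namespace Cfsg.Agent.S1693

open Cfsg.Agent.Lib.helper9 Cfsg.Agent.Lib.helper9.CE
open Cfsg.Spor
open Cfsg.Spor.ON (Gen)

/-- the relators of the O'Nan group -/
abbrev R0 : Set (FreeGroup Gen) := CE1692.rels
/-- the sub-presentation on the generators a, …, f -/
abbrev Q : Type := PresentedGroup (relSet CE1699s1.RL)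
/-- the generators a, …, f -/
abbrev TL : List Gen := [.a, .b, .c, .d, .e, .f]

theorem hS' : ∀ x ∈ TL, FreeGroup.of x ∈ Cfsg.Agent.S1692.S0 := by
  intro x hx
  simp only [TL, List.mem_cons, List.mem_nil_iff, or_false] at hx
  rcases hx with rfl | rfl | rfl | rfl | rfl | rfl
  · exact Or.inl rfl
  · exact Or.inr (Or.inl rfl)
  · exact Or.inr (Or.inr (Or.inl rfl))
  · exact Or.inr (Or.inr (Or.inr (Or.inl rfl)))
  · exact Or.inr (Or.inr (Or.inr (Or.inr (Or.inl rfl))))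
  · exact Or.inr (Or.inr (Or.inr (Or.inr (Or.inr rfl))))

theorem hkill : ∀ r ∈ relSet CE1699s1.RL, FreeGroup.lift (restrictGen R0 TL) r = 1 :=
  restrict_kills R0 CE1692.RW CE1692.hRW1 TL CE1699s1.RL (by decide +kernel)

/-- In the presented O'Nan group, the subgroup H generated by the images of a, …, f has a normal subgroup of index 2 isomorphic to PSL(3, 7). -/
theorem result : ∃ N : Subgroup (((Subgroup.closure ({Cfsg.Spor.ON.a, Cfsg.Spor.ON.b, Cfsg.Spor.ON.c, Cfsg.Spor.ON.d, Cfsg.Spor.ON.e, Cfsg.Spor.ON.f} : Set (FreeGroup Cfsg.Spor.ON.Gen))).map (PresentedGroup.mk (Cfsg.Spor.coxRelators Cfsg.Spor.ON.edges ∪ {r | r ∈ Cfsg.Spor.ON.extra})))), N.Normal ∧ N.index = 2 ∧ Nonempty (N ≃* Matrix.ProjectiveSpecialLinearGroup (Fin 3) (ZMod 7)) := by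
  obtain ⟨ψ, hψ⟩ := sub_surj R0 (relSet CE1699s1.RL) TL Cfsg.Agent.S1692.S0 Cfsg.Agent.S1699.hS0 hS' hkill
  haveI : Finite Q := Cfsg.Agent.S1699.ub1.1
  have hH : Nat.card (subH R0 Cfsg.Agent.S1692.S0) = 3753792 := by
    have h1 := Subgroup.index_mul_card (subH R0 Cfsg.Agent.S1692.S0)
    have hN : Nat.card (PresentedGroup R0) = 460815505920 := Cfsg.Agent.S1699.result.2
    have hidx : (subH R0 Cfsg.Agent.S1692.S0).index = 122760 := Cfsg.Agent.S1692.cert.index
    rw [hidx, hN] at h1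
    omega
  have hQ : Nat.card Q ≤ 2 * 1876896 := le_trans Cfsg.Agent.S1699.ub1.2 (by norm_num)
  have hbij : Function.Bijective ψ := by
    refine (Nat.bijective_iff_surjective_and_card ψ).mpr ⟨hψ, ?_⟩
    have h2 : Nat.card (subH R0 Cfsg.Agent.S1692.S0) ≤ Nat.card Q :=
      Nat.card_le_card_of_surjective ψ hψ
    have h3 : Nat.card Q ≤ Nat.card (subH R0 Cfsg.Agent.S1692.S0) := by
      rw [hH]
      exact hQ
    exact le_antisymm h3 h2
  obtain ⟨ε, hidx, ⟨e⟩⟩ := Cfsg.Agent.Lib.helper9.L37ON.main CE1699s1.RL (by decide +kernel)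
    (by decide +kernel) hQ
  let ψe : Q ≃* subH R0 Cfsg.Agent.S1692.S0 := MulEquiv.ofBijective ψ hbij
  refine ⟨ε.ker.map (ψe : Q →* subH R0 Cfsg.Agent.S1692.S0), ?_, ?_,
    ⟨(ψe.subgroupMap ε.ker).symm.trans e⟩⟩
  · exact Subgroup.Normal.map inferInstance _ ψe.surjective
  · rw [Subgroup.index_map_equiv]
    exact hidx

end Cfsg.Agent.S1693
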