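import Cfsg.Statements.S1694
import Cfsg.Agent.S1680
import Cfsg.Agent.Lib.helper9.CE1694s1X
import Cfsg.Agent.Lib.helper9.CE1694s2X
import Cfsg.Agent.Lib.helper9.CE1694s3X
import Cfsg.Agent.Lib.helper9.CE1694cX
import Cfsg.Agent.Lib.helper9.CE1694pK0
import Cfsg.Agent.Lib.helper9.CE1694pK1

set_option autoImplicit false
open Cfsg

namespace Cfsg.Agent.S1694

open Cfsg.Agent.Lib.helper9 Cfsg.Agent.Lib.helper9.CE
open Cfsg.Spor
open Cfsg.Spor.Suz (Gen)

/-- the relators -/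
abbrev R0 : Set (FreeGroup Gen) := CE1680.rels

theorem hS0 : ∀ s ∈ Cfsg.Agent.S1680.S0, ∃ x ∈ ([Gen.a, Gen.b, Gen.c, Gen.d, Gen.e, Gen.f] : List Gen), s = FreeGroup.of x := by
  intro s hs
  rcases hs with rfl | rfl | rfl | rfl | rfl | rfl
  · exact ⟨Gen.a, by decide, rfl⟩
  · exact ⟨Gen.b, by decide, rfl⟩
  · exact ⟨Gen.c, by decide, rfl⟩
  · exact ⟨Gen.d, by decide, rfl⟩
  · exact ⟨Gen.e, by decide, rfl⟩
  · exact ⟨Gen.f, by decide, rfl⟩

theorem ub3 : Finite (PresentedGroup (relSet CE1694s3.RL)) ∧ Nat.card (PresentedGroup (relSet CE1694s3.RL)) ≤ 96 :=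
  chain_bot (relSet CE1694s3.RL) 96 (by decide) CE1694s3.index

theorem ub2 : Finite (PresentedGroup (relSet CE1694s2.RL)) ∧ Nat.card (PresentedGroup (relSet CE1694s2.RL)) ≤ 6300 * (96) :=
  chain_step (relSet CE1694s2.RL) CE1694s2.RL (wordG_relSet CE1694s2.RL) CE1694s2.TL CE1694s3.RL (by decide +kernel) (genSet CE1694s2.TL)
    (genSet_of CE1694s2.TL) 6300 (96) (by decide) CE1694s2.index ub3

theorem ub1 : Finite (PresentedGroup (relSet CE1694s1.RL)) ∧ Nat.card (PresentedGroup (relSet CE1694s1.RL)) ≤ 416 * (6300 * (96)) :=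
  chain_step (relSet CE1694s1.RL) CE1694s1.RL (wordG_relSet CE1694s1.RL) CE1694s1.TL CE1694s2.RL (by decide +kernel) (genSet CE1694s1.TL)
    (genSet_of CE1694s1.TL) 416 (6300 * (96)) (by decide) CE1694s1.index ub2

theorem ub0 : Finite (PresentedGroup R0) ∧ Nat.card (PresentedGroup R0) ≤ 1782 * (416 * (6300 * (96))) :=
  chain_step R0 CE1680.RW CE1680.hRW1 ([Gen.a, Gen.b, Gen.c, Gen.d, Gen.e, Gen.f] : List Gen) CE1694s1.RL (by decide +kernel) Cfsg.Agent.S1680.S0 hS0 1782 (416 * (6300 * (96))) (by decide)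
    Cfsg.Agent.S1680.cert.index ub1

theorem hsz : ∀ c, c < 3 → cntS CE1694p.O.lab c CE1680.D.n = ([1, 1365, 416] : List Nat).getD c 0 := by
  intro c hc
  interval_cases c
  · rw [← CE1694p.O.pc_eq 0 CE1680.D.n CE1694p.hpcz_0 (fun k hk => allRange_spec CE1694p.hpc_0 k (Nat.zero_le _) hk)]
    exact CE1694p.hpcn_0
  · rw [← CE1694p.O.pc_eq 1 CE1680.D.n CE1694p.hpcz_1 (fun k hk => allRange_spec CE1694p.hpc_1 k (Nat.zero_le _) hk)]
    exact CE1694p.hpcn_1
  · rw [← CE1694p.O.pc_eq 2 CE1680.D.n CE1694p.hpcz_2 (fun k hk => allRange_spec CE1694p.hpc_2 k (Nat.zero_le _) hk)]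
    exact CE1694p.hpcn_2

theorem hRLc : CE1694c.RL = CE1680.RW ++ [CE1694p.Yw] := by decide +kernel

theorem hinvO : ∀ L ∈ CE1680.SW, ∀ i, 0 ≤ i → i < CE1680.D.n → CE1694p.O.lab (CE1680.D.walk L i) = CE1694p.O.lab i :=
  (CE1694p.O.invsK_spec CE1680.D CE1694p.hinvO_0)

theorem hrelY : ∀ L ∈ [CE1694p.Yp], ∀ i, 0 ≤ i → i < CE1680.D.n → CE1680.D.walk L i = i :=
  (CE1680.D.relsK_spec CE1694p.hrelY_0)

/-- The presented sporadic Suzuki group is simple of the expected order (that is, it is a simple group of the order of the sporadic Suzuki group). -/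
theorem result : Cfsg.IsSuz Cfsg.Spor.Suz := by
  show IsSimpleGroup (PresentedGroup R0) ∧ Nat.card (PresentedGroup R0) = 448345497600
  obtain ⟨ρ, e, he, hρ, he0⟩ := Cfsg.Agent.S1680.cert.main
  have hfinG : Finite (PresentedGroup R0) := ub0.1
  have hub : Nat.card (PresentedGroup R0) ≤ 448345497600 := le_trans ub0.2 (by norm_num)
  have l0 := level_step ρ e he hρ CE1694p.OL0 CE1694p.LW0 [] ⟨0, by decide⟩ 1782
    (fun L hL p hp => fixK_spec CE1680.D CE1694p.hfix0 L hL p.val (List.mem_map_of_mem (f := Fin.val) hp))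
    (fun j hj => (allRange_spec CE1694p.horb0_0) j (Nat.zero_le _) hj) CE1694p.hroot0 CE1694p.hpcz0
    (fun k hk => allRange_spec CE1694p.hpc0 k (Nat.zero_le _) hk) CE1694p.hpcn0
  have l1 := level_step ρ e he hρ CE1694p.OL1 CE1694p.LW1 [⟨0, by decide⟩] ⟨1, by decide⟩ 1365
    (fun L hL p hp => fixK_spec CE1680.D CE1694p.hfix1 L hL p.val (List.mem_map_of_mem (f := Fin.val) hp))
    (fun j hj => (allRange_spec CE1694p.horb1_0) j (Nat.zero_le _) hj) CE1694p.hroot1 CE1694p.hpcz1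
    (fun k hk => allRange_spec CE1694p.hpc1 k (Nat.zero_le _) hk) CE1694p.hpcn1
  have l2 := level_step ρ e he hρ CE1694p.OL2 CE1694p.LW2 [⟨1, by decide⟩, ⟨0, by decide⟩] ⟨2, by decide⟩ 1024
    (fun L hL p hp => fixK_spec CE1680.D CE1694p.hfix2 L hL p.val (List.mem_map_of_mem (f := Fin.val) hp))
    (fun j hj => (allRange_spec CE1694p.horb2_0) j (Nat.zero_le _) hj) CE1694p.hroot2 CE1694p.hpcz2
    (fun k hk => allRange_spec CE1694p.hpc2 k (Nat.zero_le _) hk) CE1694p.hpcn2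
  have l3 := level_step ρ e he hρ CE1694p.OL3 CE1694p.LW3 [⟨2, by decide⟩, ⟨1, by decide⟩, ⟨0, by decide⟩] ⟨160, by decide⟩ 180
    (fun L hL p hp => fixK_spec CE1680.D CE1694p.hfix3 L hL p.val (List.mem_map_of_mem (f := Fin.val) hp))
    (fun j hj => (allRange_spec CE1694p.horb3_0) j (Nat.zero_le _) hj) CE1694p.hroot3 CE1694p.hpcz3
    (fun k hk => allRange_spec CE1694p.hpc3 k (Nat.zero_le _) hk) CE1694p.hpcn3
  have hch := (chain_le (chain_le (chain_le l0 l1) l2) l3)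
  obtain ⟨hinj, hcard⟩ := rho_injective_of_chain ρ e he [⟨160, by decide⟩, ⟨2, by decide⟩, ⟨1, by decide⟩, ⟨0, by decide⟩] 448345497600 (by norm_num)
    ((by norm_num : (1782 * 1365 * 1024 * 180 : ℕ) = 448345497600) ▸ hch) hub
  have hdich : ∀ K : Subgroup (PresentedGroup R0), K.Normal → (∀ g ∈ K, ρ g = 1) ∨ CE1680.D.n ∣ Nat.card K :=
    fun K hK => @normal_dichotomy Gen CE1680.D R0 Cfsg.Agent.S1680.S0 CE1680.SW CE1694p.O ρ e (by decide) he hρ he0 Cfsg.Agent.S1680.hS2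
      (fun L hL i hi => hinvO L hL i (Nat.zero_le _) hi) (fun j hj => (allRange_spec CE1694p.horbO_0) j (Nat.zero_le _) hj)
      3 0 [1, 1365, 416] (fun j hj => OData.labK_spec _ (allRange_spec CE1694p.hlabk j (Nat.zero_le _) hj)) CE1694p.hlab0 CE1694p.hrootO hsz CE1694p.hnum K hK
  have hy : wordG R0 CE1694p.Yw ^ 11 = 1 := by
    rw [← wordG_flatten_replicate, ← CE1694p.hYp]
    exact wordG_eq_one_of_walk ρ hinj hρ _ (fun i hi => hrelY CE1694p.Yp (List.mem_singleton.mpr rfl) i (Nat.zero_le _) hi)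
  have htop : ∀ K : Subgroup (PresentedGroup R0), K.Normal → wordG R0 CE1694p.Yw ∈ K → K = ⊤ :=
    fun K hK hyK => @normal_eq_top_of_collapse Gen R0 (relSet CE1694c.RL) (FreeGroup.mk CE1694p.Yw)
      (hRLc ▸ collapse_sub R0 CE1680.RW CE1694p.Yw CE1680.hRW1) (subsingleton_of_index_one _ CE1694c.index) K hK hyK
  exact simple_of_data ρ 448345497600 11 (wordG R0 CE1694p.Yw) hfinG hcard (by norm_num) hinj hdich (by decide)
    (by decide +kernel) hy htop

end Cfsg.Agent.S1694
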