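import Cfsg.Statements.S1695
import Cfsg.Agent.S1683
import Cfsg.Agent.Lib.helper9.CE1695tX
import Cfsg.Agent.Lib.helper9.CE1695s1X
import Cfsg.Agent.Lib.helper9.CE1695s2X
import Cfsg.Agent.Lib.helper9.CE1695cX
import Cfsg.Agent.Lib.helper9.CE1695pK0
import Cfsg.Agent.Lib.helper9.CE1695pK1

set_option autoImplicit false
open Cfsg

namespace Cfsg.Agent.S1695

open Cfsg.Agent.Lib.helper9 Cfsg.Agent.Lib.helper9.CE
open Cfsg.Spor
open Cfsg.Spor.He (Gen)

/-- the relators -/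
abbrev R0 : Set (FreeGroup Gen) := CE1683.rels

theorem hS0 : ∀ s ∈ CE1695t.S0, ∃ x ∈ ([Gen.a, Gen.b, Gen.c, Gen.d, Gen.e] : List Gen), s = FreeGroup.of x := CE1695t.hS0

theorem ub2 : Finite (PresentedGroup (relSet CE1695s2.RL)) ∧ Nat.card (PresentedGroup (relSet CE1695s2.RL)) ≤ 48 :=
  chain_bot (relSet CE1695s2.RL) 48 (by decide) CE1695s2.index

theorem ub1 : Finite (PresentedGroup (relSet CE1695s1.RL)) ∧ Nat.card (PresentedGroup (relSet CE1695s1.RL)) ≤ 315 * (48) :=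
  chain_step (relSet CE1695s1.RL) CE1695s1.RL (wordG_relSet CE1695s1.RL) CE1695s1.TL CE1695s2.RL (by decide +kernel) (genSet CE1695s1.TL)
    (genSet_of CE1695s1.TL) 315 (48) (by decide) CE1695s1.index ub2

theorem ub0 : Finite (PresentedGroup R0) ∧ Nat.card (PresentedGroup R0) ≤ 266560 * (315 * (48)) :=
  chain_step R0 CE1683.RW CE1683.hRW1 ([Gen.a, Gen.b, Gen.c, Gen.d, Gen.e] : List Gen) CE1695s1.RL (by decide +kernel) CE1695t.S0 hS0 266560 (315 * (48)) (by decide)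
    CE1695t.cert.index ub1

theorem hsz : ∀ c, c < 5 → cntS CE1695p.O.lab c CE1683.D.n = ([1, 1360, 425, 136, 136] : List Nat).getD c 0 := by
  intro c hc
  interval_cases c
  · rw [← CE1695p.O.pc_eq 0 CE1683.D.n CE1695p.hpcz_0 (fun k hk => allRange_spec CE1695p.hpc_0 k (Nat.zero_le _) hk)]
    exact CE1695p.hpcn_0
  · rw [← CE1695p.O.pc_eq 1 CE1683.D.n CE1695p.hpcz_1 (fun k hk => allRange_spec CE1695p.hpc_1 k (Nat.zero_le _) hk)]
    exact CE1695p.hpcn_1
  · rw [← CE1695p.O.pc_eq 2 CE1683.D.n CE1695p.hpcz_2 (fun k hk => allRange_spec CE1695p.hpc_2 k (Nat.zero_le _) hk)]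
    exact CE1695p.hpcn_2
  · rw [← CE1695p.O.pc_eq 3 CE1683.D.n CE1695p.hpcz_3 (fun k hk => allRange_spec CE1695p.hpc_3 k (Nat.zero_le _) hk)]
    exact CE1695p.hpcn_3
  · rw [← CE1695p.O.pc_eq 4 CE1683.D.n CE1695p.hpcz_4 (fun k hk => allRange_spec CE1695p.hpc_4 k (Nat.zero_le _) hk)]
    exact CE1695p.hpcn_4

theorem hRLc : CE1695c.RL = CE1683.RW ++ [CE1695p.Yw] := by decide +kernel

theorem hinvO : ∀ L ∈ CE1683.SW, ∀ i, 0 ≤ i → i < CE1683.D.n → CE1695p.O.lab (CE1683.D.walk L i) = CE1695p.O.lab i :=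
  (CE1695p.O.invsK_spec CE1683.D CE1695p.hinvO_0)

theorem hrelY : ∀ L ∈ [CE1695p.Yp], ∀ i, 0 ≤ i → i < CE1683.D.n → CE1683.D.walk L i = i :=
  (CE1683.D.relsK_spec CE1695p.hrelY_0)

/-- The presented Held group is simple of the expected order (that is, it is a simple group of the order of the Held group). -/
theorem result : Cfsg.IsHe Cfsg.Spor.He := by
  show IsSimpleGroup (PresentedGroup R0) ∧ Nat.card (PresentedGroup R0) = 4030387200
  obtain ⟨ρ, e, he, hρ, he0⟩ := Cfsg.Agent.S1683.cert.main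
  have hfinG : Finite (PresentedGroup R0) := ub0.1
  have hub : Nat.card (PresentedGroup R0) ≤ 4030387200 := le_trans ub0.2 (by norm_num)
  have l0 := level_step ρ e he hρ CE1695p.OL0 CE1695p.LW0 [] ⟨0, by decide⟩ 2058
    (fun L hL p hp => fixK_spec CE1683.D CE1695p.hfix0 L hL p.val (List.mem_map_of_mem (f := Fin.val) hp))
    (fun j hj => (allRange_spec CE1695p.horb0_0) j (Nat.zero_le _) hj) CE1695p.hroot0 CE1695p.hpcz0
    (fun k hk => allRange_spec CE1695p.hpc0 k (Nat.zero_le _) hk) CE1695p.hpcn0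
  have l1 := level_step ρ e he hρ CE1695p.OL1 CE1695p.LW1 [⟨0, by decide⟩] ⟨1, by decide⟩ 1360
    (fun L hL p hp => fixK_spec CE1683.D CE1695p.hfix1 L hL p.val (List.mem_map_of_mem (f := Fin.val) hp))
    (fun j hj => (allRange_spec CE1695p.horb1_0) j (Nat.zero_le _) hj) CE1695p.hroot1 CE1695p.hpcz1
    (fun k hk => allRange_spec CE1695p.hpc1 k (Nat.zero_le _) hk) CE1695p.hpcn1
  have l2 := level_step ρ e he hρ CE1695p.OL2 CE1695p.LW2 [⟨1, by decide⟩, ⟨0, by decide⟩] ⟨80, by decide⟩ 360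
    (fun L hL p hp => fixK_spec CE1683.D CE1695p.hfix2 L hL p.val (List.mem_map_of_mem (f := Fin.val) hp))
    (fun j hj => (allRange_spec CE1695p.horb2_0) j (Nat.zero_le _) hj) CE1695p.hroot2 CE1695p.hpcz2
    (fun k hk => allRange_spec CE1695p.hpc2 k (Nat.zero_le _) hk) CE1695p.hpcn2
  have l3 := level_step ρ e he hρ CE1695p.OL3 CE1695p.LW3 [⟨80, by decide⟩, ⟨1, by decide⟩, ⟨0, by decide⟩] ⟨7, by decide⟩ 4
    (fun L hL p hp => fixK_spec CE1683.D CE1695p.hfix3 L hL p.val (List.mem_map_of_mem (f := Fin.val) hp))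
    (fun j hj => (allRange_spec CE1695p.horb3_0) j (Nat.zero_le _) hj) CE1695p.hroot3 CE1695p.hpcz3
    (fun k hk => allRange_spec CE1695p.hpc3 k (Nat.zero_le _) hk) CE1695p.hpcn3
  have hch := (chain_le (chain_le (chain_le l0 l1) l2) l3)
  obtain ⟨hinj, hcard⟩ := rho_injective_of_chain ρ e he [⟨7, by decide⟩, ⟨80, by decide⟩, ⟨1, by decide⟩, ⟨0, by decide⟩] 4030387200 (by norm_num)
    ((by norm_num : (2058 * 1360 * 360 * 4 : ℕ) = 4030387200) ▸ hch) hub
  have hdich : ∀ K : Subgroup (PresentedGroup R0), K.Normal → (∀ g ∈ K, ρ g = 1) ∨ CE1683.D.n ∣ Nat.card K :=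
    fun K hK => @normal_dichotomy Gen CE1683.D R0 Cfsg.Agent.S1683.S0 CE1683.SW CE1695p.O ρ e (by decide) he hρ he0 Cfsg.Agent.S1683.hS2
      (fun L hL i hi => hinvO L hL i (Nat.zero_le _) hi) (fun j hj => (allRange_spec CE1695p.horbO_0) j (Nat.zero_le _) hj)
      5 0 [1, 1360, 425, 136, 136] (fun j hj => OData.labK_spec _ (allRange_spec CE1695p.hlabk j (Nat.zero_le _) hj)) CE1695p.hlab0 CE1695p.hrootO hsz CE1695p.hnum K hK
  have hy : wordG R0 CE1695p.Yw ^ 7 = 1 := by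
    rw [← wordG_flatten_replicate, ← CE1695p.hYp]
    exact wordG_eq_one_of_walk ρ hinj hρ _ (fun i hi => hrelY CE1695p.Yp (List.mem_singleton.mpr rfl) i (Nat.zero_le _) hi)
  have htop : ∀ K : Subgroup (PresentedGroup R0), K.Normal → wordG R0 CE1695p.Yw ∈ K → K = ⊤ :=
    fun K hK hyK => @normal_eq_top_of_collapse Gen R0 (relSet CE1695c.RL) (FreeGroup.mk CE1695p.Yw)
      (hRLc ▸ collapse_sub R0 CE1683.RW CE1695p.Yw CE1683.hRW1) (subsingleton_of_index_one _ CE1695c.index) K hK hyK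
  exact simple_of_data ρ 4030387200 7 (wordG R0 CE1695p.Yw) hfinG hcard (by norm_num) hinj hdich (by decide)
    (by decide +kernel) hy htop

end Cfsg.Agent.S1695
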