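import Cfsg.Statements.S1698
import Cfsg.Agent.S1690
import Cfsg.Agent.S1691
import Cfsg.Agent.Lib.helper9.DerivedSimple
import Cfsg.Agent.Lib.helper9.CE1698m
import Cfsg.Agent.Lib.helper9.CE1698s1X
import Cfsg.Agent.Lib.helper9.CE1698s2X
import Cfsg.Agent.Lib.helper9.CE1698s3X
import Cfsg.Agent.Lib.helper9.CE1698cX
import Cfsg.Agent.Lib.helper9.CE1698pK0
import Cfsg.Agent.Lib.helper9.CE1698pK1
import Cfsg.Agent.Lib.helper9.CE1698pK2
import Cfsg.Agent.Lib.helper9.CE1698pK3

set_option autoImplicit false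
open Cfsg

namespace Cfsg.Agent.S1698

open Cfsg.Agent.Lib.helper9 Cfsg.Agent.Lib.helper9.CE
open Cfsg.Spor
open Cfsg.Spor.Fi24 (Gen)

/-- the relators -/
abbrev R0 : Set (FreeGroup Gen) := CE1690.rels

theorem hS0 : ∀ s ∈ Cfsg.Agent.S1690.S0, ∃ x ∈ ([Gen.a, Gen.b, Gen.c, Gen.d, Gen.e, Gen.f, Gen.g, Gen.h, Gen.i, Gen.j, Gen.l] : List Gen), s = FreeGroup.of x := by
  intro s hs
  rcases hs with rfl | rfl | rfl | rfl | rfl | rfl | rfl | rfl | rfl | rfl | rfl
  · exact ⟨Gen.a, by decide, rfl⟩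
  · exact ⟨Gen.b, by decide, rfl⟩
  · exact ⟨Gen.c, by decide, rfl⟩
  · exact ⟨Gen.d, by decide, rfl⟩
  · exact ⟨Gen.e, by decide, rfl⟩
  · exact ⟨Gen.f, by decide, rfl⟩
  · exact ⟨Gen.g, by decide, rfl⟩
  · exact ⟨Gen.h, by decide, rfl⟩
  · exact ⟨Gen.i, by decide, rfl⟩
  · exact ⟨Gen.j, by decide, rfl⟩
  · exact ⟨Gen.l, by decide, rfl⟩

theorem ubs3 : Finite (PresentedGroup (relSet CE1698s3.RL)) ∧ Nat.card (PresentedGroup (relSet CE1698s3.RL)) ≤ 3159 * (288 * (2 * ((5040)))) :=
  chain_step (relSet CE1698s3.RL) CE1698s3.RL (wordG_relSet CE1698s3.RL) CE1698s3.TL CE1698q2.RL (by decide +kernel) (genSet CE1698s3.TL)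
    (genSet_of CE1698s3.TL) 3159 (288 * (2 * ((5040)))) (by decide) CE1698s3.index CE1698m.ubq2

theorem ubs2 : Finite (PresentedGroup (relSet CE1698s2.RL)) ∧ Nat.card (PresentedGroup (relSet CE1698s2.RL)) ≤ 28160 * (3159 * (288 * (2 * ((5040))))) :=
  chain_step (relSet CE1698s2.RL) CE1698s2.RL (wordG_relSet CE1698s2.RL) CE1698s2.TL CE1698s3.RL (by decide +kernel) (genSet CE1698s2.TL)
    (genSet_of CE1698s2.TL) 28160 (3159 * (288 * (2 * ((5040))))) (by decide) CE1698s2.index ubs3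

theorem ubs1 : Finite (PresentedGroup (relSet CE1698s1.RL)) ∧ Nat.card (PresentedGroup (relSet CE1698s1.RL)) ≤ 31671 * (28160 * (3159 * (288 * (2 * ((5040)))))) :=
  chain_step (relSet CE1698s1.RL) CE1698s1.RL (wordG_relSet CE1698s1.RL) CE1698s1.TL CE1698s2.RL (by decide +kernel) (genSet CE1698s1.TL)
    (genSet_of CE1698s1.TL) 31671 (28160 * (3159 * (288 * (2 * ((5040)))))) (by decide) CE1698s1.index ubs2

theorem ub0 : Finite (PresentedGroup R0) ∧ Nat.card (PresentedGroup R0) ≤ 306936 * (31671 * (28160 * (3159 * (288 * (2 * ((5040))))))) :=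
  chain_step R0 CE1698m.RWs CE1698m.hRWs ([Gen.a, Gen.b, Gen.c, Gen.d, Gen.e, Gen.f, Gen.g, Gen.h, Gen.i, Gen.j, Gen.l] : List Gen) CE1698s1.RL (by decide +kernel) Cfsg.Agent.S1690.S0 hS0 306936 (31671 * (28160 * (3159 * (288 * (2 * ((5040))))))) (by decide)
    Cfsg.Agent.S1690.cert.index ubs1

theorem hsz : ∀ c, c < 3 → cntS CE1698p.O.lab c CE1690.D.n = ([1, 275264, 31671] : List Nat).getD c 0 := by
  intro c hc
  interval_cases c
  · rw [← CE1698p.O.pc_eq 0 CE1690.D.n CE1698p.hpcz_0 (fun k hk => (allRange_join (allRange_spec CE1698p.hpc_0_0) (allRange_join (allRange_spec CE1698p.hpc_0_1) (allRange_join (allRange_spec CE1698p.hpc_0_2) (allRange_join (allRange_spec CE1698p.hpc_0_3) (allRange_join (allRange_spec CE1698p.hpc_0_4) (allRange_spec CE1698p.hpc_0_5)))))) k (Nat.zero_le _) hk)]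
    exact CE1698p.hpcn_0
  · rw [← CE1698p.O.pc_eq 1 CE1690.D.n CE1698p.hpcz_1 (fun k hk => (allRange_join (allRange_spec CE1698p.hpc_1_0) (allRange_join (allRange_spec CE1698p.hpc_1_1) (allRange_join (allRange_spec CE1698p.hpc_1_2) (allRange_join (allRange_spec CE1698p.hpc_1_3) (allRange_join (allRange_spec CE1698p.hpc_1_4) (allRange_spec CE1698p.hpc_1_5)))))) k (Nat.zero_le _) hk)]
    exact CE1698p.hpcn_1
  · rw [← CE1698p.O.pc_eq 2 CE1690.D.n CE1698p.hpcz_2 (fun k hk => (allRange_join (allRange_spec CE1698p.hpc_2_0) (allRange_join (allRange_spec CE1698p.hpc_2_1) (allRange_join (allRange_spec CE1698p.hpc_2_2) (allRange_join (allRange_spec CE1698p.hpc_2_3) (allRange_join (allRange_spec CE1698p.hpc_2_4) (allRange_spec CE1698p.hpc_2_5)))))) k (Nat.zero_le _) hk)]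
    exact CE1698p.hpcn_2

theorem hRLc : CE1698c.RL = CE1690.RW ++ [CE1698p.Yw] := by decide +kernel

theorem hinvO : ∀ L ∈ CE1690.SW, ∀ i, 0 ≤ i → i < CE1690.D.n → CE1698p.O.lab (CE1690.D.walk L i) = CE1698p.O.lab i :=
  (CE1698p.O.inv_join CE1690.D (CE1698p.O.invsK_spec CE1690.D CE1698p.hinvO_0) (CE1698p.O.inv_join CE1690.D (CE1698p.O.invsK_spec CE1690.D CE1698p.hinvO_1) (CE1698p.O.inv_join CE1690.D (CE1698p.O.invsK_spec CE1690.D CE1698p.hinvO_2) (CE1698p.O.inv_join CE1690.D (CE1698p.O.invsK_spec CE1690.D CE1698p.hinvO_3) (CE1698p.O.inv_join CE1690.D (CE1698p.O.invsK_spec CE1690.D CE1698p.hinvO_4) (CE1698p.O.inv_join CE1690.D (CE1698p.O.invsK_spec CE1690.D CE1698p.hinvO_5) (CE1698p.O.inv_join CE1690.D (CE1698p.O.invsK_spec CE1690.D CE1698p.hinvO_6) (CE1698p.O.inv_join CE1690.D (CE1698p.O.invsK_spec CE1690.D CE1698p.hinvO_7) (CE1698p.O.inv_join CE1690.D (CE1698p.O.invsK_spec CE1690.D CE1698p.hinvO_8) (CE1698p.O.inv_join CE1690.D (CE1698p.O.invsK_spec CE1690.D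 CE1698p.hinvO_9) (CE1698p.O.inv_join CE1690.D (CE1698p.O.invsK_spec CE1690.D CE1698p.hinvO_10) (CE1698p.O.inv_join CE1690.D (CE1698p.O.invsK_spec CE1690.D CE1698p.hinvO_11) (CE1698p.O.inv_join CE1690.D (CE1698p.O.invsK_spec CE1690.D CE1698p.hinvO_12) (CE1698p.O.inv_join CE1690.D (CE1698p.O.invsK_spec CE1690.D CE1698p.hinvO_13) (CE1698p.O.inv_join CE1690.D (CE1698p.O.invsK_spec CE1690.D CE1698p.hinvO_14) (CE1698p.O.inv_join CE1690.D (CE1698p.O.invsK_spec CE1690.D CE1698p.hinvO_15) (CE1698p.O.inv_join CE1690.D (CE1698p.O.invsK_spec CE1690.D CE1698p.hinvO_16) (CE1698p.O.inv_join CE1690.D (CE1698p.O.invsK_spec CE1690.D CE1698p.hinvO_17) (CE1698p.O.inv_join CE1690.D (CE1698p.O.invsK_spec CE1690.D CE1698p.hinvO_18) (CE1698p.O.inv_join CE1690.D (CE1698p.O.invsK_spec CE1690.D CE1698p.hinvO_19) (CE1698p.O.inv_join CE1690.D (CE1698p.O.invsK_spec CE1690.D CE1698p.hinvO_20) (CE1698p.O.inv_join CE1690.D (CE1698p.O.invsK_spec CE1690.D CE1698p.hinvO_21) (CE1698p.O.inv_join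 CE1690.D (CE1698p.O.invsK_spec CE1690.D CE1698p.hinvO_22) (CE1698p.O.inv_join CE1690.D (CE1698p.O.invsK_spec CE1690.D CE1698p.hinvO_23) (CE1698p.O.inv_join CE1690.D (CE1698p.O.invsK_spec CE1690.D CE1698p.hinvO_24) (CE1698p.O.inv_join CE1690.D (CE1698p.O.invsK_spec CE1690.D CE1698p.hinvO_25) (CE1698p.O.inv_join CE1690.D (CE1698p.O.invsK_spec CE1690.D CE1698p.hinvO_26) (CE1698p.O.inv_join CE1690.D (CE1698p.O.invsK_spec CE1690.D CE1698p.hinvO_27) (CE1698p.O.inv_join CE1690.D (CE1698p.O.invsK_spec CE1690.D CE1698p.hinvO_28) (CE1698p.O.inv_join CE1690.D (CE1698p.O.invsK_spec CE1690.D CE1698p.hinvO_29) (CE1698p.O.inv_join CE1690.D (CE1698p.O.invsK_spec CE1690.D CE1698p.hinvO_30) (CE1698p.O.inv_join CE1690.D (CE1698p.O.invsK_spec CE1690.D CE1698p.hinvO_31) (CE1698p.O.inv_join CE1690.D (CE1698p.O.invsK_spec CE1690.D CE1698p.hinvO_32) (CE1698p.O.invsK_spec CE1690.D CE1698p.hinvO_33))))))))))))))))))))))))))))))))))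

theorem hsqN : ∀ m : ℕ, m * m ≠ 1255205709190661721292800 := by
  intro m h
  rcases Nat.lt_or_ge m 1120359633864 with h1 | h1
  · have h2 : m * m ≤ 1120359633863 * 1120359633863 := Nat.mul_le_mul (by omega) (by omega)
    norm_num at h2
    omega
  · have h2 : 1120359633864 * 1120359633864 ≤ m * m := Nat.mul_le_mul h1 h1
    norm_num at h2
    omega

/-- The commutator subgroup of the presented Fi₂₄ (our definition of Fi₂₄′) is simple of the expected order (that is, it is a simple group of the order of the Fischer group Fi₂₄′). -/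
theorem result : Cfsg.IsFi24' Cfsg.Spor.Fi24' := by
  show IsSimpleGroup (commutator (PresentedGroup R0)) ∧ Nat.card (commutator (PresentedGroup R0)) = 1255205709190661721292800
  obtain ⟨ρ, e, he, hρ, he0⟩ := Cfsg.Agent.S1690.cert.main
  have hfinG : Finite (PresentedGroup R0) := ub0.1
  have hub : Nat.card (PresentedGroup R0) ≤ 2510411418381323442585600 := le_trans ub0.2 (by norm_num)
  have l0 := level_step ρ e he hρ CE1698p.OL0 CE1698p.LW0 [] ⟨0, by decide⟩ 306936
    (fun L hL p hp => fixK_spec CE1690.D CE1698p.hfix0 L hL p.val (List.mem_map_of_mem (f := Fin.val) hp))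
    (fun j hj => (allRange_join (allRange_spec CE1698p.horb0_0) (allRange_join (allRange_spec CE1698p.horb0_1) (allRange_join (allRange_spec CE1698p.horb0_2) (allRange_join (allRange_spec CE1698p.horb0_3) (allRange_join (allRange_spec CE1698p.horb0_4) (allRange_join (allRange_spec CE1698p.horb0_5) (allRange_join (allRange_spec CE1698p.horb0_6) (allRange_spec CE1698p.horb0_7)))))))) j (Nat.zero_le _) hj) CE1698p.hroot0 CE1698p.hpcz0
    (fun k hk => (allRange_join (allRange_spec CE1698p.hpc0_0) (allRange_join (allRange_spec CE1698p.hpc0_1) (allRange_join (allRange_spec CE1698p.hpc0_2) (allRange_join (allRange_spec CE1698p.hpc0_3) (allRange_join (allRange_spec CE1698p.hpc0_4) (allRange_spec CE1698p.hpc0_5)))))) k (Nat.zero_le _) hk) CE1698p.hpcn0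
  have l1 := level_step ρ e he hρ CE1698p.OL1 CE1698p.LW1 [⟨0, by decide⟩] ⟨1, by decide⟩ 275264
    (fun L hL p hp => fixK_spec CE1690.D CE1698p.hfix1 L hL p.val (List.mem_map_of_mem (f := Fin.val) hp))
    (fun j hj => (allRange_join (allRange_spec CE1698p.horb1_0) (allRange_join (allRange_spec CE1698p.horb1_1) (allRange_join (allRange_spec CE1698p.horb1_2) (allRange_join (allRange_spec CE1698p.horb1_3) (allRange_join (allRange_spec CE1698p.horb1_4) (allRange_join (allRange_spec CE1698p.horb1_5) (allRange_spec CE1698p.horb1_6))))))) j (Nat.zero_le _) hj) CE1698p.hroot1 CE1698p.hpcz1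
    (fun k hk => (allRange_join (allRange_spec CE1698p.hpc1_0) (allRange_join (allRange_spec CE1698p.hpc1_1) (allRange_join (allRange_spec CE1698p.hpc1_2) (allRange_join (allRange_spec CE1698p.hpc1_3) (allRange_join (allRange_spec CE1698p.hpc1_4) (allRange_spec CE1698p.hpc1_5)))))) k (Nat.zero_le _) hk) CE1698p.hpcn1
  have l2 := level_step ρ e he hρ CE1698p.OL2 CE1698p.LW2 [⟨1, by decide⟩, ⟨0, by decide⟩] ⟨704, by decide⟩ 218400
    (fun L hL p hp => fixK_spec CE1690.D CE1698p.hfix2 L hL p.val (List.mem_map_of_mem (f := Fin.val) hp))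
    (fun j hj => (allRange_join (allRange_spec CE1698p.horb2_0) (allRange_join (allRange_spec CE1698p.horb2_1) (allRange_join (allRange_spec CE1698p.horb2_2) (allRange_join (allRange_spec CE1698p.horb2_3) (allRange_join (allRange_spec CE1698p.horb2_4) (allRange_spec CE1698p.horb2_5)))))) j (Nat.zero_le _) hj) CE1698p.hroot2 CE1698p.hpcz2
    (fun k hk => (allRange_join (allRange_spec CE1698p.hpc2_0) (allRange_join (allRange_spec CE1698p.hpc2_1) (allRange_join (allRange_spec CE1698p.hpc2_2) (allRange_join (allRange_spec CE1698p.hpc2_3) (allRange_join (allRange_spec CE1698p.hpc2_4) (allRange_spec CE1698p.hpc2_5)))))) k (Nat.zero_le _) hk) CE1698p.hpcn2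
  have l3 := level_step ρ e he hρ CE1698p.OL3 CE1698p.LW3 [⟨704, by decide⟩, ⟨1, by decide⟩, ⟨0, by decide⟩] ⟨4232, by decide⟩ 93312
    (fun L hL p hp => fixK_spec CE1690.D CE1698p.hfix3 L hL p.val (List.mem_map_of_mem (f := Fin.val) hp))
    (fun j hj => (allRange_join (allRange_spec CE1698p.horb3_0) (allRange_join (allRange_spec CE1698p.horb3_1) (allRange_join (allRange_spec CE1698p.horb3_2) (allRange_join (allRange_spec CE1698p.horb3_3) (allRange_join (allRange_spec CE1698p.horb3_4) (allRange_join (allRange_spec CE1698p.horb3_5) (allRange_join (allRange_spec CE1698p.horb3_6) (allRange_join (allRange_spec CE1698p.horb3_7) (allRange_join (allRange_spec CE1698p.horb3_8) (allRange_join (allRange_spec CE1698p.horb3_9) (allRange_join (allRange_spec CE1698p.horb3_10) (allRange_join (allRange_spec CE1698p.horb3_11) (allRange_join (allRange_spec CE1698p.horb3_12) (allRange_join (allRange_spec CE1698p.horb3_13) (allRange_join (allRange_spec CE1698p.horb3_14) (allRange_join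 (allRange_spec CE1698p.horb3_15) (allRange_join (allRange_spec CE1698p.horb3_16) (allRange_join (allRange_spec CE1698p.horb3_17) (allRange_join (allRange_spec CE1698p.horb3_18) (allRange_join (allRange_spec CE1698p.horb3_19) (allRange_join (allRange_spec CE1698p.horb3_20) (allRange_join (allRange_spec CE1698p.horb3_21) (allRange_join (allRange_spec CE1698p.horb3_22) (allRange_join (allRange_spec CE1698p.horb3_23) (allRange_join (allRange_spec CE1698p.horb3_24) (allRange_join (allRange_spec CE1698p.horb3_25) (allRange_join (allRange_spec CE1698p.horb3_26) (allRange_join (allRange_spec CE1698p.horb3_27) (allRange_join (allRange_spec CE1698p.horb3_28) (allRange_join (allRange_spec CE1698p.horb3_29) (allRange_spec CE1698p.horb3_30))))))))))))))))))))))))))))))) j (Nat.zero_le _) hj) CE1698p.hroot3 CE1698p.hpcz3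
    (fun k hk => (allRange_join (allRange_spec CE1698p.hpc3_0) (allRange_join (allRange_spec CE1698p.hpc3_1) (allRange_join (allRange_spec CE1698p.hpc3_2) (allRange_join (allRange_spec CE1698p.hpc3_3) (allRange_join (allRange_spec CE1698p.hpc3_4) (allRange_spec CE1698p.hpc3_5)))))) k (Nat.zero_le _) hk) CE1698p.hpcn3
  have l4 := level_step ρ e he hρ CE1698p.OL4 CE1698p.LW4 [⟨4232, by decide⟩, ⟨704, by decide⟩, ⟨1, by decide⟩, ⟨0, by decide⟩] ⟨320, by decide⟩ 1458
    (fun L hL p hp => fixK_spec CE1690.D CE1698p.hfix4 L hL p.val (List.mem_map_of_mem (f := Fin.val) hp))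
    (fun j hj => (allRange_join (allRange_spec CE1698p.horb4_0) (allRange_join (allRange_spec CE1698p.horb4_1) (allRange_join (allRange_spec CE1698p.horb4_2) (allRange_join (allRange_spec CE1698p.horb4_3) (allRange_join (allRange_spec CE1698p.horb4_4) (allRange_spec CE1698p.horb4_5)))))) j (Nat.zero_le _) hj) CE1698p.hroot4 CE1698p.hpcz4
    (fun k hk => (allRange_join (allRange_spec CE1698p.hpc4_0) (allRange_join (allRange_spec CE1698p.hpc4_1) (allRange_join (allRange_spec CE1698p.hpc4_2) (allRange_join (allRange_spec CE1698p.hpc4_3) (allRange_join (allRange_spec CE1698p.hpc4_4) (allRange_spec CE1698p.hpc4_5)))))) k (Nat.zero_le _) hk) CE1698p.hpcn4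
  have hch := (chain_le (chain_le (chain_le (chain_le l0 l1) l2) l3) l4)
  obtain ⟨hinj, hcard⟩ := rho_injective_of_chain ρ e he [⟨320, by decide⟩, ⟨4232, by decide⟩, ⟨704, by decide⟩, ⟨1, by decide⟩, ⟨0, by decide⟩] 2510411418381323442585600 (by norm_num)
    ((by norm_num : (306936 * 275264 * 218400 * 93312 * 1458 : ℕ) = 2510411418381323442585600) ▸ hch) hub
  have hbot := pstab_eq_bot_of_chain e [⟨320, by decide⟩, ⟨4232, by decide⟩, ⟨704, by decide⟩, ⟨1, by decide⟩, ⟨0, by decide⟩] 2510411418381323442585600 (by norm_num)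
    ((by norm_num : (306936 * 275264 * 218400 * 93312 * 1458 : ℕ) = 2510411418381323442585600) ▸ hch) hub
  have hdich : ∀ K : Subgroup (PresentedGroup R0), K.Normal → (∀ g ∈ K, ρ g = 1) ∨ CE1690.D.n ∣ Nat.card K :=
    fun K hK => @normal_dichotomy Gen CE1690.D R0 Cfsg.Agent.S1690.S0 CE1690.SW CE1698p.O ρ e (by decide) he hρ he0 Cfsg.Agent.S1690.hS2
      (fun L hL i hi => hinvO L hL i (Nat.zero_le _) hi) (fun j hj => (allRange_join (allRange_spec CE1698p.horbO_0) (allRange_join (allRange_spec CE1698p.horbO_1) (allRange_join (allRange_spec CE1698p.horbO_2) (allRange_join (allRange_spec CE1698p.horbO_3) (allRange_join (allRange_spec CE1698p.horbO_4) (allRange_join (allRange_spec CE1698p.horbO_5) (allRange_join (allRange_spec CE1698p.horbO_6) (allRange_spec CE1698p.horbO_7)))))))) j (Nat.zero_le _) hj)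
      3 0 [1, 275264, 31671] (fun j hj => OData.labK_spec _ ((allRange_join (allRange_spec CE1698p.hlabk_0) (allRange_join (allRange_spec CE1698p.hlabk_1) (allRange_join (allRange_spec CE1698p.hlabk_2) (allRange_join (allRange_spec CE1698p.hlabk_3) (allRange_join (allRange_spec CE1698p.hlabk_4) (allRange_spec CE1698p.hlabk_5)))))) j (Nat.zero_le _) hj)) CE1698p.hlab0 CE1698p.hrootO hsz CE1698p.hnum K hK
  have hy : wordG R0 CE1698p.Yw ^ 29 = 1 := by
    rw [← wordG_flatten_replicate, ← CE1698p.hYp]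
    exact wordG_eq_one_of_base ρ e he hρ [⟨320, by decide⟩, ⟨4232, by decide⟩, ⟨704, by decide⟩, ⟨1, by decide⟩, ⟨0, by decide⟩] hbot CE1698p.Yp
      (fun p hp => fixK_spec CE1690.D CE1698p.hfixY CE1698p.Yp (List.mem_singleton.mpr rfl) p.val (List.mem_map_of_mem (f := Fin.val) hp))
  have htop : ∀ K : Subgroup (PresentedGroup R0), K.Normal → wordG R0 CE1698p.Yw ∈ K → K.index ≤ 2 :=
    fun K hK hyK => @index_le_of_collapse Gen R0 (relSet CE1698c.RL) (FreeGroup.mk CE1698p.Yw) 2
      (hRLc ▸ collapse_sub R0 CE1690.RW CE1698p.Yw CE1690.hRW1) (chain_bot (relSet CE1698c.RL) 2 (by decide) CE1698c.index) K hK hyK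
  have hnorm := index_two_of_data ρ 2510411418381323442585600 29 (wordG R0 CE1698p.Yw) hfinG hcard hinj hdich (by decide)
    (by decide +kernel) hy htop
  exact DerivedSimple.simple_of_index_two (commutator (PresentedGroup R0)) 1255205709190661721292800 Cfsg.Agent.S1691.result
    (hcard.trans (by norm_num)) (by norm_num) hsqN hnorm

end Cfsg.Agent.S1698
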