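import Cfsg.Statements.S1753

set_option autoImplicit false
universe u
open Cfsg

namespace Cfsg.Agent.S1753

lemma card_section_lt {G : Type u} [Group G] [Finite G] (H : Subgroup G) (hH : H ≠ ⊤)
    (H' : Subgroup H) (N : Subgroup H') [N.Normal] : Nat.card (H' ⧸ N) < Nat.card G := by
  have h1 : Nat.card (H' ⧸ N) ≤ Nat.card H' :=
    Nat.card_le_card_of_surjective _ (QuotientGroup.mk_surjective (s := N))
  have h2 : Nat.card H' ≤ Nat.card H := Subgroup.card_le_card_group H'
  have h3 : Nat.card H < Nat.card G := by
    have h4 : Nat.card H ≤ Nat.card G := Subgroup.card_le_card_group H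
    rcases lt_or_eq_of_le h4 with h | h
    · exact h
    · exact absurd (Subgroup.card_eq_iff_eq_top H |>.mp h) hH
  omega

theorem result (K : ∀ (X : Type u) [Group X], Prop) :
    (∀ (G : Type u) [Group G], Cfsg.IsMinCounterexampleWith K G → Cfsg.IsKProperWith K G) ∧
      ((∀ (X : Type u) [Group X] [Finite X], IsSimpleGroup X → ¬ IsMulCommutative X → Cfsg.IsKProperWith K X → K X) →
        ∀ (G : Type u) [Group G] [Finite G], IsSimpleGroup G → ¬ IsMulCommutative G → K G) := by
  refine ⟨?_, ?_⟩
  · intro G _ hmin H hH H' N _ hs hna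
    obtain ⟨hfin, -, -, -, hsmall⟩ := hmin
    exact hsmall (H' ⧸ N) hs hna (card_section_lt H hH H' N)
  · intro hstep
    suffices h : ∀ n : ℕ, ∀ (G : Type u) [Group G] [Finite G], Nat.card G = n →
        IsSimpleGroup G → ¬ IsMulCommutative G → K G by
      intro G _ _ hs hna
      exact h (Nat.card G) G rfl hs hna
    intro n
    induction n using Nat.strong_induction_on with
    | _ n ih =>
      intro G _ _ hn hs hna
      apply hstep G hs hna
      intro H hH H' N _ hs' hna'
      exact ih (Nat.card (H' ⧸ N)) (hn ▸ card_section_lt H hH H' N) (H' ⧸ N) rfl hs' hna'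

end Cfsg.Agent.S1753
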