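import Cfsg.Statements.S1756
import Mathlib
import Cfsg.Agent.S0110

set_option autoImplicit false
open Cfsg

namespace Cfsg.Agent.S1756

open scoped IsMulCommutative

/-- an element acting on an extraspecial subgroup `E` with all commutators central in `E` lies in
`E · C(E)` -/
theorem inner_of_central {G : Type*} [Group G] [Finite G] {p : ℕ} [Fact p.Prime] (E : Subgroup G)
    (hE : Cfsg.IsExtraspecial p ↥E) (g : G)
    (h : ∀ e ∈ E, g * e * g⁻¹ * e⁻¹ ∈ E ⊓ Subgroup.centralizer (E : Set G)) :
    g ∈ E ⊔ Subgroup.centralizer (E : Set G) := by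
  obtain ⟨⟨hP, hfr, hcomm⟩, hcard⟩ := hE
  have hcenE : ∀ z : G, ∀ hz : z ∈ E ⊓ Subgroup.centralizer (E : Set G),
      (⟨z, hz.1⟩ : E) ∈ Subgroup.center E := by
    intro z hz
    rw [Subgroup.mem_center_iff]
    intro e
    have := (Subgroup.mem_centralizer_iff.mp (Subgroup.mem_inf.mp hz).2) e e.2
    exact Subtype.ext this
  -- commutators with elements of E are central in E
  have hcmE : ∀ a : G, a ∈ E → ∀ e ∈ E, a * e * a⁻¹ * e⁻¹ ∈ E ⊓ Subgroup.centralizer (E : Set G) := by
    intro a ha e he
    have h1 : (⟨a, ha⟩ : E) * ⟨e, he⟩ * (⟨a, ha⟩ : E)⁻¹ * (⟨e, he⟩ : E)⁻¹ ∈ Subgroup.center E := by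
      rw [← hcomm]
      have := Subgroup.commutator_mem_commutator (Subgroup.mem_top (⟨a, ha⟩ : E))
        (Subgroup.mem_top (⟨e, he⟩ : E))
      rw [commutatorElement_def] at this
      exact this
    refine Subgroup.mem_inf.mpr ⟨E.mul_mem (E.mul_mem (E.mul_mem ha he) (E.inv_mem ha)) (E.inv_mem he), ?_⟩
    rw [Subgroup.mem_centralizer_iff]
    intro x hx
    have := (Subgroup.mem_center_iff.mp h1) ⟨x, hx⟩
    exact congrArg Subtype.val this
  -- the hom attached to an element with central commutators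
  have mkhom : ∀ a : G, (∀ e ∈ E, a * e * a⁻¹ * e⁻¹ ∈ E ⊓ Subgroup.centralizer (E : Set G)) →
      ∃ f : E →* Subgroup.center E, ∀ e : E, ((f e : E) : G) = a * e * a⁻¹ * (e : G)⁻¹ := by
    intro a hcm
    refine ⟨{ toFun := fun e => ⟨⟨a * e * a⁻¹ * (e : G)⁻¹, (hcm e e.2).1⟩, hcenE _ (hcm e e.2)⟩
              map_one' := by ext; simp
              map_mul' := ?_ }, fun e => rfl⟩
    intro x y
    ext
    have hb := (Subgroup.mem_centralizer_iff.mp (Subgroup.mem_inf.mp (hcm y y.2)).2) x x.2
    simp only [Subgroup.coe_mul]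
    calc a * (↑x * ↑y) * a⁻¹ * ((x : G) * ↑y)⁻¹
        = a * x * a⁻¹ * (a * y * a⁻¹ * (y : G)⁻¹) * (x : G)⁻¹ := by group
      _ = a * x * a⁻¹ * ((x : G)⁻¹ * ((x : G) * (a * y * a⁻¹ * (y : G)⁻¹))) * (x : G)⁻¹ := by group
      _ = a * x * a⁻¹ * ((x : G)⁻¹ * ((a * y * a⁻¹ * (y : G)⁻¹) * x)) * (x : G)⁻¹ := by rw [hb]
      _ = a * ↑x * a⁻¹ * (↑x)⁻¹ * (a * ↑y * a⁻¹ * (↑y)⁻¹) := by group
  choose F hF using fun a : E => mkhom (a : G) (hcmE a a.2)
  obtain ⟨fg, hfg⟩ := mkhom g h
  -- injectivity modulo the centre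
  have hinj : Function.Injective (fun q : E ⧸ Subgroup.center E => F (Quotient.out q)) := by
    intro q q' hqq'
    rw [← Quotient.out_eq q, ← Quotient.out_eq q']
    apply QuotientGroup.eq.mpr
    rw [Subgroup.mem_center_iff]
    intro e
    have h3 := congrArg (fun f : E →* Subgroup.center E => ((f e : E) : G)) hqq'
    simp only [hF] at h3
    have h4 : ((Quotient.out q : E) : G) * e * ((Quotient.out q : E) : G)⁻¹
        = ((Quotient.out q' : E) : G) * e * ((Quotient.out q' : E) : G)⁻¹ := by
      simpa using h3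
    apply Subtype.ext
    simp only [Subgroup.coe_mul, Subgroup.coe_inv]
    calc (e : G) * (((Quotient.out q : E) : G)⁻¹ * ((Quotient.out q' : E) : G))
        = ((Quotient.out q : E) : G)⁻¹ * (((Quotient.out q : E) : G) * e *
            ((Quotient.out q : E) : G)⁻¹) * ((Quotient.out q' : E) : G) := by group
      _ = ((Quotient.out q : E) : G)⁻¹ * ((Quotient.out q' : E) : G) * e := by rw [h4]; group
  have : Finite (E →* Subgroup.center E) := Finite.of_injective _ DFunLike.coe_injective
  have hpow : ∀ x : E, x ^ p ∈ commutator E := by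
    intro x
    rw [hcomm, ← hfr]
    exact (Cfsg.Agent.S0012.result p hP).2 x
  have hle2 := Cfsg.Agent.S0110.card_hom_le (E := E) (C := Subgroup.center E) hcard hpow
  have hle3 : Nat.card (E →* Subgroup.center E) ≤ Nat.card (E ⧸ Subgroup.center E) := by
    rw [hcomm, Subgroup.index_eq_card] at hle2
    exact hle2
  have hbij := Function.Injective.bijective_of_nat_card_le hinj hle3
  obtain ⟨q, hq⟩ := hbij.2 fg
  -- so g acts like a := out q
  have hact : ∀ e ∈ E, ((Quotient.out q : E) : G) * e * ((Quotient.out q : E) : G)⁻¹ = g * e * g⁻¹ := by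
    intro e he
    have h3 := congrArg (fun f : E →* Subgroup.center E => ((f ⟨e, he⟩ : E) : G)) hq
    simp only [hF, hfg] at h3
    simpa using h3
  have hgc : ((Quotient.out q : E) : G)⁻¹ * g ∈ Subgroup.centralizer (E : Set G) := by
    rw [Subgroup.mem_centralizer_iff]
    intro e he
    have h5 := hact e he
    calc e * (((Quotient.out q : E) : G)⁻¹ * g)
        = ((Quotient.out q : E) : G)⁻¹ * (((Quotient.out q : E) : G) * e *
            ((Quotient.out q : E) : G)⁻¹) * g := by group
      _ = ((Quotient.out q : E) : G)⁻¹ * g * e := by rw [h5]; group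
  have : g = ((Quotient.out q : E) : G) * (((Quotient.out q : E) : G)⁻¹ * g) := by group
  rw [this]
  exact Subgroup.mul_mem _ (Subgroup.mem_sup_left (Quotient.out q).2) (Subgroup.mem_sup_right hgc)

/-- Let Q be an extraspecial 2-subgroup of the finite group G (special with centre of order 2) and t an involution of G normalizing Q such that the centralizer of t in Q has index at most 2 in Q. Then t lies in the product of Q with the centralizer of Q. -/
theorem result {G : Type*} [Group G] [Finite G] (Q : Subgroup G)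
    (hQ : Cfsg.IsExtraspecial 2 ↥Q) (t : G) (ht : orderOf t = 2) (htN : t ∈ Subgroup.normalizer (Q : Set G))
    (hi : (Subgroup.centralizer ({t} : Set G) ⊓ Q).relIndex Q ≤ 2) :
    t ∈ Q ⊔ Subgroup.centralizer (Q : Set G) := by
  have : Fact (Nat.Prime 2) := ⟨Nat.prime_two⟩
  apply inner_of_central Q hQ t
  have ht2 : t * t = 1 := by
    have := pow_orderOf_eq_one t
    rw [ht, pow_two] at this
    exact this
  have htinv : t⁻¹ = t := inv_eq_of_mul_eq_one_left ht2
  have hmemC : ∀ x : G, x ∈ Subgroup.centralizer ({t} : Set G) ↔ t * x * t⁻¹ = x := by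
    intro x
    rw [Subgroup.mem_centralizer_iff]
    constructor
    · intro hx
      have := hx t rfl
      rw [this]; group
    · intro hx y hy
      rw [Set.mem_singleton_iff] at hy
      subst hy
      calc y * x = y * x * y⁻¹ * y := by group
        _ = x * y := by rw [hx]
  have hne : (Subgroup.centralizer ({t} : Set G) ⊓ Q).relIndex Q ≠ 0 := by
    rw [Subgroup.relIndex]; exact Subgroup.index_ne_zero_of_finite
  rcases Nat.lt_or_ge ((Subgroup.centralizer ({t} : Set G) ⊓ Q).relIndex Q) 2 with h1 | h2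
  · -- t centralizes Q
    have h1' : (Subgroup.centralizer ({t} : Set G) ⊓ Q).relIndex Q = 1 := by omega
    have hle : Q ≤ Subgroup.centralizer ({t} : Set G) ⊓ Q := Subgroup.relIndex_eq_one.mp h1'
    intro e he
    have := (hmemC e).mp (hle he).1
    rw [this, mul_inv_cancel]
    exact Subgroup.one_mem _
  · have hidx : ((Subgroup.centralizer ({t} : Set G) ⊓ Q).subgroupOf Q).index = 2 := by
      rw [Subgroup.relIndex] at hi h2; omega
    -- index-two calculus inside Q
    have key : ∀ a b : G, a ∈ Q → b ∈ Q →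
        (a * b ∈ Subgroup.centralizer ({t} : Set G) ↔
          (a ∈ Subgroup.centralizer ({t} : Set G) ↔ b ∈ Subgroup.centralizer ({t} : Set G))) := by
      intro a b ha hb
      have := Subgroup.mul_mem_iff_of_index_two hidx (a := ⟨a, ha⟩) (b := ⟨b, hb⟩)
      simp only [Subgroup.mem_subgroupOf, Subgroup.coe_mul, Subgroup.mem_inf, ha, hb,
        Q.mul_mem ha hb, and_true] at this
      exact this
    have hconjQ : ∀ x ∈ Q, t * x * t⁻¹ ∈ Q := fun x hx => (Subgroup.mem_normalizer_iff.mp htN x).mp hx
    intro e he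
    by_cases heC : e ∈ Subgroup.centralizer ({t} : Set G)
    · have := (hmemC e).mp heC
      rw [this, mul_inv_cancel]
      exact Subgroup.one_mem _
    · -- w = t e t⁻¹ e⁻¹
      obtain ⟨w, hw⟩ : ∃ w, w = t * e * t⁻¹ * e⁻¹ := ⟨_, rfl⟩
      have hwQ : w ∈ Q := by rw [hw]; exact Q.mul_mem (hconjQ e he) (Q.inv_mem he)
      have hte : t * e * t⁻¹ = w * e := by rw [hw]; group
      have hteC : t * e * t⁻¹ ∉ Subgroup.centralizer ({t} : Set G) := by
        intro hc
        have h3 := (hmemC _).mp hc
        apply heC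
        rw [hmemC]
        calc t * e * t⁻¹ = t⁻¹ * (t * (t * e * t⁻¹) * t⁻¹) * t := by group
          _ = t⁻¹ * (t * e * t⁻¹) * t := by rw [h3]
          _ = e := by group
      have heinvC : e⁻¹ ∉ Subgroup.centralizer ({t} : Set G) := fun hc => heC (by simpa using Subgroup.inv_mem _ hc)
      have hwC : w ∈ Subgroup.centralizer ({t} : Set G) := by
        rw [hw]
        exact (key _ _ (hconjQ e he) (Q.inv_mem he)).mpr ⟨fun h => absurd h hteC, fun h => absurd h heinvC⟩
      have hwt : t * w * t⁻¹ = w := (hmemC w).mp hwC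
      -- w² = 1
      have hw2 : w * w = 1 := by
        have h4 : t * (t * e * t⁻¹) * t⁻¹ = e := by
          rw [htinv]
          calc t * (t * e * t) * t = (t * t) * e * (t * t) := by group
            _ = e := by rw [ht2]; group
        rw [hte] at h4
        have h5 : t * (w * e) * t⁻¹ = (t * w * t⁻¹) * (t * e * t⁻¹) := by group
        rw [h5, hwt, hte] at h4
        have h6 : w * (w * e) * e⁻¹ = e * e⁻¹ := by rw [h4]
        calc w * w = w * (w * e) * e⁻¹ := by group
          _ = 1 := by rw [h6]; group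
      have hwinv : w⁻¹ = w := inv_eq_of_mul_eq_one_left hw2
      -- w commutes with e
      have hwe : w * e = e * w := by
        have h7 : e * e ∈ Subgroup.centralizer ({t} : Set G) := (key e e he he).mpr Iff.rfl
        have h8 := (hmemC _).mp h7
        have h9 : t * (e * e) * t⁻¹ = (t * e * t⁻¹) * (t * e * t⁻¹) := by group
        rw [h9, hte] at h8
        calc w * e = (w * e * (w * e)) * e⁻¹ * w⁻¹ := by group
          _ = e * e * e⁻¹ * w⁻¹ := by rw [h8]
          _ = e * w := by rw [hwinv]; group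
      -- conjugation by elements outside C preserves C ∩ Q
      have hconjC : ∀ a ∈ Q, a ∉ Subgroup.centralizer ({t} : Set G) → ∀ c ∈ Q,
          c ∈ Subgroup.centralizer ({t} : Set G) → a * c * a⁻¹ ∈ Subgroup.centralizer ({t} : Set G) := by
        intro a ha haC c hc hcC
        have hainv : a⁻¹ ∉ Subgroup.centralizer ({t} : Set G) :=
          fun hh => haC (by simpa using Subgroup.inv_mem _ hh)
        have h10 : a * c ∉ Subgroup.centralizer ({t} : Set G) := by
          intro hh
          exact haC (((key a c ha hc).mp hh).mpr hcC)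
        exact (key (a * c) a⁻¹ (Q.mul_mem ha hc) (Q.inv_mem ha)).mpr
          ⟨fun hh => absurd hh h10, fun hh => absurd hh hainv⟩
      have hwc' : ∀ c ∈ Q, c ∈ Subgroup.centralizer ({t} : Set G) →
          w * (e * c * e⁻¹) = (e * c * e⁻¹) * w := by
        intro c hc hcC
        have h11 := (hmemC _).mp (hconjC e he heC c hc hcC)
        have h12 : t * (e * c * e⁻¹) * t⁻¹ = (t * e * t⁻¹) * (t * c * t⁻¹) * (t * e * t⁻¹)⁻¹ := by group
        rw [h12, hte, (hmemC c).mp hcC] at h11
        calc w * (e * c * e⁻¹) = (w * e * c * (w * e)⁻¹) * w := by group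
          _ = (e * c * e⁻¹) * w := by rw [h11]
      have hwc : ∀ c ∈ Q, c ∈ Subgroup.centralizer ({t} : Set G) → w * c = c * w := by
        intro c hc hcC
        have h13 := hwc' (e⁻¹ * c * e⁻¹⁻¹) (Q.mul_mem (Q.mul_mem (Q.inv_mem he) hc) (Q.inv_mem (Q.inv_mem he)))
          (hconjC e⁻¹ (Q.inv_mem he) heinvC c hc hcC)
        have h14 : e * (e⁻¹ * c * e⁻¹⁻¹) * e⁻¹ = c := by group
        rw [h14] at h13
        exact h13
      rw [← hw]
      refine Subgroup.mem_inf.mpr ⟨hwQ, ?_⟩
      rw [Subgroup.mem_centralizer_iff]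
      intro x hx
      by_cases hxC : x ∈ Subgroup.centralizer ({t} : Set G)
      · exact (hwc x hx hxC).symm
      · have h15 : x * e⁻¹ ∈ Subgroup.centralizer ({t} : Set G) :=
          (key x e⁻¹ hx (Q.inv_mem he)).mpr ⟨fun hh => absurd hh hxC, fun hh => absurd hh heinvC⟩
        have h16 := hwc (x * e⁻¹) (Q.mul_mem hx (Q.inv_mem he)) h15
        calc x * w = (x * e⁻¹) * (e * w) := by group
          _ = (x * e⁻¹) * (w * e) := by rw [hwe]
          _ = ((x * e⁻¹) * w) * e := by group
          _ = (w * (x * e⁻¹)) * e := by rw [h16]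
          _ = w * x := by group

end Cfsg.Agent.S1756
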