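import Cfsg.Statements.S1780

set_option autoImplicit false
open Cfsg

namespace Cfsg.Agent.S1780

/-- Core: an endomorphism `t` of a commutative 2-group with `t^[2^n] = id` and `C(t²) ⊆ C(t)` is the identity. -/
lemma core {A : Type*} [CommGroup A] (hA : IsPGroup 2 A) (t : A →* A)
    (hC : ∀ a : A, t (t a) = a → t a = a) :
    ∀ j : ℕ, ∀ x : A, (t^[2 ^ j]) x = x → t x = x := by
  intro j
  induction j with
  | zero => intro x hx; simpa using hx
  | succ j ih =>
    intro x hx
    set s : A → A := t^[2 ^ j] with hs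
    have hsmul : ∀ u v : A, s (u * v) = s u * s v := by
      intro u v; rw [hs]; exact iterate_map_mul t (2 ^ j) u v
    have hsinv : ∀ u : A, s u⁻¹ = (s u)⁻¹ := by
      intro u; rw [hs]; exact iterate_map_inv t (2 ^ j) u
    have hspow : ∀ (u : A) (m : ℕ), s (u ^ m) = (s u) ^ m := by
      intro u m; rw [hs]; exact iterate_map_pow t (2 ^ j) u m
    have hst : ∀ u : A, s (t u) = t (s u) := by
      intro u; rw [hs]; exact (Function.iterate_succ_apply t (2 ^ j) u).symm.trans
        (Function.iterate_succ_apply' t (2 ^ j) u)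
    have hss : s (s x) = x := by
      rw [hs, ← Function.iterate_add_apply]
      have : 2 ^ j + 2 ^ j = 2 ^ (j + 1) := by ring
      rw [this]; exact hx
    -- y = x * s x is fixed by s, hence by t
    have hy : t (x * s x) = x * s x := by
      apply ih
      change s (x * s x) = x * s x
      rw [hsmul, hss, mul_comm]
    set e : A := t x * x⁻¹ with he
    have hse : s e = e⁻¹ := by
      rw [he, hsmul, hsinv, hst]
      rw [map_mul] at hy
      have h1 : t (s x) = (t x)⁻¹ * (x * s x) := by
        rw [← hy]; group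
      rw [h1, mul_inv_rev, inv_inv, mul_assoc, mul_assoc, mul_inv_cancel, mul_one, mul_comm]
    by_contra hne
    have he1 : e ≠ 1 := by
      intro h1
      apply hne
      have : t x = e * x := by rw [he]; simp
      rw [this, h1, one_mul]
    obtain ⟨r, hr⟩ := (IsPGroup.iff_orderOf.mp hA) e
    have hr1 : r ≠ 0 := by
      rintro rfl
      rw [pow_zero, orderOf_eq_one_iff] at hr
      exact he1 hr
    obtain ⟨r', rfl⟩ := Nat.exists_eq_succ_of_ne_zero hr1
    set c : A := e ^ (2 ^ r') with hc
    have hc2 : c * c = 1 := by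
      rw [hc, ← pow_add]
      have : 2 ^ r' + 2 ^ r' = 2 ^ (r' + 1) := by ring
      rw [this, ← hr, pow_orderOf_eq_one]
    have hc1 : c ≠ 1 := by
      intro h
      have hdvd : orderOf e ∣ 2 ^ r' := orderOf_dvd_of_pow_eq_one h
      rw [hr] at hdvd
      have : 2 ^ (r' + 1) ≤ 2 ^ r' := Nat.le_of_dvd (by positivity) hdvd
      have : 2 ^ r' < 2 ^ (r' + 1) := Nat.pow_lt_pow_right (by norm_num) (Nat.lt_succ_self r')
      omega
    have hcinv : c⁻¹ = c := by
      rw [inv_eq_iff_mul_eq_one]; exact hc2
    have hsc : s c = c := by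
      rw [hc, hspow, hse, inv_pow, ← hc, hcinv]
    have htc : t c = c := ih c hsc
    have hta : t (x ^ (2 ^ r')) = c * x ^ (2 ^ r') := by
      rw [map_pow]
      have : t x = e * x := by rw [he]; simp
      rw [this, mul_pow]
    have htta : t (t (x ^ (2 ^ r'))) = x ^ (2 ^ r') := by
      rw [hta, map_mul, htc, hta, ← mul_assoc, hc2, one_mul]
    have := hC _ htta
    rw [hta] at this
    exact hc1 (by simpa using this)

theorem result {A : Type*} [CommGroup A] [Finite A]
    (hA : IsPGroup 2 A) (t : MulAut A) (ht : ∃ k : ℕ, orderOf t = 2 ^ k) (hC : ∀ a : A, t (t a) = a → t a = a) :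
    ∀ a : A, t a = a := by
  obtain ⟨k, hk⟩ := ht
  intro a
  have hpow : ∀ (m : ℕ) (x : A), (t ^ m) x = ((t.toMonoidHom : A →* A)^[m]) x := by
    intro m
    induction m with
    | zero => intro x; simp
    | succ m ih =>
      intro x
      rw [pow_succ', MulAut.mul_apply, ih, Function.iterate_succ_apply']
      rfl
  have h1 : ((t.toMonoidHom : A →* A)^[2 ^ k]) a = a := by
    rw [← hpow, ← hk, pow_orderOf_eq_one]; rfl
  exact core hA t.toMonoidHom hC k a h1

end Cfsg.Agent.S1780
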