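import Cfsg.Statements.S1781
import Cfsg.Agent.S1757
import Cfsg.Agent.S1780

set_option autoImplicit false
open Cfsg

namespace Cfsg.Agent.S1781

open Cfsg.Agent.S1757 (mem_map_conj comm_of_ti)

lemma conj_pow_iter {G : Type*} [Group G] (A' : Subgroup G) (d : G)
    (t : ↥A' →* ↥A') (ht : ∀ x : ↥A', ((t x : ↥A') : G) = d * (x : G) * d⁻¹) :
    ∀ (n : ℕ) (x : ↥A'), (((t^[n]) x : ↥A') : G) = d ^ n * (x : G) * (d ^ n)⁻¹ := by
  intro n
  induction n with
  | zero => intro x; simp
  | succ n ih =>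
    intro x
    rw [Function.iterate_succ_apply', ht, ih, pow_succ']
    group

theorem result {G : Type*} [Group G] [Finite G] (A : Subgroup G)
    (hA2 : IsPGroup 2 ↥A) (hAa : IsMulCommutative ↥A)
    (hti : ∀ h : G, A.map (MulAut.conj h).toMonoidHom = A ∨ A.map (MulAut.conj h).toMonoidHom ⊓ A = ⊥)
    (g : G) (hg : A.map (MulAut.conj g).toMonoidHom ≠ A) :
    Cfsg.IsElementaryAbelian 2 (A ⊓ Subgroup.normalizer ((A.map (MulAut.conj g).toMonoidHom : Subgroup G) : Set G)) ∨
      ⁅A, A.map (MulAut.conj g).toMonoidHom⁆ = ⊥ := by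
  classical
  set A' : Subgroup G := A.map (MulAut.conj g).toMonoidHom with hA'
  have hAcomm : ∀ a ∈ A, ∀ b ∈ A, a * b = b * a := by
    intro a ha b hb
    have := (isMulCommutative_iff.mp hAa) ⟨a, ha⟩ ⟨b, hb⟩
    exact congrArg Subtype.val this
  have hA'comm : ∀ a ∈ A', ∀ b ∈ A', a * b = b * a := by
    intro a ha b hb
    rw [hA', mem_map_conj] at ha hb
    have := hAcomm _ ha _ hb
    have h2 : a * b = g * ((g⁻¹ * a * g) * (g⁻¹ * b * g)) * g⁻¹ := by group
    rw [h2, this]; group
  by_cases hel : ∀ d ∈ A ⊓ Subgroup.normalizer (A' : Set G), d ^ 2 = 1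
  · left
    refine ⟨?_, hel⟩
    rw [isMulCommutative_iff]
    rintro ⟨a, ha⟩ ⟨b, hb⟩
    exact Subtype.ext (hAcomm a ha.1 b hb.1)
  · right
    push Not at hel
    obtain ⟨d, hdmem, hd2⟩ := hel
    obtain ⟨hdA, hdN⟩ := Subgroup.mem_inf.mp hdmem
    -- A ⊓ A' = ⊥
    have hAA' : A ⊓ A' = ⊥ := by
      rcases hti g with h | h
      · exact absurd h hg
      · rw [inf_comm]; exact h
    -- TI for A'
    have hA'ti : ∀ h : G, A'.map (MulAut.conj h).toMonoidHom = A' ∨
        A'.map (MulAut.conj h).toMonoidHom ⊓ A' = ⊥ := by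
      intro h
      rcases hti (g⁻¹ * h * g) with h1 | h1
      · left
        ext x
        rw [mem_map_conj, hA', mem_map_conj, mem_map_conj]
        have : g⁻¹ * (h⁻¹ * x * h) * g = (g⁻¹ * h * g)⁻¹ * (g⁻¹ * x * g) * (g⁻¹ * h * g) := by group
        rw [this, ← mem_map_conj, h1]
      · right
        rw [eq_bot_iff]
        intro x hx
        rw [Subgroup.mem_bot]
        obtain ⟨hx1, hx2⟩ := Subgroup.mem_inf.mp hx
        rw [mem_map_conj, hA', mem_map_conj] at hx1
        rw [hA', mem_map_conj] at hx2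
        have h3 : g⁻¹ * x * g ∈ A.map (MulAut.conj (g⁻¹ * h * g)).toMonoidHom ⊓ A := by
          refine Subgroup.mem_inf.mpr ⟨?_, hx2⟩
          rw [mem_map_conj]
          have : (g⁻¹ * h * g)⁻¹ * (g⁻¹ * x * g) * (g⁻¹ * h * g) = g⁻¹ * (h⁻¹ * x * h) * g := by group
          rw [this]; exact hx1
        rw [h1, Subgroup.mem_bot] at h3
        have : x = g * (g⁻¹ * x * g) * g⁻¹ := by group
        rw [this, h3]; group
    -- conjugation by d on A'
    have hdnorm : ∀ x : G, x ∈ A' → d * x * d⁻¹ ∈ A' := fun x hx =>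
      (Subgroup.mem_normalizer_iff.mp hdN x).mp hx
    let t : ↥A' →* ↥A' :=
      { toFun := fun x => ⟨d * (x : G) * d⁻¹, hdnorm x x.2⟩
        map_one' := by ext; simp
        map_mul' := by intro x y; ext; simp }
    have ht : ∀ x : ↥A', ((t x : ↥A') : G) = d * (x : G) * d⁻¹ := fun x => rfl
    have hcA' : IsMulCommutative ↥A' := by
      rw [isMulCommutative_iff]
      rintro ⟨a, ha⟩ ⟨b, hb⟩
      exact Subtype.ext (hA'comm a ha b hb)
    have hd1 : d ≠ 1 := by
      rintro rfl; simp at hd2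
    -- an element of A' commuting with a nontrivial element of A normalizes A
    have hnormA : ∀ x : G, ∀ c ∈ A, c ≠ 1 → x * c * x⁻¹ = c → A.map (MulAut.conj x).toMonoidHom = A := by
      intro x c hc hc1 hxc
      rcases hti x with h | h
      · exact h
      · exfalso
        have : c ∈ A.map (MulAut.conj x).toMonoidHom ⊓ A := by
          refine Subgroup.mem_inf.mpr ⟨?_, hc⟩
          rw [mem_map_conj]
          have : x⁻¹ * c * x = x⁻¹ * (x * c * x⁻¹) * x := by rw [hxc]
          rw [this]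
          have : x⁻¹ * (x * c * x⁻¹) * x = c := by group
          rw [this]; exact hc
        rw [h, Subgroup.mem_bot] at this
        exact hc1 this
    have hkey : ∀ x ∈ A', A.map (MulAut.conj x).toMonoidHom = A → d * x * d⁻¹ = x := by
      intro x hx hxA
      have h1 : x * d * x⁻¹ ∈ A := by
        have : x * d * x⁻¹ ∈ A.map (MulAut.conj x).toMonoidHom := ⟨d, hdA, by simp [MulAut.conj_apply]⟩
        rwa [hxA] at this
      have h2 : x * d * x⁻¹ * d⁻¹ ∈ A := A.mul_mem h1 (A.inv_mem hdA)
      have h3 : x * d * x⁻¹ * d⁻¹ ∈ A' := by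
        have : x * (d * x⁻¹ * d⁻¹) ∈ A' := A'.mul_mem hx (hdnorm _ (A'.inv_mem hx))
        simpa [mul_assoc] using this
      have h4 : x * d * x⁻¹ * d⁻¹ ∈ A ⊓ A' := ⟨h2, h3⟩
      rw [hAA', Subgroup.mem_bot] at h4
      have : d * x * d⁻¹ = (x * d * x⁻¹ * d⁻¹)⁻¹ * x := by group
      rw [this, h4]; simp
    have hC : ∀ x : ↥A', t (t x) = x → t x = x := by
      intro x hx
      have h1 : d * (d * (x : G) * d⁻¹) * d⁻¹ = (x : G) := congrArg Subtype.val hx
      apply Subtype.ext
      rw [ht]
      apply hkey _ x.2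
      apply hnormA (x : G) (d ^ 2) (A.pow_mem hdA 2) hd2
      have : (x : G) * d ^ 2 * (x : G)⁻¹ = (d * (d * (x : G) * d⁻¹) * d⁻¹) * d ^ 2 * (x : G)⁻¹ := by
        rw [h1]
      rw [this, pow_two]; group
    obtain ⟨k, hk⟩ := hA2 ⟨d, hdA⟩
    have hk' : d ^ 2 ^ k = 1 := by
      have := congrArg Subtype.val hk
      simpa using this
    have hA'2 : IsPGroup 2 ↥A' := by
      rw [hA']
      exact hA2.map _
    have hfix : ∀ x : ↥A', t x = x := by
      intro x
      open scoped IsMulCommutative in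
      refine Cfsg.Agent.S1780.core hA'2 t hC k x ?_
      apply Subtype.ext
      rw [conj_pow_iter A' d t ht, hk']
      simp
    -- A' normalizes A
    have hN : A' ≤ Subgroup.normalizer (A : Set G) := by
      intro x hx
      have h1 : d * x * d⁻¹ = x := by
        have := congrArg Subtype.val (hfix ⟨x, hx⟩)
        simpa [ht] using this
      have h2 : A.map (MulAut.conj x).toMonoidHom = A := by
        apply hnormA x d hdA hd1
        have : x * d * x⁻¹ = (d * x * d⁻¹) * d * x⁻¹ := by rw [h1]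
        rw [this]; group
      rw [Subgroup.mem_normalizer_iff]
      intro a
      constructor
      · intro ha
        have : x * a * x⁻¹ ∈ A.map (MulAut.conj x).toMonoidHom := ⟨a, ha, by simp [MulAut.conj_apply]⟩
        rwa [h2] at this
      · intro ha
        rw [← h2, mem_map_conj] at ha
        have : x⁻¹ * (x * a * x⁻¹) * x = a := by group
        rwa [this] at ha
    have hcard : Nat.card ↥A ≤ Nat.card ↥A' := by
      rw [hA']
      exact le_of_eq (Nat.card_congr
        (A.equivMapOfInjective (MulAut.conj g).toMonoidHom (MulAut.conj g).injective).toEquiv)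
    have := comm_of_ti A A' (fun a _ => hA'ti a) hcard hAA' hN
    rw [Subgroup.commutator_eq_bot_iff_le_centralizer]
    intro a ha
    rw [Subgroup.mem_centralizer_iff]
    intro b hb
    exact (this a ha b hb).symm

end Cfsg.Agent.S1781
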