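import Cfsg.Statements.S1782
import Cfsg.Agent.S1757

set_option autoImplicit false
open Cfsg

namespace Cfsg.Agent.S1782

open Cfsg.Agent.S1757 (mem_map_conj comm_of_ti)

lemma map_conj_eq_iff {S : Type*} [Group S] (T : Subgroup S) (x : S) :
    T.map (MulAut.conj x).toMonoidHom = T ↔ x ∈ Subgroup.normalizer (T : Set S) := by
  rw [Subgroup.mem_normalizer_iff]
  constructor
  · intro h y
    constructor
    · intro hy
      have : x * y * x⁻¹ ∈ T.map (MulAut.conj x).toMonoidHom := ⟨y, hy, by simp [MulAut.conj_apply]⟩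
      rwa [h] at this
    · intro hy
      rw [← h, mem_map_conj] at hy
      have e : x⁻¹ * (x * y * x⁻¹) * x = y := by group
      rwa [e] at hy
  · intro h
    ext y
    rw [mem_map_conj, h (x⁻¹ * y * x)]
    have e : x * (x⁻¹ * y * x) * x⁻¹ = y := by group
    rw [e]

lemma exists_sq_ne_one_of_frattini_ne_bot (R : Type*) [Group R] [Finite R] (h : frattini R ≠ ⊥) :
    ∃ x : R, x ^ 2 ≠ 1 := by
  by_contra hcon
  push Not at hcon
  apply h
  have hcomm : ∀ a b : R, a * b = b * a := by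
    intro a b
    have h1 := hcon (a * b)
    have ha : a⁻¹ = a := by rw [inv_eq_iff_mul_eq_one, ← pow_two]; exact hcon a
    have hb : b⁻¹ = b := by rw [inv_eq_iff_mul_eq_one, ← pow_two]; exact hcon b
    calc a * b = (a * b)⁻¹ := by rw [eq_comm, inv_eq_iff_mul_eq_one, ← pow_two]; exact h1
      _ = b⁻¹ * a⁻¹ := mul_inv_rev a b
      _ = b * a := by rw [ha, hb]
  letI : CommGroup R := { ‹Group R› with mul_comm := hcomm }
  rw [eq_bot_iff]
  intro x hx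
  rw [Subgroup.mem_bot]
  by_contra hx1
  obtain ⟨K, -, hK⟩ := (Set.toFinite {K : Subgroup R | x ∉ K}).exists_le_maximal (a := ⊥)
    (by simpa using hx1)
  have hxK : x ∉ K := hK.prop
  have hco : IsCoatom K := by
    refine ⟨fun htop => hxK (htop ▸ Subgroup.mem_top x), fun L hKL => ?_⟩
    have hxL : x ∈ L := by
      by_contra hxL
      exact absurd (hK.le_of_ge hxL hKL.le) (not_le_of_gt hKL)
    rw [eq_top_iff]
    intro y _
    by_cases hyK : y ∈ K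
    · exact hKL.le hyK
    · have hlt : K < K ⊔ Subgroup.zpowers y := by
        refine lt_of_le_of_ne le_sup_left fun heq => hyK ?_
        rw [heq]; exact Subgroup.mem_sup_right (Subgroup.mem_zpowers y)
      have hx' : x ∈ K ⊔ Subgroup.zpowers y := by
        by_contra hx'
        exact absurd (hK.le_of_ge hx' hlt.le) (not_le_of_gt hlt)
      obtain ⟨k, hk, z, hz, rfl⟩ := Subgroup.mem_sup.mp hx'
      obtain ⟨i, rfl⟩ := Subgroup.mem_zpowers_iff.mp hz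
      rcases Int.emod_two_eq_zero_or_one i with hi | hi
      · have hyi : y ^ i = 1 := by
          have : i = 2 * (i / 2) := by omega
          rw [this, zpow_mul, zpow_ofNat, hcon, one_zpow]
        rw [hyi, mul_one] at hxK
        exact absurd hk hxK
      · have hyi : y ^ i = y := by
          have : i = 2 * (i / 2) + 1 := by omega
          rw [this, zpow_add, zpow_mul, zpow_ofNat, hcon, one_zpow, one_mul, zpow_one]
        rw [hyi] at hxL
        have := L.mul_mem (L.inv_mem (hKL.le hk)) hxL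
        simpa using this
  exact hxK (frattini_le_coatom hco hx)

/-- The dihedral step. -/
lemma sq_eq_one_step {S : Type*} [Group S] (R T : Subgroup S) (r x : S) (hr : r ∈ R) (hx : x ∈ T)
    (hr2 : r * r ∈ Subgroup.normalizer (T : Set S))
    (hRx : ∀ u ∈ R, ∀ v ∈ R.map (MulAut.conj x).toMonoidHom, u * v = v * u)
    (hTr : ∀ u ∈ T, ∀ v ∈ T.map (MulAut.conj r).toMonoidHom, u * v = v * u)
    (hTT : T.map (MulAut.conj r).toMonoidHom ⊓ T = ⊥) : x * x = 1 := by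
  have h1 : r * (x * r * x⁻¹) = (x * r * x⁻¹) * r :=
    hRx r hr _ ⟨r, hr, by simp [MulAut.conj_apply]⟩
  have ha : r * x⁻¹ * r⁻¹ ∈ T.map (MulAut.conj r).toMonoidHom :=
    ⟨x⁻¹, T.inv_mem hx, by simp [MulAut.conj_apply]⟩
  have hb : r * x * r⁻¹ ∈ T.map (MulAut.conj r).toMonoidHom :=
    ⟨x, hx, by simp [MulAut.conj_apply]⟩
  have hy : (r * r) * x⁻¹ * (r * r)⁻¹ ∈ T :=
    (Subgroup.mem_normalizer_iff.mp hr2 x⁻¹).mp (T.inv_mem hx)
  have hc : x * (r * x⁻¹ * r⁻¹) = (r * x * r⁻¹) * ((r * r) * x⁻¹ * (r * r)⁻¹) := by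
    have e1 : x * (r * x⁻¹ * r⁻¹) = (x * r * x⁻¹) * r⁻¹ := by group
    have e2 : (r * x * r⁻¹) * ((r * r) * x⁻¹ * (r * r)⁻¹) = (r * (x * r * x⁻¹)) * r⁻¹ * r⁻¹ := by group
    rw [e1, e2, h1]; group
  have hby : ((r * r) * x⁻¹ * (r * r)⁻¹) * (r * x * r⁻¹) = (r * x * r⁻¹) * ((r * r) * x⁻¹ * (r * r)⁻¹) :=
    hTr _ hy _ hb
  have hba : (r * x * r⁻¹) * (r * x⁻¹ * r⁻¹)⁻¹ = ((r * r) * x⁻¹ * (r * r)⁻¹)⁻¹ * x := by
    have h2 : x * (r * x⁻¹ * r⁻¹) = ((r * r) * x⁻¹ * (r * r)⁻¹) * (r * x * r⁻¹) := by rw [hc, hby]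
    calc (r * x * r⁻¹) * (r * x⁻¹ * r⁻¹)⁻¹
        = ((r * r) * x⁻¹ * (r * r)⁻¹)⁻¹ * (((r * r) * x⁻¹ * (r * r)⁻¹) * (r * x * r⁻¹)) * (r * x⁻¹ * r⁻¹)⁻¹ := by
          group
      _ = ((r * r) * x⁻¹ * (r * r)⁻¹)⁻¹ * (x * (r * x⁻¹ * r⁻¹)) * (r * x⁻¹ * r⁻¹)⁻¹ := by rw [h2]
      _ = ((r * r) * x⁻¹ * (r * r)⁻¹)⁻¹ * x := by group
  have hmem : (r * x * r⁻¹) * (r * x⁻¹ * r⁻¹)⁻¹ ∈ T.map (MulAut.conj r).toMonoidHom ⊓ T := by
    refine Subgroup.mem_inf.mpr ⟨Subgroup.mul_mem _ hb (Subgroup.inv_mem _ ha), ?_⟩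
    rw [hba]
    exact T.mul_mem (T.inv_mem hy) hx
  rw [hTT, Subgroup.mem_bot] at hmem
  have : x * x = r⁻¹ * ((r * x * r⁻¹) * (r * x⁻¹ * r⁻¹)⁻¹) * r := by group
  rw [this, hmem]; group

theorem main {S : Type*} [Group S] [Finite S] (hS : IsPGroup 2 S) :
    ∀ (n : ℕ) (M : Subgroup S) (Δ : Set (Subgroup S)),
    Nat.card M ≤ n → (∀ R ∈ Δ, R ≤ M) →
    (∀ s ∈ M, ∀ R ∈ Δ, R.map (MulAut.conj s).toMonoidHom ∈ Δ) →
    (∀ R ∈ Δ, ∃ x ∈ R, x * x ≠ 1) →
    (∀ R ∈ Δ, ∀ T ∈ Δ, Nat.card ↥R = Nat.card ↥T) →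
    (∀ R ∈ Δ, ∀ T ∈ Δ, R = T ∨ R ⊓ T = ⊥) →
    ∀ R ∈ Δ, ∀ T ∈ Δ, R ≠ T → ∀ r ∈ R, ∀ t ∈ T, r * t = t * r := by
  intro n
  induction n with
  | zero =>
    intro M Δ hcard
    exfalso
    have : 0 < Nat.card M := Nat.card_pos
    omega
  | succ n ih =>
    intro M Δ hcard hΔM hinv hexp hord hti
    have ha : ∀ U ∈ Δ, ∀ s ∈ M, U.map (MulAut.conj s).toMonoidHom ≠ U →
        ∀ u ∈ U, ∀ v ∈ U.map (MulAut.conj s).toMonoidHom, u * v = v * u := by
      intro U hU s hs hne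
      have hUM : U ≤ M := hΔM U hU
      have hUneM : ¬ M ≤ U := by
        intro hMU
        apply hne
        rw [map_conj_eq_iff]
        exact Subgroup.le_normalizer (hMU hs)
      have hpM : IsPGroup 2 ↥M := hS.to_subgroup M
      haveI : Group.IsNilpotent ↥M := hpM.isNilpotent
      obtain htop | ⟨K, hK, hUK⟩ := eq_top_or_exists_le_coatom (U.subgroupOf M)
      · exact absurd (Subgroup.subgroupOf_eq_top.mp htop) hUneM
      haveI hKn : K.Normal :=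
        Subgroup.NormalizerCondition.normal_of_coatom K Group.normalizerCondition_of_isNilpotent hK
      set M₁ : Subgroup S := K.map M.subtype with hM₁
      have hM₁M : M₁ ≤ M := by
        rintro _ ⟨k, -, rfl⟩; exact k.2
      have hcard₁ : Nat.card M₁ ≤ n := by
        have h1 : Nat.card M₁ = Nat.card K := Subgroup.card_map_of_injective M.subtype_injective
        have h2 : Nat.card K < Nat.card M := by
          have h4 : Nat.card K ≤ Nat.card M := Subgroup.card_le_card_group K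
          rcases lt_or_eq_of_le h4 with h | h
          · exact h
          · exact absurd ((Subgroup.card_eq_iff_eq_top K).mp h) hK.1
        omega
      have hUM₁ : U ≤ M₁ := by
        intro u hu
        exact ⟨⟨u, hUM hu⟩, hUK (Subgroup.mem_subgroupOf.mpr hu), rfl⟩
      have hM₁n : ∀ s ∈ M, ∀ x ∈ M₁, s * x * s⁻¹ ∈ M₁ := by
        rintro s hs _ ⟨k, hk, rfl⟩
        exact ⟨⟨s, hs⟩ * k * ⟨s, hs⟩⁻¹, hKn.conj_mem k hk ⟨s, hs⟩, by simp⟩
      have hUs : U.map (MulAut.conj s).toMonoidHom ≤ M₁ := by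
        rintro _ ⟨u, hu, rfl⟩
        simpa [MulAut.conj_apply] using hM₁n s hs u (hUM₁ hu)
      exact ih M₁ {V | V ∈ Δ ∧ V ≤ M₁} hcard₁ (fun V hV => hV.2)
        (fun s' hs' V hV => ⟨hinv s' (hM₁M hs') V hV.1, by
          rintro _ ⟨v, hv, rfl⟩
          simpa [MulAut.conj_apply] using hM₁n s' (hM₁M hs') v (hV.2 hv)⟩)
        (fun V hV => hexp V hV.1) (fun V hV W hW => hord V hV.1 W hW.1)
        (fun V hV W hW => hti V hV.1 W hW.1)
        U ⟨hU, hUM₁⟩ (U.map (MulAut.conj s).toMonoidHom) ⟨hinv s hs U hU, hUs⟩ (Ne.symm hne)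
    intro R hR T hT hRT
    have hRT' : R ⊓ T = ⊥ := (hti R hR T hT).resolve_left hRT
    have hRM := hΔM R hR
    have hTM := hΔM T hT
    have htiR : ∀ s ∈ M, R.map (MulAut.conj s).toMonoidHom = R ∨
        R.map (MulAut.conj s).toMonoidHom ⊓ R = ⊥ := fun s hs => hti _ (hinv s hs R hR) R hR
    have htiT : ∀ s ∈ M, T.map (MulAut.conj s).toMonoidHom = T ∨
        T.map (MulAut.conj s).toMonoidHom ⊓ T = ⊥ := fun s hs => hti _ (hinv s hs T hT) T hT
    by_cases hTN : T ≤ Subgroup.normalizer (R : Set S)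
    · intro r hr t ht
      exact comm_of_ti R T (fun a ha => htiT a (hRM ha)) (le_of_eq (hord R hR T hT)) hRT' hTN r hr t ht
    by_cases hRN : R ≤ Subgroup.normalizer (T : Set S)
    · intro r hr t ht
      exact (comm_of_ti T R (fun a ha => htiR a (hTM ha)) (le_of_eq (hord T hT R hR))
        (by rw [inf_comm]; exact hRT') hRN t ht r hr).symm
    exfalso
    obtain ⟨x, hxT, hxN⟩ := SetLike.not_le_iff_exists.mp hTN
    obtain ⟨r₁, hr₁R, hr₁N⟩ := SetLike.not_le_iff_exists.mp hRN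
    have hRx : ∀ x ∈ T, x ∉ Subgroup.normalizer (R : Set S) →
        (∀ u ∈ R, ∀ v ∈ R.map (MulAut.conj x).toMonoidHom, u * v = v * u) ∧
          R.map (MulAut.conj x).toMonoidHom ⊓ R = ⊥ := by
      intro x hx hxN
      have hne : R.map (MulAut.conj x).toMonoidHom ≠ R := fun h => hxN ((map_conj_eq_iff R x).mp h)
      exact ⟨ha R hR x (hTM hx) hne, (htiR x (hTM hx)).resolve_left hne⟩
    have hTr : ∀ r ∈ R, r ∉ Subgroup.normalizer (T : Set S) →
        (∀ u ∈ T, ∀ v ∈ T.map (MulAut.conj r).toMonoidHom, u * v = v * u) ∧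
          T.map (MulAut.conj r).toMonoidHom ⊓ T = ⊥ := by
      intro r hr hrN
      have hne : T.map (MulAut.conj r).toMonoidHom ≠ T := fun h => hrN ((map_conj_eq_iff T r).mp h)
      exact ⟨ha T hT r (hRM hr) hne, (htiT r (hRM hr)).resolve_left hne⟩
    have hex : ∀ (T : Subgroup S) (r₁ : S), r₁ ∉ Subgroup.normalizer (T : Set S) →
        ∃ j : ℕ, r₁ ^ 2 ^ j ∉ Subgroup.normalizer (T : Set S) ∧
          r₁ ^ 2 ^ j * r₁ ^ 2 ^ j ∈ Subgroup.normalizer (T : Set S) := by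
      intro T r₁ hr₁
      classical
      obtain ⟨k, hk⟩ := hS r₁
      have hP : ∃ j, r₁ ^ 2 ^ j ∈ Subgroup.normalizer (T : Set S) :=
        ⟨k, by rw [hk]; exact Subgroup.one_mem _⟩
      have hj0 : Nat.find hP ≠ 0 := by
        intro h0
        have := Nat.find_spec hP
        rw [h0] at this
        simp at this
        exact hr₁ this
      obtain ⟨j, hj⟩ := Nat.exists_eq_succ_of_ne_zero hj0
      refine ⟨j, ?_, ?_⟩
      · exact Nat.find_min hP (by omega)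
      · have := Nat.find_spec hP
        rw [hj, pow_succ, pow_mul, pow_two] at this
        exact this
    have hTinv : ∀ x ∈ T, x ∉ Subgroup.normalizer (R : Set S) → x * x = 1 := by
      intro x hx hxN
      obtain ⟨j, hrN, hr2⟩ := hex T r₁ hr₁N
      have hr : r₁ ^ 2 ^ j ∈ R := R.pow_mem hr₁R _
      exact sq_eq_one_step R T _ x hr hx hr2 (hRx x hx hxN).1 (hTr _ hr hrN).1 (hTr _ hr hrN).2
    have hRinv : ∀ r ∈ R, r ∉ Subgroup.normalizer (T : Set S) → r * r = 1 := by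
      intro r hr hrN
      obtain ⟨j, hx'N, hx'2⟩ := hex R x hxN
      have hx' : x ^ 2 ^ j ∈ T := T.pow_mem hxT _
      exact sq_eq_one_step T R _ r hx' hr hx'2 (hTr r hr hrN).1 (hRx _ hx' hx'N).1 (hRx _ hx' hx'N).2
    have hinvert : ∀ r₀ ∈ R, r₀ ∈ Subgroup.normalizer (T : Set S) → r₁ * r₀ * r₁⁻¹ = r₀⁻¹ := by
      intro r₀ hr₀ hr₀N
      have h1 : r₁ * r₀ ∉ Subgroup.normalizer (T : Set S) := by
        intro h
        apply hr₁N
        have := Subgroup.mul_mem _ h (Subgroup.inv_mem _ hr₀N)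
        simpa using this
      have h2 := hRinv (r₁ * r₀) (R.mul_mem hr₁R hr₀) h1
      have h3 := hRinv r₁ hr₁R hr₁N
      have h4 : r₁⁻¹ = r₁ := inv_eq_of_mul_eq_one_left h3
      rw [h4]
      exact eq_inv_of_mul_eq_one_left (by simpa [mul_assoc] using h2)
    obtain ⟨y, hyR, hy2⟩ := hexp R hR
    have hyN : y ∈ Subgroup.normalizer (T : Set S) := by
      by_contra h; exact hy2 (hRinv y hyR h)
    obtain ⟨r₀, hr₀R, hr₀N, hr₀2, hr₀4⟩ : ∃ r₀ ∈ R, r₀ ∈ Subgroup.normalizer (T : Set S) ∧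
        r₀ * r₀ ≠ 1 ∧ (r₀ * r₀) * (r₀ * r₀) = 1 := by
      obtain ⟨m, hm⟩ := (IsPGroup.iff_orderOf.mp hS) y
      have hm2 : 2 ≤ m := by
        by_contra hlt
        push Not at hlt
        apply hy2
        have hdvd : orderOf y ∣ 2 := by
          rw [hm]
          have : 2 ^ m ∣ 2 ^ 1 := pow_dvd_pow 2 (by omega)
          simpa using this
        rw [← pow_two]; exact orderOf_dvd_iff_pow_eq_one.mp hdvd
      refine ⟨y ^ 2 ^ (m - 2), R.pow_mem hyR _, Subgroup.pow_mem _ hyN _, ?_, ?_⟩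
      · rw [← pow_add]
        intro h
        have hdvd := orderOf_dvd_of_pow_eq_one h
        rw [hm] at hdvd
        have e : 2 ^ (m - 2) + 2 ^ (m - 2) = 2 ^ (m - 1) := by
          have : m - 1 = (m - 2) + 1 := by omega
          rw [this, pow_succ]; ring
        rw [e] at hdvd
        have h5 := Nat.le_of_dvd (by positivity) hdvd
        have h6 : 2 ^ (m - 1) < 2 ^ m := Nat.pow_lt_pow_right (by norm_num) (by omega)
        omega
      · rw [← pow_add, ← pow_add]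
        have e : 2 ^ (m - 2) + 2 ^ (m - 2) + (2 ^ (m - 2) + 2 ^ (m - 2)) = 2 ^ m := by
          have : m = (m - 2) + 2 := by omega
          conv_rhs => rw [this, pow_add]
          ring
        rw [e, ← hm, pow_orderOf_eq_one]
    obtain ⟨hRxc, hRxR⟩ := hRx x hxT hxN
    obtain ⟨hTrc, hTrT⟩ := hTr r₁ hr₁R hr₁N
    have ht₁ : x * (r₀ * x⁻¹ * r₀⁻¹) ∈ T :=
      T.mul_mem hxT ((Subgroup.mem_normalizer_iff.mp hr₀N x⁻¹).mp (T.inv_mem hxT))
    obtain ⟨X, hX⟩ : ∃ X : S, X = x * r₀ * x⁻¹ := ⟨_, rfl⟩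
    have hXmem : X ∈ R.map (MulAut.conj x).toMonoidHom :=
      ⟨r₀, hr₀R, by simp [MulAut.conj_apply, hX]⟩
    have e1 : x * (r₀ * x⁻¹ * r₀⁻¹) = X * r₀⁻¹ := by rw [hX]; group
    have c1 : r₀⁻¹ * X = X * r₀⁻¹ := hRxc _ (R.inv_mem hr₀R) _ hXmem
    have c2 : r₁ * X = X * r₁ := hRxc _ hr₁R _ hXmem
    have c3 : r₀ * X = X * r₀ := hRxc _ hr₀R _ hXmem
    have e2 : (X * r₀⁻¹) * (X * r₀⁻¹) = (X * X) * (r₀⁻¹ * r₀⁻¹) := by
      calc (X * r₀⁻¹) * (X * r₀⁻¹) = X * (r₀⁻¹ * X) * r₀⁻¹ := by group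
        _ = X * (X * r₀⁻¹) * r₀⁻¹ := by rw [c1]
        _ = (X * X) * (r₀⁻¹ * r₀⁻¹) := by group
    have e3 : r₁ * (X * r₀⁻¹) * r₁⁻¹ = X * r₀ := by
      calc r₁ * (X * r₀⁻¹) * r₁⁻¹ = (r₁ * X) * r₁⁻¹ * (r₁ * r₀⁻¹ * r₁⁻¹) := by group
        _ = (X * r₁) * r₁⁻¹ * (r₁ * r₀⁻¹ * r₁⁻¹) := by rw [c2]
        _ = X * (r₁ * r₀⁻¹ * r₁⁻¹) := by group
        _ = X * r₀ := by rw [hinvert r₀⁻¹ (R.inv_mem hr₀R) (Subgroup.inv_mem _ hr₀N), inv_inv]
    have e4 : (X * r₀) * (X * r₀) = (X * X) * (r₀ * r₀) := by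
      calc (X * r₀) * (X * r₀) = X * (r₀ * X) * r₀ := by group
        _ = X * (X * r₀) * r₀ := by rw [c3]
        _ = (X * X) * (r₀ * r₀) := by group
    have e5 : r₀⁻¹ * r₀⁻¹ = r₀ * r₀ := by
      have : (r₀ * r₀)⁻¹ = r₀ * r₀ := inv_eq_of_mul_eq_one_left hr₀4
      rw [← this]; group
    have hw1 : (X * X) * (r₀ * r₀) ∈ T := by
      have := T.mul_mem ht₁ ht₁
      rw [e1, e2, e5] at this; exact this
    have hw2 : (X * X) * (r₀ * r₀) ∈ T.map (MulAut.conj r₁).toMonoidHom := by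
      have h1 : r₁ * (X * r₀⁻¹) * r₁⁻¹ ∈ T.map (MulAut.conj r₁).toMonoidHom :=
        ⟨X * r₀⁻¹, by rw [← e1]; exact ht₁, by simp [MulAut.conj_apply]⟩
      have := Subgroup.mul_mem _ h1 h1
      rw [e3, e4] at this; exact this
    have hw : (X * X) * (r₀ * r₀) = 1 := by
      have : (X * X) * (r₀ * r₀) ∈ T.map (MulAut.conj r₁).toMonoidHom ⊓ T :=
        Subgroup.mem_inf.mpr ⟨hw2, hw1⟩
      rwa [hTrT, Subgroup.mem_bot] at this
    have hXX : X * X ∈ R.map (MulAut.conj x).toMonoidHom ⊓ R := by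
      refine Subgroup.mem_inf.mpr ⟨Subgroup.mul_mem _ hXmem hXmem, ?_⟩
      have : X * X = (r₀ * r₀)⁻¹ := eq_inv_of_mul_eq_one_left hw
      rw [this]; exact R.inv_mem (R.mul_mem hr₀R hr₀R)
    rw [hRxR, Subgroup.mem_bot] at hXX
    apply hr₀2
    have : r₀ * r₀ = x⁻¹ * (X * X) * x := by rw [hX]; group
    rw [this, hXX]; group

theorem result {S : Type*} [Group S] [Finite S] (hS : IsPGroup 2 S)
    (Δ : Set (Subgroup S)) (hinv : ∀ s : S, ∀ R ∈ Δ, R.map (MulAut.conj s).toMonoidHom ∈ Δ)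
    (hΦ : ∀ R ∈ Δ, frattini ↥R ≠ ⊥) (hord : ∀ R ∈ Δ, ∀ T ∈ Δ, Nat.card ↥R = Nat.card ↥T)
    (hti : ∀ R ∈ Δ, ∀ T ∈ Δ, R = T ∨ R ⊓ T = ⊥) :
    ∀ R ∈ Δ, ∀ T ∈ Δ, R ≠ T → ⁅R, T⁆ = ⊥ := by
  intro R hR T hT hRT
  have hexp : ∀ R ∈ Δ, ∃ x ∈ R, x * x ≠ 1 := by
    intro R hR
    obtain ⟨x, hx⟩ := exists_sq_ne_one_of_frattini_ne_bot ↥R (hΦ R hR)
    refine ⟨x, x.2, fun h => hx ?_⟩
    apply Subtype.ext
    rw [pow_two]
    simpa using h
  have := main hS (Nat.card (⊤ : Subgroup S)) ⊤ Δ le_rfl (fun _ _ => le_top) (fun s _ => hinv s)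
    hexp hord hti R hR T hT hRT
  rw [Subgroup.commutator_eq_bot_iff_le_centralizer]
  intro r hr
  rw [Subgroup.mem_centralizer_iff]
  intro t ht
  exact (this r hr t ht).symm

end Cfsg.Agent.S1782
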