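import Cfsg.Statements.S1783
-- import your own Cfsg.Agent.* helpers here
import Cfsg.Agent.S1265

set_option autoImplicit false
open Cfsg

namespace Cfsg.Agent.S1783

section
variable {X : Type*} [Group X]

theorem comm_conj {a b : X} (h : a * b = b * a) (g : X) :
    (g * a * g⁻¹) * (g * b * g⁻¹) = (g * b * g⁻¹) * (g * a * g⁻¹) := by
  calc (g * a * g⁻¹) * (g * b * g⁻¹) = g * (a * b) * g⁻¹ := by group
    _ = g * (b * a) * g⁻¹ := by rw [h]
    _ = (g * b * g⁻¹) * (g * a * g⁻¹) := by group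

theorem closure_comm (S : Set X) (h : ∀ x ∈ S, ∀ y ∈ S, x * y = y * x) :
    ∀ x ∈ Subgroup.closure S, ∀ y ∈ Subgroup.closure S, x * y = y * x := by
  have h1 : Subgroup.closure S ≤ Subgroup.centralizer S :=
    (Subgroup.closure_le _).mpr
      (fun x hx => Subgroup.mem_centralizer_iff.mpr (fun y hy => h y hy x hx))
  have h2 : Subgroup.closure S ≤ Subgroup.centralizer (Subgroup.closure S : Set X) :=
    (Subgroup.closure_le _).mpr (fun x hx => Subgroup.mem_centralizer_iff.mpr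
      (fun y hy => (Subgroup.mem_centralizer_iff.mp (h1 hy) x hx).symm))
  intro x hx y hy
  exact (Subgroup.mem_centralizer_iff.mp (h2 hx) y hy).symm

theorem exists_order_four (x : X) (h : ∃ k : ℕ, x ^ (2 ^ k) = 1) (hx : x ^ 2 ≠ 1) :
    ∃ m : ℕ, (x ^ m) ^ 4 = 1 ∧ (x ^ m) ^ 2 ≠ 1 := by
  classical
  have hmin : ∀ m : ℕ, m < Nat.find h → ¬ x ^ (2 ^ m) = 1 := fun m hm => Nat.find_min h hm
  have hspec : x ^ (2 ^ (Nat.find h)) = 1 := Nat.find_spec h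
  generalize Nat.find h = k at hmin hspec
  have hk2 : 2 ≤ k := by
    by_contra hlt
    have hk : k = 0 ∨ k = 1 := by omega
    rcases hk with h0 | h1
    · rw [h0] at hspec
      simp at hspec
      exact hx (by rw [hspec]; simp)
    · rw [h1] at hspec
      simp at hspec
      exact hx hspec
  refine ⟨2 ^ (k - 2), ?_, ?_⟩
  · rw [← pow_mul]
    have e : 2 ^ (k - 2) * 4 = 2 ^ k := by
      have hk' : k = (k - 2) + 2 := by omega
      conv_rhs => rw [hk', pow_add]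
      norm_num
    rw [e]; exact hspec
  · rw [← pow_mul]
    have e : 2 ^ (k - 2) * 2 = 2 ^ (k - 1) := by
      have hk' : k - 1 = (k - 2) + 1 := by omega
      rw [hk', pow_succ]
    rw [e]
    exact hmin (k - 1) (by omega)

theorem exists_invol_pow (x : X) (h : ∃ k : ℕ, x ^ (2 ^ k) = 1) (hx : x ≠ 1) :
    ∃ m : ℕ, x ^ m ≠ 1 ∧ (x ^ m) ^ 2 = 1 := by
  classical
  have hmin : ∀ m : ℕ, m < Nat.find h → ¬ x ^ (2 ^ m) = 1 := fun m hm => Nat.find_min h hm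
  have hspec : x ^ (2 ^ (Nat.find h)) = 1 := Nat.find_spec h
  generalize Nat.find h = k at hmin hspec
  have hk1 : 1 ≤ k := by
    by_contra hlt
    have hk : k = 0 := by omega
    rw [hk] at hspec
    simp at hspec
    exact hx hspec
  refine ⟨2 ^ (k - 1), hmin (k - 1) (by omega), ?_⟩
  rw [← pow_mul]
  have e : 2 ^ (k - 1) * 2 = 2 ^ k := by
    have hk' : k = (k - 1) + 1 := by omega
    conv_rhs => rw [hk', pow_succ]
  rw [e]; exact hspec

theorem modcore (E : Subgroup X) (hEab : ∀ x ∈ E, ∀ y ∈ E, x * y = y * x)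
    (c : X) (hcE : ∀ e ∈ E, c * e * c⁻¹ ∈ E) (hc4 : c ^ 4 = 1)
    (hfix : ∀ e ∈ E, c * (c * e * c⁻¹) * c⁻¹ = e → c * e * c⁻¹ = e)
    (a : X) (ha : a ∈ E)
    (hv2 : (c * (c * a * c⁻¹) * c⁻¹ * a⁻¹) * (c * (c * a * c⁻¹) * c⁻¹ * a⁻¹) = 1) :
    c * (c * a * c⁻¹) * c⁻¹ * a⁻¹ = 1 := by
  have hβa : c * a * c⁻¹ ∈ E := hcE a ha
  have hba : c * (c * a * c⁻¹) * c⁻¹ ∈ E := hcE _ hβa
  obtain ⟨v, hv⟩ : ∃ v, v = c * (c * a * c⁻¹) * c⁻¹ * a⁻¹ := ⟨_, rfl⟩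
  rw [← hv] at hv2 ⊢
  have hvE : v ∈ E := by rw [hv]; exact E.mul_mem hba (E.inv_mem ha)
  have hvinv : v⁻¹ = v := inv_eq_of_mul_eq_one_left hv2
  have h1 : c * (c * v * c⁻¹) * c⁻¹ = v := by
    have hc4' : c * c * c * c = 1 := by
      have h' := hc4
      rw [pow_succ, pow_succ, pow_succ, pow_one] at h'
      exact h'
    have e1 : c * (c * v * c⁻¹) * c⁻¹
        = ((c * c * c * c) * a * (c * c * c * c)⁻¹) * (c * (c * a * c⁻¹) * c⁻¹)⁻¹ := by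
      rw [hv]; group
    rw [e1, hc4']
    have e2 : ((1 : X) * a * (1 : X)⁻¹) * (c * (c * a * c⁻¹) * c⁻¹)⁻¹ = v⁻¹ := by
      rw [hv]; group
    rw [e2, hvinv]
  have h2 : c * v * c⁻¹ = v := hfix v hvE h1
  obtain ⟨w, hw⟩ : ∃ w, w = c * a * c⁻¹ * a := ⟨_, rfl⟩
  have hwE : w ∈ E := by rw [hw]; exact E.mul_mem hβa ha
  have hba' : c * (c * a * c⁻¹) * c⁻¹ = v * a := by rw [hv]; group
  have h3 : c * (c * w * c⁻¹) * c⁻¹ = w := by
    have e1 : c * (c * w * c⁻¹) * c⁻¹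
        = (c * (c * (c * a * c⁻¹) * c⁻¹) * c⁻¹) * (c * (c * a * c⁻¹) * c⁻¹) := by
      rw [hw]; group
    rw [e1, hba']
    have e2 : c * (v * a) * c⁻¹ = (c * v * c⁻¹) * (c * a * c⁻¹) := by group
    rw [e2, h2]
    have hcomm : (c * a * c⁻¹) * v = v * (c * a * c⁻¹) := hEab _ hβa _ hvE
    calc v * (c * a * c⁻¹) * (v * a) = v * ((c * a * c⁻¹) * v) * a := by group
      _ = v * (v * (c * a * c⁻¹)) * a := by rw [hcomm]
      _ = (v * v) * (c * a * c⁻¹ * a) := by group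
      _ = w := by rw [hv2, one_mul, hw]
  have h4 : c * w * c⁻¹ = w := hfix w hwE h3
  have h5 : c * w * c⁻¹ = v * a * (c * a * c⁻¹) := by
    have e1 : c * w * c⁻¹ = (c * (c * a * c⁻¹) * c⁻¹) * (c * a * c⁻¹) := by rw [hw]; group
    rw [e1, hba']
  have h6 : w = a * (c * a * c⁻¹) := by rw [hw]; exact hEab _ hβa _ ha
  have h7 : v * (a * (c * a * c⁻¹)) = a * (c * a * c⁻¹) := by
    rw [← mul_assoc, ← h5, h4, h6]
  simpa using h7

theorem modlem (E : Subgroup X) (hEab : ∀ x ∈ E, ∀ y ∈ E, x * y = y * x)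
    (hE2 : ∀ x ∈ E, ∃ k : ℕ, x ^ (2 ^ k) = 1)
    (c : X) (hcE : ∀ e ∈ E, c * e * c⁻¹ ∈ E) (hc4 : c ^ 4 = 1)
    (hfix : ∀ e ∈ E, c * (c * e * c⁻¹) * c⁻¹ = e → c * e * c⁻¹ = e) :
    ∀ e ∈ E, c * (c * e * c⁻¹) * c⁻¹ = e := by
  have key : ∀ k : ℕ, ∀ a ∈ E, (c * (c * a * c⁻¹) * c⁻¹ * a⁻¹) ^ (2 ^ k) = 1 →
      c * (c * a * c⁻¹) * c⁻¹ * a⁻¹ = 1 := by
    intro k
    induction k with
    | zero => intro a _ h; simpa using h
    | succ k ih =>
      intro a ha h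
      apply modcore E hEab c hcE hc4 hfix a ha
      have hβa : c * a * c⁻¹ ∈ E := hcE a ha
      have hba : c * (c * a * c⁻¹) * c⁻¹ ∈ E := hcE _ hβa
      have hc1 : a⁻¹ * (c * (c * a * c⁻¹) * c⁻¹) = (c * (c * a * c⁻¹) * c⁻¹) * a⁻¹ :=
        hEab _ (E.inv_mem ha) _ hba
      have hd : (c * (c * a * c⁻¹) * c⁻¹ * a⁻¹) * (c * (c * a * c⁻¹) * c⁻¹ * a⁻¹)
          = c * (c * (a * a) * c⁻¹) * c⁻¹ * (a * a)⁻¹ := by
        calc (c * (c * a * c⁻¹) * c⁻¹ * a⁻¹) * (c * (c * a * c⁻¹) * c⁻¹ * a⁻¹)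
            = (c * (c * a * c⁻¹) * c⁻¹) * (a⁻¹ * (c * (c * a * c⁻¹) * c⁻¹)) * a⁻¹ := by group
          _ = (c * (c * a * c⁻¹) * c⁻¹) * ((c * (c * a * c⁻¹) * c⁻¹) * a⁻¹) * a⁻¹ := by rw [hc1]
          _ = c * (c * (a * a) * c⁻¹) * c⁻¹ * (a * a)⁻¹ := by group
      rw [hd]
      apply ih (a * a) (E.mul_mem ha ha)
      rw [← hd, ← pow_two, ← pow_mul, ← pow_succ']
      exact h
  intro e he
  have hβe : c * e * c⁻¹ ∈ E := hcE e he
  have hbe : c * (c * e * c⁻¹) * c⁻¹ ∈ E := hcE _ hβe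
  obtain ⟨k, hk⟩ := hE2 _ (E.mul_mem hbe (E.inv_mem he))
  exact mul_inv_eq_one.mp (key k e he hk)

theorem keyK (B B₀ E : Subgroup X)
    (hTI : ∀ b ∈ B, b ≠ 1 → ∀ g : X, g * b = b * g → ∀ x ∈ B, g * x * g⁻¹ ∈ B)
    (hB₀ : B₀ ≤ B)
    (b₁ : X) (hb₁ : b₁ ∈ B₀) (hb4 : b₁ ^ 4 = 1) (hb2 : b₁ ^ 2 ≠ 1)
    (hEab : ∀ x ∈ E, ∀ y ∈ E, x * y = y * x) (hE2 : ∀ x ∈ E, ∃ k : ℕ, x ^ (2 ^ k) = 1)
    (hnorm : ∀ b ∈ B₀, ∀ e ∈ E, b * e * b⁻¹ ∈ E)
    (hBE : ∀ c ∈ B, c ∈ E → c = 1) :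
    ∀ b ∈ B₀, ∀ e ∈ E, b * e = e * b := by
  have star : ∀ b ∈ B₀, b ≠ 1 → ∀ e ∈ E, e * b = b * e → ∀ b' ∈ B₀, b' * e = e * b' := by
    intro b hb hb1 e he hcomm b' hb'
    have hn := hTI b (hB₀ hb) hb1 e hcomm
    have h1 : e * b' * e⁻¹ * b'⁻¹ ∈ B := B.mul_mem (hn b' (hB₀ hb')) (B.inv_mem (hB₀ hb'))
    have h2 : e * b' * e⁻¹ * b'⁻¹ ∈ E := by
      have e1 : e * b' * e⁻¹ * b'⁻¹ = e * (b' * e⁻¹ * b'⁻¹) := by group
      rw [e1]
      exact E.mul_mem he (hnorm b' hb' _ (E.inv_mem he))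
    have h3 := hBE _ h1 h2
    have h4 : e * b' * e⁻¹ = b' := mul_inv_eq_one.mp h3
    have h5 : e * b' = b' * e := mul_inv_eq_iff_eq_mul.mp h4
    exact h5.symm
  have hsq : b₁ ^ 2 ∈ B₀ := B₀.pow_mem hb₁ 2
  have hfix : ∀ e ∈ E, b₁ * (b₁ * e * b₁⁻¹) * b₁⁻¹ = e → b₁ * e * b₁⁻¹ = e := by
    intro e he h
    have hc : e * b₁ ^ 2 = b₁ ^ 2 * e := by
      have e1 : b₁ ^ 2 * e = (b₁ * (b₁ * e * b₁⁻¹) * b₁⁻¹) * b₁ ^ 2 := by
        rw [pow_two]; group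
      rw [e1, h]
    have h6 := star (b₁ ^ 2) hsq hb2 e he hc b₁ hb₁
    rw [h6]; group
  have hall := modlem E hEab hE2 b₁ (fun e he => hnorm b₁ hb₁ e he) hb4 hfix
  intro b hb e he
  have hc : e * b₁ ^ 2 = b₁ ^ 2 * e := by
    have h := hall e he
    have e1 : b₁ ^ 2 * e = (b₁ * (b₁ * e * b₁⁻¹) * b₁⁻¹) * b₁ ^ 2 := by
      rw [pow_two]; group
    rw [e1, h]
  exact star (b₁ ^ 2) hsq hb2 e he hc b hb

theorem ti_elem (A : Subgroup X)
    (hti : ∀ h : X, A.map (MulAut.conj h).toMonoidHom = A ∨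
      A.map (MulAut.conj h).toMonoidHom ⊓ A = ⊥) :
    ∀ g : X, (∃ a ∈ A, a ≠ 1 ∧ g * a * g⁻¹ ∈ A) → ∀ x ∈ A, g * x * g⁻¹ ∈ A := by
  rintro g ⟨a, ha, ha1, hga⟩ x hx
  rcases hti g with h | h
  · have hm : g * x * g⁻¹ ∈ A.map (MulAut.conj g).toMonoidHom :=
      Subgroup.mem_map.mpr ⟨x, hx, by simp [MulAut.conj_apply]⟩
    rwa [h] at hm
  · exfalso
    have hm : g * a * g⁻¹ ∈ A.map (MulAut.conj g).toMonoidHom ⊓ A :=
      ⟨Subgroup.mem_map.mpr ⟨a, ha, by simp [MulAut.conj_apply]⟩, hga⟩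
    rw [h, Subgroup.mem_bot] at hm
    apply ha1
    have e1 : a = g⁻¹ * (g * a * g⁻¹) * g := by group
    rw [e1, hm]; group

theorem pairK (A : Subgroup X)
    (hAab : ∀ x ∈ A, ∀ y ∈ A, x * y = y * x)
    (hA2 : ∀ x ∈ A, ∃ k : ℕ, x ^ (2 ^ k) = 1)
    (hTI : ∀ g : X, (∃ a ∈ A, a ≠ 1 ∧ g * a * g⁻¹ ∈ A) → ∀ x ∈ A, g * x * g⁻¹ ∈ A)
    (a₁ : X) (ha₁ : a₁ ∈ A) (h4 : a₁ ^ 4 = 1) (h2 : a₁ ^ 2 ≠ 1)
    (h : X) (B₀ : Subgroup X) (hB₀ : ∀ b ∈ B₀, ∃ a ∈ A, b = h * a * h⁻¹)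
    (b₁ : X) (hb₁ : b₁ ∈ B₀) (hb4 : b₁ ^ 4 = 1) (hb2 : b₁ ^ 2 ≠ 1)
    (E : Subgroup X) (hEab : ∀ x ∈ E, ∀ y ∈ E, x * y = y * x)
    (hE2 : ∀ x ∈ E, ∃ k : ℕ, x ^ (2 ^ k) = 1) (hAE : A ≤ E)
    (hnorm : ∀ b ∈ B₀, ∀ e ∈ E, b * e * b⁻¹ ∈ E) :
    ∀ b ∈ B₀, ∀ a ∈ A, b * a = a * b := by
  obtain ⟨B, hBdef⟩ : ∃ B : Subgroup X, B = A.map (MulAut.conj h).toMonoidHom := ⟨_, rfl⟩
  have hBmem : ∀ x, x ∈ B ↔ ∃ a ∈ A, x = h * a * h⁻¹ := by
    intro x
    rw [hBdef, Subgroup.mem_map]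
    constructor
    · rintro ⟨a, ha, rfl⟩
      exact ⟨a, ha, by simp [MulAut.conj_apply]⟩
    · rintro ⟨a, ha, rfl⟩
      exact ⟨a, ha, by simp [MulAut.conj_apply]⟩
  have hB₀B : B₀ ≤ B := fun b hb => (hBmem b).mpr (hB₀ b hb)
  have hTIA : ∀ b ∈ A, b ≠ 1 → ∀ g : X, g * b = b * g → ∀ x ∈ A, g * x * g⁻¹ ∈ A := by
    intro b hb hb1 g hg
    refine hTI g ⟨b, hb, hb1, ?_⟩
    rw [hg, mul_inv_cancel_right]; exact hb
  have hTIB : ∀ b ∈ B, b ≠ 1 → ∀ g : X, g * b = b * g → ∀ x ∈ B, g * x * g⁻¹ ∈ B := by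
    intro b hb hb1 g hg x hx
    obtain ⟨a, ha, rfl⟩ := (hBmem b).mp hb
    obtain ⟨a', ha', rfl⟩ := (hBmem x).mp hx
    have ha1 : a ≠ 1 := by
      rintro rfl
      apply hb1; group
    have hg' : (h⁻¹ * g * h) * a = a * (h⁻¹ * g * h) := by
      have e1 : (h⁻¹ * g * h) * a = h⁻¹ * (g * (h * a * h⁻¹)) * h := by group
      rw [e1, hg]; group
    have hm := hTIA a ha ha1 (h⁻¹ * g * h) hg' a' ha'
    refine (hBmem _).mpr ⟨_, hm, ?_⟩
    group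
  have hBab : ∀ x ∈ B, ∀ y ∈ B, x * y = y * x := by
    intro x hx y hy
    obtain ⟨a, ha, rfl⟩ := (hBmem x).mp hx
    obtain ⟨a', ha', rfl⟩ := (hBmem y).mp hy
    exact comm_conj (hAab a ha a' ha') h
  have hB2 : ∀ x ∈ B, ∃ k : ℕ, x ^ (2 ^ k) = 1 := by
    intro x hx
    obtain ⟨a, ha, rfl⟩ := (hBmem x).mp hx
    obtain ⟨k, hk⟩ := hA2 a ha
    exact ⟨k, by rw [conj_pow, hk]; group⟩
  intro b hb a ha
  by_cases hc : ∃ c ∈ B, c ∈ E ∧ c ≠ 1
  · obtain ⟨c, hcB, hcE, hc1⟩ := hc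
    have hEB : ∀ e ∈ E, ∀ x ∈ B, e * x * e⁻¹ ∈ B :=
      fun e he => hTIB c hcB hc1 e (hEab e he c hcE)
    by_cases hc' : ∃ c' ∈ A, c' ∈ B ∧ c' ≠ 1
    · obtain ⟨c', hc'A, hc'B, hc'1⟩ := hc'
      obtain ⟨a₀, ha₀, rfl⟩ := (hBmem c').mp hc'B
      have ha₀1 : a₀ ≠ 1 := by
        rintro rfl
        apply hc'1; group
      have hsub := hTI h ⟨a₀, ha₀, ha₀1, hc'A⟩
      obtain ⟨a₂, ha₂, rfl⟩ := hB₀ b hb
      exact hAab _ (hsub a₂ ha₂) a ha
    · have hk := keyK A A B hTIA le_rfl a₁ ha₁ h4 h2 hBab hB2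
        (fun b' hb' e he => hEB b' (hAE hb') e he)
        (fun c' hc'A hc'B => by
          by_contra hne
          exact hc' ⟨c', hc'A, hc'B, hne⟩)
      exact (hk a ha b (hB₀B hb)).symm
  · have hk := keyK B B₀ E hTIB hB₀B b₁ hb₁ hb4 hb2 hEab hE2 hnorm
      (fun c hcB hcE => by
        by_contra hne
        exact hc ⟨c, hcB, hcE, hne⟩)
    exact hk b hb a (hAE ha)

theorem econstr (A N T : Subgroup X) (hAT : A ≤ T) (hNT : N ≤ T)
    (hT2 : ∀ z ∈ T, ∃ k : ℕ, z ^ (2 ^ k) = 1)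
    (hc : ∀ x ∈ N, ∀ a ∈ A, ∀ a' ∈ A, (x * a * x⁻¹) * a' = a' * (x * a * x⁻¹)) :
    ∃ E : Subgroup X, (∀ x ∈ E, ∀ y ∈ E, x * y = y * x) ∧
      (∀ z ∈ E, ∃ k : ℕ, z ^ (2 ^ k) = 1) ∧ A ≤ E ∧
      (∀ n ∈ N, ∀ e ∈ E, n * e * n⁻¹ ∈ E) := by
  obtain ⟨S, hS⟩ : ∃ S : Set X, S = {z | ∃ x ∈ N, ∃ a ∈ A, z = x * a * x⁻¹} := ⟨_, rfl⟩
  have hSc : ∀ z ∈ S, ∀ z' ∈ S, z * z' = z' * z := by
    intro z hz z' hz'
    rw [hS] at hz hz'
    obtain ⟨x, hx, b, hb, rfl⟩ := hz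
    obtain ⟨x', hx', b', hb', rfl⟩ := hz'
    have h := hc (x⁻¹ * x') (N.mul_mem (N.inv_mem hx) hx') b' hb' b hb
    have h' := comm_conj h x
    have e : x * ((x⁻¹ * x') * b' * (x⁻¹ * x')⁻¹) * x⁻¹ = x' * b' * x'⁻¹ := by group
    rw [e] at h'
    exact h'.symm
  refine ⟨Subgroup.closure S, closure_comm S hSc, ?_, ?_, ?_⟩
  · have hET : Subgroup.closure S ≤ T := by
      rw [Subgroup.closure_le]
      intro z hz
      rw [hS] at hz
      obtain ⟨x, hx, b, hb, rfl⟩ := hz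
      exact T.mul_mem (T.mul_mem (hNT hx) (hAT hb)) (T.inv_mem (hNT hx))
    exact fun z hz => hT2 z (hET hz)
  · intro b hb
    apply Subgroup.subset_closure
    rw [hS]
    exact ⟨1, N.one_mem, b, hb, by group⟩
  · intro n hn e he
    induction he using Subgroup.closure_induction with
    | mem z hz =>
      rw [hS] at hz
      obtain ⟨x, hx, b, hb, rfl⟩ := hz
      apply Subgroup.subset_closure
      rw [hS]
      exact ⟨n * x, N.mul_mem hn hx, b, hb, by group⟩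
    | one => simp
    | mul u v _ _ hu hv =>
      have e1 : n * (u * v) * n⁻¹ = (n * u * n⁻¹) * (n * v * n⁻¹) := by group
      rw [e1]; exact Subgroup.mul_mem _ hu hv
    | inv u _ hu =>
      have e1 : n * u⁻¹ * n⁻¹ = (n * u * n⁻¹)⁻¹ := by group
      rw [e1]; exact Subgroup.inv_mem _ hu

theorem t2 [Finite X] (A : Subgroup X)
    (hAab : ∀ x ∈ A, ∀ y ∈ A, x * y = y * x)
    (hTI : ∀ g : X, (∃ a ∈ A, a ≠ 1 ∧ g * a * g⁻¹ ∈ A) → ∀ x ∈ A, g * x * g⁻¹ ∈ A)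
    (a₁ : X) (ha₁ : a₁ ∈ A) (h4 : a₁ ^ 4 = 1) (h2 : a₁ ^ 2 ≠ 1)
    (T : Subgroup X) (hT : IsPGroup 2 T) (hAT : A ≤ T) :
    ∀ x ∈ T, ∀ a ∈ A, ∀ a' ∈ A, (x * a * x⁻¹) * a' = a' * (x * a * x⁻¹) := by
  classical
  have hT2 : ∀ z ∈ T, ∃ k : ℕ, z ^ (2 ^ k) = 1 := by
    intro z hz
    obtain ⟨k, hk⟩ := hT ⟨z, hz⟩
    exact ⟨k, by simpa using congrArg Subtype.val hk⟩
  have hA2 : ∀ z ∈ A, ∃ k : ℕ, z ^ (2 ^ k) = 1 := fun z hz => hT2 z (hAT hz)
  obtain ⟨P, hP⟩ : ∃ P : Subgroup X → Prop, P = fun N => A ≤ N ∧ N ≤ T ∧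
    ∀ x ∈ N, ∀ a ∈ A, ∀ a' ∈ A, (x * a * x⁻¹) * a' = a' * (x * a * x⁻¹) := ⟨_, rfl⟩
  have hPA : P A := by
    rw [hP]
    exact ⟨le_refl _, hAT, fun x hx a ha a' ha' =>
      hAab _ (A.mul_mem (A.mul_mem hx ha) (A.inv_mem hx)) _ ha'⟩
  obtain ⟨N, hAN, hNmax⟩ := Finite.exists_le_maximal hPA
  have hPN : A ≤ N ∧ N ≤ T ∧
      ∀ x ∈ N, ∀ a ∈ A, ∀ a' ∈ A, (x * a * x⁻¹) * a' = a' * (x * a * x⁻¹) := by
    have := hNmax.prop
    rw [hP] at this
    exact this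
  have step : ∀ y ∈ T, (∀ n ∈ N, y * n * y⁻¹ ∈ N) → ∀ a ∈ A, ∀ a' ∈ A,
      (y * a * y⁻¹) * a' = a' * (y * a * y⁻¹) := by
    intro y _ hyN a ha a' ha'
    obtain ⟨E, hEab, hE2, hAE, hNE⟩ := econstr A N T hAT hPN.2.1 hT2 hPN.2.2
    have hB₀ : ∀ b ∈ A.map (MulAut.conj y).toMonoidHom, ∃ a ∈ A, b = y * a * y⁻¹ := by
      intro b hb
      obtain ⟨a, ha, rfl⟩ := Subgroup.mem_map.mp hb
      exact ⟨a, ha, by simp [MulAut.conj_apply]⟩
    have hB₀N : ∀ b ∈ A.map (MulAut.conj y).toMonoidHom, b ∈ N := by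
      intro b hb
      obtain ⟨a, ha, rfl⟩ := hB₀ b hb
      exact hyN a (hPN.1 ha)
    have hmem : ∀ a ∈ A, y * a * y⁻¹ ∈ A.map (MulAut.conj y).toMonoidHom :=
      fun a ha => Subgroup.mem_map.mpr ⟨a, ha, by simp [MulAut.conj_apply]⟩
    have hb4 : (y * a₁ * y⁻¹) ^ 4 = 1 := by rw [conj_pow, h4]; group
    have hb2 : (y * a₁ * y⁻¹) ^ 2 ≠ 1 := by
      rw [conj_pow]
      intro hh
      apply h2
      have e1 : a₁ ^ 2 = y⁻¹ * (y * a₁ ^ 2 * y⁻¹) * y := by group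
      rw [e1, hh]; group
    have hk := pairK A hAab hA2 hTI a₁ ha₁ h4 h2 y (A.map (MulAut.conj y).toMonoidHom) hB₀
      (y * a₁ * y⁻¹) (hmem a₁ ha₁) hb4 hb2 E hEab hE2 hAE
      (fun b hb e he => hNE b (hB₀N b hb) e he)
    exact hk (y * a * y⁻¹) (hmem a ha) a' ha'
  have hNT : N = T := by
    by_contra hne
    have : Fact (Nat.Prime 2) := ⟨Nat.prime_two⟩
    have : Group.IsNilpotent T := hT.isNilpotent
    have hnc := Group.normalizerCondition_of_isNilpotent (G := T)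
    have hlt' : N.subgroupOf T < ⊤ := by
      rw [lt_top_iff_ne_top]
      intro h
      rw [Subgroup.subgroupOf_eq_top] at h
      exact hne (le_antisymm hPN.2.1 h)
    obtain ⟨y, hyn, hyN⟩ := SetLike.exists_of_lt (hnc _ hlt')
    have hyiff : ∀ n : X, n ∈ N ↔ (y : X) * n * (y : X)⁻¹ ∈ N := by
      intro n
      constructor
      · intro hn
        have h1 := (Subgroup.mem_normalizer_iff.mp hyn ⟨n, hPN.2.1 hn⟩).mp
          (by simpa [Subgroup.mem_subgroupOf] using hn)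
        simpa [Subgroup.mem_subgroupOf] using h1
      · intro hn
        have hnT : n ∈ T := by
          have e1 : n = (y : X)⁻¹ * ((y : X) * n * (y : X)⁻¹) * (y : X) := by group
          rw [e1]
          exact T.mul_mem (T.mul_mem (T.inv_mem y.2) (hPN.2.1 hn)) y.2
        have h1 := (Subgroup.mem_normalizer_iff.mp hyn ⟨n, hnT⟩).mpr
          (by simpa [Subgroup.mem_subgroupOf] using hn)
        simpa [Subgroup.mem_subgroupOf] using h1
    have hy2 : (y : X) ∉ N := by simpa [Subgroup.mem_subgroupOf] using hyN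
    have hPN' : P (Subgroup.normalizer (N : Set X) ⊓ T) := by
      rw [hP]
      refine ⟨le_inf (le_trans hPN.1 Subgroup.le_normalizer) hAT, inf_le_right, ?_⟩
      intro x hx a ha a' ha'
      exact step x hx.2 (fun n hn => (Subgroup.mem_normalizer_iff.mp hx.1 n).mp hn) a ha a' ha'
    have hNN' : N ≤ Subgroup.normalizer (N : Set X) ⊓ T := le_inf Subgroup.le_normalizer hPN.2.1
    have hle := hNmax.le_of_ge hPN' hNN'
    exact hy2 (hle ⟨Subgroup.mem_normalizer_iff.mpr hyiff, y.2⟩)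
  intro x hx a ha a' ha'
  exact hPN.2.2 x (hNT ▸ hx) a ha a' ha'

end

section
variable {X : Type*} [Group X]

def sqN (R : Subgroup X) : Subgroup X := Subgroup.closure {z | ∃ u ∈ R, z = u ^ 2}

theorem sqN_le (R : Subgroup X) : sqN R ≤ R := by
  unfold sqN
  rw [Subgroup.closure_le]
  rintro z ⟨u, hu, rfl⟩
  exact R.pow_mem hu 2

theorem sqN_normal (R : Subgroup X) (hR : R.Normal) : (sqN R).Normal := by
  refine ⟨fun e he n => ?_⟩
  unfold sqN at he ⊢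
  induction he using Subgroup.closure_induction with
  | mem z hz =>
    obtain ⟨u, hu, rfl⟩ := hz
    apply Subgroup.subset_closure
    exact ⟨n * u * n⁻¹, hR.conj_mem u hu n, by rw [conj_pow]⟩
  | one => simp
  | mul u v _ _ hu hv =>
    have e1 : n * (u * v) * n⁻¹ = (n * u * n⁻¹) * (n * v * n⁻¹) := by group
    rw [e1]; exact Subgroup.mul_mem _ hu hv
  | inv u _ hu =>
    have e1 : n * u⁻¹ * n⁻¹ = (n * u * n⁻¹)⁻¹ := by group
    rw [e1]; exact Subgroup.inv_mem _ hu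

end

theorem sq_proper : ∀ (n : ℕ) (R : Type*) [Group R] [Finite R], IsPGroup 2 R → Nontrivial R →
    Nat.card R ≤ n → Subgroup.closure {z : R | ∃ u : R, z = u ^ 2} ≠ ⊤ := by
  intro n
  induction n with
  | zero =>
    intro R _ _ _ _ hc
    have := Nat.card_pos (α := R)
    omega
  | succ n ih =>
    intro R _ _ hR2 hnt hc
    have : Fact (Nat.Prime 2) := ⟨Nat.prime_two⟩
    have hcn : Nontrivial (Subgroup.center R) := hR2.center_nontrivial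
    obtain ⟨⟨z, hz⟩, hz1⟩ := exists_ne (1 : Subgroup.center R)
    have hz1' : z ≠ 1 := fun h => hz1 (Subtype.ext h)
    obtain ⟨m, hm1, hm2⟩ := exists_invol_pow z (hR2 z) hz1'
    have hzc : z ^ m ∈ Subgroup.center R := (Subgroup.center R).pow_mem hz m
    have hNn : (Subgroup.zpowers (z ^ m)).Normal := by
      refine ⟨fun x hx g => ?_⟩
      have hxc : x ∈ Subgroup.center R := (Subgroup.zpowers_le.mpr hzc) hx
      have e1 : g * x * g⁻¹ = x := by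
        have := Subgroup.mem_center_iff.mp hxc g
        rw [this]; group
      rw [e1]; exact hx
    by_cases hq : Nontrivial (R ⧸ Subgroup.zpowers (z ^ m))
    · have hcard : Nat.card (R ⧸ Subgroup.zpowers (z ^ m)) ≤ n := by
        have h1 := Subgroup.card_eq_card_quotient_mul_card_subgroup (Subgroup.zpowers (z ^ m))
        have h2 : 1 < Nat.card (Subgroup.zpowers (z ^ m)) := by
          have : Nontrivial (Subgroup.zpowers (z ^ m)) :=
            ⟨⟨⟨1, Subgroup.one_mem _⟩, ⟨z ^ m, Subgroup.mem_zpowers _⟩,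
              fun h => hm1 (congrArg Subtype.val h).symm⟩⟩
          exact Finite.one_lt_card
        have h3 := Nat.card_pos (α := R ⧸ Subgroup.zpowers (z ^ m))
        have h4 : Nat.card (R ⧸ Subgroup.zpowers (z ^ m)) * 2
            ≤ Nat.card (R ⧸ Subgroup.zpowers (z ^ m)) * Nat.card (Subgroup.zpowers (z ^ m)) :=
          Nat.mul_le_mul_left _ h2
        omega
      have hih := ih (R ⧸ Subgroup.zpowers (z ^ m)) (hR2.to_quotient _) hq hcard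
      intro htop
      apply hih
      rw [eq_top_iff]
      intro xb _
      obtain ⟨x, rfl⟩ := QuotientGroup.mk_surjective xb
      have hx : x ∈ Subgroup.closure {z : R | ∃ u : R, z = u ^ 2} := by rw [htop]; trivial
      have hle : Subgroup.closure {z : R | ∃ u : R, z = u ^ 2} ≤
          (Subgroup.closure {z : R ⧸ Subgroup.zpowers (z ^ m) | ∃ u, z = u ^ 2}).comap
            (QuotientGroup.mk' (Subgroup.zpowers (z ^ m))) := by
        rw [Subgroup.closure_le]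
        rintro y ⟨u, rfl⟩
        apply Subgroup.subset_closure
        exact ⟨QuotientGroup.mk' _ u, by simp⟩
      exact hle hx
    · rw [not_nontrivial_iff_subsingleton] at hq
      have hall : ∀ x : R, x ∈ Subgroup.zpowers (z ^ m) := by
        intro x
        have h1 : (QuotientGroup.mk x : R ⧸ Subgroup.zpowers (z ^ m)) = QuotientGroup.mk 1 :=
          Subsingleton.elim _ _
        have h2 := QuotientGroup.eq.mp h1
        have h3 : x⁻¹ ∈ Subgroup.zpowers (z ^ m) := by simpa using h2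
        simpa using Subgroup.inv_mem _ h3
      intro htop
      have hbot : Subgroup.closure {z : R | ∃ u : R, z = u ^ 2} ≤ ⊥ := by
        rw [Subgroup.closure_le]
        rintro y ⟨u, rfl⟩
        obtain ⟨k, rfl⟩ := Subgroup.mem_zpowers_iff.mp (hall u)
        have hgg : z ^ m * z ^ m = 1 := by rw [← pow_two]; exact hm2
        have e1 : ((z ^ m) ^ k) ^ 2 = 1 := by
          calc ((z ^ m) ^ k) ^ 2 = (z ^ m) ^ k * (z ^ m) ^ k := pow_two _
            _ = (z ^ m) ^ (k + k) := (zpow_add (z ^ m) k k).symm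
            _ = (z ^ m) ^ (2 * k) := by rw [two_mul]
            _ = ((z ^ m) ^ (2 : ℤ)) ^ k := zpow_mul (z ^ m) 2 k
            _ = 1 := by rw [zpow_two, hgg, one_zpow]
        simp [e1]
      rw [htop] at hbot
      exact (bot_ne_top (α := Subgroup R)) (le_antisymm bot_le hbot)

section
variable {X : Type*} [Group X]

theorem sqN_lt [Finite X] (R : Subgroup X) (hR2 : IsPGroup 2 R) (hne : R ≠ ⊥) :
    ∃ w ∈ R, w ∉ sqN R := by
  have hnt : Nontrivial R := (Subgroup.nontrivial_iff_ne_bot R).mpr hne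
  have h := sq_proper (Nat.card R) R hR2 hnt le_rfl
  obtain ⟨w, hw⟩ : ∃ w : R, w ∉ Subgroup.closure {z : R | ∃ u : R, z = u ^ 2} := by
    by_contra hall
    exact h (eq_top_iff.mpr (fun x _ => by_contra (fun hx => hall ⟨x, hx⟩)))
  refine ⟨w.1, w.2, fun hmem => hw ?_⟩
  have hle : sqN R ≤ (Subgroup.closure {z : R | ∃ u : R, z = u ^ 2}).map R.subtype := by
    unfold sqN
    rw [Subgroup.closure_le]
    rintro z ⟨u, hu, rfl⟩
    exact Subgroup.mem_map.mpr ⟨⟨u, hu⟩ ^ 2, Subgroup.subset_closure ⟨⟨u, hu⟩, rfl⟩, by simp⟩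
  obtain ⟨s, hs, hsw⟩ := Subgroup.mem_map.mp (hle hmem)
  have e1 : s = w := Subtype.ext (by simpa using hsw)
  exact e1 ▸ hs

def stabK (X : Type*) [Group X] : Subgroup X where
  carrier := {x | ∀ R : Subgroup X, R.Normal → IsPGroup 2 R →
    ∀ u ∈ R, x * u * x⁻¹ * u⁻¹ ∈ sqN R}
  one_mem' := by
    intro R _ _ u _
    simp
  mul_mem' := by
    intro x y hx hy R hRn hR2 u hu
    have h1 := hy R hRn hR2 u hu
    have h2 := hx R hRn hR2 u hu
    have hsn := sqN_normal R hRn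
    have e1 : x * y * u * (x * y)⁻¹ * u⁻¹
        = (x * (y * u * y⁻¹ * u⁻¹) * x⁻¹) * (x * u * x⁻¹ * u⁻¹) := by group
    rw [e1]
    exact (sqN R).mul_mem (hsn.conj_mem _ h1 x) h2
  inv_mem' := by
    intro x hx R hRn hR2 u hu
    have hu' : x⁻¹ * u * x ∈ R := by simpa using hRn.conj_mem u hu x⁻¹
    have h1 := hx R hRn hR2 _ hu'
    have e1 : x⁻¹ * u * x⁻¹⁻¹ * u⁻¹ = (x * (x⁻¹ * u * x) * x⁻¹ * (x⁻¹ * u * x)⁻¹)⁻¹ := by group
    rw [e1]
    exact (sqN R).inv_mem h1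

theorem stabK_normal : (stabK X).Normal := by
  refine ⟨fun x hx g => ?_⟩
  intro R hRn hR2 u hu
  have hu' : g⁻¹ * u * g ∈ R := by simpa using hRn.conj_mem u hu g⁻¹
  have h1 := hx R hRn hR2 _ hu'
  have hsn := sqN_normal R hRn
  have e1 : g * x * g⁻¹ * u * (g * x * g⁻¹)⁻¹ * u⁻¹
      = g * (x * (g⁻¹ * u * g) * x⁻¹ * (g⁻¹ * u * g)⁻¹) * g⁻¹ := by group
  rw [e1]
  exact hsn.conj_mem _ h1 g

theorem stab [Finite X] :
    ∀ n : ℕ, ∀ R : Subgroup X, R.Normal → IsPGroup 2 R → Nat.card R ≤ n →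
      ∀ x ∈ stabK X, ∃ m : ℕ, ∀ u ∈ R, x ^ (2 ^ m) * u = u * x ^ (2 ^ m) := by
  intro n
  induction n with
  | zero =>
    intro R _ _ hc
    have := Nat.card_pos (α := R)
    omega
  | succ n ih =>
    intro R hRn hR2 hc x hx
    have : Fact (Nat.Prime 2) := ⟨Nat.prime_two⟩
    by_cases hb : R = ⊥
    · refine ⟨0, fun u hu => ?_⟩
      rw [hb, Subgroup.mem_bot] at hu
      simp [hu]
    · obtain ⟨w, hwR, hw⟩ := sqN_lt R hR2 hb
      have hle := sqN_le R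
      have hsn := sqN_normal R hRn
      have hs2 : IsPGroup 2 (sqN R) := hR2.to_le hle
      have hcard : Nat.card (sqN R) ≤ n := by
        by_contra hgt
        have hge : Nat.card R ≤ Nat.card (sqN R) := by omega
        have heq := Subgroup.eq_of_le_of_card_ge hle hge
        rw [heq] at hw
        exact hw hwR
      obtain ⟨m₁, hm₁⟩ := ih (sqN R) hsn hs2 hcard x hx
      obtain ⟨y, hy⟩ : ∃ y, y = x ^ (2 ^ m₁) := ⟨_, rfl⟩
      rw [← hy] at hm₁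
      have hyK : y ∈ stabK X := by rw [hy]; exact (stabK X).pow_mem hx _
      obtain ⟨r, hr⟩ := IsPGroup.iff_card.mp hR2
      refine ⟨m₁ + r, fun u hu => ?_⟩
      have hc' : y * u * y⁻¹ * u⁻¹ ∈ sqN R := hyK R hRn hR2 u hu
      obtain ⟨c, hcdef⟩ : ∃ c, c = y * u * y⁻¹ * u⁻¹ := ⟨_, rfl⟩
      rw [← hcdef] at hc'
      have hyc : y * c = c * y := hm₁ c hc'
      have hyu : y * u = c * u * y := by rw [hcdef]; group
      have hpow : ∀ k : ℕ, y ^ k * u = c ^ k * u * y ^ k := by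
        intro k
        induction k with
        | zero => simp
        | succ k ihk =>
          have hyck : y * c ^ k = c ^ k * y := (Commute.pow_right hyc k)
          calc y ^ (k + 1) * u = y * (y ^ k * u) := by rw [pow_succ', mul_assoc]
            _ = y * (c ^ k * u * y ^ k) := by rw [ihk]
            _ = (y * c ^ k) * u * y ^ k := by simp only [mul_assoc]
            _ = (c ^ k * y) * u * y ^ k := by rw [hyck]
            _ = c ^ k * (y * u) * y ^ k := by simp only [mul_assoc]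
            _ = c ^ k * (c * u * y) * y ^ k := by rw [hyu]
            _ = c ^ (k + 1) * u * y ^ (k + 1) := by
              rw [pow_succ, pow_succ']; simp only [mul_assoc]
      have hcR : c ∈ R := hle hc'
      have hc1 : c ^ (2 ^ r) = 1 := by
        have h1 := pow_card_eq_one' (G := R) (x := ⟨c, hcR⟩)
        rw [hr] at h1
        simpa using congrArg Subtype.val h1
      have h2 := hpow (2 ^ r)
      rw [hc1, one_mul] at h2
      rw [hy] at h2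
      rw [pow_add, pow_mul]
      exact h2

end

/-- Let X be a finite group whose generalized Fitting subgroup equals its largest normal 2-subgroup Q, and let A be an abelian 2-subgroup of X such that every conjugate of A equals A or meets A trivially. Let B be the subgroup generated by the squares of the elements of A. Then B lies in Q, and if B is not an elementary abelian 2-group then the normal closure of B in X is commutative. -/
theorem result {X : Type*} [Group X] [Finite X]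
    (hX : Cfsg.generalizedFittingSubgroup X = Cfsg.pCore 2 X) (A : Subgroup X) (hA2 : IsPGroup 2 ↥A) (hAa : IsMulCommutative ↥A)
    (hti : ∀ h : X, A.map (MulAut.conj h).toMonoidHom = A ∨ A.map (MulAut.conj h).toMonoidHom ⊓ A = ⊥) :
    Subgroup.closure ((fun a : X => a ^ 2) '' (A : Set X)) ≤ Cfsg.pCore 2 X ∧
      (¬ Cfsg.IsElementaryAbelian 2 (Subgroup.closure ((fun a : X => a ^ 2) '' (A : Set X))) →
        IsMulCommutative ↥(Subgroup.normalClosure ((fun a : X => a ^ 2) '' (A : Set X)))) := by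
  classical
  have hp2 : Fact (Nat.Prime 2) := ⟨Nat.prime_two⟩
  have hQn : (Cfsg.pCore 2 X).Normal := Subgroup.sSup_normal _ (fun _ h => h.1)
  have hQ2 : IsPGroup 2 (Cfsg.pCore 2 X) := by
    obtain ⟨P⟩ : Nonempty (Sylow 2 X) := inferInstance
    have hle : Cfsg.pCore 2 X ≤ P := by
      apply sSup_le
      rintro N ⟨hN, hNp⟩
      obtain ⟨Q', hQ'⟩ := hNp.exists_le_sylow
      obtain ⟨g, rfl⟩ := MulAction.exists_smul_eq X Q' P
      intro n hn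
      rw [Sylow.coe_subgroup_smul, Subgroup.mem_pointwise_smul_iff_inv_smul_mem]
      apply hQ'
      have e1 : (MulAut.conj g)⁻¹ • n = g⁻¹ * n * g⁻¹⁻¹ := by
        simp [MulAut.smul_def]
      rw [e1]
      exact hN.conj_mem n hn g⁻¹
    exact P.2.to_le hle
  have hCQ : Subgroup.centralizer (Cfsg.pCore 2 X : Set X) ≤ Cfsg.pCore 2 X := by
    have h1 := Cfsg.Agent.S1265.result (G := X)
    rw [hX] at h1
    exact h1
  obtain ⟨Q, hQdef⟩ : ∃ Q : Subgroup X, Q = Cfsg.pCore 2 X := ⟨_, rfl⟩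
  rw [← hQdef] at hQn hQ2 hCQ ⊢
  have hAab : ∀ x ∈ A, ∀ y ∈ A, x * y = y * x := by
    intro x hx y hy
    have h1 := hAa.is_comm.comm (⟨x, hx⟩ : A) ⟨y, hy⟩
    exact congrArg Subtype.val h1
  have hA2' : ∀ x ∈ A, ∃ k : ℕ, x ^ (2 ^ k) = 1 := by
    intro x hx
    obtain ⟨k, hk⟩ := hA2 ⟨x, hx⟩
    exact ⟨k, by simpa using congrArg Subtype.val hk⟩
  have hTI := ti_elem A hti
  have hnormle : ∀ R : Subgroup X, R.Normal → IsPGroup 2 R → R ≤ Q := by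
    intro R hR hR2
    rw [hQdef]
    exact le_sSup ⟨hR, hR2⟩
  have hclA : Subgroup.closure ((fun a : X => a ^ 2) '' (A : Set X)) ≤ A := by
    rw [Subgroup.closure_le]
    rintro _ ⟨a, ha, rfl⟩
    exact A.pow_mem ha 2
  by_cases hsq : ∀ a ∈ A, a ^ 2 = 1
  · have hbot : Subgroup.closure ((fun a : X => a ^ 2) '' (A : Set X)) ≤ ⊥ := by
      rw [Subgroup.closure_le]
      rintro _ ⟨a, ha, rfl⟩
      simp [hsq a ha]
    refine ⟨le_trans hbot bot_le, fun hne => absurd ?_ hne⟩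
    refine ⟨⟨⟨fun x y => ?_⟩⟩, fun a ha => ?_⟩
    · exact Subtype.ext (hAab x.1 (hclA x.2) y.1 (hclA y.2))
    · rw [Subgroup.mem_bot.mp (hbot ha)]; simp
  · have hsq' : ∃ a₀ ∈ A, a₀ ^ 2 ≠ 1 := by
      by_contra hcon
      exact hsq (fun a ha => by_contra (fun h => hcon ⟨a, ha, h⟩))
    obtain ⟨a₀, ha₀, ha₀2⟩ := hsq'
    obtain ⟨m, hm4, hm2⟩ := exists_order_four a₀ (hA2' a₀ ha₀) ha₀2
    have ha₁ : a₀ ^ m ∈ A := A.pow_mem ha₀ m
    have hT : IsPGroup 2 (Q ⊔ A : Subgroup X) := IsPGroup.to_sup_of_normal_left hQ2 hA2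
    have hT2 : ∀ z ∈ (Q ⊔ A : Subgroup X), ∃ k : ℕ, z ^ (2 ^ k) = 1 := by
      intro z hz
      obtain ⟨k, hk⟩ := hT ⟨z, hz⟩
      exact ⟨k, by simpa using congrArg Subtype.val hk⟩
    have hcomm := t2 A hAab hTI (a₀ ^ m) ha₁ hm4 hm2 (Q ⊔ A) hT le_sup_right
    have hQT : Q ≤ Q ⊔ A := le_sup_left
    have hK2 : IsPGroup 2 (stabK X) := by
      rintro ⟨x, hx⟩
      obtain ⟨m', hm'⟩ := stab (Nat.card Q) Q hQn hQ2 le_rfl x hx
      have hxc : x ^ (2 ^ m') ∈ Subgroup.centralizer (Q : Set X) :=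
        Subgroup.mem_centralizer_iff.mpr (fun u hu => (hm' u hu).symm)
      obtain ⟨k, hk⟩ := hQ2 ⟨_, hCQ hxc⟩
      refine ⟨m' + k, Subtype.ext ?_⟩
      have h1 := congrArg Subtype.val hk
      simp only [Subgroup.coe_pow, Subgroup.coe_one] at h1 ⊢
      rw [pow_add, pow_mul]
      exact h1
    have hKQ : stabK X ≤ Q := hnormle _ stabK_normal hK2
    have hsqK : ∀ a ∈ A, a ^ 2 ∈ stabK X := by
      intro a ha R hRn hR2 u hu
      have huQ : u ∈ Q := hnormle R hRn hR2 hu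
      have hw : (u * a⁻¹ * u⁻¹) * a = a * (u * a⁻¹ * u⁻¹) :=
        hcomm u (hQT huQ) a⁻¹ (A.inv_mem ha) a ha
      have hcR : a * u * a⁻¹ * u⁻¹ ∈ R := R.mul_mem (hRn.conj_mem u hu a) (R.inv_mem hu)
      have e1 : a ^ 2 * u * (a ^ 2)⁻¹ * u⁻¹ = (a * u * a⁻¹ * u⁻¹) ^ 2 := by
        calc a ^ 2 * u * (a ^ 2)⁻¹ * u⁻¹ = a * (a * (u * a⁻¹ * u⁻¹)) * (u * a⁻¹ * u⁻¹) := by
              rw [pow_two]; group
          _ = a * ((u * a⁻¹ * u⁻¹) * a) * (u * a⁻¹ * u⁻¹) := by rw [hw]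
          _ = (a * u * a⁻¹ * u⁻¹) ^ 2 := by rw [pow_two]; group
      rw [e1]
      exact Subgroup.subset_closure ⟨_, hcR, rfl⟩
    have hsqQ : ∀ a ∈ A, a ^ 2 ∈ Q := fun a ha => hKQ (hsqK a ha)
    have goal1 : Subgroup.closure ((fun a : X => a ^ 2) '' (A : Set X)) ≤ Q := by
      rw [Subgroup.closure_le]
      rintro _ ⟨a, ha, rfl⟩
      exact hsqQ a ha
    refine ⟨goal1, fun hne => ?_⟩
    -- an element of order four in the closure of squares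
    have hx : ∃ x ∈ Subgroup.closure ((fun a : X => a ^ 2) '' (A : Set X)), x ^ 2 ≠ 1 := by
      by_contra hcon
      apply hne
      refine ⟨⟨⟨fun x y => ?_⟩⟩, fun a ha => ?_⟩
      · exact Subtype.ext (hAab x.1 (hclA x.2) y.1 (hclA y.2))
      · by_contra h
        exact hcon ⟨a, ha, h⟩
    obtain ⟨x, hxcl, hx2⟩ := hx
    have hxA : x ∈ A := hclA hxcl
    have hxQ : x ∈ Q := goal1 hxcl
    obtain ⟨m₂, hx4, hx2'⟩ := exists_order_four x (hA2' x hxA) hx2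
    have hx₁A : x ^ m₂ ∈ A := A.pow_mem hxA m₂
    have hx₁Q : x ^ m₂ ∈ Q := Q.pow_mem hxQ m₂
    obtain ⟨E, hEab, hE2, hAE, hQE⟩ := econstr A Q (Q ⊔ A) le_sup_right hQT hT2
      (fun x hx a ha a' ha' => hcomm x (hQT hx) a ha a' ha')
    have hM : ∀ h : X, ∀ a ∈ A, ∀ a' ∈ A,
        a ^ 2 * (h * a' ^ 2 * h⁻¹) = (h * a' ^ 2 * h⁻¹) * a ^ 2 := by
      intro h a ha a' ha'
      have hB₀ : ∀ b ∈ A.map (MulAut.conj h).toMonoidHom ⊓ Q, ∃ a ∈ A, b = h * a * h⁻¹ := by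
        intro b hb
        obtain ⟨a, ha, rfl⟩ := Subgroup.mem_map.mp hb.1
        exact ⟨a, ha, by simp [MulAut.conj_apply]⟩
      have hmem : ∀ a ∈ A, a ∈ Q → h * a * h⁻¹ ∈ A.map (MulAut.conj h).toMonoidHom ⊓ Q :=
        fun a ha haQ => ⟨Subgroup.mem_map.mpr ⟨a, ha, by simp [MulAut.conj_apply]⟩,
          hQn.conj_mem a haQ h⟩
      have hb4 : (h * x ^ m₂ * h⁻¹) ^ 4 = 1 := by rw [conj_pow, hx4]; group
      have hb2 : (h * x ^ m₂ * h⁻¹) ^ 2 ≠ 1 := by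
        rw [conj_pow]
        intro hh
        apply hx2'
        have e1 : (x ^ m₂) ^ 2 = h⁻¹ * (h * (x ^ m₂) ^ 2 * h⁻¹) * h := by group
        rw [e1, hh]; group
      have hk := pairK A hAab hA2' hTI (a₀ ^ m) ha₁ hm4 hm2 h
        (A.map (MulAut.conj h).toMonoidHom ⊓ Q) hB₀
        (h * x ^ m₂ * h⁻¹) (hmem _ hx₁A hx₁Q) hb4 hb2 E hEab hE2 hAE
        (fun b hb e he => hQE b hb.2 e he)
      exact (hk (h * a' ^ 2 * h⁻¹) (hmem _ (A.pow_mem ha' 2) (hsqQ a' ha')) (a ^ 2)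
        (A.pow_mem ha 2)).symm
    have hpair : ∀ z ∈ Group.conjugatesOfSet ((fun a : X => a ^ 2) '' (A : Set X)),
        ∀ z' ∈ Group.conjugatesOfSet ((fun a : X => a ^ 2) '' (A : Set X)),
        z * z' = z' * z := by
      intro z hz z' hz'
      obtain ⟨s, ⟨a, ha, rfl⟩, hs⟩ := Group.mem_conjugatesOfSet_iff.mp hz
      obtain ⟨s', ⟨a', ha', rfl⟩, hs'⟩ := Group.mem_conjugatesOfSet_iff.mp hz'
      obtain ⟨g, rfl⟩ := isConj_iff.mp hs
      obtain ⟨g', rfl⟩ := isConj_iff.mp hs'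
      have h1 := hM (g⁻¹ * g') a ha a' ha'
      have h2 := comm_conj h1 g
      have e1 : g * ((g⁻¹ * g') * a' ^ 2 * (g⁻¹ * g')⁻¹) * g⁻¹ = g' * a' ^ 2 * g'⁻¹ := by group
      rw [e1] at h2
      exact h2
    have hcl := closure_comm _ hpair
    exact ⟨⟨fun x y => Subtype.ext (hcl x.1 x.2 y.1 y.2)⟩⟩

end Cfsg.Agent.S1783
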