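import Cfsg.Statements.S1784
import Mathlib
import Cfsg.Agent.S0110
import Cfsg.Agent.S1265
import Cfsg.Agent.Lib.helper7.FStar

set_option autoImplicit false
open Cfsg

namespace Cfsg.Agent.S1784

open scoped IsMulCommutative

/-- the hom `e ↦ a e a⁻¹ e⁻¹` for an element with central commutators -/
theorem mkhom {H : Type*} [Group H] (E : Subgroup H) (a : H)
    (hcm : ∀ e ∈ E, a * e * a⁻¹ * e⁻¹ ∈ E ⊓ Subgroup.centralizer (E : Set H)) :
    ∃ f : E →* Subgroup.center E, ∀ e : E, ((f e : E) : H) = a * e * a⁻¹ * (e : H)⁻¹ := by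
  have hcenE : ∀ z : H, ∀ hz : z ∈ E ⊓ Subgroup.centralizer (E : Set H),
      (⟨z, hz.1⟩ : E) ∈ Subgroup.center E := by
    intro z hz
    rw [Subgroup.mem_center_iff]
    intro e
    have := (Subgroup.mem_centralizer_iff.mp (Subgroup.mem_inf.mp hz).2) e e.2
    exact Subtype.ext this
  refine ⟨{ toFun := fun e => ⟨⟨a * e * a⁻¹ * (e : H)⁻¹, (hcm e e.2).1⟩, hcenE _ (hcm e e.2)⟩
            map_one' := by ext; simp
            map_mul' := ?_ }, fun e => rfl⟩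
  intro x y
  ext
  have hb := (Subgroup.mem_centralizer_iff.mp (Subgroup.mem_inf.mp (hcm y y.2)).2) x x.2
  simp only [Subgroup.coe_mul]
  calc a * (↑x * ↑y) * a⁻¹ * ((x : H) * ↑y)⁻¹
      = a * x * a⁻¹ * (a * y * a⁻¹ * (y : H)⁻¹) * (x : H)⁻¹ := by group
    _ = a * x * a⁻¹ * ((x : H)⁻¹ * ((x : H) * (a * y * a⁻¹ * (y : H)⁻¹))) * (x : H)⁻¹ := by group
    _ = a * x * a⁻¹ * ((x : H)⁻¹ * ((a * y * a⁻¹ * (y : H)⁻¹) * x)) * (x : H)⁻¹ := by rw [hb]
    _ = a * ↑x * a⁻¹ * (↑x)⁻¹ * (a * ↑y * a⁻¹ * (↑y)⁻¹) := by group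

/-- basic facts on an extraspecial 2-subgroup whose centre is generated by `z` -/
theorem basics {H : Type*} [Group H] [Finite H] (E : Subgroup H)
    (hE : Cfsg.IsExtraspecial 2 ↥E) (z : H) (hzE : z ∈ E) (hz1 : z ≠ 1)
    (hzc : ∀ h : H, h * z = z * h) :
    (∀ x ∈ E, (∀ e ∈ E, e * x = x * e) → x = 1 ∨ x = z) ∧
    (∀ a ∈ E, ∀ b ∈ E, a * b * a⁻¹ * b⁻¹ = 1 ∨ a * b * a⁻¹ * b⁻¹ = z) ∧
    (∀ a ∈ E, a * a = 1 ∨ a * a = z) := by
  have : Fact (Nat.Prime 2) := ⟨Nat.prime_two⟩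
  obtain ⟨⟨hP, hfr, hcomm⟩, hcard⟩ := hE
  have hzcen : (⟨z, hzE⟩ : E) ∈ Subgroup.center E := by
    rw [Subgroup.mem_center_iff]
    intro e
    exact Subtype.ext (hzc e)
  have hcen : ∀ x : E, x ∈ Subgroup.center E → (x : H) = 1 ∨ (x : H) = z := by
    intro x hx
    have h2 := Nat.card_eq_two_iff' (⟨1, Subgroup.one_mem _⟩ : Subgroup.center E) |>.mp hcard
    obtain ⟨w, hw, huniq⟩ := h2
    have hz' : (⟨⟨z, hzE⟩, hzcen⟩ : Subgroup.center E) = w := by
      apply huniq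
      intro h
      apply hz1
      have := congrArg (fun t : Subgroup.center E => ((t : E) : H)) h
      simpa using this
    by_cases hx1 : (x : H) = 1
    · exact Or.inl hx1
    · right
      have hx' : (⟨x, hx⟩ : Subgroup.center E) = w := by
        apply huniq
        intro h
        apply hx1
        have := congrArg (fun t : Subgroup.center E => ((t : E) : H)) h
        simpa using this
      have := congrArg (fun t : Subgroup.center E => ((t : E) : H)) (hx'.trans hz'.symm)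
      simpa using this
  have h1 : ∀ x ∈ E, (∀ e ∈ E, e * x = x * e) → x = 1 ∨ x = z := by
    intro x hx hxc
    have : (⟨x, hx⟩ : E) ∈ Subgroup.center E := by
      rw [Subgroup.mem_center_iff]
      intro e
      exact Subtype.ext (hxc e e.2)
    exact hcen _ this
  refine ⟨h1, ?_, ?_⟩
  · intro a ha b hb
    have h3 : (⟨a, ha⟩ : E) * ⟨b, hb⟩ * (⟨a, ha⟩ : E)⁻¹ * (⟨b, hb⟩ : E)⁻¹ ∈ Subgroup.center E := by
      rw [← hcomm]
      have := Subgroup.commutator_mem_commutator (Subgroup.mem_top (⟨a, ha⟩ : E))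
        (Subgroup.mem_top (⟨b, hb⟩ : E))
      rw [commutatorElement_def] at this
      exact this
    have := hcen _ h3
    simpa using this
  · intro a ha
    have h3 : (⟨a, ha⟩ : E) ^ 2 ∈ Subgroup.center E := by
      rw [← hfr]
      exact (Cfsg.Agent.S0012.result 2 hP).2 _
    have := hcen _ h3
    simpa [pow_two] using this

theorem core {H : Type*} [Group H] [Finite H] (E : Subgroup H) [hEn : E.Normal]
    (hE : Cfsg.IsExtraspecial 2 ↥E) (hcent : Subgroup.centralizer (E : Set H) ≤ E)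
    (α z : H) (hα2 : α * α = 1) (hαE : α ∉ E) (hzE : z ∈ E) (hz1 : z ≠ 1)
    (hzc : ∀ h : H, h * z = z * h) (hz2 : z * z = 1) :
    ∀ y : H, y ∈ Subgroup.closure ((fun q : H => α * q * α⁻¹ * q⁻¹) '' (E : Set H)) ↔
      (y ∈ E ∧ (α * y * α⁻¹ * y⁻¹ = 1 ∨ α * y * α⁻¹ * y⁻¹ = z) ∧
        ∀ q ∈ E, (α * q * α⁻¹ * q⁻¹ = 1 ∨ α * q * α⁻¹ * q⁻¹ = z) → q * y = y * q) := by
  have hp2 : Fact (Nat.Prime 2) := ⟨Nat.prime_two⟩
  obtain ⟨hZ, hC, hS⟩ := basics E hE z hzE hz1 hzc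
  have hαinv : α⁻¹ = α := inv_eq_of_mul_eq_one_left hα2
  have zc : ∀ x : H, (x = 1 ∨ x = z) → ∀ h : H, h * x = x * h := by
    intro x hx h
    rcases hx with hx | hx
    · rw [hx]; simp
    · rw [hx]; exact hzc h
  have zmul : ∀ x y : H, (x = 1 ∨ x = z) → (y = 1 ∨ y = z) → (x * y = 1 ∨ x * y = z) := by
    intro x y hx hy
    rcases hx with hx | hx <;> rcases hy with hy | hy <;> rw [hx, hy] <;> simp [hz2]
  have zinv : ∀ x : H, (x = 1 ∨ x = z) → (x⁻¹ = 1 ∨ x⁻¹ = z) := by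
    intro x hx
    rcases hx with hx | hx
    · rw [hx]; simp
    · rw [hx]; right; exact inv_eq_of_mul_eq_one_left hz2
  have hoz : orderOf z = 2 := orderOf_eq_prime (by rw [pow_two]; exact hz2) hz1
  have zpow : ∀ x : H, x ∈ Subgroup.zpowers z ↔ (x = 1 ∨ x = z) := by
    intro x
    constructor
    · intro hx
      obtain ⟨k, rfl⟩ := Subgroup.mem_zpowers_iff.mp hx
      have h1 : z ^ k = z ^ (k % (orderOf z : ℤ)) := (zpow_mod_orderOf z k).symm
      rw [hoz] at h1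
      rcases Int.emod_two_eq_zero_or_one k with h | h
      · left; rw [h1]; simp [h]
      · right; rw [h1]; simp [h]
    · intro hx
      rcases hx with hx | hx
      · rw [hx]; exact Subgroup.one_mem _
      · rw [hx]; exact Subgroup.mem_zpowers z
  obtain ⟨c, hc⟩ : ∃ c : H → H, ∀ q, c q = α * q * α⁻¹ * q⁻¹ := ⟨_, fun _ => rfl⟩
  have hcE : ∀ q ∈ E, c q ∈ E := by
    intro q hq
    rw [hc]
    exact E.mul_mem (hEn.conj_mem q hq α) (E.inv_mem hq)
  have hcmul : ∀ q q' : H, c (q * q') = c q * (q * c q' * q⁻¹ * (c q')⁻¹) * c q' := by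
    intro q q'
    simp only [hc]; group
  have hcinv : ∀ q : H, c q⁻¹ = (q⁻¹ * (c q)⁻¹ * q⁻¹⁻¹ * (c q)⁻¹⁻¹) * (c q)⁻¹ := by
    intro q; simp only [hc]; group
  have hcz : c z = 1 := by
    rw [hc]
    have := hzc α
    calc α * z * α⁻¹ * z⁻¹ = (α * z) * α⁻¹ * z⁻¹ := by group
      _ = (z * α) * α⁻¹ * z⁻¹ := by rw [this]
      _ = 1 := by group
  -- Q₀
  obtain ⟨Q₀, hQ₀⟩ : ∃ Q₀ : Subgroup H, ∀ q, q ∈ Q₀ ↔ (q ∈ E ∧ (c q = 1 ∨ c q = z)) := by
    refine ⟨{ carrier := {q | q ∈ E ∧ (c q = 1 ∨ c q = z)}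
              mul_mem' := ?_
              one_mem' := ⟨E.one_mem, Or.inl (by rw [hc]; group)⟩
              inv_mem' := ?_ }, fun q => Iff.rfl⟩
    · rintro a b ⟨ha, hca⟩ ⟨hb, hcb⟩
      refine ⟨E.mul_mem ha hb, ?_⟩
      rw [hcmul]
      exact zmul _ _ (zmul _ _ hca (hC a ha (c b) (hcE b hb))) hcb
    · rintro a ⟨ha, hca⟩
      refine ⟨E.inv_mem ha, ?_⟩
      rw [hcinv]
      exact zmul _ _ (hC a⁻¹ (E.inv_mem ha) (c a)⁻¹ (E.inv_mem (hcE a ha))) (zinv _ hca)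
  have zQ₀ : ∀ x : H, (x = 1 ∨ x = z) → x ∈ Q₀ := by
    rintro x (rfl | rfl)
    · exact Q₀.one_mem
    · exact (hQ₀ _).mpr ⟨hzE, Or.inl hcz⟩
  -- generators lie in Q₀
  have hgenQ : ∀ q ∈ E, c q ∈ Q₀ := by
    intro q hq
    refine (hQ₀ _).mpr ⟨hcE q hq, ?_⟩
    have hw : q * (α * q⁻¹ * α) ∈ E := by
      have := hEn.conj_mem q⁻¹ (E.inv_mem hq) α
      rw [hαinv] at this
      exact E.mul_mem hq this
    have h1 : c (c q) = (α * α) * (q * α⁻¹ * q⁻¹ * α⁻¹ * q * α * q⁻¹ * α⁻¹) := by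
      simp only [hc]
      group
    rw [h1, hα2, one_mul, hαinv]
    have h2 : q * α * q⁻¹ * α * q * α * q⁻¹ * α = (q * (α * q⁻¹ * α)) * (q * (α * q⁻¹ * α)) := by
      group
    rw [h2]
    exact hS _ hw
  -- generators centralize Q₀
  have hgenC : ∀ q ∈ E, ∀ q₀ ∈ Q₀, q₀ * c q = c q * q₀ := by
    intro q hq q₀ hq₀
    obtain ⟨hq₀E, hcq₀⟩ := (hQ₀ q₀).mp hq₀
    obtain ⟨κ, hκdef⟩ : ∃ κ, κ = q₀ * q * q₀⁻¹ * q⁻¹ := ⟨_, rfl⟩
    have hκ : κ = 1 ∨ κ = z := by rw [hκdef]; exact hC q₀ hq₀E q hq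
    have e0 : α⁻¹ * q₀ * α = c q₀ * q₀ := by
      rw [hc, hαinv]; group
    have star : ∀ x : H, α⁻¹ * q₀ * α * x * (α⁻¹ * q₀ * α)⁻¹ = q₀ * x * q₀⁻¹ := by
      intro x
      rw [e0, mul_inv_rev]
      have := zc _ hcq₀ (q₀ * x * q₀⁻¹)
      calc c q₀ * q₀ * x * (q₀⁻¹ * (c q₀)⁻¹) = (c q₀ * (q₀ * x * q₀⁻¹)) * (c q₀)⁻¹ := by group
        _ = ((q₀ * x * q₀⁻¹) * c q₀) * (c q₀)⁻¹ := by rw [this]
        _ = q₀ * x * q₀⁻¹ := by group
    have hk : q₀ * q * q₀⁻¹ = κ * q := by rw [hκdef]; group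
    have key : q₀ * c q * q₀⁻¹ = c q := by
      calc q₀ * c q * q₀⁻¹
          = α * (α⁻¹ * q₀ * α * q * (α⁻¹ * q₀ * α)⁻¹) * α⁻¹ * (q₀ * q * q₀⁻¹)⁻¹ := by
            rw [hc]; group
        _ = α * (q₀ * q * q₀⁻¹) * α⁻¹ * (q₀ * q * q₀⁻¹)⁻¹ := by rw [star]
        _ = α * (κ * q) * α⁻¹ * (κ * q)⁻¹ := by rw [hk]
        _ = (α * κ) * (q * α⁻¹ * q⁻¹) * κ⁻¹ := by group
        _ = (κ * α) * (q * α⁻¹ * q⁻¹) * κ⁻¹ := by rw [zc κ hκ α]
        _ = κ * (α * q * α⁻¹ * q⁻¹) * κ⁻¹ := by group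
        _ = (α * q * α⁻¹ * q⁻¹) * κ * κ⁻¹ := by rw [← zc κ hκ (α * q * α⁻¹ * q⁻¹)]
        _ = c q := by rw [hc]; group
    calc q₀ * c q = (q₀ * c q * q₀⁻¹) * q₀ := by group
      _ = c q * q₀ := by rw [key]
  obtain ⟨R, hRdef⟩ : ∃ R, R = Subgroup.closure ((fun q : H => α * q * α⁻¹ * q⁻¹) '' (E : Set H)) :=
    ⟨_, rfl⟩
  have hcR : ∀ q ∈ E, c q ∈ R := by
    intro q hq
    rw [hRdef]
    exact Subgroup.subset_closure ⟨q, hq, (hc q).symm⟩
  have hRE : R ≤ E := by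
    rw [hRdef, Subgroup.closure_le]
    rintro _ ⟨q, hq, rfl⟩
    have := hcE q hq
    rw [hc] at this
    exact this
  have hRQ : R ≤ Q₀ := by
    rw [hRdef, Subgroup.closure_le]
    rintro _ ⟨q, hq, rfl⟩
    have := hgenQ q hq
    rw [hc] at this
    exact this
  have hRC : R ≤ Subgroup.centralizer (Q₀ : Set H) := by
    rw [hRdef, Subgroup.closure_le]
    rintro _ ⟨q, hq, rfl⟩
    rw [SetLike.mem_coe, Subgroup.mem_centralizer_iff]
    intro q₀ hq₀
    have := hgenC q hq q₀ hq₀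
    rw [hc] at this
    exact this
  -- z ∈ R
  have hzR : z ∈ R := by
    by_cases h : ∃ q ∈ E, ∃ q' ∈ E, q * c q' ≠ c q' * q
    · obtain ⟨q, hq, q', hq', hne⟩ := h
      have h1 := hC q hq (c q') (hcE q' hq')
      have h2 : q * c q' * q⁻¹ * (c q')⁻¹ = z := by
        rcases h1 with h1 | h1
        · exfalso
          apply hne
          calc q * c q' = (q * c q' * q⁻¹ * (c q')⁻¹) * c q' * q := by group
            _ = c q' * q := by rw [h1, one_mul]
        · exact h1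
      have h3 := hcmul q q'
      rw [h2] at h3
      have h4 : z = (c q)⁻¹ * c (q * q') * (c q')⁻¹ := by rw [h3]; group
      rw [h4]
      exact R.mul_mem (R.mul_mem (R.inv_mem (hcR q hq)) (hcR _ (E.mul_mem hq hq')))
        (R.inv_mem (hcR q' hq'))
    · push Not at h
      have h1 : ∀ q' ∈ E, c q' = 1 ∨ c q' = z := fun q' hq' =>
        hZ (c q') (hcE q' hq') (fun e he => h e he q' hq')
      by_cases h2 : ∃ q' ∈ E, c q' = z
      · obtain ⟨q', hq', h3⟩ := h2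
        rw [← h3]; exact hcR q' hq'
      · push Not at h2
        exfalso
        apply hαE
        apply hcent
        rw [Subgroup.mem_centralizer_iff]
        intro e he
        have h3 : c e = 1 := (h1 e he).resolve_right (h2 e he)
        rw [hc] at h3
        calc e * α = (α * e * α⁻¹ * e⁻¹)⁻¹ * (α * e) := by group
          _ = α * e := by rw [h3]; group
  -- the counting
  obtain ⟨CQ, hCQ⟩ : ∃ CQ : Subgroup H, CQ = E ⊓ Subgroup.centralizer (Q₀ : Set H) := ⟨_, rfl⟩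
  have hRCQ : R ≤ CQ := by rw [hCQ]; exact le_inf hRE hRC
  have hCQmem : ∀ x ∈ CQ, x ∈ E ∧ x ∈ Subgroup.centralizer (Q₀ : Set H) := by
    intro x hx
    rw [hCQ] at hx
    exact Subgroup.mem_inf.mp hx
  have hzCQ : z ∈ CQ := by
    rw [hCQ]
    refine Subgroup.mem_inf.mpr ⟨hzE, ?_⟩
    rw [Subgroup.mem_centralizer_iff]
    intro q _
    exact hzc q
  have hN : (Q₀.subgroupOf E).Normal := by
    refine ⟨fun n hn g => ?_⟩
    rw [Subgroup.mem_subgroupOf] at hn ⊢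
    have h1 := hC (g : H) g.2 (n : H) n.2
    have h2 : ((g * n * g⁻¹ : E) : H) = ((g : H) * n * (g : H)⁻¹ * (n : H)⁻¹) * n := by
      simp only [Subgroup.coe_mul, Subgroup.coe_inv]; group
    rw [h2]
    exact Q₀.mul_mem (zQ₀ _ h1) hn
  have hcard2 : Nat.card (Subgroup.center E) = 2 := hE.2
  have hpowA : ∀ x : E ⧸ Q₀.subgroupOf E, x ^ 2 ∈ commutator (E ⧸ Q₀.subgroupOf E) := by
    intro x
    obtain ⟨e, rfl⟩ := QuotientGroup.mk_surjective x
    have h1 : (e ^ 2 : E) ∈ Q₀.subgroupOf E := by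
      rw [Subgroup.mem_subgroupOf]
      have := hS (e : H) e.2
      simp only [pow_two, Subgroup.coe_mul]
      exact zQ₀ _ this
    have h2 : ((QuotientGroup.mk e : E ⧸ Q₀.subgroupOf E)) ^ 2 = 1 := by
      rw [← QuotientGroup.mk_pow]
      exact (QuotientGroup.eq_one_iff _).mpr h1
    rw [h2]
    exact Subgroup.one_mem _
  have hA1 : Nat.card ((E ⧸ Q₀.subgroupOf E) →* Subgroup.center E) ≤ (Q₀.subgroupOf E).index := by
    have h1 := Cfsg.Agent.S0110.card_hom_le (E := E ⧸ Q₀.subgroupOf E) (C := Subgroup.center E)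
      hcard2 hpowA
    have h2 : (commutator (E ⧸ Q₀.subgroupOf E)).index ≤ Nat.card (E ⧸ Q₀.subgroupOf E) :=
      Nat.le_of_dvd Nat.card_pos (Subgroup.index_dvd_card _)
    exact h1.trans h2
  -- CQ / Z injects into the homs
  have hex : ∀ y : ↥CQ, ∃ g : (E ⧸ Q₀.subgroupOf E) →* Subgroup.center E,
      ∀ e : E, ((g (QuotientGroup.mk e) : E) : H) = (y : H) * e * (y : H)⁻¹ * (e : H)⁻¹ := by
    intro y
    have hyE : (y : H) ∈ E := (hCQmem _ y.2).1
    have hyC : (y : H) ∈ Subgroup.centralizer (Q₀ : Set H) := (hCQmem _ y.2).2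
    have hcm : ∀ e ∈ E, (y : H) * e * (y : H)⁻¹ * e⁻¹ ∈ E ⊓ Subgroup.centralizer (E : Set H) := by
      intro e he
      refine Subgroup.mem_inf.mpr ⟨E.mul_mem (E.mul_mem (E.mul_mem hyE he) (E.inv_mem hyE)) (E.inv_mem he), ?_⟩
      rw [Subgroup.mem_centralizer_iff]
      intro x _
      exact zc _ (hC _ hyE e he) x
    obtain ⟨f, hf⟩ := mkhom E (y : H) hcm
    have hker : Q₀.subgroupOf E ≤ f.ker := by
      intro n hn
      rw [Subgroup.mem_subgroupOf] at hn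
      rw [MonoidHom.mem_ker]
      apply Subtype.ext
      apply Subtype.ext
      rw [hf]
      have := (Subgroup.mem_centralizer_iff.mp hyC) (n : H) hn
      simp only [OneMemClass.coe_one]
      calc (y : H) * n * (y : H)⁻¹ * (n : H)⁻¹ = ((n : H) * y)⁻¹⁻¹ * (y : H)⁻¹ * (n : H)⁻¹ := by
            rw [this]; group
        _ = 1 := by group
    exact ⟨QuotientGroup.lift _ f hker, fun e => by rw [QuotientGroup.lift_mk]; exact hf e⟩
  choose Φ hΦ using hex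
  have hinj1 : Function.Injective
      (fun t : ↥CQ ⧸ (Subgroup.zpowers z).subgroupOf CQ => Φ (Quotient.out t)) := by
    intro t t' htt'
    rw [← Quotient.out_eq t, ← Quotient.out_eq t']
    apply QuotientGroup.eq.mpr
    rw [Subgroup.mem_subgroupOf, zpow]
    have hyE : ((Quotient.out t : ↥CQ) : H) ∈ E := (hCQmem _ (Quotient.out t).2).1
    have hy'E : ((Quotient.out t' : ↥CQ) : H) ∈ E := (hCQmem _ (Quotient.out t').2).1
    simp only [Subgroup.coe_mul, Subgroup.coe_inv]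
    apply hZ _ (E.mul_mem (E.inv_mem hyE) hy'E)
    intro e he
    have h3 := congrArg (fun g : (E ⧸ Q₀.subgroupOf E) →* Subgroup.center E =>
      ((g (QuotientGroup.mk ⟨e, he⟩) : E) : H)) htt'
    simp only [hΦ] at h3
    have h4 : ((Quotient.out t : ↥CQ) : H) * e * ((Quotient.out t : ↥CQ) : H)⁻¹
        = ((Quotient.out t' : ↥CQ) : H) * e * ((Quotient.out t' : ↥CQ) : H)⁻¹ := by
      simpa using h3
    calc e * (((Quotient.out t : ↥CQ) : H)⁻¹ * ((Quotient.out t' : ↥CQ) : H))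
        = ((Quotient.out t : ↥CQ) : H)⁻¹ * (((Quotient.out t : ↥CQ) : H) * e *
            ((Quotient.out t : ↥CQ) : H)⁻¹) * ((Quotient.out t' : ↥CQ) : H) := by group
      _ = ((Quotient.out t : ↥CQ) : H)⁻¹ * ((Quotient.out t' : ↥CQ) : H) * e := by rw [h4]; group
  have : Finite ((E ⧸ Q₀.subgroupOf E) →* Subgroup.center E) :=
    Finite.of_injective _ DFunLike.coe_injective
  have hB1 : ((Subgroup.zpowers z).subgroupOf CQ).index ≤
      Nat.card ((E ⧸ Q₀.subgroupOf E) →* Subgroup.center E) :=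
    Nat.card_le_card_of_injective _ hinj1
  -- E / Q₀ injects into R / Z
  have hinj2 : Function.Injective (fun x : E ⧸ Q₀.subgroupOf E =>
      (QuotientGroup.mk (⟨c ((Quotient.out x : E) : H), hcR _ (Quotient.out x).2⟩ : ↥R) :
        ↥R ⧸ (Subgroup.zpowers z).subgroupOf R)) := by
    intro x x' hxx'
    rw [← Quotient.out_eq x, ← Quotient.out_eq x']
    apply QuotientGroup.eq.mpr
    have h1 := QuotientGroup.eq.mp hxx'
    rw [Subgroup.mem_subgroupOf, zpow] at h1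
    simp only [Subgroup.coe_mul, Subgroup.coe_inv] at h1
    rw [Subgroup.mem_subgroupOf, hQ₀]
    obtain ⟨q, hq⟩ : ∃ q : H, q = ((Quotient.out x : E) : H) := ⟨_, rfl⟩
    obtain ⟨q', hq'⟩ : ∃ q' : H, q' = ((Quotient.out x' : E) : H) := ⟨_, rfl⟩
    have hqE : q ∈ E := by rw [hq]; exact (Quotient.out x).2
    have hq'E : q' ∈ E := by rw [hq']; exact (Quotient.out x').2
    rw [← hq, ← hq'] at h1
    simp only [Subgroup.coe_mul, Subgroup.coe_inv]
    rw [← hq, ← hq']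
    refine ⟨E.mul_mem (E.inv_mem hqE) hq'E, ?_⟩
    rw [hcmul, hcinv]
    have k1 := hC q⁻¹ (E.inv_mem hqE) (c q)⁻¹ (E.inv_mem (hcE q hqE))
    have k2 := hC q⁻¹ (E.inv_mem hqE) (c q') (hcE q' hq'E)
    have k3 := zc _ k2 (c q)⁻¹
    have k4 : (q⁻¹ * (c q)⁻¹ * q⁻¹⁻¹ * (c q)⁻¹⁻¹) * (c q)⁻¹ * (q⁻¹ * c q' * q⁻¹⁻¹ * (c q')⁻¹) * c q'
        = (q⁻¹ * (c q)⁻¹ * q⁻¹⁻¹ * (c q)⁻¹⁻¹) * (q⁻¹ * c q' * q⁻¹⁻¹ * (c q')⁻¹) * ((c q)⁻¹ * c q') := by
      rw [mul_assoc ((q⁻¹ * (c q)⁻¹ * q⁻¹⁻¹ * (c q)⁻¹⁻¹)) (c q)⁻¹, k3]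
      group
    rw [k4]
    exact zmul _ _ (zmul _ _ k1 k2) h1
  have hB2 : (Q₀.subgroupOf E).index ≤ ((Subgroup.zpowers z).subgroupOf R).index :=
    Nat.card_le_card_of_injective _ hinj2
  have hzcard : ∀ K : Subgroup H, z ∈ K → Nat.card ↥K = 2 * ((Subgroup.zpowers z).subgroupOf K).index := by
    intro K hzK
    have h1 := Subgroup.card_mul_index ((Subgroup.zpowers z).subgroupOf K)
    have h2 : Nat.card ((Subgroup.zpowers z).subgroupOf K) = 2 := by
      have hle : Subgroup.zpowers z ≤ K := by rw [Subgroup.zpowers_le]; exact hzK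
      rw [Nat.card_congr (Subgroup.subgroupOfEquivOfLe hle).toEquiv, Nat.card_zpowers, hoz]
    rw [h2] at h1
    exact h1.symm
  have hcardle : Nat.card ↥CQ ≤ Nat.card ↥R := by
    rw [hzcard CQ hzCQ, hzcard R hzR]
    have := hB1.trans (hA1.trans hB2)
    omega
  have hReq : R = CQ := Subgroup.eq_of_le_of_card_ge hRCQ hcardle
  intro y
  rw [← hRdef]
  constructor
  · intro hy
    have h1 := (hQ₀ y).mp (hRQ hy)
    rw [hc] at h1
    refine ⟨h1.1, h1.2, ?_⟩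
    intro q hq hcq
    have hqQ : q ∈ Q₀ := (hQ₀ q).mpr ⟨hq, by rw [hc]; exact hcq⟩
    exact (Subgroup.mem_centralizer_iff.mp (hRC hy)) q hqQ
  · rintro ⟨hyE, hcy, hyc⟩
    rw [hReq, hCQ]
    refine Subgroup.mem_inf.mpr ⟨hyE, ?_⟩
    rw [Subgroup.mem_centralizer_iff]
    intro q hq
    obtain ⟨hqE, hcq⟩ := (hQ₀ q).mp hq
    rw [hc] at hcq
    exact hyc q hqE hcq

theorem main {G : Type*} [Group G] [Finite G] (C : Subgroup G) (E : Subgroup ↥C) [E.Normal]
    (hE : Cfsg.IsExtraspecial 2 ↥E) (hcent : Subgroup.centralizer (E : Set ↥C) ≤ E)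
    (z : G) (hz : orderOf z = 2) (hzC : ∀ x ∈ C, x * z = z * x) (hzmem : z ∈ C)
    (α : G) (hα : orderOf α = 2) (hαC : α ∈ C) (hαQ : α ∉ E.map C.subtype)
    (Q₀ : Subgroup G) (hQ₀ : ∀ q : G, q ∈ Q₀ ↔ (q ∈ E.map C.subtype ∧
      α * q * α⁻¹ * q⁻¹ ∈ Subgroup.zpowers z)) :
    Subgroup.closure ((fun q : G => α * q * α⁻¹ * q⁻¹) '' (E.map C.subtype : Set G)) =
        (Subgroup.center ↥Q₀).map Q₀.subtype ∧
      (¬ Q₀ ≤ (E.map C.subtype ⊓ Subgroup.centralizer ({α} : Set G)) ⊔ Subgroup.zpowers z →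
        ∃ q ∈ E.map C.subtype, q * α * q⁻¹ = α * z) := by
  have hz2 : z * z = 1 := by
    have := pow_orderOf_eq_one z
    rw [hz, pow_two] at this
    exact this
  have hz1 : z ≠ 1 := by
    intro h
    rw [h, orderOf_one] at hz
    omega
  have hα2 : α * α = 1 := by
    have := pow_orderOf_eq_one α
    rw [hα, pow_two] at this
    exact this
  have zp : ∀ x : G, x ∈ Subgroup.zpowers z ↔ (x = 1 ∨ x = z) := by
    intro x
    constructor
    · intro hx
      obtain ⟨k, rfl⟩ := Subgroup.mem_zpowers_iff.mp hx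
      have h1 : z ^ k = z ^ (k % (orderOf z : ℤ)) := (zpow_mod_orderOf z k).symm
      rw [hz] at h1
      rcases Int.emod_two_eq_zero_or_one k with h | h
      · left; rw [h1]; simp [h]
      · right; rw [h1]; simp [h]
    · intro hx
      rcases hx with hx | hx
      · rw [hx]; exact Subgroup.one_mem _
      · rw [hx]; exact Subgroup.mem_zpowers z
  have hz'c : ∀ h : ↥C, h * (⟨z, hzmem⟩ : ↥C) = ⟨z, hzmem⟩ * h := fun h => Subtype.ext (hzC h h.2)
  have hz'E : (⟨z, hzmem⟩ : ↥C) ∈ E := by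
    apply hcent
    rw [Subgroup.mem_centralizer_iff]
    intro e _
    exact hz'c e
  have hz'1 : (⟨z, hzmem⟩ : ↥C) ≠ 1 := by
    intro h
    exact hz1 (congrArg Subtype.val h)
  have hz'2 : (⟨z, hzmem⟩ : ↥C) * ⟨z, hzmem⟩ = 1 := Subtype.ext hz2
  have hα'2 : (⟨α, hαC⟩ : ↥C) * ⟨α, hαC⟩ = 1 := Subtype.ext hα2
  have hα'E : (⟨α, hαC⟩ : ↥C) ∉ E := fun h => hαQ (Subgroup.mem_map.mpr ⟨_, h, rfl⟩)
  have key := core E hE hcent ⟨α, hαC⟩ ⟨z, hzmem⟩ hα'2 hα'E hz'E hz'1 hz'c hz'2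
  -- translate the commutator condition
  have tr : ∀ q' : ↥C, ((⟨α, hαC⟩ : ↥C) * q' * (⟨α, hαC⟩ : ↥C)⁻¹ * q'⁻¹ = 1 ∨
      (⟨α, hαC⟩ : ↥C) * q' * (⟨α, hαC⟩ : ↥C)⁻¹ * q'⁻¹ = ⟨z, hzmem⟩) ↔
      α * (q' : G) * α⁻¹ * (q' : G)⁻¹ ∈ Subgroup.zpowers z := by
    intro q'
    rw [zp, Subtype.ext_iff, Subtype.ext_iff]
    simp
  have memE : ∀ q : G, q ∈ E.map C.subtype ↔ ∃ q' : ↥C, q' ∈ E ∧ (q' : G) = q := by
    intro q
    rw [Subgroup.mem_map]
    rfl
  refine ⟨?_, ?_⟩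
  · have himg : (fun q : G => α * q * α⁻¹ * q⁻¹) '' ((E.map C.subtype : Subgroup G) : Set G) =
        C.subtype '' ((fun q : ↥C => (⟨α, hαC⟩ : ↥C) * q * (⟨α, hαC⟩ : ↥C)⁻¹ * q⁻¹) '' (E : Set ↥C)) := by
      ext x
      constructor
      · rintro ⟨q, hq, rfl⟩
        obtain ⟨q', hq', rfl⟩ := (memE q).mp hq
        exact ⟨_, ⟨q', hq', rfl⟩, by simp⟩
      · rintro ⟨_, ⟨q', hq', rfl⟩, rfl⟩
        exact ⟨(q' : G), (memE _).mpr ⟨q', hq', rfl⟩, by simp⟩
    rw [himg, ← MonoidHom.map_closure]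
    ext y
    rw [Subgroup.mem_map, Subgroup.mem_map]
    constructor
    · rintro ⟨y', hy', rfl⟩
      obtain ⟨hyE, hcy, hyc⟩ := (key y').mp hy'
      have hyQ : (y' : G) ∈ Q₀ := (hQ₀ _).mpr ⟨(memE _).mpr ⟨y', hyE, rfl⟩, (tr y').mp hcy⟩
      refine ⟨⟨(y' : G), hyQ⟩, ?_, rfl⟩
      rw [Subgroup.mem_center_iff]
      intro g
      obtain ⟨hg1, hg2⟩ := (hQ₀ _).mp g.2
      obtain ⟨q', hq', hq'g⟩ := (memE _).mp hg1
      rw [← hq'g] at hg2
      have := hyc q' hq' ((tr q').mpr hg2)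
      apply Subtype.ext
      have h3 := congrArg Subtype.val this
      simp only [Subgroup.coe_mul] at h3 ⊢
      rw [← hq'g]
      exact h3
    · rintro ⟨y'', hy'', rfl⟩
      obtain ⟨hy1, hy2⟩ := (hQ₀ _).mp y''.2
      obtain ⟨y', hy', hy'y⟩ := (memE _).mp hy1
      refine ⟨y', ?_, hy'y⟩
      rw [key y']
      rw [← hy'y] at hy2
      refine ⟨hy', (tr y').mpr hy2, ?_⟩
      intro q' hq' hcq'
      have hqQ : (q' : G) ∈ Q₀ := (hQ₀ _).mpr ⟨(memE _).mpr ⟨q', hq', rfl⟩, (tr q').mp hcq'⟩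
      have := (Subgroup.mem_center_iff.mp hy'') ⟨(q' : G), hqQ⟩
      have h3 := congrArg Subtype.val this
      simp only [Subgroup.coe_mul] at h3
      apply Subtype.ext
      simp only [Subgroup.coe_mul]
      rw [hy'y]
      exact h3
  · intro hnot
    obtain ⟨q₀, hq₀, hq₀n⟩ := SetLike.not_le_iff_exists.mp hnot
    obtain ⟨h1, h2⟩ := (hQ₀ q₀).mp hq₀
    obtain ⟨q', hq', hq'q⟩ := (memE _).mp h1
    have hq₀C : q₀ ∈ C := by rw [← hq'q]; exact q'.2
    rcases (zp _).mp h2 with h3 | h3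
    · exfalso
      apply hq₀n
      apply Subgroup.mem_sup_left
      refine Subgroup.mem_inf.mpr ⟨h1, ?_⟩
      rw [Subgroup.mem_centralizer_iff]
      intro a ha
      rw [Set.mem_singleton_iff] at ha
      rw [ha]
      calc α * q₀ = (α * q₀ * α⁻¹ * q₀⁻¹) * (q₀ * α) := by group
        _ = q₀ * α := by rw [h3, one_mul]
    · refine ⟨q₀⁻¹, Subgroup.inv_mem _ h1, ?_⟩
      have h4 : α * q₀ = z * (q₀ * α) := by
        rw [← h3]; group
      have h5 := hzC q₀ hq₀C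
      have h6 := hzC α hαC
      calc q₀⁻¹ * α * q₀⁻¹⁻¹ = q₀⁻¹ * (α * q₀) := by group
        _ = q₀⁻¹ * (z * (q₀ * α)) := by rw [h4]
        _ = q₀⁻¹ * (z * q₀) * α := by group
        _ = q₀⁻¹ * (q₀ * z) * α := by rw [h5]
        _ = z * α := by group
        _ = α * z := h6.symm

/-- Let G be a finite group and let z be an involution of G such that Q, the generalized Fitting subgroup of the centralizer C of z, is a 2-group of symplectic type (every characteristic abelian subgroup of Q is cyclic); suppose Q is extraspecial, and view Q inside G. Let α be an involution of C that is not in Q, and let Q₀ be the subgroup of those q ∈ Q whose commutator with α lies in the subgroup generated by z. Then (a) the subgroup generated by the commutators α q α⁻¹ q⁻¹, q ∈ Q, equals the centre of Q₀; and (b) if Q₀ is not contained in the product of the centralizer of α in Q with the subgroup generated by z, then some element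 of Q conjugates α to α z. -/
theorem result {G : Type*} [Group G] [Finite G] (z : G) (hz : orderOf z = 2) (hQ : Cfsg.IsOfSymplecticType ↥(Cfsg.generalizedFittingSubgroup ↥(Subgroup.centralizer ({z} : Set G)))) (hE : Cfsg.IsExtraspecial 2 ↥(Cfsg.generalizedFittingSubgroup ↥(Subgroup.centralizer ({z} : Set G))))
    (α : G) (hα : orderOf α = 2) (hαC : α ∈ Subgroup.centralizer ({z} : Set G)) (hαQ : α ∉ (Cfsg.generalizedFittingSubgroup ↥(Subgroup.centralizer ({z} : Set G))).map (Subgroup.centralizer ({z} : Set G)).subtype)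
    (Q₀ : Subgroup G) (hQ₀ : ∀ q : G, q ∈ Q₀ ↔ (q ∈ (Cfsg.generalizedFittingSubgroup ↥(Subgroup.centralizer ({z} : Set G))).map (Subgroup.centralizer ({z} : Set G)).subtype ∧ α * q * α⁻¹ * q⁻¹ ∈ Subgroup.zpowers z)) :
    Subgroup.closure ((fun q : G => α * q * α⁻¹ * q⁻¹) '' ((Cfsg.generalizedFittingSubgroup ↥(Subgroup.centralizer ({z} : Set G))).map (Subgroup.centralizer ({z} : Set G)).subtype : Set G)) = (Subgroup.center ↥Q₀).map Q₀.subtype ∧
      (¬ Q₀ ≤ ((Cfsg.generalizedFittingSubgroup ↥(Subgroup.centralizer ({z} : Set G))).map (Subgroup.centralizer ({z} : Set G)).subtype ⊓ Subgroup.centralizer ({α} : Set G)) ⊔ Subgroup.zpowers z →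
        ∃ q ∈ (Cfsg.generalizedFittingSubgroup ↥(Subgroup.centralizer ({z} : Set G))).map (Subgroup.centralizer ({z} : Set G)).subtype, q * α * q⁻¹ = α * z) := by
  have hzmem : z ∈ Subgroup.centralizer ({z} : Set G) := by
    rw [Subgroup.mem_centralizer_iff]
    intro h hh
    rw [Set.mem_singleton_iff] at hh
    rw [hh]
  have hzC : ∀ x ∈ Subgroup.centralizer ({z} : Set G), x * z = z * x := by
    intro x hx
    exact ((Subgroup.mem_centralizer_iff.mp hx) z rfl).symm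
  exact main (Subgroup.centralizer ({z} : Set G))
    (Cfsg.generalizedFittingSubgroup ↥(Subgroup.centralizer ({z} : Set G))) hE
    Cfsg.Agent.S1265.result z hz hzC hzmem α hα hαC hαQ Q₀ hQ₀

end Cfsg.Agent.S1784
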