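import Cfsg.Statements.S1785

set_option autoImplicit false
open Cfsg

namespace Cfsg.Agent.S1785

variable {X : Type*} [Group X]

theorem ea_comm {M : Subgroup X} (h : Cfsg.IsElementaryAbelian 2 M) {x y : X} (hx : x ∈ M)
    (hy : y ∈ M) : x * y = y * x := by
  haveI := h.1
  exact setLike_mul_comm hx hy

theorem ea_mk {M : Subgroup X} (hc : ∀ a ∈ M, ∀ b ∈ M, a * b = b * a) (hs : ∀ a ∈ M, a ^ 2 = 1) :
    Cfsg.IsElementaryAbelian 2 M :=
  ⟨IsMulCommutative.of_setLike_mul_comm hc, hs⟩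

theorem ea_of_le {M N : Subgroup X} (h : Cfsg.IsElementaryAbelian 2 M) (hN : N ≤ M) :
    Cfsg.IsElementaryAbelian 2 N :=
  ea_mk (fun a ha b hb => ea_comm h (hN ha) (hN hb)) (fun a ha => h.2 a (hN ha))

theorem comm_of_le_ea {M A B : Subgroup X} (h : Cfsg.IsElementaryAbelian 2 M) (hA : A ≤ M)
    (hB : B ≤ M) : ⁅A, B⁆ = ⊥ := by
  rw [Subgroup.commutator_eq_bot_iff_le_centralizer]
  intro a ha b hb
  exact ea_comm h (hB hb) (hA ha)

theorem ea_sup {H K : Subgroup X} (hH : Cfsg.IsElementaryAbelian 2 H)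
    (hK : Cfsg.IsElementaryAbelian 2 K) (hc : ∀ h ∈ H, ∀ k ∈ K, h * k = k * h) :
    Cfsg.IsElementaryAbelian 2 (H ⊔ K) := by
  have hcomm : ∀ a ∈ H ⊔ K, ∀ b ∈ H ⊔ K, a * b = b * a := by
    have h1 : H ≤ Subgroup.centralizer ((H ⊔ K : Subgroup X) : Set X) := by
      rw [Subgroup.le_centralizer_iff]
      apply sup_le
      · intro a ha b hb; exact ea_comm hH hb ha
      · intro k hk h hh; exact hc h hh k hk
    have h2 : K ≤ Subgroup.centralizer ((H ⊔ K : Subgroup X) : Set X) := by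
      rw [Subgroup.le_centralizer_iff]
      apply sup_le
      · intro h hh k hk; exact (hc h hh k hk).symm
      · intro a ha b hb; exact ea_comm hK hb ha
    have h3 : H ⊔ K ≤ Subgroup.centralizer ((H ⊔ K : Subgroup X) : Set X) := sup_le h1 h2
    intro a ha b hb
    exact h3 hb a ha
  refine ea_mk hcomm ?_
  intro a ha
  have hcl : H ⊔ K = Subgroup.closure ((H : Set X) ∪ K) := by
    rw [Subgroup.closure_union, Subgroup.closure_eq, Subgroup.closure_eq]
  have ha' : a ∈ Subgroup.closure ((H : Set X) ∪ K) := hcl ▸ ha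
  refine Subgroup.closure_induction (p := fun x _ => x ^ 2 = 1) ?_ ?_ ?_ ?_ ha'
  · rintro x (hx | hx)
    · exact hH.2 x hx
    · exact hK.2 x hx
  · simp
  · intro x y hx hy hx2 hy2
    have hxy : x * y = y * x := hcomm x (hcl ▸ hx) y (hcl ▸ hy)
    have : Commute x y := hxy
    rw [this.mul_pow, hx2, hy2, one_mul]
  · intro x _ hx2
    rw [inv_pow, hx2, inv_one]

theorem ea_zpowers {t : X} (ht : t ^ 2 = 1) : Cfsg.IsElementaryAbelian 2 (Subgroup.zpowers t) := by
  refine ea_mk ?_ ?_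
  · intro a ha b hb
    obtain ⟨i, rfl⟩ := Subgroup.mem_zpowers_iff.mp ha
    obtain ⟨j, rfl⟩ := Subgroup.mem_zpowers_iff.mp hb
    rw [← zpow_add, ← zpow_add, add_comm]
  · intro a ha
    obtain ⟨i, rfl⟩ := Subgroup.mem_zpowers_iff.mp ha
    rw [← zpow_natCast, ← zpow_mul, mul_comm, zpow_mul, zpow_natCast, ht, one_zpow]

theorem card_zpowers_two [Finite X] {t : X} (ht : t ^ 2 = 1) (ht1 : t ≠ 1) :
    Nat.card (Subgroup.zpowers t) = 2 := by
  rw [Nat.card_zpowers]
  exact orderOf_eq_prime ht ht1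

/-- Adjoining a commuting involution outside `M` doubles the order. -/
theorem card_sup_zpowers [Finite X] {M : Subgroup X} {t : X} (ht2 : t ^ 2 = 1) (htM : t ∉ M)
    (hc : ∀ m ∈ M, m * t = t * m) : Nat.card ↥(M ⊔ Subgroup.zpowers t) = 2 * Nat.card M := by
  have htinv : t⁻¹ = t := inv_eq_of_mul_eq_one_right (by rw [← pow_two]; exact ht2)
  have key : ∀ b ∈ M ⊔ Subgroup.zpowers t, b ∈ M ∨ b * t ∈ M := by
    intro b hb
    have hcl : M ⊔ Subgroup.zpowers t = Subgroup.closure ((M : Set X) ∪ {t}) := by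
      rw [Subgroup.closure_union, Subgroup.closure_eq, Subgroup.zpowers_eq_closure]
    have hb' : b ∈ Subgroup.closure ((M : Set X) ∪ {t}) := hcl ▸ hb
    refine Subgroup.closure_induction (p := fun x _ => x ∈ M ∨ x * t ∈ M) ?_ ?_ ?_ ?_ hb'
    · rintro x (hx | hx)
      · exact Or.inl hx
      · right
        rw [Set.mem_singleton_iff] at hx
        rw [hx, ← pow_two, ht2]; exact M.one_mem
    · exact Or.inl M.one_mem
    · rintro x y _ _ (hx | hx) (hy | hy)
      · exact Or.inl (M.mul_mem hx hy)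
      · right; rw [mul_assoc]; exact M.mul_mem hx hy
      · right
        have : x * y * t = x * t * y := by rw [mul_assoc, hc y hy, ← mul_assoc]
        rw [this]; exact M.mul_mem hx hy
      · left
        have h1 : y * t * t = y := by rw [mul_assoc, ← pow_two, ht2, mul_one]
        have h2 : y * t * t = t * (y * t) := hc _ hy
        have h3 : x * y = x * t * (y * t) := by
          calc x * y = x * (y * t * t) := by rw [h1]
            _ = x * (t * (y * t)) := by rw [h2]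
            _ = x * t * (y * t) := by rw [mul_assoc]
        rw [h3]; exact M.mul_mem hx hy
    · rintro x _ (hx | hx)
      · exact Or.inl (M.inv_mem hx)
      · right
        have h1 : x⁻¹ * t = t * (x * t)⁻¹ * t := by
          rw [mul_inv_rev, htinv]
          calc x⁻¹ * t = (t * t) * x⁻¹ * t := by rw [← pow_two, ht2, one_mul]
            _ = t * (t * x⁻¹) * t := by group
        have h2 : t * (x * t)⁻¹ = (x * t)⁻¹ * t := (hc _ (M.inv_mem hx)).symm
        rw [h1, h2, mul_assoc, ← pow_two, ht2, mul_one]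
        exact M.inv_mem hx
  have hrel : M.relIndex (M ⊔ Subgroup.zpowers t) = 2 := by
    rw [Subgroup.relIndex_eq_two_iff]
    refine ⟨t, le_sup_right (a := M) (Subgroup.mem_zpowers t), ?_⟩
    intro b hb
    rcases key b hb with h | h
    · right
      refine ⟨h, fun h' => htM ?_⟩
      have : t = b⁻¹ * (b * t) := by group
      rw [this]; exact M.mul_mem (M.inv_mem h) h'
    · left
      refine ⟨h, fun h' => htM ?_⟩
      have : t = b⁻¹ * (b * t) := by group
      rw [this]; exact M.mul_mem (M.inv_mem h') h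
  have h2 : (⊥ : Subgroup X).relIndex M * M.relIndex (M ⊔ Subgroup.zpowers t) =
      (⊥ : Subgroup X).relIndex (M ⊔ Subgroup.zpowers t) :=
    Subgroup.relIndex_mul_relIndex _ _ _ bot_le le_sup_left
  rw [Subgroup.relIndex_bot_left, Subgroup.relIndex_bot_left, hrel] at h2
  rw [← h2, mul_comm]

/-- In a 2-group, a subgroup of order at least 8 contains a subgroup of order 8 above any given
subgroup of order `2 ^ n`, `n ≤ 3`. -/
theorem pick8 [Finite X] (hX : IsPGroup 2 X) {M W : Subgroup X} (hM : 8 ≤ Nat.card M) (hWM : W ≤ M)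
    {n : ℕ} (hW : Nat.card W = 2 ^ n) (hn : n ≤ 3) :
    ∃ A : Subgroup X, W ≤ A ∧ A ≤ M ∧ Nat.card A = 8 := by
  haveI : Fact (Nat.Prime 2) := ⟨Nat.prime_two⟩
  obtain ⟨m, hm⟩ := (IsPGroup.iff_card.mp (hX.to_subgroup M))
  have hm3 : 3 ≤ m := by
    by_contra h
    push Not at h
    have : 2 ^ m ≤ 2 ^ 2 := Nat.pow_le_pow_right (by norm_num) (by omega)
    omega
  have hdvd : 2 ^ 3 ∣ Nat.card M := by rw [hm]; exact pow_dvd_pow 2 hm3
  have hWc : Nat.card (W.subgroupOf M) = 2 ^ n := by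
    rw [Nat.card_congr (Subgroup.subgroupOfEquivOfLe hWM).toEquiv]; exact hW
  obtain ⟨K, hK, hWK⟩ := Sylow.exists_subgroup_card_pow_prime_le 2 hdvd (W.subgroupOf M) hWc hn
  refine ⟨K.map M.subtype, ?_, Subgroup.map_subtype_le K, ?_⟩
  · intro w hw
    exact ⟨⟨w, hWM hw⟩, hWK (by rw [Subgroup.mem_subgroupOf]; exact hw), rfl⟩
  · rw [Subgroup.card_map_of_injective M.subtype_injective, hK]; norm_num

/-- An involution normalizing an elementary abelian 2-group `F` centralizes at least `√|F|` elements. -/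
theorem cent_bound [Finite X] {F : Subgroup X} (hF : Cfsg.IsElementaryAbelian 2 F) {t : X}
    (ht : t ^ 2 = 1) (hn : ∀ f ∈ F, t * f * t⁻¹ ∈ F) :
    Nat.card F ≤ Nat.card ↥(F ⊓ Subgroup.centralizer {t}) ^ 2 := by
  have htinv : t⁻¹ = t := inv_eq_of_mul_eq_one_right (by rw [← pow_two]; exact ht)
  let φ : F →* F :=
    { toFun := fun f => ⟨f * (t * f * t⁻¹), F.mul_mem f.2 (hn f f.2)⟩
      map_one' := by apply Subtype.ext; simp
      map_mul' := by
        intro f g
        apply Subtype.ext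
        show (f * g : X) * (t * (f * g) * t⁻¹) = f * (t * f * t⁻¹) * (g * (t * g * t⁻¹))
        have h1 : (g : X) * (t * f * t⁻¹) = (t * f * t⁻¹) * g := ea_comm hF g.2 (hn f f.2)
        calc (f * g : X) * (t * (f * g) * t⁻¹) = f * (g * (t * f * t⁻¹)) * (t * g * t⁻¹) := by group
          _ = f * ((t * f * t⁻¹) * g) * (t * g * t⁻¹) := by rw [h1]
          _ = f * (t * f * t⁻¹) * (g * (t * g * t⁻¹)) := by group }
  have hker : φ.ker ≤ (F ⊓ Subgroup.centralizer {t}).subgroupOf F := by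
    intro f hf
    rw [MonoidHom.mem_ker] at hf
    have hf' : (f : X) * (t * f * t⁻¹) = 1 := congrArg Subtype.val hf
    rw [Subgroup.mem_subgroupOf]
    refine Subgroup.mem_inf.mpr ⟨f.2, ?_⟩
    rw [Subgroup.mem_centralizer_singleton_iff]
    have hf2 : (f : X) * f = 1 := by rw [← pow_two]; exact hF.2 f f.2
    have h3 : t * f * t⁻¹ = (f : X) := by
      have h4 : (f : X) * (t * f * t⁻¹) = f * f := by rw [hf', hf2]
      exact mul_left_cancel h4
    calc (f : X) * t = (t * f * t⁻¹) * t := by rw [h3]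
      _ = t * f := by group
  have hrange : φ.range ≤ (F ⊓ Subgroup.centralizer {t}).subgroupOf F := by
    rintro _ ⟨f, rfl⟩
    rw [Subgroup.mem_subgroupOf]
    refine Subgroup.mem_inf.mpr ⟨(φ f).2, ?_⟩
    rw [Subgroup.mem_centralizer_singleton_iff]
    show (f : X) * (t * f * t⁻¹) * t = t * (f * (t * f * t⁻¹))
    have h1 : (f : X) * (t * f * t⁻¹) = (t * f * t⁻¹) * f := ea_comm hF f.2 (hn f f.2)
    have h2 : t * t = 1 := by rw [← pow_two]; exact ht
    calc (f : X) * (t * f * t⁻¹) * t = (t * f * t⁻¹) * f * t := by rw [h1]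
      _ = t * f * (t * f * t) := by rw [htinv]; group
      _ = t * f * (t * f * t⁻¹) := by rw [htinv]
      _ = t * (f * (t * f * t⁻¹)) := by group
  have hcard : Nat.card φ.ker * Nat.card φ.range = Nat.card F := by
    rw [← Subgroup.index_ker, Subgroup.card_mul_index]
  have hC : Nat.card ((F ⊓ Subgroup.centralizer {t}).subgroupOf F) =
      Nat.card ↥(F ⊓ Subgroup.centralizer {t}) :=
    Nat.card_congr (Subgroup.subgroupOfEquivOfLe inf_le_left).toEquiv
  calc Nat.card F = Nat.card φ.ker * Nat.card φ.range := hcard.symm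
    _ ≤ Nat.card ((F ⊓ Subgroup.centralizer {t}).subgroupOf F) *
          Nat.card ((F ⊓ Subgroup.centralizer {t}).subgroupOf F) :=
        Nat.mul_le_mul (Subgroup.card_le_of_le hker) (Subgroup.card_le_of_le hrange)
    _ = _ := by rw [hC, pow_two]

/-- A nontrivial normal subgroup of a finite `p`-group contains a nontrivial central element. -/
theorem central_elt [Finite X] {p : ℕ} [Fact p.Prime] (hX : IsPGroup p X) (E : Subgroup X)
    [E.Normal] (hE : E ≠ ⊥) : ∃ z ∈ E, z ≠ 1 ∧ ∀ x : X, x * z = z * x := by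
  have hXc : IsPGroup p (ConjAct X) := hX
  have hp : p ∣ Nat.card E := by
    rcases (hX.to_subgroup E).card_eq_or_dvd with h | h
    · exact absurd (Subgroup.card_eq_one.mp h) hE
    · exact h
  have h1 : (1 : E) ∈ MulAction.fixedPoints (ConjAct X) E := by
    intro g; simp
  obtain ⟨b, hb, hb1⟩ := hXc.exists_fixed_point_of_prime_dvd_card_of_fixed_point E hp h1
  refine ⟨b, b.2, ?_, ?_⟩
  · intro h; apply hb1; exact (Subtype.ext h).symm
  · intro x
    have h2 := congrArg Subtype.val (hb (ConjAct.toConjAct x))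
    rw [ConjAct.Subgroup.val_conj_smul, ConjAct.smul_def] at h2
    simp only [ConjAct.ofConjAct_toConjAct] at h2
    calc x * b = x * b * x⁻¹ * x := by group
      _ = b * x := by rw [h2]

theorem pow2_ge8 [Finite X] (hX : IsPGroup 2 X) (F : Subgroup X) (h : 32 ≤ Nat.card F ^ 2) :
    8 ≤ Nat.card F := by
  haveI : Fact (Nat.Prime 2) := ⟨Nat.prime_two⟩
  obtain ⟨m, hm⟩ := (IsPGroup.iff_card.mp (hX.to_subgroup F))
  rw [hm] at h ⊢
  by_contra hc
  push Not at hc
  have hm2 : m ≤ 2 := by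
    by_contra h3
    push Not at h3
    have : 2 ^ 3 ≤ 2 ^ m := Nat.pow_le_pow_right (by norm_num) h3
    omega
  have : 2 ^ m ≤ 2 ^ 2 := Nat.pow_le_pow_right (by norm_num) hm2
  nlinarith

theorem pow2_ge4 [Finite X] (hX : IsPGroup 2 X) (F : Subgroup X) (h : 8 ≤ Nat.card F ^ 2) :
    4 ≤ Nat.card F := by
  haveI : Fact (Nat.Prime 2) := ⟨Nat.prime_two⟩
  obtain ⟨m, hm⟩ := (IsPGroup.iff_card.mp (hX.to_subgroup F))
  rw [hm] at h ⊢
  by_contra hc
  push Not at hc
  have hm2 : m ≤ 1 := by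
    by_contra h3
    push Not at h3
    have : 2 ^ 2 ≤ 2 ^ m := Nat.pow_le_pow_right (by norm_num) h3
    omega
  have : 2 ^ m ≤ 2 ^ 1 := Nat.pow_le_pow_right (by norm_num) hm2
  nlinarith

theorem pow2_gt [Finite X] (hX : IsPGroup 2 X) (F : Subgroup X) {k : ℕ} (h : 2 ^ k < Nat.card F) :
    2 ^ (k + 1) ≤ Nat.card F := by
  haveI : Fact (Nat.Prime 2) := ⟨Nat.prime_two⟩
  obtain ⟨m, hm⟩ := (IsPGroup.iff_card.mp (hX.to_subgroup F))
  rw [hm] at h ⊢
  have : k < m := (Nat.pow_lt_pow_iff_right (by norm_num)).mp h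
  exact Nat.pow_le_pow_right (by norm_num) this

/-- the commuting relation on elementary abelian subgroups of order 8 -/
def Rel8 (C D : Subgroup X) : Prop :=
  Cfsg.IsElementaryAbelian 2 C ∧ Nat.card ↥C = 8 ∧ Cfsg.IsElementaryAbelian 2 D ∧
    Nat.card ↥D = 8 ∧ ⁅C, D⁆ = ⊥

theorem rtg_symm {α : Type*} {r : α → α → Prop} (hs : ∀ a b, r a b → r b a) {a b : α}
    (h : Relation.ReflTransGen r a b) : Relation.ReflTransGen r b a := by
  induction h with
  | refl => exact Relation.ReflTransGen.refl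
  | tail _ hbc ih => exact Relation.ReflTransGen.head (hs _ _ hbc) ih

/-- Let X be a finite 2-group having a normal elementary abelian subgroup of order at least 32. Then (a) for any two elementary abelian subgroups A, B of X of order 8 there is a chain A = A₁, A₂, …, Aₙ = B of elementary abelian subgroups of order 8 in which consecutive members commute elementwise; and (b) every elementary abelian subgroup of X of order 4 is contained in an elementary abelian subgroup of order 8. -/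
theorem result {X : Type*} [Group X] [Finite X]
    (hX : IsPGroup 2 X) (E : Subgroup X) [E.Normal] (hE : Cfsg.IsElementaryAbelian 2 E) (hE32 : 32 ≤ Nat.card ↥E) :
    (∀ A B : Subgroup X, Cfsg.IsElementaryAbelian 2 A → Nat.card ↥A = 8 → Cfsg.IsElementaryAbelian 2 B → Nat.card ↥B = 8 →
        Relation.ReflTransGen
          (fun C D : Subgroup X => Cfsg.IsElementaryAbelian 2 C ∧ Nat.card ↥C = 8 ∧ Cfsg.IsElementaryAbelian 2 D ∧ Nat.card ↥D = 8 ∧ ⁅C, D⁆ = ⊥)
          A B) ∧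
      (∀ V : Subgroup X, Cfsg.IsElementaryAbelian 2 V → Nat.card ↥V = 4 →
        ∃ A : Subgroup X, V ≤ A ∧ Cfsg.IsElementaryAbelian 2 A ∧ Nat.card ↥A = 8) := by
  classical
  haveI : Fact (Nat.Prime 2) := ⟨Nat.prime_two⟩
  have hEne : E ≠ ⊥ := by
    intro h; rw [h] at hE32; simp at hE32
  have hE8 : 8 ≤ Nat.card E := by omega
  obtain ⟨z, hzE, hz1, hzc⟩ := central_elt hX E hEne
  have hz2 : z ^ 2 = 1 := hE.2 z hzE
  have hEn : ∀ t : X, ∀ f ∈ E, t * f * t⁻¹ ∈ E := fun t f hf => ‹E.Normal›.conj_mem f hf t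
  have hF1 : ∀ t : X, t ^ 2 = 1 → 8 ≤ Nat.card ↥(E ⊓ Subgroup.centralizer {t}) := by
    intro t ht
    apply pow2_ge8 hX
    exact le_trans hE32 (cent_bound hE ht (hEn t))
  have hF2 : ∀ t s : X, t ^ 2 = 1 → s ^ 2 = 1 → t * s = s * t →
      4 ≤ Nat.card ↥(E ⊓ Subgroup.centralizer {t} ⊓ Subgroup.centralizer {s}) := by
    intro t s ht hs hts
    apply pow2_ge4 hX
    refine le_trans (hF1 t ht) (cent_bound (ea_of_le hE inf_le_left) hs ?_)
    intro f hf
    obtain ⟨hfE, hft⟩ := Subgroup.mem_inf.mp hf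
    refine Subgroup.mem_inf.mpr ⟨hEn s f hfE, ?_⟩
    rw [Subgroup.mem_centralizer_singleton_iff] at hft ⊢
    have hst : s⁻¹ * t = t * s⁻¹ := ((show Commute s t from hts.symm).inv_left).eq
    calc s * f * s⁻¹ * t = s * f * (s⁻¹ * t) := by group
      _ = s * f * (t * s⁻¹) := by rw [hst]
      _ = s * (f * t) * s⁻¹ := by group
      _ = s * (t * f) * s⁻¹ := by rw [hft]
      _ = (s * t) * f * s⁻¹ := by group
      _ = (t * s) * f * s⁻¹ := by rw [← hts]
      _ = t * (s * f * s⁻¹) := by group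
  have hreach : ∀ A : Subgroup X, Cfsg.IsElementaryAbelian 2 A → Nat.card A = 8 →
      ∃ A' : Subgroup X, A' ≤ E ∧ Cfsg.IsElementaryAbelian 2 A' ∧ Nat.card A' = 8 ∧
        Relation.ReflTransGen Rel8 A A' := by
    intro A hA hA8
    by_cases hAE : A ≤ E
    · exact ⟨A, hAE, hA, hA8, Relation.ReflTransGen.refl⟩
    obtain ⟨a₁, ha₁A, ha₁E⟩ := SetLike.not_le_iff_exists.mp hAE
    have ha₁2 : a₁ ^ 2 = 1 := hA.2 a₁ ha₁A
    have ha₁1 : a₁ ≠ 1 := fun h => ha₁E (h ▸ E.one_mem)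
    have hz_not : z ∉ Subgroup.zpowers a₁ := by
      intro hz
      have hle : Subgroup.zpowers z ≤ Subgroup.zpowers a₁ := Subgroup.zpowers_le.mpr hz
      have heq : Subgroup.zpowers z = Subgroup.zpowers a₁ :=
        Subgroup.eq_of_le_of_card_ge hle
          (by rw [card_zpowers_two hz2 hz1, card_zpowers_two ha₁2 ha₁1])
      have : a₁ ∈ Subgroup.zpowers z := heq ▸ Subgroup.mem_zpowers a₁
      exact ha₁E (Subgroup.zpowers_le.mpr hzE this)
    have hc4 : Nat.card ↥(Subgroup.zpowers a₁ ⊔ Subgroup.zpowers z) = 4 := by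
      rw [card_sup_zpowers hz2 hz_not (fun m _ => hzc m), card_zpowers_two ha₁2 ha₁1]
    obtain ⟨a₂, ha₂A, ha₂⟩ : ∃ a₂ ∈ A, a₂ ∉ Subgroup.zpowers a₁ ⊔ Subgroup.zpowers z := by
      apply SetLike.not_le_iff_exists.mp
      intro hle
      have := Subgroup.card_le_of_le hle
      omega
    have ha₂2 : a₂ ^ 2 = 1 := hA.2 a₂ ha₂A
    have h12 : a₁ * a₂ = a₂ * a₁ := ea_comm hA ha₁A ha₂A
    have ha₂_not : a₂ ∉ Subgroup.zpowers a₁ :=
      fun h => ha₂ (le_sup_left (a := Subgroup.zpowers a₁) h)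
    obtain ⟨V, hV⟩ : ∃ V : Subgroup X, V = Subgroup.zpowers a₁ ⊔ Subgroup.zpowers a₂ := ⟨_, rfl⟩
    have hVA : V ≤ A := by
      rw [hV]; exact sup_le (Subgroup.zpowers_le.mpr ha₁A) (Subgroup.zpowers_le.mpr ha₂A)
    have hVea : Cfsg.IsElementaryAbelian 2 V := ea_of_le hA hVA
    have hV4 : Nat.card V = 4 := by
      rw [hV, card_sup_zpowers ha₂2 ha₂_not
        (fun m hm => ea_comm hA (Subgroup.zpowers_le.mpr ha₁A hm) ha₂A),
        card_zpowers_two ha₁2 ha₁1]
    have hzV : z ∉ V := by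
      intro hz
      have hle : Subgroup.zpowers a₁ ⊔ Subgroup.zpowers z ≤ V :=
        sup_le (by rw [hV]; exact le_sup_left) (Subgroup.zpowers_le.mpr hz)
      have heq := Subgroup.eq_of_le_of_card_ge hle (by rw [hc4, hV4])
      apply ha₂
      rw [heq, hV]
      exact le_sup_right (a := Subgroup.zpowers a₁) (Subgroup.mem_zpowers a₂)
    obtain ⟨B₀, hB₀⟩ : ∃ B₀ : Subgroup X, B₀ = V ⊔ Subgroup.zpowers z := ⟨_, rfl⟩
    have hB₀8 : Nat.card B₀ = 8 := by
      rw [hB₀, card_sup_zpowers hz2 hzV (fun m _ => hzc m), hV4]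
    have hzcomm : ∀ h ∈ A, ∀ k ∈ Subgroup.zpowers z, h * k = k * h := by
      intro h _ k hk
      obtain ⟨i, rfl⟩ := Subgroup.mem_zpowers_iff.mp hk
      exact ((show Commute h z from hzc h).zpow_right i).eq
    have hM₀ : Cfsg.IsElementaryAbelian 2 (A ⊔ Subgroup.zpowers z) :=
      ea_sup hA (ea_zpowers hz2) hzcomm
    have hB₀M₀ : B₀ ≤ A ⊔ Subgroup.zpowers z := by
      rw [hB₀]; exact sup_le_sup_right hVA _
    have hB₀ea : Cfsg.IsElementaryAbelian 2 B₀ := ea_of_le hM₀ hB₀M₀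
    obtain ⟨F₁, hF₁def⟩ : ∃ F₁ : Subgroup X, F₁ = E ⊓ Subgroup.centralizer {a₁} := ⟨_, rfl⟩
    obtain ⟨F₂, hF₂def⟩ : ∃ F₂ : Subgroup X,
        F₂ = E ⊓ Subgroup.centralizer {a₁} ⊓ Subgroup.centralizer {a₂} := ⟨_, rfl⟩
    have hF₁8 : 8 ≤ Nat.card F₁ := by rw [hF₁def]; exact hF1 a₁ ha₁2
    have hF₂4 : 4 ≤ Nat.card F₂ := by rw [hF₂def]; exact hF2 a₁ a₂ ha₁2 ha₂2 h12
    have hF₂F₁ : F₂ ≤ F₁ := by rw [hF₂def, hF₁def]; exact inf_le_left
    have hF₁E : F₁ ≤ E := by rw [hF₁def]; exact inf_le_left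
    have hF₁c : ∀ k ∈ F₁, k * a₁ = a₁ * k := by
      intro k hk
      rw [hF₁def] at hk
      exact Subgroup.mem_centralizer_singleton_iff.mp (Subgroup.mem_inf.mp hk).2
    have hF₂c : ∀ k ∈ F₂, k * a₂ = a₂ * k := by
      intro k hk
      rw [hF₂def] at hk
      exact Subgroup.mem_centralizer_singleton_iff.mp (Subgroup.mem_inf.mp hk).2
    have hM₂ : Cfsg.IsElementaryAbelian 2 (Subgroup.zpowers a₁ ⊔ F₁) := by
      refine ea_sup (ea_zpowers ha₁2) (ea_of_le hE hF₁E) ?_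
      intro h hh k hk
      obtain ⟨i, rfl⟩ := Subgroup.mem_zpowers_iff.mp hh
      exact ((show Commute a₁ k from (hF₁c k hk).symm).zpow_left i).eq
    have hM₁ : Cfsg.IsElementaryAbelian 2 (V ⊔ F₂) := by
      refine ea_sup hVea (ea_of_le hE (hF₂F₁.trans hF₁E)) ?_
      intro h hh k hk
      have hk1 : k * a₁ = a₁ * k := hF₁c k (hF₂F₁ hk)
      have hk2 : k * a₂ = a₂ * k := hF₂c k hk
      have hVk : V ≤ Subgroup.centralizer {k} := by
        rw [hV]
        apply sup_le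
        · rw [Subgroup.zpowers_le, Subgroup.mem_centralizer_singleton_iff]; exact hk1.symm
        · rw [Subgroup.zpowers_le, Subgroup.mem_centralizer_singleton_iff]; exact hk2.symm
      exact Subgroup.mem_centralizer_singleton_iff.mp (hVk hh)
    have ha₁F₂ : a₁ ∉ F₂ := fun h => ha₁E (hF₁E (hF₂F₁ h))
    have hN₁card : 8 ≤ Nat.card ↥(F₂ ⊔ Subgroup.zpowers a₁) := by
      rw [card_sup_zpowers ha₁2 ha₁F₂ (fun m hm => hF₁c m (hF₂F₁ hm))]
      omega
    obtain ⟨B₁, -, hB₁N, hB₁8⟩ := pick8 hX hN₁card (bot_le : (⊥ : Subgroup X) ≤ _) (n := 0)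
      (by simp) (by norm_num)
    obtain ⟨B₂, -, hB₂F, hB₂8⟩ := pick8 hX hF₁8 (bot_le : (⊥ : Subgroup X) ≤ _) (n := 0)
      (by simp) (by norm_num)
    have ha₁V : Subgroup.zpowers a₁ ≤ V := by rw [hV]; exact le_sup_left
    have hB₁M₁ : B₁ ≤ V ⊔ F₂ :=
      hB₁N.trans (sup_le le_sup_right (le_sup_of_le_left ha₁V))
    have hB₁M₂ : B₁ ≤ Subgroup.zpowers a₁ ⊔ F₁ :=
      hB₁N.trans (sup_le (le_sup_of_le_right hF₂F₁) le_sup_left)
    have hB₀M₁ : B₀ ≤ V ⊔ F₂ := by
      rw [hB₀]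
      apply sup_le le_sup_left
      apply le_sup_of_le_right
      rw [Subgroup.zpowers_le, hF₂def]
      refine Subgroup.mem_inf.mpr ⟨Subgroup.mem_inf.mpr ⟨hzE, ?_⟩, ?_⟩
      · rw [Subgroup.mem_centralizer_singleton_iff]; exact (hzc a₁).symm
      · rw [Subgroup.mem_centralizer_singleton_iff]; exact (hzc a₂).symm
    have hB₁ea := ea_of_le hM₁ hB₁M₁
    have hB₂ea := ea_of_le hE (hB₂F.trans hF₁E)
    refine ⟨B₂, hB₂F.trans hF₁E, hB₂ea, hB₂8, ?_⟩
    have s1 : Rel8 A B₀ := ⟨hA, hA8, hB₀ea, hB₀8, comm_of_le_ea hM₀ le_sup_left hB₀M₀⟩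
    have s2 : Rel8 B₀ B₁ := ⟨hB₀ea, hB₀8, hB₁ea, hB₁8, comm_of_le_ea hM₁ hB₀M₁ hB₁M₁⟩
    have s3 : Rel8 B₁ B₂ :=
      ⟨hB₁ea, hB₁8, hB₂ea, hB₂8, comm_of_le_ea hM₂ hB₁M₂ (le_sup_of_le_right hB₂F)⟩
    have p1 : Relation.ReflTransGen Rel8 A B₀ := Relation.ReflTransGen.single s1
    have p2 : Relation.ReflTransGen Rel8 A B₁ := p1.tail s2
    exact p2.tail s3
  refine ⟨?_, ?_⟩
  · intro A B hA hA8 hB hB8
    obtain ⟨A', hA'E, hA'ea, hA'8, hAA'⟩ := hreach A hA hA8
    obtain ⟨B', hB'E, hB'ea, hB'8, hBB'⟩ := hreach B hB hB8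
    have hsymm : ∀ C D : Subgroup X, Rel8 C D → Rel8 D C := by
      rintro C D ⟨h1, h2, h3, h4, h5⟩
      exact ⟨h3, h4, h1, h2, by rw [Subgroup.commutator_comm]; exact h5⟩
    have hA'B' : Rel8 A' B' := ⟨hA'ea, hA'8, hB'ea, hB'8, comm_of_le_ea hE hA'E hB'E⟩
    have q1 : Relation.ReflTransGen Rel8 A B' := hAA'.tail hA'B'
    have q2 : Relation.ReflTransGen Rel8 B' B := rtg_symm hsymm hBB'
    exact q1.trans q2
  · intro V hV hV4
    have hVne : V ≠ ⊥ := by intro h; rw [h] at hV4; simp at hV4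
    obtain ⟨⟨u, huV⟩, hu1'⟩ := Subgroup.ne_bot_iff_exists_ne_one.mp hVne
    have hu1 : u ≠ 1 := fun h => hu1' (Subtype.ext h)
    have hu2 : u ^ 2 = 1 := hV.2 u huV
    obtain ⟨v, hvV, hv⟩ : ∃ v ∈ V, v ∉ Subgroup.zpowers u := by
      apply SetLike.not_le_iff_exists.mp
      intro hle
      have := Subgroup.card_le_of_le hle
      rw [card_zpowers_two hu2 hu1] at this
      omega
    have hv2 : v ^ 2 = 1 := hV.2 v hvV
    have huv : u * v = v * u := ea_comm hV huV hvV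
    have hVeq : Subgroup.zpowers u ⊔ Subgroup.zpowers v = V := by
      apply Subgroup.eq_of_le_of_card_ge
        (sup_le (Subgroup.zpowers_le.mpr huV) (Subgroup.zpowers_le.mpr hvV))
      rw [card_sup_zpowers hv2 hv (fun m hm => ea_comm hV (Subgroup.zpowers_le.mpr huV hm) hvV),
        card_zpowers_two hu2 hu1, hV4]
    have hF₂4 := hF2 u v hu2 hv2 huv
    by_cases hFV : E ⊓ Subgroup.centralizer {u} ⊓ Subgroup.centralizer {v} ≤ V
    · have heq : E ⊓ Subgroup.centralizer {u} ⊓ Subgroup.centralizer {v} = V :=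
        Subgroup.eq_of_le_of_card_ge hFV (by omega)
      have hVE : V ≤ E := by rw [← heq]; exact inf_le_left.trans inf_le_left
      obtain ⟨A, hVA, hAE, hA8⟩ := pick8 hX hE8 hVE (n := 2) (by rw [hV4]; norm_num) (by norm_num)
      exact ⟨A, hVA, ea_of_le hE hAE, hA8⟩
    · obtain ⟨f, hfF, hfV⟩ := SetLike.not_le_iff_exists.mp hFV
      obtain ⟨hf1, hfv⟩ := Subgroup.mem_inf.mp hfF
      obtain ⟨hfE, hfu⟩ := Subgroup.mem_inf.mp hf1
      have hf2 : f ^ 2 = 1 := hE.2 f hfE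
      have hVf : V ≤ Subgroup.centralizer {f} := by
        rw [← hVeq]
        apply sup_le
        · rw [Subgroup.zpowers_le, Subgroup.mem_centralizer_singleton_iff]
          exact (Subgroup.mem_centralizer_singleton_iff.mp hfu).symm
        · rw [Subgroup.zpowers_le, Subgroup.mem_centralizer_singleton_iff]
          exact (Subgroup.mem_centralizer_singleton_iff.mp hfv).symm
      have hfc : ∀ m ∈ V, m * f = f * m :=
        fun m hm => Subgroup.mem_centralizer_singleton_iff.mp (hVf hm)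
      refine ⟨V ⊔ Subgroup.zpowers f, le_sup_left, ea_sup hV (ea_zpowers hf2) ?_, ?_⟩
      · intro h hh k hk
        obtain ⟨i, rfl⟩ := Subgroup.mem_zpowers_iff.mp hk
        exact ((show Commute h f from hfc h hh).zpow_right i).eq
      · rw [card_sup_zpowers hf2 hfV hfc, hV4]

end Cfsg.Agent.S1785
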