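import Cfsg.Statements.S1850
import Mathlib
import Cfsg.Agent.Lib.helper14.ParabolicChar
import Cfsg.Agent.Lib.helper14.FrakM
import Cfsg.Agent.Lib.helper14.Amalgam4

set_option autoImplicit false
open Cfsg

namespace Cfsg.Agent.S1850

open Cfsg.Agent.Lib.helper14

/-- If `K` has characteristic `p`, `X ≤ K` is a `p`-subgroup and `C_G(X) ≤ K`, then `N_G(X)` has
characteristic `p`. -/
theorem charp_normalizer_of_le {G : Type*} [Group G] [Finite G] {p : ℕ} [Fact p.Prime]
    (K X : Subgroup G) (hX : IsPGroup p X)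
    (hK : K ⊓ Subgroup.centralizer (pCoreOf p K : Set G) ≤ pCoreOf p K)
    (hXK : X ≤ K) (hCK : Subgroup.centralizer (X : Set G) ≤ K) :
    Subgroup.normalizer (X : Set G) ⊓
      Subgroup.centralizer (pCoreOf p (Subgroup.normalizer (X : Set G)) : Set G) ≤
        pCoreOf p (Subgroup.normalizer (X : Set G)) := by
  obtain ⟨N, hN⟩ : ∃ N, N = Subgroup.normalizer (X : Set G) := ⟨_, rfl⟩
  rw [← hN]
  have hM := charp_inf_normalizer K X hK hXK hX
  rw [← hN] at hM
  obtain ⟨P, hP⟩ : ∃ P, P = pCoreOf p N := ⟨_, rfl⟩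
  rw [← hP]
  have hXN : X ≤ N := by rw [hN]; exact Subgroup.le_normalizer
  have hXP : X ≤ P := by rw [hP]; exact le_pCoreOf N X hXN hX (by rw [hN])
  have hNP : N ≤ Subgroup.normalizer (P : Set G) := by rw [hP]; exact le_normalizer_pCoreOf p N
  obtain ⟨D, hD⟩ : ∃ D, D = N ⊓ Subgroup.centralizer (P : Set G) := ⟨_, rfl⟩
  rw [← hD]
  have hDN : D ≤ N := by rw [hD]; exact inf_le_left
  have hND : N ≤ Subgroup.normalizer (D : Set G) := by
    rw [hD]
    exact Cfsg.Agent.Lib.helper14.le_normalizer_inf N _ N Subgroup.le_normalizer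
      (hNP.trans (Cfsg.Agent.Lib.helper15.normalizer_le_normalizer_centralizer P))
  have hDK : D ≤ K := by
    intro d hd
    rw [hD] at hd
    apply hCK
    exact Subgroup.centralizer_le hXP (Subgroup.mem_inf.1 hd).2
  have h1 := charp_normal_rel (K ⊓ N) D hM (le_inf hDK hDN) (inf_le_right.trans hND)
  have h2 : pCoreOf p D ≤ P := by
    rw [hP]
    exact le_pCoreOf N _ ((pCoreOf_le p D).trans hDN) (isPGroup_pCoreOf p D)
      (le_normalizer_pCoreOf_of_le_normalizer p D N hND)
  have h3 : D ≤ Subgroup.centralizer (pCoreOf p D : Set G) := by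
    have h4 : Subgroup.centralizer (P : Set G) ≤ Subgroup.centralizer (pCoreOf p D : Set G) :=
      Subgroup.centralizer_le h2
    have h5 : D ≤ Subgroup.centralizer (P : Set G) := by rw [hD]; exact inf_le_right
    exact h5.trans h4
  intro d hd
  exact h2 (h1 (Subgroup.mem_inf.2 ⟨hd, h3 hd⟩))

/-- normalizers grow in finite `p`-groups (ambient form) -/
theorem exists_normalizing {G : Type*} [Group G] [Finite G] {p : ℕ} [Fact p.Prime]
    (U V : Subgroup G) (hU : IsPGroup p ↥U) (hVU : V ≤ U) (hne : V ≠ U) :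
    ∃ x ∈ U, x ∈ Subgroup.normalizer (V : Set G) ∧ x ∉ V := by
  haveI : Group.IsNilpotent ↥U := hU.isNilpotent
  have hlt : V.subgroupOf U < ⊤ := by
    refine lt_of_le_of_ne le_top ?_
    intro h
    rw [Subgroup.subgroupOf_eq_top] at h
    exact hne (le_antisymm hVU h)
  have h2 := normalizerCondition_of_isNilpotent (G := ↥U) (V.subgroupOf U) hlt
  obtain ⟨x, hxN, hxV⟩ := SetLike.exists_of_lt h2
  rw [← Subgroup.subgroupOf_normalizer_eq hVU, Subgroup.mem_subgroupOf] at hxN
  rw [Subgroup.mem_subgroupOf] at hxV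
  exact ⟨x.1, x.2, hxN, hxV⟩

/-- Let G be a non-abelian finite simple QTKE-group and T a Sylow 2-subgroup of G. If U is a nontrivial 2-subgroup of G with U ∩ Z(T) ≠ 1, then F*(N_G(U)) = O₂(N_G(U)). -/
theorem result {G : Type*} [Group G] [Finite G] [IsSimpleGroup G]
    (hG : ¬ IsMulCommutative G) (hQ : Cfsg.IsQTKE G) (T : Sylow 2 G) (U : Subgroup G)
    (hU : IsPGroup 2 ↥U) (hZ : U ⊓ ((T : Subgroup G) ⊓ Subgroup.centralizer ((T : Subgroup G) : Set G)) ≠ ⊥) :
    Subgroup.normalizer (U : Set G) ∈ Cfsg.calHe G := by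
  haveI : Fact (Nat.Prime 2) := ⟨Nat.prime_two⟩
  obtain ⟨z, hz, hz1⟩ : ∃ z ∈ U ⊓ ((T : Subgroup G) ⊓
      Subgroup.centralizer ((T : Subgroup G) : Set G)), z ≠ 1 := by
    by_contra hcon
    push Not at hcon
    apply hZ
    rw [Subgroup.eq_bot_iff_forall]
    exact hcon
  have hzU : z ∈ U := (Subgroup.mem_inf.1 hz).1
  have hzT : z ∈ (T : Subgroup G) := (Subgroup.mem_inf.1 (Subgroup.mem_inf.1 hz).2).1
  have hzC : z ∈ Subgroup.centralizer ((T : Subgroup G) : Set G) :=
    (Subgroup.mem_inf.1 (Subgroup.mem_inf.1 hz).2).2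
  rw [Subgroup.mem_centralizer_iff] at hzC
  -- base case
  have hbase : Subgroup.normalizer ((Subgroup.zpowers z : Subgroup G) : Set G) ⊓
      Subgroup.centralizer (pCoreOf 2 (Subgroup.normalizer
        ((Subgroup.zpowers z : Subgroup G) : Set G)) : Set G) ≤
        pCoreOf 2 (Subgroup.normalizer ((Subgroup.zpowers z : Subgroup G) : Set G)) := by
    apply charp_of
    apply hQ.2.2
    · refine ⟨Subgroup.zpowers z, ?_, ?_, rfl⟩
      · exact T.isPGroup'.to_le (by rw [Subgroup.zpowers_le]; exact hzT)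
      · intro h
        apply hz1
        have : z ∈ Subgroup.zpowers z := Subgroup.mem_zpowers z
        rw [h, Subgroup.mem_bot] at this
        exact this
    · refine ⟨T, ?_⟩
      intro t ht
      apply Subgroup.centralizer_le_normalizer
      have h1 : Subgroup.zpowers z ≤ Subgroup.centralizer ({t} : Set G) := by
        rw [Subgroup.zpowers_le, Subgroup.mem_centralizer_iff]
        intro h hh
        rw [Set.mem_singleton_iff] at hh
        subst hh
        exact hzC h ht
      rw [Subgroup.mem_centralizer_iff]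
      intro x hx
      have h2 := Subgroup.mem_centralizer_iff.1 (h1 hx) t (Set.mem_singleton t)
      exact h2.symm
  -- induction up a normal chain
  have key : ∀ V : Subgroup G, V ≤ U → z ∈ V →
      (Subgroup.normalizer (V : Set G) ⊓
        Subgroup.centralizer (pCoreOf 2 (Subgroup.normalizer (V : Set G)) : Set G) ≤
          pCoreOf 2 (Subgroup.normalizer (V : Set G))) →
      (Subgroup.normalizer (U : Set G) ⊓
        Subgroup.centralizer (pCoreOf 2 (Subgroup.normalizer (U : Set G)) : Set G) ≤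
          pCoreOf 2 (Subgroup.normalizer (U : Set G))) := by
    intro V
    refine IsWellFounded.induction (α := Subgroup G) (· > ·)
      (motive := fun V => V ≤ U → z ∈ V →
      (Subgroup.normalizer (V : Set G) ⊓
        Subgroup.centralizer (pCoreOf 2 (Subgroup.normalizer (V : Set G)) : Set G) ≤
          pCoreOf 2 (Subgroup.normalizer (V : Set G))) →
      (Subgroup.normalizer (U : Set G) ⊓
        Subgroup.centralizer (pCoreOf 2 (Subgroup.normalizer (U : Set G)) : Set G) ≤
          pCoreOf 2 (Subgroup.normalizer (U : Set G)))) V ?_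
    intro V ih hVU hzV hPV
    by_cases hVeq : V = U
    · rw [← hVeq]; exact hPV
    · obtain ⟨x, hxU, hxN, hxV⟩ := exists_normalizing U V hU hVU hVeq
      obtain ⟨W, hW⟩ : ∃ W, W = U ⊓ Subgroup.normalizer (V : Set G) := ⟨_, rfl⟩
      have hVW : V ≤ W := by rw [hW]; exact le_inf hVU Subgroup.le_normalizer
      have hWU : W ≤ U := by rw [hW]; exact inf_le_left
      have hWN : W ≤ Subgroup.normalizer (V : Set G) := by rw [hW]; exact inf_le_right
      have hlt : V < W := by
        refine lt_of_le_of_ne hVW ?_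
        intro h
        apply hxV
        rw [h, hW]
        exact Subgroup.mem_inf.2 ⟨hxU, hxN⟩
      apply ih W hlt hWU (hVW hzV)
      apply charp_normalizer_of_le (Subgroup.normalizer (V : Set G)) W (hU.to_le hWU) hPV hWN
      exact (Subgroup.centralizer_le hVW).trans (Subgroup.centralizer_le_normalizer _)
  have hfin := key (Subgroup.zpowers z) (by rw [Subgroup.zpowers_le]; exact hzU)
    (Subgroup.mem_zpowers z) hbase
  show generalizedFittingSubgroup ↥(Subgroup.normalizer (U : Set G)) =
    pCore 2 ↥(Subgroup.normalizer (U : Set G))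
  rw [fsP_iff_charp]
  exact charp_subtype_of _ hfin

end Cfsg.Agent.S1850
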