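import Cfsg.Statements.S1851
import Mathlib
import Cfsg.Agent.Lib.helper14.ParabolicChar
import Cfsg.Agent.Lib.helper14.FrakM
import Cfsg.Agent.Lib.helper14.Amalgam4
import Cfsg.Agent.Lib.helper14.Amalgam2
import Cfsg.Agent.Lib.helper14.PReduced
import Cfsg.Agent.Lib.helper14.PGroupFrattini
import Cfsg.Agent.Lib.helper14.Subnormal
import Cfsg.Agent.Lib.helper14.Large
import Cfsg.Agent.Lib.helper14.PIrred
import Cfsg.Agent.Lib.helper14.Basic
import Cfsg.Agent.Lib.helper15.CharP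
import Cfsg.Agent.Lib.helper15.PCore
import Cfsg.Agent.Lib.helper10.Restrict

set_option autoImplicit false
open Cfsg

namespace Cfsg.Agent.S1851

open Cfsg.Agent.Lib.helper14

/-! ### The key computation -/

/-- If `y` has odd order, `d = [y, a]` is a `2`-element centralized by `y`, then `d = 1`. -/
theorem kc {G : Type*} [Group G] (y a : G) (n k : ℕ) (hn : Odd n) (hy : y ^ n = 1)
    (hd : y * (y * a * y⁻¹ * a⁻¹) * y⁻¹ = y * a * y⁻¹ * a⁻¹)
    (hd2 : (y * a * y⁻¹ * a⁻¹) ^ (2 ^ k) = 1) : y * a * y⁻¹ = a := by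
  obtain ⟨d, hdd⟩ : ∃ d, d = y * a * y⁻¹ * a⁻¹ := ⟨_, rfl⟩
  rw [← hdd] at hd hd2
  have h3 : y * a * y⁻¹ = d * a := by rw [hdd]; group
  have h1 : ∀ j : ℕ, y ^ j * a * (y ^ j)⁻¹ = d ^ j * a := by
    intro j
    induction j with
    | zero => simp
    | succ j ih =>
      have e1 : y ^ (j + 1) * a * (y ^ (j + 1))⁻¹ = y * (y ^ j * a * (y ^ j)⁻¹) * y⁻¹ := by
        rw [pow_succ']; group
      rw [e1, ih]
      have h2 : y * (d ^ j * a) * y⁻¹ = (y * d * y⁻¹) ^ j * (y * a * y⁻¹) := by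
        rw [conj_pow]; group
      rw [h2, hd, h3, pow_succ, mul_assoc]
  have h2 := h1 n
  rw [hy] at h2
  have hdn : d ^ n = 1 := by
    have : d ^ n * a = 1 * a := by rw [← h2]; simp
    exact mul_right_cancel this
  have hc : Nat.Coprime n (2 ^ k) := Nat.Coprime.pow_right k (Nat.coprime_two_right.2 hn)
  have h4 := (pow_gcd_eq_one (a := d)).2 ⟨hdn, hd2⟩
  rw [hc.gcd_eq_one, pow_one] at h4
  rw [h3, h4, one_mul]

/-! ### Perfect groups are generated by their elements of odd order -/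

theorem oddgen_top (Y : Type*) [Group Y] [Finite Y] (hperf : commutator Y = ⊤) :
    Subgroup.closure {x : Y | Odd (orderOf x)} = ⊤ := by
  obtain ⟨N, hN⟩ : ∃ N : Subgroup Y, N = Subgroup.closure {x : Y | Odd (orderOf x)} := ⟨_, rfl⟩
  rw [← hN]
  haveI hnorm : N.Normal := by
    constructor
    intro n hn g
    rw [hN] at hn ⊢
    induction hn using Subgroup.closure_induction with
    | mem x hx =>
      apply Subgroup.subset_closure
      show Odd (orderOf (g * x * g⁻¹))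
      rw [orderOf_conj_eq]
      exact hx
    | one => simp
    | mul x y _ _ hx hy =>
      have : g * (x * y) * g⁻¹ = (g * x * g⁻¹) * (g * y * g⁻¹) := by group
      rw [this]; exact Subgroup.mul_mem _ hx hy
    | inv x _ hx =>
      have : g * x⁻¹ * g⁻¹ = (g * x * g⁻¹)⁻¹ := by group
      rw [this]; exact Subgroup.inv_mem _ hx
  haveI : Fact (Nat.Prime 2) := ⟨Nat.prime_two⟩
  have hp : IsPGroup 2 (Y ⧸ N) := by
    intro q
    obtain ⟨y, rfl⟩ := QuotientGroup.mk_surjective q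
    obtain ⟨a, m, hm, hym⟩ := Nat.exists_eq_two_pow_mul_odd (orderOf_pos y).ne'
    refine ⟨a, ?_⟩
    rw [← QuotientGroup.mk_pow, QuotientGroup.eq_one_iff, hN]
    apply Subgroup.subset_closure
    show Odd (orderOf (y ^ 2 ^ a))
    have hdvd : orderOf (y ^ 2 ^ a) ∣ m := by
      apply orderOf_dvd_of_pow_eq_one
      rw [← pow_mul, ← hym, pow_orderOf_eq_one]
    exact Odd.of_dvd_nat hm hdvd
  rcases subsingleton_or_nontrivial (Y ⧸ N) with hs | hnt
  · exact QuotientGroup.subgroup_eq_top_of_subsingleton N hs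
  · exfalso
    haveI : Group.IsNilpotent (Y ⧸ N) := hp.isNilpotent
    have h1 : commutator (Y ⧸ N) < ⊤ := Group.IsSolvable.commutator_lt_top_of_nontrivial (Y ⧸ N)
    have h2 : commutator (Y ⧸ N) = ⊤ := by
      rw [commutator_def, ← Subgroup.map_top_of_surjective (QuotientGroup.mk' N)
        (QuotientGroup.mk'_surjective N), ← Subgroup.map_commutator, ← commutator_def, hperf]
    exact (ne_of_lt h1) h2

theorem oddGenerated_eq_of_perfect {G : Type*} [Group G] [Finite G] (K : Subgroup G)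
    (hK : ⁅K, K⁆ = K) : oddGenerated K = K := by
  have h1 : commutator ↥K = ⊤ := by
    apply Subgroup.map_injective K.subtype_injective
    rw [Subgroup.map_subtype_commutator, hK, ← MonoidHom.range_eq_map, Subgroup.range_subtype]
  have h2 := oddgen_top ↥K h1
  have h3 := congrArg (Subgroup.map K.subtype) h2
  rw [MonoidHom.map_closure, ← MonoidHom.range_eq_map, Subgroup.range_subtype] at h3
  have hset : {x : G | x ∈ K ∧ Odd (orderOf x)} = K.subtype '' {x : ↥K | Odd (orderOf x)} := by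
    ext x
    constructor
    · rintro ⟨hxK, hodd⟩
      refine ⟨⟨x, hxK⟩, ?_, rfl⟩
      show Odd (orderOf (⟨x, hxK⟩ : ↥K))
      rw [Subgroup.orderOf_mk]
      exact hodd
    · rintro ⟨y, hy, rfl⟩
      refine ⟨y.2, ?_⟩
      have hy' : Odd (orderOf y) := hy
      rw [← Subgroup.orderOf_coe] at hy'
      exact hy'
  unfold oddGenerated
  rw [hset]
  exact h3

/-! ### Overgroups of a Sylow 2-subgroup with nontrivial `O_2` have characteristic 2 -/

theorem pCoreOf_le_sylow' {G : Type*} [Group G] [Finite G] (T : Sylow 2 G) (M : Subgroup G)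
    (hTM : (T : Subgroup G) ≤ M) : pCoreOf 2 M ≤ (T : Subgroup G) := by
  have hsup : IsPGroup 2 ↥(pCoreOf 2 M ⊔ (T : Subgroup G)) :=
    IsPGroup.to_sup_of_normal_left' (isPGroup_pCoreOf 2 M) T.isPGroup'
      (hTM.trans (le_normalizer_pCoreOf 2 M))
  have := T.is_maximal' hsup le_sup_right
  rw [← this]; exact le_sup_left

theorem charp_over_sylow {G : Type*} [Group G] [Finite G] (hE : IsOfEvenCharacteristic G)
    (T : Sylow 2 G) (H : Subgroup G) (hTH : (T : Subgroup G) ≤ H) (hQ : pCoreOf 2 H ≠ ⊥) :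
    H ⊓ Subgroup.centralizer (pCoreOf 2 H : Set G) ≤ pCoreOf 2 H := by
  haveI : Fact (Nat.Prime 2) := ⟨Nat.prime_two⟩
  obtain ⟨M, hM⟩ : ∃ M, M = Subgroup.normalizer ((pCoreOf 2 H : Subgroup G) : Set G) := ⟨_, rfl⟩
  have hHM : H ≤ M := by rw [hM]; exact le_normalizer_pCoreOf 2 H
  have hMc : M ⊓ Subgroup.centralizer (pCoreOf 2 M : Set G) ≤ pCoreOf 2 M := by
    apply charp_of
    apply hE
    · exact ⟨pCoreOf 2 H, isPGroup_pCoreOf 2 H, hQ, hM⟩
    · exact ⟨T, hTH.trans hHM⟩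
  have hMT : pCoreOf 2 M ≤ (T : Subgroup G) := pCoreOf_le_sylow' T M (hTH.trans hHM)
  have hMH : pCoreOf 2 M ≤ pCoreOf 2 H :=
    le_pCoreOf H _ (hMT.trans hTH) (isPGroup_pCoreOf 2 M) (hHM.trans (le_normalizer_pCoreOf 2 M))
  intro c hc
  apply hMH
  apply hMc
  exact Subgroup.mem_inf.2 ⟨hHM (Subgroup.mem_inf.1 hc).1,
    Subgroup.centralizer_le hMH (Subgroup.mem_inf.1 hc).2⟩

/-! ### Odd-order elements of subnormal subgroups -/

/-- an odd-order element of a subnormal subgroup `K` centralizing `A ∩ K` centralizes the normal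
`2`-subgroup `A`. -/
theorem cent_of_subnormal {X : Type*} [Group X] (K A : Subgroup X) (hK : K.IsSubnormal)
    [hA : A.Normal] (hA2 : ∀ a ∈ A, ∃ k : ℕ, a ^ (2 ^ k) = 1)
    (y : X) (n : ℕ) (hn : Odd n) (hyn : y ^ n = 1) :
    y ∈ K → (∀ a ∈ A ⊓ K, y * a * y⁻¹ = a) → ∀ a ∈ A, y * a * y⁻¹ = a := by
  induction hK with
  | top =>
    intro _ h0 a ha
    exact h0 a (Subgroup.mem_inf.2 ⟨ha, Subgroup.mem_top a⟩)
  | step H K h_le hSubn hN ih =>
    intro hyK h0
    apply ih (h_le hyK)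
    intro a ha
    obtain ⟨haA, haK⟩ := Subgroup.mem_inf.1 ha
    have hdA : y * a * y⁻¹ * a⁻¹ ∈ A := A.mul_mem (hA.conj_mem a haA y) (A.inv_mem haA)
    have hdH : y * a * y⁻¹ * a⁻¹ ∈ H := by
      have h1 : a * y⁻¹ * a⁻¹ ∈ H := by
        have := hN.conj_mem ⟨y⁻¹, h_le (H.inv_mem hyK)⟩
          (Subgroup.mem_subgroupOf.2 (H.inv_mem hyK)) ⟨a, haK⟩
        rw [Subgroup.mem_subgroupOf] at this
        exact this
      have : y * a * y⁻¹ * a⁻¹ = y * (a * y⁻¹ * a⁻¹) := by group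
      rw [this]; exact H.mul_mem hyK h1
    obtain ⟨k, hk⟩ := hA2 _ hdA
    exact kc y a n k hn hyn (h0 _ (Subgroup.mem_inf.2 ⟨hdA, hdH⟩)) hk

/-- odd-order elements of `K O_2(X)` lie in `K` when `K` is subnormal. -/
theorem odd_mem_of_subnormal {X : Type*} [Group X] [Finite X] (K : Subgroup X)
    (hK : K.IsSubnormal) : ∀ y ∈ K ⊔ pCore 2 X, Odd (orderOf y) → y ∈ K := by
  induction hK with
  | top => intro y _ _; exact Subgroup.mem_top y
  | step H K h_le hSubn hN ih =>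
    intro y hy hodd
    have hyK : y ∈ K := ih y (sup_le_sup_right h_le _ hy) hodd
    haveI := Cfsg.Agent.Lib.helper15.pCore_normal 2 X
    obtain ⟨h, hh, u, hu, rfl⟩ := Subgroup.mem_sup_of_normal_right.1 hy
    have huK : u ∈ K := by
      have : u = h⁻¹ * (h * u) := by group
      rw [this]; exact K.mul_mem (K.inv_mem (h_le hh)) hyK
    obtain ⟨j, hj⟩ : ∃ j : ℕ, u ^ (2 ^ j) = 1 := by
      obtain ⟨j, hj⟩ := (isPGroup_pCore 2 X) ⟨u, hu⟩
      refine ⟨j, ?_⟩
      have := congrArg Subtype.val hj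
      simpa using this
    have h1 : QuotientGroup.mk' (H.subgroupOf K) ⟨h * u, hyK⟩ =
        QuotientGroup.mk' (H.subgroupOf K) ⟨u, huK⟩ := by
      have e1 : (⟨h * u, hyK⟩ : ↥K) = ⟨h, h_le hh⟩ * ⟨u, huK⟩ := rfl
      rw [e1, map_mul]
      have e2 : QuotientGroup.mk' (H.subgroupOf K) ⟨h, h_le hh⟩ = 1 := by
        rw [QuotientGroup.mk'_apply, QuotientGroup.eq_one_iff]
        exact Subgroup.mem_subgroupOf.2 hh
      rw [e2, one_mul]
    have h2 : (QuotientGroup.mk' (H.subgroupOf K) ⟨h * u, hyK⟩) ^ (2 ^ j) = 1 := by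
      rw [h1, ← map_pow]
      have e3 : (⟨u, huK⟩ : ↥K) ^ (2 ^ j) = 1 := Subtype.ext (by simpa using hj)
      rw [e3, map_one]
    have h3 : (QuotientGroup.mk' (H.subgroupOf K) ⟨h * u, hyK⟩) ^ (orderOf (h * u)) = 1 := by
      rw [← map_pow]
      have e4 : (⟨h * u, hyK⟩ : ↥K) ^ (orderOf (h * u)) = 1 :=
        Subtype.ext (by simpa using pow_orderOf_eq_one (h * u))
      rw [e4, map_one]
    have hc : Nat.Coprime (orderOf (h * u)) (2 ^ j) :=
      Nat.Coprime.pow_right j (Nat.coprime_two_right.2 hodd)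
    have h4 := pow_gcd_eq_one.2 ⟨h3, h2⟩
    rw [hc.gcd_eq_one, pow_one, QuotientGroup.mk'_apply, QuotientGroup.eq_one_iff] at h4
    exact Subgroup.mem_subgroupOf.1 h4

/-- `O_2` of a subnormal subgroup (ambient form) -/
theorem pCoreOf_le_of_subnormal {G : Type*} [Group G] [Finite G] (L H : Subgroup G)
    (hLH : L ≤ H) (hsub : (L.subgroupOf H).IsSubnormal) : pCoreOf 2 L ≤ pCoreOf 2 H := by
  haveI : Fact (Nat.Prime 2) := ⟨Nat.prime_two⟩
  have h1 := pCoreOf_le_pCore_of_subnormal (p := 2) (L.subgroupOf H) hsub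
  have h2 := Cfsg.Agent.Lib.helper10.pCoreOf_map_subtype (p := 2) H (L.subgroupOf H)
  rw [Subgroup.map_subgroupOf_eq_of_le hLH] at h2
  rw [h2]
  exact Subgroup.map_mono h1

/-! ### Step 1: from `K` to `⟨K, T⟩` -/

/-- If `K` centralizes `Ω₁(Z(O₂(K)))` and `K` is subnormal in `H`, every odd-order element of `K`
centralizes `Ω₁(Z(O₂(H)))`. -/
theorem cent_omega_H {G : Type*} [Group G] [Finite G] (K H : Subgroup G) (hKH : K ≤ H)
    (hsub : (K.subgroupOf H).IsSubnormal)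
    (hVK : ∀ y ∈ K, ∀ a ∈ omegaOne 2 (pCoreOf 2 K ⊓ Subgroup.centralizer (pCoreOf 2 K : Set G)),
      y * a * y⁻¹ = a)
    (x : G) (hxK : x ∈ K) (hodd : Odd (orderOf x)) :
    ∀ a ∈ omegaOne 2 (pCoreOf 2 H ⊓ Subgroup.centralizer (pCoreOf 2 H : Set G)),
      x * a * x⁻¹ = a := by
  haveI : Fact (Nat.Prime 2) := ⟨Nat.prime_two⟩
  obtain ⟨Q, hQ⟩ : ∃ Q, Q = pCoreOf 2 H := ⟨_, rfl⟩
  rw [← hQ]
  obtain ⟨A, hA⟩ : ∃ A, A = omegaOne 2 (Q ⊓ Subgroup.centralizer (Q : Set G)) := ⟨_, rfl⟩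
  rw [← hA]
  have hAQ : A ≤ Q ⊓ Subgroup.centralizer (Q : Set G) := by rw [hA]; exact omegaOne_center_le 2 Q
  have hQH : Q ≤ H := by rw [hQ]; exact pCoreOf_le 2 H
  have hAH : A ≤ H := fun a ha => hQH (Subgroup.mem_inf.1 (hAQ ha)).1
  have hHQ : H ≤ Subgroup.normalizer (Q : Set G) := by rw [hQ]; exact le_normalizer_pCoreOf 2 H
  have hHA : H ≤ Subgroup.normalizer (A : Set G) := by
    rw [hA]; exact hHQ.trans (le_normalizer_omegaOne_center 2 Q)
  haveI hAn : (A.subgroupOf H).Normal := (Subgroup.normal_subgroupOf_iff_le_normalizer hAH).2 hHA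
  have hA2 : ∀ a ∈ A, a ^ 2 = 1 := by
    intro a ha
    rw [hA] at ha
    exact (omegaOne_center_mem 2 Q ha).2
  have hKQ : pCoreOf 2 K ≤ Q := by rw [hQ]; exact pCoreOf_le_of_subnormal K H hKH hsub
  have hAK : A ⊓ K ≤ pCoreOf 2 K := by
    apply le_pCoreOf K (A ⊓ K) inf_le_right
    · have hQp : IsPGroup 2 ↥Q := by rw [hQ]; exact isPGroup_pCoreOf 2 H
      exact hQp.to_le (fun a ha => (Subgroup.mem_inf.1 (hAQ (Subgroup.mem_inf.1 ha).1)).1)
    · exact Cfsg.Agent.Lib.helper14.le_normalizer_inf A K K (hKH.trans hHA) Subgroup.le_normalizer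
  have key := cent_of_subnormal (K.subgroupOf H) (A.subgroupOf H) hsub
    (by
      intro a ha
      refine ⟨1, ?_⟩
      apply Subtype.ext
      have := hA2 a.1 (Subgroup.mem_subgroupOf.1 ha)
      simpa using this)
    (⟨x, hKH hxK⟩ : ↥H) (orderOf x) hodd
    (by apply Subtype.ext; simpa using pow_orderOf_eq_one x)
    (Subgroup.mem_subgroupOf.2 hxK)
    (by
      intro a ha
      obtain ⟨haA, haK⟩ := Subgroup.mem_inf.1 ha
      rw [Subgroup.mem_subgroupOf] at haA haK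
      apply Subtype.ext
      show x * (a : G) * x⁻¹ = a
      apply hVK x hxK
      have haAK : (a : G) ∈ A ⊓ K := Subgroup.mem_inf.2 ⟨haA, haK⟩
      apply mem_omegaOne_center (hAK haAK)
      · exact Subgroup.centralizer_le hKQ (Subgroup.mem_inf.1 (hAQ haA)).2
      · exact hA2 _ haA)
  intro a ha
  have := key ⟨a, hAH ha⟩ (Subgroup.mem_subgroupOf.2 ha)
  exact congrArg Subtype.val this

/-! ### Step 2: comparing `Ω₁(Z(O₂))` of overgroups of `T` -/

theorem omega_le {G : Type*} [Group G] [Finite G] (HL HK : Subgroup G) (T : Sylow 2 G)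
    (hT : (T : Subgroup G) ≤ HL) (hle : HL ≤ HK)
    (hK : HK ⊓ Subgroup.centralizer (pCoreOf 2 HK : Set G) ≤ pCoreOf 2 HK) :
    omegaOne 2 (pCoreOf 2 HL ⊓ Subgroup.centralizer (pCoreOf 2 HL : Set G)) ≤
      omegaOne 2 (pCoreOf 2 HK ⊓ Subgroup.centralizer (pCoreOf 2 HK : Set G)) := by
  have h1 : pCoreOf 2 HK ≤ (T : Subgroup G) := pCoreOf_le_sylow' T HK (hT.trans hle)
  have h2 : pCoreOf 2 HK ≤ pCoreOf 2 HL :=
    le_pCoreOf HL _ (h1.trans hT) (isPGroup_pCoreOf 2 HK) (hle.trans (le_normalizer_pCoreOf 2 HK))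
  apply omegaOne_mono
  intro z hz
  obtain ⟨hz1, hz2⟩ := Subgroup.mem_inf.1 hz
  have hz3 : z ∈ Subgroup.centralizer (pCoreOf 2 HK : Set G) := Subgroup.centralizer_le h2 hz2
  exact Subgroup.mem_inf.2 ⟨hK (Subgroup.mem_inf.2 ⟨hle (pCoreOf_le 2 HL hz1), hz3⟩), hz3⟩

/-! ### Step 3: from `⟨L, T⟩` down to `L` -/

theorem cent_omega_of_odd {G : Type*} [Group G] [Finite G] (L H : Subgroup G) (hLH : L ≤ H)
    (hsub : (L.subgroupOf H).IsSubnormal) (hgen : oddGenerated L = L)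
    (hH : H ⊓ Subgroup.centralizer (pCoreOf 2 H : Set G) ≤ pCoreOf 2 H)
    (x : G) (hxL : x ∈ L) (hodd : Odd (orderOf x))
    (hx : ∀ a ∈ omegaOne 2 (pCoreOf 2 H ⊓ Subgroup.centralizer (pCoreOf 2 H : Set G)),
      x * a * x⁻¹ = a) :
    ∀ b ∈ omegaOne 2 (pCoreOf 2 L ⊓ Subgroup.centralizer (pCoreOf 2 L : Set G)),
      x * b * x⁻¹ = b := by
  haveI : Fact (Nat.Prime 2) := ⟨Nat.prime_two⟩
  obtain ⟨Q, hQ⟩ : ∃ Q, Q = pCoreOf 2 H := ⟨_, rfl⟩
  rw [← hQ] at hH hx
  obtain ⟨P, hP⟩ : ∃ P, P = pCoreOf 2 L := ⟨_, rfl⟩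
  rw [← hP]
  obtain ⟨B, hB⟩ : ∃ B, B = omegaOne 2 (P ⊓ Subgroup.centralizer (P : Set G)) := ⟨_, rfl⟩
  rw [← hB]
  have hQp : IsPGroup 2 ↥Q := by rw [hQ]; exact isPGroup_pCoreOf 2 H
  have hPp : IsPGroup 2 ↥P := by rw [hP]; exact isPGroup_pCoreOf 2 L
  have hPL : P ≤ L := by rw [hP]; exact pCoreOf_le 2 L
  have hHQ : H ≤ Subgroup.normalizer (Q : Set G) := by rw [hQ]; exact le_normalizer_pCoreOf 2 H
  have hBP : B ≤ P ⊓ Subgroup.centralizer (P : Set G) := by rw [hB]; exact omegaOne_center_le 2 P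
  have hB2 : ∀ b ∈ B, b ^ 2 = 1 := by
    intro b hb; rw [hB] at hb; exact (omegaOne_center_mem 2 P hb).2
  have hBcomm : ∀ b ∈ B, ∀ c ∈ B, b * c = c * b := by
    intro b hb c hc
    exact Subgroup.mem_centralizer_iff.1 (Subgroup.mem_inf.1 (hBP hc)).2 b
      (Subgroup.mem_inf.1 (hBP hb)).1
  -- (a) conjugates of odd-order elements of L by Q stay in L
  have hconj : ∀ q ∈ Q, ∀ y ∈ L, Odd (orderOf y) → q * y * q⁻¹ ∈ L := by
    intro q hq y hy hyodd
    rw [hQ] at hq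
    obtain ⟨q', hq', rfl⟩ := hq
    have h1 : q' * ⟨y, hLH hy⟩ * q'⁻¹ ∈ L.subgroupOf H ⊔ pCore 2 ↥H :=
      Subgroup.mul_mem _ (Subgroup.mul_mem _ (Subgroup.mem_sup_right hq')
        (Subgroup.mem_sup_left (Subgroup.mem_subgroupOf.2 hy)))
        (Subgroup.inv_mem _ (Subgroup.mem_sup_right hq'))
    have h2 : Odd (orderOf (q' * ⟨y, hLH hy⟩ * q'⁻¹)) := by
      rw [orderOf_conj_eq, Subgroup.orderOf_mk]; exact hyodd
    have h3 := odd_mem_of_subnormal (L.subgroupOf H) hsub _ h1 h2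
    rw [Subgroup.mem_subgroupOf] at h3
    exact h3
  -- (b) Q normalizes L
  have hQL : Q ≤ Subgroup.normalizer (L : Set G) := by
    apply le_normalizer_of_conj_mem
    intro q hq l hl
    have hl' : l ∈ oddGenerated L := by rw [hgen]; exact hl
    have hgoal : q * l * q⁻¹ ∈ oddGenerated L := by
      clear hl
      unfold oddGenerated at hl' ⊢
      induction hl' using Subgroup.closure_induction with
      | mem y hy =>
        apply Subgroup.subset_closure
        refine ⟨hconj q hq y hy.1 hy.2, ?_⟩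
        rw [orderOf_conj_eq]; exact hy.2
      | one => simp
      | mul y z _ _ hy hz =>
        have : q * (y * z) * q⁻¹ = (q * y * q⁻¹) * (q * z * q⁻¹) := by group
        rw [this]; exact Subgroup.mul_mem _ hy hz
      | inv y _ hy =>
        have : q * y⁻¹ * q⁻¹ = (q * y * q⁻¹)⁻¹ := by group
        rw [this]; exact Subgroup.inv_mem _ hy
    rw [hgen] at hgoal
    exact hgoal
  have hQP : Q ≤ Subgroup.normalizer (P : Set G) := by
    rw [hP]; exact le_normalizer_pCoreOf_of_le_normalizer 2 L Q hQL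
  have hQB : Q ≤ Subgroup.normalizer (B : Set G) := by
    rw [hB]; exact hQP.trans (le_normalizer_omegaOne_center 2 P)
  have hLP : L ≤ Subgroup.normalizer (P : Set G) := by rw [hP]; exact le_normalizer_pCoreOf 2 L
  have hLB : L ≤ Subgroup.normalizer (B : Set G) := by
    rw [hB]; exact hLP.trans (le_normalizer_omegaOne_center 2 P)
  have hxB : ∀ c ∈ B, x * c * x⁻¹ ∈ B := by
    intro c hc
    exact (Subgroup.mem_normalizer_iff.1 (hLB hxL) c).1 hc
  have hqB : ∀ q ∈ Q, ∀ c ∈ B, q * c * q⁻¹ ∈ B := by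
    intro q hq c hc
    exact (Subgroup.mem_normalizer_iff.1 (hQB hq) c).1 hc
  have hLQP : L ⊓ Q ≤ P := by
    rw [hP]
    apply le_pCoreOf L (L ⊓ Q) inf_le_left (hQp.to_le inf_le_right)
    exact Cfsg.Agent.Lib.helper14.le_normalizer_inf L Q L Subgroup.le_normalizer (hLH.trans hHQ)
  -- the subgroup D = [B, x]
  let D : Subgroup G :=
    { carrier := {d | ∃ c ∈ B, d = x * c * x⁻¹ * c⁻¹}
      one_mem' := ⟨1, B.one_mem, by simp⟩
      mul_mem' := by
        rintro _ _ ⟨c1, hc1, rfl⟩ ⟨c2, hc2, rfl⟩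
        refine ⟨c1 * c2, B.mul_mem hc1 hc2, ?_⟩
        have e1 : c1⁻¹ * (x * c2 * x⁻¹) = (x * c2 * x⁻¹) * c1⁻¹ :=
          hBcomm _ (B.inv_mem hc1) _ (hxB c2 hc2)
        have e2 : c1 * c2 = c2 * c1 := hBcomm _ hc1 _ hc2
        calc x * c1 * x⁻¹ * c1⁻¹ * (x * c2 * x⁻¹ * c2⁻¹)
            = x * c1 * x⁻¹ * (c1⁻¹ * (x * c2 * x⁻¹)) * c2⁻¹ := by group
          _ = x * c1 * x⁻¹ * ((x * c2 * x⁻¹) * c1⁻¹) * c2⁻¹ := by rw [e1]
          _ = x * (c1 * c2) * x⁻¹ * (c2 * c1)⁻¹ := by group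
          _ = x * (c1 * c2) * x⁻¹ * (c1 * c2)⁻¹ := by rw [e2]
      inv_mem' := by
        rintro _ ⟨c, hc, rfl⟩
        refine ⟨c⁻¹, B.inv_mem hc, ?_⟩
        have e1 : c * (x * c⁻¹ * x⁻¹) = (x * c⁻¹ * x⁻¹) * c :=
          hBcomm _ hc _ (hxB _ (B.inv_mem hc))
        calc (x * c * x⁻¹ * c⁻¹)⁻¹ = c * (x * c⁻¹ * x⁻¹) := by group
          _ = (x * c⁻¹ * x⁻¹) * c := e1
          _ = x * c⁻¹ * x⁻¹ * c⁻¹⁻¹ := by group }
  have hDmem : ∀ d, d ∈ D ↔ ∃ c ∈ B, d = x * c * x⁻¹ * c⁻¹ := fun d => Iff.rfl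
  have hDB : D ≤ B := by
    intro d hd
    obtain ⟨c, hc, rfl⟩ := (hDmem d).1 hd
    exact B.mul_mem (hxB c hc) (B.inv_mem hc)
  have hDp : IsPGroup 2 ↥D := hPp.to_le (fun d hd => (Subgroup.mem_inf.1 (hBP (hDB hd))).1)
  have hQD : Q ≤ Subgroup.normalizer (D : Set G) := by
    apply le_normalizer_of_conj_mem
    intro q hq d hd
    obtain ⟨c, hc, rfl⟩ := (hDmem d).1 hd
    rw [hDmem]
    refine ⟨q * c * q⁻¹, hqB q hq c hc, ?_⟩
    have he : x⁻¹ * (q * x * q⁻¹) ∈ P := by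
      apply hLQP
      refine Subgroup.mem_inf.2 ⟨L.mul_mem (L.inv_mem hxL) (hconj q hq x hxL hodd), ?_⟩
      have h1 : x⁻¹ * q * x⁻¹⁻¹ ∈ Q :=
        (Subgroup.mem_normalizer_iff.1 (hHQ (H.inv_mem (hLH hxL))) q).1 hq
      have : x⁻¹ * (q * x * q⁻¹) = (x⁻¹ * q * x⁻¹⁻¹) * q⁻¹ := by group
      rw [this]; exact Q.mul_mem h1 (Q.inv_mem hq)
    have hc' := hqB q hq c hc
    have hcomm : (x⁻¹ * (q * x * q⁻¹)) * (q * c * q⁻¹) = (q * c * q⁻¹) * (x⁻¹ * (q * x * q⁻¹)) :=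
      (Subgroup.mem_centralizer_iff.1 (Subgroup.mem_inf.1 (hBP hc')).2 _ he)
    have e3 : q * (x * c * x⁻¹ * c⁻¹) * q⁻¹
        = x * ((x⁻¹ * (q * x * q⁻¹)) * (q * c * q⁻¹)) * (x⁻¹ * (q * x * q⁻¹))⁻¹ * x⁻¹ *
          (q * c * q⁻¹)⁻¹ := by group
    rw [e3, hcomm]
    group
  -- D is trivial
  have hD : D = ⊥ := by
    by_contra hne
    have h1 := inf_centralizer_ne_bot_of_le_normalizer D Q hDp hQp hne hQD
    obtain ⟨d, hd, hd1⟩ : ∃ d ∈ D ⊓ Subgroup.centralizer (Q : Set G), d ≠ 1 := by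
      by_contra hcon
      push Not at hcon
      apply h1
      rw [Subgroup.eq_bot_iff_forall]
      exact hcon
    obtain ⟨hdD, hdC⟩ := Subgroup.mem_inf.1 hd
    have hdB : d ∈ B := hDB hdD
    have hdH : d ∈ H := hLH (hPL (Subgroup.mem_inf.1 (hBP hdB)).1)
    have hdQ : d ∈ Q := hH (Subgroup.mem_inf.2 ⟨hdH, hdC⟩)
    have hdA : d ∈ omegaOne 2 (Q ⊓ Subgroup.centralizer (Q : Set G)) :=
      mem_omegaOne_center hdQ hdC (hB2 d hdB)
    obtain ⟨c, hc, rfl⟩ := (hDmem d).1 hdD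
    have h2 := hx _ hdA
    have h3 := kc x c (orderOf x) 1 hodd (pow_orderOf_eq_one x) h2 (by simpa using hB2 _ hdB)
    apply hd1
    rw [h3]; group
  intro b hb
  have h1 : x * b * x⁻¹ * b⁻¹ ∈ D := (hDmem _).2 ⟨b, hb, rfl⟩
  rw [hD, Subgroup.mem_bot] at h1
  exact mul_inv_eq_one.1 h1

/-- Let G be a non-abelian finite simple QTKE-group and T a Sylow 2-subgroup of G, and let L be a member of ℒ_f(G, T) (a member of ℒ(G, T) that lies in 𝒳 — L ≠ 1, L = O²(L), F*(L) = O₂(L) — and acts nontrivially on Ω₁(Z(O₂(L)))). Then (1) every member K of ℒ(G, T) containing L is again in ℒ_f(G, T) (a sharper form of (1) also compares the modules [Ω₁(Z(R)), L] and [Ω₁(Z(R')), K] for suitable 2-subgroups R, R'; that comparison is not included); and (2) if L is maximal under inclusion among the members of ℒ_f(G, T), then L is a maximal member of ℒ(G, T), hence a member of ℒ_f*(G, T). -/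
theorem result {G : Type*} [Group G] [Finite G] [IsSimpleGroup G]
    (hG : ¬ IsMulCommutative G) (hQ : Cfsg.IsQTKE G) (T : Sylow 2 G) (L : Subgroup G)
    (hL : L ∈ Cfsg.calLf (T : Subgroup G)) :
    (∀ K ∈ Cfsg.calL (T : Subgroup G), L ≤ K → K ∈ Cfsg.calLf (T : Subgroup G)) ∧
    ((∀ K ∈ Cfsg.calLf (T : Subgroup G), L ≤ K → K = L) → L ∈ Cfsg.calLfMax (T : Subgroup G)) := by
  haveI : Fact (Nat.Prime 2) := ⟨Nat.prime_two⟩
  have hE := hQ.2.2
  have hL0 := hL
  obtain ⟨⟨hLC, hLSyl, hLO2⟩, ⟨⟨hL1, hLodd, hLe⟩, hLV⟩⟩ := hL0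
  obtain ⟨hLne, hLperf, hLsub, hLmin⟩ := hLC
  have hcL : (L ⊔ (T : Subgroup G)) ⊓
      Subgroup.centralizer (pCoreOf 2 (L ⊔ (T : Subgroup G)) : Set G) ≤
        pCoreOf 2 (L ⊔ (T : Subgroup G)) := by
    apply charp_over_sylow hE T _ le_sup_right
    intro h
    apply hLO2
    exact (Subgroup.map_eq_bot_iff_of_injective _ (Subgroup.subtype_injective _)).1 h
  have part1 : ∀ K ∈ Cfsg.calL (T : Subgroup G), L ≤ K → K ∈ Cfsg.calLf (T : Subgroup G) := by
    intro K hK hLK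
    have hK' := hK
    obtain ⟨⟨hKne, hKperf, hKsub, hKmin⟩, hKSyl, hKO2⟩ := hK'
    have hcK : (K ⊔ (T : Subgroup G)) ⊓
        Subgroup.centralizer (pCoreOf 2 (K ⊔ (T : Subgroup G)) : Set G) ≤
          pCoreOf 2 (K ⊔ (T : Subgroup G)) := by
      apply charp_over_sylow hE T _ le_sup_right
      intro h
      apply hKO2
      exact (Subgroup.map_eq_bot_iff_of_injective _ (Subgroup.subtype_injective _)).1 h
    refine ⟨hK, ⟨⟨?_, ?_, ?_⟩, ?_⟩⟩
    · intro h
      apply hL1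
      rw [h] at hLK
      exact le_bot_iff.1 hLK
    · apply oddGenerated_eq_of_perfect
      have h1 := congrArg (Subgroup.map (K ⊔ (T : Subgroup G)).subtype) hKperf
      rw [Subgroup.map_commutator, Subgroup.map_subgroupOf_eq_of_le le_sup_left] at h1
      exact h1
    · show generalizedFittingSubgroup ↥K = pCore 2 ↥K
      rw [fsP_iff_charp]
      have h1 := charp_subtype_of _ hcK
      have h2 := Cfsg.Agent.Lib.helper15.charp_subnormal h1 _ hKsub
      exact Cfsg.Agent.Lib.helper15.charp_of_mulEquiv 2 (Subgroup.subgroupOfEquivOfLe le_sup_left) h2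
    · intro hVK
      apply hLV
      have hVK' : ∀ y ∈ K, ∀ a ∈ omegaOne 2 (pCoreOf 2 K ⊓
          Subgroup.centralizer (pCoreOf 2 K : Set G)), y * a * y⁻¹ = a := by
        intro y hy a ha
        have h1 : omegaOne 2 (pCoreOf 2 K ⊓ Subgroup.centralizer (pCoreOf 2 K : Set G)) ≤
            Subgroup.centralizer (K : Set G) := by
          rw [← Subgroup.commutator_eq_bot_iff_le_centralizer]
          exact hVK
        have h2 := Subgroup.mem_centralizer_iff.1 (h1 ha) y hy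
        rw [h2]; group
      have hodd_cent : ∀ x ∈ L, Odd (orderOf x) → ∀ b ∈ omegaOne 2 (pCoreOf 2 L ⊓
          Subgroup.centralizer (pCoreOf 2 L : Set G)), x * b * x⁻¹ = b := by
        intro x hxL hodd
        have s1 := cent_omega_H K (K ⊔ (T : Subgroup G)) le_sup_left hKsub hVK' x (hLK hxL) hodd
        have s2 := omega_le (L ⊔ (T : Subgroup G)) (K ⊔ (T : Subgroup G)) T le_sup_right
          (sup_le_sup_right hLK _) hcK
        exact cent_omega_of_odd L (L ⊔ (T : Subgroup G)) le_sup_left hLsub hLodd hcL x hxL hodd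
          (fun a ha => s1 a (s2 ha))
      show ⁅omegaOne 2 (pCoreOf 2 L ⊓ Subgroup.centralizer (pCoreOf 2 L : Set G)), L⁆ = ⊥
      rw [Subgroup.commutator_eq_bot_iff_le_centralizer]
      intro b hb
      rw [Subgroup.mem_centralizer_iff]
      intro l hl
      have hLle : oddGenerated L ≤ Subgroup.centralizer ({b} : Set G) := by
        unfold oddGenerated
        rw [Subgroup.closure_le]
        rintro x ⟨hxL, hodd⟩
        rw [SetLike.mem_coe, Subgroup.mem_centralizer_iff]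
        intro b' hb'
        rw [Set.mem_singleton_iff] at hb'
        subst hb'
        have := hodd_cent x hxL hodd b' hb
        calc b' * x = (x * b' * x⁻¹) * x := by rw [this]
          _ = x * b' := by group
      have hl' : l ∈ Subgroup.centralizer ({b} : Set G) := by
        apply hLle
        rw [hLodd]; exact hl
      exact (Subgroup.mem_centralizer_iff.1 hl' b (Set.mem_singleton b)).symm
  refine ⟨part1, ?_⟩
  intro hmax
  refine ⟨⟨hL.1, ?_⟩, hL.2⟩
  intro K hK hLK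
  exact hmax K (part1 K hK hLK) hLK

end Cfsg.Agent.S1851
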