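import Cfsg.Statements.S1958
import Mathlib
import Cfsg.Agent.Lib.helper10.PSolv

set_option autoImplicit false
open Cfsg

namespace Cfsg.Agent.S1958

open Cfsg.Agent.Lib.helper10

universe u

theorem balance_le {G : Type u} [Group G] [Finite G] (p : ℕ) [Fact p.Prime] (x y : G)
    (hx : orderOf x = p) (hxy : x * y = y * x)
    (hCy : Group.IsSolvable ↥(Subgroup.centralizer ({y} : Set G))) :
    Cfsg.centralizerPPrimeCore p x ⊓ Subgroup.centralizer {y} ≤ Cfsg.centralizerPPrimeCore p y := by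
  classical
  obtain ⟨Cx, hCxdef⟩ : ∃ Cx : Subgroup G, Cx = Subgroup.centralizer ({x} : Set G) := ⟨_, rfl⟩
  obtain ⟨Cy, hCydef⟩ : ∃ Cy : Subgroup G, Cy = Subgroup.centralizer ({y} : Set G) := ⟨_, rfl⟩
  unfold Cfsg.centralizerPPrimeCore
  rw [← hCxdef, ← hCydef]
  rw [← hCydef] at hCy
  have hCxmem : ∀ g, g ∈ Cx ↔ x * g = g * x := by
    intro g
    rw [hCxdef, Subgroup.mem_centralizer_iff]
    constructor
    · intro h; exact h x (Set.mem_singleton x)
    · intro h z hz; rw [Set.mem_singleton_iff] at hz; rw [hz]; exact h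
  have hCymem : ∀ g, g ∈ Cy ↔ y * g = g * y := by
    intro g
    rw [hCydef, Subgroup.mem_centralizer_iff]
    constructor
    · intro h; exact h y (Set.mem_singleton y)
    · intro h z hz; rw [Set.mem_singleton_iff] at hz; rw [hz]; exact h
  have hxCy : x ∈ Cy := (hCymem x).2 hxy.symm
  obtain ⟨Y, hYdef⟩ : ∃ Y : Subgroup ↥Cy, Y = Subgroup.zpowers (⟨x, hxCy⟩ : ↥Cy) := ⟨_, rfl⟩
  have hYp : IsPGroup p Y := by
    apply IsPGroup.of_card (n := 1)
    rw [hYdef, Nat.card_zpowers, pow_one, ← hx]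
    exact (Subgroup.orderOf_coe (⟨x, hxCy⟩ : ↥Cy)).symm
  have hcent := centralizer_pCore_le_of_solvable (G := ↥Cy ⧸ pPrimeCore p ↥Cy) (p := p)
    inferInstance (Cfsg.Agent.Lib.helper9.pPrimeCore_quotient_eq_bot p ↥Cy)
  have hHH := pPrimeCore_centralizer_le hcent Y hYp
  obtain ⟨CY, hCYdef⟩ : ∃ CY : Subgroup ↥Cy, CY = Subgroup.centralizer (Y : Set ↥Cy) := ⟨_, rfl⟩
  rw [← hCYdef] at hHH
  have hCYmem : ∀ g : ↥Cy, g ∈ CY → (g : G) ∈ Cx := by
    intro g hg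
    rw [hCYdef, Subgroup.mem_centralizer_iff] at hg
    have h1 := hg ⟨x, hxCy⟩ (by rw [hYdef]; exact Subgroup.mem_zpowers _)
    rw [hCxmem]
    exact congrArg Subtype.val h1
  have hCYmem' : ∀ g : ↥Cy, (g : G) ∈ Cx → g ∈ CY := by
    intro g hg
    rw [hCYdef, Subgroup.mem_centralizer_iff]
    intro z hz
    rw [hYdef] at hz
    obtain ⟨i, rfl⟩ := Subgroup.mem_zpowers_iff.1 hz
    have h1 : Commute (⟨x, hxCy⟩ : ↥Cy) g := Subtype.ext ((hCxmem _).1 hg)
    exact (h1.zpow_left i).eq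
  -- the candidate normal p'-subgroup of CY
  obtain ⟨W₀, hW₀⟩ : ∃ W₀ : Subgroup G, W₀ = (Cfsg.pPrimeCore p ↥Cx).map Cx.subtype := ⟨_, rfl⟩
  rw [← hW₀]
  have hW₀conj : ∀ g ∈ Cx, ∀ n ∈ W₀, g * n * g⁻¹ ∈ W₀ := by
    intro g hg n hn
    rw [hW₀] at hn ⊢
    obtain ⟨m, hm, rfl⟩ := hn
    exact ⟨⟨g, hg⟩ * m * ⟨g, hg⟩⁻¹,
      (Cfsg.Agent.Lib.helper9.ppc_normal p ↥Cx).conj_mem m hm _, rfl⟩
  have hW₀card : (Nat.card W₀).Coprime p := by
    rw [hW₀, Subgroup.card_map_of_injective Cx.subtype_injective]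
    exact Cfsg.Agent.Lib.helper9.pPrimeCore_coprime p ↥Cx
  let N : Subgroup ↥CY := W₀.comap (Cy.subtype.comp CY.subtype)
  have hNn : N.Normal := by
    constructor
    intro n hn g
    show (((g * n * g⁻¹ : ↥CY) : ↥Cy) : G) ∈ W₀
    exact hW₀conj _ (hCYmem _ g.2) _ hn
  have hNc : (Nat.card N).Coprime p := by
    have h1 : Nat.card N ∣ Nat.card W₀ :=
      Subgroup.card_comap_dvd_of_injective _ _
        (fun a b hab => Subtype.ext (Subtype.ext hab))
    exact Nat.Coprime.coprime_dvd_left h1 hW₀card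
  have hNle := Cfsg.Agent.Lib.helper9.le_pPrimeCore hNn hNc
  rintro w ⟨hw1, hw2⟩
  have hwCy : w ∈ Cy := hw2
  have hwCx : w ∈ Cx := by
    rw [hW₀] at hw1
    obtain ⟨m, -, rfl⟩ := hw1
    exact m.2
  have hwCY : (⟨w, hwCy⟩ : ↥Cy) ∈ CY := hCYmem' _ hwCx
  have h1 : (⟨⟨w, hwCy⟩, hwCY⟩ : ↥CY) ∈ N := hw1
  have h2 := hHH ⟨_, hNle h1, rfl⟩
  exact ⟨_, h2, rfl⟩

/-- Let `G` be a finite group, `p` a prime, and `x, y` commuting elements of order `p` whose centralizers `C_G(x)` and `C_G(y)` are both solvable. Then `O_{p'}(C_G(x)) ∩ C_G(y) = O_{p'}(C_G(y)) ∩ C_G(x)` (balance). -/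
theorem result {G : Type*} [Group G] [Finite G]
    (p : ℕ) [Fact p.Prime] (x y : G) (hx : orderOf x = p) (hy : orderOf y = p) (hxy : x * y = y * x)
    (hCx : Group.IsSolvable ↥(Subgroup.centralizer ({x} : Set G))) (hCy : Group.IsSolvable ↥(Subgroup.centralizer ({y} : Set G))) :
    Cfsg.centralizerPPrimeCore p x ⊓ Subgroup.centralizer {y} = Cfsg.centralizerPPrimeCore p y ⊓ Subgroup.centralizer {x} := by
  apply le_antisymm
  · refine le_inf (balance_le p x y hx hxy hCy) ?_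
    refine inf_le_left.trans ?_
    unfold Cfsg.centralizerPPrimeCore
    exact Subgroup.map_subtype_le _
  · refine le_inf (balance_le p y x hy hxy.symm hCx) ?_
    refine inf_le_left.trans ?_
    unfold Cfsg.centralizerPPrimeCore
    exact Subgroup.map_subtype_le _

end Cfsg.Agent.S1958
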