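import Cfsg.Statements.S1960
import Cfsg.Agent.Lib.helper10.TransferLG

set_option autoImplicit false
open Cfsg

namespace Cfsg.Agent.S1960

open Cfsg.Agent.Lib.helper10

/-- Let p be a prime, G a finite group with Sylow p-subgroup S, and 𝓦 a set of conjugacy functors for p on G. Suppose that 𝓦 controls transfer in N_G(T) for every nonidentity subgroup T of S for which N_S(T) is a Sylow p-subgroup of N_G(T): for a Sylow p-subgroup T' of N_G(T), the intersection of T' with the derived subgroup of N_G(T) is generated by its intersections with the derived subgroups of the normalizers in N_G(T) of the W(T'), W ∈ 𝓦. Then 𝓦 controls transfer in G: S ∩ G' is generated by the subgroups S ∩ (N_G(W(S)))', W ∈ 𝓦. -/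
theorem result {G : Type*} [Group G] [Finite G] {p : ℕ} [Fact p.Prime] (S : Sylow p G) (𝓦 : Set (Subgroup G → Subgroup G)) (h𝓦 : ∀ W ∈ 𝓦, Cfsg.IsConjugacyFunctor p W) (hloc : ∀ T : Subgroup G, T ≤ (S : Subgroup G) → T ≠ ⊥ → ¬ p ∣ ((S : Subgroup G) ⊓ Subgroup.normalizer ((T : Subgroup G) : Set G)).relIndex (Subgroup.normalizer ((T : Subgroup G) : Set G)) → Cfsg.FamilyControlsTransferIn p 𝓦 (Subgroup.normalizer ((T : Subgroup G) : Set G))) : Cfsg.FamilyControlsTransferIn p 𝓦 ⊤ := by
  refine ⟨S, le_top, S.2, by rw [Subgroup.relIndex_top_right]; exact S.not_dvd_index, ?_⟩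
  apply le_antisymm
  · apply transfer_local_to_global S 𝓦 h𝓦
      {T | T ≤ (S : Subgroup G) ∧ ¬ p ∣ (nS (S : Subgroup G) T).relIndex
        (Subgroup.normalizer (T : Set G))}
      (fun T hT => hT)
      (fun R hR => by
        obtain ⟨g, hg, hidx⟩ := exists_extremal_conj S R
        refine ⟨_, ⟨?_, hidx⟩, g, rfl⟩
        rw [map_conj_le_iff]
        intro x hx
        exact hg x ⟨hR hx, Subgroup.le_normalizer hx⟩)
    · intro W hW
      refine le_trans ?_ (le_iSup₂ W hW)
      rw [top_inf_eq]
    · intro T hT hTne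
      exact (familyControlsTransferIn_sylow h𝓦 (hloc T hT.1 hTne hT.2) inf_le_right
        (S.2.to_le inf_le_left) hT.2).le
  · apply iSup₂_le
    intro W hW
    exact inf_le_inf_left _ (Subgroup.commutator_mono le_top le_top)

end Cfsg.Agent.S1960
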