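import Cfsg.Statements.S1961
import Cfsg.Agent.Lib.helper10.Control

set_option autoImplicit false
open Cfsg

namespace Cfsg.Agent.S1961

open Cfsg.Agent.Lib.helper10

/-- Local-to-global control of strong fusion through well-placed subgroups. Let p be a prime, G a finite group with Sylow p-subgroup S, and W a conjugacy functor for p on G. If W controls strong fusion in N_G(T) for every nonidentity subgroup T of S that is well placed in S with respect to W, then W controls strong fusion in G. -/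
theorem result {G : Type*} [Group G] [Finite G] {p : ℕ} [Fact p.Prime] (S : Sylow p G) (W : Subgroup G → Subgroup G) (hW : Cfsg.IsConjugacyFunctor p W) (hloc : ∀ T : Subgroup G, T ≠ ⊥ → Cfsg.IsWellPlaced p W (S : Subgroup G) T → Cfsg.ControlsStrongFusionIn p W (Subgroup.normalizer ((T : Subgroup G) : Set G))) : Cfsg.ControlsStrongFusionIn p W ⊤ := by
  refine ⟨S, le_top, S.2, by rw [Subgroup.relIndex_top_right]; exact S.not_dvd_index, ?_⟩
  intro A h _ hAS hhA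
  have key := local_to_global S {W}
    (by intro W' hW'; rw [Set.mem_singleton_iff] at hW'; rw [hW']; exact hW)
    {T | IsWellPlaced p W (S : Subgroup G) T}
    (fun T hT => ⟨hT.1, hT.2 0⟩)
    (fun R hR => by
      obtain ⟨g, hg, -⟩ := exists_wellPlaced_conj S hW _ R hR rfl
      exact ⟨_, hg, g, rfl⟩)
    (fun A g => ∃ x ∈ Subgroup.normalizer ((W (S : Subgroup G) : Subgroup G) : Set G),
      ∀ a ∈ A, x * a * x⁻¹ = g * a * g⁻¹)
    ?refl ?congr ?mono ?trans ?symm ?B ?L A h hAS (fun a ha => hhA ⟨a, ha, rfl⟩)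
  · obtain ⟨x, hx, hxa⟩ := key
    exact ⟨x, ⟨Subgroup.mem_top _, hx⟩, hxa⟩
  · intro A _; exact ⟨1, Subgroup.one_mem _, fun a _ => rfl⟩
  · rintro A g g' ⟨x, hx, hxa⟩ hgg'
    exact ⟨x, hx, fun a ha => (hxa a ha).trans (hgg' a ha)⟩
  · rintro A A' g ⟨x, hx, hxa⟩ hA'
    exact ⟨x, hx, fun a ha => hxa a (hA' ha)⟩
  · rintro A g k ⟨x, hx, hxa⟩ ⟨x', hx', hxa'⟩
    refine ⟨x' * x, Subgroup.mul_mem _ hx' hx, fun a ha => ?_⟩
    have h1 := hxa a ha
    have h2 := hxa' (g * a * g⁻¹) ⟨a, ha, rfl⟩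
    calc x' * x * a * (x' * x)⁻¹ = x' * (x * a * x⁻¹) * x'⁻¹ := by group
      _ = x' * (g * a * g⁻¹) * x'⁻¹ := by rw [h1]
      _ = k * (g * a * g⁻¹) * k⁻¹ := h2
      _ = k * g * a * (k * g)⁻¹ := by group
  · rintro A g ⟨x, hx, hxa⟩
    refine ⟨x⁻¹, Subgroup.inv_mem _ hx, ?_⟩
    rintro _ ⟨a, ha, rfl⟩
    have h1 := hxa a ha
    calc x⁻¹ * (g * a * g⁻¹) * x⁻¹⁻¹ = x⁻¹ * (x * a * x⁻¹) * x⁻¹⁻¹ := by rw [h1]
      _ = g⁻¹ * (g * a * g⁻¹) * g⁻¹⁻¹ := by group
  · intro W' hW' A y _ hy _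
    rw [Set.mem_singleton_iff] at hW'; rw [hW'] at hy
    exact ⟨y, hy, fun a _ => rfl⟩
  · intro T hT hTne A x hA hx hxA Hstep
    have hc := hloc T hTne hT
    obtain ⟨x1, hx1, hx1a⟩ := controlsStrongFusionIn_sylow hW hc inf_le_right
      (S.2.to_le inf_le_left) (hT.2 0) A x hx hA hxA
    obtain ⟨x2, hx2, hx2a⟩ := Hstep W rfl A x1 hA hx1.1 hx1.2
      (fun a ha => by rw [hx1a a ha]; exact hxA a ha)
    exact ⟨x2, hx2, fun a ha => (hx2a a ha).trans (hx1a a ha)⟩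

end Cfsg.Agent.S1961
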