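import Cfsg.Statements.S1962
import Cfsg.Agent.Lib.helper10.TransferLG

set_option autoImplicit false
open Cfsg

namespace Cfsg.Agent.S1962

open Cfsg.Agent.Lib.helper10

/-- Local-to-global control of transfer through well-placed subgroups. Let p be a prime, G a finite group with Sylow p-subgroup S, and W a conjugacy functor for p on G. If W controls transfer in N_G(T) for every nonidentity subgroup T of S that is well placed in S with respect to W, then W controls transfer in G: S ∩ G' = S ∩ (N_G(W(S)))'. -/
theorem result {G : Type*} [Group G] [Finite G] {p : ℕ} [Fact p.Prime] (S : Sylow p G) (W : Subgroup G → Subgroup G) (hW : Cfsg.IsConjugacyFunctor p W) (hloc : ∀ T : Subgroup G, T ≠ ⊥ → Cfsg.IsWellPlaced p W (S : Subgroup G) T → Cfsg.ControlsTransferIn p W (Subgroup.normalizer ((T : Subgroup G) : Set G))) : Cfsg.ControlsTransferIn p W ⊤ := by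
  refine ⟨S, le_top, S.2, by rw [Subgroup.relIndex_top_right]; exact S.not_dvd_index, ?_⟩
  apply le_antisymm
  · rw [top_inf_eq]
    apply transfer_local_to_global S {W}
      (by intro W' hW'; rw [Set.mem_singleton_iff] at hW'; rw [hW']; exact hW)
      {T | IsWellPlaced p W (S : Subgroup G) T}
      (fun T hT => ⟨hT.1, hT.2 0⟩)
      (fun R hR => by
        obtain ⟨g, hg, -⟩ := exists_wellPlaced_conj S hW _ R hR rfl
        exact ⟨_, hg, g, rfl⟩)
    · intro W' hW'
      rw [Set.mem_singleton_iff] at hW'; rw [hW']
    · intro T hT hTne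
      rw [iSup_singleton]
      exact (controlsTransferIn_sylow hW (hloc T hTne hT) inf_le_right
        (S.2.to_le inf_le_left) (hT.2 0)).le
  · exact inf_le_inf_left _ (Subgroup.commutator_mono le_top le_top)

end Cfsg.Agent.S1962
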