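import Cfsg.Statements.S1966
-- import your own Cfsg.Agent.* helpers here

set_option autoImplicit false
open Cfsg

namespace Cfsg.Agent.S1966

/-- Let p be a prime, G a finite group with Sylow p-subgroup S and 𝓕 a conjugation family for S in G. Then the members of 𝓕 containing O_p(G) still form a conjugation family for S in G. -/
theorem result {G : Type*} [Group G] [Finite G] {p : ℕ} [Fact p.Prime] (S : Sylow p G) (𝓕 : Set (Subgroup G)) (h : Cfsg.IsConjugationFamily 𝓕 (S : Subgroup G)) : Cfsg.IsConjugationFamily {T : Subgroup G | T ∈ 𝓕 ∧ Cfsg.pCore p G ≤ T} (S : Subgroup G) := by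
  obtain ⟨h1, h2⟩ := h
  have hO : Cfsg.pCore p G ≤ (S : Subgroup G) := by
    unfold Cfsg.pCore
    apply sSup_le
    rintro N ⟨hN, hNp⟩
    exact hNp.le_sylow_of_normal S
  have hOn : (Cfsg.pCore p G).Normal := Subgroup.sSup_normal _ (fun _ h => h.1)
  refine ⟨fun T hT => h1 T hT.1, ?_⟩
  intro A g hAne hAS hAg
  have hA'S : A ∪ (Cfsg.pCore p G : Set G) ⊆ (S : Subgroup G) := by
    intro a ha
    rcases ha with ha | ha
    · exact hAS ha
    · exact hO ha
  have hA'g : (fun a => g⁻¹ * a * g) '' (A ∪ (Cfsg.pCore p G : Set G)) ⊆ (S : Subgroup G) := by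
    rintro _ ⟨a, ha, rfl⟩
    rcases ha with ha | ha
    · exact hAg ⟨a, ha, rfl⟩
    · apply hO
      have := hOn.conj_mem a ha g⁻¹
      simpa using this
  obtain ⟨n, T, x, hprod, hT, hx, h0, hstep⟩ :=
    h2 (A ∪ (Cfsg.pCore p G : Set G)) g (hAne.mono Set.subset_union_left) hA'S hA'g
  refine ⟨n, T, x, hprod, ?_, hx, ?_, ?_⟩
  · intro i
    refine ⟨hT i, ?_⟩
    rcases i with ⟨i, hi⟩
    cases i with
    | zero =>
      intro o ho
      exact h0 hi (Or.inr ho)
    | succ j =>
      intro o ho
      have hj : j < n := by omega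
      have := hstep ⟨j, hj⟩ hi
      apply this
      set c := ((List.ofFn x).take (j + 1)).prod with hc
      refine ⟨c * o * c⁻¹, Or.inr (hOn.conj_mem o ho c), ?_⟩
      show c⁻¹ * (c * o * c⁻¹) * c = o
      group
  · intro hn
    exact fun a ha => h0 hn (Or.inl ha)
  · intro i hi
    refine subset_trans ?_ (hstep i hi)
    exact Set.image_mono Set.subset_union_left

end Cfsg.Agent.S1966
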