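import Cfsg.Statements.S1967
import Cfsg.Agent.Lib.helper10.ConjBasic

set_option autoImplicit false
open Cfsg

namespace Cfsg.Agent.S1967

open Cfsg.Agent.Lib.helper10

/-- Let p be a prime, G a finite group with Sylow p-subgroup S and W a conjugacy functor for p on G. Then W controls strong fusion in G if and only if, whenever T ≤ S and g ∈ G satisfy gTg⁻¹ ≤ S, one can write g = n c with n ∈ N_G(W(S)) and c ∈ C_G(T). -/
theorem result {G : Type*} [Group G] [Finite G] {p : ℕ} [Fact p.Prime] (S : Sylow p G) (W : Subgroup G → Subgroup G) (hW : Cfsg.IsConjugacyFunctor p W) : Cfsg.ControlsStrongFusionIn p W ⊤ ↔ ∀ (T : Subgroup G) (g : G), T ≤ (S : Subgroup G) → T.map (MulAut.conj g).toMonoidHom ≤ (S : Subgroup G) → ∃ n ∈ Subgroup.normalizer ((W (S : Subgroup G) : Subgroup G) : Set G), ∃ c ∈ Subgroup.centralizer (T : Set G), g = n * c := by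
  constructor
  · rintro ⟨T0, -, hT0p, hT0idx, hctrl⟩ T g hTS hgT
    rw [Subgroup.relIndex_top_right] at hT0idx
    let P0 : Sylow p G := hT0p.toSylow hT0idx
    obtain ⟨u, hu⟩ := MulAction.exists_smul_eq G P0 S
    have hS : (S : Subgroup G) = T0.map (MulAut.conj u).toMonoidHom := by
      rw [← hu]; rfl
    have hmemS : ∀ x, x ∈ (S : Subgroup G) ↔ u⁻¹ * x * u ∈ T0 := by
      intro x; rw [hS, mem_map_conj]
    have hWS : W (S : Subgroup G) = (W T0).map (MulAut.conj u).toMonoidHom := by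
      rw [hS]; exact (hW T0 hT0p).2.2 u
    have hA1 : ((fun t => u⁻¹ * t * u) '' (T : Set G)) ⊆ (T0 : Set G) := by
      rintro _ ⟨t, ht, rfl⟩
      exact (hmemS t).1 (hTS ht)
    have hA2 : (fun a => (u⁻¹ * g * u) * a * (u⁻¹ * g * u)⁻¹) '' ((fun t => u⁻¹ * t * u) '' (T : Set G))
        ⊆ (T0 : Set G) := by
      rintro _ ⟨_, ⟨t, ht, rfl⟩, rfl⟩
      show (u⁻¹ * g * u) * (u⁻¹ * t * u) * (u⁻¹ * g * u)⁻¹ ∈ T0
      have : (u⁻¹ * g * u) * (u⁻¹ * t * u) * (u⁻¹ * g * u)⁻¹ = u⁻¹ * (g * t * g⁻¹) * u := by group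
      rw [this, ← hmemS]
      exact hgT (conj_mem_map_conj T g t ht)
    obtain ⟨x, hx, hxa⟩ := hctrl ((fun t => u⁻¹ * t * u) '' (T : Set G)) (u⁻¹ * g * u)
      (Subgroup.mem_top _) hA1 hA2
    have hxN : x ∈ Subgroup.normalizer ((W T0 : Subgroup G) : Set G) := hx.2
    refine ⟨u * x * u⁻¹, ?_, (u * x * u⁻¹)⁻¹ * g, ?_, by group⟩
    · rw [hWS, normalizer_map_conj]; exact conj_mem_map_conj _ u x hxN
    · rw [Subgroup.mem_centralizer_iff]
      intro t ht
      have h1 := hxa (u⁻¹ * t * u) ⟨t, ht, rfl⟩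
      have h2 : (u * x * u⁻¹) * t * (u * x * u⁻¹)⁻¹ = g * t * g⁻¹ := by
        have : (u * x * u⁻¹) * t * (u * x * u⁻¹)⁻¹ = u * (x * (u⁻¹ * t * u) * x⁻¹) * u⁻¹ := by group
        rw [this, h1]; group
      calc t * ((u * x * u⁻¹)⁻¹ * g)
          = (u * x * u⁻¹)⁻¹ * ((u * x * u⁻¹) * t * (u * x * u⁻¹)⁻¹) * g := by group
        _ = (u * x * u⁻¹)⁻¹ * (g * t * g⁻¹) * g := by rw [h2]
        _ = (u * x * u⁻¹)⁻¹ * g * t := by group
  · intro h
    refine ⟨S, le_top, S.2, ?_, ?_⟩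
    · rw [Subgroup.relIndex_top_right]; exact S.not_dvd_index
    · intro A h0 _ hAS hhA
      have hcl : (Subgroup.closure A).map (MulAut.conj h0).toMonoidHom ≤ (S : Subgroup G) := by
        rw [MonoidHom.map_closure, Subgroup.closure_le]
        rintro _ ⟨a, ha, rfl⟩
        exact hhA ⟨a, ha, rfl⟩
      obtain ⟨n, hn, c, hc, hg⟩ := h (Subgroup.closure A) h0 ((Subgroup.closure_le _).2 hAS) hcl
      refine ⟨n, ⟨Subgroup.mem_top _, hn⟩, fun a ha => ?_⟩
      have hca : a * c = c * a :=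
        (Subgroup.mem_centralizer_iff.1 hc) a (Subgroup.subset_closure ha)
      rw [hg]
      calc n * a * n⁻¹ = n * (a * c) * c⁻¹ * n⁻¹ := by group
        _ = n * (c * a) * c⁻¹ * n⁻¹ := by rw [hca]
        _ = n * c * a * (n * c)⁻¹ := by group

end Cfsg.Agent.S1967
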