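import Cfsg.Statements.S1976
import Cfsg.Agent.Lib.helper10.KSeq

set_option autoImplicit false
open Cfsg

namespace Cfsg.Agent.S1976

/-- Let P be a finite p-group. The K-sequence of P is eventually constant on each parity: from some index on, every even-indexed term equals the lower K-infinity subgroup and every odd-indexed term equals the upper K-infinity subgroup. -/
theorem result {P : Type*} [Group P] [Finite P] {p : ℕ} [Fact p.Prime] (hP : IsPGroup p P) : ∃ n : ℕ, ∀ m : ℕ, n ≤ m → Cfsg.kSeqEven P m = Cfsg.kInfLower P ∧ Cfsg.kSeqOdd P m = Cfsg.kInfUpper P := by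
  obtain ⟨n₁, h₁⟩ := WellFoundedGT.monotone_chain_condition
    (⟨Cfsg.kSeqEven P, Cfsg.Agent.Lib.helper10.kSeqEven_monotone⟩ : ℕ →o Subgroup P)
  obtain ⟨n₂, h₂⟩ := WellFoundedLT.antitone_chain_condition
    (Cfsg.Agent.Lib.helper10.kSeqOdd_antitone (P := P))
  have hL : Cfsg.kInfLower P = Cfsg.kSeqEven P n₁ := by
    apply le_antisymm
    · refine iSup_le ?_
      intro k
      rcases le_total k n₁ with hk | hk
      · exact Cfsg.Agent.Lib.helper10.kSeqEven_monotone hk
      · exact le_of_eq (h₁ k hk).symm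
    · exact le_iSup (Cfsg.kSeqEven P) n₁
  have hU : Cfsg.kInfUpper P = Cfsg.kSeqOdd P n₂ := by
    apply le_antisymm
    · exact iInf_le (Cfsg.kSeqOdd P) n₂
    · refine le_iInf ?_
      intro k
      rcases le_total k n₂ with hk | hk
      · exact Cfsg.Agent.Lib.helper10.kSeqOdd_antitone hk
      · exact le_of_eq (h₂ k hk)
  refine ⟨max n₁ n₂, ?_⟩
  intro m hm
  constructor
  · rw [hL]; exact (h₁ m (le_trans (le_max_left _ _) hm)).symm
  · rw [hU]; exact (h₂ m (le_trans (le_max_right _ _) hm)).symm

end Cfsg.Agent.S1976
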