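import Cfsg.Statements.S1983
import Cfsg.Agent.Lib.helper10.KQ3
import Cfsg.Agent.Lib.helper10.KQuart2

set_option autoImplicit false
universe u
open Cfsg

namespace Cfsg.Agent.S1983

open Cfsg.Agent.Lib.helper10 in
open scoped commutatorElement in
/-- Assembly of the statement: the critical subgroup, the cubic lemma for the K-sequence, the
quartic action on chief factors, and the quotient form of the stability argument. -/
theorem s1983_aux {G : Type u} [Group G] [Finite G] {p : ℕ} [Fact p.Prime] (S : Sylow p G)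
    (hnot0 : ¬ ∀ n : ℕ, kSeqEven ↥(S : Subgroup G) n ≤ (pCore p G).subgroupOf (S : Subgroup G) ∧
      kSeqOdd ↥(S : Subgroup G) (n + 1) ≤ (pCore p G).subgroupOf (S : Subgroup G)) :
    ∃ g : G, g ∈ (S : Subgroup G) ∧ g ∉ (Cfsg.pCore p G) ∧
      (∀ U V : Subgroup G, Cfsg.IsChiefFactor U V → U ≤ (Cfsg.pCore p G) →
        Cfsg.iterCommutator U (Subgroup.zpowers g) 4 ≤ V) ∧
      ⁅⁅((Cfsg.pCore p G) ⊓ Subgroup.centralizer (((Cfsg.pCore p G) : Subgroup G) : Set G)),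
        (Subgroup.zpowers g)⁆, (Subgroup.zpowers g)⁆ = ⊥ ∧
      (Subgroup.centralizer (((Cfsg.pCore p G) : Subgroup G) : Set G) ≤ (Cfsg.pCore p G) →
        ∃ (N : Subgroup G) (_ : N.Normal), ¬ Cfsg.IsNormalizerPStable p (G ⧸ N)) := by
  classical
  obtain ⟨T, hTdef⟩ : ∃ T : Subgroup G, T = pCore p G := ⟨_, rfl⟩
  have hnot := hnot0
  rw [← hTdef] at hnot ⊢
  haveI hTn : T.Normal := by rw [hTdef]; exact Cfsg.Agent.Lib.helper14.pCore_normal' p G
  have hTp : IsPGroup p T := by rw [hTdef]; exact Cfsg.Agent.Lib.helper14.isPGroup_pCore p G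
  have hTS : T ≤ (S : Subgroup G) := hTp.le_sylow_of_normal S
  -- a critical subgroup of `T`
  obtain ⟨H, hHchar, -, hHT, hHC⟩ := Cfsg.Agent.S0093.result hTp
  obtain ⟨A, hAdef⟩ : ∃ A : Subgroup G, A = H.map T.subtype := ⟨_, rfl⟩
  haveI hAn : A.Normal := by
    rw [hAdef]; exact ConjAct.normal_of_characteristic_of_normal
  have hAT : A ≤ T := by
    rw [hAdef]; rintro _ ⟨h, -, rfl⟩; exact h.2
  have hAmem : ∀ a : G, a ∈ A ↔ ∃ ha : a ∈ T, (⟨a, ha⟩ : ↥T) ∈ H := by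
    intro a
    rw [hAdef]
    constructor
    · rintro ⟨h, hh, rfl⟩; exact ⟨h.2, hh⟩
    · rintro ⟨ha, hh⟩; exact ⟨⟨a, ha⟩, hh, rfl⟩
  have hcentA : ∀ c : ↥T, c ∈ Subgroup.centralizer (H : Set ↥T) →
      (c : G) ∈ Subgroup.centralizer (A : Set G) := by
    intro c hc
    rw [Subgroup.mem_centralizer_iff]
    intro a ha
    obtain ⟨haT, hh⟩ := (hAmem a).1 ha
    have := Subgroup.mem_centralizer_iff.mp hc ⟨a, haT⟩ hh
    exact congrArg Subtype.val this
  have hTA : ∀ a ∈ A, ∀ x ∈ T,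
      a * x * a⁻¹ * x⁻¹ ∈ A ⊓ Subgroup.centralizer (A : Set G) := by
    intro a ha x hx
    obtain ⟨haT, hh⟩ := (hAmem a).1 ha
    have h1 : ⁅(⟨a, haT⟩ : ↥T), (⟨x, hx⟩ : ↥T)⁆ ∈ ⁅H, (⊤ : Subgroup ↥T)⁆ :=
      Subgroup.commutator_mem_commutator hh (Subgroup.mem_top _)
    have h2 := hHT h1
    refine ⟨?_, hcentA _ h2.2⟩
    exact (hAmem _).2 ⟨(⁅(⟨a, haT⟩ : ↥T), (⟨x, hx⟩ : ↥T)⁆).2, h2.1⟩
  have hCA : T ⊓ Subgroup.centralizer (A : Set G) ≤ A := by
    rintro x ⟨hxT, hxC⟩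
    refine (hAmem x).2 ⟨hxT, hHC ?_⟩
    rw [Subgroup.mem_centralizer_iff]
    intro h hh
    apply Subtype.ext
    exact Subgroup.mem_centralizer_iff.mp hxC h ((hAmem _).2 ⟨h.2, hh⟩)
  have hAS : A ≤ (S : Subgroup G) := hAT.trans hTS
  -- the corresponding subgroups of the group `S`
  obtain ⟨A', hA'⟩ : ∃ A' : Subgroup ↥(S : Subgroup G), A' = A.subgroupOf (S : Subgroup G) :=
    ⟨_, rfl⟩
  obtain ⟨P', hP'⟩ : ∃ P' : Subgroup ↥(S : Subgroup G), P' = T.subgroupOf (S : Subgroup G) :=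
    ⟨_, rfl⟩
  have hA'mem : ∀ a : ↥(S : Subgroup G), a ∈ A' ↔ (a : G) ∈ A := by
    intro a; rw [hA', Subgroup.mem_subgroupOf]
  have hP'mem : ∀ a : ↥(S : Subgroup G), a ∈ P' ↔ (a : G) ∈ T := by
    intro a; rw [hP', Subgroup.mem_subgroupOf]
  haveI hA'n : A'.Normal := by rw [hA']; infer_instance
  have hcent' : ∀ c : ↥(S : Subgroup G),
      c ∈ Subgroup.centralizer (A' : Set ↥(S : Subgroup G)) ↔
        (c : G) ∈ Subgroup.centralizer (A : Set G) := by
    intro c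
    rw [Subgroup.mem_centralizer_iff, Subgroup.mem_centralizer_iff]
    constructor
    · intro h a ha
      have := h ⟨a, hAS ha⟩ ((hA'mem _).2 ha)
      exact congrArg Subtype.val this
    · intro h a ha
      apply Subtype.ext
      exact h a ((hA'mem a).1 ha)
  have hZ'mem : ∀ c : ↥(S : Subgroup G),
      c ∈ A' ⊓ Subgroup.centralizer (A' : Set ↥(S : Subgroup G)) ↔
        (c : G) ∈ A ⊓ Subgroup.centralizer (A : Set G) := by
    intro c
    constructor
    · rintro ⟨h1, h2⟩; exact ⟨(hA'mem c).1 h1, (hcent' c).1 h2⟩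
    · rintro ⟨h1, h2⟩; exact ⟨(hA'mem c).2 h1, (hcent' c).2 h2⟩
  have hcomm' : ∀ (a x : ↥(S : Subgroup G)), (a : G) ∈ A → (x : G) ∈ T →
      ⁅a, x⁆ ∈ A' ⊓ Subgroup.centralizer (A' : Set ↥(S : Subgroup G)) := by
    intro a x ha hx
    rw [hZ'mem]
    exact hTA a ha x hx
  have hA2 : A' ∈ classTwoSubgroups ↥(S : Subgroup G) := by
    show ⁅A', A'⁆ ≤ Subgroup.centralizer (A' : Set ↥(S : Subgroup G))
    rw [Subgroup.commutator_le]
    intro a ha b hb
    exact (hcomm' a b ((hA'mem a).1 ha) (hAT ((hA'mem b).1 hb))).2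
  have hPA : ⁅A', P'⁆ ≤ A' ⊓ Subgroup.centralizer (A' : Set ↥(S : Subgroup G)) := by
    rw [Subgroup.commutator_le]
    intro a ha x hx
    exact hcomm' a x ((hA'mem a).1 ha) ((hP'mem x).1 hx)
  rw [← hP'] at hnot
  obtain ⟨B, hBP, hBq, hBc⟩ := kinf_exists_cubic_sub P' A' hA2 hPA hnot
  obtain ⟨b, hbB, hbP⟩ := SetLike.not_le_iff_exists.mp hBP
  obtain ⟨Hg, hHg⟩ : ∃ Hg : Subgroup G, Hg = Subgroup.zpowers (b : G) := ⟨_, rfl⟩
  have hHgmap : (Subgroup.zpowers b).map (S : Subgroup G).subtype = Hg := by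
    rw [hHg]
    exact MonoidHom.map_zpowers (S : Subgroup G).subtype b
  have hzb : Subgroup.zpowers b ≤ B := by rw [Subgroup.zpowers_le]; exact hbB
  have hAmap : A'.map (S : Subgroup G).subtype = A := by
    rw [hA']; exact Subgroup.map_subgroupOf_eq_of_le hAS
  have hZmap : (A' ⊓ Subgroup.centralizer (A' : Set ↥(S : Subgroup G))).map
      (S : Subgroup G).subtype = A ⊓ Subgroup.centralizer (A : Set G) := by
    ext x
    constructor
    · rintro ⟨c, hc, rfl⟩; exact (hZ'mem c).1 hc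
    · intro hx; exact ⟨⟨x, hAS hx.1⟩, (hZ'mem _).2 hx, rfl⟩
  have hq : ⁅⁅A ⊓ Subgroup.centralizer (A : Set G), Hg⁆, Hg⁆ = ⊥ := by
    have h1 : ⁅⁅A' ⊓ Subgroup.centralizer (A' : Set ↥(S : Subgroup G)), Subgroup.zpowers b⁆,
        Subgroup.zpowers b⁆ = ⊥ := by
      rw [eq_bot_iff, ← hBq]
      exact Subgroup.commutator_mono (Subgroup.commutator_mono le_rfl hzb) hzb
    have h2 := congrArg (Subgroup.map (S : Subgroup G).subtype) h1
    rw [Subgroup.map_commutator, Subgroup.map_commutator, hZmap, hHgmap, Subgroup.map_bot] at h2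
    exact h2
  have hc : ⁅⁅⁅A, Hg⁆, Hg⁆, Hg⁆ ≤ A ⊓ Subgroup.centralizer (A : Set G) := by
    have h1 : ⁅⁅⁅A', Subgroup.zpowers b⁆, Subgroup.zpowers b⁆, Subgroup.zpowers b⁆ ≤
        A' ⊓ Subgroup.centralizer (A' : Set ↥(S : Subgroup G)) :=
      (Subgroup.commutator_mono (Subgroup.commutator_mono (Subgroup.commutator_mono le_rfl hzb)
        hzb) hzb).trans hBc
    have h2 := Subgroup.map_mono (f := (S : Subgroup G).subtype) h1
    rw [Subgroup.map_commutator, Subgroup.map_commutator, Subgroup.map_commutator, hAmap, hZmap,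
      hHgmap] at h2
    exact h2
  have hTA' : ⁅A, T⁆ ≤ A ⊓ Subgroup.centralizer (A : Set G) := by
    rw [Subgroup.commutator_le]
    exact fun a ha x hx => hTA a ha x hx
  refine ⟨(b : G), b.2, ?_, ?_, ?_, ?_⟩
  · intro h
    exact hbP ((hP'mem b).2 h)
  · rw [← hHg]
    exact quartic_chief T A Hg hTp hAT hTA' hCA hq hc
  · rw [← hHg, eq_bot_iff, ← hq]
    refine Subgroup.commutator_mono (Subgroup.commutator_mono ?_ le_rfl) le_rfl
    rintro x ⟨hxT, hxC⟩
    have hxCA : x ∈ Subgroup.centralizer (A : Set G) :=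
      Subgroup.centralizer_le (SetLike.coe_subset_coe.mpr hAT) hxC
    exact ⟨hCA ⟨hxT, hxCA⟩, hxCA⟩
  · intro hC
    by_contra hcon
    push Not at hcon
    have hQ : ∀ (N : Subgroup G) [N.Normal], IsNormalizerPStable p (G ⧸ N) :=
      fun N hN => hcon N hN
    rw [hTdef] at hC
    exact hnot0 (kseq_le_pcore_q hQ hC S)

/-- Let p be a prime, G a finite group with Sylow p-subgroup S and T = O_p(G). Suppose that the lower or the upper K-infinity subgroup of S is not normal in G. Then there is an element g of S outside T such that [X, g, g, g, g] ≤ Y for every chief factor X/Y of G with X ≤ T, and [Z(T), g, g] = 1; and if moreover C_G(T) ≤ T then some quotient group of G is not p-stable (in the normalizer form: some quadratically acting element of a normalizer fails to map into O_p of the automizer). -/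
theorem result {G : Type u} [Group G] [Finite G] {p : ℕ} [Fact p.Prime] (S : Sylow p G) (hK : ¬ (Cfsg.inducedFunctor Cfsg.kInfLower (S : Subgroup G)).Normal ∨ ¬ (Cfsg.inducedFunctor Cfsg.kInfUpper (S : Subgroup G)).Normal) : ∃ g : G, g ∈ (S : Subgroup G) ∧ g ∉ (Cfsg.pCore p G) ∧ (∀ U V : Subgroup G, Cfsg.IsChiefFactor U V → U ≤ (Cfsg.pCore p G) → Cfsg.iterCommutator U (Subgroup.zpowers g) 4 ≤ V) ∧ ⁅⁅((Cfsg.pCore p G) ⊓ Subgroup.centralizer (((Cfsg.pCore p G) : Subgroup G) : Set G)), (Subgroup.zpowers g)⁆, (Subgroup.zpowers g)⁆ = ⊥ ∧ (Subgroup.centralizer (((Cfsg.pCore p G) : Subgroup G) : Set G) ≤ (Cfsg.pCore p G) → ∃ (N : Subgroup G) (_ : N.Normal), ¬ Cfsg.IsNormalizerPStable p (G ⧸ N)) := by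
  haveI := Cfsg.Agent.Lib.helper14.pCore_normal' p G
  apply s1983_aux S
  rcases hK with hK | hK
  · exact Cfsg.Agent.Lib.helper10.kinf_not_all_le kInfLower
      (Cfsg.Agent.Lib.helper10.isCharPFunctor_kInfLower p)
      (fun T _ _ hT P' h => Cfsg.Agent.Lib.helper10.kInfLower_hS T hT P' h) S (pCore p G)
      (Cfsg.Agent.Lib.helper14.isPGroup_pCore p G) hK
  · exact Cfsg.Agent.Lib.helper10.kinf_not_all_le kInfUpper
      (Cfsg.Agent.Lib.helper10.isCharPFunctor_kInfUpper p)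
      (fun T _ _ hT P' h => Cfsg.Agent.Lib.helper10.kInfUpper_hS T hT P' h) S (pCore p G)
      (Cfsg.Agent.Lib.helper14.isPGroup_pCore p G) hK

end Cfsg.Agent.S1983
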