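import Cfsg.Statements.S1984
import Cfsg.Agent.Lib.helper10.KTransfer

set_option autoImplicit false
universe u
open Cfsg

namespace Cfsg.Agent.S1984

open Cfsg.Agent.Lib.helper10

/-- Let p ≥ 5 be a prime and G a finite group. Then the lower K-infinity subgroup controls transfer in G: for some (equivalently, every) Sylow p-subgroup S of G, S ∩ G' = S ∩ (N_G(K))', where K is the lower K-infinity subgroup of S. -/
theorem result {G : Type u} [Group G] [Finite G] {p : ℕ} [Fact p.Prime] (hp : 5 ≤ p) : Cfsg.ControlsTransferIn p (Cfsg.inducedFunctor (G := G) Cfsg.kInfLower) ⊤ := by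
  have hW : Cfsg.IsCharPFunctor.{u} p (fun (Q : Type u) [Group Q] => Cfsg.kInfLower Q) :=
    isCharPFunctor_kInfLower p
  have hall := engel_sections_norm_family (G := G) (p := p)
    (fun (Q : Type u) [Group Q] => Cfsg.kInfLower Q) hW (by
      intro K R hR hC T hnn
      exact kinf_norm_element hp (fun (Q : Type u) [Group Q] => Cfsg.kInfLower Q) hW
        (fun Q _ _ hQ P' h => kInfLower_hS Q hQ P' h) T hnn)
  exact controlsTransferIn_of_family_singleton _ hW
    (control_of_top_bot _ (isChar_singleton _ hW) (fun K R hR => hall _ K R rfl))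

end Cfsg.Agent.S1984
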