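import Cfsg.Statements.S1993
import Cfsg.Agent.Lib.helper10.KStab7

set_option autoImplicit false
universe u
open Cfsg

namespace Cfsg.Agent.S1993

open Cfsg.Agent.Lib.helper10

/-- Let p be a prime, G a finite group with Sylow p-subgroup S, and K the upper K-infinity subgroup of S. If p ≥ 5 then S ∩ G' = S ∩ (N_G(K))'; and if p is odd and every section of G is p-stable in the normalizer form, then K controls strong fusion in G. -/
theorem result {G : Type u} [Group G] [Finite G] {p : ℕ} [Fact p.Prime] (S : Sylow p G) : (5 ≤ p → (S : Subgroup G) ⊓ commutator G = (S : Subgroup G) ⊓ ⁅Subgroup.normalizer ((Cfsg.inducedFunctor Cfsg.kInfUpper (S : Subgroup G) : Subgroup G) : Set G), Subgroup.normalizer ((Cfsg.inducedFunctor Cfsg.kInfUpper (S : Subgroup G) : Subgroup G) : Set G)⁆) ∧ (p ≠ 2 → (∀ (K R : Subgroup G) [hR : (R.subgroupOf K).Normal], Cfsg.IsNormalizerPStable p (↥K ⧸ R.subgroupOf K)) → Cfsg.ControlsStrongFusion p (Cfsg.inducedFunctor Cfsg.kInfUpper (S : Subgroup G))) := by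
  refine ⟨fun hp => ?_, fun _ hst => ?_⟩
  · have hW : Cfsg.IsCharPFunctor.{u} p (fun (Q : Type u) [Group Q] => Cfsg.kInfUpper Q) :=
      isCharPFunctor_kInfUpper p
    have hall := engel_sections_norm_family (G := G) (p := p)
      (fun (Q : Type u) [Group Q] => Cfsg.kInfUpper Q) hW (by
        intro K R hR hC T hnn
        exact kinf_norm_element hp (fun (Q : Type u) [Group Q] => Cfsg.kInfUpper Q) hW
          (fun Q _ _ hQ P' h => kInfUpper_hS Q hQ P' h) T hnn)
    have hfam := control_of_top_bot _ (isChar_singleton _ hW) (fun K R hR => hall _ K R rfl)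
    have hfoc := (control_top_iff _ (isChar_singleton _ hW) S).1 hfam
    unfold focalTarget at hfoc
    rw [iSup_singleton] at hfoc
    refine le_antisymm hfoc ?_
    refine inf_le_inf_left _ ?_
    rw [commutator_def]
    exact Subgroup.commutator_mono le_top le_top
  · exact sf_of_psu kInfUpper (isCharPFunctor_kInfUpper p)
      (fun T _ _ hT P' h => kInfUpper_hS T hT P' h) hst S

end Cfsg.Agent.S1993
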