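import Cfsg.Statements.S1996
import Cfsg.Agent.Lib.helper10.SFCore

set_option autoImplicit false
universe u
open Cfsg

namespace Cfsg.Agent.S1996

open Cfsg.Agent.Lib.helper10

/-- Let p be a prime, G a finite group and W₁, W₂ two isomorphism-invariant p-group functors (W assigns to every group Q a subgroup W(Q), nontrivial whenever Q is a nontrivial finite p-group, and every isomorphism from a finite p-group Q onto a group R carries W(Q) onto W(R)). Suppose that G* = N_{G*}(W₁(S*)) N_{G*}(W₂(S*)) whenever G* = K/R is a section of G with C_{G*}(O_p(G*)) ≤ O_p(G*) and S* is a Sylow p-subgroup of G*. Then the pair {W₁, W₂} controls strong fusion in G. -/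
theorem result {G : Type u} [Group G] [Finite G] {p : ℕ} [Fact p.Prime] (W₁ W₂ : ∀ (Q : Type u) [Group Q], Subgroup Q) (hW₁ : Cfsg.IsCharPFunctor.{u} p W₁) (hW₂ : Cfsg.IsCharPFunctor.{u} p W₂) (hfac : ∀ (K R : Subgroup G) [hR : (R.subgroupOf K).Normal], Subgroup.centralizer ((Cfsg.pCore p (↥K ⧸ R.subgroupOf K) : Subgroup (↥K ⧸ R.subgroupOf K)) : Set (↥K ⧸ R.subgroupOf K)) ≤ Cfsg.pCore p (↥K ⧸ R.subgroupOf K) → ∀ T : Sylow p (↥K ⧸ R.subgroupOf K), ∀ x : (↥K ⧸ R.subgroupOf K), ∃ a ∈ Subgroup.normalizer ((Cfsg.inducedFunctor (G := (↥K ⧸ R.subgroupOf K)) W₁ (T : Subgroup (↥K ⧸ R.subgroupOf K)) : Subgroup (↥K ⧸ R.subgroupOf K)) : Set (↥K ⧸ R.subgroupOf K)), ∃ b ∈ Subgroup.normalizer ((Cfsg.inducedFunctor (G := (↥K ⧸ R.subgroupOf K)) W₂ (T : Subgroup (↥K ⧸ R.subgroupOf K)) : Subgroup (↥K ⧸ R.subgroupOf K)) : Set (↥K ⧸ R.subgroupOf K)), x = a * b) : Cfsg.FamilyControlsStrongFusionIn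 p {Cfsg.inducedFunctor (G := G) W₁, Cfsg.inducedFunctor (G := G) W₂} ⊤ := by
  have h𝓦 : ∀ W' ∈ ({W₁, W₂} : Set (∀ (Q : Type u) [Group Q], Subgroup Q)),
      Cfsg.IsCharPFunctor.{u} p W' := by
    intro W' hW'
    rcases hW' with hW' | hW'
    · rw [hW']; exact hW₁
    · rw [Set.mem_singleton_iff] at hW'
      rw [hW']; exact hW₂
  have hcon : ∀ (K R : Subgroup G) [hR : (R.subgroupOf K).Normal],
      Subgroup.centralizer ((pCore p (↥K ⧸ R.subgroupOf K) : Subgroup (↥K ⧸ R.subgroupOf K)) :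
        Set (↥K ⧸ R.subgroupOf K)) ≤ pCore p (↥K ⧸ R.subgroupOf K) →
      FamilyControlsStrongFusionIn p
        ((fun W => inducedFunctor (G := ↥K ⧸ R.subgroupOf K) W) ''
          ({W₁, W₂} : Set (∀ (Q : Type u) [Group Q], Subgroup Q))) ⊤ := by
    intro K₁ R₁ hR₁ hC
    obtain ⟨S⟩ : Nonempty (Sylow p (↥K₁ ⧸ R₁.subgroupOf K₁)) := inferInstance
    have hSp : IsPGroup p (S : Subgroup (↥K₁ ⧸ R₁.subgroupOf K₁)) := S.2
    apply control_of_chainGood _ S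
    intro A g hA hgA
    obtain ⟨a, ha, b, hb, hgab⟩ := hfac K₁ R₁ hC S g
    obtain ⟨N₁, hN₁⟩ : ∃ N₁ : Subgroup (↥K₁ ⧸ R₁.subgroupOf K₁), N₁ = Subgroup.normalizer
        ((inducedFunctor (G := ↥K₁ ⧸ R₁.subgroupOf K₁) W₁
          (S : Subgroup (↥K₁ ⧸ R₁.subgroupOf K₁)) : Subgroup (↥K₁ ⧸ R₁.subgroupOf K₁)) :
          Set (↥K₁ ⧸ R₁.subgroupOf K₁)) := ⟨_, rfl⟩
    obtain ⟨N₂, hN₂⟩ : ∃ N₂ : Subgroup (↥K₁ ⧸ R₁.subgroupOf K₁), N₂ = Subgroup.normalizer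
        ((inducedFunctor (G := ↥K₁ ⧸ R₁.subgroupOf K₁) W₂
          (S : Subgroup (↥K₁ ⧸ R₁.subgroupOf K₁)) : Subgroup (↥K₁ ⧸ R₁.subgroupOf K₁)) :
          Set (↥K₁ ⧸ R₁.subgroupOf K₁)) := ⟨_, rfl⟩
    rw [← hN₁] at ha
    rw [← hN₂] at hb
    have hSN₁ : (S : Subgroup (↥K₁ ⧸ R₁.subgroupOf K₁)) ≤ N₁ := by
      rw [hN₁]; exact sylow_le_normalizer_functor (isConjugacyFunctor_induced W₁ hW₁) S
    have hSN₂ : (S : Subgroup (↥K₁ ⧸ R₁.subgroupOf K₁)) ≤ N₂ := by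
      rw [hN₂]; exact sylow_le_normalizer_functor (isConjugacyFunctor_induced W₂ hW₂) S
    obtain ⟨E, hE⟩ : ∃ E : Subgroup (↥K₁ ⧸ R₁.subgroupOf K₁),
        E = (Subgroup.closure A).map (MulAut.conj b).toMonoidHom := ⟨_, rfl⟩
    have hBS : Subgroup.closure A ≤ (S : Subgroup (↥K₁ ⧸ R₁.subgroupOf K₁)) := by
      rw [Subgroup.closure_le]; exact hA
    have hEp : IsPGroup p E := by rw [hE]; exact (hSp.to_le hBS).map _
    have hEN₂ : E ≤ N₂ := by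
      rw [hE, map_conj_le_iff]
      intro x hx
      exact N₂.mul_mem (N₂.mul_mem hb (hSN₂ (hBS hx))) (N₂.inv_mem hb)
    have hEN₁ : E ≤ N₁ := by
      rw [hE, MonoidHom.map_closure, Subgroup.closure_le]
      rintro _ ⟨x, hx, rfl⟩
      show b * x * b⁻¹ ∈ N₁
      have e : b * x * b⁻¹ = a⁻¹ * (g * x * g⁻¹) * a := by rw [hgab]; group
      rw [e]
      exact N₁.mul_mem (N₁.mul_mem (N₁.inv_mem ha) (hSN₁ (hgA x hx))) ha
    obtain ⟨m, hmM, hm⟩ := exists_conj_le_of_relIndex (H := N₁ ⊓ N₂)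
      (Q := (S : Subgroup (↥K₁ ⧸ R₁.subgroupOf K₁))) hSp
      (sylow_relIndex S _ (le_inf hSN₁ hSN₂)) (le_inf hEN₁ hEN₂) hEp
    have hmb : ∀ x ∈ A, (m * b) * x * (m * b)⁻¹ ∈ (S : Subgroup (↥K₁ ⧸ R₁.subgroupOf K₁)) := by
      intro x hx
      have he : b * x * b⁻¹ ∈ E := by
        rw [hE]; exact conj_mem_map_conj _ b _ (Subgroup.subset_closure hx)
      have h1 := hm _ he
      have e : (m * b) * x * (m * b)⁻¹ = m * (b * x * b⁻¹) * m⁻¹ := by group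
      rw [e]; exact h1
    have e : a * m⁻¹ * (m * b) = g := by rw [hgab]; group
    refine ⟨a * m⁻¹ * (m * b), FChain.step (m * b) (a * m⁻¹) ?_ (FChain.single ?_ hA hmb) ?_, ?_⟩
    · refine ⟨W₁, Set.mem_insert _ _, ?_⟩
      rw [← hN₁]; exact N₁.mul_mem ha (N₁.inv_mem hmM.1)
    · refine ⟨W₂, Set.mem_insert_of_mem _ rfl, ?_⟩
      rw [← hN₂]; exact N₂.mul_mem hmM.2 hb
    · intro x hx
      rw [e]; exact hgA x hx
    · intro x hx
      rw [e]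
  have h := sf_control_of_top_bot ({W₁, W₂} : Set (∀ (Q : Type u) [Group Q], Subgroup Q)) h𝓦
    (fun K R hR => strong_fusion_sections
      ({W₁, W₂} : Set (∀ (Q : Type u) [Group Q], Subgroup Q)) h𝓦 hcon _ K R rfl)
  rw [Set.image_pair] at h
  exact h

end Cfsg.Agent.S1996
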