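import Cfsg.Statements.S1997
import Cfsg.Agent.Lib.helper10.ZFact
import Cfsg.Agent.S1996

set_option autoImplicit false
universe u
open Cfsg

namespace Cfsg.Agent.S1997

open Cfsg.Agent.Lib.helper10

theorem fchain_mem_subgroup {X : Type*} [Group X] {Ns T A : Set X} {c : X} (H : Subgroup X)
    (hNs : Ns ⊆ (H : Set X)) (h : FChain Ns T A c) : c ∈ H := by
  induction h with
  | one hA => exact H.one_mem
  | step c y hy h hA ih => exact H.mul_mem (hNs hy) ih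

/-- The subgroup generated by the `N`-conjugates of `Z`. -/
def conjClosure {X : Type*} [Group X] (N Z : Subgroup X) : Subgroup X :=
  Subgroup.closure {y | ∃ n ∈ N, ∃ z ∈ Z, y = n * z * n⁻¹}

theorem le_conjClosure {X : Type*} [Group X] (N Z : Subgroup X) : Z ≤ conjClosure N Z := by
  intro z hz
  exact Subgroup.subset_closure ⟨1, N.one_mem, z, hz, by simp⟩

theorem conjClosure_conj {X : Type*} [Group X] (N Z : Subgroup X) (m : X) (hm : m ∈ N) :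
    ∀ a ∈ conjClosure N Z, m * a * m⁻¹ ∈ conjClosure N Z := by
  rw [← map_conj_le_iff]
  unfold conjClosure
  rw [MonoidHom.map_closure, Subgroup.closure_le]
  rintro _ ⟨_, ⟨n, hn, z, hz, rfl⟩, rfl⟩
  apply Subgroup.subset_closure
  refine ⟨m * n, N.mul_mem hm hn, z, hz, ?_⟩
  show m * (n * z * n⁻¹) * m⁻¹ = _
  group

theorem conjClosure_le {X : Type*} [Group X] (N Z B : Subgroup X)
    (h : ∀ n ∈ N, ∀ z ∈ Z, n * z * n⁻¹ ∈ B) : conjClosure N Z ≤ B := by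
  unfold conjClosure
  rw [Subgroup.closure_le]
  rintro _ ⟨n, hn, z, hz, rfl⟩
  exact h n hn z hz

/-- Let p be a prime, G a finite group with Sylow p-subgroup S, and W₁, W₂ two isomorphism-invariant p-group functors (W assigns to every group Q a subgroup W(Q), nontrivial whenever Q is a nontrivial finite p-group, and every isomorphism from a finite p-group Q onto a group R carries W(Q) onto W(R)). Suppose that G* = C_{G*}(Ω₁Z(S*)) N_{G*}(W₁(S*)) = C_{G*}(Ω₁Z(S*)) N_{G*}(W₂(S*)) = N_{G*}(W₁(S*)) N_{G*}(W₂(S*)) whenever G* = K/R is a section of G with C_{G*}(O_p(G*)) ≤ O_p(G*) and S* is a Sylow p-subgroup of G*, where Ω₁Z denotes the subgroup generated by the elements of order dividing p in the centre. Suppose also Ω₁Z(S) ≤ W₁(S) ∩ W₂(S), and let A be the normal closure of Ω₁Z(S) in N_G(W₁(S)). Then A is an elementary abelian subgroup of S, strongly closed in S with respect to G, and A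 controls strong fusion in G. -/
theorem result {G : Type u} [Group G] [Finite G] {p : ℕ} [Fact p.Prime] (S : Sylow p G) (W₁ W₂ : ∀ (Q : Type u) [Group Q], Subgroup Q) (hW₁ : Cfsg.IsCharPFunctor.{u} p W₁) (hW₂ : Cfsg.IsCharPFunctor.{u} p W₂) (hfac : ∀ (K R : Subgroup G) [hR : (R.subgroupOf K).Normal], Subgroup.centralizer ((Cfsg.pCore p (↥K ⧸ R.subgroupOf K) : Subgroup (↥K ⧸ R.subgroupOf K)) : Set (↥K ⧸ R.subgroupOf K)) ≤ Cfsg.pCore p (↥K ⧸ R.subgroupOf K) → ∀ T : Sylow p (↥K ⧸ R.subgroupOf K), (∀ x : (↥K ⧸ R.subgroupOf K), ∃ a ∈ Subgroup.centralizer ((Cfsg.omegaOne p ((T : Subgroup (↥K ⧸ R.subgroupOf K)) ⊓ Subgroup.centralizer (((T : Subgroup (↥K ⧸ R.subgroupOf K)) : Subgroup (↥K ⧸ R.subgroupOf K)) : Set (↥K ⧸ R.subgroupOf K))) : Subgroup (↥K ⧸ R.subgroupOf K)) : Set (↥K ⧸ R.subgroupOf K)), ∃ b ∈ Subgroup.normalizer ((Cfsg.inducedFunctor (G := (↥K ⧸ R.subgroupOf K)) W₁ (T : Subgroup (↥K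 ⧸ R.subgroupOf K)) : Subgroup (↥K ⧸ R.subgroupOf K)) : Set (↥K ⧸ R.subgroupOf K)), x = a * b) ∧ (∀ x : (↥K ⧸ R.subgroupOf K), ∃ a ∈ Subgroup.centralizer ((Cfsg.omegaOne p ((T : Subgroup (↥K ⧸ R.subgroupOf K)) ⊓ Subgroup.centralizer (((T : Subgroup (↥K ⧸ R.subgroupOf K)) : Subgroup (↥K ⧸ R.subgroupOf K)) : Set (↥K ⧸ R.subgroupOf K))) : Subgroup (↥K ⧸ R.subgroupOf K)) : Set (↥K ⧸ R.subgroupOf K)), ∃ b ∈ Subgroup.normalizer ((Cfsg.inducedFunctor (G := (↥K ⧸ R.subgroupOf K)) W₂ (T : Subgroup (↥K ⧸ R.subgroupOf K)) : Subgroup (↥K ⧸ R.subgroupOf K)) : Set (↥K ⧸ R.subgroupOf K)), x = a * b) ∧ (∀ x : (↥K ⧸ R.subgroupOf K), ∃ a ∈ Subgroup.normalizer ((Cfsg.inducedFunctor (G := (↥K ⧸ R.subgroupOf K)) W₁ (T : Subgroup (↥K ⧸ R.subgroupOf K)) : Subgroup (↥K ⧸ R.subgroupOf K)) : Set (↥K ⧸ R.subgroupOf K)), ∃ b ∈ Subgroup.normalizer ((Cfsg.inducedFunctor (G := (↥K ⧸ R.subgroupOf K)) W₂ (T : Subgroup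 (↥K ⧸ R.subgroupOf K)) : Subgroup (↥K ⧸ R.subgroupOf K)) : Set (↥K ⧸ R.subgroupOf K)), x = a * b)) (hZ : Cfsg.omegaOne p ((S : Subgroup G) ⊓ Subgroup.centralizer (((S : Subgroup G) : Subgroup G) : Set G)) ≤ Cfsg.inducedFunctor (G := G) W₁ (S : Subgroup G) ⊓ Cfsg.inducedFunctor (G := G) W₂ (S : Subgroup G)) (N₁ : Subgroup G) (hN₁ : N₁ = Subgroup.normalizer ((Cfsg.inducedFunctor (G := G) W₁ (S : Subgroup G) : Subgroup G) : Set G)) (A : Subgroup G) (hA : A = (Subgroup.normalClosure (((Cfsg.omegaOne p ((S : Subgroup G) ⊓ Subgroup.centralizer (((S : Subgroup G) : Subgroup G) : Set G))).subgroupOf N₁ : Subgroup ↥N₁) : Set ↥N₁)).map N₁.subtype) : A ≤ (S : Subgroup G) ∧ Cfsg.IsElementaryAbelian p A ∧ Cfsg.IsStronglyClosed A (S : Subgroup G) ∧ Cfsg.ControlsStrongFusion p A := by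
  classical
  have hSp : IsPGroup p (S : Subgroup G) := S.2
  obtain ⟨Z, hZdef⟩ : ∃ Z : Subgroup G, Z = omZ p (S : Subgroup G) := ⟨_, rfl⟩
  obtain ⟨V₁, hV₁⟩ : ∃ V₁ : Subgroup G, V₁ = inducedFunctor (G := G) W₁ (S : Subgroup G) :=
    ⟨_, rfl⟩
  obtain ⟨V₂, hV₂⟩ : ∃ V₂ : Subgroup G, V₂ = inducedFunctor (G := G) W₂ (S : Subgroup G) :=
    ⟨_, rfl⟩
  obtain ⟨N₂, hN₂⟩ : ∃ N₂ : Subgroup G, N₂ = Subgroup.normalizer (V₂ : Set G) := ⟨_, rfl⟩
  have hZ' : Z ≤ V₁ ⊓ V₂ := by rw [hZdef, hV₁, hV₂]; exact hZ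
  rw [← hV₁] at hN₁
  have hA' : A = (Subgroup.normalClosure ((Z.subgroupOf N₁ : Subgroup ↥N₁) : Set ↥N₁)).map
      N₁.subtype := by rw [hZdef]; exact hA
  clear hA hZ
  have hZV₁ : Z ≤ V₁ := hZ'.trans inf_le_left
  have hZV₂ : Z ≤ V₂ := hZ'.trans inf_le_right
  have hV₁S : V₁ ≤ (S : Subgroup G) := by
    rw [hV₁]; exact (isConjugacyFunctor_induced W₁ hW₁ _ hSp).1
  have hV₂S : V₂ ≤ (S : Subgroup G) := by
    rw [hV₂]; exact (isConjugacyFunctor_induced W₂ hW₂ _ hSp).1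
  have hSN₁ : (S : Subgroup G) ≤ N₁ := by
    rw [hN₁, hV₁]; exact sylow_le_normalizer_functor (isConjugacyFunctor_induced W₁ hW₁) S
  have hSN₂ : (S : Subgroup G) ≤ N₂ := by
    rw [hN₂, hV₂]; exact sylow_le_normalizer_functor (isConjugacyFunctor_induced W₂ hW₂) S
  have hZS : Z ≤ (S : Subgroup G) ⊓ Subgroup.centralizer ((S : Subgroup G) : Set G) := by
    rw [hZdef]; exact omZ_le p _
  have hZN₁ : Z ≤ N₁ := (hZS.trans inf_le_left).trans hSN₁
  -- basic properties of `A`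
  have hα : Z ≤ A := by
    intro z hz
    rw [hA']
    exact ⟨⟨z, hZN₁ hz⟩, Subgroup.subset_normalClosure (Subgroup.mem_subgroupOf.2 hz), rfl⟩
  have hβ : ∀ n ∈ N₁, ∀ a ∈ A, n * a * n⁻¹ ∈ A := by
    intro n hn a ha
    rw [hA'] at ha ⊢
    obtain ⟨a', ha', rfl⟩ := ha
    exact ⟨⟨n, hn⟩ * a' * ⟨n, hn⟩⁻¹, Subgroup.normalClosure_normal.conj_mem a' ha' ⟨n, hn⟩, rfl⟩
  have hγ : ∀ B : Subgroup G, Z ≤ B → (∀ n ∈ N₁, ∀ b ∈ B, n * b * n⁻¹ ∈ B) → A ≤ B := by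
    intro B hZB hB
    rw [hA', Subgroup.map_le_iff_le_comap]
    have hn : (B.comap N₁.subtype).Normal := by
      refine ⟨fun b hb n => ?_⟩
      exact hB n n.2 b hb
    apply Subgroup.normalClosure_le_normal
    intro z hz
    exact hZB (Subgroup.mem_subgroupOf.1 hz)
  have hAV₁ : A ≤ V₁ := by
    apply hγ V₁ hZV₁
    intro n hn b hb
    rw [hN₁] at hn
    exact (Subgroup.mem_normalizer_iff.1 hn b).1 hb
  have hAS : A ≤ (S : Subgroup G) := hAV₁.trans hV₁S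
  -- `A` is abelian
  have hcomm : ∀ a ∈ A, ∀ b ∈ A, a * b = b * a := by
    have h1 : A ≤ A ⊓ Subgroup.centralizer (A : Set G) := by
      apply hγ
      · intro z hz
        refine ⟨hα hz, Subgroup.mem_centralizer_iff.2 ?_⟩
        intro a ha
        exact Subgroup.mem_centralizer_iff.1 (hZS hz).2 a (hAS ha)
      · intro n hn b hb
        refine ⟨hβ n hn b hb.1, Subgroup.mem_centralizer_iff.2 ?_⟩
        intro a ha
        have h2 : n⁻¹ * a * n ∈ A := by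
          have := hβ n⁻¹ (N₁.inv_mem hn) a ha
          simpa using this
        have h3 := Subgroup.mem_centralizer_iff.1 hb.2 _ h2
        calc a * (n * b * n⁻¹) = n * ((n⁻¹ * a * n) * b) * n⁻¹ := by group
          _ = n * (b * (n⁻¹ * a * n)) * n⁻¹ := by rw [h3]
          _ = n * b * n⁻¹ * a := by group
    intro a ha b hb
    exact (Subgroup.mem_centralizer_iff.1 (h1 hb).2 a ha)
  -- exponent `p`
  have hZexp : ∀ z ∈ Z, z ^ p = 1 := by
    intro z hz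
    have hz' : z ∈ omegaOne p ((S : Subgroup G) ⊓
        Subgroup.centralizer ((S : Subgroup G) : Set G)) := by rw [hZdef] at hz; exact hz
    unfold omegaOne at hz'
    refine Subgroup.closure_induction (p := fun x _ => x ∈ (S : Subgroup G) ⊓
      Subgroup.centralizer ((S : Subgroup G) : Set G) ∧ x ^ p = 1) ?_ ?_ ?_ ?_ hz' |>.2
    · intro x hx; exact hx
    · exact ⟨Subgroup.one_mem _, one_pow p⟩
    · intro x y _ _ hx hy
      refine ⟨Subgroup.mul_mem _ hx.1 hy.1, ?_⟩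
      have hc : Commute x y := (Subgroup.mem_centralizer_iff.1 hy.1.2 x hx.1.1)
      rw [hc.mul_pow, hx.2, hy.2, one_mul]
    · intro x _ hx
      exact ⟨Subgroup.inv_mem _ hx.1, by rw [inv_pow, hx.2, inv_one]⟩
  have hAexp : ∀ a ∈ A, a ^ p = 1 := by
    obtain ⟨E, hE⟩ : ∃ E : Subgroup G, ∀ x, x ∈ E ↔ x ∈ A ∧ x ^ p = 1 := by
      refine ⟨{ carrier := {x | x ∈ A ∧ x ^ p = 1}
                one_mem' := ⟨A.one_mem, one_pow p⟩
                mul_mem' := ?_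
                inv_mem' := ?_ }, fun x => Iff.rfl⟩
      · rintro x y ⟨hx, hxp⟩ ⟨hy, hyp⟩
        refine ⟨A.mul_mem hx hy, ?_⟩
        have hc : Commute x y := hcomm x hx y hy
        rw [hc.mul_pow, hxp, hyp, one_mul]
      · rintro x ⟨hx, hxp⟩
        exact ⟨A.inv_mem hx, by rw [inv_pow, hxp, inv_one]⟩
    have h1 : A ≤ E := by
      apply hγ
      · intro z hz; exact (hE z).2 ⟨hα hz, hZexp z hz⟩
      · intro n hn b hb
        have hb' := (hE b).1 hb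
        refine (hE _).2 ⟨hβ n hn b hb'.1, ?_⟩
        rw [conj_pow, hb'.2]; group
    intro a ha
    exact ((hE a).1 (h1 ha)).2
  -- the relative factorizations
  have hcon₁ : ∀ (K R : Subgroup G) [hR : (R.subgroupOf K).Normal],
      Subgroup.centralizer ((pCore p (↥K ⧸ R.subgroupOf K) : Subgroup (↥K ⧸ R.subgroupOf K)) :
        Set (↥K ⧸ R.subgroupOf K)) ≤ pCore p (↥K ⧸ R.subgroupOf K) →
      ZFactIn p W₁ (⊤ : Subgroup (↥K ⧸ R.subgroupOf K)) := by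
    intro K R hR hC T _ hTp hidx _ x _
    rw [Subgroup.relIndex_top_right] at hidx
    obtain ⟨a, ha, b, hb, hx⟩ := (hfac K R hC (hTp.toSylow hidx)).1 x
    exact ⟨a, ⟨Subgroup.mem_top _, ha⟩, b, ⟨Subgroup.mem_top _, hb⟩, hx⟩
  have hcon₂ : ∀ (K R : Subgroup G) [hR : (R.subgroupOf K).Normal],
      Subgroup.centralizer ((pCore p (↥K ⧸ R.subgroupOf K) : Subgroup (↥K ⧸ R.subgroupOf K)) :
        Set (↥K ⧸ R.subgroupOf K)) ≤ pCore p (↥K ⧸ R.subgroupOf K) →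
      ZFactIn p W₂ (⊤ : Subgroup (↥K ⧸ R.subgroupOf K)) := by
    intro K R hR hC T _ hTp hidx _ x _
    rw [Subgroup.relIndex_top_right] at hidx
    obtain ⟨a, ha, b, hb, hx⟩ := (hfac K R hC (hTp.toSylow hidx)).2.1 x
    exact ⟨a, ⟨Subgroup.mem_top _, ha⟩, b, ⟨Subgroup.mem_top _, hb⟩, hx⟩
  have hf₁ := zfact_subgroup W₁ hW₁ hcon₁ N₂ (S : Subgroup G) hSN₂ hSp (sylow_relIndex S N₂ hSN₂)
  have hf₂ := zfact_subgroup W₂ hW₂ hcon₂ N₁ (S : Subgroup G) hSN₁ hSp (sylow_relIndex S N₁ hSN₁)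
  rw [← hZdef, ← hV₁] at hf₁
  rw [← hZdef, ← hV₂] at hf₂
  -- `N₂`-conjugates of `Z` lie in `A`
  have hN₂Z : ∀ n ∈ N₂, ∀ z ∈ Z, n * z * n⁻¹ ∈ A := by
    intro n hn z hz
    obtain ⟨a, ha, b, hb, hab⟩ := hf₁ (by
      intro h hh z' hz'
      rw [hN₂] at hh
      exact hV₂S ((Subgroup.mem_normalizer_iff.1 hh z').1 (hZV₂ hz'))) n⁻¹ (N₂.inv_mem hn)
    have hbN₁ : b ∈ N₁ := by rw [hN₁]; exact hb.2
    have h1 := Subgroup.mem_centralizer_iff.1 ha.2 z hz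
    have e : n * z * n⁻¹ = b⁻¹ * z * b⁻¹⁻¹ := by
      have hn' : n = b⁻¹ * a⁻¹ := by
        rw [← mul_inv_rev, ← hab, inv_inv]
      rw [hn']
      calc b⁻¹ * a⁻¹ * z * (b⁻¹ * a⁻¹)⁻¹ = b⁻¹ * (a⁻¹ * (z * a)) * b := by group
        _ = b⁻¹ * (a⁻¹ * (a * z)) * b := by rw [h1]
        _ = b⁻¹ * z * b⁻¹⁻¹ := by group
    rw [e]
    exact hβ b⁻¹ (N₁.inv_mem hbN₁) z (hα hz)
  -- `N₁`-conjugates of `Z` lie in the closure of the `N₂`-conjugates
  have hN₁Z : ∀ n ∈ N₁, ∀ z ∈ Z, n * z * n⁻¹ ∈ conjClosure N₂ Z := by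
    intro n hn z hz
    obtain ⟨a, ha, b, hb, hab⟩ := hf₂ (by
      intro h hh z' hz'
      rw [hN₁] at hh
      exact hV₁S ((Subgroup.mem_normalizer_iff.1 hh z').1 (hZV₁ hz'))) n⁻¹ (N₁.inv_mem hn)
    have hbN₂ : b ∈ N₂ := by rw [hN₂]; exact hb.2
    have h1 := Subgroup.mem_centralizer_iff.1 ha.2 z hz
    have e : n * z * n⁻¹ = b⁻¹ * z * b⁻¹⁻¹ := by
      have hn' : n = b⁻¹ * a⁻¹ := by
        rw [← mul_inv_rev, ← hab, inv_inv]
      rw [hn']
      calc b⁻¹ * a⁻¹ * z * (b⁻¹ * a⁻¹)⁻¹ = b⁻¹ * (a⁻¹ * (z * a)) * b := by group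
        _ = b⁻¹ * (a⁻¹ * (a * z)) * b := by rw [h1]
        _ = b⁻¹ * z * b⁻¹⁻¹ := by group
    rw [e]
    exact Subgroup.subset_closure ⟨b⁻¹, N₂.inv_mem hbN₂, z, hz, rfl⟩
  have hA₂A : conjClosure N₂ Z ≤ A := conjClosure_le N₂ Z A hN₂Z
  have hAA₂ : A ≤ conjClosure N₂ Z := by
    have h1 : A ≤ conjClosure N₁ Z :=
      hγ _ (le_conjClosure N₁ Z) (fun n hn b hb => conjClosure_conj N₁ Z n hn b hb)
    exact h1.trans (conjClosure_le N₁ Z _ hN₁Z)
  have hN₁A : N₁ ≤ Subgroup.normalizer (A : Set G) := by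
    intro n hn
    exact mem_normalizer_of_conj_mem A n (fun a ha => hβ n hn a ha)
  have hN₂A : N₂ ≤ Subgroup.normalizer (A : Set G) := by
    intro n hn
    exact mem_normalizer_of_conj_mem A n
      (fun a ha => hA₂A (conjClosure_conj N₂ Z n hn a (hAA₂ ha)))
  -- fusion
  have hc : FamilyControlsStrongFusionIn p
      {inducedFunctor (G := G) W₁, inducedFunctor (G := G) W₂} ⊤ :=
    Cfsg.Agent.S1996.result W₁ W₂ hW₁ hW₂ (fun K R hR hC T => (hfac K R hC T).2.2)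
  have hconj : ∀ W' ∈ ({inducedFunctor (G := G) W₁, inducedFunctor (G := G) W₂} :
      Set (Subgroup G → Subgroup G)), IsConjugacyFunctor p W' := by
    intro W' hW'
    rcases hW' with hW' | hW'
    · rw [hW']; exact isConjugacyFunctor_induced W₁ hW₁
    · rw [Set.mem_singleton_iff] at hW'
      rw [hW']; exact isConjugacyFunctor_induced W₂ hW₂
  have key : ∀ (A' : Set G) (g : G), A' ⊆ (S : Subgroup G) →
      (∀ a ∈ A', g * a * g⁻¹ ∈ (S : Subgroup G)) →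
      ∃ c ∈ Subgroup.normalizer (A : Set G), ∀ a ∈ A', c * a * c⁻¹ = g * a * g⁻¹ := by
    intro A' g hA'S hgA'
    obtain ⟨c, hch, hca⟩ := familyControlsStrongFusionIn_sylow hconj hc
      (le_top : (S : Subgroup G) ≤ ⊤) hSp
      (by rw [Subgroup.relIndex_top_right]; exact S.not_dvd_index) A' g (Subgroup.mem_top _)
      hA'S hgA'
    refine ⟨c, fchain_mem_subgroup _ ?_ hch, hca⟩
    rintro z ⟨W', hW', -, hz⟩
    rcases hW' with hW' | hW'
    · rw [hW', ← hV₁, ← hN₁] at hz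
      exact hN₁A hz
    · rw [Set.mem_singleton_iff] at hW'
      rw [hW', ← hV₂, ← hN₂] at hz
      exact hN₂A hz
  refine ⟨hAS, ⟨IsMulCommutative.of_setLike_mul_comm (fun a ha b hb => hcomm a ha b hb), hAexp⟩,
    ⟨hAS, ?_⟩, ⟨S, hAS, fun A' hA'S => ⟨hA'S, fun g hg => ?_⟩⟩⟩
  · intro x hx g hg
    obtain ⟨c, hcN, hca⟩ := key {x} g (by
      intro a ha
      rw [Set.mem_singleton_iff] at ha
      rw [ha]; exact hAS hx) (by
      intro a ha
      rw [Set.mem_singleton_iff] at ha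
      rw [ha]; exact hg)
    rw [← hca x rfl]
    exact (Subgroup.mem_normalizer_iff.1 hcN x).1 hx
  · obtain ⟨c, hcN, hca⟩ := key A' g hA'S (fun a ha => hg ⟨a, ha, rfl⟩)
    exact ⟨c, hcN, fun a ha => (hca a ha).symm⟩

end Cfsg.Agent.S1997
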