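import Cfsg.Statements.S1998
import Cfsg.Agent.Lib.helper10.TCMin

set_option autoImplicit false
universe u
open Cfsg

namespace Cfsg.Agent.S1998

open Cfsg.Agent.Lib.helper10

/-- Let p be a prime, G a finite group with Sylow p-subgroup S, and 𝓦 a nonempty set of isomorphism-invariant p-group functors (W assigns to every group Q a subgroup W(Q), nontrivial whenever Q is a nontrivial finite p-group, and every isomorphism from a finite p-group Q onto a group R carries W(Q) onto W(R)). Suppose the induced conjugacy functors control transfer in every section of G other than G itself, but not in G. Let T be the subgroup generated by the S ∩ (N_G(W(S)))', W ∈ 𝓦, and M = N_G(T ∩ O_p(G)). Then: C_G(O_p(G)) ≤ O_p(G); M is a proper subgroup of G containing every proper subgroup of G that contains S (the unique maximal subgroup over S); [O_p(G), M] ≤ O_p(G) ∩ M' ≤ O_p(G) ∩ T; and every element u of S outside O_p(G) satisfies [X, u, …,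 u] ≰ Y with p − 1 entries u, for some chief factor X/Y of G with X ≤ O_p(G). -/
theorem result {G : Type u} [Group G] [Finite G] {p : ℕ} [Fact p.Prime] (S : Sylow p G) (𝓦 : Set (∀ (Q : Type u) [Group Q], Subgroup Q)) (h𝓦 : ∀ W ∈ 𝓦, Cfsg.IsCharPFunctor.{u} p W) (hne : 𝓦.Nonempty) (hsec : ∀ (K R : Subgroup G) [hR : (R.subgroupOf K).Normal], (K = ⊤ → R ≠ ⊥) → Cfsg.FamilyControlsTransferIn p ((fun W => Cfsg.inducedFunctor (G := (↥K ⧸ R.subgroupOf K)) W) '' 𝓦) ⊤) (hG : ¬ Cfsg.FamilyControlsTransferIn p ((fun W => Cfsg.inducedFunctor (G := G) W) '' 𝓦) ⊤) (T M : Subgroup G) (hT : T = (⨆ W ∈ 𝓦, (S : Subgroup G) ⊓ ⁅Subgroup.normalizer ((Cfsg.inducedFunctor (G := G) W (S : Subgroup G) : Subgroup G) : Set G), Subgroup.normalizer ((Cfsg.inducedFunctor (G := G) W (S : Subgroup G) : Subgroup G) : Set G)⁆)) (hM : M = Subgroup.normalizer ((T ⊓ Cfsg.pCore p G : Subgroup G) : Set G)) : Subgroup.centralizer ((Cfsg.pCore p G : Subgroup G) : Set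 G) ≤ Cfsg.pCore p G ∧ (M ≠ ⊤ ∧ ∀ H : Subgroup G, (S : Subgroup G) ≤ H → H ≠ ⊤ → H ≤ M) ∧ (⁅Cfsg.pCore p G, M⁆ ≤ Cfsg.pCore p G ⊓ ⁅M, M⁆ ∧ Cfsg.pCore p G ⊓ ⁅M, M⁆ ≤ Cfsg.pCore p G ⊓ T) ∧ ∀ u : G, u ∈ (S : Subgroup G) → u ∉ Cfsg.pCore p G → ∃ U V : Subgroup G, Cfsg.IsChiefFactor U V ∧ U ≤ Cfsg.pCore p G ∧ ¬ Cfsg.iterCommutator U (Subgroup.zpowers u) (p - 1) ≤ V := by
  classical
  have hcardtop : Nat.card (↥(⊤ : Subgroup G) ⧸ (⊥ : Subgroup G).subgroupOf ⊤) = Nat.card G := by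
    have h1 := Subgroup.card_eq_card_quotient_mul_card_subgroup ((⊥ : Subgroup G).subgroupOf ⊤)
    have h2 : Nat.card ↥((⊥ : Subgroup G).subgroupOf ⊤) = 1 := by
      rw [Subgroup.bot_subgroupOf, Subgroup.card_bot]
    rw [h2, mul_one, Subgroup.card_top] at h1
    exact h1.symm
  have hsec' : ∀ (K R : Subgroup G) [hR : (R.subgroupOf K).Normal],
      Nat.card (↥K ⧸ R.subgroupOf K) < Nat.card G →
      Cfsg.FamilyControlsTransferIn p
        ((fun W => Cfsg.inducedFunctor (G := (↥K ⧸ R.subgroupOf K)) W) '' 𝓦) ⊤ := by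
    intro K R hR hlt
    apply hsec K R
    intro hK hRb
    subst hK
    subst hRb
    rw [hcardtop] at hlt
    exact lt_irrefl _ hlt
  have hsub : ∀ M : Subgroup G, M ≠ ⊤ →
      Cfsg.FamilyControlsTransferIn p ((fun W => Cfsg.inducedFunctor (G := G) W) '' 𝓦) M := by
    intro M hM
    obtain ⟨K₁, R₁, hR₁, ⟨e⟩⟩ := section_subgroup (⊤ : Subgroup G)
      (Subgroup.topEquiv : ↥(⊤ : Subgroup G) ≃* G).toMonoidHom
      (Subgroup.topEquiv : ↥(⊤ : Subgroup G) ≃* G).surjective M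
    have hcard : Nat.card (↥K₁ ⧸ R₁.subgroupOf K₁) < Nat.card G := by
      rw [Nat.card_congr e.toEquiv]; exact card_lt_of_ne_top hM
    have h1 := hsec' K₁ R₁ hcard
    have h2 := familyControlsTransferIn_map 𝓦 h𝓦 (M.subtype.comp e.toMonoidHom)
      (M.subtype_injective.comp e.injective) h1
    have hr : (M.subtype.comp e.toMonoidHom).range = M := by
      rw [MonoidHom.range_comp, MonoidHom.range_eq_top.mpr e.surjective,
        ← MonoidHom.range_eq_map, Subgroup.range_subtype]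
    rw [hr] at h2
    exact h2
  have hquot : ∀ (N : Subgroup G) [N.Normal], N ≠ ⊥ →
      Cfsg.FamilyControlsTransferIn p
        ((fun W => Cfsg.inducedFunctor (G := G ⧸ N) W) '' 𝓦) ⊤ := by
    intro N _ hN
    obtain ⟨R₂, hR₂, ⟨e⟩⟩ := section_quotient (⊤ : Subgroup G)
      (Subgroup.topEquiv : ↥(⊤ : Subgroup G) ≃* G).toMonoidHom
      (Subgroup.topEquiv : ↥(⊤ : Subgroup G) ≃* G).surjective N
    have hcard : Nat.card (↥(⊤ : Subgroup G) ⧸ R₂.subgroupOf ⊤) < Nat.card G := by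
      rw [Nat.card_congr e.toEquiv]; exact card_quotient_lt N hN
    have h1 := hsec' ⊤ R₂ hcard
    have h2 := familyControlsTransferIn_map 𝓦 h𝓦 e.toMonoidHom e.injective h1
    rw [MonoidHom.range_eq_top.mpr e.surjective] at h2
    exact h2
  have hfail : ¬ (S : Subgroup G) ⊓ commutator G ≤ focalTarget 𝓦 (S : Subgroup G) :=
    fun h => hG ((control_top_iff 𝓦 h𝓦 S).2 h)
  haveI hPn := Cfsg.Agent.Lib.helper14.pCore_normal' p G
  have hPp := Cfsg.Agent.Lib.helper14.isPGroup_pCore p G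
  have hPmax : ∀ L : Subgroup G, L.Normal → IsPGroup p L → L ≤ Cfsg.pCore p G :=
    fun L hL hLp => Cfsg.Agent.Lib.helper14.le_pCore hL hLp
  have hTF : T = focalTarget 𝓦 (S : Subgroup G) := hT
  rw [hTF] at hM ⊢
  obtain ⟨h1, ⟨h2, h3⟩, ⟨hSM, h4⟩, h5⟩ :=
    min_failure 𝓦 h𝓦 hne S (Cfsg.pCore p G) hPp hPmax hsub hquot hfail M hM
  have hPS : Cfsg.pCore p G ≤ (S : Subgroup G) := hPp.le_sylow_of_normal S
  refine ⟨h1, ⟨h2, h3⟩, ⟨?_, ?_⟩, h5⟩
  · exact le_inf (Subgroup.commutator_le_left _ _) (Subgroup.commutator_mono (hPS.trans hSM) le_rfl)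
  · exact le_inf inf_le_left ((inf_le_inf_right _ hPS).trans h4)

end Cfsg.Agent.S1998
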