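import Cfsg.Statements.S2007
import Mathlib

set_option autoImplicit false
open Cfsg

namespace Cfsg.Agent.S2007

open scoped Pointwise

theorem conj_mem_smul_sylow {G : Type*} [Group G] {p : ℕ} (P : Sylow p G) (g x : G)
    (hx : x ∈ (P : Subgroup G)) : g * x * g⁻¹ ∈ ((g • P : Sylow p G) : Subgroup G) := by
  show g * x * g⁻¹ ∈ MulAut.conj g • (P : Subgroup G)
  exact Subgroup.smul_mem_pointwise_smul x (MulAut.conj g) _ hx

/-- A normal `p'`-subgroup containing all `p'`-elements is a complement to every Sylow `p`-subgroup. -/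
theorem complement_of_pprime_elts {N : Type*} [Group N] [Finite N] {p : ℕ} [Fact p.Prime]
    (K : Subgroup N) [K.Normal] (hK : ¬ p ∣ Nat.card K)
    (hel : ∀ g : N, (orderOf g).Coprime p → g ∈ K) (S : Sylow p N) :
    K.IsComplement' (S : Subgroup N) := by
  have hp : p.Prime := Fact.out
  have hq : IsPGroup p (N ⧸ K) := by
    intro y
    obtain ⟨g, rfl⟩ := QuotientGroup.mk_surjective y
    refine ⟨(orderOf g).factorization p, ?_⟩
    rw [← QuotientGroup.mk_pow, QuotientGroup.eq_one_iff]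
    apply hel
    have h0 : orderOf g ≠ 0 := (orderOf_pos g).ne'
    rw [orderOf_pow_of_dvd (pow_ne_zero _ hp.ne_zero) (Nat.ordProj_dvd _ _)]
    exact (Nat.coprime_ordCompl hp h0).symm
  obtain ⟨n, hn⟩ := IsPGroup.iff_card.1 hq
  have hidx : K.index = p ^ n := by rw [Subgroup.index_eq_card, hn]
  have hcard : Nat.card K * p ^ n = Nat.card N := by rw [← hidx, Subgroup.card_mul_index]
  have hKcop : (Nat.card K).Coprime p := ((Nat.Prime.coprime_iff_not_dvd hp).2 hK).symm
  have hS : Nat.card (S : Subgroup N) = p ^ n := by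
    rw [Sylow.card_eq_multiplicity, ← hcard]
    congr 1
    rw [Nat.factorization_mul (Nat.card_pos).ne' (pow_ne_zero _ hp.ne_zero)]
    simp [Nat.factorization_eq_zero_of_not_dvd hK, hp.factorization_self]
  apply Subgroup.isComplement'_of_coprime
  · rw [hS, hcard]
  · rw [hS]; exact Nat.Coprime.pow_right n hKcop

/-- Let p be a prime, G a finite group with Sylow p-subgroup S, and T a normal subgroup of S containing C_S(T). If N_G(T)/C_G(T) is a p-group (every element of N_G(T) of order prime to p centralizes T), then N_G(T) has a normal p-complement. -/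
theorem result {G : Type*} [Group G] [Finite G] {p : ℕ} [Fact p.Prime] (S : Sylow p G) (T : Subgroup G) (hTS : T ≤ (S : Subgroup G)) (hTn : (S : Subgroup G) ≤ Subgroup.normalizer ((T : Subgroup G) : Set G)) (hC : (S : Subgroup G) ⊓ Subgroup.centralizer ((T : Subgroup G) : Set G) ≤ T) (hN : ∀ g ∈ Subgroup.normalizer ((T : Subgroup G) : Set G), (orderOf g).Coprime p → g ∈ Subgroup.centralizer ((T : Subgroup G) : Set G)) : Cfsg.HasNormalPComplement p ↥(Subgroup.normalizer ((T : Subgroup G) : Set G)) := by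
  classical
  have hp : p.Prime := Fact.out
  -- the ambient group N = N_G(T)
  obtain ⟨NN, hNN⟩ : ∃ NN : Subgroup G, NN = Subgroup.normalizer ((T : Subgroup G) : Set G) := ⟨_, rfl⟩
  rw [← hNN] at hTn hN ⊢
  have hnorm : ∀ n ∈ NN, ∀ t, t ∈ T ↔ n * t * n⁻¹ ∈ T := by
    intro n hn
    rw [hNN] at hn
    exact Subgroup.mem_normalizer_iff.1 hn
  -- centralizer as a subgroup of N
  let Cn : Subgroup NN := (Subgroup.centralizer ((T : Subgroup G) : Set G)).subgroupOf NN
  have hCn_mem : ∀ x : NN, x ∈ Cn ↔ ∀ t ∈ T, t * (x : G) = (x : G) * t := by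
    intro x
    show (x : G) ∈ Subgroup.centralizer ((T : Subgroup G) : Set G) ↔ _
    rw [Subgroup.mem_centralizer_iff]
    rfl
  have hCn_conj : ∀ (n x : NN), x ∈ Cn → n * x * n⁻¹ ∈ Cn := by
    intro n x hx
    rw [hCn_mem] at hx ⊢
    intro t ht
    have h1 : (n : G)⁻¹ * t * ((n : G)⁻¹)⁻¹ ∈ T := (hnorm _ (NN.inv_mem n.2) t).1 ht
    have h2 := hx _ h1
    simp only [Subgroup.coe_mul, Subgroup.coe_inv]
    have h3 : t = (n : G) * ((n : G)⁻¹ * t * ((n : G)⁻¹)⁻¹) * (n : G)⁻¹ := by group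
    calc t * ((n : G) * (x : G) * (n : G)⁻¹)
        = (n : G) * (((n : G)⁻¹ * t * ((n : G)⁻¹)⁻¹) * (x : G)) * (n : G)⁻¹ := by group
      _ = (n : G) * ((x : G) * ((n : G)⁻¹ * t * ((n : G)⁻¹)⁻¹)) * (n : G)⁻¹ := by rw [h2]
      _ = (n : G) * (x : G) * (n : G)⁻¹ * t := by group
  let Sn : Sylow p NN := S.subtype hTn
  have hSn_mem : ∀ x : NN, x ∈ (Sn : Subgroup NN) ↔ (x : G) ∈ (S : Subgroup G) := by
    intro x
    show x ∈ ((S.subtype hTn : Sylow p NN) : Subgroup NN) ↔ _
    rw [Sylow.coe_subtype, Subgroup.mem_subgroupOf]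
  -- a Sylow p-subgroup of Cn
  let P : Sylow p Cn := default
  -- elements of P lie in T
  have hPT : ∀ x : Cn, x ∈ (P : Subgroup Cn) → ((x : NN) : G) ∈ T := by
    intro x hx
    have hPg : IsPGroup p ((P : Subgroup Cn).map Cn.subtype) := P.2.map _
    obtain ⟨Q, hQ⟩ := hPg.exists_le_sylow
    obtain ⟨n, hn⟩ := MulAction.exists_smul_eq NN Q Sn
    have hxQ : (x : NN) ∈ (Q : Subgroup NN) := hQ ⟨x, hx, rfl⟩
    have h1 : n * (x : NN) * n⁻¹ ∈ (Sn : Subgroup NN) := by
      rw [← hn]; exact conj_mem_smul_sylow Q n _ hxQ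
    have h2 : n * (x : NN) * n⁻¹ ∈ Cn := hCn_conj n _ x.2
    have h3 : ((n * (x : NN) * n⁻¹ : NN) : G) ∈ T := by
      apply hC
      refine ⟨(hSn_mem _).1 h1, ?_⟩
      exact h2
    have h4 := (hnorm _ (NN.inv_mem n.2) _).1 h3
    have h5 : (n : G)⁻¹ * ((n * (x : NN) * n⁻¹ : NN) : G) * ((n : G)⁻¹)⁻¹ = ((x : NN) : G) := by
      simp only [Subgroup.coe_mul, Subgroup.coe_inv]; group
    rwa [h5] at h4
  have hPcent : ∀ x : Cn, x ∈ (P : Subgroup Cn) → ∀ c : Cn, x * c = c * x := by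
    intro x hx c
    have h1 := (hCn_mem (c : NN)).1 c.2 _ (hPT x hx)
    apply Subtype.ext; apply Subtype.ext
    simpa using h1
  have hP : Subgroup.normalizer ((P : Subgroup Cn) : Set Cn) ≤ Subgroup.centralizer ((P : Subgroup Cn) : Set Cn) := by
    intro c _
    rw [Subgroup.mem_centralizer_iff]
    intro x hx
    exact hPcent x hx c
  have hcompl := MonoidHom.ker_transferSylow_isComplement' P hP
  obtain ⟨K0, hK0⟩ : ∃ K0 : Subgroup Cn, K0 = (MonoidHom.transferSylow P hP).ker := ⟨_, rfl⟩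
  rw [← hK0] at hcompl
  have hK0card : ¬ p ∣ Nat.card K0 := by
    rw [← hcompl.index_eq_card]
    exact Sylow.not_dvd_index P
  have hK0el : ∀ x : Cn, (orderOf x).Coprime p → x ∈ K0 := by
    intro x hx
    rw [hK0, MonoidHom.mem_ker]
    have h1 : orderOf (MonoidHom.transferSylow P hP x) ∣ orderOf x := orderOf_map_dvd _ x
    obtain ⟨k, hk⟩ := (IsPGroup.iff_orderOf.1 P.2) (MonoidHom.transferSylow P hP x)
    have h2 : (p ^ k).Coprime p → k = 0 := by
      intro h
      by_contra hk0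
      have : p ∣ Nat.gcd (p ^ k) p := Nat.dvd_gcd (dvd_pow_self p hk0) dvd_rfl
      rw [h] at this
      exact hp.one_lt.ne' (Nat.dvd_one.1 this)
    have h3 : k = 0 := h2 (hk ▸ Nat.Coprime.coprime_dvd_left h1 hx)
    rw [h3, pow_zero, orderOf_eq_one_iff] at hk
    exact hk
  -- the normal complement in NN
  let K : Subgroup NN := K0.map Cn.subtype
  have hKnormal : K.Normal := by
    constructor
    intro y hy n
    obtain ⟨x, hx, rfl⟩ := hy
    have h1 : n * (x : NN) * n⁻¹ ∈ Cn := hCn_conj n _ x.2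
    refine ⟨⟨_, h1⟩, ?_, rfl⟩
    apply hK0el
    have h2 : orderOf (⟨n * (x : NN) * n⁻¹, h1⟩ : Cn) = orderOf x := by
      rw [← Subgroup.orderOf_coe, ← Subgroup.orderOf_coe x]
      exact (MulAut.conj n).orderOf_eq (x : NN)
    rw [h2]
    have h3 : orderOf x ∣ Nat.card K0 := Subgroup.orderOf_dvd_natCard K0 hx
    exact Nat.Coprime.coprime_dvd_left h3 ((Nat.Prime.coprime_iff_not_dvd hp).2 hK0card).symm
  have hKcard : ¬ p ∣ Nat.card K := by
    have : Nat.card K = Nat.card K0 := Subgroup.card_map_of_injective (Subgroup.subtype_injective _)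
    rw [this]; exact hK0card
  have hKel : ∀ g : NN, (orderOf g).Coprime p → g ∈ K := by
    intro g hg
    have h1 : (g : G) ∈ Subgroup.centralizer ((T : Subgroup G) : Set G) := by
      apply hN _ g.2
      rwa [Subgroup.orderOf_coe]
    have h2 : g ∈ Cn := h1
    refine ⟨⟨g, h2⟩, ?_, rfl⟩
    apply hK0el
    rw [← Subgroup.orderOf_coe]
    exact hg
  exact ⟨Sn, K, hKnormal, complement_of_pprime_elts K hKcard hKel Sn⟩

end Cfsg.Agent.S2007
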