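import Cfsg.Statements.S2008
-- import your own Cfsg.Agent.* helpers here

set_option autoImplicit false
open Cfsg

namespace Cfsg.Agent.S2008

theorem exists_third {H : Type*} [Group H] [Finite H] (z : H) (E : Subgroup H)
    (hE : IsKleinFour ↥E) : ∃ e ∈ E, e ≠ 1 ∧ e ≠ z := by
  classical
  have : Fintype E := Fintype.ofFinite _
  have h4 : Fintype.card E = 4 := by
    rw [← Nat.card_eq_fintype_card]; exact hE.card_four
  have h2 : 2 < Fintype.card E := by omega
  obtain ⟨a, b, c, hab, hac, hbc⟩ := Fintype.two_lt_card_iff.mp h2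
  by_contra hcon
  push Not at hcon
  have key : ∀ x : E, (x : H) = 1 ∨ (x : H) = z := by
    intro x
    by_cases h1 : (x : H) = 1
    · exact Or.inl h1
    · exact Or.inr (hcon x x.2 h1)
  have ha := key a
  have hb := key b
  have hc := key c
  have hab' : (a : H) ≠ b := fun h => hab (Subtype.ext h)
  have hac' : (a : H) ≠ c := fun h => hac (Subtype.ext h)
  have hbc' : (b : H) ≠ c := fun h => hbc (Subtype.ext h)
  rcases ha with ha | ha <;> rcases hb with hb | hb <;> rcases hc with hc | hc <;>
    simp_all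

theorem inverts {H : Type*} [Group H] [Finite H] (z : H) (hz : orderOf z = 2)
    (N : Subgroup H) [hNn : N.Normal] (hN : N ⊓ Subgroup.centralizer ({z} : Set H) = ⊥)
    (e : H) (he : IsConj z e) :
    MonoidHom.FixedPointFree (MulAut.conjNormal e : MulAut N) ∧
      Function.Involutive (MulAut.conjNormal e : MulAut N) := by
  obtain ⟨c, hc⟩ := isConj_iff.mp he
  have hz2 : z ^ 2 = 1 := by rw [← hz]; exact pow_orderOf_eq_one z
  have he2 : e * e = 1 := by
    rw [← hc]
    calc c * z * c⁻¹ * (c * z * c⁻¹) = c * (z * z) * c⁻¹ := by group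
      _ = 1 := by rw [← sq, hz2]; group
  constructor
  · intro n hn
    have hn' : e * (n : H) * e⁻¹ = n := by
      have h := congrArg Subtype.val hn
      rw [MulAut.conjNormal_apply] at h
      exact h
    have hmem : c⁻¹ * (n : H) * c ∈ N ⊓ Subgroup.centralizer ({z} : Set H) := by
      refine Subgroup.mem_inf.mpr ⟨?_, ?_⟩
      · have := hNn.conj_mem (n : H) n.2 c⁻¹
        simpa using this
      · rw [Subgroup.mem_centralizer_singleton_iff]
        rw [← hc] at hn'
        calc c⁻¹ * (n : H) * c * z = c⁻¹ * ((n : H) * (c * z * c⁻¹)) * c := by group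
          _ = c⁻¹ * ((c * z * c⁻¹ * (n : H) * (c * z * c⁻¹)⁻¹) * (c * z * c⁻¹)) * c := by rw [hn']
          _ = z * (c⁻¹ * (n : H) * c) := by group
    rw [hN, Subgroup.mem_bot] at hmem
    have : (n : H) = 1 := by
      calc (n : H) = c * (c⁻¹ * (n : H) * c) * c⁻¹ := by group
        _ = 1 := by rw [hmem]; group
    exact Subtype.ext this
  · intro n
    apply Subtype.ext
    simp only [MulAut.conjNormal_apply]
    have he' : e⁻¹ = e := inv_eq_of_mul_eq_one_left he2
    rw [he']
    calc e * (e * (n : H) * e) * e = (e * e) * (n : H) * (e * e) := by group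
      _ = n := by rw [he2]; group

theorem core {H : Type*} [Group H] [Finite H] (z : H) (hz : orderOf z = 2)
    (hN : ∀ N : Subgroup H, N.Normal → N ≠ ⊤ → N ⊓ Subgroup.centralizer ({z} : Set H) = ⊥)
    (E : Subgroup H) (hE : IsKleinFour ↥E) (hzE : z ∈ E) (hc : ∀ e ∈ E, e ≠ 1 → IsConj z e)
    (N : Subgroup H) [hNn : N.Normal] (hNtop : N ≠ ⊤) : N = ⊥ := by
  have hz1 : z ≠ 1 := by
    intro h; rw [h, orderOf_one] at hz; omega
  have hz2 : z ^ 2 = 1 := by rw [← hz]; exact pow_orderOf_eq_one z
  obtain ⟨e, heE, he1, hez⟩ := exists_third z E hE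
  have hze1 : z * e ≠ 1 := by
    intro h
    apply hez
    have : e = z⁻¹ := (inv_eq_of_mul_eq_one_right h).symm
    rw [this]
    exact inv_eq_of_mul_eq_one_left (by rw [← sq]; exact hz2)
  have hNz := hN N hNn hNtop
  have inv_z := inverts z hz N hNz z (hc z hzE hz1)
  have inv_e := inverts z hz N hNz e (hc e heE he1)
  have inv_ze := inverts z hz N hNz (z * e) (hc (z * e) (E.mul_mem hzE heE) hze1)
  have k1 := MonoidHom.FixedPointFree.coe_eq_inv_of_involutive inv_z.1 inv_z.2
  have k2 := MonoidHom.FixedPointFree.coe_eq_inv_of_involutive inv_e.1 inv_e.2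
  have k3 := MonoidHom.FixedPointFree.coe_eq_inv_of_involutive inv_ze.1 inv_ze.2
  rw [eq_bot_iff]
  intro n hn
  rw [Subgroup.mem_bot]
  have a1 : ∀ m : N, z * (m : H) * z⁻¹ = (m : H)⁻¹ := by
    intro m
    have h := congrArg Subtype.val (congrFun k1 m)
    rw [MulAut.conjNormal_apply] at h
    exact h
  have a2 : ∀ m : N, e * (m : H) * e⁻¹ = (m : H)⁻¹ := by
    intro m
    have h := congrArg Subtype.val (congrFun k2 m)
    rw [MulAut.conjNormal_apply] at h
    exact h
  have a3 : ∀ m : N, (z * e) * (m : H) * (z * e)⁻¹ = (m : H)⁻¹ := by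
    intro m
    have h := congrArg Subtype.val (congrFun k3 m)
    rw [MulAut.conjNormal_apply] at h
    exact h
  have b1 : (z * e) * n * (z * e)⁻¹ = n := by
    calc (z * e) * n * (z * e)⁻¹ = z * (e * n * e⁻¹) * z⁻¹ := by group
      _ = z * (n⁻¹) * z⁻¹ := by rw [a2 ⟨n, hn⟩]
      _ = (n⁻¹)⁻¹ := a1 ⟨n⁻¹, N.inv_mem hn⟩
      _ = n := inv_inv n
  have b2 : n = n⁻¹ := by rw [← a3 ⟨n, hn⟩]; exact b1.symm
  have hn2 : n ^ 2 = 1 := by
    rw [sq]; nth_rewrite 1 [b2]; exact inv_mul_cancel n
  by_contra hn1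
  have hord : orderOf (⟨n, hn⟩ : N) = 2 := by
    apply orderOf_eq_prime
    · exact Subtype.ext (by simpa using hn2)
    · intro h; exact hn1 (congrArg Subtype.val h)
  exact MonoidHom.FixedPointFree.orderOf_ne_two_of_involutive inv_z.1 inv_z.2 _ hord

/-- Let H be a finite group and z an involution such that every proper normal subgroup of H meets the centralizer of z trivially, and suppose z lies in a Klein four-subgroup E of H all three of whose involutions are conjugate to z in H. Then H has no non-trivial abelian normal subgroup. -/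
theorem result {H : Type*} [Group H] [Finite H] (z : H) (hz : orderOf z = 2) (hN : ∀ N : Subgroup H, N.Normal → N ≠ ⊤ → N ⊓ Subgroup.centralizer ({z} : Set H) = ⊥) (E : Subgroup H) (hE : IsKleinFour ↥E) (hzE : z ∈ E) (hc : ∀ e ∈ E, e ≠ 1 → IsConj z e) (N : Subgroup H) [N.Normal] (hab : IsMulCommutative ↥N) : N = ⊥ := by
  by_cases hNtop : N = ⊤
  · exfalso
    obtain ⟨e, heE, he1, hez⟩ := exists_third z E hE
    obtain ⟨c, hce⟩ := isConj_iff.mp (hc e heE he1)
    have hcomm : c * z = z * c := by
      have h1 : c ∈ N := by rw [hNtop]; exact Subgroup.mem_top c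
      have h2 : z ∈ N := by rw [hNtop]; exact Subgroup.mem_top z
      have := hab.is_comm.comm (⟨c, h1⟩ : N) ⟨z, h2⟩
      exact congrArg Subtype.val this
    apply hez
    rw [← hce, hcomm]; group
  · exact core z hz hN E hE hzE hc N hNtop

end Cfsg.Agent.S2008
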