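import Cfsg.Statements.S2121
import Cfsg.Agent.Lib.helper11d.Aut17

set_option autoImplicit false
open Cfsg

namespace Cfsg.Agent.S2121

open Cfsg.Agent.Lib.helper11 Cfsg.Lie

/-- Outer automorphisms of the Chevalley groups of type G₂: over a field with q = p^f (p prime) ≥ 3 elements, the outer automorphism group of G₂(q) has order f when p ≠ 3 and 2f when p = 3 (field automorphisms, and in characteristic 3 also the exceptional graph automorphism). -/
theorem result {F : Type*} [Field F] [Fintype F] (p f : ℕ) [Fact p.Prime] [CharP F p] (hF : Fintype.card F = p ^ f) (hq : 3 ≤ p ^ f) : Nat.card (Cfsg.Out ↥(Cfsg.Lie.chevG2.group F)) = (if p = 3 then 2 * f else f) := by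
  exact out_card_G2 p f hF hq

end Cfsg.Agent.S2121
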