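import Cfsg.Statements.S2126
import Cfsg.Agent.Lib.helper25.SzOut3
import Cfsg.Agent.Lib.helper25.SzIso3

set_option autoImplicit false
open Cfsg

namespace Cfsg.Agent.S2126

/-- Outer automorphisms of the Suzuki groups: for q = 2^(2m+1) with m ≥ 1 the outer automorphism group of Sz(q) has order 2m + 1 (field automorphisms only). -/
theorem result {F : Type*} [Field F] [Fintype F] {m : ℕ} (hm : 1 ≤ m) (hF : Fintype.card F = 2 ^ (2 * m + 1)) : Nat.card (Cfsg.Out ↥(Cfsg.Lie.Sz F (2 ^ (m + 1)))) = 2 * m + 1 := by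
  have H := Cfsg.Agent.Lib.helper2.Suzuki.hyp_of_card hm hF
  have e := Cfsg.Agent.Lib.helper25.SzIso.szEquiv H
  haveI : Finite ↥(Cfsg.Lie.Sz F (2 ^ (m + 1))) := Finite.of_injective _ Subtype.val_injective
  have hc : Subgroup.center ↥(Cfsg.Lie.Sz F (2 ^ (m + 1))) = ⊥ := by
    rw [eq_bot_iff]
    intro z hz
    rw [Subgroup.mem_center_iff] at hz
    have h1 : e.symm z ∈ Subgroup.center ↥(Cfsg.Agent.Lib.helper2.Suzuki.Gs F (2 ^ (m + 1))) := by
      rw [Subgroup.mem_center_iff]
      intro x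
      have := hz (e x)
      apply e.injective
      rw [map_mul, map_mul, MulEquiv.apply_symm_apply]
      exact this
    rw [Cfsg.Agent.Lib.helper25.SzOut.center_eq_bot H, Subgroup.mem_bot] at h1
    rw [Subgroup.mem_bot]
    have h2 := congrArg e h1
    rw [MulEquiv.apply_symm_apply, map_one] at h2
    exact h2
  apply Cfsg.Agent.Lib.helper25.SzOut.card_out_of_card_aut hc
  rw [← Nat.card_congr (MulAut.congr e).toEquiv, ← Nat.card_congr e.toEquiv]
  exact Cfsg.Agent.Lib.helper25.SzOut.card_aut H (2 * m + 1) (by omega) hF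

end Cfsg.Agent.S2126
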