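import Cfsg.Statements.S2155
import Cfsg.Agent.Lib.helper11d.Rad4
import Cfsg.Agent.Lib.helper7.Local3
import Cfsg.Agent.S1027

set_option autoImplicit false
open Cfsg

namespace Cfsg.Agent.S2155
open Cfsg Cfsg.Lie Cfsg.Agent.Lib.helper11

/-- In a Chevalley group of type G₂, B₂, D₄, F₄, E₆, E₇ or E₈ over a finite field of characteristic p (for types G₂ and B₂ the field is assumed to have at least 3 elements, so that the group is simple), the generalized Fitting subgroup of every proper standard parabolic subgroup P_J is a p-group (P_J is p-constrained with trivial largest normal subgroup of order prime to p). -/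
theorem result {F : Type*} [Field F] [Fintype F] (p : ℕ) [Fact p.Prime] [CharP F p] (D : Cfsg.Lie.ChevalleyDatum) (hD : D ∈ [Cfsg.Lie.chevG2, Cfsg.Lie.chevB2, Cfsg.Lie.chevD4, Cfsg.Lie.chevF4, Cfsg.Lie.chevE6, Cfsg.Lie.chevE7, Cfsg.Lie.chevE8]) (hq : (D = Cfsg.Lie.chevG2 ∨ D = Cfsg.Lie.chevB2) → 3 ≤ Fintype.card F) (J : Set ℕ) (hJ : ∃ i, i < D.rank ∧ i ∉ J) : IsPGroup p ↥(Cfsg.generalizedFittingSubgroup ↥(D.parabolicSubgroup F J)) := by
  have hnx := nxAll_of_mem D hD
  have hc := hcert_of_mem D hD
  have htri := tri_of_mem D hD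
  have hup := upcert_of_mem D hD
  have hwt := wtcert_of_mem D hD
  have hsimp := simp_of_mem D hD
  have hcomm : CommAll F D := fun r hr s hs h1 h2 => commRel_of_mem F D hD r s hr hs h1 h2
  have hUp : IsPGroup p ↥(D.posUnipotent F) := by
    obtain ⟨n, -, hn⟩ := FiniteField.card F p
    apply IsPGroup.of_card (n := n * (D.nroots / 2))
    rw [Cfsg.Agent.S1027.result D hD, hn, ← pow_mul]
  have hPG : D.parabolicSubgroup F J ≤ D.group F := para_le_group (F := F) D hD hnx hc J
  have hPN := para_le_normalizer D hD hnx hc hup (rootLen D) hwt hsimp htri hcomm J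
  have hUU : D.unipotentRadical F J ≤ D.posUnipotent F := by
    unfold ChevalleyDatum.unipotentRadical ChevalleyDatum.posUnipotent
    apply Subgroup.closure_mono
    rintro g ⟨r, t, hr, -, hg⟩
    exact ⟨r, t, hr, hg⟩
  have hUP : D.unipotentRadical F J ≤ D.parabolicSubgroup F J :=
    hUU.trans (le_trans (le_sup_left (b := D.diagonalSubgroup F)) le_sup_left)
  apply Cfsg.Agent.Lib.helper7.fsP_of_centralizer
    (S := (((D.unipotentRadical F J).subgroupOf (D.parabolicSubgroup F J) :
      Subgroup ↥(D.parabolicSubgroup F J)) : Set ↥(D.parabolicSubgroup F J)))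
  · have hnorm : ((D.unipotentRadical F J).subgroupOf (D.parabolicSubgroup F J)).Normal := by
      constructor
      intro n hn g
      rw [Subgroup.mem_subgroupOf] at hn ⊢
      exact (Subgroup.mem_normalizer_iff.mp (hPN g.2) _).mp hn
    have hpg : IsPGroup p ↥((D.unipotentRadical F J).subgroupOf (D.parabolicSubgroup F J)) := by
      intro x
      obtain ⟨k, hk⟩ := hUp ⟨x.1.1, hUU (Subgroup.mem_subgroupOf.mp x.2)⟩
      refine ⟨k, ?_⟩
      apply Subtype.ext
      apply Subtype.ext
      have := congrArg Subtype.val hk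
      simpa using this
    intro x hx
    exact (le_sSup (show ((D.unipotentRadical F J).subgroupOf (D.parabolicSubgroup F J)) ∈
      {N : Subgroup ↥(D.parabolicSubgroup F J) | N.Normal ∧ IsPGroup p N} from ⟨hnorm, hpg⟩)) hx
  · intro x
    have hxc : ∀ u ∈ D.unipotentRadical F J,
        (x.1.1.1 : GL D.Idx F) * u = u * (x.1.1.1 : GL D.Idx F) := by
      intro u hu
      have h1 := Subgroup.mem_centralizer_iff.mp x.1.2 ⟨u, hUP hu⟩ (Subgroup.mem_subgroupOf.mpr hu)
      exact (congrArg Subtype.val h1).symm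
    have hxU := cent_rad_le_pos D hD J hJ x.1.1.1 (hPG x.1.1.2) hxc
    obtain ⟨k, hk⟩ := hUp ⟨x.1.1.1, hxU⟩
    refine ⟨k, ?_⟩
    apply Subtype.ext
    apply Subtype.ext
    apply Subtype.ext
    have := congrArg Subtype.val hk
    simpa using this

end Cfsg.Agent.S2155
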