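import Cfsg.Statements.S2298
import Cfsg.Agent.Lib.helper12.GL2Table
-- import your own Cfsg.Agent.* helpers here

set_option autoImplicit false
open Cfsg

namespace Cfsg.Agent.S2298

open Cfsg.Agent.Lib.helper12 Cfsg.Agent.Lib.helper24


/-- Over a finite field F with q elements, every irreducible complex character of GL₂ has degree 1, q − 1, q or q + 1; and when q ≥ 3 (so that these four numbers are distinct) there are exactly q − 1 irreducible characters of degree 1, exactly q − 1 of degree q, exactly (q − 1)(q − 2)/2 of degree q + 1 and exactly q(q − 1)/2 of degree q − 1. -/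
theorem result {F : Type*} [Field F] [Fintype F] :
    (∀ χ : Matrix.GeneralLinearGroup (Fin 2) F → ℂ, Cfsg.IsIrrCharacter (Matrix.GeneralLinearGroup (Fin 2) F) χ →
      χ 1 = 1 ∨ χ 1 = (Fintype.card F : ℂ) - 1 ∨ χ 1 = (Fintype.card F : ℂ) ∨ χ 1 = (Fintype.card F : ℂ) + 1) ∧
    (3 ≤ Fintype.card F →
      Nat.card {χ : Cfsg.IrrCharacter (Matrix.GeneralLinearGroup (Fin 2) F) // (χ : Matrix.GeneralLinearGroup (Fin 2) F → ℂ) 1 = 1} = Fintype.card F - 1 ∧
      Nat.card {χ : Cfsg.IrrCharacter (Matrix.GeneralLinearGroup (Fin 2) F) // (χ : Matrix.GeneralLinearGroup (Fin 2) F → ℂ) 1 = (Fintype.card F : ℂ)} = Fintype.card F - 1 ∧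
      Nat.card {χ : Cfsg.IrrCharacter (Matrix.GeneralLinearGroup (Fin 2) F) // (χ : Matrix.GeneralLinearGroup (Fin 2) F → ℂ) 1 = (Fintype.card F : ℂ) + 1} = (Fintype.card F - 1) * (Fintype.card F - 2) / 2 ∧
      Nat.card {χ : Cfsg.IrrCharacter (Matrix.GeneralLinearGroup (Fin 2) F) // (χ : Matrix.GeneralLinearGroup (Fin 2) F → ℂ) 1 = (Fintype.card F : ℂ) - 1} = Fintype.card F * (Fintype.card F - 1) / 2) := by
  classical
  have hq2 : (2 : ℕ) ≤ Fintype.card F := Fintype.one_lt_card
  refine ⟨?_, ?_⟩
  · intro χ hχ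
    rcases GL2_irr_classify ⟨χ, hχ⟩ with ⟨α, h⟩ | ⟨α, h⟩ | ⟨α, β, hne, h⟩ | ⟨hc, h1, _⟩
    · left
      simp only at h
      rw [h, lamGL_apply_one]
    · right; right; left
      simp only at h
      rw [h, stGL_apply_one]
    · right; right; right
      simp only at h
      rw [h, RGL_apply_one]
    · right; left
      exact h1
  · intro hq
    have e0 : (Fintype.card F : ℂ) ≠ 0 := by
      exact_mod_cast (by omega : Fintype.card F ≠ 0)
    have e1 : (Fintype.card F : ℂ) ≠ 1 := by
      exact_mod_cast (by omega : Fintype.card F ≠ 1)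
    have e2 : (Fintype.card F : ℂ) ≠ 2 := by
      exact_mod_cast (by omega : Fintype.card F ≠ 2)
    have c1 := GL2_count_degree (F := F) (1 : ℂ)
    have c2 := GL2_count_degree (F := F) (Fintype.card F : ℂ)
    have c3 := GL2_count_degree (F := F) ((Fintype.card F : ℂ) + 1)
    have c4 := GL2_count_degree (F := F) ((Fintype.card F : ℂ) - 1)
    have n1 : ¬ ((Fintype.card F : ℂ) = 1) := e1
    have n2 : ¬ ((Fintype.card F : ℂ) + 1 = 1) := fun h => e0 (by linear_combination h)
    have n3 : ¬ ((Fintype.card F : ℂ) - 1 = 1) := fun h => e2 (by linear_combination h)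
    have n4 : ¬ ((1 : ℂ) = (Fintype.card F : ℂ)) := fun h => e1 h.symm
    have n5 : ¬ ((Fintype.card F : ℂ) + 1 = (Fintype.card F : ℂ)) := fun h => one_ne_zero (by linear_combination h)
    have n6 : ¬ ((Fintype.card F : ℂ) - 1 = (Fintype.card F : ℂ)) := fun h => one_ne_zero (by linear_combination -h)
    have n7 : ¬ ((1 : ℂ) = (Fintype.card F : ℂ) + 1) := fun h => e0 (by linear_combination -h)
    have n8 : ¬ ((Fintype.card F : ℂ) = (Fintype.card F : ℂ) + 1) := fun h => one_ne_zero (by linear_combination -h)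
    have n9 : ¬ ((Fintype.card F : ℂ) - 1 = (Fintype.card F : ℂ) + 1) := fun h => (two_ne_zero : (2 : ℂ) ≠ 0) (by linear_combination -h)
    have n10 : ¬ ((1 : ℂ) = (Fintype.card F : ℂ) - 1) := fun h => e2 (by linear_combination -h)
    have n11 : ¬ ((Fintype.card F : ℂ) = (Fintype.card F : ℂ) - 1) := fun h => one_ne_zero (by linear_combination h)
    have n12 : ¬ ((Fintype.card F : ℂ) + 1 = (Fintype.card F : ℂ) - 1) := fun h => (two_ne_zero : (2 : ℂ) ≠ 0) (by linear_combination h)
    rw [if_pos rfl, if_neg n1, if_neg n2, if_neg n3] at c1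
    rw [if_neg n4, if_pos rfl, if_neg n5, if_neg n6] at c2
    rw [if_neg n7, if_neg n8, if_pos rfl, if_neg n9] at c3
    rw [if_neg n10, if_neg n11, if_neg n12, if_pos rfl] at c4
    have d1 : (2 : ℕ) ∣ (Fintype.card F - 1) * (Fintype.card F - 2) := by
      have h := Nat.even_mul_succ_self (Fintype.card F - 2)
      have e : Fintype.card F - 2 + 1 = Fintype.card F - 1 := by omega
      rw [e, mul_comm] at h
      exact h.two_dvd
    have d2 : (2 : ℕ) ∣ Fintype.card F * (Fintype.card F - 1) := by
      have h := Nat.even_mul_succ_self (Fintype.card F - 1)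
      have e : Fintype.card F - 1 + 1 = Fintype.card F := by omega
      rw [e, mul_comm] at h
      exact h.two_dvd
    refine ⟨?_, ?_, ?_, ?_⟩
    · apply Nat.cast_injective (R := ℂ)
      rw [c1, Nat.cast_sub (by omega)]
      push_cast
      ring
    · apply Nat.cast_injective (R := ℂ)
      rw [c2, Nat.cast_sub (by omega)]
      push_cast
      ring
    · apply Nat.cast_injective (R := ℂ)
      rw [c3, Nat.cast_div d1 (by norm_num), Nat.cast_mul, Nat.cast_sub (by omega), Nat.cast_sub (by omega)]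
      push_cast
      ring
    · apply Nat.cast_injective (R := ℂ)
      rw [c4, Nat.cast_div d2 (by norm_num), Nat.cast_mul, Nat.cast_sub (by omega)]
      push_cast
      ring

end Cfsg.Agent.S2298
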