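import Cfsg.Statements.S2299
import Cfsg.Agent.Lib.helper12.SL2Odd3
-- import your own Cfsg.Agent.* helpers here

set_option autoImplicit false
open Cfsg

namespace Cfsg.Agent.S2299

open Cfsg.Agent.Lib.helper12 Cfsg.Agent.Lib.helper24
open scoped MatrixGroups

/-- Over a finite field F with q elements, q odd, every irreducible complex character of SL₂ has degree 1, q, q + 1, q − 1, (q + 1)/2 or (q − 1)/2; and when q ≥ 5 (so that these six numbers are distinct) there are exactly one irreducible character of degree 1, one of degree q, (q − 3)/2 of degree q + 1, (q − 1)/2 of degree q − 1, two of degree (q + 1)/2 and two of degree (q − 1)/2. -/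
theorem result {F : Type*} [Field F] [Fintype F] (hodd : Odd (Fintype.card F)) :
    (∀ χ : Matrix.SpecialLinearGroup (Fin 2) F → ℂ, Cfsg.IsIrrCharacter (Matrix.SpecialLinearGroup (Fin 2) F) χ →
      χ 1 = 1 ∨ χ 1 = (Fintype.card F : ℂ) ∨ χ 1 = (Fintype.card F : ℂ) + 1 ∨ χ 1 = (Fintype.card F : ℂ) - 1 ∨
        χ 1 = (((Fintype.card F + 1) / 2 : ℕ) : ℂ) ∨ χ 1 = (((Fintype.card F - 1) / 2 : ℕ) : ℂ)) ∧
    (5 ≤ Fintype.card F →
      Nat.card {χ : Cfsg.IrrCharacter (Matrix.SpecialLinearGroup (Fin 2) F) // (χ : Matrix.SpecialLinearGroup (Fin 2) F → ℂ) 1 = 1} = 1 ∧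
      Nat.card {χ : Cfsg.IrrCharacter (Matrix.SpecialLinearGroup (Fin 2) F) // (χ : Matrix.SpecialLinearGroup (Fin 2) F → ℂ) 1 = (Fintype.card F : ℂ)} = 1 ∧
      Nat.card {χ : Cfsg.IrrCharacter (Matrix.SpecialLinearGroup (Fin 2) F) // (χ : Matrix.SpecialLinearGroup (Fin 2) F → ℂ) 1 = (Fintype.card F : ℂ) + 1} = (Fintype.card F - 3) / 2 ∧
      Nat.card {χ : Cfsg.IrrCharacter (Matrix.SpecialLinearGroup (Fin 2) F) // (χ : Matrix.SpecialLinearGroup (Fin 2) F → ℂ) 1 = (Fintype.card F : ℂ) - 1} = (Fintype.card F - 1) / 2 ∧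
      Nat.card {χ : Cfsg.IrrCharacter (Matrix.SpecialLinearGroup (Fin 2) F) // (χ : Matrix.SpecialLinearGroup (Fin 2) F → ℂ) 1 = (((Fintype.card F + 1) / 2 : ℕ) : ℂ)} = 2 ∧
      Nat.card {χ : Cfsg.IrrCharacter (Matrix.SpecialLinearGroup (Fin 2) F) // (χ : Matrix.SpecialLinearGroup (Fin 2) F → ℂ) 1 = (((Fintype.card F - 1) / 2 : ℕ) : ℂ)} = 2) := by
  classical
  have hodd' : Fintype.card F % 2 = 1 := Nat.odd_iff.mp hodd
  have hq2 : (2 : ℕ) ≤ Fintype.card F := Fintype.one_lt_card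
  have hh1 : (((Fintype.card F + 1) / 2 : ℕ) : ℂ) = ((Fintype.card F : ℂ) + 1) / 2 := by
    have hd : (2 : ℕ) ∣ Fintype.card F + 1 := by omega
    rw [Nat.cast_div hd (by norm_num)]
    push_cast
    ring
  have hh2 : (((Fintype.card F - 1) / 2 : ℕ) : ℂ) = ((Fintype.card F : ℂ) - 1) / 2 := by
    have hd : (2 : ℕ) ∣ Fintype.card F - 1 := by omega
    rw [Nat.cast_div hd (by norm_num), Nat.cast_sub (by omega)]
    push_cast
    ring
  rw [hh1, hh2]
  obtain ⟨α₀, ν, ψ, hα, hα1, hν, hψ⟩ := SL2_odd_setup hodd'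
  obtain ⟨ξ₁, ξ₂, hne, hξ⟩ := exists_two_irr_of_norm_two (RSL_isCharacter α₀) (RSL_norm_two hα)
  obtain ⟨dx1, dx2⟩ := SL2_xi_degree hα hα1 hν hψ hne hξ
  refine ⟨?_, ?_⟩
  · intro χ hχ
    rcases SL2_irr_classify_odd hα hα1 hν hψ hξ ⟨χ, hχ⟩ with h | h | ⟨α, hα', h⟩ | h | h |
      ⟨hc, h0, h1, hm⟩ | ⟨hc, h0, hA⟩
    · left
      simp only at h
      rw [h]
      rfl
    · right; left
      simp only at h
      rw [h, stSL_apply_one]
    · right; right; left
      simp only at h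
      rw [h, RSL_apply_one]
    · right; right; right; right; left
      have e : χ = ξ₁.1 := congrArg Subtype.val h
      rw [e]
      linear_combination (1 / 2 : ℂ) * dx1
    · right; right; right; right; left
      have e : χ = ξ₂.1 := congrArg Subtype.val h
      rw [e]
      linear_combination (1 / 2 : ℂ) * dx2
    · right; right; right; left
      exact (SL2_U_full hα hα1 hν hψ (isCharacter_of_isIrrCharacter hχ) h0 h1 hm).1
    · right; right; right; right; right
      obtain ⟨d, -⟩ := SL2_U_half hα hα1 hν hψ (isCharacter_of_isIrrCharacter hχ) hA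
      simp only at h0
      rw [h0] at d
      push_cast at d
      linear_combination (1 / 2 : ℂ) * d
  · intro hq
    have e0 : (Fintype.card F : ℂ) ≠ 0 := by
      exact_mod_cast (by omega : Fintype.card F ≠ 0)
    have e1 : (Fintype.card F : ℂ) ≠ 1 := by
      exact_mod_cast (by omega : Fintype.card F ≠ 1)
    have e2 : (Fintype.card F : ℂ) ≠ 2 := by
      exact_mod_cast (by omega : Fintype.card F ≠ 2)
    have e3 : (Fintype.card F : ℂ) ≠ 3 := by
      exact_mod_cast (by omega : Fintype.card F ≠ 3)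
    have em1 : (Fintype.card F : ℂ) ≠ -1 := by
      intro h
      have h' : ((Fintype.card F + 1 : ℕ) : ℂ) = 0 := by
        push_cast
        linear_combination h
      have : Fintype.card F + 1 = 0 := by exact_mod_cast h'
      omega
    have em3 : (Fintype.card F : ℂ) ≠ -3 := by
      intro h
      have h' : ((Fintype.card F + 3 : ℕ) : ℂ) = 0 := by
        push_cast
        linear_combination h
      have : Fintype.card F + 3 = 0 := by exact_mod_cast h'
      omega
    have n_v1_vq : ¬ ((1 : ℂ) = (Fintype.card F : ℂ)) := fun h => e1 (by linear_combination (-1 : ℂ) * h)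
    have n_v1_vp : ¬ ((1 : ℂ) = (Fintype.card F : ℂ) + 1) := fun h => e0 (by linear_combination (-1 : ℂ) * h)
    have n_v1_vhp : ¬ ((1 : ℂ) = ((Fintype.card F : ℂ) + 1) / 2) := fun h => e1 (by linear_combination (-2 : ℂ) * h)
    have n_v1_vm : ¬ ((1 : ℂ) = (Fintype.card F : ℂ) - 1) := fun h => e2 (by linear_combination (-1 : ℂ) * h)
    have n_v1_vhm : ¬ ((1 : ℂ) = ((Fintype.card F : ℂ) - 1) / 2) := fun h => e3 (by linear_combination (-2 : ℂ) * h)
    have n_vq_v1 : ¬ ((Fintype.card F : ℂ) = (1 : ℂ)) := fun h => e1 (by linear_combination (1 : ℂ) * h)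
    have n_vq_vp : ¬ ((Fintype.card F : ℂ) = (Fintype.card F : ℂ) + 1) := fun h => (one_ne_zero : (1 : ℂ) ≠ 0) (by linear_combination (-1 : ℂ) * h)
    have n_vq_vhp : ¬ ((Fintype.card F : ℂ) = ((Fintype.card F : ℂ) + 1) / 2) := fun h => e1 (by linear_combination (2 : ℂ) * h)
    have n_vq_vm : ¬ ((Fintype.card F : ℂ) = (Fintype.card F : ℂ) - 1) := fun h => (one_ne_zero : (1 : ℂ) ≠ 0) (by linear_combination (1 : ℂ) * h)
    have n_vq_vhm : ¬ ((Fintype.card F : ℂ) = ((Fintype.card F : ℂ) - 1) / 2) := fun h => em1 (by linear_combination (2 : ℂ) * h)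
    have n_vp_v1 : ¬ ((Fintype.card F : ℂ) + 1 = (1 : ℂ)) := fun h => e0 (by linear_combination (1 : ℂ) * h)
    have n_vp_vq : ¬ ((Fintype.card F : ℂ) + 1 = (Fintype.card F : ℂ)) := fun h => (one_ne_zero : (1 : ℂ) ≠ 0) (by linear_combination (1 : ℂ) * h)
    have n_vp_vhp : ¬ ((Fintype.card F : ℂ) + 1 = ((Fintype.card F : ℂ) + 1) / 2) := fun h => em1 (by linear_combination (2 : ℂ) * h)
    have n_vp_vm : ¬ ((Fintype.card F : ℂ) + 1 = (Fintype.card F : ℂ) - 1) := fun h => (one_ne_zero : (1 : ℂ) ≠ 0) (by linear_combination (1 / 2 : ℂ) * h)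
    have n_vp_vhm : ¬ ((Fintype.card F : ℂ) + 1 = ((Fintype.card F : ℂ) - 1) / 2) := fun h => em3 (by linear_combination (2 : ℂ) * h)
    have n_vhp_v1 : ¬ (((Fintype.card F : ℂ) + 1) / 2 = (1 : ℂ)) := fun h => e1 (by linear_combination (2 : ℂ) * h)
    have n_vhp_vq : ¬ (((Fintype.card F : ℂ) + 1) / 2 = (Fintype.card F : ℂ)) := fun h => e1 (by linear_combination (-2 : ℂ) * h)
    have n_vhp_vp : ¬ (((Fintype.card F : ℂ) + 1) / 2 = (Fintype.card F : ℂ) + 1) := fun h => em1 (by linear_combination (-2 : ℂ) * h)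
    have n_vhp_vm : ¬ (((Fintype.card F : ℂ) + 1) / 2 = (Fintype.card F : ℂ) - 1) := fun h => e3 (by linear_combination (-2 : ℂ) * h)
    have n_vhp_vhm : ¬ (((Fintype.card F : ℂ) + 1) / 2 = ((Fintype.card F : ℂ) - 1) / 2) := fun h => (one_ne_zero : (1 : ℂ) ≠ 0) (by linear_combination (1 : ℂ) * h)
    have n_vm_v1 : ¬ ((Fintype.card F : ℂ) - 1 = (1 : ℂ)) := fun h => e2 (by linear_combination (1 : ℂ) * h)
    have n_vm_vq : ¬ ((Fintype.card F : ℂ) - 1 = (Fintype.card F : ℂ)) := fun h => (one_ne_zero : (1 : ℂ) ≠ 0) (by linear_combination (-1 : ℂ) * h)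
    have n_vm_vp : ¬ ((Fintype.card F : ℂ) - 1 = (Fintype.card F : ℂ) + 1) := fun h => (one_ne_zero : (1 : ℂ) ≠ 0) (by linear_combination (-1 / 2 : ℂ) * h)
    have n_vm_vhp : ¬ ((Fintype.card F : ℂ) - 1 = ((Fintype.card F : ℂ) + 1) / 2) := fun h => e3 (by linear_combination (2 : ℂ) * h)
    have n_vm_vhm : ¬ ((Fintype.card F : ℂ) - 1 = ((Fintype.card F : ℂ) - 1) / 2) := fun h => e1 (by linear_combination (2 : ℂ) * h)
    have n_vhm_v1 : ¬ (((Fintype.card F : ℂ) - 1) / 2 = (1 : ℂ)) := fun h => e3 (by linear_combination (2 : ℂ) * h)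
    have n_vhm_vq : ¬ (((Fintype.card F : ℂ) - 1) / 2 = (Fintype.card F : ℂ)) := fun h => em1 (by linear_combination (-2 : ℂ) * h)
    have n_vhm_vp : ¬ (((Fintype.card F : ℂ) - 1) / 2 = (Fintype.card F : ℂ) + 1) := fun h => em3 (by linear_combination (-2 : ℂ) * h)
    have n_vhm_vhp : ¬ (((Fintype.card F : ℂ) - 1) / 2 = ((Fintype.card F : ℂ) + 1) / 2) := fun h => (one_ne_zero : (1 : ℂ) ≠ 0) (by linear_combination (-1 : ℂ) * h)
    have n_vhm_vm : ¬ (((Fintype.card F : ℂ) - 1) / 2 = (Fintype.card F : ℂ) - 1) := fun h => e1 (by linear_combination (-2 : ℂ) * h)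
    have c_v1 := SL2_count_degree_odd hodd' ((1 : ℂ))
    rw [if_pos rfl, if_neg n_vq_v1, if_neg n_vp_v1, if_neg n_vhp_v1, if_neg n_vm_v1, if_neg n_vhm_v1] at c_v1
    have c_vq := SL2_count_degree_odd hodd' ((Fintype.card F : ℂ))
    rw [if_neg n_v1_vq, if_pos rfl, if_neg n_vp_vq, if_neg n_vhp_vq, if_neg n_vm_vq, if_neg n_vhm_vq] at c_vq
    have c_vp := SL2_count_degree_odd hodd' ((Fintype.card F : ℂ) + 1)
    rw [if_neg n_v1_vp, if_neg n_vq_vp, if_pos rfl, if_neg n_vhp_vp, if_neg n_vm_vp, if_neg n_vhm_vp] at c_vp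
    have c_vhp := SL2_count_degree_odd hodd' (((Fintype.card F : ℂ) + 1) / 2)
    rw [if_neg n_v1_vhp, if_neg n_vq_vhp, if_neg n_vp_vhp, if_pos rfl, if_neg n_vm_vhp, if_neg n_vhm_vhp] at c_vhp
    have c_vm := SL2_count_degree_odd hodd' ((Fintype.card F : ℂ) - 1)
    rw [if_neg n_v1_vm, if_neg n_vq_vm, if_neg n_vp_vm, if_neg n_vhp_vm, if_pos rfl, if_neg n_vhm_vm] at c_vm
    have c_vhm := SL2_count_degree_odd hodd' (((Fintype.card F : ℂ) - 1) / 2)
    rw [if_neg n_v1_vhm, if_neg n_vq_vhm, if_neg n_vp_vhm, if_neg n_vhp_vhm, if_neg n_vm_vhm, if_pos rfl] at c_vhm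
    refine ⟨?_, ?_, ?_, ?_, ?_, ?_⟩
    · have : (Nat.card {χ : Cfsg.IrrCharacter SL(2, F) // χ.1 1 = 1} : ℂ) = ((1 : ℕ) : ℂ) := by
        rw [c_v1]
        push_cast
        ring
      exact_mod_cast this
    · have : (Nat.card {χ : Cfsg.IrrCharacter SL(2, F) // χ.1 1 = (Fintype.card F : ℂ)} : ℂ) =
          ((1 : ℕ) : ℂ) := by
        rw [c_vq]
        push_cast
        ring
      exact_mod_cast this
    · have hd : (2 : ℕ) ∣ Fintype.card F - 3 := by omega
      have : (Nat.card {χ : Cfsg.IrrCharacter SL(2, F) // χ.1 1 = (Fintype.card F : ℂ) + 1} : ℂ) =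
          (((Fintype.card F - 3) / 2 : ℕ) : ℂ) := by
        rw [c_vp, Nat.cast_div hd (by norm_num), Nat.cast_sub (by omega)]
        push_cast
        ring
      exact_mod_cast this
    · have hd : (2 : ℕ) ∣ Fintype.card F - 1 := by omega
      have : (Nat.card {χ : Cfsg.IrrCharacter SL(2, F) // χ.1 1 = (Fintype.card F : ℂ) - 1} : ℂ) =
          (((Fintype.card F - 1) / 2 : ℕ) : ℂ) := by
        rw [c_vm, Nat.cast_div hd (by norm_num), Nat.cast_sub (by omega)]
        push_cast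
        ring
      exact_mod_cast this
    · have : (Nat.card {χ : Cfsg.IrrCharacter SL(2, F) // χ.1 1 = ((Fintype.card F : ℂ) + 1) / 2} : ℂ) =
          ((2 : ℕ) : ℂ) := by
        rw [c_vhp]
        push_cast
        ring
      exact_mod_cast this
    · have : (Nat.card {χ : Cfsg.IrrCharacter SL(2, F) // χ.1 1 = ((Fintype.card F : ℂ) - 1) / 2} : ℂ) =
          ((2 : ℕ) : ℂ) := by
        rw [c_vhm]
        push_cast
        ring
      exact_mod_cast this

end Cfsg.Agent.S2299
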