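import Cfsg.Statements.S2300
import Cfsg.Agent.Lib.helper12.SL2Odd3
import Cfsg.Agent.Lib.helper12.SL2Even
-- import your own Cfsg.Agent.* helpers here

set_option autoImplicit false
open Cfsg

namespace Cfsg.Agent.S2300

open Cfsg.Agent.Lib.helper12 Cfsg.Agent.Lib.helper24
open scoped MatrixGroups

/-- Over a finite field F with q elements, q even, every irreducible complex character of SL₂ has degree 1, q − 1, q or q + 1; and when q ≥ 4 (so that these four numbers are distinct) there are exactly one irreducible character of degree 1, one of degree q, (q − 2)/2 of degree q + 1 and q/2 of degree q − 1. -/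
theorem result {F : Type*} [Field F] [Fintype F] [CharP F 2] :
    (∀ χ : Matrix.SpecialLinearGroup (Fin 2) F → ℂ, Cfsg.IsIrrCharacter (Matrix.SpecialLinearGroup (Fin 2) F) χ →
      χ 1 = 1 ∨ χ 1 = (Fintype.card F : ℂ) - 1 ∨ χ 1 = (Fintype.card F : ℂ) ∨ χ 1 = (Fintype.card F : ℂ) + 1) ∧
    (4 ≤ Fintype.card F →
      Nat.card {χ : Cfsg.IrrCharacter (Matrix.SpecialLinearGroup (Fin 2) F) // (χ : Matrix.SpecialLinearGroup (Fin 2) F → ℂ) 1 = 1} = 1 ∧
      Nat.card {χ : Cfsg.IrrCharacter (Matrix.SpecialLinearGroup (Fin 2) F) // (χ : Matrix.SpecialLinearGroup (Fin 2) F → ℂ) 1 = (Fintype.card F : ℂ)} = 1 ∧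
      Nat.card {χ : Cfsg.IrrCharacter (Matrix.SpecialLinearGroup (Fin 2) F) // (χ : Matrix.SpecialLinearGroup (Fin 2) F → ℂ) 1 = (Fintype.card F : ℂ) + 1} = (Fintype.card F - 2) / 2 ∧
      Nat.card {χ : Cfsg.IrrCharacter (Matrix.SpecialLinearGroup (Fin 2) F) // (χ : Matrix.SpecialLinearGroup (Fin 2) F → ℂ) 1 = (Fintype.card F : ℂ) - 1} = Fintype.card F / 2) := by
  classical
  have hF : ringChar F = 2 := ringChar.eq F 2
  have hq2 : (2 : ℕ) ≤ Fintype.card F := Fintype.one_lt_card
  have heven : Fintype.card F % 2 = 0 := FiniteField.even_card_iff_char_two.mp hF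
  refine ⟨?_, ?_⟩
  · intro χ hχ
    rcases SL2_irr_classify_deg_even hF ⟨χ, hχ⟩ with ⟨-, h⟩ | ⟨-, h⟩ | ⟨α, -, -, h⟩ | ⟨-, h, -⟩
    · exact Or.inl h
    · exact Or.inr (Or.inr (Or.inl h))
    · exact Or.inr (Or.inr (Or.inr h))
    · exact Or.inr (Or.inl h)
  · intro hq
    have e0 : (Fintype.card F : ℂ) ≠ 0 := by
      exact_mod_cast (by omega : Fintype.card F ≠ 0)
    have e1 : (Fintype.card F : ℂ) ≠ 1 := by
      exact_mod_cast (by omega : Fintype.card F ≠ 1)
    have e2 : (Fintype.card F : ℂ) ≠ 2 := by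
      exact_mod_cast (by omega : Fintype.card F ≠ 2)
    have c1 := SL2_count_degree_even hF (1 : ℂ)
    have c2 := SL2_count_degree_even hF (Fintype.card F : ℂ)
    have c3 := SL2_count_degree_even hF ((Fintype.card F : ℂ) + 1)
    have c4 := SL2_count_degree_even hF ((Fintype.card F : ℂ) - 1)
    have n1 : ¬ ((Fintype.card F : ℂ) = 1) := e1
    have n2 : ¬ ((Fintype.card F : ℂ) + 1 = 1) := fun h => e0 (by linear_combination h)
    have n3 : ¬ ((Fintype.card F : ℂ) - 1 = 1) := fun h => e2 (by linear_combination h)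
    have n4 : ¬ ((1 : ℂ) = (Fintype.card F : ℂ)) := fun h => e1 h.symm
    have n5 : ¬ ((Fintype.card F : ℂ) + 1 = (Fintype.card F : ℂ)) := fun h => one_ne_zero (by linear_combination h)
    have n6 : ¬ ((Fintype.card F : ℂ) - 1 = (Fintype.card F : ℂ)) := fun h => one_ne_zero (by linear_combination -h)
    have n7 : ¬ ((1 : ℂ) = (Fintype.card F : ℂ) + 1) := fun h => e0 (by linear_combination -h)
    have n8 : ¬ ((Fintype.card F : ℂ) = (Fintype.card F : ℂ) + 1) := fun h => one_ne_zero (by linear_combination -h)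
    have n9 : ¬ ((Fintype.card F : ℂ) - 1 = (Fintype.card F : ℂ) + 1) := fun h => (two_ne_zero : (2 : ℂ) ≠ 0) (by linear_combination -h)
    have n10 : ¬ ((1 : ℂ) = (Fintype.card F : ℂ) - 1) := fun h => e2 (by linear_combination -h)
    have n11 : ¬ ((Fintype.card F : ℂ) = (Fintype.card F : ℂ) - 1) := fun h => one_ne_zero (by linear_combination h)
    have n12 : ¬ ((Fintype.card F : ℂ) + 1 = (Fintype.card F : ℂ) - 1) := fun h => (two_ne_zero : (2 : ℂ) ≠ 0) (by linear_combination h)
    rw [if_pos rfl, if_neg n1, if_neg n2, if_neg n3] at c1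
    rw [if_neg n4, if_pos rfl, if_neg n5, if_neg n6] at c2
    rw [if_neg n7, if_neg n8, if_pos rfl, if_neg n9] at c3
    rw [if_neg n10, if_neg n11, if_neg n12, if_pos rfl] at c4
    refine ⟨?_, ?_, ?_, ?_⟩
    · have : (Nat.card {χ : Cfsg.IrrCharacter SL(2, F) // χ.1 1 = 1} : ℂ) = ((1 : ℕ) : ℂ) := by
        rw [c1]
        push_cast
        ring
      exact_mod_cast this
    · have : (Nat.card {χ : Cfsg.IrrCharacter SL(2, F) // χ.1 1 = (Fintype.card F : ℂ)} : ℂ) =
          ((1 : ℕ) : ℂ) := by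
        rw [c2]
        push_cast
        ring
      exact_mod_cast this
    · have hd : (2 : ℕ) ∣ Fintype.card F - 2 := by omega
      have : (Nat.card {χ : Cfsg.IrrCharacter SL(2, F) // χ.1 1 = (Fintype.card F : ℂ) + 1} : ℂ) =
          (((Fintype.card F - 2) / 2 : ℕ) : ℂ) := by
        rw [c3, Nat.cast_div hd (by norm_num), Nat.cast_sub (by omega)]
        push_cast
        ring
      exact_mod_cast this
    · have hd : (2 : ℕ) ∣ Fintype.card F := by omega
      have : (Nat.card {χ : Cfsg.IrrCharacter SL(2, F) // χ.1 1 = (Fintype.card F : ℂ) - 1} : ℂ) =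
          ((Fintype.card F / 2 : ℕ) : ℂ) := by
        rw [c4, Nat.cast_div hd (by norm_num)]
        push_cast
        ring
      exact_mod_cast this

end Cfsg.Agent.S2300
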