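import Cfsg.Statements.S2302
import Mathlib
import Cfsg.Agent.Lib.helper12.SL2Cent
-- import your own Cfsg.Agent.* helpers here

set_option autoImplicit false
open Cfsg

namespace Cfsg.Agent.S2302


/-- Over a finite field with q elements of characteristic 2, the involutions of SL₂ (the non-identity unipotent elements) form a single conjugacy class, of size q² − 1. -/
theorem result {F : Type*} [Field F] [Fintype F] [CharP F 2] (g h : Matrix.SpecialLinearGroup (Fin 2) F) (hg : orderOf g = 2) (hh : orderOf h = 2) :
    IsConj g h ∧ Nat.card (ConjClasses.mk g).carrier = Fintype.card F ^ 2 - 1 := by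
  exact Cfsg.Agent.Lib.helper12.SL2_char_two_involutions (ringChar.eq F 2) g h hg hh

end Cfsg.Agent.S2302
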