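import Cfsg.Statements.S2304
import Cfsg.Agent.Lib.helper12.GL2Char
-- import your own Cfsg.Agent.* helpers here

set_option autoImplicit false
open Cfsg

namespace Cfsg.Agent.S2304

open Cfsg.Agent.Lib.helper12 Cfsg.Agent.Lib.helper24


/-- Over a finite field F with q elements, for multiplicative characters α ≠ β of F, the function induced to GL₂ from the linear character b ↦ α(b₁₁) β(b₂₂) of the upper triangular subgroup B is an irreducible character (of degree q + 1). -/
theorem result {F : Type*} [Field F] [Fintype F] [DecidableEq F] (α β : MulChar F ℂ) (hαβ : α ≠ β) :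
    Cfsg.IsIrrCharacter (Matrix.GeneralLinearGroup (Fin 2) F) (Cfsg.indFun (Cfsg.upperTriangularGL 2 F) (fun b => α (((b : Matrix.GeneralLinearGroup (Fin 2) F) : Matrix (Fin 2) (Fin 2) F) 0 0) * β (((b : Matrix.GeneralLinearGroup (Fin 2) F) : Matrix (Fin 2) (Fin 2) F) 1 1))) := by
  classical
  have h1 : IsIrrCharacter (Matrix.GeneralLinearGroup (Fin 2) F)
      (indFun (Cfsg.upperTriangularGL 2 F) (borelChar α β)) := by
    apply isIrrCharacter_of_inner_self_eq_one
      (isCharacter_indFun _ (isCharacter_of_isIrrCharacter (borelChar_isIrr α β)))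
    rw [RGL_inner]
    simp [hαβ]
  exact h1

end Cfsg.Agent.S2304
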