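import Cfsg.Statements.S2305
import Cfsg.Agent.Lib.helper12.GL2Char
-- import your own Cfsg.Agent.* helpers here

set_option autoImplicit false
open Cfsg

namespace Cfsg.Agent.S2305

open Cfsg.Agent.Lib.helper12 Cfsg.Agent.Lib.helper24


/-- Over a finite field F, for multiplicative characters α, β, α′, β′ of F, the characters of GL₂ induced from the linear characters b ↦ α(b₁₁) β(b₂₂) and b ↦ α′(b₁₁) β′(b₂₂) of the upper triangular subgroup coincide exactly when {α, β} = {α′, β′} as unordered pairs. -/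
theorem result {F : Type*} [Field F] [Fintype F] [DecidableEq F] (α β α' β' : MulChar F ℂ) :
    Cfsg.indFun (Cfsg.upperTriangularGL 2 F) (fun b => α (((b : Matrix.GeneralLinearGroup (Fin 2) F) : Matrix (Fin 2) (Fin 2) F) 0 0) * β (((b : Matrix.GeneralLinearGroup (Fin 2) F) : Matrix (Fin 2) (Fin 2) F) 1 1)) = Cfsg.indFun (Cfsg.upperTriangularGL 2 F) (fun b => α' (((b : Matrix.GeneralLinearGroup (Fin 2) F) : Matrix (Fin 2) (Fin 2) F) 0 0) * β' (((b : Matrix.GeneralLinearGroup (Fin 2) F) : Matrix (Fin 2) (Fin 2) F) 1 1)) ↔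
      (α = α' ∧ β = β') ∨ (α = β' ∧ β = α') := by
  classical
  show indFun (Cfsg.upperTriangularGL 2 F) (borelChar α β) =
    indFun (Cfsg.upperTriangularGL 2 F) (borelChar α' β') ↔ _
  have hirr : ∀ a b : MulChar F ℂ, a ≠ b → IsIrrCharacter (Matrix.GeneralLinearGroup (Fin 2) F)
      (indFun (Cfsg.upperTriangularGL 2 F) (borelChar a b)) := by
    intro a b hab
    apply isIrrCharacter_of_inner_self_eq_one
      (isCharacter_indFun _ (isCharacter_of_isIrrCharacter (borelChar_isIrr a b)))
    rw [RGL_inner]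
    simp [hab]
  constructor
  · intro h
    have h1 := RGL_inner α β α' β'
    rw [← h, RGL_inner] at h1
    by_contra hcon
    push Not at hcon
    have h2 : ¬ (α = α' ∧ β = β') := fun hh => (hcon.1 hh.1) hh.2
    have h3 : ¬ (α = β' ∧ β = α') := fun hh => (hcon.2 hh.1) hh.2
    rw [if_neg h2, if_neg h3, if_pos ⟨rfl, rfl⟩] at h1
    by_cases hab : α = β
    · rw [if_pos ⟨hab, hab.symm⟩] at h1
      norm_num at h1
    · have : ¬ (α = β ∧ β = α) := fun hh => hab hh.1
      rw [if_neg this] at h1
      norm_num at h1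
  · rintro (⟨rfl, rfl⟩ | ⟨rfl, rfl⟩)
    · rfl
    · by_cases hab : α = β
      · rw [hab]
      · have e := irr_eq_of_inner_ne_zero (χ := ⟨_, hirr α β hab⟩) (ψ := ⟨_, hirr β α (Ne.symm hab)⟩) (by
          simp only
          rw [RGL_inner]
          simp [hab])
        exact congrArg Subtype.val e

end Cfsg.Agent.S2305
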