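import Cfsg.Statements.S2306
import Cfsg.Agent.Lib.helper12.SL2Char
-- import your own Cfsg.Agent.* helpers here

set_option autoImplicit false
open Cfsg

namespace Cfsg.Agent.S2306

open Cfsg.Agent.Lib.helper12 Cfsg.Agent.Lib.helper24


/-- Over a finite field F, for a multiplicative character α of F, the function induced to SL₂ from the linear character b ↦ α(b₁₁) of the upper triangular subgroup is an irreducible character if and only if α² ≠ 1. -/
theorem result {F : Type*} [Field F] [Fintype F] [DecidableEq F] (α : MulChar F ℂ) :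
    Cfsg.IsIrrCharacter (Matrix.SpecialLinearGroup (Fin 2) F) (Cfsg.indFun ((Cfsg.upperTriangularGL 2 F).comap Matrix.SpecialLinearGroup.toGL) (fun b => α (((b : Matrix.SpecialLinearGroup (Fin 2) F) : Matrix (Fin 2) (Fin 2) F) 0 0))) ↔ α ^ 2 ≠ 1 := by
  classical
  have hR : (Cfsg.indFun ((Cfsg.upperTriangularGL 2 F).comap Matrix.SpecialLinearGroup.toGL) (fun b => α (((b : Matrix.SpecialLinearGroup (Fin 2) F) : Matrix (Fin 2) (Fin 2) F) 0 0))) =
      indFun (borelSL F) (borelSLChar α) := rfl
  rw [hR]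
  have hchar : IsCharacter (Matrix.SpecialLinearGroup (Fin 2) F) (indFun (borelSL F) (borelSLChar α)) :=
    isCharacter_indFun _ (isCharacter_of_isIrrCharacter (borelSLChar_isIrr α))
  have hinv : α = α⁻¹ ↔ α ^ 2 = 1 := by
    rw [sq, eq_inv_iff_mul_eq_one]
  rw [isIrrCharacter_iff_inner_self, RSL_inner, if_pos rfl]
  constructor
  · rintro ⟨-, h⟩ h2
    rw [if_pos (hinv.mpr h2)] at h
    norm_num at h
  · intro h2
    refine ⟨hchar, ?_⟩
    rw [if_neg (fun h => h2 (hinv.mp h))]
    norm_num

end Cfsg.Agent.S2306
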