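import Cfsg.Statements.S2307
import Cfsg.Agent.Lib.helper12.SL2Odd3
-- import your own Cfsg.Agent.* helpers here

set_option autoImplicit false
open Cfsg

namespace Cfsg.Agent.S2307

open Cfsg.Agent.Lib.helper12 Cfsg.Agent.Lib.helper24
open scoped MatrixGroups

/-- Over a finite field F with q elements, q odd, let α be the multiplicative character of F of order 2. The character of SL₂ induced from the linear character b ↦ α(b₁₁) of the upper triangular subgroup is the sum of two distinct irreducible characters, each of degree (q + 1)/2, which are conjugate under GL₂: some fixed element of GL₂ conjugates the one into the other. -/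
theorem result {F : Type*} [Field F] [Fintype F] [DecidableEq F] (hodd : Odd (Fintype.card F)) (α : MulChar F ℂ)
    (hα : α ^ 2 = 1) (hα1 : α ≠ 1) :
    ∃ χ₁ χ₂ : Matrix.SpecialLinearGroup (Fin 2) F → ℂ, Cfsg.IsIrrCharacter (Matrix.SpecialLinearGroup (Fin 2) F) χ₁ ∧ Cfsg.IsIrrCharacter (Matrix.SpecialLinearGroup (Fin 2) F) χ₂ ∧ χ₁ ≠ χ₂ ∧
      Cfsg.indFun ((Cfsg.upperTriangularGL 2 F).comap Matrix.SpecialLinearGroup.toGL) (fun b => α (((b : Matrix.SpecialLinearGroup (Fin 2) F) : Matrix (Fin 2) (Fin 2) F) 0 0)) = χ₁ + χ₂ ∧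
      χ₁ 1 = (((Fintype.card F + 1) / 2 : ℕ) : ℂ) ∧ χ₂ 1 = (((Fintype.card F + 1) / 2 : ℕ) : ℂ) ∧
      ∃ x : Matrix.GeneralLinearGroup (Fin 2) F, ∀ g h : Matrix.SpecialLinearGroup (Fin 2) F,
        Matrix.SpecialLinearGroup.toGL h = x * Matrix.SpecialLinearGroup.toGL g * x⁻¹ → χ₂ h = χ₁ g := by
  classical
  have hodd' : Fintype.card F % 2 = 1 := Nat.odd_iff.mp hodd
  have hh1 : (((Fintype.card F + 1) / 2 : ℕ) : ℂ) = ((Fintype.card F : ℂ) + 1) / 2 := by
    have hd : (2 : ℕ) ∣ Fintype.card F + 1 := by omega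
    rw [Nat.cast_div hd (by norm_num)]
    push_cast
    ring
  rw [hh1]
  obtain ⟨ν, hν⟩ := quad_exists_neg_one hα hα1
  have hν0 := quad_ne_zero hν
  have hψ := AddChar.FiniteField.primitiveChar_to_Complex_isPrimitive F
  obtain ⟨ξ₁, ξ₂, hne, hξ⟩ := exists_two_irr_of_norm_two (RSL_isCharacter α) (RSL_norm_two hα)
  obtain ⟨dx1, dx2⟩ := SL2_xi_degree hα hα1 hν hψ hne hξ
  have htw := SL2_xi_twist hα hα1 hψ hne hξ (Units.mk0 ν hν0) (by rw [Units.val_mk0]; exact hν)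
  refine ⟨ξ₂.1, ξ₁.1, ξ₂.2, ξ₁.2, ?_, ?_, ?_, ?_, ?_⟩
  · intro h
    exact hne (Subtype.ext h.symm)
  · have h : RSL α = ξ₂.1 + ξ₁.1 := by rw [hξ, add_comm]
    exact h
  · linear_combination (1 / 2 : ℂ) * dx2
  · linear_combination (1 / 2 : ℂ) * dx1
  · refine ⟨((borelMk (Units.mk0 ν hν0) 1 0 : ↥(Cfsg.upperTriangularGL 2 F)) : GL (Fin 2) F), ?_⟩
    intro g h hh
    rw [twSL_of_toGL (Units.mk0 ν hν0) g h hh, htw]
    rfl

end Cfsg.Agent.S2307
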