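import Cfsg.Statements.S2309
import Cfsg.Agent.Lib.helper12.GL2Table
-- import your own Cfsg.Agent.* helpers here

set_option autoImplicit false
open Cfsg

namespace Cfsg.Agent.S2309

open Cfsg.Agent.Lib.helper12 Cfsg.Agent.Lib.helper24


/-- Over a finite field F with q elements: every irreducible complex character of GL₂ of degree q − 1 vanishes at every diagonal matrix with two distinct entries, and every irreducible complex character of degree q + 1 vanishes at every element with no eigenvector in F². -/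
theorem result {F : Type*} [Field F] [Fintype F] (χ : Matrix.GeneralLinearGroup (Fin 2) F → ℂ) (hχ : Cfsg.IsIrrCharacter (Matrix.GeneralLinearGroup (Fin 2) F) χ) (g : Matrix.GeneralLinearGroup (Fin 2) F) :
    (χ 1 = (Fintype.card F : ℂ) - 1 → (g : Matrix (Fin 2) (Fin 2) F) 0 1 = 0 → (g : Matrix (Fin 2) (Fin 2) F) 1 0 = 0 → (g : Matrix (Fin 2) (Fin 2) F) 0 0 ≠ (g : Matrix (Fin 2) (Fin 2) F) 1 1 → χ g = 0) ∧
    (χ 1 = (Fintype.card F : ℂ) + 1 → (∀ (c : F) (v : Fin 2 → F), v ≠ 0 → (g : Matrix (Fin 2) (Fin 2) F).mulVec v ≠ c • v) → χ g = 0) := by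
  classical
  have hq2 : (2 : ℕ) ≤ Fintype.card F := Fintype.one_lt_card
  have e0 : (Fintype.card F : ℂ) ≠ 0 := by
    exact_mod_cast (by omega : Fintype.card F ≠ 0)
  have hcl := isCharacter_conj_class (isCharacter_of_isIrrCharacter hχ)
  refine ⟨?_, ?_⟩
  · intro hdeg h01 h10 hne
    have hdet : (g : Matrix (Fin 2) (Fin 2) F).det ≠ 0 := by
      exact ((Matrix.isUnit_iff_isUnit_det _).mp (Units.isUnit g)).ne_zero
    rw [Matrix.det_fin_two, h01, zero_mul, sub_zero] at hdet
    have h00 : (g : Matrix (Fin 2) (Fin 2) F) 0 0 ≠ 0 := left_ne_zero_of_mul hdet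
    have h11 : (g : Matrix (Fin 2) (Fin 2) F) 1 1 ≠ 0 := right_ne_zero_of_mul hdet
    have hg : g = (borelMk (Units.mk0 _ h00) (Units.mk0 _ h11) 0 : GL (Fin 2) F) := by
      apply Units.ext
      rw [borelMk_val]
      ext i j
      fin_cases i <;> fin_cases j <;> simp [h01, h10]
    rcases GL2_irr_classify ⟨χ, hχ⟩ with ⟨α, h⟩ | ⟨α, h⟩ | ⟨α, β, hne', h⟩ | ⟨hc, h1, _⟩
    · simp only at h
      rw [h, lamGL_apply_one] at hdeg
      have hq : Fintype.card F = 2 := by
        have : (Fintype.card F : ℂ) = 2 := by linear_combination -hdeg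
        exact_mod_cast this
      exfalso
      have hcu : Fintype.card Fˣ = 1 := by rw [Fintype.card_units, hq]
      have hsub : Subsingleton Fˣ := Fintype.card_le_one_iff_subsingleton.mp hcu.le
      exact hne (congrArg Units.val (Subsingleton.elim (Units.mk0 _ h00) (Units.mk0 _ h11)))
    · simp only at h
      rw [h, stGL_apply_one] at hdeg
      exact absurd (by linear_combination hdeg : (1 : ℂ) = 0) one_ne_zero
    · simp only at h
      rw [h, RGL_apply_one] at hdeg
      exact absurd (by linear_combination hdeg : (2 : ℂ) = 0) two_ne_zero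
    · rw [hg]
      exact GL2_cusp_split χ hcl hc _ _ (fun h => hne (congrArg Units.val h))
  · intro hdeg hell
    rcases GL2_irr_classify ⟨χ, hχ⟩ with ⟨α, h⟩ | ⟨α, h⟩ | ⟨α, β, hne', h⟩ | ⟨hc, h1, _⟩
    · simp only at h
      rw [h, lamGL_apply_one] at hdeg
      exact absurd (by linear_combination -hdeg : (Fintype.card F : ℂ) = 0) e0
    · simp only at h
      rw [h, stGL_apply_one] at hdeg
      exact absurd (by linear_combination -hdeg : (1 : ℂ) = 0) one_ne_zero
    · simp only at h
      rw [h]
      exact indFun_borelGL_elliptic _ (borelChar_isClassFunction α β) g hell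
    · simp only at h1
      rw [h1] at hdeg
      exact absurd (by linear_combination -hdeg : (2 : ℂ) = 0) two_ne_zero

end Cfsg.Agent.S2309
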