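import Cfsg.Statements.S2310
import Cfsg.Agent.Lib.helper12.GL2Table
-- import your own Cfsg.Agent.* helpers here

set_option autoImplicit false
open Cfsg

namespace Cfsg.Agent.S2310

open Cfsg.Agent.Lib.helper12 Cfsg.Agent.Lib.helper24


/-- Over a finite field F with q ≥ 3 elements, let u be the upper unitriangular matrix of GL₂ with off-diagonal entry 1. An irreducible complex character χ of GL₂ takes at u the value 1 if χ has degree 1 or q + 1, the value −1 if χ has degree q − 1, and the value 0 if χ has degree q. -/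
theorem result {F : Type*} [Field F] [Fintype F] (hq : 3 ≤ Fintype.card F) (χ : Matrix.GeneralLinearGroup (Fin 2) F → ℂ) (hχ : Cfsg.IsIrrCharacter (Matrix.GeneralLinearGroup (Fin 2) F) χ)
    (u : Matrix.GeneralLinearGroup (Fin 2) F) (hu : (u : Matrix (Fin 2) (Fin 2) F) = !![1, 1; 0, 1]) :
    (χ 1 = 1 → χ u = 1) ∧ (χ 1 = (Fintype.card F : ℂ) + 1 → χ u = 1) ∧
    (χ 1 = (Fintype.card F : ℂ) - 1 → χ u = -1) ∧ (χ 1 = (Fintype.card F : ℂ) → χ u = 0) := by
  classical
  have e0 : (Fintype.card F : ℂ) ≠ 0 := by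
    exact_mod_cast (by omega : Fintype.card F ≠ 0)
  have e1 : (Fintype.card F : ℂ) ≠ 1 := by
    exact_mod_cast (by omega : Fintype.card F ≠ 1)
  have e2 : (Fintype.card F : ℂ) ≠ 2 := by
    exact_mod_cast (by omega : Fintype.card F ≠ 2)
  have hu' : u = uOneGL F := Units.ext (hu.trans uOneGL_val.symm)
  subst hu'
  have hlam : ∀ α : MulChar F ℂ, lamGL α (uOneGL F) = 1 := by
    intro α
    simp [lamGL, uOneGL_val, Matrix.det_fin_two]
  have hR : ∀ α β : MulChar F ℂ, RGL α β (uOneGL F) = 1 := by
    intro α β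
    show indFun _ _ (uOneGL F) = _
    rw [RGL_apply_upper α β (uOneGL F) (by simp [uOneGL_val])]
    simp [uOneGL_val]
  rcases GL2_irr_classify ⟨χ, hχ⟩ with ⟨α, h⟩ | ⟨α, h⟩ | ⟨α, β, hne', h⟩ | ⟨hc, h1, h2⟩
  · simp only at h
    subst h
    refine ⟨fun _ => hlam α, fun hdeg => ?_, fun hdeg => ?_, fun hdeg => ?_⟩
    · rw [lamGL_apply_one] at hdeg
      exact absurd (by linear_combination -hdeg : (Fintype.card F : ℂ) = 0) e0
    · rw [lamGL_apply_one] at hdeg
      exact absurd (by linear_combination -hdeg : (Fintype.card F : ℂ) = 2) e2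
    · rw [lamGL_apply_one] at hdeg
      exact absurd hdeg.symm e1
  · simp only at h
    subst h
    refine ⟨fun hdeg => ?_, fun hdeg => ?_, fun hdeg => ?_, fun _ => ?_⟩
    · rw [stGL_apply_one] at hdeg
      exact absurd hdeg e1
    · rw [stGL_apply_one] at hdeg
      exact absurd (by linear_combination -hdeg : (1 : ℂ) = 0) one_ne_zero
    · rw [stGL_apply_one] at hdeg
      exact absurd (by linear_combination hdeg : (1 : ℂ) = 0) one_ne_zero
    · show (RGL α α - lamGL α) (uOneGL F) = 0
      rw [Pi.sub_apply, hR, hlam, sub_self]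
  · simp only at h
    subst h
    refine ⟨fun hdeg => ?_, fun _ => hR α β, fun hdeg => ?_, fun hdeg => ?_⟩
    · rw [RGL_apply_one] at hdeg
      exact absurd (by linear_combination hdeg : (Fintype.card F : ℂ) = 0) e0
    · rw [RGL_apply_one] at hdeg
      exact absurd (by linear_combination hdeg : (2 : ℂ) = 0) two_ne_zero
    · rw [RGL_apply_one] at hdeg
      exact absurd (by linear_combination hdeg : (1 : ℂ) = 0) one_ne_zero
  · simp only at h1 h2
    refine ⟨fun hdeg => ?_, fun hdeg => ?_, fun _ => h2, fun hdeg => ?_⟩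
    · rw [h1] at hdeg
      exact absurd (by linear_combination hdeg : (Fintype.card F : ℂ) = 2) e2
    · rw [h1] at hdeg
      exact absurd (by linear_combination -hdeg : (2 : ℂ) = 0) two_ne_zero
    · rw [h1] at hdeg
      exact absurd (by linear_combination -hdeg : (1 : ℂ) = 0) one_ne_zero

end Cfsg.Agent.S2310
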