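import Cfsg.Statements.S2315
-- import your own Cfsg.Agent.* helpers here
import Mathlib

set_option autoImplicit false
open Cfsg

namespace Cfsg.Agent.S2315



universe u

section KLsec
variable {K : Type*} [Field K] {V₁ V₂ W₁ W₂ : Type*}
  [AddCommGroup V₁] [Module K V₁] [AddCommGroup V₂] [Module K V₂]
  [AddCommGroup W₁] [Module K W₁] [AddCommGroup W₂] [Module K W₂]

theorem pm_pow (N : Module.End K V₁) (B : Module.End K V₂) (i : ℕ) (x : V₁ × V₂) :
    ((N.prodMap B : Module.End K (V₁ × V₂)) ^ i) x = ((N ^ i) x.1, (B ^ i) x.2) := by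
  induction i generalizing x with
  | zero => simp
  | succ i ih =>
    rw [pow_succ, Module.End.mul_apply, ih, pow_succ, pow_succ, Module.End.mul_apply,
      Module.End.mul_apply]
    rfl

theorem KL (N : Module.End K V₁) (B : V₂ ≃ₗ[K] V₂) (N' : Module.End K W₁) (B' : W₂ ≃ₗ[K] W₂)
    (hN : IsNilpotent N) (hN' : IsNilpotent N')
    (R : (V₁ × V₂) →ₗ[K] (W₁ × W₂))
    (hR : ∀ x, R (N x.1, B x.2) = (N' (R x).1, B' (R x).2)) :
    (∀ x₁, (R (x₁, 0)).2 = 0) ∧ (∀ x₂, (R (0, x₂)).1 = 0) := by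
  obtain ⟨a, ha⟩ := hN
  obtain ⟨b, hb⟩ := hN'
  have hNm : N ^ (a + b) = 0 := by rw [pow_add, ha, zero_mul]
  have hN'm : N' ^ (a + b) = 0 := by rw [pow_add, hb, mul_zero]
  have hiter : ∀ (i : ℕ) (x : V₁ × V₂),
      R (((N.prodMap B.toLinearMap : Module.End K (V₁ × V₂)) ^ i) x) =
        ((N'.prodMap B'.toLinearMap : Module.End K (W₁ × W₂)) ^ i) (R x) := by
    intro i
    induction i with
    | zero => intro x; simp
    | succ i ih =>
      intro x
      rw [pow_succ', Module.End.mul_apply, pow_succ', Module.End.mul_apply, ← ih]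
      exact hR _
  have hBinj : ∀ i : ℕ, Function.Injective ((B'.toLinearMap : Module.End K W₂) ^ i) := by
    intro i
    rw [Module.End.coe_pow]
    exact Function.Injective.iterate B'.injective i
  have hBsurj : ∀ i : ℕ, Function.Surjective ((B.toLinearMap : Module.End K V₂) ^ i) := by
    intro i
    rw [Module.End.coe_pow]
    exact Function.Surjective.iterate B.surjective i
  constructor
  · intro x₁
    have h1 := hiter (a + b) (x₁, 0)
    rw [pm_pow, pm_pow, hNm] at h1
    simp only [LinearMap.zero_apply, map_zero, Prod.mk_zero_zero] at h1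
    have h2 : ((B'.toLinearMap : Module.End K W₂) ^ (a + b)) (R (x₁, 0)).2 = 0 := by
      have h0 := congrArg Prod.snd h1
      exact h0.symm
    have h3 := hBinj (a + b) (h2.trans (map_zero _).symm)
    exact h3
  · intro x₂
    obtain ⟨x₂', hx₂'⟩ := hBsurj (a + b) x₂
    have h1 := hiter (a + b) (0, x₂')
    rw [pm_pow, pm_pow, hN'm] at h1
    simp only [map_zero, LinearMap.zero_apply] at h1
    rw [hx₂'] at h1
    have := congrArg Prod.fst h1
    simpa using this

theorem split (R : (V₁ × V₂) ≃ₗ[K] (V₁ × V₂)) (h1 : ∀ x₁, (R (x₁, 0)).2 = 0)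
    (h2 : ∀ x₂, (R (0, x₂)).1 = 0) :
    ∃ (R₁ : V₁ ≃ₗ[K] V₁) (R₂ : V₂ ≃ₗ[K] V₂), ∀ x, R x = (R₁ x.1, R₂ x.2) := by
  let f₁ : V₁ →ₗ[K] V₁ := (LinearMap.fst K V₁ V₂) ∘ₗ R.toLinearMap ∘ₗ (LinearMap.inl K V₁ V₂)
  let f₂ : V₂ →ₗ[K] V₂ := (LinearMap.snd K V₁ V₂) ∘ₗ R.toLinearMap ∘ₗ (LinearMap.inr K V₁ V₂)
  have hf₁ : ∀ x₁, f₁ x₁ = (R (x₁, 0)).1 := fun x₁ => rfl
  have hf₂ : ∀ x₂, f₂ x₂ = (R (0, x₂)).2 := fun x₂ => rfl
  have hR : ∀ x, R x = (f₁ x.1, f₂ x.2) := by
    rintro ⟨x₁, x₂⟩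
    have e : ((x₁, x₂) : V₁ × V₂) = (x₁, 0) + (0, x₂) := by simp
    rw [e, map_add]
    apply Prod.ext
    · simp [hf₁, h2]
    · simp [hf₂, h1]
  have hb₁ : Function.Bijective f₁ := by
    constructor
    · intro x y hxy
      have h3 : R (x, 0) = R (y, 0) := by
        rw [hR, hR]; simp [hxy]
      have h4 := R.injective h3
      exact congrArg Prod.fst h4
    · intro y
      refine ⟨(R.symm (y, 0)).1, ?_⟩
      have h3 := hR (R.symm (y, 0))
      rw [LinearEquiv.apply_symm_apply] at h3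
      exact (congrArg Prod.fst h3).symm
  have hb₂ : Function.Bijective f₂ := by
    constructor
    · intro x y hxy
      have h3 : R (0, x) = R (0, y) := by
        rw [hR, hR]; simp [hxy]
      have h4 := R.injective h3
      exact congrArg Prod.snd h4
    · intro y
      refine ⟨(R.symm (0, y)).2, ?_⟩
      have h3 := hR (R.symm (0, y))
      rw [LinearEquiv.apply_symm_apply] at h3
      exact (congrArg Prod.snd h3).symm
  exact ⟨LinearEquiv.ofBijective f₁ hb₁, LinearEquiv.ofBijective f₂ hb₂, hR⟩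

end KLsec

section Count
variable {K : Type u} [Field K]

/-- conjugated block map -/
def conjD {V : Type u} [AddCommGroup V] [Module K V] {k j : ℕ}
    (N : Module.End K (Fin k → K)) (B : (Fin j → K) ≃ₗ[K] (Fin j → K))
    (φ : ((Fin k → K) × (Fin j → K)) ≃ₗ[K] V) : Module.End K V :=
  φ.toLinearMap ∘ₗ (N.prodMap B.toLinearMap) ∘ₗ φ.symm.toLinearMap

theorem conjD_apply {V : Type u} [AddCommGroup V] [Module K V] {k j : ℕ}
    (N : Module.End K (Fin k → K)) (B : (Fin j → K) ≃ₗ[K] (Fin j → K))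
    (φ : ((Fin k → K) × (Fin j → K)) ≃ₗ[K] V) (x : (Fin k → K) × (Fin j → K)) :
    conjD N B φ (φ x) = φ (N x.1, B x.2) := by
  simp [conjD]

theorem conjD_apply' {V : Type u} [AddCommGroup V] [Module K V] {k j : ℕ}
    (N : Module.End K (Fin k → K)) (B : (Fin j → K) ≃ₗ[K] (Fin j → K))
    (φ : ((Fin k → K) × (Fin j → K)) ≃ₗ[K] V) (v : V) :
    conjD N B φ v = φ (N (φ.symm v).1, B (φ.symm v).2) := by
  simp [conjD]

def Sset (K : Type u) [Field K] (k j : ℕ) (V : Type u) [AddCommGroup V] [Module K V] :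
    Set (Module.End K V) :=
  {A | ∃ (N : Module.End K (Fin k → K)) (B : (Fin j → K) ≃ₗ[K] (Fin j → K))
      (φ : ((Fin k → K) × (Fin j → K)) ≃ₗ[K] V), IsNilpotent N ∧ A = conjD N B φ}

theorem conj_pow {V₁ V₂ : Type*} [AddCommGroup V₁] [Module K V₁] [AddCommGroup V₂] [Module K V₂]
    (N : Module.End K V₂) (R : V₁ ≃ₗ[K] V₂) (m : ℕ) (x : V₁) :
    ((R.symm.toLinearMap ∘ₗ N ∘ₗ R.toLinearMap : Module.End K V₁) ^ m) x =
      R.symm ((N ^ m) (R x)) := by
  induction m generalizing x with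
  | zero => simp
  | succ m ih =>
    rw [pow_succ, Module.End.mul_apply, ih, pow_succ, Module.End.mul_apply]
    simp

theorem conj_nilp {V₁ : Type*} [AddCommGroup V₁] [Module K V₁] (N : Module.End K V₁)
    (R : V₁ ≃ₗ[K] V₁) (hN : IsNilpotent N) :
    IsNilpotent (R.symm.toLinearMap ∘ₗ N ∘ₗ R.toLinearMap : Module.End K V₁) := by
  obtain ⟨m, hm⟩ := hN
  refine ⟨m, ?_⟩
  ext x
  rw [conj_pow, hm]
  simp

theorem count_a (k j : ℕ) (V : Type u) [AddCommGroup V] [Module K V] :
    Nat.card {N : Module.End K (Fin k → K) // IsNilpotent N} *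
        (Nat.card ((Fin j → K) ≃ₗ[K] (Fin j → K)) *
          Nat.card (((Fin k → K) × (Fin j → K)) ≃ₗ[K] V)) =
      Nat.card (Sset K k j V) * (Nat.card ((Fin k → K) ≃ₗ[K] (Fin k → K)) *
        Nat.card ((Fin j → K) ≃ₗ[K] (Fin j → K))) := by
  classical
  have hsec : ∀ A : Sset K k j V, ∃ (N : Module.End K (Fin k → K))
      (B : (Fin j → K) ≃ₗ[K] (Fin j → K)) (φ : ((Fin k → K) × (Fin j → K)) ≃ₗ[K] V),
      IsNilpotent N ∧ (A : Module.End K V) = conjD N B φ := fun A => A.2
  choose N₀ B₀ φ₀ hN₀ hA₀ using hsec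
  let Θ : (Sset K k j V) × (((Fin k → K) ≃ₗ[K] (Fin k → K)) × ((Fin j → K) ≃ₗ[K] (Fin j → K))) →
      {N : Module.End K (Fin k → K) // IsNilpotent N} ×
        (((Fin j → K) ≃ₗ[K] (Fin j → K)) × (((Fin k → K) × (Fin j → K)) ≃ₗ[K] V)) :=
    fun y => (⟨y.2.1.symm.toLinearMap ∘ₗ N₀ y.1 ∘ₗ y.2.1.toLinearMap, conj_nilp _ _ (hN₀ y.1)⟩,
      (y.2.2.trans (B₀ y.1)).trans y.2.2.symm, (y.2.1.prodCongr y.2.2).trans (φ₀ y.1))
  have F1 : ∀ y, conjD (Θ y).1.1 (Θ y).2.1 (Θ y).2.2 = (y.1 : Module.End K V) := by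
    intro y
    rw [hA₀ y.1]
    ext v
    rw [conjD_apply', conjD_apply']
    simp [Θ]
  have hΘ : Function.Bijective Θ := by
    constructor
    · rintro ⟨A, R₁, R₂⟩ ⟨A', R₁', R₂'⟩ h
      have hA : A = A' := by
        apply Subtype.ext
        rw [← F1 (A, R₁, R₂), ← F1 (A', R₁', R₂'), h]
      subst hA
      have h3 : (R₁.prodCongr R₂).trans (φ₀ A) = (R₁'.prodCongr R₂').trans (φ₀ A) :=
        congrArg (fun z => z.2.2) h
      have h4 : ∀ x : (Fin k → K) × (Fin j → K), (R₁ x.1, R₂ x.2) = (R₁' x.1, R₂' x.2) := by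
        intro x
        have h5 := congrArg (fun (z : ((Fin k → K) × (Fin j → K)) ≃ₗ[K] V) => z x) h3
        simp only [LinearEquiv.trans_apply] at h5
        have h6 := (φ₀ A).injective h5
        exact h6
      have hR₁ : R₁ = R₁' := by
        refine LinearEquiv.ext (fun x => ?_)
        exact congrArg Prod.fst (h4 (x, 0))
      have hR₂ : R₂ = R₂' := by
        refine LinearEquiv.ext (fun x => ?_)
        exact congrArg Prod.snd (h4 (0, x))
      rw [hR₁, hR₂]
    · rintro ⟨⟨N, hN⟩, B, φ⟩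
      let A : Sset K k j V := ⟨conjD N B φ, ⟨N, B, φ, hN, rfl⟩⟩
      let R : ((Fin k → K) × (Fin j → K)) ≃ₗ[K] ((Fin k → K) × (Fin j → K)) :=
        φ.trans (φ₀ A).symm
      have hφR : ∀ x, φ₀ A (R x) = φ x := by
        intro x
        simp [R]
      have hint : ∀ x, R (N x.1, B x.2) = (N₀ A (R x).1, B₀ A (R x).2) := by
        intro x
        have h1 : conjD N B φ (φ x) = conjD (N₀ A) (B₀ A) (φ₀ A) (φ x) := by
          have h0 := hA₀ A
          exact congrArg (fun (f : Module.End K V) => f (φ x)) h0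
        rw [conjD_apply, ← hφR x, conjD_apply] at h1
        have h2 := congrArg (φ₀ A).symm h1
        rw [LinearEquiv.symm_apply_apply] at h2
        exact h2
      obtain ⟨h1, h2⟩ := KL N B (N₀ A) (B₀ A) hN (hN₀ A) R.toLinearMap hint
      obtain ⟨R₁, R₂, hR⟩ := split R h1 h2
      refine ⟨(A, R₁, R₂), ?_⟩
      have e1 : R₁.symm.toLinearMap ∘ₗ N₀ A ∘ₗ R₁.toLinearMap = N := by
        refine LinearMap.ext (fun x => ?_)
        have h3 := hint (x, 0)
        rw [hR, hR] at h3
        have h4 : R₁ (N x) = N₀ A (R₁ x) := congrArg Prod.fst h3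
        show R₁.symm (N₀ A (R₁ x)) = N x
        rw [← h4, LinearEquiv.symm_apply_apply]
      have e2 : (R₂.trans (B₀ A)).trans R₂.symm = B := by
        refine LinearEquiv.ext (fun x => ?_)
        have h3 := hint (0, x)
        rw [hR, hR] at h3
        have h4 : R₂ (B x) = B₀ A (R₂ x) := congrArg Prod.snd h3
        show R₂.symm (B₀ A (R₂ x)) = B x
        rw [← h4, LinearEquiv.symm_apply_apply]
      have e3 : (R₁.prodCongr R₂).trans (φ₀ A) = φ := by
        refine LinearEquiv.ext (fun x => ?_)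
        show φ₀ A (R₁ x.1, R₂ x.2) = φ x
        rw [← hR, hφR]
      exact Prod.ext (Subtype.ext e1) (Prod.ext e2 e3)
  have hcard := Nat.card_congr (Equiv.ofBijective Θ hΘ)
  rw [Nat.card_prod, Nat.card_prod, Nat.card_prod, Nat.card_prod] at hcard
  exact hcard.symm

end Count

section CountB
variable {K : Type u} [Field K]

theorem pow_comm_apply {V : Type*} [AddCommGroup V] [Module K V] (A : Module.End K V) (m : ℕ)
    (x : V) : (A ^ m) (A x) = A ((A ^ m) x) := by
  rw [← Module.End.mul_apply, ← Module.End.mul_apply, ← pow_succ, ← pow_succ']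

theorem exists_type {V : Type u} [AddCommGroup V] [Module K V] [FiniteDimensional K V]
    (A : Module.End K V) : ∃ k j, k + j = Module.finrank K V ∧ A ∈ Sset K k j V := by
  obtain ⟨m, hc, hm1⟩ := ((LinearMap.eventually_isCompl_ker_pow_range_pow A).and
    (Filter.eventually_ge_atTop 1)).exists
  have hker : ∀ v, A v = 0 → (A ^ m) v = 0 := by
    intro v hv
    obtain ⟨m', rfl⟩ : ∃ m', m = m' + 1 := ⟨m - 1, by omega⟩
    rw [pow_succ, Module.End.mul_apply, hv, map_zero]
  have hAU : ∀ x ∈ LinearMap.ker (A ^ m), A x ∈ LinearMap.ker (A ^ m) := by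
    intro x hx
    rw [LinearMap.mem_ker] at hx ⊢
    rw [pow_comm_apply, hx, map_zero]
  have hAW : ∀ x ∈ LinearMap.range (A ^ m), A x ∈ LinearMap.range (A ^ m) := by
    rintro x ⟨y, rfl⟩
    exact ⟨A y, pow_comm_apply A m y⟩
  have hkj : Module.finrank K (LinearMap.ker (A ^ m)) + Module.finrank K (LinearMap.range (A ^ m)) =
      Module.finrank K V := Submodule.finrank_add_eq_of_isCompl hc
  let ψ₁ : (Fin (Module.finrank K (LinearMap.ker (A ^ m))) → K) ≃ₗ[K] LinearMap.ker (A ^ m) :=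
    LinearEquiv.ofFinrankEq _ _ (by simp)
  let ψ₂ : (Fin (Module.finrank K (LinearMap.range (A ^ m))) → K) ≃ₗ[K] LinearMap.range (A ^ m) :=
    LinearEquiv.ofFinrankEq _ _ (by simp)
  let φ := (ψ₁.prodCongr ψ₂).trans (Submodule.prodEquivOfIsCompl _ _ hc)
  have hφ : ∀ x, φ x = (ψ₁ x.1 : V) + (ψ₂ x.2 : V) := by
    intro x
    simp [φ]
  let N : Module.End K (Fin (Module.finrank K (LinearMap.ker (A ^ m))) → K) :=
    ψ₁.symm.toLinearMap ∘ₗ (A.restrict hAU) ∘ₗ ψ₁.toLinearMap
  let B₀ : Module.End K (Fin (Module.finrank K (LinearMap.range (A ^ m))) → K) :=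
    ψ₂.symm.toLinearMap ∘ₗ (A.restrict hAW) ∘ₗ ψ₂.toLinearMap
  have hNnil : IsNilpotent N := by
    refine ⟨m, ?_⟩
    refine LinearMap.ext (fun x => ?_)
    rw [conj_pow, Module.End.pow_restrict]
    have h0 : ((A ^ m).restrict (fun x hx => Module.End.pow_apply_mem_of_forall_mem m hAU x hx))
        (ψ₁ x) = 0 := by
      apply Subtype.ext
      rw [LinearMap.coe_restrict_apply]
      exact (ψ₁ x).2
    rw [h0]
    simp
  have hB₀inj : Function.Injective B₀ := by
    rw [← LinearMap.ker_eq_bot, LinearMap.ker_eq_bot']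
    intro x hx
    have h1 : (A.restrict hAW) (ψ₂ x) = 0 := by
      have h0 : ψ₂.symm ((A.restrict hAW) (ψ₂ x)) = 0 := hx
      rwa [LinearEquiv.map_eq_zero_iff] at h0
    have h2 : A ((ψ₂ x : LinearMap.range (A ^ m)) : V) = 0 := by
      have h0 := congrArg Subtype.val h1
      rw [LinearMap.coe_restrict_apply] at h0
      exact h0
    have h3 : ((ψ₂ x : LinearMap.range (A ^ m)) : V) ∈ LinearMap.ker (A ^ m) := by
      rw [LinearMap.mem_ker]
      exact hker _ h2
    have h4 : ((ψ₂ x : LinearMap.range (A ^ m)) : V) = 0 := by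
      have h5 := hc.disjoint
      rw [Submodule.disjoint_def] at h5
      exact h5 _ h3 (ψ₂ x).2
    have h6 : ψ₂ x = 0 := Subtype.ext h4
    rwa [LinearEquiv.map_eq_zero_iff] at h6
  refine ⟨_, _, hkj, N, LinearEquiv.ofInjectiveEndo B₀ hB₀inj, φ, hNnil, ?_⟩
  refine LinearMap.ext (fun v => ?_)
  rw [conjD_apply', hφ]
  have hv : v = (ψ₁ (φ.symm v).1 : V) + (ψ₂ (φ.symm v).2 : V) := by
    rw [← hφ, LinearEquiv.apply_symm_apply]
  conv_lhs => rw [hv]
  rw [map_add]
  congr 1
  · show A (ψ₁ (φ.symm v).1 : V) = ((ψ₁ (ψ₁.symm ((A.restrict hAU) (ψ₁ (φ.symm v).1))) :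
      LinearMap.ker (A ^ m)) : V)
    rw [LinearEquiv.apply_symm_apply, LinearMap.coe_restrict_apply]
  · rw [LinearEquiv.coe_ofInjectiveEndo]
    show A (ψ₂ (φ.symm v).2 : V) = ((ψ₂ (ψ₂.symm ((A.restrict hAW) (ψ₂ (φ.symm v).2))) :
      LinearMap.range (A ^ m)) : V)
    rw [LinearEquiv.apply_symm_apply, LinearMap.coe_restrict_apply]

theorem type_le {V : Type u} [AddCommGroup V] [Module K V] {k j k' j' : ℕ}
    (A : Module.End K V) (h : A ∈ Sset K k j V) (h' : A ∈ Sset K k' j' V) : k ≤ k' := by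
  obtain ⟨N, B, φ, hN, rfl⟩ := h
  obtain ⟨N', B', φ', hN', h2⟩ := h'
  have hφR : ∀ x, φ' ((φ.trans φ'.symm) x) = φ x := by
    intro x
    simp
  have hint : ∀ x, (φ.trans φ'.symm) (N x.1, B x.2) =
      (N' ((φ.trans φ'.symm) x).1, B' ((φ.trans φ'.symm) x).2) := by
    intro x
    have h1 : conjD N B φ (φ x) = conjD N' B' φ' (φ x) :=
      congrArg (fun (f : Module.End K V) => f (φ x)) h2
    rw [conjD_apply, ← hφR x, conjD_apply] at h1
    have h3 := congrArg φ'.symm h1
    rw [LinearEquiv.symm_apply_apply] at h3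
    exact h3
  obtain ⟨h1, -⟩ := KL N B N' B' hN hN' (φ.trans φ'.symm).toLinearMap hint
  let f : (Fin k → K) →ₗ[K] (Fin k' → K) :=
    (LinearMap.fst K _ _) ∘ₗ (φ.trans φ'.symm).toLinearMap ∘ₗ (LinearMap.inl K _ _)
  have hf : Function.Injective f := by
    intro x y hxy
    have h3 : (φ.trans φ'.symm) (x, 0) = (φ.trans φ'.symm) (y, 0) :=
      Prod.ext hxy (by have a := h1 x; have b := h1 y; exact a.trans b.symm)
    exact congrArg Prod.fst ((φ.trans φ'.symm).injective h3)
  have h4 := LinearMap.finrank_le_finrank_of_injective hf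
  simpa using h4

theorem type_sum {V : Type u} [AddCommGroup V] [Module K V] [FiniteDimensional K V] {k j : ℕ}
    (A : Module.End K V) (h : A ∈ Sset K k j V) : k + j = Module.finrank K V := by
  obtain ⟨N, B, φ, hN, rfl⟩ := h
  have h1 := LinearEquiv.finrank_eq φ
  simpa using h1

theorem count_b (n : ℕ) (V : Type u) [AddCommGroup V] [Module K V] [Finite V]
    [FiniteDimensional K V] (hn : Module.finrank K V = n) :
    ∑ k ∈ Finset.range (n + 1), Nat.card (Sset K k (n - k) V) = Nat.card (Module.End K V) := by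
  classical
  have hex : ∀ A : Module.End K V, ∃ k, k ≤ n ∧ A ∈ Sset K k (n - k) V := by
    intro A
    obtain ⟨k, j, hkj, hA⟩ := exists_type A
    have hj : j = n - k := by omega
    exact ⟨k, by omega, hj ▸ hA⟩
  choose kf hkf hAf using hex
  have huniq : ∀ (A : Module.End K V) (k : ℕ), A ∈ Sset K k (n - k) V → kf A = k := by
    intro A k hA
    exact le_antisymm (type_le A (hAf A) hA) (type_le A hA (hAf A))
  let e : Module.End K V ≃ Σ k : Fin (n + 1), {A : Module.End K V // A ∈ Sset K (k : ℕ) (n - k) V} :=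
    { toFun := fun A => ⟨⟨kf A, Nat.lt_succ_of_le (hkf A)⟩, ⟨A, hAf A⟩⟩
      invFun := fun s => s.2.1
      left_inv := fun A => rfl
      right_inv := by
        rintro ⟨k, A, hA⟩
        apply Sigma.subtype_ext
        · exact Fin.ext (huniq A k hA)
        · rfl }
  have hfin : Finite (Module.End K V) :=
    Finite.of_injective (fun f : Module.End K V => (f : V → V)) DFunLike.coe_injective
  rw [Nat.card_congr e, Nat.card_sigma, Fin.sum_univ_eq_sum_range (fun k => Nat.card (Sset K k (n - k) V))]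

end CountB


section Final
variable {K : Type u} [Field K] [Fintype K]

noncomputable def Gc (K : Type u) [Field K] (m : ℕ) : ℕ :=
  Nat.card ((Fin m → K) ≃ₗ[K] (Fin m → K))
noncomputable def nl (K : Type u) [Field K] (k : ℕ) : ℕ :=
  Nat.card {N : Module.End K (Fin k → K) // IsNilpotent N}
noncomputable def sc (K : Type u) [Field K] (n k : ℕ) : ℕ :=
  Nat.card (Sset K k (n - k) (Fin n → K))

theorem Gc_eq (m : ℕ) :
    Gc K m = ∏ i : Fin m, (Fintype.card K ^ m - Fintype.card K ^ (i : ℕ)) := by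
  rw [← Matrix.card_GL_field]
  exact (Nat.card_congr ((Matrix.GeneralLinearGroup.toLin.trans
    (LinearMap.GeneralLinearGroup.generalLinearEquiv K _)).toEquiv)).symm

theorem Gc_pos (m : ℕ) : 0 < Gc K m := by
  unfold Gc
  haveI : Finite ((Fin m → K) ≃ₗ[K] (Fin m → K)) :=
    Finite.of_injective (fun f => (f : (Fin m → K) → (Fin m → K))) DFunLike.coe_injective
  haveI : Nonempty ((Fin m → K) ≃ₗ[K] (Fin m → K)) := ⟨LinearEquiv.refl K _⟩
  exact Nat.card_pos

theorem Gc_succ (m : ℕ) :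
    Gc K (m + 1) = Gc K m * (Fintype.card K ^ m * (Fintype.card K ^ (m + 1) - 1)) := by
  rw [Gc_eq, Gc_eq, Fin.prod_univ_succ]
  have h1 : ∀ i : Fin m, Fintype.card K ^ (m + 1) - Fintype.card K ^ ((i.succ : Fin (m + 1)) : ℕ) =
      Fintype.card K * (Fintype.card K ^ m - Fintype.card K ^ (i : ℕ)) := by
    intro i
    rw [Nat.mul_sub, Fin.val_succ, pow_succ', pow_succ']
  rw [Finset.prod_congr rfl (fun i _ => h1 i), Finset.prod_mul_distrib, Finset.prod_const,
    Finset.card_univ, Fintype.card_fin]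
  simp only [Fin.val_zero, pow_zero]
  ring

theorem iso_card (k j n : ℕ) (h : k + j = n) :
    Nat.card (((Fin k → K) × (Fin j → K)) ≃ₗ[K] (Fin n → K)) = Gc K n := by
  have ψ : ((Fin k → K) × (Fin j → K)) ≃ₗ[K] (Fin n → K) :=
    LinearEquiv.ofFinrankEq _ _ (by simp [h])
  exact Nat.card_congr
    { toFun := fun φ => ψ.symm.trans φ
      invFun := fun φ => ψ.trans φ
      left_inv := fun φ => by
        refine LinearEquiv.ext (fun x => ?_)
        simp
      right_inv := fun φ => by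
        refine LinearEquiv.ext (fun x => ?_)
        simp }

theorem key_a (n k : ℕ) (h : k ≤ n) : nl K k * Gc K n = sc K n k * Gc K k := by
  have h1 := count_a (K := K) k (n - k) (Fin n → K)
  rw [iso_card k (n - k) n (by omega)] at h1
  have h2 := Gc_pos (K := K) (n - k)
  apply Nat.eq_of_mul_eq_mul_right h2
  calc nl K k * Gc K n * Gc K (n - k) = nl K k * (Gc K (n - k) * Gc K n) := by ring
    _ = sc K n k * (Gc K k * Gc K (n - k)) := h1
    _ = sc K n k * Gc K k * Gc K (n - k) := by ring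

theorem count_b' (n : ℕ) :
    ∑ k ∈ Finset.range (n + 1), sc K n k = Fintype.card K ^ (n * n) := by
  have h1 := count_b (K := K) n (Fin n → K) (by simp)
  have h2 : Nat.card (Module.End K (Fin n → K)) = Fintype.card K ^ (n * n) := by
    rw [Nat.card_congr (LinearMap.toMatrix' (R := K) (m := Fin n) (n := Fin n)).toEquiv]
    show Nat.card (Fin n → Fin n → K) = _
    rw [Nat.card_fun, Nat.card_fun, Nat.card_eq_fintype_card, Nat.card_eq_fintype_card,
      Fintype.card_fin, ← pow_mul]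
  rw [← h2, ← h1]
  rfl

theorem sc_succ (m k : ℕ) (h : k ≤ m) :
    sc K (m + 1) k = sc K m k * (Fintype.card K ^ m * (Fintype.card K ^ (m + 1) - 1)) := by
  have h1 := key_a (K := K) (m + 1) k (by omega)
  have h2 := key_a (K := K) m k h
  rw [Gc_succ] at h1
  apply Nat.eq_of_mul_eq_mul_right (Gc_pos (K := K) k)
  calc sc K (m + 1) k * Gc K k
      = nl K k * (Gc K m * (Fintype.card K ^ m * (Fintype.card K ^ (m + 1) - 1))) := h1.symm
    _ = (nl K k * Gc K m) * (Fintype.card K ^ m * (Fintype.card K ^ (m + 1) - 1)) := by ring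
    _ = sc K m k * Gc K k * (Fintype.card K ^ m * (Fintype.card K ^ (m + 1) - 1)) := by rw [h2]
    _ = sc K m k * (Fintype.card K ^ m * (Fintype.card K ^ (m + 1) - 1)) * Gc K k := by ring

theorem sc_self (n : ℕ) : sc K n n = nl K n := by
  have h1 := key_a (K := K) n n le_rfl
  exact (Nat.eq_of_mul_eq_mul_right (Gc_pos (K := K) n) h1).symm

theorem nl_succ (m : ℕ) : nl K (m + 1) = Fintype.card K ^ ((m + 1) * m) := by
  have h1 := count_b' (K := K) (m + 1)
  have h2 := count_b' (K := K) m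
  rw [Finset.sum_range_succ, sc_self] at h1
  have h3 : ∑ k ∈ Finset.range (m + 1), sc K (m + 1) k =
      (∑ k ∈ Finset.range (m + 1), sc K m k) *
        (Fintype.card K ^ m * (Fintype.card K ^ (m + 1) - 1)) := by
    rw [Finset.sum_mul]
    apply Finset.sum_congr rfl
    intro k hk
    exact sc_succ m k (Nat.lt_succ_iff.mp (Finset.mem_range.mp hk))
  rw [h3, h2] at h1
  have hq : 0 < Fintype.card K := Fintype.card_pos
  obtain ⟨t, ht⟩ : ∃ t, Fintype.card K ^ (m + 1) = t + 1 :=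
    ⟨Fintype.card K ^ (m + 1) - 1, by have := Nat.pow_pos (n := m + 1) hq; omega⟩
  rw [ht, Nat.add_sub_cancel] at h1
  have e1 : Fintype.card K ^ ((m + 1) * (m + 1)) =
      Fintype.card K ^ (m * m) * Fintype.card K ^ m * (t + 1) := by
    rw [← ht, ← pow_add, ← pow_add]
    congr 1
    ring
  have e2 : Fintype.card K ^ ((m + 1) * m) = Fintype.card K ^ (m * m) * Fintype.card K ^ m := by
    rw [← pow_add]
    congr 1
    ring
  rw [e1] at h1
  rw [e2]
  have h4 : Fintype.card K ^ (m * m) * (Fintype.card K ^ m * t) + nl K (m + 1) =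
      Fintype.card K ^ (m * m) * (Fintype.card K ^ m * t) +
        Fintype.card K ^ (m * m) * Fintype.card K ^ m := by
    rw [h1]; ring
  exact Nat.add_left_cancel h4

theorem nilp_mat_card (n : ℕ) :
    Nat.card {M : Matrix (Fin n) (Fin n) K // IsNilpotent M} = nl K n := by
  unfold nl
  exact Nat.card_congr (Equiv.subtypeEquiv (Matrix.toLinAlgEquiv' (R := K) (n := Fin n)).toEquiv
    (fun M => (IsNilpotent.map_iff (f := (Matrix.toLinAlgEquiv' (R := K) (n := Fin n)))
      (Matrix.toLinAlgEquiv' (R := K) (n := Fin n)).injective).symm))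

theorem unip_equiv (p : ℕ) [Fact p.Prime] [CharP K p] (m : ℕ) :
    Nat.card {g : Matrix.GeneralLinearGroup (Fin (m + 1)) K // ∃ k : ℕ, orderOf g = p ^ k} =
      Nat.card {M : Matrix (Fin (m + 1)) (Fin (m + 1)) K // IsNilpotent M} := by
  haveI : CharP (Matrix (Fin (m + 1)) (Fin (m + 1)) K) p := Matrix.charP p
  have hp : p.Prime := Fact.out
  have hmem : ∀ g : {g : Matrix.GeneralLinearGroup (Fin (m + 1)) K // ∃ k : ℕ, orderOf g = p ^ k},
      IsNilpotent (((g.1 : Matrix.GeneralLinearGroup (Fin (m + 1)) K) :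
        Matrix (Fin (m + 1)) (Fin (m + 1)) K) - 1) := by
    intro g
    obtain ⟨k, hk⟩ := g.2
    refine ⟨p ^ k, ?_⟩
    rw [sub_pow_char_pow_of_commute p k (Commute.one_right _), one_pow, sub_eq_zero]
    have h1 : g.1 ^ p ^ k = 1 := by rw [← hk]; exact pow_orderOf_eq_one _
    have h2 := congrArg (fun u : Matrix.GeneralLinearGroup (Fin (m + 1)) K =>
      (u : Matrix (Fin (m + 1)) (Fin (m + 1)) K)) h1
    simpa using h2
  refine Nat.card_congr (Equiv.ofBijective (fun g => ⟨_, hmem g⟩) ⟨?_, ?_⟩)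
  · intro g g' h
    have h1 : ((g.1 : Matrix.GeneralLinearGroup (Fin (m + 1)) K) :
        Matrix (Fin (m + 1)) (Fin (m + 1)) K) - 1 = (g'.1 : Matrix.GeneralLinearGroup (Fin (m + 1)) K) - 1 := by
      have h0 := congrArg Subtype.val h
      exact h0
    exact Subtype.ext (Units.ext (sub_left_injective h1))
  · rintro ⟨N, hN⟩
    obtain ⟨u, hu⟩ := hN.isUnit_one_add
    obtain ⟨n', hn'⟩ := hN
    have hle : n' ≤ p ^ n' := (Nat.lt_pow_self hp.one_lt).le
    have hpow : u ^ p ^ n' = 1 := by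
      apply Units.ext
      rw [Units.val_pow_eq_pow_val, hu, add_pow_char_pow_of_commute p n' (Commute.one_left _),
        one_pow, pow_eq_zero_of_le hle hn', add_zero]
      rfl
    obtain ⟨k, -, hk⟩ := (Nat.dvd_prime_pow hp).mp (orderOf_dvd_of_pow_eq_one hpow)
    refine ⟨⟨u, k, hk⟩, ?_⟩
    apply Subtype.ext
    show (u : Matrix (Fin (m + 1)) (Fin (m + 1)) K) - 1 = N
    rw [hu, add_sub_cancel_left]

end Final

theorem main {F : Type*} [Field F] [Fintype F] (p : ℕ) [Fact p.Prime] [CharP F p] (n : ℕ) :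
    Nat.card {g : Matrix.GeneralLinearGroup (Fin n) F // ∃ k : ℕ, orderOf g = p ^ k} =
      Fintype.card F ^ (n * (n - 1)) := by
  cases n with
  | zero =>
    have h1 : Nat.card {g : Matrix.GeneralLinearGroup (Fin 0) F // ∃ k : ℕ, orderOf g = p ^ k} = 1 := by
      rw [Nat.card_eq_one_iff_unique]
      refine ⟨⟨fun a b => Subtype.ext (Subsingleton.elim _ _)⟩, ⟨⟨1, 0, by simp⟩⟩⟩
    rw [h1]
    simp
  | succ m =>
    rw [unip_equiv, nilp_mat_card, nl_succ]
    simp



/-- Steinberg's count of unipotent elements for the general linear group: over a finite field with q elements of characteristic p, the number of elements of GL_n of p-power order (the unipotent matrices) is q^(n(n−1)). -/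
theorem result {F : Type*} [Field F] [Fintype F] (p : ℕ) [Fact p.Prime] [CharP F p] (n : ℕ) :
    Nat.card {g : Matrix.GeneralLinearGroup (Fin n) F // ∃ k : ℕ, orderOf g = p ^ k} = Fintype.card F ^ (n * (n - 1)) := by
  exact main p n

end Cfsg.Agent.S2315
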