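import Cfsg.Statements.S2317
-- import your own Cfsg.Agent.* helpers here
import Mathlib
import Cfsg.Agent.Lib.helper18.JordanGL

set_option autoImplicit false
open Cfsg

namespace Cfsg.Agent.S2317


open Cfsg.Agent.Lib.helper18.Jordan Matrix

theorem main {F : Type*} [Field F] [Fintype F] (p : ℕ) [Fact p.Prime] [CharP F p] (n : ℕ) :
    Nat.card {C : ConjClasses (Matrix.GeneralLinearGroup (Fin n) F) //
      ∃ g : Matrix.GeneralLinearGroup (Fin n) F, (∃ k : ℕ, orderOf g = p ^ k) ∧ ConjClasses.mk g = C} =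
      Fintype.card (Nat.Partition n) := by
  classical
  rw [← Nat.card_eq_fintype_card]
  apply Nat.card_congr
  have hnil : ∀ C : {C : ConjClasses (Matrix.GeneralLinearGroup (Fin n) F) //
      ∃ g : Matrix.GeneralLinearGroup (Fin n) F, (∃ k : ℕ, orderOf g = p ^ k) ∧ ConjClasses.mk g = C},
      IsNilpotent (nilp C.2.choose) := fun C => (isNilpotent_nilp_iff p _).2 C.2.choose_spec.1
  refine Equiv.ofBijective (fun C => (⟨ut C.2.choose, fun {i} hi => ut_pos _ i hi,
    ut_sum _ (hnil C)⟩ : Nat.Partition n)) ⟨?_, ?_⟩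
  · intro C C' h
    have h1 : ut C.2.choose = ut C'.2.choose := congrArg Nat.Partition.parts h
    have h2 := (isConj_iff_ut _ _ (hnil C) (hnil C')).2 h1
    apply Subtype.ext
    rw [← C.2.choose_spec.2, ← C'.2.choose_spec.2]
    exact ConjClasses.mk_eq_mk_iff_isConj.2 h2
  · intro μ
    obtain ⟨g, hg, hgm⟩ := exists_ut (F := F) μ.parts (fun a ha => μ.parts_pos ha) μ.parts_sum
    have hu := (isNilpotent_nilp_iff p g).1 hg
    have hex : ∃ g' : Matrix.GeneralLinearGroup (Fin n) F, (∃ k : ℕ, orderOf g' = p ^ k) ∧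
        ConjClasses.mk g' = ConjClasses.mk g := ⟨g, hu, rfl⟩
    refine ⟨⟨ConjClasses.mk g, hex⟩, ?_⟩
    apply Nat.Partition.ext
    show ut hex.choose = μ.parts
    have h1 : IsConj hex.choose g := ConjClasses.mk_eq_mk_iff_isConj.1 hex.choose_spec.2
    rw [← hgm]
    exact (isConj_iff_ut _ _ ((isNilpotent_nilp_iff p _).2 hex.choose_spec.1) hg).1 h1



/-- Over a finite field of characteristic p, the conjugacy classes of GL_n consisting of elements of p-power order (the unipotent classes) are as many as the partitions of n. -/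
theorem result {F : Type*} [Field F] [Fintype F] (p : ℕ) [Fact p.Prime] [CharP F p] (n : ℕ) :
    Nat.card {C : ConjClasses (Matrix.GeneralLinearGroup (Fin n) F) //
      ∃ g : Matrix.GeneralLinearGroup (Fin n) F, (∃ k : ℕ, orderOf g = p ^ k) ∧ ConjClasses.mk g = C} =
      Fintype.card (Nat.Partition n) := by
  exact main p n

end Cfsg.Agent.S2317
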