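import Cfsg.Statements.S2320
import Cfsg.Agent.Lib.helper12.GL2Table
-- import your own Cfsg.Agent.* helpers here

set_option autoImplicit false
open Cfsg

namespace Cfsg.Agent.S2320

open Cfsg.Agent.Lib.helper12 Cfsg.Agent.Lib.helper24


/-- Over a finite field F with q elements, every irreducible complex character of GL₂ of degree q takes a value of absolute value 1 at every diagonal matrix with two different diagonal entries and at every element with no eigenvector in F². -/
theorem result {F : Type*} [Field F] [Fintype F] (χ : Matrix.GeneralLinearGroup (Fin 2) F → ℂ) (hχ : Cfsg.IsIrrCharacter (Matrix.GeneralLinearGroup (Fin 2) F) χ) (hdeg : χ 1 = (Fintype.card F : ℂ)) (g : Matrix.GeneralLinearGroup (Fin 2) F) :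
    ((g : Matrix (Fin 2) (Fin 2) F) 0 1 = 0 → (g : Matrix (Fin 2) (Fin 2) F) 1 0 = 0 → (g : Matrix (Fin 2) (Fin 2) F) 0 0 ≠ (g : Matrix (Fin 2) (Fin 2) F) 1 1 → ‖χ g‖ = 1) ∧
    ((∀ (c : F) (v : Fin 2 → F), v ≠ 0 → (g : Matrix (Fin 2) (Fin 2) F).mulVec v ≠ c • v) → ‖χ g‖ = 1) := by
  classical
  have hq2 : (2 : ℕ) ≤ Fintype.card F := Fintype.one_lt_card
  have e0 : (Fintype.card F : ℂ) ≠ 0 := by
    exact_mod_cast (by omega : Fintype.card F ≠ 0)
  have e1 : (Fintype.card F : ℂ) ≠ 1 := by
    exact_mod_cast (by omega : Fintype.card F ≠ 1)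
  have hnorm : ∀ (α : MulChar F ℂ) (a : F), a ≠ 0 → ‖α a‖ = 1 := by
    intro α a ha
    have h := mulChar_norm_sq α (Units.mk0 a ha)
    rw [Units.val_mk0, Complex.mul_conj] at h
    have h2 : ((Complex.normSq (α a) : ℝ) : ℂ) = ((1 : ℝ) : ℂ) := by rw [h]; simp
    have h3 : Complex.normSq (α a) = 1 := by exact_mod_cast h2
    rw [Complex.normSq_eq_norm_sq] at h3
    have h4 : (0 : ℝ) ≤ ‖α a‖ := norm_nonneg _
    nlinarith
  have hdet : (g : Matrix (Fin 2) (Fin 2) F).det ≠ 0 :=
    ((Matrix.isUnit_iff_isUnit_det _).mp (Units.isUnit g)).ne_zero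
  rcases GL2_irr_classify ⟨χ, hχ⟩ with ⟨α, h⟩ | ⟨α, h⟩ | ⟨α, β, hne', h⟩ | ⟨hc, h1, _⟩
  · simp only at h
    rw [h, lamGL_apply_one] at hdeg
    exact absurd hdeg.symm e1
  · simp only at h
    subst h
    refine ⟨fun h01 h10 hne => ?_, fun hell => ?_⟩
    · have hv : stGL α g = α ((g : Matrix (Fin 2) (Fin 2) F) 0 0) * α ((g : Matrix (Fin 2) (Fin 2) F) 1 1) := by
        show (RGL α α - lamGL α) g = _
        rw [Pi.sub_apply]
        show indFun _ _ g - _ = _
        rw [RGL_apply_upper α α g h10, h01]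
        have hs : ∀ y : F, (if ((g : Matrix (Fin 2) (Fin 2) F) 0 0 - (g : Matrix (Fin 2) (Fin 2) F) 1 1) * y + 0 = 0 then
            α ((g : Matrix (Fin 2) (Fin 2) F) 1 1) * α ((g : Matrix (Fin 2) (Fin 2) F) 0 0) else 0) =
            if y = 0 then α ((g : Matrix (Fin 2) (Fin 2) F) 1 1) * α ((g : Matrix (Fin 2) (Fin 2) F) 0 0) else 0 := by
          intro y
          have : ((g : Matrix (Fin 2) (Fin 2) F) 0 0 - (g : Matrix (Fin 2) (Fin 2) F) 1 1) * y + 0 = 0 ↔ y = 0 := by
            rw [add_zero, mul_eq_zero]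
            constructor
            · rintro (h | h)
              · exact absurd (sub_eq_zero.mp h) hne
              · exact h
            · intro h
              exact Or.inr h
          simp only [this]
        simp only [hs, Finset.sum_ite_eq', Finset.mem_univ, if_true]
        simp only [lamGL]
        rw [Matrix.det_fin_two, h01, zero_mul, sub_zero, map_mul]
        ring
      rw [hv, norm_mul]
      rw [Matrix.det_fin_two, h01, zero_mul, sub_zero] at hdet
      rw [hnorm α _ (left_ne_zero_of_mul hdet), hnorm α _ (right_ne_zero_of_mul hdet), mul_one]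
    · have hv : stGL α g = - α ((g : Matrix (Fin 2) (Fin 2) F).det) := by
        show (RGL α α - lamGL α) g = _
        rw [Pi.sub_apply]
        show indFun _ _ g - _ = _
        rw [indFun_borelGL_elliptic _ (borelChar_isClassFunction α α) g hell, zero_sub]
        rfl
      rw [hv, norm_neg, hnorm α _ hdet]
  · simp only at h
    rw [h, RGL_apply_one] at hdeg
    exact absurd (by linear_combination hdeg : (1 : ℂ) = 0) one_ne_zero
  · simp only at h1
    rw [h1] at hdeg
    exact absurd (by linear_combination -hdeg : (1 : ℂ) = 0) one_ne_zero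

end Cfsg.Agent.S2320
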