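import Cfsg.Statements.S2322
import Cfsg.Agent.Lib.helper12.SL2Vals
-- import your own Cfsg.Agent.* helpers here

set_option autoImplicit false
open Cfsg

namespace Cfsg.Agent.S2322

open Cfsg.Agent.Lib.helper12 Cfsg.Agent.Lib.helper24
open scoped MatrixGroups

/-- Over a finite field F with q elements, q odd: every irreducible complex character of SL₂ of degree q − 1 or (q − 1)/2 vanishes at every diagonal matrix whose diagonal entry a has a² ≠ 1, and every irreducible complex character of degree q + 1 or (q + 1)/2 vanishes at every element with no eigenvector in F². -/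
theorem result {F : Type*} [Field F] [Fintype F] (hodd : Odd (Fintype.card F)) (χ : Matrix.SpecialLinearGroup (Fin 2) F → ℂ) (hχ : Cfsg.IsIrrCharacter (Matrix.SpecialLinearGroup (Fin 2) F) χ) (g : Matrix.SpecialLinearGroup (Fin 2) F) :
    ((χ 1 = (Fintype.card F : ℂ) - 1 ∨ χ 1 = (((Fintype.card F - 1) / 2 : ℕ) : ℂ)) →
      (g : Matrix (Fin 2) (Fin 2) F) 0 1 = 0 → (g : Matrix (Fin 2) (Fin 2) F) 1 0 = 0 → (g : Matrix (Fin 2) (Fin 2) F) 0 0 ^ 2 ≠ 1 → χ g = 0) ∧
    ((χ 1 = (Fintype.card F : ℂ) + 1 ∨ χ 1 = (((Fintype.card F + 1) / 2 : ℕ) : ℂ)) →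
      (∀ (c : F) (v : Fin 2 → F), v ≠ 0 → (g : Matrix (Fin 2) (Fin 2) F).mulVec v ≠ c • v) → χ g = 0) := by
  classical
  have hq := card_field_two_le (F := F)
  have hodd' : Fintype.card F % 2 = 1 := Nat.odd_iff.mp hodd
  have hh1 := card_cast_half_add (F := F) hodd'
  have hh2 := card_cast_half_sub (F := F) hodd'
  obtain ⟨α₀, ν, ψ, hα, hα1, hν, hψ⟩ := SL2_odd_setup hodd'
  have hν0 := quad_ne_zero hν
  obtain ⟨ξ₁, ξ₂, hne, hξ⟩ := exists_two_irr_of_norm_two (RSL_isCharacter α₀) (RSL_norm_two hα)
  have e0 : (Fintype.card F : ℂ) ≠ 0 := by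
    exact_mod_cast (by omega : Fintype.card F ≠ 0)
  have e1 : (Fintype.card F : ℂ) ≠ 1 := by
    exact_mod_cast (by omega : Fintype.card F ≠ 1)
  have e2 : (Fintype.card F : ℂ) ≠ 2 := by
    exact_mod_cast (by omega : Fintype.card F ≠ 2)
  have em1 : (Fintype.card F : ℂ) ≠ -1 := by
    have := card_cast_ne_neg (F := F) 1 one_ne_zero
    simpa using this
  have em3 : (Fintype.card F : ℂ) ≠ -3 := by
    have := card_cast_ne_neg (F := F) 3 (by norm_num)
    simpa using this
  have e3' : Fintype.card F = 3 → ∀ a : F, a ≠ 0 → a ^ 2 = 1 := by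
    intro h3 a ha
    have := FiniteField.pow_card_sub_one_eq_one a ha
    rw [h3] at this
    exact this
  rw [hh1, hh2]
  refine ⟨?_, ?_⟩
  · intro hd h01 h10 hsq
    obtain ⟨a, ha0, -, hg⟩ := SL2_diag_eq g h01 h10
    have h3 : Fintype.card F ≠ 3 := by
      intro h3
      apply hsq
      apply e3' h3
      rw [← ha0]
      exact a.ne_zero
    have e3 : (Fintype.card F : ℂ) ≠ 3 := by exact_mod_cast h3
    have hcusp : IsCuspSL χ → χ g = 0 := by
      intro hc
      rw [hg]
      exact SL2_cusp_split χ (isCharacter_conj_class (isCharacter_of_isIrrCharacter hχ)) hc a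
        (by rw [ha0]; exact hsq) 0
    rcases SL2_irr_classify_deg_odd hα hα1 hν hψ hne hξ ⟨χ, hχ⟩ with ⟨-, h⟩ | ⟨-, h⟩ |
      ⟨α, -, -, h⟩ | ⟨-, h⟩ | ⟨hc, -⟩ | ⟨hc, -⟩
    · simp only at h
      rcases hd with hd | hd <;> rw [h] at hd
      · exact absurd (by linear_combination -hd : (Fintype.card F : ℂ) = 2) e2
      · exact absurd (by linear_combination -2 * hd : (Fintype.card F : ℂ) = 3) e3
    · simp only at h
      rcases hd with hd | hd <;> rw [h] at hd
      · exact absurd (by linear_combination hd : (1 : ℂ) = 0) one_ne_zero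
      · exact absurd (by linear_combination 2 * hd : (Fintype.card F : ℂ) = -1) em1
    · simp only at h
      rcases hd with hd | hd <;> rw [h] at hd
      · exact absurd (by linear_combination (1 / 2 : ℂ) * hd : (1 : ℂ) = 0) one_ne_zero
      · exact absurd (by linear_combination 2 * hd : (Fintype.card F : ℂ) = -3) em3
    · simp only at h
      rcases hd with hd | hd <;> rw [h] at hd
      · exact absurd (by linear_combination -2 * hd : (Fintype.card F : ℂ) = 3) e3
      · exact absurd (by linear_combination hd : (1 : ℂ) = 0) one_ne_zero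
    · exact hcusp hc
    · exact hcusp hc
  · intro hd hell
    rcases SL2_irr_classify_deg_odd hα hα1 hν hψ hne hξ ⟨χ, hχ⟩ with ⟨-, h⟩ | ⟨-, h⟩ |
      ⟨α, -, h, -⟩ | ⟨h, -⟩ | ⟨hc, -, h1, hm, h⟩ | ⟨-, -, -, h⟩
    · simp only at h
      rcases hd with hd | hd <;> rw [h] at hd
      · exact absurd (by linear_combination -hd : (Fintype.card F : ℂ) = 0) e0
      · exact absurd (by linear_combination -2 * hd : (Fintype.card F : ℂ) = 1) e1
    · simp only at h
      rcases hd with hd | hd <;> rw [h] at hd
      · exact absurd (by linear_combination -hd : (1 : ℂ) = 0) one_ne_zero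
      · exact absurd (by linear_combination 2 * hd : (Fintype.card F : ℂ) = 1) e1
    · simp only at h
      rw [h]
      exact RSL_apply_elliptic α g hell
    · obtain ⟨x1, x2⟩ := SL2_xi_value_reg hα hα1 hne hξ g
        (elliptic_trace_sq_ne_four (quad_two_ne_zero hα hν) g hell)
      rw [RSL_apply_elliptic α₀ g hell] at x1 x2
      rcases h with h | h
      · have h' : χ = ξ₁.1 := congrArg Subtype.val h
        rw [h']
        simpa using x1
      · have h' : χ = ξ₂.1 := congrArg Subtype.val h
        rw [h']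
        simpa using x2
    · simp only at h
      rcases hd with hd | hd <;> rw [h] at hd
      · exact absurd (by linear_combination (-1 / 2 : ℂ) * hd : (1 : ℂ) = 0) one_ne_zero
      · have h3c : (Fintype.card F : ℂ) = 3 := by linear_combination 2 * hd
        have h3 : Fintype.card F = 3 := by exact_mod_cast h3c
        exact SL2_cusp_elliptic_q3 h3 hα hα1 hν hψ ⟨χ, hχ⟩ hc h1 hm g hell
    · simp only at h
      rcases hd with hd | hd <;> rw [h] at hd
      · exact absurd (by linear_combination -2 * hd : (Fintype.card F : ℂ) = -3) em3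
      · exact absurd (by linear_combination -hd : (1 : ℂ) = 0) one_ne_zero

end Cfsg.Agent.S2322
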