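import Cfsg.Statements.S2323
import Cfsg.Agent.Lib.helper12.SL2Vals
-- import your own Cfsg.Agent.* helpers here

set_option autoImplicit false
open Cfsg

namespace Cfsg.Agent.S2323

open Cfsg.Agent.Lib.helper12 Cfsg.Agent.Lib.helper24
open scoped MatrixGroups

/-- Over a finite field F with q ≥ 4 elements, let u be the upper unitriangular matrix of SL₂ with off-diagonal entry 1. An irreducible complex character of SL₂ takes at u the value 1 if its degree is q + 1 and the value −1 if its degree is q − 1. -/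
theorem result {F : Type*} [Field F] [Fintype F] (hq : 4 ≤ Fintype.card F) (χ : Matrix.SpecialLinearGroup (Fin 2) F → ℂ) (hχ : Cfsg.IsIrrCharacter (Matrix.SpecialLinearGroup (Fin 2) F) χ)
    (u : Matrix.SpecialLinearGroup (Fin 2) F) (hu : (u : Matrix (Fin 2) (Fin 2) F) = !![1, 1; 0, 1]) :
    (χ 1 = (Fintype.card F : ℂ) + 1 → χ u = 1) ∧ (χ 1 = (Fintype.card F : ℂ) - 1 → χ u = -1) := by
  classical
  have hu' : u = uSL 1 := Subtype.ext (hu.trans (uSL_val 1).symm)
  subst hu'
  refine ⟨?_, ?_⟩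
  · intro hd
    obtain ⟨α, h⟩ := SL2_deg_q_add_one ⟨χ, hχ⟩ hd
    simp only at h
    rw [h]
    exact RSL_apply_uSL α one_ne_zero
  · intro hd
    exact (SL2_deg_q_sub_one hq ⟨χ, hχ⟩ hd).2 1 one_ne_zero

end Cfsg.Agent.S2323
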