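import Cfsg.Statements.S2324
import Cfsg.Agent.Lib.helper12.SL2Odd3
-- import your own Cfsg.Agent.* helpers here

set_option autoImplicit false
open Cfsg

namespace Cfsg.Agent.S2324

open Cfsg.Agent.Lib.helper12 Cfsg.Agent.Lib.helper24
open scoped MatrixGroups

/-- Over a finite field F with q elements, q odd and q ≥ 5, let u be the upper unitriangular matrix of SL₂ with off-diagonal entry 1 and let δ = (−1)^((q−1)/2). Every irreducible complex character χ of SL₂ of degree (q + 1)/2 satisfies (2χ(u) − 1)² = δq, and every irreducible complex character χ of degree (q − 1)/2 satisfies (2χ(u) + 1)² = δq; that is, χ(u) = (1 ± √(δq))/2 in the first case and χ(u) = (−1 ± √(δq))/2 in the second. Moreover two different irreducible characters of degree (q + 1)/2 take the two different values (their values at u add up to 1), and likewise for degree (q − 1)/2 (values adding up to −1). -/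
theorem result {F : Type*} [Field F] [Fintype F] (hodd : Odd (Fintype.card F)) (hq : 5 ≤ Fintype.card F)
    (u : Matrix.SpecialLinearGroup (Fin 2) F) (hu : (u : Matrix (Fin 2) (Fin 2) F) = !![1, 1; 0, 1]) :
    (∀ χ : Matrix.SpecialLinearGroup (Fin 2) F → ℂ, Cfsg.IsIrrCharacter (Matrix.SpecialLinearGroup (Fin 2) F) χ → χ 1 = (((Fintype.card F + 1) / 2 : ℕ) : ℂ) → (2 * χ u - 1) ^ 2 = (-1 : ℂ) ^ ((Fintype.card F - 1) / 2) * (Fintype.card F : ℂ)) ∧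
    (∀ χ : Matrix.SpecialLinearGroup (Fin 2) F → ℂ, Cfsg.IsIrrCharacter (Matrix.SpecialLinearGroup (Fin 2) F) χ → χ 1 = (((Fintype.card F - 1) / 2 : ℕ) : ℂ) → (2 * χ u + 1) ^ 2 = (-1 : ℂ) ^ ((Fintype.card F - 1) / 2) * (Fintype.card F : ℂ)) ∧
    (∀ χ₁ χ₂ : Matrix.SpecialLinearGroup (Fin 2) F → ℂ, Cfsg.IsIrrCharacter (Matrix.SpecialLinearGroup (Fin 2) F) χ₁ → Cfsg.IsIrrCharacter (Matrix.SpecialLinearGroup (Fin 2) F) χ₂ → χ₁ ≠ χ₂ →
      χ₁ 1 = (((Fintype.card F + 1) / 2 : ℕ) : ℂ) → χ₂ 1 = (((Fintype.card F + 1) / 2 : ℕ) : ℂ) → χ₁ u + χ₂ u = 1) ∧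
    (∀ χ₁ χ₂ : Matrix.SpecialLinearGroup (Fin 2) F → ℂ, Cfsg.IsIrrCharacter (Matrix.SpecialLinearGroup (Fin 2) F) χ₁ → Cfsg.IsIrrCharacter (Matrix.SpecialLinearGroup (Fin 2) F) χ₂ → χ₁ ≠ χ₂ →
      χ₁ 1 = (((Fintype.card F - 1) / 2 : ℕ) : ℂ) → χ₂ 1 = (((Fintype.card F - 1) / 2 : ℕ) : ℂ) → χ₁ u + χ₂ u = -1) := by
  classical
  have hodd' : Fintype.card F % 2 = 1 := Nat.odd_iff.mp hodd
  have hh1 := card_cast_half_add (F := F) hodd'
  have hh2 := card_cast_half_sub (F := F) hodd'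
  obtain ⟨α₀, ν, ψ, hα, hα1, hν, hψ⟩ := SL2_odd_setup hodd'
  have hν0 := quad_ne_zero hν
  obtain ⟨ξ₁, ξ₂, hne, hξ⟩ := exists_two_irr_of_norm_two (RSL_isCharacter α₀) (RSL_norm_two hα)
  have e0 : (Fintype.card F : ℂ) ≠ 0 := by
    exact_mod_cast (by omega : Fintype.card F ≠ 0)
  have e1 : (Fintype.card F : ℂ) ≠ 1 := by
    exact_mod_cast (by omega : Fintype.card F ≠ 1)
  have e2 : (Fintype.card F : ℂ) ≠ 2 := by
    exact_mod_cast (by omega : Fintype.card F ≠ 2)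
  have em1 : (Fintype.card F : ℂ) ≠ -1 := by
    have := card_cast_ne_neg (F := F) 1 one_ne_zero
    simpa using this
  have em3 : (Fintype.card F : ℂ) ≠ -3 := by
    have := card_cast_ne_neg (F := F) 3 (by norm_num)
    simpa using this
  have e3 : (Fintype.card F : ℂ) ≠ 3 := by
    exact_mod_cast (by omega : Fintype.card F ≠ 3)
  have hu' : u = uSL 1 := Subtype.ext (hu.trans (uSL_val 1).symm)
  subst hu'
  rw [hh1, hh2, ← quad_neg_one hα hα1]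
  have hplus : ∀ χ : Cfsg.IrrCharacter SL(2, F), χ.1 1 = ((Fintype.card F : ℂ) + 1) / 2 →
      χ = ξ₁ ∨ χ = ξ₂ := by
    intro χ hd
    rcases SL2_irr_classify_deg_odd hα hα1 hν hψ hne hξ χ with ⟨-, h⟩ | ⟨-, h⟩ | ⟨α, -, -, h⟩ |
      ⟨h, -⟩ | ⟨-, -, -, -, h⟩ | ⟨-, -, -, h⟩
    · rw [h] at hd
      exact absurd (by linear_combination -2 * hd : (Fintype.card F : ℂ) = 1) e1
    · rw [h] at hd
      exact absurd (by linear_combination 2 * hd : (Fintype.card F : ℂ) = 1) e1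
    · rw [h] at hd
      exact absurd (by linear_combination 2 * hd : (Fintype.card F : ℂ) = -1) em1
    · exact h
    · rw [h] at hd
      exact absurd (by linear_combination 2 * hd : (Fintype.card F : ℂ) = 3) e3
    · rw [h] at hd
      exact absurd (by linear_combination -hd : (1 : ℂ) = 0) one_ne_zero
  have hminus : ∀ χ : Cfsg.IrrCharacter SL(2, F), χ.1 1 = ((Fintype.card F : ℂ) - 1) / 2 →
      IsCuspSL χ.1 ∧ nU ψ χ.1 0 = 0 ∧ nU ψ χ.1 1 + nU ψ χ.1 ν = 1 := by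
    intro χ hd
    rcases SL2_irr_classify_deg_odd hα hα1 hν hψ hne hξ χ with ⟨-, h⟩ | ⟨-, h⟩ | ⟨α, -, -, h⟩ |
      ⟨-, h⟩ | ⟨-, -, -, -, h⟩ | ⟨hc, h0, hA, -⟩
    · rw [h] at hd
      exact absurd (by linear_combination -2 * hd : (Fintype.card F : ℂ) = 3) e3
    · rw [h] at hd
      exact absurd (by linear_combination 2 * hd : (Fintype.card F : ℂ) = -1) em1
    · rw [h] at hd
      exact absurd (by linear_combination 2 * hd : (Fintype.card F : ℂ) = -3) em3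
    · rw [h] at hd
      exact absurd (by linear_combination hd : (1 : ℂ) = 0) one_ne_zero
    · rw [h] at hd
      exact absurd (by linear_combination 2 * hd : (Fintype.card F : ℂ) = 1) e1
    · exact ⟨hc, h0, hA⟩
  obtain ⟨x01, xA1, x02, xA2⟩ := SL2_xi_data hα hα1 hν hψ hne hξ
  have hxi : ∀ χ : Cfsg.IrrCharacter SL(2, F), χ = ξ₁ ∨ χ = ξ₂ →
      nU ψ χ.1 0 = 1 ∧ nU ψ χ.1 1 + nU ψ χ.1 ν = 1 := by
    rintro χ (rfl | rfl)
    · exact ⟨x01, xA1⟩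
    · exact ⟨x02, xA2⟩
  refine ⟨?_, ?_, ?_, ?_⟩
  · intro χ hχ hd
    obtain ⟨h0, hA⟩ := hxi ⟨χ, hχ⟩ (hplus ⟨χ, hχ⟩ hd)
    obtain ⟨-, hv⟩ := SL2_U_half hα hα1 hν hψ (isCharacter_of_isIrrCharacter hχ) hA
    have h := hv 1 one_ne_zero
    simp only at h0
    rw [h0] at h
    rw [← h]
    push_cast
    ring
  · intro χ hχ hd
    obtain ⟨hc, h0, hA⟩ := hminus ⟨χ, hχ⟩ hd
    obtain ⟨-, hv⟩ := SL2_U_half hα hα1 hν hψ (isCharacter_of_isIrrCharacter hχ) hA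
    have h := hv 1 one_ne_zero
    simp only at h0
    rw [h0] at h
    rw [← h]
    push_cast
    ring
  · intro χ₁ χ₂ hχ₁ hχ₂ h12 hd₁ hd₂
    have hval : ξ₁.1 (uSL 1) + ξ₂.1 (uSL 1) = 1 := by
      have := congrFun hξ (uSL 1)
      rw [RSL_apply_uSL α₀ one_ne_zero] at this
      rw [this]
      rfl
    rcases hplus ⟨χ₁, hχ₁⟩ hd₁ with h1 | h1 <;> rcases hplus ⟨χ₂, hχ₂⟩ hd₂ with h2 | h2
    · exact absurd (congrArg Subtype.val (h1.trans h2.symm)) h12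
    · have a1 : χ₁ = ξ₁.1 := congrArg Subtype.val h1
      have a2 : χ₂ = ξ₂.1 := congrArg Subtype.val h2
      rw [a1, a2]
      exact hval
    · have a1 : χ₁ = ξ₂.1 := congrArg Subtype.val h1
      have a2 : χ₂ = ξ₁.1 := congrArg Subtype.val h2
      rw [a1, a2, add_comm]
      exact hval
    · exact absurd (congrArg Subtype.val (h1.trans h2.symm)) h12
  · intro χ₁ χ₂ hχ₁ hχ₂ h12 hd₁ hd₂
    obtain ⟨hc₁, h0₁, hA₁⟩ := hminus ⟨χ₁, hχ₁⟩ hd₁
    obtain ⟨hc₂, h0₂, hA₂⟩ := hminus ⟨χ₂, hχ₂⟩ hd₂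
    have h12' : (⟨χ₁, hχ₁⟩ : Cfsg.IrrCharacter SL(2, F)) ≠ ⟨χ₂, hχ₂⟩ := fun h => h12 (congrArg Subtype.val h)
    have hpair := SL2_cusp_half_pair hα hα1 hν hψ h12' hc₁ hc₂ hA₁ hA₂
    obtain ⟨-, -, hv₁⟩ := SL2_U_odd hα hα1 hν hψ (isCharacter_of_isIrrCharacter hχ₁)
    obtain ⟨-, -, hv₂⟩ := SL2_U_odd hα hα1 hν hψ (isCharacter_of_isIrrCharacter hχ₂)
    have v₁ := hv₁ 1 one_ne_zero
    have v₂ := hv₂ 1 one_ne_zero
    simp only at h0₁ h0₂ hA₁ hA₂ hpair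
    have a₁ : (nU ψ χ₁ 1 : ℂ) + nU ψ χ₁ ν = 1 := by exact_mod_cast hA₁
    have a₂ : (nU ψ χ₂ 1 : ℂ) + nU ψ χ₂ ν = 1 := by exact_mod_cast hA₂
    rw [h0₁, a₁, map_one] at v₁
    rw [h0₂, a₂, map_one] at v₂
    push_cast at v₁ v₂
    linear_combination (1 / 2 : ℂ) * v₁ + (1 / 2 : ℂ) * v₂ + (1 / 2 : ℂ) * gaussSum α₀ ψ * hpair

end Cfsg.Agent.S2324
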