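import Cfsg.Statements.S2329
import Mathlib
-- import your own Cfsg.Agent.* helpers here

set_option autoImplicit false
open Cfsg

namespace Cfsg.Agent.S2329

open Matrix

theorem nilp_sq_zero {F : Type*} [Field F] (N : Matrix (Fin 2) (Fin 2) F) (hN : IsNilpotent N) :
    N * N = 0 := by
  have htr : N.trace = 0 := (Matrix.isNilpotent_trace_of_isNilpotent hN).eq_zero
  have hdet : N.det = 0 := by
    obtain ⟨k, hk⟩ := hN
    have : N.det ^ k = 0 := by rw [← Matrix.det_pow, hk]; simp [Matrix.det_zero]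
    exact IsNilpotent.eq_zero ⟨k, this⟩
  rw [Matrix.trace_fin_two] at htr
  rw [Matrix.det_fin_two] at hdet
  ext i j
  fin_cases i <;> fin_cases j <;> simp [Matrix.mul_apply, Fin.sum_univ_two]
  · linear_combination (N 0 0) * htr - hdet
  · linear_combination (N 0 1) * htr
  · linear_combination (N 1 0) * htr
  · linear_combination (N 1 1) * htr - hdet

theorem conj_to_std {F : Type*} [Field F] (p : ℕ) [Fact p.Prime] [CharP F p]
    (g : Matrix.GeneralLinearGroup (Fin 2) F) (hg : orderOf g = p) :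
    ∃ P : Matrix.GeneralLinearGroup (Fin 2) F,
      (g : Matrix (Fin 2) (Fin 2) F) * (P : Matrix (Fin 2) (Fin 2) F) =
        (P : Matrix (Fin 2) (Fin 2) F) * !![1, 1; 0, 1] := by
  have hp : p.Prime := Fact.out
  set A : Matrix (Fin 2) (Fin 2) F := (g : Matrix (Fin 2) (Fin 2) F) with hA
  have hAp : A ^ p = 1 := by
    have : g ^ p = 1 := by rw [← hg]; exact pow_orderOf_eq_one g
    have h2 := congrArg (fun x : Matrix.GeneralLinearGroup (Fin 2) F => (x : Matrix (Fin 2) (Fin 2) F)) this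
    simpa using h2
  have hA1 : A ≠ 1 := by
    intro h
    have : g = 1 := Units.ext (by simpa [hA] using h)
    rw [this, orderOf_one] at hg
    exact hp.one_lt.ne hg
  have hnil : IsNilpotent (A - 1) := by
    refine ⟨p, ?_⟩
    rw [sub_pow_char_of_commute p (Commute.one_right A), hAp, one_pow, sub_self]
  have hsq := nilp_sq_zero (A - 1) hnil
  have e00 := congrFun (congrFun hsq 0) 0
  have e01 := congrFun (congrFun hsq 0) 1
  have e10 := congrFun (congrFun hsq 1) 0
  have e11 := congrFun (congrFun hsq 1) 1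
  simp [Matrix.mul_apply, Fin.sum_univ_two] at e00 e01 e10 e11
  by_cases hc : A 1 0 = 0
  · by_cases hb : A 0 1 = 0
    · exfalso
      apply hA1
      rw [hc, hb] at e00 e11
      simp at e00 e11
      ext i j
      fin_cases i <;> fin_cases j <;> simp
      · linear_combination e00
      · exact hb
      · exact hc
      · linear_combination e11
    · have hdet : (!![A 0 1, 0; A 1 1 - 1, 1] : Matrix (Fin 2) (Fin 2) F).det ≠ 0 := by
        simp [Matrix.det_fin_two, hb]
      refine ⟨Matrix.GeneralLinearGroup.mkOfDetNeZero _ hdet, ?_⟩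
      simp only [Matrix.GeneralLinearGroup.mkOfDetNeZero]
      ext i j
      fin_cases i <;> fin_cases j <;> simp [Matrix.mul_apply, Fin.sum_univ_two]
      · linear_combination e01
      · linear_combination e11
  · have hdet : (!![A 0 0 - 1, 1; A 1 0, 0] : Matrix (Fin 2) (Fin 2) F).det ≠ 0 := by
      simp [Matrix.det_fin_two, hc]
    refine ⟨Matrix.GeneralLinearGroup.mkOfDetNeZero _ hdet, ?_⟩
    simp only [Matrix.GeneralLinearGroup.mkOfDetNeZero]
    ext i j
    fin_cases i <;> fin_cases j <;> simp [Matrix.mul_apply, Fin.sum_univ_two]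
    · linear_combination e00
    · linear_combination e10

/-- Over a finite field of characteristic p, any two elements of order p of GL₂ are conjugate: there is a single conjugacy class of non-identity unipotent elements. -/
theorem result {F : Type*} [Field F] [Fintype F] (p : ℕ) [Fact p.Prime] [CharP F p] (g h : Matrix.GeneralLinearGroup (Fin 2) F)
    (hg : orderOf g = p) (hh : orderOf h = p) : IsConj g h := by
  obtain ⟨P, hP⟩ := conj_to_std p g hg
  obtain ⟨Q, hQ⟩ := conj_to_std p h hh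
  rw [isConj_iff]
  refine ⟨Q * P⁻¹, ?_⟩
  apply Units.ext
  have hPP : (P : Matrix (Fin 2) (Fin 2) F) * ((P⁻¹ : Matrix.GeneralLinearGroup (Fin 2) F) : Matrix (Fin 2) (Fin 2) F) = 1 := by
    rw [← Units.val_mul, mul_inv_cancel, Units.val_one]
  have hPP' : ((P⁻¹ : Matrix.GeneralLinearGroup (Fin 2) F) : Matrix (Fin 2) (Fin 2) F) * (P : Matrix (Fin 2) (Fin 2) F) = 1 := by
    rw [← Units.val_mul, inv_mul_cancel, Units.val_one]
  have hQQ : (Q : Matrix (Fin 2) (Fin 2) F) * ((Q⁻¹ : Matrix.GeneralLinearGroup (Fin 2) F) : Matrix (Fin 2) (Fin 2) F) = 1 := by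
    rw [← Units.val_mul, mul_inv_cancel, Units.val_one]
  simp only [Units.val_mul, _root_.mul_inv_rev, inv_inv]
  calc (Q : Matrix (Fin 2) (Fin 2) F) * ((P⁻¹ : Matrix.GeneralLinearGroup (Fin 2) F) : Matrix (Fin 2) (Fin 2) F) * (g : Matrix (Fin 2) (Fin 2) F) * ((P : Matrix (Fin 2) (Fin 2) F) * ((Q⁻¹ : Matrix.GeneralLinearGroup (Fin 2) F) : Matrix (Fin 2) (Fin 2) F))
      = (Q : Matrix (Fin 2) (Fin 2) F) * ((P⁻¹ : Matrix.GeneralLinearGroup (Fin 2) F) : Matrix (Fin 2) (Fin 2) F) * ((g : Matrix (Fin 2) (Fin 2) F) * (P : Matrix (Fin 2) (Fin 2) F)) * ((Q⁻¹ : Matrix.GeneralLinearGroup (Fin 2) F) : Matrix (Fin 2) (Fin 2) F) := by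
        simp only [Matrix.mul_assoc]
    _ = (Q : Matrix (Fin 2) (Fin 2) F) * (((P⁻¹ : Matrix.GeneralLinearGroup (Fin 2) F) : Matrix (Fin 2) (Fin 2) F) * (P : Matrix (Fin 2) (Fin 2) F)) * !![1, 1; 0, 1] * ((Q⁻¹ : Matrix.GeneralLinearGroup (Fin 2) F) : Matrix (Fin 2) (Fin 2) F) := by
        rw [hP]; simp only [Matrix.mul_assoc]
    _ = ((Q : Matrix (Fin 2) (Fin 2) F) * !![1, 1; 0, 1]) * ((Q⁻¹ : Matrix.GeneralLinearGroup (Fin 2) F) : Matrix (Fin 2) (Fin 2) F) := by
        rw [hPP', Matrix.mul_one]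
    _ = (h : Matrix (Fin 2) (Fin 2) F) * ((Q : Matrix (Fin 2) (Fin 2) F) * ((Q⁻¹ : Matrix.GeneralLinearGroup (Fin 2) F) : Matrix (Fin 2) (Fin 2) F)) := by
        rw [← hQ]; simp only [Matrix.mul_assoc]
    _ = (h : Matrix (Fin 2) (Fin 2) F) := by rw [hQQ, Matrix.mul_one]

end Cfsg.Agent.S2329
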