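import Cfsg.Statements.S2367
import Mathlib
-- import your own Cfsg.Agent.* helpers here

set_option autoImplicit false
open Cfsg

namespace Cfsg.Agent.S2367

open Nat

def good (l : List ℕ) : Bool :=
  l.all (fun p => decide (p = 2) || decide (l.count p ≠ 3) || decide (p ^ 3 < 2 ^ (l.count 2)))

theorem key_of_list (N : ℕ) (l : List ℕ) (hl : N.primeFactorsList = l) (hg : good l = true)
    (p : ℕ) (hodd : p ≠ 2) (h3 : N.factorization p = 3) : p ^ 3 < 2 ^ N.factorization 2 := by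
  rw [← Nat.primeFactorsList_count_eq, hl] at h3 ⊢
  have hmem : p ∈ l := List.count_pos_iff.mp (by omega)
  unfold good at hg
  rw [List.all_eq_true] at hg
  have := hg p hmem
  simp only [Bool.or_eq_true, decide_eq_true_eq] at this
  rcases this with (h | h) | h
  · exact absurd h hodd
  · exact absurd h3 h
  · exact h

theorem four_pow_gt (p : ℕ) (hp : 5 ≤ p) : p ^ 3 < 4 ^ (p - 1) := by
  induction p, hp using Nat.le_induction with
  | base => norm_num
  | succ k hk ih =>
    have h1 : k + 1 - 1 = (k - 1) + 1 := by omega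
    have hk2 : 5 * k ^ 2 ≤ k ^ 3 := by nlinarith [sq_nonneg k]
    have hk3 : (k + 1) ^ 3 ≤ 4 * k ^ 3 := by nlinarith [sq_nonneg k]
    have h4 : (4 : ℕ) ^ (k + 1 - 1) = 4 ^ (k - 1) * 4 := by rw [h1, pow_succ]
    rw [h4]
    omega

theorem alt_case (n : ℕ) (hn : 5 ≤ n) (N : ℕ) (hN : 2 * N = n !)
    (p : ℕ) (hp : p.Prime) (hodd : p ≠ 2) (h3 : N.factorization p = 3) :
    p ^ 3 < 2 ^ N.factorization 2 := by
  have hN0 : N ≠ 0 := by
    rintro rfl
    have := Nat.factorial_pos n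
    omega
  have hfac0 : n ! ≠ 0 := (Nat.factorial_pos n).ne'
  have hp3 : 3 ≤ p := by
    have := hp.two_le
    omega
  have hvp : (n !).factorization p = 3 := by
    rw [← hN, Nat.factorization_mul two_ne_zero hN0]
    simp only [Finsupp.coe_add, Pi.add_apply, h3]
    have : (2 : ℕ).factorization p = 0 := by
      rw [Nat.prime_two.factorization]
      simp [hodd.symm]
    omega
  have hv2 : (n !).factorization 2 = 1 + N.factorization 2 := by
    rw [← hN, Nat.factorization_mul two_ne_zero hN0]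
    simp only [Finsupp.coe_add, Pi.add_apply]
    rw [Nat.prime_two.factorization]
    simp
  have hd3 : p ^ 3 ∣ n ! := (hp.pow_dvd_iff_le_factorization hfac0).mpr (by omega)
  have hd4 : ¬ p ^ 4 ∣ n ! := fun h => by
    have := (hp.pow_dvd_iff_le_factorization hfac0).mp h
    omega
  have hn4 : n < 4 * p := by
    by_contra hcon
    rw [not_lt] at hcon
    apply hd4
    refine Dvd.dvd.trans ?_ (Nat.factorial_dvd_factorial hcon)
    rw [hp.pow_dvd_factorial_iff (b := Nat.log p (4 * p) + 2) (by omega)]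
    have hsub : ({1} : Finset ℕ) ⊆ Finset.Ico 1 (Nat.log p (4 * p) + 2) := by
      intro x hx
      simp only [Finset.mem_singleton] at hx
      subst hx
      simp
    have := Finset.sum_le_sum_of_subset (f := fun i => 4 * p / p ^ i) hsub
    simp only [Finset.sum_singleton, pow_one] at this
    have h4 : 4 * p / p = 4 := Nat.mul_div_cancel 4 hp.pos
    omega
  have hn3 : 3 * p ≤ n := by
    by_contra hcon
    rw [not_le] at hcon
    have hlog : Nat.log p n < 2 := by
      apply Nat.log_lt_of_lt_pow (by omega)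
      nlinarith
    rw [hp.pow_dvd_factorial_iff hlog] at hd3
    have h2 : Finset.Ico 1 2 = {1} := by decide
    rw [h2, Finset.sum_singleton, pow_one] at hd3
    have : n / p < 3 := Nat.div_lt_of_lt_mul (by omega)
    omega
  have hp5 : 5 ≤ p := by
    by_contra hcon
    rw [not_le] at hcon
    have hp34 : p = 3 ∨ p = 4 := by omega
    rcases hp34 with rfl | rfl
    · apply hd4
      have h9 : 9 ≤ n := by omega
      exact Dvd.dvd.trans (by decide) (Nat.factorial_dvd_factorial h9)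
    · exact absurd hp (by decide)
  have h2d : 2 ^ (2 * p - 1) ∣ n ! := by
    have hlog : Nat.log 2 n < Nat.log 2 n + 3 := by omega
    rw [Nat.prime_two.pow_dvd_factorial_iff hlog]
    have hsub : ({1, 2} : Finset ℕ) ⊆ Finset.Ico 1 (Nat.log 2 n + 3) := by
      intro x hx
      simp only [Finset.mem_insert, Finset.mem_singleton] at hx
      rcases hx with rfl | rfl <;> simp
    have := Finset.sum_le_sum_of_subset (f := fun i => n / 2 ^ i) hsub
    rw [Finset.sum_pair (by decide)] at this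
    norm_num at this
    omega
  have h2le := (Nat.prime_two.pow_dvd_iff_le_factorization hfac0).mp h2d
  have hle : 2 * (p - 1) ≤ N.factorization 2 := by omega
  calc p ^ 3 < 4 ^ (p - 1) := four_pow_gt p hp5
    _ = 2 ^ (2 * (p - 1)) := by rw [pow_mul]; norm_num
    _ ≤ 2 ^ N.factorization 2 := Nat.pow_le_pow_right (by norm_num) hle

/-- Let G be an alternating group of degree at least 5 or a simple group with the order of one of the 26 sporadic groups, and let p be an odd prime such that p³ is the exact power of p dividing the order of G. Then p³ is less than the 2-part of the order of G. -/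
theorem result {G : Type*} [Group G] [Finite G] (hG : Cfsg.IsAlternating G ∨ Cfsg.IsSporadic G)
    (p : ℕ) (hp : p.Prime) (hodd : p ≠ 2) (h3 : (Nat.card G).factorization p = 3) :
    p ^ 3 < 2 ^ (Nat.card G).factorization 2 := by
  rcases hG with ⟨n, hn, ⟨e⟩⟩ | hS
  · have hcard : Nat.card G = Nat.card (alternatingGroup (Fin n)) := Nat.card_congr e.toEquiv
    have : Nontrivial (Fin n) := Fin.nontrivial_iff_two_le.mpr (by omega)
    have h2 : 2 * Nat.card G = n ! := by
      rw [hcard, two_mul_nat_card_alternatingGroup, Nat.card_perm, Nat.card_eq_fintype_card,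
        Fintype.card_fin]
    exact alt_case n hn _ h2 p hp hodd h3
  · unfold Cfsg.IsSporadic at hS
    unfold Cfsg.IsM11 Cfsg.IsM12 Cfsg.IsM22 Cfsg.IsM23 Cfsg.IsM24 Cfsg.IsJ1 Cfsg.IsJ2 Cfsg.IsJ3 Cfsg.IsJ4
      Cfsg.IsCo1 Cfsg.IsCo2 Cfsg.IsCo3 Cfsg.IsFi22 Cfsg.IsFi23 Cfsg.IsFi24' Cfsg.IsHS Cfsg.IsMcL Cfsg.IsHe
      Cfsg.IsRu Cfsg.IsSuz Cfsg.IsON Cfsg.IsHN Cfsg.IsLy Cfsg.IsTh Cfsg.IsB Cfsg.IsM at hS
    rcases hS with ⟨-, h⟩ | ⟨-, h⟩ | ⟨-, h⟩ | ⟨-, h⟩ | ⟨-, h⟩ | ⟨-, h⟩ | ⟨-, h⟩ | ⟨-, h⟩ | ⟨-, h⟩ | ⟨-, h⟩ |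
      ⟨-, h⟩ | ⟨-, h⟩ | ⟨-, h⟩ | ⟨-, h⟩ | ⟨-, h⟩ | ⟨-, h⟩ | ⟨-, h⟩ | ⟨-, h⟩ | ⟨-, h⟩ | ⟨-, h⟩ | ⟨-, h⟩ |
      ⟨-, h⟩ | ⟨-, h⟩ | ⟨-, h⟩ | ⟨-, h⟩ | ⟨-, h⟩
    all_goals
      rw [h] at h3 ⊢
      exact key_of_list _ _ (by simp only [Nat.primeFactorsList_ofNat]; rfl) (by decide) p hodd h3

end Cfsg.Agent.S2367
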