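import Cfsg.Statements.S2368
import Mathlib
-- import your own Cfsg.Agent.* helpers here

set_option autoImplicit false
open Cfsg

namespace Cfsg.Agent.S2368

open Matrix Polynomial

theorem nilp_pow_card_zero {F : Type*} [Field F] {m : ℕ} (N : Matrix (Fin m) (Fin m) F)
    (hN : IsNilpotent N) : N ^ m = 0 := by
  have h := Matrix.isNilpotent_charpoly_sub_pow_of_isNilpotent hN
  have h0 : N.charpoly - X ^ (Fintype.card (Fin m)) = 0 := h.eq_zero
  have hc : N.charpoly = X ^ m := by
    rw [sub_eq_zero] at h0
    simpa using h0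
  have := Matrix.aeval_self_charpoly N
  rw [hc] at this
  simpa using this

def shiftM (F : Type*) [Field F] (m : ℕ) : Matrix (Fin m) (Fin m) F :=
  Matrix.of fun a b => if b.val = a.val + 1 then 1 else 0

theorem shiftM_pow (F : Type*) [Field F] (m : ℕ) (i : ℕ) :
    (shiftM F m) ^ i = Matrix.of fun a b => if b.val = a.val + i then (1 : F) else 0 := by
  induction i with
  | zero =>
    ext a b
    simp [Matrix.one_apply, Fin.ext_iff, eq_comm]
  | succ i ih =>
    rw [pow_succ, ih]
    ext a b
    simp only [Matrix.mul_apply, shiftM, Matrix.of_apply]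
    by_cases hb : b.val = a.val + (i + 1)
    · rw [if_pos hb]
      have hlt : a.val + i < m := by have := b.2; omega
      rw [Finset.sum_eq_single (⟨a.val + i, hlt⟩ : Fin m)]
      · simp [hb]; omega
      · intro c _ hc
        have : ¬ c.val = a.val + i := fun h => hc (Fin.ext h)
        simp [this]
      · intro h
        exact absurd (Finset.mem_univ _) h
    · rw [if_neg hb]
      apply Finset.sum_eq_zero
      intro c _
      by_cases hc : c.val = a.val + i
      · have : ¬ b.val = c.val + 1 := by omega
        simp [this]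
      · simp [hc]

theorem shiftM_pow_eq_zero_iff (F : Type*) [Field F] (m : ℕ) (i : ℕ) :
    (shiftM F m) ^ i = 0 ↔ m ≤ i := by
  rw [shiftM_pow]
  constructor
  · intro h
    by_contra hcon
    rw [not_le] at hcon
    have h0 : 0 < m := by omega
    have := congrFun (congrFun h ⟨0, h0⟩) ⟨i, hcon⟩
    simp at this
  · intro h
    ext a b
    have : ¬ b.val = a.val + i := by have := b.2; omega
    simp [this]

/-- Let F be a finite field of characteristic p and m ≥ 1. Every element of GL(m, F) of p-power order has order less than p·m, and GL(m, F) has an element of p-power order at least m; so the largest order of a p-element of GL(m, F) is the least power of p that is at least m. -/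
theorem result {F : Type*} [Field F] [Fintype F] (p : ℕ) [Fact p.Prime] [CharP F p] (m : ℕ) (hm : 1 ≤ m) :
    (∀ g : Matrix.GeneralLinearGroup (Fin m) F, (∃ j : ℕ, orderOf g = p ^ j) → orderOf g < p * m) ∧
      ∃ g : Matrix.GeneralLinearGroup (Fin m) F, (∃ j : ℕ, orderOf g = p ^ j) ∧ m ≤ orderOf g := by
  have hp : p.Prime := Fact.out
  have hne : Nonempty (Fin m) := ⟨⟨0, hm⟩⟩
  constructor
  · rintro g ⟨j, hj⟩
    set A : Matrix (Fin m) (Fin m) F := (g : Matrix (Fin m) (Fin m) F) with hA
    have hpow : ∀ k : ℕ, ((g ^ k : Matrix.GeneralLinearGroup (Fin m) F) : Matrix (Fin m) (Fin m) F) = A ^ k := by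
      intro k
      simp [hA]
    have hAp : A ^ p ^ j = 1 := by
      have : g ^ p ^ j = 1 := by rw [← hj]; exact pow_orderOf_eq_one g
      rw [← hpow, this]
      simp
    have hnil : IsNilpotent (A - 1) := by
      refine ⟨p ^ j, ?_⟩
      rw [sub_pow_char_pow_of_commute p j (Commute.one_right A), hAp, one_pow, sub_self]
    have hNm := nilp_pow_card_zero (A - 1) hnil
    set k := Nat.clog p m with hk
    have hmk : m ≤ p ^ k := Nat.le_pow_clog hp.one_lt m
    have hNk : (A - 1) ^ p ^ k = 0 := by
      obtain ⟨d, hd⟩ := Nat.exists_eq_add_of_le hmk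
      rw [hd, pow_add, hNm, zero_mul]
    have hAk : A ^ p ^ k = 1 := by
      rw [sub_pow_char_pow_of_commute p k (Commute.one_right A), one_pow, sub_eq_zero] at hNk
      exact hNk
    have hgk : g ^ p ^ k = 1 := by
      apply Units.ext
      rw [hpow, hAk]
      simp
    have hle : orderOf g ≤ p ^ k := Nat.le_of_dvd (pow_pos hp.pos k) (orderOf_dvd_of_pow_eq_one hgk)
    have hlt : p ^ k < p * m := by
      rcases Nat.lt_or_ge 1 m with h1 | h1
      · have hkpos : 0 < k := Nat.clog_pos hp.one_lt h1
        have h2 := Nat.pow_pred_clog_lt_self hp.one_lt h1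
        have h3 : p ^ k = p * p ^ (k - 1) := by
          conv_lhs => rw [show k = (k - 1) + 1 by omega, pow_succ]
          ring
        rw [h3]
        rw [← hk, Nat.pred_eq_sub_one] at h2
        exact Nat.mul_lt_mul_of_pos_left h2 hp.pos
      · have hm1 : m = 1 := by omega
        have hk0 : k = 0 := by rw [hk, hm1]; simp
        rw [hk0, hm1]
        simpa using hp.one_lt
    omega
  · have hSnil : IsNilpotent (shiftM F m) := ⟨m, (shiftM_pow_eq_zero_iff F m m).mpr le_rfl⟩
    have hU : IsUnit (1 + shiftM F m) := hSnil.isUnit_one_add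
    set g : Matrix.GeneralLinearGroup (Fin m) F := hU.unit with hg
    have hgval : (g : Matrix (Fin m) (Fin m) F) = 1 + shiftM F m := hU.unit_spec
    have hpow : ∀ k : ℕ, ((g ^ k : Matrix.GeneralLinearGroup (Fin m) F) : Matrix (Fin m) (Fin m) F) = (1 + shiftM F m) ^ k := by
      intro k
      rw [Units.val_pow_eq_pow_val, hgval]
    have hfrob : ∀ k : ℕ, (1 + shiftM F m) ^ p ^ k = 1 + (shiftM F m) ^ p ^ k := by
      intro k
      rw [add_pow_char_pow_of_commute p k (Commute.one_left _), one_pow]
    have hiff : ∀ k : ℕ, g ^ p ^ k = 1 ↔ m ≤ p ^ k := by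
      intro k
      rw [← shiftM_pow_eq_zero_iff F m (p ^ k)]
      constructor
      · intro h
        have := congrArg (fun x : Matrix.GeneralLinearGroup (Fin m) F => (x : Matrix (Fin m) (Fin m) F)) h
        simp only [hpow, hfrob, Units.val_one] at this
        simpa using this
      · intro h
        apply Units.ext
        rw [hpow, hfrob, h]
        simp
    have hdvd : orderOf g ∣ p ^ Nat.clog p m :=
      orderOf_dvd_of_pow_eq_one ((hiff _).mpr (Nat.le_pow_clog hp.one_lt m))
    obtain ⟨j, -, hj⟩ := (Nat.dvd_prime_pow hp).mp hdvd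
    refine ⟨g, ⟨j, hj⟩, ?_⟩
    rw [hj]
    apply (hiff j).mp
    rw [← hj]
    exact pow_orderOf_eq_one g

end Cfsg.Agent.S2368
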