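import Cfsg.Statements.S2379
-- import your own Cfsg.Agent.* helpers here
import Mathlib
import Cfsg.Agent.Lib.helper18.SylHomo

set_option autoImplicit false
open Cfsg

namespace Cfsg.Agent.S2379



open Matrix Cfsg.Agent.Lib.helper18.SylHomo

theorem card_GL_SL (F : Type*) [Field F] [Fintype F] (n : ℕ) (hn : 1 ≤ n) :
    Nat.card (GL (Fin n) F) = (Fintype.card F - 1) * Nat.card (SpecialLinearGroup (Fin n) F) := by
  classical
  have : Nonempty (Fin n) := ⟨⟨0, hn⟩⟩
  have h1 := Subgroup.card_mul_index (Matrix.GeneralLinearGroup.det (n := Fin n) (R := F)).ker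
  rw [Subgroup.index_ker, MonoidHom.range_eq_top.2 Matrix.GeneralLinearGroup.det_surjective,
    Subgroup.card_top, Nat.card_units, Nat.card_eq_fintype_card (α := F)] at h1
  rw [← h1, mul_comm]
  congr 1
  refine (Nat.card_congr ?_).symm
  refine Equiv.ofBijective (fun g => (⟨SpecialLinearGroup.toGL g, ?_⟩ :
    (Matrix.GeneralLinearGroup.det (n := Fin n) (R := F)).ker)) ⟨?_, ?_⟩
  · rw [MonoidHom.mem_ker]
    apply Units.ext
    rw [Matrix.GeneralLinearGroup.val_det_apply]
    simp
  · intro g g' h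
    have h2 := congrArg (fun x : (Matrix.GeneralLinearGroup.det (n := Fin n) (R := F)).ker =>
      ((x : GL (Fin n) F) : Matrix (Fin n) (Fin n) F)) h
    exact Subtype.ext (by simpa using h2)
  · rintro ⟨g, hg⟩
    rw [MonoidHom.mem_ker] at hg
    have hdet : (g : Matrix (Fin n) (Fin n) F).det = 1 := by
      have := congrArg Units.val hg
      rwa [Matrix.GeneralLinearGroup.val_det_apply] at this
    refine ⟨⟨(g : Matrix (Fin n) (Fin n) F), hdet⟩, ?_⟩
    apply Subtype.ext
    apply Units.ext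
    rfl

theorem val_SL {F : Type*} [Field F] [Fintype F] (n r : ℕ) [Fact r.Prime] (hrn : n < r)
    (hrq : ¬ r ∣ Fintype.card F) :
    (Nat.card (SpecialLinearGroup (Fin n) F)).factorization r =
      padicValNat r (Fintype.card F ^ orderOf ((Fintype.card F : ℕ) : ZMod r) - 1) *
        ((Finset.Icc 2 n).filter (fun i => orderOf ((Fintype.card F : ℕ) : ZMod r) ∣ i)).card := by
  classical
  have hr : r.Prime := Fact.out
  have hq1 : 1 < Fintype.card F := Fintype.one_lt_card
  have hd0 : 0 < orderOf ((Fintype.card F : ℕ) : ZMod r) := ord_pos _ r hrq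
  rcases Nat.eq_zero_or_pos n with rfl | hn
  · have : Nat.card (SpecialLinearGroup (Fin 0) F) = 1 := by
      rw [Nat.card_eq_one_iff_unique]
      exact ⟨inferInstance, ⟨1⟩⟩
    rw [this]
    simp
  · have h1 := card_GL_SL F n hn
    have h2 : (Nat.card (GL (Fin n) F)).factorization r =
        padicValNat r (Fintype.card F ^ orderOf ((Fintype.card F : ℕ) : ZMod r) - 1) *
          (n / orderOf ((Fintype.card F : ℕ) : ZMod r)) := by
      rw [Matrix.card_GL_field, val_GL _ r n hq1 hrq hrn]
    rw [h1, Nat.factorization_mul (by omega) Nat.card_pos.ne', Finsupp.add_apply,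
      Nat.factorization_def _ hr] at h2
    by_cases hd1 : orderOf ((Fintype.card F : ℕ) : ZMod r) = 1
    · rw [hd1] at h2 ⊢
      rw [pow_one, Nat.div_one] at h2
      have hK : ((Finset.Icc 2 n).filter (fun i => 1 ∣ i)).card = n - 1 := by
        simp
      rw [hK, pow_one, Nat.mul_sub, mul_one]
      omega
    · have hnd : ¬ r ∣ Fintype.card F - 1 := by
        intro h
        have := (dvd_iff (Fintype.card F) r (by omega) 1).1 (by rwa [pow_one])
        exact hd1 (Nat.dvd_one.1 this)
      rw [padicValNat.eq_zero_of_not_dvd hnd, zero_add] at h2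
      rw [h2]
      congr 1
      rw [← Nat.Ioc_filter_dvd_card_eq_div]
      congr 1
      ext i
      simp only [Finset.mem_filter, Finset.mem_Ioc, Finset.mem_Icc]
      constructor
      · rintro ⟨⟨h0, hn⟩, hdi⟩
        refine ⟨⟨?_, hn⟩, hdi⟩
        have := Nat.le_of_dvd h0 hdi
        omega
      · rintro ⟨⟨h0, hn⟩, hdi⟩
        exact ⟨⟨by omega, hn⟩, hdi⟩

theorem pow_m_eq_one (m k : ℕ) (c : Fin k → Multiplicative (ZMod m)) : c ^ m = 1 := by
  funext i
  rw [Pi.pow_apply, Pi.one_apply]
  apply Multiplicative.toAdd.injective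
  rw [toAdd_pow, toAdd_one, nsmul_eq_mul, ZMod.natCast_self, zero_mul]

/-- lift an injective hom into `GL` with coprime exponent to `SL`. -/
theorem exists_lift_SL {F : Type*} [Field F] [Fintype F] (n m k : ℕ)
    (hcop : Nat.Coprime m (Fintype.card F - 1))
    (Ψ : (Fin k → Multiplicative (ZMod m)) →* GL (Fin n) F) (hΨ : Function.Injective Ψ) :
    ∃ Ψ' : (Fin k → Multiplicative (ZMod m)) →* SpecialLinearGroup (Fin n) F, Function.Injective Ψ' := by
  classical
  have hdet : ∀ c, ((Ψ c : GL (Fin n) F) : Matrix (Fin n) (Fin n) F).det = 1 := by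
    intro c
    have h1 : (Matrix.GeneralLinearGroup.det (Ψ c)) ^ m = 1 := by
      rw [← map_pow, ← map_pow, pow_m_eq_one, map_one, map_one]
    have h2 : (Matrix.GeneralLinearGroup.det (Ψ c)) ^ (Fintype.card F - 1) = 1 := by
      have := pow_card_eq_one (x := Matrix.GeneralLinearGroup.det (Ψ c))
      rwa [Fintype.card_units] at this
    have h3 : orderOf (Matrix.GeneralLinearGroup.det (Ψ c)) ∣ 1 := by
      rw [← Nat.Coprime.gcd_eq_one hcop]
      exact Nat.dvd_gcd (orderOf_dvd_of_pow_eq_one h1) (orderOf_dvd_of_pow_eq_one h2)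
    have h4 : Matrix.GeneralLinearGroup.det (Ψ c) = 1 := by
      rwa [Nat.dvd_one, orderOf_eq_one_iff] at h3
    have := congrArg Units.val h4
    rwa [Matrix.GeneralLinearGroup.val_det_apply] at this
  refine ⟨{ toFun := fun c => ⟨((Ψ c : GL (Fin n) F) : Matrix (Fin n) (Fin n) F), hdet c⟩
            map_one' := ?_
            map_mul' := ?_ }, ?_⟩
  · apply Subtype.ext
    show ((Ψ 1 : GL (Fin n) F) : Matrix (Fin n) (Fin n) F) = 1
    rw [map_one]; rfl
  · intro c c'
    apply Subtype.ext
    show ((Ψ (c * c') : GL (Fin n) F) : Matrix (Fin n) (Fin n) F) =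
      ((Ψ c : GL (Fin n) F) : Matrix (Fin n) (Fin n) F) * ((Ψ c' : GL (Fin n) F) : Matrix (Fin n) (Fin n) F)
    rw [map_mul]; rfl
  · intro c c' h
    apply hΨ
    apply Units.ext
    exact congrArg Subtype.val h

/-- diagonal torus of `SL_{N+1}`. -/
theorem exists_diag_SL {F : Type*} [Field F] [Fintype F] (N m : ℕ)
    (ι : Multiplicative (ZMod m) →* Fˣ) (hι : Function.Injective ι) :
    ∃ Ψ' : (Fin N → Multiplicative (ZMod m)) →* SpecialLinearGroup (Fin (N + 1)) F,
      Function.Injective Ψ' := by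
  classical
  refine ⟨{ toFun := fun c => ⟨Matrix.diagonal (Fin.cons (((∏ i, ι (c i))⁻¹ : Fˣ) : F)
              (fun i => ((ι (c i) : Fˣ) : F))), ?_⟩
            map_one' := ?_
            map_mul' := ?_ }, ?_⟩
  · rw [Matrix.det_diagonal, Fin.prod_univ_succ]
    simp only [Fin.cons_zero, Fin.cons_succ]
    rw [← Units.coe_prod, ← Units.val_mul, inv_mul_cancel, Units.val_one]
  · apply Subtype.ext
    show Matrix.diagonal (Fin.cons (((∏ i, ι ((1 : Fin N → Multiplicative (ZMod m)) i))⁻¹ : Fˣ) : F)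
              (fun i => ((ι ((1 : Fin N → Multiplicative (ZMod m)) i) : Fˣ) : F))) = (1 : Matrix (Fin (N + 1)) (Fin (N + 1)) F)
    rw [← Matrix.diagonal_one]
    congr 1
    funext j
    refine Fin.cases ?_ (fun i => ?_) j <;> simp
  · intro c c'
    apply Subtype.ext
    show Matrix.diagonal (Fin.cons (((∏ i, ι ((c * c') i))⁻¹ : Fˣ) : F)
              (fun i => ((ι ((c * c') i) : Fˣ) : F))) =
      Matrix.diagonal (Fin.cons (((∏ i, ι (c i))⁻¹ : Fˣ) : F) (fun i => ((ι (c i) : Fˣ) : F))) *
      Matrix.diagonal (Fin.cons (((∏ i, ι (c' i))⁻¹ : Fˣ) : F) (fun i => ((ι (c' i) : Fˣ) : F)))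
    rw [Matrix.diagonal_mul_diagonal]
    congr 1
    funext j
    refine Fin.cases ?_ (fun i => ?_) j
    · simp only [Fin.cons_zero, Pi.mul_apply, map_mul]
      rw [Finset.prod_mul_distrib, mul_inv, Units.val_mul]
    · simp
  · intro c c' h
    funext i
    have h1 := congrArg (fun g : SpecialLinearGroup (Fin (N + 1)) F =>
      (g : Matrix (Fin (N + 1)) (Fin (N + 1)) F) i.succ i.succ) h
    have h2 : Matrix.diagonal (Fin.cons (((∏ i, ι (c i))⁻¹ : Fˣ) : F) (fun i => ((ι (c i) : Fˣ) : F))) i.succ i.succ =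
        Matrix.diagonal (Fin.cons (((∏ i, ι (c' i))⁻¹ : Fˣ) : F) (fun i => ((ι (c' i) : Fˣ) : F))) i.succ i.succ := h1
    simp only [Matrix.diagonal_apply_eq, Fin.cons_succ] at h2
    exact hι (Units.ext h2)

theorem main {F : Type*} [Field F] [Fintype F] {q : ℕ} (hq : Fintype.card F = q) (n : ℕ)
    (r : ℕ) [Fact r.Prime] (hrn : n < r) (hrq : ¬ r ∣ q) (P : Sylow r (Matrix.SpecialLinearGroup (Fin n) F)) :
    Nonempty (↥(P : Subgroup (Matrix.SpecialLinearGroup (Fin n) F)) ≃*
      (Fin ((Finset.Icc 2 n).filter (fun i => orderOf (q : ZMod r) ∣ i)).card →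
        Multiplicative (ZMod (r ^ padicValNat r ((Polynomial.cyclotomic (orderOf (q : ZMod r)) ℤ).eval (q : ℤ)).natAbs)))) := by
  classical
  subst hq
  have hr : r.Prime := Fact.out
  have hq1 : 1 < Fintype.card F := Fintype.one_lt_card
  have hd0 : 0 < orderOf ((Fintype.card F : ℕ) : ZMod r) := ord_pos _ r hrq
  have ha := val_cyc (Fintype.card F) r hq1 hrq
  have hm : r ^ padicValNat r ((Polynomial.cyclotomic (orderOf ((Fintype.card F : ℕ) : ZMod r)) ℤ).eval ((Fintype.card F : ℕ) : ℤ)).natAbs ∣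
      Fintype.card F ^ orderOf ((Fintype.card F : ℕ) : ZMod r) - 1 := by
    rw [← ha]; exact pow_padicValNat_dvd
  have hv := val_SL (F := F) n r hrn hrq
  rw [ha] at hv
  -- the torus
  have hex : ∃ Ψ' : (Fin ((Finset.Icc 2 n).filter (fun i => orderOf ((Fintype.card F : ℕ) : ZMod r) ∣ i)).card →
      Multiplicative (ZMod (r ^ padicValNat r ((Polynomial.cyclotomic (orderOf ((Fintype.card F : ℕ) : ZMod r)) ℤ).eval ((Fintype.card F : ℕ) : ℤ)).natAbs))) →*
      SpecialLinearGroup (Fin n) F, Function.Injective Ψ' := by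
    by_cases hd1 : orderOf ((Fintype.card F : ℕ) : ZMod r) = 1
    · rw [hd1] at hm ⊢
      rw [pow_one] at hm
      have hK : ((Finset.Icc 2 n).filter (fun i => 1 ∣ i)).card = n - 1 := by simp
      rw [hK]
      rcases Nat.eq_zero_or_pos n with rfl | hn
      · exact ⟨1, fun c c' _ => funext (fun i => i.elim0)⟩
      · obtain ⟨N, rfl⟩ : ∃ N, n = N + 1 := ⟨n - 1, by omega⟩
        rw [Nat.add_sub_cancel]
        obtain ⟨ι, hι⟩ := exists_cyc (E := F) _ (by rw [Nat.card_eq_fintype_card]; exact hm)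
          (pow_pos hr.pos _)
        exact exists_diag_SL N _ ι hι
    · have hnd : ¬ r ∣ Fintype.card F - 1 := by
        intro h
        have := (dvd_iff (Fintype.card F) r (by omega) 1).1 (by rwa [pow_one])
        exact hd1 (Nat.dvd_one.1 this)
      have hK : ((Finset.Icc 2 n).filter (fun i => orderOf ((Fintype.card F : ℕ) : ZMod r) ∣ i)).card =
          n / orderOf ((Fintype.card F : ℕ) : ZMod r) := by
        rw [← Nat.Ioc_filter_dvd_card_eq_div]
        congr 1
        ext i
        simp only [Finset.mem_filter, Finset.mem_Ioc, Finset.mem_Icc]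
        constructor
        · rintro ⟨⟨h0, hn⟩, hdi⟩
          exact ⟨⟨by omega, hn⟩, hdi⟩
        · rintro ⟨⟨h0, hn⟩, hdi⟩
          refine ⟨⟨?_, hn⟩, hdi⟩
          have := Nat.le_of_dvd h0 hdi
          omega
      rw [hK]
      obtain ⟨Ψ, hΨ⟩ := exists_torus (F := F) n (orderOf ((Fintype.card F : ℕ) : ZMod r)) _
        (n / orderOf ((Fintype.card F : ℕ) : ZMod r)) hd0 (Nat.div_mul_le_self n _) hm (pow_pos hr.pos _)
      exact exists_lift_SL n _ _ (Nat.Coprime.pow_left _ ((Nat.Prime.coprime_iff_not_dvd hr).2 hnd)) Ψ hΨ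
  obtain ⟨Ψ', hΨ'⟩ := hex
  have hQ : Nat.card Ψ'.range = r ^ (Nat.card (SpecialLinearGroup (Fin n) F)).factorization r := by
    rw [hv, Nat.card_congr (MonoidHom.ofInjective hΨ').toEquiv.symm, Nat.card_fun,
      Nat.card_congr Multiplicative.toAdd, Nat.card_zmod, Nat.card_eq_fintype_card, Fintype.card_fin,
      ← pow_mul]
  exact ⟨(P.equiv (Sylow.ofCard Ψ'.range hQ)).trans (MonoidHom.ofInjective hΨ').symm⟩



/-- Sylow subgroups of `SL_n(q)` for large primes. Let `F` be a field with `q` elements and `r` a prime with `r > n` and `r ∤ q` (so `r` does not divide the order `n!` of the Weyl group). Let `d` be the multiplicative order of `q` modulo `r`, `a` the number of integers `i` with `2 ≤ i ≤ n` divisible by `d` (the degrees of the Weyl group are `2, …, n`), and `m` the `r`-part of the value at `q` of the `d`-th cyclotomic polynomial. Then every Sylow `r`-subgroup of `SL_n(q)` is a direct product of `a` cyclic groups of order `m`. -/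
theorem result {F : Type*} [Field F] [Fintype F] {q : ℕ} (hq : Fintype.card F = q) (n : ℕ)
    (r : ℕ) [Fact r.Prime] (hrn : n < r) (hrq : ¬ r ∣ q) (P : Sylow r (Matrix.SpecialLinearGroup (Fin n) F)) :
    Nonempty (↥(P : Subgroup (Matrix.SpecialLinearGroup (Fin n) F)) ≃*
      (Fin ((Finset.Icc 2 n).filter (fun i => orderOf (q : ZMod r) ∣ i)).card →
        Multiplicative (ZMod (r ^ padicValNat r ((Polynomial.cyclotomic (orderOf (q : ZMod r)) ℤ).eval (q : ℤ)).natAbs)))) := by
  exact main hq n r hrn hrq P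

end Cfsg.Agent.S2379
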