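import Cfsg.Statements.S2380
-- import your own Cfsg.Agent.* helpers here
import Mathlib
import Cfsg.Agent.Lib.helper18.SylHomo

set_option autoImplicit false
open scoped MatrixGroups
open Cfsg

namespace Cfsg.Agent.S2380


open Matrix Cfsg.Agent.Lib.helper18.SylHomo

theorem main {F : Type*} [Field F] [Fintype F] {q : ℕ} (hq : Fintype.card F = q) (n : ℕ)
    (r : ℕ) [Fact r.Prime] (hrn : n < r) (hrq : ¬ r ∣ q) (P : Sylow r (GL (Fin n) F)) :
    Nonempty (↥(P : Subgroup (GL (Fin n) F)) ≃*
      (Fin (n / orderOf (q : ZMod r)) →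
        Multiplicative (ZMod (r ^ padicValNat r ((Polynomial.cyclotomic (orderOf (q : ZMod r)) ℤ).eval (q : ℤ)).natAbs)))) := by
  classical
  subst hq
  have hr : r.Prime := Fact.out
  have hq1 : 1 < Fintype.card F := Fintype.one_lt_card
  have hd0 : 0 < orderOf ((Fintype.card F : ℕ) : ZMod r) := ord_pos _ r hrq
  have ha := val_cyc (Fintype.card F) r hq1 hrq
  have hm : r ^ padicValNat r ((Polynomial.cyclotomic (orderOf ((Fintype.card F : ℕ) : ZMod r)) ℤ).eval ((Fintype.card F : ℕ) : ℤ)).natAbs ∣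
      Fintype.card F ^ orderOf ((Fintype.card F : ℕ) : ZMod r) - 1 := by
    rw [← ha]; exact pow_padicValNat_dvd
  obtain ⟨Ψ, hΨ⟩ := exists_torus (F := F) n (orderOf ((Fintype.card F : ℕ) : ZMod r)) _
    (n / orderOf ((Fintype.card F : ℕ) : ZMod r)) hd0 (Nat.div_mul_le_self n _) hm (pow_pos hr.pos _)
  have hcardG : (Nat.card (GL (Fin n) F)).factorization r =
      padicValNat r ((Polynomial.cyclotomic (orderOf ((Fintype.card F : ℕ) : ZMod r)) ℤ).eval ((Fintype.card F : ℕ) : ℤ)).natAbs *
        (n / orderOf ((Fintype.card F : ℕ) : ZMod r)) := by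
    rw [Matrix.card_GL_field, val_GL _ r n hq1 hrq hrn, ha]
  have hQ : Nat.card Ψ.range = r ^ (Nat.card (GL (Fin n) F)).factorization r := by
    rw [hcardG, Nat.card_congr (MonoidHom.ofInjective hΨ).toEquiv.symm, Nat.card_fun,
      Nat.card_congr Multiplicative.toAdd, Nat.card_zmod, Nat.card_eq_fintype_card, Fintype.card_fin,
      ← pow_mul]
  exact ⟨(P.equiv (Sylow.ofCard Ψ.range hQ)).trans (MonoidHom.ofInjective hΨ).symm⟩



/-- Sylow subgroups of `GL_n(q)` for large primes. Let `F` be a field with `q` elements and `r` a prime with `r > n` and `r ∤ q`. Let `d` be the multiplicative order of `q` modulo `r` and `m` the `r`-part of the value at `q` of the `d`-th cyclotomic polynomial. Then every Sylow `r`-subgroup of `GL_n(q)` is a direct product of `⌊n/d⌋` cyclic groups of order `m` (the degrees of the Weyl group being `1, …, n`). -/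
theorem result {F : Type*} [Field F] [Fintype F] {q : ℕ} (hq : Fintype.card F = q) (n : ℕ)
    (r : ℕ) [Fact r.Prime] (hrn : n < r) (hrq : ¬ r ∣ q) (P : Sylow r (GL (Fin n) F)) :
    Nonempty (↥(P : Subgroup (GL (Fin n) F)) ≃*
      (Fin (n / orderOf (q : ZMod r)) →
        Multiplicative (ZMod (r ^ padicValNat r ((Polynomial.cyclotomic (orderOf (q : ZMod r)) ℤ).eval (q : ℤ)).natAbs)))) := by
  exact main hq n r hrn hrq P

end Cfsg.Agent.S2380
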