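import Cfsg.Statements.S2381
-- import your own Cfsg.Agent.* helpers here
import Mathlib
import Cfsg.Agent.Lib.helper18.SylHomo
import Cfsg.Agent.Lib.helper4.SpCard

set_option autoImplicit false
open Cfsg

namespace Cfsg.Agent.S2381



open Matrix Cfsg.Agent.Lib.helper18.SylHomo

theorem val_pow2 (q r n : ℕ) [Fact r.Prime] (hr2 : r ≠ 2) (hq : 1 < q) (hrq : ¬ r ∣ q) (hrn : n < r) (j : ℕ)
    (hj1 : 1 ≤ j) (hjn : j ≤ n) :
    padicValNat r (q ^ (2 * j) - 1) =
      if orderOf (q : ZMod r) ∣ 2 * j then padicValNat r (q ^ orderOf (q : ZMod r) - 1) else 0 := by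
  have hr : r.Prime := Fact.out
  have hq0 : 0 < q := by omega
  have hd0 : 0 < orderOf (q : ZMod r) := ord_pos q r hrq
  split_ifs with hdj
  · obtain ⟨t, ht⟩ := hdj
    have ht0 : t ≠ 0 := by rintro rfl; simp at ht; omega
    by_cases ht1 : t = 1
    · subst ht1; rw [ht, mul_one]
    · have hodd : Odd r := hr.odd_of_ne_two hr2
      have hyx : 1 < q ^ orderOf (q : ZMod r) := Nat.one_lt_pow hd0.ne' hq
      have hxy : r ∣ q ^ orderOf (q : ZMod r) - 1 := (dvd_iff q r hq0 _).2 dvd_rfl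
      have hx : ¬ r ∣ q ^ orderOf (q : ZMod r) := fun h => hrq (hr.dvd_of_dvd_pow h)
      have h := padicValNat.pow_sub_pow hodd hyx hxy hx ht0
      rw [one_pow] at h
      rw [ht, pow_mul, h]
      have htr : ¬ r ∣ t := by
        rintro ⟨s, rfl⟩
        have hs0 : s ≠ 0 := by rintro rfl; simp at ht0
        have h1 : r * 1 ≤ r * (orderOf (q : ZMod r) * s) :=
          Nat.mul_le_mul_left r (Nat.mul_pos hd0 (Nat.pos_of_ne_zero hs0))
        have h2 : 2 * j = r * (orderOf (q : ZMod r) * s) := by rw [ht]; ring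
        have h3 : orderOf (q : ZMod r) * s < 2 := by
          by_contra hcon
          push Not at hcon
          have : r * 2 ≤ r * (orderOf (q : ZMod r) * s) := Nat.mul_le_mul_left r hcon
          omega
        have h4 : orderOf (q : ZMod r) * s = 1 := by
          have := Nat.mul_pos hd0 (Nat.pos_of_ne_zero hs0)
          omega
        rw [h4, mul_one] at h2
        have h5 : 2 ∣ r := ⟨j, h2.symm⟩
        rcases (Nat.dvd_prime hr).1 h5 with h6 | h6
        · omega
        · exact hr2 h6.symm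
      rw [padicValNat.eq_zero_of_not_dvd htr, add_zero]
  · apply padicValNat.eq_zero_of_not_dvd
    rwa [dvd_iff q r hq0]

theorem val_Sp {F : Type*} [Field F] [Fintype F] (n r : ℕ) [Fact r.Prime] (hr2 : r ≠ 2) (hrn : n < r)
    (hrq : ¬ r ∣ Fintype.card F) :
    (Nat.card (Matrix.symplecticGroup (Fin n) F)).factorization r =
      padicValNat r (Fintype.card F ^ orderOf ((Fintype.card F : ℕ) : ZMod r) - 1) *
        ((Finset.Icc 1 n).filter (fun i => orderOf ((Fintype.card F : ℕ) : ZMod r) ∣ 2 * i)).card := by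
  classical
  have hr : r.Prime := Fact.out
  have hq1 : 1 < Fintype.card F := Fintype.one_lt_card
  have hq0 : 0 < Fintype.card F := by omega
  rw [Cfsg.Agent.Lib.helper4.card_sp (F := F) rfl n]
  have hne : ∀ i ∈ Finset.range n, Fintype.card F ^ (2 * (i + 1)) - 1 ≠ 0 := by
    intro i _
    have : 1 < Fintype.card F ^ (2 * (i + 1)) := Nat.one_lt_pow (by omega) hq1
    omega
  rw [Nat.factorization_mul (pow_ne_zero _ hq0.ne') (Finset.prod_ne_zero_iff.2 hne), Finsupp.add_apply,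
    Nat.factorization_pow, Finsupp.smul_apply, Nat.factorization_eq_zero_of_not_dvd hrq,
    smul_zero, zero_add, Nat.factorization_prod hne, Finsupp.finset_sum_apply]
  have hterm : ∀ i ∈ Finset.range n, (Fintype.card F ^ (2 * (i + 1)) - 1).factorization r =
      if orderOf ((Fintype.card F : ℕ) : ZMod r) ∣ 2 * (i + 1) then
        padicValNat r (Fintype.card F ^ orderOf ((Fintype.card F : ℕ) : ZMod r) - 1) else 0 := by
    intro i hi
    rw [Finset.mem_range] at hi
    rw [Nat.factorization_def _ hr]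
    exact val_pow2 _ r n hr2 hq1 hrq hrn (i + 1) (by omega) (by omega)
  rw [Finset.sum_congr rfl hterm]
  have h2 : ∑ i ∈ Finset.range n, (if orderOf ((Fintype.card F : ℕ) : ZMod r) ∣ 2 * (i + 1) then
        padicValNat r (Fintype.card F ^ orderOf ((Fintype.card F : ℕ) : ZMod r) - 1) else 0) =
      ∑ j ∈ Finset.Icc 1 n, (if orderOf ((Fintype.card F : ℕ) : ZMod r) ∣ 2 * j then
        padicValNat r (Fintype.card F ^ orderOf ((Fintype.card F : ℕ) : ZMod r) - 1) else 0) := by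
    apply Finset.sum_nbij' (fun i => i + 1) (fun j => j - 1)
    · intro i hi
      rw [Finset.mem_range] at hi
      rw [Finset.mem_Icc]; omega
    · intro j hj
      rw [Finset.mem_Icc] at hj
      rw [Finset.mem_range]; omega
    · intro i _
      simp
    · intro j hj
      rw [Finset.mem_Icc] at hj
      show j - 1 + 1 = j
      omega
    · intro i _; rfl
  rw [h2, Finset.sum_ite, Finset.sum_const_zero, add_zero, Finset.sum_const, smul_eq_mul, mul_comm]

theorem count_odd (n d : ℕ) (hd : Odd d) :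
    ((Finset.Icc 1 n).filter (fun i => d ∣ 2 * i)).card = n / d := by
  rw [← Nat.Ioc_filter_dvd_card_eq_div]
  congr 1
  ext i
  simp only [Finset.mem_filter, Finset.mem_Ioc, Finset.mem_Icc]
  have hcop : Nat.Coprime d 2 := Nat.Coprime.symm (Nat.coprime_two_left.2 hd)
  constructor
  · rintro ⟨⟨h0, hn⟩, hdi⟩
    exact ⟨⟨by omega, hn⟩, hcop.dvd_of_dvd_mul_left hdi⟩
  · rintro ⟨⟨h0, hn⟩, hdi⟩
    exact ⟨⟨by omega, hn⟩, Dvd.dvd.mul_left hdi 2⟩

theorem count_even (n e : ℕ) :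
    ((Finset.Icc 1 n).filter (fun i => 2 * e ∣ 2 * i)).card = n / e := by
  rw [← Nat.Ioc_filter_dvd_card_eq_div]
  congr 1
  ext i
  simp only [Finset.mem_filter, Finset.mem_Ioc, Finset.mem_Icc]
  constructor
  · rintro ⟨⟨h0, hn⟩, hdi⟩
    exact ⟨⟨by omega, hn⟩, (Nat.mul_dvd_mul_iff_left (by norm_num)).1 hdi⟩
  · rintro ⟨⟨h0, hn⟩, hdi⟩
    exact ⟨⟨by omega, hn⟩, Nat.mul_dvd_mul_left 2 hdi⟩

theorem sylow_equiv_of_inj {G X : Type*} [Group G] [Finite G] [Group X] (r : ℕ) [Fact r.Prime]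
    (Ψ : X →* G) (hΨ : Function.Injective Ψ) (hcard : Nat.card X = r ^ (Nat.card G).factorization r)
    (P : Sylow r G) : Nonempty (P ≃* X) := by
  have hQ : Nat.card Ψ.range = r ^ (Nat.card G).factorization r := by
    rw [← hcard]; exact Nat.card_congr (MonoidHom.ofInjective hΨ).toEquiv.symm
  exact ⟨(P.equiv (Sylow.ofCard Ψ.range hQ)).trans (MonoidHom.ofInjective hΨ).symm⟩

theorem card_pow_C (k m : ℕ) : Nat.card (Fin k → Multiplicative (ZMod m)) = m ^ k := by
  rw [Nat.card_fun, Nat.card_congr Multiplicative.toAdd, Nat.card_zmod, Nat.card_eq_fintype_card,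
    Fintype.card_fin]



/-- `GL_l → Sp_l`, `A ↦ diag(A, A⁻ᵀ)`. -/
def GLtoSp (l F : Type*) [Fintype l] [DecidableEq l] [Field F] :
    GL l F →* Matrix.symplecticGroup l F where
  toFun A := ⟨fromBlocks (A : Matrix l l F) 0 0 ((A⁻¹ : GL l F) : Matrix l l F)ᵀ, by
    rw [SymplecticGroup.mem_iff, Matrix.J, fromBlocks_multiply, fromBlocks_transpose,
      fromBlocks_multiply]
    simp only [Matrix.mul_zero, Matrix.zero_mul, zero_add, add_zero, Matrix.mul_one,
      Matrix.transpose_zero, Matrix.transpose_transpose, Matrix.mul_neg, Matrix.neg_mul]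
    have h1 : (A : Matrix l l F) * ((A⁻¹ : GL l F) : Matrix l l F) = 1 := by
      rw [← Units.val_mul, mul_inv_cancel, Units.val_one]
    have h2 : ((A⁻¹ : GL l F) : Matrix l l F)ᵀ * (A : Matrix l l F)ᵀ = 1 := by
      rw [← Matrix.transpose_mul, h1, Matrix.transpose_one]
    rw [h1, h2]
    simp⟩
  map_one' := by
    apply Subtype.ext
    show fromBlocks ((1 : GL l F) : Matrix l l F) 0 0 (((1 : GL l F)⁻¹ : GL l F) : Matrix l l F)ᵀ = 1
    simp
  map_mul' := by
    intro A B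
    apply Subtype.ext
    show fromBlocks ((A * B : GL l F) : Matrix l l F) 0 0 (((A * B)⁻¹ : GL l F) : Matrix l l F)ᵀ =
      fromBlocks (A : Matrix l l F) 0 0 ((A⁻¹ : GL l F) : Matrix l l F)ᵀ *
        fromBlocks (B : Matrix l l F) 0 0 ((B⁻¹ : GL l F) : Matrix l l F)ᵀ
    rw [fromBlocks_multiply]
    simp [_root_.mul_inv_rev, Matrix.transpose_mul]

theorem GLtoSp_inj (l F : Type*) [Fintype l] [DecidableEq l] [Field F] :
    Function.Injective (GLtoSp l F) := by
  intro A B h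
  have h1 := congrArg (fun M : Matrix.symplecticGroup l F => (M : Matrix (l ⊕ l) (l ⊕ l) F).toBlocks₁₁) h
  have h2 : (fromBlocks (A : Matrix l l F) 0 0 ((A⁻¹ : GL l F) : Matrix l l F)ᵀ).toBlocks₁₁ =
      (fromBlocks (B : Matrix l l F) 0 0 ((B⁻¹ : GL l F) : Matrix l l F)ᵀ).toBlocks₁₁ := h1
  rw [toBlocks_fromBlocks₁₁, toBlocks_fromBlocks₁₁] at h2
  exact Units.ext h2

theorem J_sum (l₁ l₂ F : Type*) [Fintype l₁] [DecidableEq l₁] [Fintype l₂] [DecidableEq l₂] [Field F] :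
    Matrix.J (l₁ ⊕ l₂) F = Matrix.reindex (Equiv.sumSumSumComm l₁ l₁ l₂ l₂) (Equiv.sumSumSumComm l₁ l₁ l₂ l₂)
      (fromBlocks (Matrix.J l₁ F) 0 0 (Matrix.J l₂ F)) := by
  ext (( a | a ) | ( a | a )) (( b | b ) | ( b | b )) <;>
    simp [Matrix.J, Matrix.one_apply, Matrix.neg_apply]

/-- `Sp(l₁) × Sp(l₂) → Sp(l₁ ⊕ l₂)`. -/
def SpProd (l₁ l₂ F : Type*) [Fintype l₁] [DecidableEq l₁] [Fintype l₂] [DecidableEq l₂] [Field F] :
    Matrix.symplecticGroup l₁ F × Matrix.symplecticGroup l₂ F →* Matrix.symplecticGroup (l₁ ⊕ l₂) F where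
  toFun M := ⟨Matrix.reindex (Equiv.sumSumSumComm l₁ l₁ l₂ l₂) (Equiv.sumSumSumComm l₁ l₁ l₂ l₂)
      (fromBlocks (M.1 : Matrix (l₁ ⊕ l₁) (l₁ ⊕ l₁) F) 0 0 (M.2 : Matrix (l₂ ⊕ l₂) (l₂ ⊕ l₂) F)), by
    rw [SymplecticGroup.mem_iff, J_sum]
    simp only [Matrix.reindex_apply, Matrix.transpose_submatrix, Matrix.submatrix_mul_equiv,
      fromBlocks_transpose, fromBlocks_multiply]
    have h1 := SymplecticGroup.mem_iff.1 M.1.2
    have h2 := SymplecticGroup.mem_iff.1 M.2.2
    simp only [Matrix.mul_zero, Matrix.zero_mul, zero_add, add_zero, Matrix.transpose_zero]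
    rw [h1, h2]⟩
  map_one' := by
    apply Subtype.ext
    show Matrix.reindex (Equiv.sumSumSumComm l₁ l₁ l₂ l₂) (Equiv.sumSumSumComm l₁ l₁ l₂ l₂)
      (fromBlocks (1 : Matrix (l₁ ⊕ l₁) (l₁ ⊕ l₁) F) 0 0 (1 : Matrix (l₂ ⊕ l₂) (l₂ ⊕ l₂) F)) = 1
    rw [fromBlocks_one, Matrix.reindex_apply, Matrix.submatrix_one_equiv]
  map_mul' := by
    intro M N
    apply Subtype.ext
    show Matrix.reindex (Equiv.sumSumSumComm l₁ l₁ l₂ l₂) (Equiv.sumSumSumComm l₁ l₁ l₂ l₂)
      (fromBlocks ((M.1 : Matrix (l₁ ⊕ l₁) (l₁ ⊕ l₁) F) * (N.1 : Matrix (l₁ ⊕ l₁) (l₁ ⊕ l₁) F)) 0 0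
        ((M.2 : Matrix (l₂ ⊕ l₂) (l₂ ⊕ l₂) F) * (N.2 : Matrix (l₂ ⊕ l₂) (l₂ ⊕ l₂) F))) =
      Matrix.reindex (Equiv.sumSumSumComm l₁ l₁ l₂ l₂) (Equiv.sumSumSumComm l₁ l₁ l₂ l₂)
        (fromBlocks (M.1 : Matrix (l₁ ⊕ l₁) (l₁ ⊕ l₁) F) 0 0 (M.2 : Matrix (l₂ ⊕ l₂) (l₂ ⊕ l₂) F)) *
      Matrix.reindex (Equiv.sumSumSumComm l₁ l₁ l₂ l₂) (Equiv.sumSumSumComm l₁ l₁ l₂ l₂)
        (fromBlocks (N.1 : Matrix (l₁ ⊕ l₁) (l₁ ⊕ l₁) F) 0 0 (N.2 : Matrix (l₂ ⊕ l₂) (l₂ ⊕ l₂) F))
    simp only [Matrix.reindex_apply, Matrix.submatrix_mul_equiv, fromBlocks_multiply]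
    simp

theorem SpProd_inj (l₁ l₂ F : Type*) [Fintype l₁] [DecidableEq l₁] [Fintype l₂] [DecidableEq l₂] [Field F] :
    Function.Injective (SpProd l₁ l₂ F) := by
  intro M N h
  have h1 : Matrix.reindex (Equiv.sumSumSumComm l₁ l₁ l₂ l₂) (Equiv.sumSumSumComm l₁ l₁ l₂ l₂)
      (fromBlocks (M.1 : Matrix (l₁ ⊕ l₁) (l₁ ⊕ l₁) F) 0 0 (M.2 : Matrix (l₂ ⊕ l₂) (l₂ ⊕ l₂) F)) =
      Matrix.reindex (Equiv.sumSumSumComm l₁ l₁ l₂ l₂) (Equiv.sumSumSumComm l₁ l₁ l₂ l₂)
      (fromBlocks (N.1 : Matrix (l₁ ⊕ l₁) (l₁ ⊕ l₁) F) 0 0 (N.2 : Matrix (l₂ ⊕ l₂) (l₂ ⊕ l₂) F)) :=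
    congrArg Subtype.val h
  have h2 := (Matrix.reindex _ _).injective h1
  rw [Matrix.fromBlocks_inj] at h2
  exact Prod.ext (Subtype.ext h2.1) (Subtype.ext h2.2.2.2)

theorem J_reindex {l l' : Type*} (F : Type*) [Fintype l] [DecidableEq l] [Fintype l'] [DecidableEq l'] [Field F]
    (e : l ≃ l') :
    Matrix.J l' F = Matrix.reindex (Equiv.sumCongr e e) (Equiv.sumCongr e e) (Matrix.J l F) := by
  ext (a | a) (b | b) <;>
    simp [Matrix.J, Matrix.one_apply, Matrix.neg_apply]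

/-- `Sp(l) → Sp(l')` along `l ≃ l'`. -/
def SpReindex {l l' : Type*} (F : Type*) [Fintype l] [DecidableEq l] [Fintype l'] [DecidableEq l'] [Field F]
    (e : l ≃ l') : Matrix.symplecticGroup l F →* Matrix.symplecticGroup l' F where
  toFun M := ⟨Matrix.reindex (Equiv.sumCongr e e) (Equiv.sumCongr e e) (M : Matrix (l ⊕ l) (l ⊕ l) F), by
    rw [SymplecticGroup.mem_iff, J_reindex F e]
    simp only [Matrix.reindex_apply, Matrix.transpose_submatrix, Matrix.submatrix_mul_equiv]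
    rw [SymplecticGroup.mem_iff.1 M.2]⟩
  map_one' := by
    apply Subtype.ext
    show Matrix.reindex (Equiv.sumCongr e e) (Equiv.sumCongr e e) (1 : Matrix (l ⊕ l) (l ⊕ l) F) = 1
    rw [Matrix.reindex_apply, Matrix.submatrix_one_equiv]
  map_mul' := by
    intro M N
    apply Subtype.ext
    show Matrix.reindex (Equiv.sumCongr e e) (Equiv.sumCongr e e)
        ((M : Matrix (l ⊕ l) (l ⊕ l) F) * (N : Matrix (l ⊕ l) (l ⊕ l) F)) =
      Matrix.reindex (Equiv.sumCongr e e) (Equiv.sumCongr e e) (M : Matrix (l ⊕ l) (l ⊕ l) F) *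
      Matrix.reindex (Equiv.sumCongr e e) (Equiv.sumCongr e e) (N : Matrix (l ⊕ l) (l ⊕ l) F)
    simp only [Matrix.reindex_apply, Matrix.submatrix_mul_equiv]

theorem SpReindex_inj {l l' : Type*} (F : Type*) [Fintype l] [DecidableEq l] [Fintype l'] [DecidableEq l'] [Field F]
    (e : l ≃ l') : Function.Injective (SpReindex F e) := by
  intro M N h
  have h1 : Matrix.reindex (Equiv.sumCongr e e) (Equiv.sumCongr e e) (M : Matrix (l ⊕ l) (l ⊕ l) F) =
      Matrix.reindex (Equiv.sumCongr e e) (Equiv.sumCongr e e) (N : Matrix (l ⊕ l) (l ⊕ l) F) :=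
    congrArg Subtype.val h
  exact Subtype.ext ((Matrix.reindex _ _).injective h1)

/-- tower: `X^k ↪ Sp_{2n}` from `X ↪ Sp_{2e}` when `k e ≤ n`. -/
theorem exists_tower {F X : Type*} [Field F] [Group X] (e : ℕ)
    (ι : X →* Matrix.symplecticGroup (Fin e) F) (hι : Function.Injective ι) :
    ∀ (k n : ℕ), k * e ≤ n →
      ∃ Θ : (Fin k → X) →* Matrix.symplecticGroup (Fin n) F, Function.Injective Θ := by
  intro k
  induction k with
  | zero =>
    intro n _
    exact ⟨1, fun c c' _ => funext (fun i => i.elim0)⟩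
  | succ k ih =>
    intro n hn
    obtain ⟨n', rfl⟩ : ∃ n', n = e + n' := ⟨n - e, by
      have : e ≤ (k + 1) * e := Nat.le_mul_of_pos_left e (Nat.succ_pos k)
      omega⟩
    have hn' : k * e ≤ n' := by
      have : (k + 1) * e = k * e + e := by ring
      omega
    obtain ⟨Θ, hΘ⟩ := ih n' hn'
    refine ⟨(SpReindex F finSumFinEquiv).comp ((SpProd (Fin e) (Fin n') F).comp
      (MonoidHom.prod (ι.comp (Pi.evalMonoidHom _ 0))
        (Θ.comp (MonoidHom.pi (fun i => Pi.evalMonoidHom (fun _ : Fin (k + 1) => X) i.succ))))), ?_⟩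
    intro c c' h
    have h1 := SpProd_inj _ _ F (SpReindex_inj F finSumFinEquiv h)
    have h2 : ι (c 0) = ι (c' 0) := congrArg Prod.fst h1
    have h3 : Θ (fun i => c i.succ) = Θ (fun i => c' i.succ) := congrArg Prod.snd h1
    funext j
    refine Fin.cases ?_ (fun i => ?_) j
    · exact hι h2
    · exact congrFun (hΘ h3) i


/-- `Sp(l) → GL(l ⊕ l)`. -/
theorem exists_Sp_GL (e : ℕ) (F : Type*) [Field F] :
    ∃ τ : Matrix.symplecticGroup (Fin e) F →* GL (Fin (e + e)) F, Function.Injective τ := by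
  classical
  refine ⟨(Units.map (Matrix.reindexAlgEquiv F F (finSumFinEquiv (m := e) (n := e))).toRingEquiv.toMonoidHom).comp
    (MonoidHom.toHomUnits (Matrix.symplecticGroup (Fin e) F).subtype), ?_⟩
  refine (Units.map_injective (Matrix.reindexAlgEquiv F F (finSumFinEquiv (m := e) (n := e))).injective).comp ?_
  intro M N h
  have := congrArg Units.val h
  exact Subtype.ext this

/-- a cyclic Sylow subgroup in `Sp_{2e}` when `ord_r(q) = 2e`. -/
theorem exists_cyc_Sp {F : Type*} [Field F] [Fintype F] (e r : ℕ) [Fact r.Prime] (hr2 : r ≠ 2)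
    (he : 0 < e) (hrq : ¬ r ∣ Fintype.card F)
    (hd : orderOf ((Fintype.card F : ℕ) : ZMod r) = 2 * e) :
    ∃ ι : (Fin 1 → Multiplicative (ZMod (r ^ padicValNat r
        (Fintype.card F ^ orderOf ((Fintype.card F : ℕ) : ZMod r) - 1)))) →*
      Matrix.symplecticGroup (Fin e) F, Function.Injective ι := by
  classical
  have hr : r.Prime := Fact.out
  have hq1 : 1 < Fintype.card F := Fintype.one_lt_card
  have hd0 : 0 < orderOf ((Fintype.card F : ℕ) : ZMod r) := ord_pos _ r hrq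
  -- `2e ∣ r - 1`
  have hdr : 2 * e < r := by
    have h1 : orderOf ((Fintype.card F : ℕ) : ZMod r) ∣ r - 1 := by
      apply orderOf_dvd_of_pow_eq_one
      apply ZMod.pow_card_sub_one_eq_one
      rwa [Ne, ZMod.natCast_eq_zero_iff]
    have h2 := Nat.le_of_dvd (Nat.sub_pos_of_lt hr.one_lt) h1
    have := hr.one_lt
    omega
  have hm : r ^ padicValNat r (Fintype.card F ^ orderOf ((Fintype.card F : ℕ) : ZMod r) - 1) ∣
      Fintype.card F ^ orderOf ((Fintype.card F : ℕ) : ZMod r) - 1 := pow_padicValNat_dvd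
  obtain ⟨τ, hτ⟩ := exists_Sp_GL e F
  obtain ⟨Ψ, hΨ⟩ := exists_torus (F := F) (e + e) (orderOf ((Fintype.card F : ℕ) : ZMod r)) _ 1 hd0
    (by rw [hd]; omega) hm (pow_pos hr.pos _)
  have hvG : (Nat.card (GL (Fin (e + e)) F)).factorization r =
      padicValNat r (Fintype.card F ^ orderOf ((Fintype.card F : ℕ) : ZMod r) - 1) := by
    rw [Matrix.card_GL_field, val_GL _ r (e + e) hq1 hrq (by omega), hd]
    have : (e + e) / (2 * e) = 1 := by
      rw [← two_mul]; exact Nat.div_self (by omega)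
    rw [this, mul_one]
  have hvS : (Nat.card (Matrix.symplecticGroup (Fin e) F)).factorization r =
      padicValNat r (Fintype.card F ^ orderOf ((Fintype.card F : ℕ) : ZMod r) - 1) := by
    rw [val_Sp e r hr2 (by omega) hrq, hd, count_even, Nat.div_self he, mul_one]
  let P' : Sylow r (Matrix.symplecticGroup (Fin e) F) := default
  have hP' : Nat.card P' = r ^ padicValNat r (Fintype.card F ^ orderOf ((Fintype.card F : ℕ) : ZMod r) - 1) := by
    rw [Sylow.card_eq_multiplicity, hvS]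
  have hQ : Nat.card ((P' : Subgroup (Matrix.symplecticGroup (Fin e) F)).map τ) =
      r ^ (Nat.card (GL (Fin (e + e)) F)).factorization r := by
    rw [hvG, ← hP']
    exact Nat.card_congr ((P' : Subgroup (Matrix.symplecticGroup (Fin e) F)).equivMapOfInjective τ hτ).toEquiv.symm
  obtain ⟨ε⟩ := sylow_equiv_of_inj r Ψ hΨ (by rw [card_pow_C, hvG, pow_one])
    (Sylow.ofCard _ hQ)
  refine ⟨((P' : Subgroup (Matrix.symplecticGroup (Fin e) F)).subtype.comp
    ((P' : Subgroup (Matrix.symplecticGroup (Fin e) F)).equivMapOfInjective τ hτ).symm.toMonoidHom).comp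
      ε.symm.toMonoidHom, ?_⟩
  exact ((Subgroup.subtype_injective _).comp
    ((P' : Subgroup (Matrix.symplecticGroup (Fin e) F)).equivMapOfInjective τ hτ).symm.injective).comp
      ε.symm.injective

theorem main {F : Type*} [Field F] [Fintype F] {q : ℕ} (hq : Fintype.card F = q) (n : ℕ)
    (r : ℕ) [Fact r.Prime] (hr2 : r ≠ 2) (hrn : n < r) (hrq : ¬ r ∣ q) (P : Sylow r ↥(Matrix.symplecticGroup (Fin n) F)) :
    Nonempty (↥(P : Subgroup ↥(Matrix.symplecticGroup (Fin n) F)) ≃*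
      (Fin ((Finset.Icc 1 n).filter (fun i => orderOf (q : ZMod r) ∣ 2 * i)).card →
        Multiplicative (ZMod (r ^ padicValNat r ((Polynomial.cyclotomic (orderOf (q : ZMod r)) ℤ).eval (q : ℤ)).natAbs)))) := by
  classical
  subst hq
  have hr : r.Prime := Fact.out
  have hq1 : 1 < Fintype.card F := Fintype.one_lt_card
  have hd0 : 0 < orderOf ((Fintype.card F : ℕ) : ZMod r) := ord_pos _ r hrq
  have ha := val_cyc (Fintype.card F) r hq1 hrq
  rw [← ha]
  have hm : r ^ padicValNat r (Fintype.card F ^ orderOf ((Fintype.card F : ℕ) : ZMod r) - 1) ∣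
      Fintype.card F ^ orderOf ((Fintype.card F : ℕ) : ZMod r) - 1 := pow_padicValNat_dvd
  have hv := val_Sp (F := F) n r hr2 hrn hrq
  rcases Nat.even_or_odd (orderOf ((Fintype.card F : ℕ) : ZMod r)) with hev | hodd
  · obtain ⟨e, he⟩ := hev
    rw [← two_mul] at he
    have he0 : 0 < e := by omega
    obtain ⟨ι, hι⟩ := exists_cyc_Sp (F := F) e r hr2 he0 hrq he
    obtain ⟨Θ, hΘ⟩ := exists_tower e ι hι (n / e) n (Nat.div_mul_le_self n e)
    have hK : ((Finset.Icc 1 n).filter (fun i => orderOf ((Fintype.card F : ℕ) : ZMod r) ∣ 2 * i)).card = n / e := by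
      rw [he, count_even]
    rw [hK] at hv ⊢
    have hcard : Nat.card (Fin (n / e) → (Fin 1 → Multiplicative (ZMod (r ^ padicValNat r
        (Fintype.card F ^ orderOf ((Fintype.card F : ℕ) : ZMod r) - 1))))) =
        r ^ (Nat.card (Matrix.symplecticGroup (Fin n) F)).factorization r := by
      rw [hv, Nat.card_fun, card_pow_C, pow_one, Nat.card_eq_fintype_card, Fintype.card_fin, ← pow_mul]
    obtain ⟨ε⟩ := sylow_equiv_of_inj r Θ hΘ hcard P
    exact ⟨ε.trans (MulEquiv.piCongrRight (fun _ => MulEquiv.funUnique (Fin 1) _))⟩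
  · have hK : ((Finset.Icc 1 n).filter (fun i => orderOf ((Fintype.card F : ℕ) : ZMod r) ∣ 2 * i)).card =
        n / orderOf ((Fintype.card F : ℕ) : ZMod r) := count_odd n _ hodd
    rw [hK] at hv ⊢
    obtain ⟨Ψ, hΨ⟩ := exists_torus (F := F) n (orderOf ((Fintype.card F : ℕ) : ZMod r)) _
      (n / orderOf ((Fintype.card F : ℕ) : ZMod r)) hd0 (Nat.div_mul_le_self n _) hm (pow_pos hr.pos _)
    have hcard : Nat.card (Fin (n / orderOf ((Fintype.card F : ℕ) : ZMod r)) → Multiplicative (ZMod (r ^ padicValNat r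
        (Fintype.card F ^ orderOf ((Fintype.card F : ℕ) : ZMod r) - 1)))) =
        r ^ (Nat.card (Matrix.symplecticGroup (Fin n) F)).factorization r := by
      rw [hv, card_pow_C, ← pow_mul]
    exact sylow_equiv_of_inj r ((GLtoSp (Fin n) F).comp Ψ) ((GLtoSp_inj (Fin n) F).comp hΨ) hcard P



/-- Sylow subgroups of `Sp_{2n}(q)` for large primes. Let `F` be a field with `q` elements and `r` an odd prime with `r > n` and `r ∤ q` (so `r` does not divide the order `2^n n!` of the Weyl group). Let `d` be the multiplicative order of `q` modulo `r`, `a` the number of `i` with `1 ≤ i ≤ n` and `d ∣ 2i` (the degrees being `2, 4, …, 2n`), and `m` the `r`-part of the value at `q` of the `d`-th cyclotomic polynomial. Then every Sylow `r`-subgroup of the symplectic group `Sp_{2n}(q)` is a direct product of `a` cyclic groups of order `m`. -/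
theorem result {F : Type*} [Field F] [Fintype F] {q : ℕ} (hq : Fintype.card F = q) (n : ℕ)
    (r : ℕ) [Fact r.Prime] (hr2 : r ≠ 2) (hrn : n < r) (hrq : ¬ r ∣ q) (P : Sylow r ↥(Matrix.symplecticGroup (Fin n) F)) :
    Nonempty (↥(P : Subgroup ↥(Matrix.symplecticGroup (Fin n) F)) ≃*
      (Fin ((Finset.Icc 1 n).filter (fun i => orderOf (q : ZMod r) ∣ 2 * i)).card →
        Multiplicative (ZMod (r ^ padicValNat r ((Polynomial.cyclotomic (orderOf (q : ZMod r)) ℤ).eval (q : ℤ)).natAbs)))) := by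
  exact main hq n r hr2 hrn hrq P

end Cfsg.Agent.S2381
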