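import Cfsg.Statements.S2384
-- import your own Cfsg.Agent.* helpers here
import Mathlib
import Cfsg.Agent.Lib.helper18.RCF3

set_option autoImplicit false
open Cfsg

namespace Cfsg.Agent.S2384


open Polynomial Cfsg.Agent.Lib.helper18.RCF

theorem coeff_zero_of_det_one {F : Type*} [Field F] {n : ℕ} (A : Matrix (Fin n) (Fin n) F)
    (h : A.det = 1) : A.charpoly.coeff 0 = (-1) ^ n := by
  have h1 := Matrix.det_eq_sign_charpoly_coeff A
  rw [h, Fintype.card_fin] at h1
  calc A.charpoly.coeff 0 = ((-1) ^ n * (-1) ^ n) * A.charpoly.coeff 0 := by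
        rw [← mul_pow, neg_one_mul, neg_neg, one_pow, one_mul]
    _ = (-1) ^ n * ((-1) ^ n * A.charpoly.coeff 0) := mul_assoc _ _ _
    _ = (-1) ^ n * 1 := by rw [← h1]
    _ = (-1) ^ n := mul_one _

theorem main {F : Type*} [Field F] [Fintype F] {q : ℕ} (hq : Fintype.card F = q) (p : ℕ) [Fact p.Prime] [CharP F p] (n : ℕ) (hn : 1 ≤ n) :
    Nat.card {c : ConjClasses (Matrix.SpecialLinearGroup (Fin n) F) //
      ∃ g : Matrix.SpecialLinearGroup (Fin n) F, ConjClasses.mk g = c ∧ (orderOf g).Coprime p} = q ^ (n - 1) := by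
  classical
  obtain ⟨k, rfl⟩ : ∃ k, n = k + 1 := ⟨n - 1, by omega⟩
  have hcp : ∀ a b : Matrix.SpecialLinearGroup (Fin (k + 1)) F, IsConj a b →
      (a : Matrix (Fin (k + 1)) (Fin (k + 1)) F).charpoly =
        (b : Matrix (Fin (k + 1)) (Fin (k + 1)) F).charpoly := by
    intro a b hab
    obtain ⟨c, rfl⟩ := isConj_iff.1 hab
    rw [Matrix.SpecialLinearGroup.coe_mul, Matrix.SpecialLinearGroup.coe_mul,
      Matrix.charpoly_mul_comm, ← Matrix.mul_assoc, ← Matrix.SpecialLinearGroup.coe_mul,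
      inv_mul_cancel, Matrix.SpecialLinearGroup.coe_one, Matrix.one_mul]
  let cp : ConjClasses (Matrix.SpecialLinearGroup (Fin (k + 1)) F) → F[X] :=
    Quotient.lift (fun g : Matrix.SpecialLinearGroup (Fin (k + 1)) F =>
      (g : Matrix (Fin (k + 1)) (Fin (k + 1)) F).charpoly) hcp
  let Φ : {c : ConjClasses (Matrix.SpecialLinearGroup (Fin (k + 1)) F) //
      ∃ g : Matrix.SpecialLinearGroup (Fin (k + 1)) F,
      ConjClasses.mk g = c ∧ (orderOf g).Coprime p} → (Fin k → F) :=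
    fun c i => (cp c.1).coeff ((i : ℕ) + 1)
  have hinj : Function.Injective Φ := by
    rintro ⟨c, g, rfl, hg⟩ ⟨c', g', rfl, hg'⟩ hΦ
    apply Subtype.ext
    show ConjClasses.mk g = ConjClasses.mk g'
    rw [ConjClasses.mk_eq_mk_iff_isConj]
    have hc : (g : Matrix (Fin (k + 1)) (Fin (k + 1)) F).charpoly =
        (g' : Matrix (Fin (k + 1)) (Fin (k + 1)) F).charpoly := by
      apply monic_ext_of_coeff (Matrix.charpoly_monic _) (Matrix.charpoly_monic _) (k + 1)
        (by rw [Matrix.charpoly_natDegree_eq_dim, Fintype.card_fin])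
        (by rw [Matrix.charpoly_natDegree_eq_dim, Fintype.card_fin])
      intro i hi
      rcases Nat.eq_zero_or_pos i with h0 | h0
      · subst h0
        rw [coeff_zero_of_det_one _ g.2, coeff_zero_of_det_one _ g'.2]
      · have := congrFun hΦ ⟨i - 1, by omega⟩
        have h2 : (cp (ConjClasses.mk g)).coeff (i - 1 + 1) = (cp (ConjClasses.mk g')).coeff (i - 1 + 1) :=
          this
        rw [Nat.sub_add_cancel h0] at h2
        exact h2
    have hA : (g : Matrix (Fin (k + 1)) (Fin (k + 1)) F) ^ orderOf g = 1 := by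
      rw [← Matrix.SpecialLinearGroup.coe_pow, pow_orderOf_eq_one, Matrix.SpecialLinearGroup.coe_one]
    have hB : (g' : Matrix (Fin (k + 1)) (Fin (k + 1)) F) ^ orderOf g' = 1 := by
      rw [← Matrix.SpecialLinearGroup.coe_pow, pow_orderOf_eq_one, Matrix.SpecialLinearGroup.coe_one]
    obtain ⟨C, D, h1, h2, h3, h4⟩ := ss_conj_mat_det (Nat.succ_pos k) _ _ (orderOf g) (orderOf g')
      (cast_ne_zero_of_coprime p _ hg) (cast_ne_zero_of_coprime p _ hg') hA hB hc
    rw [isConj_iff]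
    obtain ⟨c, hcC⟩ : ∃ c : Matrix.SpecialLinearGroup (Fin (k + 1)) F,
        (c : Matrix (Fin (k + 1)) (Fin (k + 1)) F) = C := ⟨⟨C, h4⟩, rfl⟩
    refine ⟨c, ?_⟩
    have h5 : c * g = g' * c := by
      apply Subtype.ext
      rw [Matrix.SpecialLinearGroup.coe_mul, Matrix.SpecialLinearGroup.coe_mul, hcC]
      exact h3
    rw [h5, mul_inv_cancel_right]
  have hsurj : Function.Surjective Φ := by
    intro c
    have hne : ((-1 : F)) ^ (k + 1) ≠ 0 := pow_ne_zero _ (neg_ne_zero.2 one_ne_zero)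
    have hc0 : (mkpoly (k + 1) (Fin.cons ((-1 : F) ^ (k + 1)) c : Fin (k + 1) → F)).coeff 0 =
        (-1 : F) ^ (k + 1) := by
      have := mkpoly_coeff (k + 1) (Fin.cons ((-1 : F) ^ (k + 1)) c : Fin (k + 1) → F) 0
      rw [Fin.val_zero, Fin.cons_zero] at this
      exact this
    obtain ⟨A, m, hm, hA, hAc⟩ := exists_ss_mat
      (mkpoly (k + 1) (Fin.cons ((-1 : F) ^ (k + 1)) c : Fin (k + 1) → F)) (mkpoly_monic _ _)
      (mkpoly_natDegree _ _) (by rw [hc0]; exact hne)
    have hdet : A.det = 1 := by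
      rw [Matrix.det_eq_sign_charpoly_coeff, hAc, hc0, Fintype.card_fin, ← mul_pow, neg_one_mul,
        neg_neg, one_pow]
    obtain ⟨g, hgA⟩ : ∃ g : Matrix.SpecialLinearGroup (Fin (k + 1)) F,
        (g : Matrix (Fin (k + 1)) (Fin (k + 1)) F) = A := ⟨⟨A, hdet⟩, rfl⟩
    have hgm : g ^ m = 1 := by
      apply Subtype.ext
      rw [Matrix.SpecialLinearGroup.coe_pow, hgA, hA, Matrix.SpecialLinearGroup.coe_one]
    refine ⟨⟨ConjClasses.mk g, g, rfl, coprime_orderOf p g m hgm (coprime_of_cast_ne_zero p m hm)⟩, ?_⟩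
    funext j
    show (g : Matrix (Fin (k + 1)) (Fin (k + 1)) F).charpoly.coeff ((j : ℕ) + 1) = c j
    rw [hgA, hAc]
    have := mkpoly_coeff (k + 1) (Fin.cons ((-1 : F) ^ (k + 1)) c : Fin (k + 1) → F) j.succ
    rw [Fin.val_succ, Fin.cons_succ] at this
    exact this
  rw [Nat.card_congr (Equiv.ofBijective Φ ⟨hinj, hsurj⟩), Nat.card_fun, Nat.card_eq_fintype_card,
    Nat.card_eq_fintype_card, Fintype.card_fin, hq, Nat.add_sub_cancel]



/-- In `SL_n(q)`, `q` a power of the prime `p`, the number of conjugacy classes of elements of order prime to `p` (the semisimple classes) is `q^(n-1)`. -/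
theorem result {F : Type*} [Field F] [Fintype F] {q : ℕ} (hq : Fintype.card F = q) (p : ℕ) [Fact p.Prime] [CharP F p] (n : ℕ) (hn : 1 ≤ n) :
    Nat.card {c : ConjClasses (Matrix.SpecialLinearGroup (Fin n) F) //
      ∃ g : Matrix.SpecialLinearGroup (Fin n) F, ConjClasses.mk g = c ∧ (orderOf g).Coprime p} = q ^ (n - 1) := by
  exact main hq p n hn

end Cfsg.Agent.S2384
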