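import Cfsg.Statements.S2386
import Mathlib
import Cfsg.Agent.Lib.helper10.SUCount
import Cfsg.Agent.S2390

set_option autoImplicit false
open Cfsg

namespace Cfsg.Agent.S2386

open Matrix Polynomial Cfsg.Agent.Lib.helper10.GUConj Cfsg.Agent.Lib.helper10.GUUnip
  Cfsg.Agent.Lib.helper10.GUDet Cfsg.Agent.Lib.helper10.SUCount Cfsg.Agent.Lib.helper18.RCF

/-- the matrix of an element of SU -/
abbrev smat {F : Type*} [Field F] {q n : ℕ} (s : ↥(Cfsg.SU n F q)) : Matrix (Fin n) (Fin n) F :=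
  ((s : Matrix.SpecialLinearGroup (Fin n) F) : Matrix (Fin n) (Fin n) F)

theorem su_charpoly_SD {F : Type*} [Field F] {q n : ℕ} (σ : F →+* F) (hq : ∀ a, σ a = a ^ q)
    (s : ↥(Cfsg.SU n F q)) : SD σ n (smat s).charpoly := by
  have hau := Cfsg.Agent.S2390.su_unitary σ hq s
  refine ⟨Matrix.charpoly_monic _, by rw [Matrix.charpoly_natDegree_eq_dim, Fintype.card_fin], ?_⟩
  intro k hk
  have h1 := charpoly_inv_coeff (smat s) (dag σ (smat s)) hau k hk
  have h2 : (dag σ (smat s)).charpoly = (smat s).charpoly.map σ := by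
    unfold dag; rw [Matrix.charpoly_transpose, Matrix.charpoly_map]
  have h3 : (dag σ (smat s)).det = 1 := by
    rw [det_dag]
    have : (smat s).det = 1 := s.1.2
    rw [this, map_one]
  rw [h2, coeff_map, h3, mul_one] at h1
  exact h1

theorem exists_su_of_SD {F : Type*} [Field F] [Fintype F] {q : ℕ} (hF : Fintype.card F = q ^ 2)
    (p : ℕ) [Fact p.Prime] [CharP F p] (n : ℕ) (σ : F →+* F) (hq : ∀ a, σ a = a ^ q)
    (f : F[X]) (hf : SD σ n f) :
    ∃ s : ↥(Cfsg.SU n F q), (smat s).charpoly = f ∧ (orderOf s).Coprime p := by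
  have he0 := SD_coeff_zero σ n f hf
  have h0 : f.coeff 0 ≠ 0 := by
    intro h; rw [h, mul_zero] at he0; exact zero_ne_one he0
  obtain ⟨A, m, hm, hAm, hAc⟩ := exists_ss_mat f hf.1 hf.2.1 h0
  have hm1 : 1 ≤ m := by
    rcases Nat.eq_zero_or_pos m with h | h
    · subst h; exact absurd Nat.cast_zero hm
    · exact h
  have hAAi : A * A ^ (m - 1) = 1 := by rw [← pow_succ', Nat.sub_add_cancel hm1, hAm]
  have hAiA : A ^ (m - 1) * A = 1 := by rw [← pow_succ, Nat.sub_add_cancel hm1, hAm]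
  have hdetA : A.det = 1 := by
    rw [Matrix.det_eq_sign_charpoly_coeff, Fintype.card_fin, hAc]; exact he0
  have hdetAi : (A ^ (m - 1)).det = 1 := by rw [Matrix.det_pow, hdetA, one_pow]
  obtain ⟨N, hNdef⟩ : ∃ N, N = dag σ (A ^ (m - 1)) := ⟨_, rfl⟩
  have hNM : N * dag σ A = 1 := by rw [hNdef, ← dag_mul, hAAi, dag_one]
  have hMN : dag σ A * N = 1 := by rw [hNdef, ← dag_mul, hAiA, dag_one]
  have hNdet : N.det = 1 := by rw [hNdef, det_dag, hdetAi, map_one]
  have hMc : (dag σ A).charpoly = f.map σ := by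
    unfold dag; rw [Matrix.charpoly_transpose, Matrix.charpoly_map, hAc]
  have hNc : N.charpoly = f := by
    ext k
    rcases Nat.lt_or_ge n k with hk | hk
    · rw [coeff_eq_zero_of_natDegree_lt, coeff_eq_zero_of_natDegree_lt]
      · rw [hf.2.1]; exact hk
      · rw [Matrix.charpoly_natDegree_eq_dim, Fintype.card_fin]; exact hk
    · rw [charpoly_inv_coeff (dag σ A) N hNM k hk, hNdet, mul_one, hMc, coeff_map,
        hf.2.2 (n - k) (Nat.sub_le n k), Nat.sub_sub_self hk, ← mul_assoc, ← mul_pow, neg_mul_neg,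
        one_mul, one_pow, one_mul]
  have hNm : N ^ m = 1 := by
    rw [hNdef, ← dag_pow, ← pow_mul, mul_comm, pow_mul, hAm, one_pow, dag_one]
  obtain ⟨C, D, h1, h2, h3⟩ := ss_conj_mat A N m m hm hm hAm hNm (hAc.trans hNc.symm)
  obtain ⟨A', hA'⟩ : ∃ A' : GL (Fin n) F, (A' : Matrix (Fin n) (Fin n) F) = A :=
    ⟨⟨A, A ^ (m - 1), hAAi, hAiA⟩, rfl⟩
  have hconj : IsConj (A' : Matrix (Fin n) (Fin n) F)
      (((A' : Matrix (Fin n) (Fin n) F).map (fun x : F => x ^ q)).transpose)⁻¹ := by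
    have e1 : ((A' : Matrix (Fin n) (Fin n) F).map (fun x : F => x ^ q)).transpose = dag σ A := by
      unfold dag
      rw [hA']
      congr 1
      ext i j
      simp [hq]
    rw [e1, Matrix.inv_eq_right_inv hMN, hA']
    exact ⟨⟨C, D, h1, h2⟩, h3⟩
  obtain ⟨B, hB⟩ := (Cfsg.Agent.S2588.result hF A').mpr hconj
  obtain ⟨c, hc⟩ := isConj_iff.mp hB
  obtain ⟨b, hbdef⟩ : ∃ b : Matrix (Fin n) (Fin n) F,
      b = ((B : GL (Fin n) F) : Matrix (Fin n) (Fin n) F) := ⟨_, rfl⟩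
  have hbu : dag σ b * b = 1 := by rw [hbdef]; exact (mem_GU_iff σ q hq _).mp B.2
  have hbA : b = (c : Matrix (Fin n) (Fin n) F) * A *
      ((c⁻¹ : GL (Fin n) F) : Matrix (Fin n) (Fin n) F) := by
    rw [hbdef, ← hc, ← hA']; rfl
  have hbc : b.charpoly = f := by
    rw [hbA, Matrix.coe_units_inv, Matrix.charpoly_units_conj, hAc]
  have hbm : b ^ m = 1 := by
    have hA'm : A' ^ m = 1 := Units.ext (by rw [Units.val_pow_eq_pow_val, hA']; exact hAm)
    have hBm : (B : GL (Fin n) F) ^ m = 1 := by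
      rw [← hc, conj_pow, hA'm, mul_one, mul_inv_cancel]
    rw [hbdef, ← Units.val_pow_eq_pow_val, hBm]; rfl
  have hbdet : b.det = 1 := by
    rw [Matrix.det_eq_sign_charpoly_coeff, Fintype.card_fin, hbc]; exact he0
  obtain ⟨s, hs⟩ := Cfsg.Agent.S2390.mk_su (q := q) σ hq b hbdet hbu
  refine ⟨s, (congrArg Matrix.charpoly hs).trans hbc, ?_⟩
  apply coprime_orderOf p s m _ (coprime_of_cast_ne_zero p m hm)
  apply Subtype.ext
  apply Subtype.ext
  show (((s ^ m : ↥(Cfsg.SU n F q)) : Matrix.SpecialLinearGroup (Fin n) F) :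
    Matrix (Fin n) (Fin n) F) = ((1 : Matrix.SpecialLinearGroup (Fin n) F) : Matrix (Fin n) (Fin n) F)
  rw [Subgroup.coe_pow, Matrix.SpecialLinearGroup.coe_pow, hs, hbm,
    Matrix.SpecialLinearGroup.coe_one]

theorem main {F : Type*} [Field F] [Fintype F] {q : ℕ} (hF : Fintype.card F = q ^ 2) (p : ℕ)
    [Fact p.Prime] [CharP F p] (n : ℕ) (hn : 1 ≤ n) :
    Nat.card {c : ConjClasses ↥(Cfsg.SU n F q) // ∃ g : ↥(Cfsg.SU n F q),
      ConjClasses.mk g = c ∧ (orderOf g).Coprime p} = q ^ (n - 1) := by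
  obtain ⟨N, rfl⟩ : ∃ N, n = N + 1 := ⟨n - 1, by omega⟩
  obtain ⟨σ, hq, hσ, ω₀, hω₀⟩ := exists_sigma hF
  rw [Nat.add_sub_cancel, ← card_SD hF σ hσ ω₀ hω₀ N]
  have hconj_cp : ∀ s t : ↥(Cfsg.SU (N + 1) F q), IsConj s t →
      (smat s).charpoly = (smat t).charpoly := by
    intro s t hst
    obtain ⟨c, hc⟩ := isConj_iff.mp hst
    have h1 : smat t = smat c * smat s * smat c⁻¹ := by rw [← hc]; rfl
    have h2 : smat c * smat c⁻¹ = 1 := by
      have : smat (c * c⁻¹) = 1 := by rw [mul_inv_cancel]; rfl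
      exact this
    have h3 : smat c⁻¹ * smat c = 1 := mul_eq_one_comm.mp h2
    obtain ⟨u, hu, hui⟩ : ∃ u : (Matrix (Fin (N + 1)) (Fin (N + 1)) F)ˣ,
        (u : Matrix (Fin (N + 1)) (Fin (N + 1)) F) = smat c ∧
        ((u⁻¹ : (Matrix (Fin (N + 1)) (Fin (N + 1)) F)ˣ) : Matrix (Fin (N + 1)) (Fin (N + 1)) F)
          = smat c⁻¹ := ⟨⟨smat c, smat c⁻¹, h2, h3⟩, rfl, rfl⟩
    have h4 := Matrix.charpoly_units_conj u (smat s)
    rw [← Matrix.coe_units_inv, hu, hui] at h4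
    rw [h1]; exact h4.symm
  have hconj_ord : ∀ s t : ↥(Cfsg.SU (N + 1) F q), IsConj s t → orderOf s = orderOf t := by
    intro s t hst
    obtain ⟨c, hc⟩ := isConj_iff.mp hst
    rw [← hc]; exact ((MulAut.conj c).orderOf_eq s).symm
  have hout : ∀ c : ConjClasses ↥(Cfsg.SU (N + 1) F q), ConjClasses.mk (Quotient.out c) = c :=
    fun c => Quotient.out_eq c
  apply Nat.card_congr
  refine Equiv.ofBijective
    (fun c => ⟨(smat (Quotient.out c.1)).charpoly, su_charpoly_SD σ hq _⟩) ⟨?_, ?_⟩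
  · intro c₁ c₂ h12
    have h1 : (smat (Quotient.out c₁.1)).charpoly = (smat (Quotient.out c₂.1)).charpoly :=
      congrArg Subtype.val h12
    obtain ⟨g₁, hg₁, hcop₁⟩ := c₁.2
    obtain ⟨g₂, hg₂, hcop₂⟩ := c₂.2
    have hc1 : IsConj (Quotient.out c₁.1) g₁ :=
      ConjClasses.mk_eq_mk_iff_isConj.mp ((hout c₁.1).trans hg₁.symm)
    have hc2 : IsConj (Quotient.out c₂.1) g₂ :=
      ConjClasses.mk_eq_mk_iff_isConj.mp ((hout c₂.1).trans hg₂.symm)
    have ho1 : (orderOf (Quotient.out c₁.1)).Coprime p := by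
      rw [hconj_ord _ _ hc1]; exact hcop₁
    have ho2 : (orderOf (Quotient.out c₂.1)).Coprime p := by
      rw [hconj_ord _ _ hc2]; exact hcop₂
    have h5 := Cfsg.Agent.S2390.main hF p (N + 1) _ _ ho1 ho2 h1
    apply Subtype.ext
    rw [← hout c₁.1, ← hout c₂.1]
    exact ConjClasses.mk_eq_mk_iff_isConj.mpr h5
  · rintro ⟨f, hf⟩
    obtain ⟨s, hs, hcop⟩ := exists_su_of_SD hF p (N + 1) σ hq f hf
    refine ⟨⟨ConjClasses.mk s, s, rfl, hcop⟩, ?_⟩
    apply Subtype.ext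
    show (smat (Quotient.out (ConjClasses.mk s))).charpoly = f
    rw [← hs]
    exact hconj_cp _ _ (ConjClasses.mk_eq_mk_iff_isConj.mp (hout _))

/-- In the special unitary group `SU_n(q)` (matrices of determinant one over the field with `q²` elements preserving the standard Hermitian form), `q` a power of the prime `p`, the number of conjugacy classes of elements of order prime to `p` is `q^(n-1)`. -/
theorem result {F : Type*} [Field F] [Fintype F] {q : ℕ} (hF : Fintype.card F = q ^ 2) (p : ℕ) [Fact p.Prime] [CharP F p] (n : ℕ) (hn : 1 ≤ n) :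
    Nat.card {c : ConjClasses ↥(Cfsg.SU n F q) // ∃ g : ↥(Cfsg.SU n F q), ConjClasses.mk g = c ∧ (orderOf g).Coprime p} = q ^ (n - 1) := by
  exact main hF p n hn

end Cfsg.Agent.S2386
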