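import Cfsg.Statements.S2387
-- import your own Cfsg.Agent.* helpers here
import Mathlib
import Cfsg.Agent.Lib.helper18.RCF3

set_option autoImplicit false
open scoped MatrixGroups
open Cfsg

namespace Cfsg.Agent.S2387


open Polynomial Cfsg.Agent.Lib.helper18.RCF
open scoped MatrixGroups

theorem main {F : Type*} [Field F] [Fintype F] {q : ℕ} (hq : Fintype.card F = q) (p : ℕ) [Fact p.Prime] [CharP F p] (n : ℕ) (hn : 1 ≤ n) :
    Nat.card {c : ConjClasses (GL (Fin n) F) // ∃ g : GL (Fin n) F, ConjClasses.mk g = c ∧ (orderOf g).Coprime p} = (q - 1) * q ^ (n - 1) := by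
  classical
  obtain ⟨k, rfl⟩ : ∃ k, n = k + 1 := ⟨n - 1, by omega⟩
  have hcp : ∀ a b : GL (Fin (k + 1)) F, IsConj a b →
      (a : Matrix (Fin (k + 1)) (Fin (k + 1)) F).charpoly =
        (b : Matrix (Fin (k + 1)) (Fin (k + 1)) F).charpoly := by
    intro a b hab
    obtain ⟨c, rfl⟩ := isConj_iff.1 hab
    rw [Units.val_mul, Units.val_mul, Matrix.coe_units_inv]
    exact (Matrix.charpoly_units_conj c a).symm
  let cp : ConjClasses (GL (Fin (k + 1)) F) → F[X] :=
    Quotient.lift (fun g : GL (Fin (k + 1)) F => (g : Matrix (Fin (k + 1)) (Fin (k + 1)) F).charpoly) hcp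
  let Φ : {c : ConjClasses (GL (Fin (k + 1)) F) // ∃ g : GL (Fin (k + 1)) F,
      ConjClasses.mk g = c ∧ (orderOf g).Coprime p} → (Fin (k + 1) → F) := fun c i => (cp c.1).coeff i
  have hinj : Function.Injective Φ := by
    rintro ⟨c, g, rfl, hg⟩ ⟨c', g', rfl, hg'⟩ hΦ
    apply Subtype.ext
    show ConjClasses.mk g = ConjClasses.mk g'
    rw [ConjClasses.mk_eq_mk_iff_isConj]
    have hc : (g : Matrix (Fin (k + 1)) (Fin (k + 1)) F).charpoly =
        (g' : Matrix (Fin (k + 1)) (Fin (k + 1)) F).charpoly := by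
      apply monic_ext_of_coeff (Matrix.charpoly_monic _) (Matrix.charpoly_monic _) (k + 1)
        (by rw [Matrix.charpoly_natDegree_eq_dim, Fintype.card_fin])
        (by rw [Matrix.charpoly_natDegree_eq_dim, Fintype.card_fin])
      intro i hi
      exact congrFun hΦ ⟨i, hi⟩
    have hA : (g : Matrix (Fin (k + 1)) (Fin (k + 1)) F) ^ orderOf g = 1 := by
      rw [← Units.val_pow_eq_pow_val, pow_orderOf_eq_one, Units.val_one]
    have hB : (g' : Matrix (Fin (k + 1)) (Fin (k + 1)) F) ^ orderOf g' = 1 := by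
      rw [← Units.val_pow_eq_pow_val, pow_orderOf_eq_one, Units.val_one]
    obtain ⟨C, D, h1, h2, h3⟩ := ss_conj_mat _ _ (orderOf g) (orderOf g')
      (cast_ne_zero_of_coprime p _ hg) (cast_ne_zero_of_coprime p _ hg') hA hB hc
    rw [isConj_iff]
    obtain ⟨c, hcC⟩ : ∃ c : GL (Fin (k + 1)) F, (c : Matrix (Fin (k + 1)) (Fin (k + 1)) F) = C :=
      ⟨⟨C, D, h1, h2⟩, rfl⟩
    refine ⟨c, ?_⟩
    have h5 : c * g = g' * c := by
      apply Units.ext
      rw [Units.val_mul, Units.val_mul, hcC]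
      exact h3
    rw [h5, mul_inv_cancel_right]
  have hrange : Set.range Φ = {c : Fin (k + 1) → F | c 0 ≠ 0} := by
    ext c
    constructor
    · rintro ⟨⟨c', g, rfl, hg⟩, rfl⟩
      show (g : Matrix (Fin (k + 1)) (Fin (k + 1)) F).charpoly.coeff 0 ≠ 0
      intro h0
      have hdet := Matrix.det_eq_sign_charpoly_coeff (g : Matrix (Fin (k + 1)) (Fin (k + 1)) F)
      rw [h0, mul_zero] at hdet
      have hu : IsUnit (g : Matrix (Fin (k + 1)) (Fin (k + 1)) F).det :=
        (Matrix.isUnit_iff_isUnit_det _).1 g.isUnit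
      rw [hdet] at hu
      exact not_isUnit_zero hu
    · intro hc
      have hc' : c 0 ≠ 0 := hc
      obtain ⟨A, m, hm, hA, hAc⟩ := exists_ss_mat (mkpoly (k + 1) c) (mkpoly_monic _ _)
        (mkpoly_natDegree _ _) (by
          have := mkpoly_coeff (k + 1) c 0
          rw [Fin.val_zero] at this
          rw [this]
          exact hc')
      have hm0 : m ≠ 0 := by
        rintro rfl
        exact hm Nat.cast_zero
      obtain ⟨g, hgA⟩ : ∃ g : GL (Fin (k + 1)) F, (g : Matrix (Fin (k + 1)) (Fin (k + 1)) F) = A :=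
        ⟨⟨A, A ^ (m - 1), by rw [← pow_succ', Nat.sub_add_cancel (Nat.pos_of_ne_zero hm0), hA],
          by rw [← pow_succ, Nat.sub_add_cancel (Nat.pos_of_ne_zero hm0), hA]⟩, rfl⟩
      have hgm : g ^ m = 1 := by
        apply Units.ext
        rw [Units.val_pow_eq_pow_val, hgA, hA, Units.val_one]
      refine ⟨⟨ConjClasses.mk g, g, rfl, coprime_orderOf p g m hgm (coprime_of_cast_ne_zero p m hm)⟩, ?_⟩
      funext j
      show (g : Matrix (Fin (k + 1)) (Fin (k + 1)) F).charpoly.coeff j = c j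
      rw [hgA, hAc, mkpoly_coeff]
  rw [Nat.card_congr (Equiv.ofInjective Φ hinj), hrange]
  show Nat.card {c : Fin (k + 1) → F // c 0 ≠ 0} = _
  rw [card_fun_ne_zero, hq, Nat.add_sub_cancel]



/-- In `GL_n(q)` with `n ≥ 1`, `q` a power of the prime `p`, the number of conjugacy classes of elements of order prime to `p` (diagonalisable over the algebraic closure; determined by the characteristic polynomial) is `(q - 1) q^(n-1)`. -/
theorem result {F : Type*} [Field F] [Fintype F] {q : ℕ} (hq : Fintype.card F = q) (p : ℕ) [Fact p.Prime] [CharP F p] (n : ℕ) (hn : 1 ≤ n) :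
    Nat.card {c : ConjClasses (GL (Fin n) F) // ∃ g : GL (Fin n) F, ConjClasses.mk g = c ∧ (orderOf g).Coprime p} = (q - 1) * q ^ (n - 1) := by
  exact main hq p n hn

end Cfsg.Agent.S2387
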