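import Cfsg.Statements.S2388
-- import your own Cfsg.Agent.* helpers here
import Mathlib
import Cfsg.Agent.Lib.helper18.RCF3

set_option autoImplicit false
open Cfsg

namespace Cfsg.Agent.S2388


open Polynomial Cfsg.Agent.Lib.helper18.RCF

theorem main {F : Type*} [Field F] [Fintype F] (p : ℕ) [Fact p.Prime] [CharP F p] (n : ℕ)
    (g h : Matrix.SpecialLinearGroup (Fin n) F) (hg : (orderOf g).Coprime p) (hh : (orderOf h).Coprime p)
    (hc : (g : Matrix (Fin n) (Fin n) F).charpoly = (h : Matrix (Fin n) (Fin n) F).charpoly) : IsConj g h := by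
  rcases Nat.eq_zero_or_pos n with hn | hn
  · subst hn
    have : g = h := by
      apply Subtype.ext
      exact Subsingleton.elim _ _
    rw [this]
  · have hA : (g : Matrix (Fin n) (Fin n) F) ^ orderOf g = 1 := by
      rw [← Matrix.SpecialLinearGroup.coe_pow, pow_orderOf_eq_one, Matrix.SpecialLinearGroup.coe_one]
    have hB : (h : Matrix (Fin n) (Fin n) F) ^ orderOf h = 1 := by
      rw [← Matrix.SpecialLinearGroup.coe_pow, pow_orderOf_eq_one, Matrix.SpecialLinearGroup.coe_one]
    obtain ⟨C, D, h1, h2, h3, h4⟩ := ss_conj_mat_det hn _ _ _ _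
      (cast_ne_zero_of_coprime p _ hg) (cast_ne_zero_of_coprime p _ hh) hA hB hc
    rw [isConj_iff]
    obtain ⟨c, hcC⟩ : ∃ c : Matrix.SpecialLinearGroup (Fin n) F,
        (c : Matrix (Fin n) (Fin n) F) = C := ⟨⟨C, h4⟩, rfl⟩
    refine ⟨c, ?_⟩
    have h5 : c * g = h * c := by
      apply Subtype.ext
      rw [Matrix.SpecialLinearGroup.coe_mul, Matrix.SpecialLinearGroup.coe_mul, hcC]
      exact h3
    rw [h5, mul_inv_cancel_right]



/-- In `SL_n(q)`, `q` a power of the prime `p`, two elements of order prime to `p` with the same characteristic polynomial are conjugate in `SL_n(q)` (not merely in `GL_n`). -/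
theorem result {F : Type*} [Field F] [Fintype F] (p : ℕ) [Fact p.Prime] [CharP F p] (n : ℕ)
    (g h : Matrix.SpecialLinearGroup (Fin n) F) (hg : (orderOf g).Coprime p) (hh : (orderOf h).Coprime p)
    (hc : (g : Matrix (Fin n) (Fin n) F).charpoly = (h : Matrix (Fin n) (Fin n) F).charpoly) : IsConj g h := by
  exact main p n g h hg hh hc

end Cfsg.Agent.S2388
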