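import Cfsg.Statements.S2392
-- import your own Cfsg.Agent.* helpers here
import Mathlib

set_option autoImplicit false
open scoped MatrixGroups
open Cfsg

namespace Cfsg.Agent.S2392

section
open Matrix

section core

set_option linter.unusedSectionVars false

variable {F : Type*} [Field F] [Fintype F] [DecidableEq F]
variable {L : Type*} [Field L] {m d : ℕ}

def emb (u : Fin m → F) : Fin (m+1) → F := Fin.cons 0 u

def e0 : Fin (m+1) → F := Pi.single 0 1

theorem emb_add (u u' : Fin m → F) : emb (u + u') = emb u + emb u' := by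
  funext i
  refine Fin.cases ?_ (fun j => ?_) i <;> simp [emb]

theorem emb_smul (t : F) (u : Fin m → F) : emb (t • u) = t • emb u := by
  funext i
  refine Fin.cases ?_ (fun j => ?_) i <;> simp [emb]

theorem emb_zero : emb (0 : Fin m → F) = 0 := by
  funext i
  refine Fin.cases ?_ (fun j => ?_) i <;> simp [emb]

theorem emb_dot (u u' : Fin m → F) : emb u ⬝ᵥ emb u' = u ⬝ᵥ u' := by
  simp [emb, dotProduct, Fin.sum_univ_succ]

theorem e0_dot_emb (u : Fin m → F) : (e0 : Fin (m+1) → F) ⬝ᵥ emb u = 0 := by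
  simp [emb, e0, single_dotProduct]

theorem det_T (u f : Fin (m+1) → F) (h : f ⬝ᵥ u = 0) : (1 + vecMulVec u f).det = 1 := by
  rw [Matrix.vecMulVec_eq (Fin 1), Matrix.det_one_add_replicateCol_mul_replicateRow, h, add_zero]

def T (u f : Fin (m+1) → F) (h : f ⬝ᵥ u = 0) : Matrix.SpecialLinearGroup (Fin (m+1)) F :=
  ⟨1 + vecMulVec u f, det_T u f h⟩

theorem T_mul (u f u' f' : Fin (m+1) → F) :
    (1 + vecMulVec u f) * (1 + vecMulVec u' f') =
      1 + vecMulVec u f + vecMulVec u' f' + (f ⬝ᵥ u') • vecMulVec u f' := by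
  rw [Matrix.add_mul, Matrix.mul_add, Matrix.mul_add, Matrix.one_mul, Matrix.one_mul, Matrix.mul_one,
    Matrix.vecMulVec_mul_vecMulVec, Matrix.vecMulVec_smul]
  abel

def aS (c : Fin m → F) : Matrix.SpecialLinearGroup (Fin (m+1)) F := T (emb c) e0 (e0_dot_emb c)

theorem aS_mul (c c' : Fin m → F) : aS c * aS c' = aS (c + c') := by
  apply Subtype.ext
  show (1 + vecMulVec (emb c) e0) * (1 + vecMulVec (emb c') e0) = 1 + vecMulVec (emb (c + c')) e0
  rw [T_mul, e0_dot_emb, zero_smul, add_zero, emb_add, Matrix.add_vecMulVec, add_assoc]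

theorem aS_zero : aS (0 : Fin m → F) = 1 := by
  apply Subtype.ext
  show 1 + vecMulVec (emb 0) e0 = 1
  rw [emb_zero]; simp

def hS (v φ : Fin m → F) (hv : φ ⬝ᵥ v = 0) : Matrix.SpecialLinearGroup (Fin (m+1)) F :=
  T (emb v) (emb φ) (by rw [emb_dot]; exact hv)

theorem rel (v φ : Fin m → F) (hv : φ ⬝ᵥ v = 0) (c : Fin m → F) :
    hS v φ hv * aS c = aS (c + (φ ⬝ᵥ c) • v) * hS v φ hv := by
  apply Subtype.ext
  show (1 + vecMulVec (emb v) (emb φ)) * (1 + vecMulVec (emb c) e0) =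
    (1 + vecMulVec (emb (c + (φ ⬝ᵥ c) • v)) e0) * (1 + vecMulVec (emb v) (emb φ))
  rw [T_mul, T_mul, emb_dot, e0_dot_emb, zero_smul, add_zero, emb_add, emb_smul,
    Matrix.add_vecMulVec, Matrix.smul_vecMulVec]
  abel

theorem charsum (ψ : AddChar F L) (hψ : ψ.IsPrimitive) (u : Fin m → F) :
    ∑ c : Fin m → F, ψ (u ⬝ᵥ c) = if u = 0 then (Fintype.card F : L) ^ m else 0 := by
  split_ifs with h
  · subst h
    simp
  · obtain ⟨i, hi⟩ := Function.ne_iff.mp h
    have h1 := hψ hi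
    obtain ⟨t, ht⟩ := AddChar.ne_one_iff.mp h1
    rw [AddChar.mulShift_apply] at ht
    let χ : AddChar (Fin m → F) L := ψ.compAddMonoidHom
      { toFun := fun c => u ⬝ᵥ c, map_zero' := dotProduct_zero u,
        map_add' := fun a b => dotProduct_add u a b }
    have hχ : χ ≠ 1 := by
      rw [AddChar.ne_one_iff]
      refine ⟨Pi.single i t, ?_⟩
      show ψ (u ⬝ᵥ Pi.single i t) ≠ 1
      rw [dotProduct_single]; exact ht
    exact AddChar.sum_eq_zero_of_ne_one hχ

variable (R : Matrix.SpecialLinearGroup (Fin (m+1)) F →* Matrix (Fin d) (Fin d) L) (ψ : AddChar F L)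

noncomputable def E (w : Fin m → F) : Matrix (Fin d) (Fin d) L :=
  ((Fintype.card F : L) ^ m)⁻¹ • ∑ c : Fin m → F, ψ (-(w ⬝ᵥ c)) • R (aS c)

theorem E_eigen (c w : Fin m → F) : R (aS c) * E R ψ w = ψ (w ⬝ᵥ c) • E R ψ w := by
  have hsum := Fintype.sum_equiv (Equiv.addLeft c)
    (fun c' => R (aS c) * (ψ (-(w ⬝ᵥ c')) • R (aS c')))
    (fun c'' => ψ (w ⬝ᵥ c) • (ψ (-(w ⬝ᵥ c'')) • R (aS c''))) (fun c' => by
      show R (aS c) * (ψ (-(w ⬝ᵥ c')) • R (aS c')) =
        ψ (w ⬝ᵥ c) • (ψ (-(w ⬝ᵥ (c + c'))) • R (aS (c + c')))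
      rw [Matrix.mul_smul, ← map_mul, aS_mul, smul_smul, ← AddChar.map_add_eq_mul, dotProduct_add]
      congr 2; ring)
  rw [E, Matrix.mul_smul, Finset.mul_sum, hsum, ← Finset.smul_sum, smul_comm]

theorem E_orth (hψ : ψ.IsPrimitive) (hQ : (Fintype.card F : L) ≠ 0) (w' w : Fin m → F) :
    E R ψ w' * E R ψ w = if w' = w then E R ψ w else 0 := by
  have h1 : E R ψ w' * E R ψ w =
      ((Fintype.card F : L) ^ m)⁻¹ • ∑ c : Fin m → F, ψ ((w - w') ⬝ᵥ c) • E R ψ w := by
    show (((Fintype.card F : L) ^ m)⁻¹ • ∑ c : Fin m → F, ψ (-(w' ⬝ᵥ c)) • R (aS c)) * E R ψ w = _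
    rw [Matrix.smul_mul, Finset.sum_mul]
    congr 1
    refine Finset.sum_congr rfl fun c _ => ?_
    rw [Matrix.smul_mul, E_eigen, smul_smul, ← AddChar.map_add_eq_mul, sub_dotProduct]
    congr 2; ring
  rw [h1, ← Finset.sum_smul, charsum ψ hψ (w - w')]
  split_ifs with h2 h3 h3
  · rw [smul_smul, inv_mul_cancel₀ (pow_ne_zero m hQ), one_smul]
  · exact absurd (sub_eq_zero.mp h2).symm h3
  · exact absurd (sub_eq_zero.mpr h3.symm) h2
  · rw [zero_smul, smul_zero]

theorem E_sum (hψ : ψ.IsPrimitive) (hQ : (Fintype.card F : L) ≠ 0) :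
    ∑ w : Fin m → F, E R ψ w = 1 := by
  have h1 : ∀ c : Fin m → F, ∑ w : Fin m → F, ψ (-(w ⬝ᵥ c)) • R (aS c) =
      (if c = 0 then (Fintype.card F : L) ^ m else 0) • R (aS c) := by
    intro c
    rw [← Finset.sum_smul]
    congr 1
    have h2 : ∑ w : Fin m → F, ψ (-(w ⬝ᵥ c)) = ∑ w : Fin m → F, ψ ((-c) ⬝ᵥ w) :=
      Finset.sum_congr rfl (fun w _ => by rw [neg_dotProduct, dotProduct_comm])
    rw [h2, charsum ψ hψ (-c)]
    simp only [neg_eq_zero]
  unfold E
  rw [← Finset.smul_sum, Finset.sum_comm, Finset.sum_congr rfl (fun c _ => h1 c)]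
  simp only [ite_smul, zero_smul, Finset.sum_ite_eq', Finset.mem_univ, if_true]
  rw [aS_zero, map_one, smul_smul, inv_mul_cancel₀ (pow_ne_zero m hQ), one_smul]

theorem E_conj (v φ : Fin m → F) (hv : φ ⬝ᵥ v = 0) (w : Fin m → F) :
    R (hS v φ hv) * E R ψ w = E R ψ (w - (w ⬝ᵥ v) • φ) * R (hS v φ hv) := by
  let τ : (Fin m → F) ≃ (Fin m → F) :=
    { toFun := fun c => c + (φ ⬝ᵥ c) • v
      invFun := fun c => c - (φ ⬝ᵥ c) • v
      left_inv := fun c => by
        show c + (φ ⬝ᵥ c) • v - (φ ⬝ᵥ (c + (φ ⬝ᵥ c) • v)) • v = c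
        rw [dotProduct_add, dotProduct_smul, hv, smul_zero, add_zero]; abel
      right_inv := fun c => by
        show c - (φ ⬝ᵥ c) • v + (φ ⬝ᵥ (c - (φ ⬝ᵥ c) • v)) • v = c
        rw [dotProduct_sub, dotProduct_smul, hv, smul_zero, sub_zero]; abel }
  have hsum := Fintype.sum_equiv τ (fun c => R (hS v φ hv) * (ψ (-(w ⬝ᵥ c)) • R (aS c)))
    (fun c' => (ψ (-((w - (w ⬝ᵥ v) • φ) ⬝ᵥ c')) • R (aS c')) * R (hS v φ hv)) (fun c => by
      show R (hS v φ hv) * (ψ (-(w ⬝ᵥ c)) • R (aS c)) =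
        (ψ (-((w - (w ⬝ᵥ v) • φ) ⬝ᵥ (c + (φ ⬝ᵥ c) • v))) • R (aS (c + (φ ⬝ᵥ c) • v))) *
          R (hS v φ hv)
      rw [Matrix.mul_smul, Matrix.smul_mul, ← map_mul, ← map_mul, rel]
      congr 3
      simp only [sub_dotProduct, dotProduct_add, smul_dotProduct, dotProduct_smul, hv, smul_eq_mul]
      ring)
  unfold E
  rw [Matrix.mul_smul, Matrix.smul_mul, Finset.mul_sum, Finset.sum_mul, hsum]

theorem E_step (v φ : Fin m → F) (hv : φ ⬝ᵥ v = 0) (w : Fin m → F) (hw : E R ψ w ≠ 0) :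
    E R ψ (w - (w ⬝ᵥ v) • φ) ≠ 0 := by
  intro h0
  apply hw
  have h1 := E_conj R ψ v φ hv w
  rw [h0, Matrix.zero_mul] at h1
  have h2 : R ((hS v φ hv)⁻¹) * (R (hS v φ hv) * E R ψ w) = E R ψ w := by
    rw [← Matrix.mul_assoc, ← map_mul, inv_mul_cancel, map_one, Matrix.one_mul]
  rw [← h2, h1, Matrix.mul_zero]

theorem E_trans (w z : Fin m → F) (i j : Fin m) (hD : w i * z j - w j * z i ≠ 0)
    (hw : E R ψ w ≠ 0) : E R ψ z ≠ 0 := by
  obtain ⟨v, hv⟩ : ∃ v : Fin m → F, v = Pi.single i ((z j - w j) / (w i * z j - w j * z i)) +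
      Pi.single j ((w i - z i) / (w i * z j - w j * z i)) := ⟨_, rfl⟩
  have hwv : w ⬝ᵥ v = 1 := by
    rw [hv, dotProduct_add, dotProduct_single, dotProduct_single, ← mul_div_assoc,
      ← mul_div_assoc, ← add_div, div_eq_one_iff_eq hD]
    ring
  have hzv : z ⬝ᵥ v = 1 := by
    rw [hv, dotProduct_add, dotProduct_single, dotProduct_single, ← mul_div_assoc,
      ← mul_div_assoc, ← add_div, div_eq_one_iff_eq hD]
    ring
  have hφ : (w - z) ⬝ᵥ v = 0 := by rw [sub_dotProduct, hwv, hzv, sub_self]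
  have h1 := E_step R ψ v (w - z) hφ w hw
  rw [hwv, one_smul, sub_sub_cancel] at h1
  exact h1

theorem E_all (hψ : ψ.IsPrimitive) (hQ : (Fintype.card F : L) ≠ 0) (hm : 2 ≤ m)
    (hR : ∃ c : Fin m → F, R (aS c) ≠ 1) (z : Fin m → F) (hz : z ≠ 0) : E R ψ z ≠ 0 := by
  obtain ⟨w0, hw0, hE0⟩ : ∃ w0 : Fin m → F, w0 ≠ 0 ∧ E R ψ w0 ≠ 0 := by
    by_contra hcon
    push Not at hcon
    obtain ⟨c, hc⟩ := hR
    apply hc
    have h1 : E R ψ 0 = 1 := by
      rw [← E_sum R ψ hψ hQ]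
      symm
      apply Finset.sum_eq_single
      · intro w _ hw; exact hcon w hw
      · intro h; exact absurd (Finset.mem_univ _) h
    have h2 := E_eigen R ψ c 0
    rw [h1, zero_dotProduct, AddChar.map_zero_eq_one, one_smul, Matrix.mul_one] at h2
    exact h2
  by_cases h : ∃ i j, w0 i * z j - w0 j * z i ≠ 0
  · obtain ⟨i, j, hD⟩ := h
    exact E_trans R ψ w0 z i j hD hE0
  · push Not at h
    obtain ⟨i0, hi0⟩ := Function.ne_iff.mp hw0
    have hi0' : w0 i0 ≠ 0 := hi0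
    have hz0 : z i0 ≠ 0 := by
      intro hz0
      apply hz
      funext j
      have := h i0 j
      rw [hz0, mul_zero, sub_zero] at this
      exact (mul_eq_zero.mp this).resolve_left hi0'
    have : Nontrivial (Fin m) := Fin.nontrivial_iff_two_le.mpr hm
    obtain ⟨j0, hj0⟩ := exists_ne i0
    obtain ⟨u, hu⟩ : ∃ u : Fin m → F, u = w0 + Pi.single j0 1 := ⟨_, rfl⟩
    have hu_i : u i0 = w0 i0 := by
      rw [hu, Pi.add_apply, Pi.single_eq_of_ne hj0.symm, add_zero]
    have hu_j : u j0 = w0 j0 + 1 := by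
      rw [hu, Pi.add_apply, Pi.single_eq_same]
    have hEu : E R ψ u ≠ 0 := by
      refine E_trans R ψ w0 u i0 j0 ?_ hE0
      rw [hu_i, hu_j]
      have : w0 i0 * (w0 j0 + 1) - w0 j0 * w0 i0 = w0 i0 := by ring
      rw [this]; exact hi0'
    refine E_trans R ψ u z i0 j0 ?_ hEu
    rw [hu_i, hu_j]
    have h3 := h i0 j0
    have : w0 i0 * z j0 - (w0 j0 + 1) * z i0 = (w0 i0 * z j0 - w0 j0 * z i0) - z i0 := by ring
    rw [this, h3, zero_sub]
    exact neg_ne_zero.mpr hz0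

theorem core (hψ : ψ.IsPrimitive) (hQ : (Fintype.card F : L) ≠ 0) (hm : 2 ≤ m)
    (hR : ∃ c : Fin m → F, R (aS c) ≠ 1) : Fintype.card F ^ m - 1 ≤ d := by
  have hall := E_all R ψ hψ hQ hm hR
  have hex : ∀ w : {w : Fin m → F // w ≠ 0}, ∃ y : Fin d → L, E R ψ w.1 *ᵥ y ≠ 0 := by
    intro w
    by_contra hcon
    push Not at hcon
    apply hall w.1 w.2
    ext i j
    have := congrFun (hcon (Pi.single j 1)) i
    rw [Matrix.mulVec_single_one] at this
    exact this
  choose y hy using hex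
  have hli : LinearIndependent L (fun w : {w : Fin m → F // w ≠ 0} => E R ψ w.1 *ᵥ y w) := by
    rw [Fintype.linearIndependent_iff]
    intro g hg w1
    have h1 := congrArg (fun x => E R ψ w1.1 *ᵥ x) hg
    simp only [Matrix.mulVec_sum, Matrix.mulVec_smul, Matrix.mulVec_mulVec, Matrix.mulVec_zero] at h1
    rw [Finset.sum_eq_single w1] at h1
    · rw [E_orth R ψ hψ hQ, if_pos rfl] at h1
      exact (smul_eq_zero.mp h1).resolve_right (hy w1)
    · intro w _ hne
      rw [E_orth R ψ hψ hQ, if_neg (fun h => hne (Subtype.ext h.symm)), Matrix.zero_mulVec, smul_zero]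
    · intro h; exact absurd (Finset.mem_univ _) h
  have h2 := hli.fintype_card_le_finrank
  rw [Module.finrank_fin_fun] at h2
  have h3 : Fintype.card {w : Fin m → F // w ≠ 0} = Fintype.card F ^ m - 1 := by
    simp [Fintype.card_subtype_compl]
  rw [h3] at h2
  exact h2

end core

theorem aux {F : Type*} [Field F] [Fintype F] {q : ℕ} (hq : Fintype.card F = q) (n : ℕ) (hn : 3 ≤ n)
    {K : Type*} [Field K] (hK : ringChar K ≠ ringChar F) {d : ℕ}
    (ρ : Matrix.SpecialLinearGroup (Fin n) F →* GL (Fin d) K)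
    (hker : ρ.ker ≤ Subgroup.center (Matrix.SpecialLinearGroup (Fin n) F)) :
    q ^ (n - 1) - 1 ≤ d := by
  classical
  obtain ⟨m, rfl⟩ : ∃ m, n = m + 1 := ⟨n - 1, by omega⟩
  subst hq
  have hm : 2 ≤ m := by omega
  obtain ⟨P, hP⟩ : ∃ P : AddChar.PrimitiveAddChar F K, P = AddChar.FiniteField.primitiveChar F K hK := ⟨_, rfl⟩
  have hψ : P.char.IsPrimitive := P.prim
  let R : Matrix.SpecialLinearGroup (Fin (m+1)) F →* Matrix (Fin d) (Fin d) (CyclotomicField P.n K) :=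
    ((algebraMap K (CyclotomicField P.n K)).mapMatrix :
      Matrix (Fin d) (Fin d) K →+* Matrix (Fin d) (Fin d) (CyclotomicField P.n K)).toMonoidHom.comp
      ((Units.coeHom (Matrix (Fin d) (Fin d) K)).comp ρ)
  have hRinj : ∀ g, R g = 1 → ρ g = 1 := by
    intro g hg
    apply Units.ext
    have h1 : (algebraMap K (CyclotomicField P.n K)).mapMatrix ((ρ g : GL (Fin d) K) : Matrix (Fin d) (Fin d) K)
        = (algebraMap K (CyclotomicField P.n K)).mapMatrix 1 := by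
      rw [map_one]; exact hg
    exact (Matrix.map_injective (algebraMap K (CyclotomicField P.n K)).injective) h1
  have hQ : (Fintype.card F : CyclotomicField P.n K) ≠ 0 := by
    have hp : Fact (ringChar F).Prime := ⟨CharP.char_is_prime F _⟩
    obtain ⟨k, -, hk⟩ := FiniteField.card F (ringChar F)
    rw [hk, Nat.cast_pow]
    apply pow_ne_zero
    have h1 : ((ringChar F : ℕ) : K) ≠ 0 := by
      intro h0
      rw [CharP.cast_eq_zero_iff K (ringChar K)] at h0
      rcases (Nat.dvd_prime hp.1).mp h0 with h1 | h1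
      · exact CharP.ringChar_ne_one h1
      · exact hK h1
    rw [← map_natCast (algebraMap K (CyclotomicField P.n K))]
    exact (map_ne_zero (algebraMap K (CyclotomicField P.n K))).mpr h1
  have hR : ∃ c : Fin m → F, R (aS c) ≠ 1 := by
    obtain ⟨i0, hi0⟩ : ∃ i0 : Fin m, i0 = ⟨0, by omega⟩ := ⟨_, rfl⟩
    refine ⟨Pi.single i0 1, fun h => ?_⟩
    have h1 : aS (Pi.single i0 (1 : F)) ∈ ρ.ker := MonoidHom.mem_ker.mpr (hRinj _ h)
    have h2 := hker h1
    rw [Matrix.SpecialLinearGroup.mem_center_iff] at h2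
    obtain ⟨r, _, hr⟩ := h2
    have h3 := congrFun (congrFun hr (Fin.succ i0)) 0
    have h4 : (aS (Pi.single i0 (1 : F)) : Matrix (Fin (m+1)) (Fin (m+1)) F) (Fin.succ i0) 0 = 1 := by
      show (1 + vecMulVec (emb (Pi.single i0 (1 : F))) e0) (Fin.succ i0) 0 = 1
      rw [Matrix.add_apply, Matrix.one_apply_ne (Fin.succ_ne_zero i0), Matrix.vecMulVec_apply, zero_add]
      show (Fin.cons 0 (Pi.single i0 (1 : F)) : Fin (m+1) → F) (Fin.succ i0) * (Pi.single 0 1 : Fin (m+1) → F) 0 = 1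
      rw [Fin.cons_succ, Pi.single_eq_same, Pi.single_eq_same, mul_one]
    rw [h4, Matrix.scalar_apply, Matrix.diagonal_apply_ne _ (Fin.succ_ne_zero i0)] at h3
    exact zero_ne_one h3
  have := core R P.char hψ hQ hm hR
  simpa using this

end


/-- A lower bound for representations in cross characteristic: for `n ≥ 3` and a field `F` with `q` elements, every homomorphism from `SL_n(F)` to `GL_d(K)`, `K` a field of characteristic different from that of `F`, whose kernel is central has `d ≥ q^(n-1) - 1`. -/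
theorem result {F : Type*} [Field F] [Fintype F] {q : ℕ} (hq : Fintype.card F = q) (n : ℕ) (hn : 3 ≤ n)
    {K : Type*} [Field K] (hK : ringChar K ≠ ringChar F) {d : ℕ}
    (ρ : Matrix.SpecialLinearGroup (Fin n) F →* GL (Fin d) K) (hker : ρ.ker ≤ Subgroup.center (Matrix.SpecialLinearGroup (Fin n) F)) :
    q ^ (n - 1) - 1 ≤ d := by
  exact aux hq n hn hK ρ hker

end Cfsg.Agent.S2392
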