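import Cfsg.Statements.S2393
-- import your own Cfsg.Agent.* helpers here
import Mathlib

set_option autoImplicit false
open scoped MatrixGroups
open Cfsg

namespace Cfsg.Agent.S2393

section
open Matrix

section gen

set_option linter.unusedSectionVars false

variable {F : Type*} [Field F] [Fintype F] [DecidableEq F]
variable {L : Type*} [Field L] {N d : ℕ}
variable {G : Type*} [Group G]

theorem charsum (ψ : AddChar F L) (hψ : ψ.IsPrimitive) (u : Fin N → F) :
    ∑ c : Fin N → F, ψ (u ⬝ᵥ c) = if u = 0 then (Fintype.card F : L) ^ N else 0 := by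
  split_ifs with h
  · subst h
    simp
  · obtain ⟨i, hi⟩ := Function.ne_iff.mp h
    have h1 := hψ hi
    obtain ⟨t, ht⟩ := AddChar.ne_one_iff.mp h1
    rw [AddChar.mulShift_apply] at ht
    let χ : AddChar (Fin N → F) L := ψ.compAddMonoidHom
      { toFun := fun c => u ⬝ᵥ c, map_zero' := dotProduct_zero u,
        map_add' := fun a b => dotProduct_add u a b }
    have hχ : χ ≠ 1 := by
      rw [AddChar.ne_one_iff]
      refine ⟨Pi.single i t, ?_⟩
      show ψ (u ⬝ᵥ Pi.single i t) ≠ 1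
      rw [dotProduct_single]; exact ht
    exact AddChar.sum_eq_zero_of_ne_one hχ

variable (a : (Fin N → F) → G) (R : G →* Matrix (Fin d) (Fin d) L) (ψ : AddChar F L)

/-- The (would-be) projection onto the `w`-isotypic part of the restriction of `R` to the
abelian subgroup parametrised by `a`. -/
noncomputable def E (w : Fin N → F) : Matrix (Fin d) (Fin d) L :=
  ((Fintype.card F : L) ^ N)⁻¹ • ∑ c : Fin N → F, ψ (-(w ⬝ᵥ c)) • R (a c)

theorem E_eigen (ha : ∀ c c', a c * a c' = a (c + c')) (c w : Fin N → F) :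
    R (a c) * E a R ψ w = ψ (w ⬝ᵥ c) • E a R ψ w := by
  have hsum := Fintype.sum_equiv (Equiv.addLeft c)
    (fun c' => R (a c) * (ψ (-(w ⬝ᵥ c')) • R (a c')))
    (fun c'' => ψ (w ⬝ᵥ c) • (ψ (-(w ⬝ᵥ c'')) • R (a c''))) (fun c' => by
      show R (a c) * (ψ (-(w ⬝ᵥ c')) • R (a c')) =
        ψ (w ⬝ᵥ c) • (ψ (-(w ⬝ᵥ (c + c'))) • R (a (c + c')))
      rw [Matrix.mul_smul, ← map_mul, ha, smul_smul, ← AddChar.map_add_eq_mul, dotProduct_add]
      congr 2; ring)
  rw [E, Matrix.mul_smul, Finset.mul_sum, hsum, ← Finset.smul_sum, smul_comm]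

theorem E_orth (ha : ∀ c c', a c * a c' = a (c + c')) (hψ : ψ.IsPrimitive)
    (hQ : (Fintype.card F : L) ≠ 0) (w' w : Fin N → F) :
    E a R ψ w' * E a R ψ w = if w' = w then E a R ψ w else 0 := by
  have h1 : E a R ψ w' * E a R ψ w =
      ((Fintype.card F : L) ^ N)⁻¹ • ∑ c : Fin N → F, ψ ((w - w') ⬝ᵥ c) • E a R ψ w := by
    show (((Fintype.card F : L) ^ N)⁻¹ • ∑ c : Fin N → F, ψ (-(w' ⬝ᵥ c)) • R (a c)) * E a R ψ w = _
    rw [Matrix.smul_mul, Finset.sum_mul]
    congr 1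
    refine Finset.sum_congr rfl fun c _ => ?_
    rw [Matrix.smul_mul, E_eigen a R ψ ha, smul_smul, ← AddChar.map_add_eq_mul, sub_dotProduct]
    congr 2; ring
  rw [h1, ← Finset.sum_smul, charsum ψ hψ (w - w')]
  split_ifs with h2 h3 h3
  · rw [smul_smul, inv_mul_cancel₀ (pow_ne_zero N hQ), one_smul]
  · exact absurd (sub_eq_zero.mp h2).symm h3
  · exact absurd (sub_eq_zero.mpr h3.symm) h2
  · rw [zero_smul, smul_zero]

theorem E_sum (ha : ∀ c c', a c * a c' = a (c + c')) (hψ : ψ.IsPrimitive)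
    (hQ : (Fintype.card F : L) ≠ 0) :
    ∑ w : Fin N → F, E a R ψ w = 1 := by
  have h0 : a 0 = 1 := by
    have h := ha 0 0
    rw [add_zero] at h
    exact mul_left_cancel (h.trans (mul_one _).symm)
  have h1 : ∀ c : Fin N → F, ∑ w : Fin N → F, ψ (-(w ⬝ᵥ c)) • R (a c) =
      (if c = 0 then (Fintype.card F : L) ^ N else 0) • R (a c) := by
    intro c
    rw [← Finset.sum_smul]
    congr 1
    have h2 : ∑ w : Fin N → F, ψ (-(w ⬝ᵥ c)) = ∑ w : Fin N → F, ψ ((-c) ⬝ᵥ w) :=
      Finset.sum_congr rfl (fun w _ => by rw [neg_dotProduct, dotProduct_comm])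
    rw [h2, charsum ψ hψ (-c)]
    simp only [neg_eq_zero]
  unfold E
  rw [← Finset.smul_sum, Finset.sum_comm, Finset.sum_congr rfl (fun c _ => h1 c)]
  simp only [ite_smul, zero_smul, Finset.sum_ite_eq', Finset.mem_univ, if_true]
  rw [h0, map_one, smul_smul, inv_mul_cancel₀ (pow_ne_zero N hQ), one_smul]

theorem E_conj (h : G) (τ : (Fin N → F) ≃ (Fin N → F)) (w w' : Fin N → F)
    (hrel : ∀ c, h * a c = a (τ c) * h) (hw : ∀ c, w' ⬝ᵥ τ c = w ⬝ᵥ c) :
    R h * E a R ψ w = E a R ψ w' * R h := by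
  have hsum := Fintype.sum_equiv τ (fun c => R h * (ψ (-(w ⬝ᵥ c)) • R (a c)))
    (fun c' => (ψ (-(w' ⬝ᵥ c')) • R (a c')) * R h) (fun c => by
      show R h * (ψ (-(w ⬝ᵥ c)) • R (a c)) = (ψ (-(w' ⬝ᵥ τ c)) • R (a (τ c))) * R h
      rw [Matrix.mul_smul, Matrix.smul_mul, ← map_mul, ← map_mul, hrel, hw])
  unfold E
  rw [Matrix.mul_smul, Matrix.smul_mul, Finset.mul_sum, Finset.sum_mul, hsum]

theorem E_step (h : G) (τ : (Fin N → F) ≃ (Fin N → F)) (w w' : Fin N → F)
    (hrel : ∀ c, h * a c = a (τ c) * h) (hw : ∀ c, w' ⬝ᵥ τ c = w ⬝ᵥ c)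
    (hE : E a R ψ w ≠ 0) : E a R ψ w' ≠ 0 := by
  intro h0
  apply hE
  have h1 := E_conj a R ψ h τ w w' hrel hw
  rw [h0, Matrix.zero_mul] at h1
  have h2 : R h⁻¹ * (R h * E a R ψ w) = E a R ψ w := by
    rw [← Matrix.mul_assoc, ← map_mul, inv_mul_cancel, map_one, Matrix.one_mul]
  rw [← h2, h1, Matrix.mul_zero]

theorem E_bound (ha : ∀ c c', a c * a c' = a (c + c')) (hψ : ψ.IsPrimitive)
    (hQ : (Fintype.card F : L) ≠ 0) (S : Finset (Fin N → F))
    (hS : ∀ w ∈ S, E a R ψ w ≠ 0) : S.card ≤ d := by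
  have hex : ∀ w : S, ∃ y : Fin d → L, E a R ψ w.1 *ᵥ y ≠ 0 := by
    intro w
    by_contra hcon
    push Not at hcon
    apply hS w.1 w.2
    ext i j
    have := congrFun (hcon (Pi.single j 1)) i
    rw [Matrix.mulVec_single_one] at this
    exact this
  choose y hy using hex
  have hli : LinearIndependent L (fun w : S => E a R ψ w.1 *ᵥ y w) := by
    rw [Fintype.linearIndependent_iff]
    intro g hg w1
    have h1 := congrArg (fun x => E a R ψ w1.1 *ᵥ x) hg
    simp only [Matrix.mulVec_sum, Matrix.mulVec_smul, Matrix.mulVec_mulVec, Matrix.mulVec_zero] at h1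
    rw [Finset.sum_eq_single w1] at h1
    · rw [E_orth a R ψ ha hψ hQ, if_pos rfl] at h1
      exact (smul_eq_zero.mp h1).resolve_right (hy w1)
    · intro w _ hne
      rw [E_orth a R ψ ha hψ hQ, if_neg (fun h => hne (Subtype.ext h.symm)), Matrix.zero_mulVec,
        smul_zero]
    · intro h; exact absurd (Finset.mem_univ _) h
  have h2 := hli.fintype_card_le_finrank
  rw [Module.finrank_fin_fun, Fintype.card_coe] at h2
  exact h2

end gen

section sp

variable {F : Type*} [Field F] {m : ℕ}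

def e0 : Fin (m+1) → F := Pi.single 0 1

theorem dot_e0 (w : Fin (m+1) → F) : w ⬝ᵥ e0 = w 0 := by
  rw [e0, dotProduct_single, mul_one]

theorem e0_dot (w : Fin (m+1) → F) : e0 ⬝ᵥ w = w 0 := by
  rw [dotProduct_comm, dot_e0]

def Sm (y : Fin (m+1) → F) : Matrix (Fin (m+1)) (Fin (m+1)) F := vecMulVec y e0 + vecMulVec e0 y

theorem Sm_transpose (y : Fin (m+1) → F) : (Sm y)ᵀ = Sm y := by
  unfold Sm
  rw [Matrix.transpose_add, Matrix.transpose_vecMulVec, Matrix.transpose_vecMulVec]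
  exact add_comm _ _

theorem Sm_add (y y' : Fin (m+1) → F) : Sm (y + y') = Sm y + Sm y' := by
  unfold Sm
  rw [Matrix.add_vecMulVec, Matrix.vecMulVec_add]; abel

theorem Sm_smul (t : F) (y : Fin (m+1) → F) : Sm (t • y) = t • Sm y := by
  unfold Sm
  rw [Matrix.smul_vecMulVec, Matrix.vecMulVec_smul, smul_add]

theorem mem_u (S : Matrix (Fin (m+1)) (Fin (m+1)) F) (hS : Sᵀ = S) :
    Matrix.fromBlocks 1 S 0 1 ∈ Matrix.symplecticGroup (Fin (m+1)) F := by
  rw [SymplecticGroup.mem_iff, Matrix.J, Matrix.fromBlocks_multiply, Matrix.fromBlocks_transpose,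
    Matrix.fromBlocks_multiply]
  simp [hS]

theorem mem_d (g g' : Matrix (Fin (m+1)) (Fin (m+1)) F) (h : g * g'ᵀ = 1) :
    Matrix.fromBlocks g 0 0 g' ∈ Matrix.symplecticGroup (Fin (m+1)) F := by
  have h' : g' * gᵀ = 1 := by
    have := congrArg Matrix.transpose h
    rw [Matrix.transpose_mul, Matrix.transpose_transpose, Matrix.transpose_one] at this
    exact this
  rw [SymplecticGroup.mem_iff, Matrix.J, Matrix.fromBlocks_multiply, Matrix.fromBlocks_transpose,
    Matrix.fromBlocks_multiply]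
  simp [h, h']

def aSp (y : Fin (m+1) → F) : ↥(Matrix.symplecticGroup (Fin (m+1)) F) :=
  ⟨Matrix.fromBlocks 1 (Sm y) 0 1, mem_u _ (Sm_transpose y)⟩

theorem aSp_mul (y y' : Fin (m+1) → F) : aSp y * aSp y' = aSp (y + y') := by
  apply Subtype.ext
  show Matrix.fromBlocks 1 (Sm y) 0 1 * Matrix.fromBlocks 1 (Sm y') 0 1 =
    Matrix.fromBlocks 1 (Sm (y + y')) 0 1
  rw [Matrix.fromBlocks_multiply, Sm_add]
  simp [add_comm]

def dSp (g g' : Matrix (Fin (m+1)) (Fin (m+1)) F) (h : g * g'ᵀ = 1) :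
    ↥(Matrix.symplecticGroup (Fin (m+1)) F) :=
  ⟨Matrix.fromBlocks g 0 0 g', mem_d g g' h⟩

theorem dSp_rel (g g' : Matrix (Fin (m+1)) (Fin (m+1)) F) (h : g * g'ᵀ = 1)
    (y y' : Fin (m+1) → F) (hrel : g * Sm y = Sm y' * g') :
    dSp g g' h * aSp y = aSp y' * dSp g g' h := by
  apply Subtype.ext
  show Matrix.fromBlocks g 0 0 g' * Matrix.fromBlocks 1 (Sm y) 0 1 =
    Matrix.fromBlocks 1 (Sm y') 0 1 * Matrix.fromBlocks g 0 0 g'
  rw [Matrix.fromBlocks_multiply, Matrix.fromBlocks_multiply]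
  simp [hrel]

theorem k_inv (x : Fin (m+1) → F) (hx : x 0 = 0) :
    ((1 : Matrix (Fin (m+1)) (Fin (m+1)) F) + vecMulVec e0 x) *
      ((1 : Matrix (Fin (m+1)) (Fin (m+1)) F) - vecMulVec x e0)ᵀ = 1 := by
  rw [Matrix.transpose_sub, Matrix.transpose_one, Matrix.transpose_vecMulVec]
  simp only [Matrix.add_mul, Matrix.mul_sub, Matrix.one_mul, Matrix.mul_one,
    Matrix.vecMulVec_mul_vecMulVec, dot_e0, hx, zero_smul, Matrix.vecMulVec_zero, sub_zero]
  abel

theorem k_rel (x y : Fin (m+1) → F) (hx : x 0 = 0) :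
    ((1 : Matrix (Fin (m+1)) (Fin (m+1)) F) + vecMulVec e0 x) * Sm y =
      Sm (y + (x ⬝ᵥ y) • e0) * ((1 : Matrix (Fin (m+1)) (Fin (m+1)) F) - vecMulVec x e0) := by
  unfold Sm
  simp only [Matrix.add_mul, Matrix.mul_add, Matrix.mul_sub, Matrix.one_mul, Matrix.mul_one,
    Matrix.vecMulVec_mul_vecMulVec, Matrix.add_vecMulVec, Matrix.vecMulVec_add,
    Matrix.smul_vecMulVec, Matrix.vecMulVec_smul, dot_e0, e0_dot, hx, zero_smul, add_dotProduct,
    smul_dotProduct, smul_eq_mul, mul_zero, add_zero, Matrix.vecMulVec_zero, Matrix.zero_vecMulVec,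
    dotProduct_comm y x, Matrix.smul_mul, Matrix.mul_smul, smul_zero, sub_zero]
  abel

theorem t_inv (s si : F) (h : s * si = 1) :
    (s • (1 : Matrix (Fin (m+1)) (Fin (m+1)) F)) * (si • (1 : Matrix (Fin (m+1)) (Fin (m+1)) F))ᵀ = 1 := by
  rw [Matrix.transpose_smul, Matrix.transpose_one, Matrix.smul_mul, Matrix.mul_smul, Matrix.one_mul,
    smul_smul, h, one_smul]

theorem t_rel (s si : F) (h : s * si = 1) (y : Fin (m+1) → F) :
    (s • (1 : Matrix (Fin (m+1)) (Fin (m+1)) F)) * Sm y =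
      Sm (s ^ 2 • y) * (si • (1 : Matrix (Fin (m+1)) (Fin (m+1)) F)) := by
  rw [Sm_smul, Matrix.smul_mul, Matrix.one_mul, Matrix.mul_smul, Matrix.mul_one, smul_smul]
  congr 1
  have : si * s ^ 2 = (s * si) * s := by ring
  rw [this, h, one_mul]

end sp

theorem aux {F : Type*} [Field F] [Fintype F] {q : ℕ} (hq : Fintype.card F = q) (hodd : Odd q) (n : ℕ) (hn : 2 ≤ n)
    {K : Type*} [Field K] (hK : ringChar K ≠ ringChar F) {d : ℕ}
    (ρ : ↥(Matrix.symplecticGroup (Fin n) F) →* GL (Fin d) K) (hker : ρ.ker ≤ Subgroup.center ↥(Matrix.symplecticGroup (Fin n) F)) :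
    q ^ (n - 1) * (q - 1) / 2 ≤ d := by
  classical
  obtain ⟨m, rfl⟩ : ∃ m, n = m + 1 := ⟨n - 1, by omega⟩
  subst hq
  obtain ⟨P, hP⟩ : ∃ P : AddChar.PrimitiveAddChar F K, P = AddChar.FiniteField.primitiveChar F K hK := ⟨_, rfl⟩
  have hψ : P.char.IsPrimitive := P.prim
  let R : ↥(Matrix.symplecticGroup (Fin (m+1)) F) →* Matrix (Fin d) (Fin d) (CyclotomicField P.n K) :=
    ((algebraMap K (CyclotomicField P.n K)).mapMatrix :
      Matrix (Fin d) (Fin d) K →+* Matrix (Fin d) (Fin d) (CyclotomicField P.n K)).toMonoidHom.comp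
      ((Units.coeHom (Matrix (Fin d) (Fin d) K)).comp ρ)
  have hRinj : ∀ g, R g = 1 → ρ g = 1 := by
    intro g hg
    apply Units.ext
    have h1 : (algebraMap K (CyclotomicField P.n K)).mapMatrix ((ρ g : GL (Fin d) K) : Matrix (Fin d) (Fin d) K)
        = (algebraMap K (CyclotomicField P.n K)).mapMatrix 1 := by
      rw [map_one]; exact hg
    exact (Matrix.map_injective (algebraMap K (CyclotomicField P.n K)).injective) h1
  have hQ : (Fintype.card F : CyclotomicField P.n K) ≠ 0 := by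
    have hp : Fact (ringChar F).Prime := ⟨CharP.char_is_prime F _⟩
    obtain ⟨k, -, hk⟩ := FiniteField.card F (ringChar F)
    rw [hk, Nat.cast_pow]
    apply pow_ne_zero
    have h1 : ((ringChar F : ℕ) : K) ≠ 0 := by
      intro h0
      rw [CharP.cast_eq_zero_iff K (ringChar K)] at h0
      rcases (Nat.dvd_prime hp.1).mp h0 with h1 | h1
      · exact CharP.ringChar_ne_one h1
      · exact hK h1
    rw [← map_natCast (algebraMap K (CyclotomicField P.n K))]
    exact (map_ne_zero (algebraMap K (CyclotomicField P.n K))).mpr h1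
  have h2 : (2 : F) ≠ 0 := by
    intro h
    have h3 : ringChar F = 2 := by
      have h4 : ((2 : ℕ) : F) = 0 := by exact_mod_cast h
      rw [CharP.cast_eq_zero_iff F (ringChar F)] at h4
      rcases (Nat.dvd_prime Nat.prime_two).mp h4 with h1 | h1
      · exact absurd h1 CharP.ringChar_ne_one
      · exact h1
    have h5 := FiniteField.even_card_iff_char_two.mp h3
    obtain ⟨k, hk⟩ := hodd
    omega
  have ha : ∀ c c' : Fin (m+1) → F, aSp c * aSp c' = aSp (c + c') := aSp_mul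
  -- Step 1: a character nontrivial on the long root subgroup occurs
  obtain ⟨w0, hw0, hE0⟩ : ∃ w0 : Fin (m+1) → F, w0 0 ≠ 0 ∧ E aSp R P.char w0 ≠ 0 := by
    by_contra hcon
    push Not at hcon
    have h1 : R (aSp (e0 : Fin (m+1) → F)) = 1 := by
      have h3 := E_sum aSp R P.char ha hψ hQ
      calc R (aSp (e0 : Fin (m+1) → F))
          = R (aSp (e0 : Fin (m+1) → F)) * ∑ w, E aSp R P.char w := by rw [h3, Matrix.mul_one]
        _ = ∑ w, E aSp R P.char w := by
            rw [Finset.mul_sum]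
            refine Finset.sum_congr rfl fun w _ => ?_
            rw [E_eigen aSp R P.char ha]
            by_cases hw : w 0 = 0
            · rw [dot_e0, hw, AddChar.map_zero_eq_one, one_smul]
            · rw [hcon w hw, smul_zero]
        _ = 1 := h3
    have h4 : aSp (e0 : Fin (m+1) → F) ∈ ρ.ker := MonoidHom.mem_ker.mpr (hRinj _ h1)
    have h5 := hker h4
    rw [Subgroup.mem_center_iff] at h5
    have h6 := congrArg Subtype.val (h5 (SymplecticGroup.symJ (Fin (m+1)) F))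
    change Matrix.J (Fin (m+1)) F * Matrix.fromBlocks 1 (Sm e0) 0 1 =
      Matrix.fromBlocks 1 (Sm e0) 0 1 * Matrix.J (Fin (m+1)) F at h6
    rw [Matrix.J, Matrix.fromBlocks_multiply, Matrix.fromBlocks_multiply, Matrix.fromBlocks_inj] at h6
    have h7 : Sm (e0 : Fin (m+1) → F) = 0 := by
      have h8 := h6.1
      simpa using h8.symm
    have h8 : (Sm (e0 : Fin (m+1) → F)) 0 0 = 2 := by
      show ((vecMulVec (e0 : Fin (m+1) → F) e0 + vecMulVec (e0 : Fin (m+1) → F) e0 :
        Matrix (Fin (m+1)) (Fin (m+1)) F)) 0 0 = 2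
      have he : (e0 : Fin (m+1) → F) 0 = 1 := Pi.single_eq_same 0 1
      rw [Matrix.add_apply, Matrix.vecMulVec_apply, he]
      norm_num
    rw [h7] at h8
    exact h2 h8.symm
  -- Step 2: the orbit
  have key : ∀ (s : F) (w' : Fin (m+1) → F), s ≠ 0 → w' 0 = s ^ 2 * w0 0 →
      E aSp R P.char w' ≠ 0 := by
    intro s w' hs hw'
    have hss : s ^ 2 * (s⁻¹) ^ 2 = 1 := by rw [← mul_pow, mul_inv_cancel₀ hs, one_pow]
    have hss' : (s⁻¹) ^ 2 * s ^ 2 = 1 := by rw [mul_comm]; exact hss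
    have hA : E aSp R P.char (s ^ 2 • w0) ≠ 0 := by
      let τ : (Fin (m+1) → F) ≃ (Fin (m+1) → F) :=
        { toFun := fun c => (s⁻¹) ^ 2 • c
          invFun := fun c => s ^ 2 • c
          left_inv := fun c => by
            show s ^ 2 • (s⁻¹) ^ 2 • c = c
            rw [smul_smul, hss, one_smul]
          right_inv := fun c => by
            show (s⁻¹) ^ 2 • s ^ 2 • c = c
            rw [smul_smul, hss', one_smul] }
      refine E_step aSp R P.char (dSp (s⁻¹ • 1) (s • 1) (t_inv s⁻¹ s (inv_mul_cancel₀ hs))) τ w0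
        (s ^ 2 • w0) ?_ ?_ hE0
      · intro c
        exact dSp_rel _ _ _ c (τ c) (t_rel s⁻¹ s (inv_mul_cancel₀ hs) c)
      · intro c
        show (s ^ 2 • w0) ⬝ᵥ ((s⁻¹) ^ 2 • c) = w0 ⬝ᵥ c
        rw [smul_dotProduct, dotProduct_smul, smul_eq_mul, smul_eq_mul, ← mul_assoc, hss, one_mul]
    have hc1 : s ^ 2 * w0 0 ≠ 0 := mul_ne_zero (pow_ne_zero 2 hs) hw0
    obtain ⟨x, hxdef⟩ : ∃ x : Fin (m+1) → F, x = (s ^ 2 * w0 0)⁻¹ • (s ^ 2 • w0 - w') := ⟨_, rfl⟩
    have hx0 : x 0 = 0 := by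
      rw [hxdef, Pi.smul_apply, Pi.sub_apply, Pi.smul_apply, hw', smul_eq_mul, smul_eq_mul, sub_self,
        mul_zero]
    let τ2 : (Fin (m+1) → F) ≃ (Fin (m+1) → F) :=
      { toFun := fun c => c + (x ⬝ᵥ c) • e0
        invFun := fun c => c - (x ⬝ᵥ c) • e0
        left_inv := fun c => by
          show c + (x ⬝ᵥ c) • e0 - (x ⬝ᵥ (c + (x ⬝ᵥ c) • e0)) • e0 = c
          rw [dotProduct_add, dotProduct_smul, dot_e0, hx0, smul_zero, add_zero]; abel
        right_inv := fun c => by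
          show c - (x ⬝ᵥ c) • e0 + (x ⬝ᵥ (c - (x ⬝ᵥ c) • e0)) • e0 = c
          rw [dotProduct_sub, dotProduct_smul, dot_e0, hx0, smul_zero, sub_zero]; abel }
    refine E_step aSp R P.char (dSp (1 + vecMulVec e0 x) (1 - vecMulVec x e0) (k_inv x hx0)) τ2
      (s ^ 2 • w0) w' ?_ ?_ hA
    · intro c
      exact dSp_rel _ _ _ c (τ2 c) (k_rel x c hx0)
    · intro c
      show w' ⬝ᵥ (c + (x ⬝ᵥ c) • e0) = (s ^ 2 • w0) ⬝ᵥ c
      rw [dotProduct_add, dotProduct_smul, dot_e0, hw', hxdef, smul_dotProduct, sub_dotProduct,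
        smul_eq_mul, smul_eq_mul]
      field_simp
      ring
  -- Step 3: counting
  obtain ⟨T, hT⟩ : ∃ T : Finset F, T = (Finset.univ.filter (fun s : F => s ≠ 0)).image
      (fun s => s ^ 2 * w0 0) := ⟨_, rfl⟩
  have hTcard : Fintype.card F - 1 ≤ 2 * T.card := by
    have h3 : (Finset.univ.filter (fun s : F => s ≠ 0)).card = Fintype.card F - 1 := by
      rw [Finset.filter_ne' Finset.univ (0 : F), Finset.card_erase_of_mem (Finset.mem_univ _),
        Finset.card_univ]
    rw [← h3, hT]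
    apply Finset.card_le_mul_card_image
    intro b hb
    obtain ⟨s0, hs0, rfl⟩ := Finset.mem_image.mp hb
    have hsub : (Finset.univ.filter (fun s : F => s ≠ 0)).filter (fun s => s ^ 2 * w0 0 = s0 ^ 2 * w0 0)
        ⊆ {s0, -s0} := by
      intro s hs
      rw [Finset.mem_filter] at hs
      have h4 : s ^ 2 = s0 ^ 2 := mul_right_cancel₀ hw0 hs.2
      have h5 : (s - s0) * (s + s0) = 0 := by ring_nf; rw [h4]; ring
      rw [Finset.mem_insert, Finset.mem_singleton]
      rcases mul_eq_zero.mp h5 with h6 | h6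
      · left; exact sub_eq_zero.mp h6
      · right; exact eq_neg_of_add_eq_zero_left h6
    exact (Finset.card_le_card hsub).trans Finset.card_le_two
  obtain ⟨S, hSdef⟩ : ∃ S : Finset (Fin (m+1) → F),
      S = Fintype.piFinset (fun i : Fin (m+1) => if i = 0 then T else Finset.univ) := ⟨_, rfl⟩
  have hScard : S.card = T.card * Fintype.card F ^ m := by
    rw [hSdef, Fintype.card_piFinset, Fin.prod_univ_succ]
    simp [Fin.succ_ne_zero]
  have hSE : ∀ w ∈ S, E aSp R P.char w ≠ 0 := by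
    intro w hw
    rw [hSdef, Fintype.mem_piFinset] at hw
    have h3 := hw 0
    rw [if_pos rfl, hT, Finset.mem_image] at h3
    obtain ⟨s, hs, hsw⟩ := h3
    exact key s w (Finset.mem_filter.mp hs).2 hsw.symm
  have hb := E_bound aSp R P.char ha hψ hQ S hSE
  rw [hScard] at hb
  apply Nat.div_le_of_le_mul
  have h9 : Fintype.card F ^ (m + 1 - 1) = Fintype.card F ^ m := by simp
  rw [h9]
  calc Fintype.card F ^ m * (Fintype.card F - 1) ≤ Fintype.card F ^ m * (2 * T.card) :=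
        Nat.mul_le_mul_left _ hTcard
    _ = 2 * (T.card * Fintype.card F ^ m) := by ring
    _ ≤ 2 * d := Nat.mul_le_mul_left _ hb

end


/-- A lower bound for representations in cross characteristic: for `n ≥ 2` and a field `F` with `q` elements, `q` odd, every homomorphism from the symplectic group `Sp_{2n}(F)` to `GL_d(K)`, `K` a field of characteristic different from that of `F`, whose kernel is central has `d ≥ q^(n-1)(q-1)/2`. -/
theorem result {F : Type*} [Field F] [Fintype F] {q : ℕ} (hq : Fintype.card F = q) (hodd : Odd q) (n : ℕ) (hn : 2 ≤ n)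
    {K : Type*} [Field K] (hK : ringChar K ≠ ringChar F) {d : ℕ}
    (ρ : ↥(Matrix.symplecticGroup (Fin n) F) →* GL (Fin d) K) (hker : ρ.ker ≤ Subgroup.center ↥(Matrix.symplecticGroup (Fin n) F)) :
    q ^ (n - 1) * (q - 1) / 2 ≤ d := by
  exact aux hq hodd n hn hK ρ hker

end Cfsg.Agent.S2393
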