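import Cfsg.Statements.S2395
import Mathlib
-- import your own Cfsg.Agent.* helpers here

set_option autoImplicit false
open Cfsg

namespace Cfsg.Agent.S2395

open Cfsg.Lie

section general

variable (D : Cfsg.Lie.ChevalleyDatum) (K : Type*) [Field K]

noncomputable def phi : FreeGroup (Fin D.nroots × K) →* Abelianization (D.SteinbergCover K) :=
  Abelianization.of.comp (PresentedGroup.mk (D.steinbergRelsAB K))

noncomputable def ab (r : ℕ) (t : K) : Abelianization (D.SteinbergCover K) := phi D K (D.stX r t)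

theorem ab_add {r : ℕ} (hr : r < D.nroots) (t₁ t₂ : K) :
    ab D K r (t₁ + t₂) = ab D K r t₁ * ab D K r t₂ := by
  have hmem : D.stX r t₁ * D.stX r t₂ * (D.stX r (t₁ + t₂))⁻¹ ∈ D.steinbergRelsAB K :=
    Or.inl ⟨r, t₁, t₂, hr, rfl⟩
  have h1 : phi D K (D.stX r t₁ * D.stX r t₂ * (D.stX r (t₁ + t₂))⁻¹) = 1 := by
    unfold phi
    rw [MonoidHom.comp_apply, PresentedGroup.one_of_mem hmem, map_one]
  rw [map_mul, map_mul, map_inv, mul_inv_eq_one] at h1
  exact h1.symm

theorem ab_zero {r : ℕ} (hr : r < D.nroots) : ab D K r 0 = 1 := by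
  have h := ab_add D K hr 0 0
  rw [add_zero] at h
  simpa using h

theorem ab_neg {r : ℕ} (hr : r < D.nroots) (t : K) : ab D K r (-t) = (ab D K r t)⁻¹ := by
  have h := ab_add D K hr t (-t)
  rw [add_neg_cancel, ab_zero D K hr] at h
  exact eq_inv_of_mul_eq_one_right h.symm

theorem ab_sub {r : ℕ} (hr : r < D.nroots) (t₁ t₂ : K) :
    ab D K r (t₁ - t₂) = ab D K r t₁ * (ab D K r t₂)⁻¹ := by
  rw [sub_eq_add_neg, ab_add D K hr, ab_neg D K hr]

theorem ab_comm {r s : ℕ} (hr : r < D.nroots) (hs : s < D.nroots) (hsr : s ≠ r) (hsn : s ≠ D.neg r)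
    (t u : K) :
    ((D.commTerms r s).map fun c => ab D K c.1 ((c.2.1 : K) * (-t) ^ c.2.2.1 * u ^ c.2.2.2)).prod = 1 := by
  have hmem : (D.stX s u)⁻¹ * (D.stX r t)⁻¹ * D.stX s u * D.stX r t *
      (D.stWord (D.commWord K r s t u))⁻¹ ∈ D.steinbergRelsAB K :=
    Or.inr ⟨r, s, t, u, hr, hs, hsr, hsn, rfl⟩
  have h1 : phi D K ((D.stX s u)⁻¹ * (D.stX r t)⁻¹ * D.stX s u * D.stX r t *
      (D.stWord (D.commWord K r s t u))⁻¹) = 1 := by
    unfold phi
    rw [MonoidHom.comp_apply, PresentedGroup.one_of_mem hmem, map_one]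
  simp only [map_mul, map_inv] at h1
  have h2 : phi D K (D.stWord (D.commWord K r s t u)) = 1 := by
    have h3 : (phi D K (D.stX s u))⁻¹ * (phi D K (D.stX r t))⁻¹ * phi D K (D.stX s u) *
        phi D K (D.stX r t) = 1 := by
      rw [mul_comm (phi D K (D.stX s u))⁻¹, mul_assoc (phi D K (D.stX r t))⁻¹]
      simp
    rw [h3, one_mul, inv_eq_one] at h1
    exact h1
  unfold Cfsg.Lie.ChevalleyDatum.stWord Cfsg.Lie.ChevalleyDatum.commWord at h2
  rw [map_list_prod, List.map_map, List.map_map] at h2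
  exact h2

theorem single {r s : ℕ} (hr : r < D.nroots) (hs : s < D.nroots) (hsr : s ≠ r) (hsn : s ≠ D.neg r)
    (γ : ℕ) (h : D.commTerms r s = [(γ, 1, 1, 1)] ∨ D.commTerms r s = [(γ, -1, 1, 1)]) (x : K) :
    ab D K γ x = 1 := by
  rcases h with h | h
  · have := ab_comm D K hr hs hsr hsn (-x) 1
    rw [h] at this
    simpa using this
  · have := ab_comm D K hr hs hsr hsn x 1
    rw [h] at this
    simpa using this

def witOK (w : List (ℕ × ℕ)) : Bool :=
  (List.range D.nroots).all fun γ =>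
    decide ((w.getD γ (0, 0)).1 < D.nroots) && decide ((w.getD γ (0, 0)).2 < D.nroots) &&
      decide ((w.getD γ (0, 0)).2 ≠ (w.getD γ (0, 0)).1) &&
      decide ((w.getD γ (0, 0)).2 ≠ D.neg (w.getD γ (0, 0)).1) &&
      (decide (D.commTerms (w.getD γ (0, 0)).1 (w.getD γ (0, 0)).2 = [(γ, 1, 1, 1)]) ||
        decide (D.commTerms (w.getD γ (0, 0)).1 (w.getD γ (0, 0)).2 = [(γ, -1, 1, 1)]))

theorem all_vanish_of_wit (w : List (ℕ × ℕ)) (hw : witOK D w = true) :
    ∀ γ < D.nroots, ∀ x : K, ab D K γ x = 1 := by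
  intro γ hγ x
  unfold witOK at hw
  rw [List.all_eq_true] at hw
  have h := hw γ (List.mem_range.mpr hγ)
  simp only [Bool.and_eq_true, Bool.or_eq_true, decide_eq_true_eq] at h
  obtain ⟨⟨⟨⟨h1, h2⟩, h3⟩, h4⟩, h5⟩ := h
  exact single D K h1 h2 h3 h4 γ h5 x

theorem prod_vanish (l : List (ℕ × ℤ × ℕ × ℕ)) (hl : ∀ c ∈ l, ∀ z : K, ab D K c.1 z = 1) (t u : K) :
    (l.map fun c => ab D K c.1 ((c.2.1 : K) * (-t) ^ c.2.2.1 * u ^ c.2.2.2)).prod = 1 := by
  apply List.prod_eq_one
  intro x hx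
  obtain ⟨c, hc, rfl⟩ := List.mem_map.mp hx
  exact hl c hc _

theorem one_trick {r s : ℕ} (hr : r < D.nroots) (hs : s < D.nroots) (hsr : s ≠ r) (hsn : s ≠ D.neg r)
    (pre post : List (ℕ × ℤ × ℕ × ℕ)) (γ : ℕ) (c : ℤ) (i j : ℕ)
    (h : D.commTerms r s = pre ++ (γ, c, i, j) :: post) (hc : c * c = 1) (hij : i = 1 ∨ j = 1)
    (hpre : ∀ c ∈ pre, ∀ z : K, ab D K c.1 z = 1) (hpost : ∀ c ∈ post, ∀ z : K, ab D K c.1 z = 1)
    (x : K) : ab D K γ x = 1 := by
  have hcK : (c : K) * (c : K) = 1 := by exact_mod_cast congrArg (Int.cast : ℤ → K) hc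
  have key : ∀ t u : K, ab D K γ ((c : K) * (-t) ^ i * u ^ j) = 1 := by
    intro t u
    have := ab_comm D K hr hs hsr hsn t u
    rw [h, List.map_append, List.prod_append, List.map_cons, List.prod_cons,
      prod_vanish D K pre hpre, prod_vanish D K post hpost, one_mul, mul_one] at this
    exact this
  rcases hij with rfl | rfl
  · have := key (-((c : K) * x)) 1
    have e : (c : K) * (- -((c : K) * x)) ^ 1 * 1 ^ j = x := by
      rw [neg_neg, pow_one, one_pow, mul_one, ← mul_assoc, hcK, one_mul]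
    rw [e] at this
    exact this
  · have := key (-1) ((c : K) * x)
    have e : (c : K) * (- -(1 : K)) ^ i * ((c : K) * x) ^ 1 = x := by
      rw [neg_neg, one_pow, mul_one, pow_one, ← mul_assoc, hcK, one_mul]
    rw [e] at this
    exact this

theorem two_trick {r s : ℕ} (hr : r < D.nroots) (hs : s < D.nroots) (hsr : s ≠ r) (hsn : s ≠ D.neg r)
    (rest : List (ℕ × ℤ × ℕ × ℕ)) (γ δ : ℕ) (c₁ c₂ : ℤ) (hγ : γ < D.nroots) (hδ : δ < D.nroots)
    (h : D.commTerms r s = (γ, c₁, 1, 1) :: (δ, c₂, 1, 2) :: rest) (hc₁ : c₁ * c₁ = 1) (hc₂ : c₂ * c₂ = 1)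
    (hrest : ∀ c ∈ rest, ∀ z : K, ab D K c.1 z = 1) (u₀ : K) (h0 : u₀ ≠ 0) (h1 : u₀ ≠ 1) :
    (∀ x : K, ab D K γ x = 1) ∧ (∀ x : K, ab D K δ x = 1) := by
  have hc₁K : (c₁ : K) * (c₁ : K) = 1 := by exact_mod_cast congrArg (Int.cast : ℤ → K) hc₁
  have hc₂K : (c₂ : K) * (c₂ : K) = 1 := by exact_mod_cast congrArg (Int.cast : ℤ → K) hc₂
  have key : ∀ t u : K, ab D K γ (-((c₁ : K) * t * u)) * ab D K δ (-((c₂ : K) * t * u ^ 2)) = 1 := by
    intro t u
    have := ab_comm D K hr hs hsr hsn t u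
    rw [h, List.map_cons, List.prod_cons, List.map_cons, List.prod_cons,
      prod_vanish D K rest hrest, mul_one] at this
    have e1 : (c₁ : K) * (-t) ^ 1 * u ^ 1 = -((c₁ : K) * t * u) := by ring
    have e2 : (c₂ : K) * (-t) ^ 1 * u ^ 2 = -((c₂ : K) * t * u ^ 2) := by ring
    simp only at this
    rw [e1, e2] at this
    exact this
  have hδγ : ∀ y : K, ab D K δ y = ab D K γ (-((c₁ : K) * (c₂ : K) * y)) := by
    intro y
    have := key (-((c₂ : K) * y)) 1
    have e1 : -((c₁ : K) * -((c₂ : K) * y) * 1) = (c₁ : K) * (c₂ : K) * y := by ring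
    have e2 : -((c₂ : K) * -((c₂ : K) * y) * 1 ^ 2) = y := by
      have : -((c₂ : K) * -((c₂ : K) * y) * 1 ^ 2) = ((c₂ : K) * (c₂ : K)) * y := by ring
      rw [this, hc₂K, one_mul]
    rw [e1, e2] at this
    rw [ab_neg D K hγ]
    exact eq_inv_of_mul_eq_one_right this
  have hγ0 : ∀ x : K, ab D K γ x = 1 := by
    intro x
    have hu : u₀ ^ 2 - u₀ ≠ 0 := by
      have : u₀ ^ 2 - u₀ = u₀ * (u₀ - 1) := by ring
      rw [this]
      exact mul_ne_zero h0 (sub_ne_zero.mpr h1)
    have := key ((c₁ : K) * x / (u₀ ^ 2 - u₀)) u₀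
    rw [hδγ, ← ab_add D K hγ] at this
    have e : -((c₁ : K) * ((c₁ : K) * x / (u₀ ^ 2 - u₀)) * u₀) +
        -((c₁ : K) * (c₂ : K) * -((c₂ : K) * ((c₁ : K) * x / (u₀ ^ 2 - u₀)) * u₀ ^ 2)) = x := by
      have : -((c₁ : K) * ((c₁ : K) * x / (u₀ ^ 2 - u₀)) * u₀) +
        -((c₁ : K) * (c₂ : K) * -((c₂ : K) * ((c₁ : K) * x / (u₀ ^ 2 - u₀)) * u₀ ^ 2)) =
          ((c₁ : K) * (c₁ : K)) * (x / (u₀ ^ 2 - u₀)) * (((c₂ : K) * (c₂ : K)) * u₀ ^ 2 - u₀) := by ring
      rw [this, hc₁K, hc₂K]
      field_simp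
    rw [e] at this
    exact this
  exact ⟨hγ0, fun y => by rw [hδγ]; exact hγ0 _⟩

theorem perfect_of_vanish (h : ∀ γ < D.nroots, ∀ x : K, ab D K γ x = 1) :
    commutator (D.SteinbergCover K) = ⊤ := by
  rw [← Abelianization.ker_of, eq_top_iff, ← PresentedGroup.closure_range_of, Subgroup.closure_le]
  rintro _ ⟨⟨r, t⟩, rfl⟩
  have h1 := h r.val r.isLt t
  unfold ab phi Cfsg.Lie.ChevalleyDatum.stX at h1
  rw [dif_pos r.isLt] at h1
  exact h1

end general

def witD4 : List (ℕ × ℕ) := [(1, 9), (0, 14), (0, 15), (0, 16), (0, 17), (1, 17), (0, 19), (0, 20), (0, 21), (0, 22), (1, 20), (1, 21), (2, 22), (3, 22), (1, 23), (2, 23), (3, 23), (4, 23), (6, 22), (6, 23), (7, 23), (8, 23), (9, 23), (14, 22)]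
def witF4 : List (ℕ × ℕ) := [(1, 23), (0, 24), (0, 26), (7, 14), (0, 31), (0, 32), (1, 32), (3, 33), (3, 34), (3, 35), (3, 36), (3, 37), (3, 38), (3, 39), (3, 40), (0, 42), (0, 43), (1, 43), (7, 37), (7, 38), (7, 39), (0, 45), (1, 45), (0, 46), (1, 47), (2, 46), (2, 47), (8, 40), (9, 40), (10, 40), (4, 46), (4, 47), (5, 47), (7, 44), (8, 44), (9, 44), (10, 44), (11, 44), (12, 44), (13, 44), (14, 44), (15, 46), (15, 47), (16, 47), (33, 40), (21, 47), (23, 47), (24, 46)]
def witE6 : List (ℕ × ℕ) := [(1, 25), (0, 46), (0, 47), (0, 48), (0, 49), (0, 50), (0, 51), (0, 52), (0, 53), (0, 54), (0, 55), (1, 53), (1, 54), (1, 55), (2, 55), (5, 55), (0, 61), (0, 62), (0, 63), (0, 64), (0, 65), (0, 66), (0, 67), (0, 68), (0, 69), (0, 70), (1, 64), (1, 65), (1, 66), (2, 66), (1, 67), (1, 68), (1, 69), (2, 67), (2, 68), (3, 67), (4, 68), (3, 69), (4, 69), (2, 70), (3, 70), (4, 70), (5, 69), (5, 70), (6, 70), (7, 70), (1, 71), (2, 71), (3, 71), (4, 71), (5, 71), (6, 71), (7, 71),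 (8, 71), (9, 71), (10, 71), (16, 66), (16, 69), (16, 70), (17, 70), (18, 70), (16, 71), (17, 71), (18, 71), (19, 71), (20, 71), (21, 71), (22, 71), (23, 71), (24, 71), (25, 71), (46, 70)]
def witE7 : List (ℕ × ℕ) := [(1, 32), (0, 93), (0, 94), (0, 95), (0, 96), (0, 97), (0, 98), (0, 99), (0, 100), (0, 101), (0, 102), (0, 103), (0, 104), (0, 105), (0, 106), (0, 107), (0, 108), (0, 109), (0, 110), (0, 111), (0, 112), (0, 113), (0, 114), (0, 115), (0, 116), (0, 117), (0, 118), (0, 119), (0, 120), (0, 121), (0, 122), (0, 123), (0, 124), (1, 109), (1, 110), (1, 111), (1, 112), (1, 113), (1, 114), (1, 115), (1, 116), (1, 117), (1, 118), (2, 115), (2, 116), (2, 117), (2, 118), (3, 118), (1, 119), (1, 120), (1, 121), (1, 122), (1, 123), (2, 119), (2, 120), (2, 121), (2, 122), (3, 119), (3, 120), (3, 121), (4, 119), (4, 120), (5, 119), (6, 120), (5, 121), (6, 121), (4, 122), (5, 122), (6, 122), (3, 123), (4, 123), (5, 123), (6, 123), (2, 124), (3, 124), (4, 124), (5, 124), (6,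 124), (7, 122), (7, 123), (8, 123), (9, 123), (10, 123), (7, 124), (8, 124), (9, 124), (10, 124), (11, 124), (12, 124), (13, 124), (14, 124), (15, 124), (16, 124), (1, 125), (2, 125), (3, 125), (4, 125), (5, 125), (6, 125), (7, 125), (8, 125), (9, 125), (10, 125), (11, 125), (12, 125), (13, 125), (14, 125), (15, 125), (16, 125), (17, 125), (18, 125), (19, 125), (20, 125), (21, 125), (22, 125), (23, 125), (24, 125), (25, 125), (26, 125), (27, 125), (28, 125), (29, 125), (30, 125), (31, 125), (32, 125), (93, 124)]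
def witE8 : List (ℕ × ℕ) := [(1, 119), (0, 120), (0, 122), (0, 125), (0, 129), (0, 134), (0, 140), (0, 146), (0, 151), (0, 155), (0, 158), (0, 160), (0, 161), (1, 161), (0, 168), (0, 173), (0, 177), (0, 180), (0, 182), (0, 183), (1, 183), (0, 187), (0, 190), (0, 192), (0, 193), (1, 193), (0, 196), (0, 198), (0, 199), (1, 199), (0, 201), (0, 202), (1, 202), (0, 203), (1, 203), (2, 203), (0, 206), (0, 208), (0, 209), (1, 209), (0, 211), (0, 212), (1, 212), (0, 213), (1, 213), (2, 213), (0, 215), (0, 216), (1, 216), (0, 217), (1, 217), (2, 217), (0, 218), (1, 218), (2, 218), (3, 218), (0, 220), (0, 221), (1, 221), (0, 222), (1, 222), (2, 222), (0, 223), (1, 223), (2, 223), (3, 223), (0, 224), (1, 224), (2, 224), (3, 224), (4, 224), (0, 225), (1, 225), (2, 225), (3, 225), (4, 225), (5, 225), (6, 225), (0, 227), (0, 228), (1, 228), (0, 229), (1, 229), (2, 229), (0, 230), (1, 230), (2, 230), (3, 230), (0, 231), (1, 231), (2, 231), (3, 231), (4, 231), (0, 232), (1, 232), (2,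 232), (3, 232), (4, 232), (5, 232), (0, 233), (1, 233), (2, 233), (3, 233), (4, 233), (5, 233), (0, 234), (1, 234), (2, 234), (3, 234), (4, 234), (0, 235), (1, 235), (2, 235), (3, 235), (0, 236), (1, 236), (2, 236), (0, 237), (1, 237), (0, 238), (1, 239), (2, 238), (2, 239), (3, 237), (3, 238), (3, 239), (4, 236), (4, 237), (4, 238), (4, 239), (5, 235), (5, 236), (5, 237), (5, 238), (5, 239), (6, 234), (6, 235), (6, 236), (6, 237), (6, 238), (6, 239), (7, 234), (7, 235), (7, 236), (7, 237), (7, 238), (7, 239), (8, 235), (8, 236), (8, 237), (8, 238), (8, 239), (9, 236), (9, 237), (9, 238), (9, 239), (10, 237), (10, 238), (10, 239), (11, 238), (11, 239), (12, 239), (14, 233), (14, 234), (14, 235), (14, 236), (14, 237), (14, 238), (14, 239), (15, 235), (15, 236), (15, 237), (15, 238), (15, 239), (16, 236), (16, 237), (16, 238), (16, 239), (17, 237), (17, 238), (17, 239), (18, 238), (18, 239), (19, 239), (21, 236), (21, 237), (21, 238), (21, 239), (22, 237), (22, 238),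 (22, 239), (23, 238), (23, 239), (24, 239), (26, 237), (26, 238), (26, 239), (27, 238), (27, 239), (28, 239), (30, 238), (30, 239), (31, 239), (33, 239), (36, 237), (36, 238), (36, 239), (37, 238), (37, 239), (38, 239), (40, 238), (40, 239), (41, 239), (43, 239), (46, 238), (46, 239), (47, 239), (49, 239), (52, 239), (56, 238), (56, 239), (57, 239), (59, 239), (62, 239), (66, 239), (71, 239), (78, 238), (78, 239), (79, 239), (81, 239), (84, 239), (88, 239), (93, 239), (99, 239), (105, 239), (110, 239), (114, 239), (117, 239), (119, 239), (120, 238)]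

theorem witD4_ok : witOK chevD4 witD4 = true := by decide +kernel

theorem witF4_ok : witOK chevF4 witF4 = true := by decide +kernel

theorem witE6_ok : witOK chevE6 witE6 = true := by decide +kernel

theorem witE7_ok : witOK chevE7 witE7 = true := by decide +kernel

theorem witE8_ok : witOK chevE8 witE8 = true := by decide +kernel

theorem b2_vanish (K : Type*) [Field K] (u₀ : K) (h0 : u₀ ≠ 0) (h1 : u₀ ≠ 1) :
    ∀ γ < chevB2.nroots, ∀ x : K, ab chevB2 K γ x = 1 := by
  have hn : chevB2.nroots = 8 := rfl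
  obtain ⟨hV1, hV3⟩ := two_trick chevB2 K (r := 0) (s := 5) (by decide) (by decide) (by decide) (by decide)
    [] 1 3 1 (-1) (by decide) (by decide) (by decide +kernel) (by decide) (by decide) (by simp) u₀ h0 h1
  obtain ⟨hV2, hV4⟩ := two_trick chevB2 K (r := 0) (s := 6) (by decide) (by decide) (by decide) (by decide)
    [] 2 4 (-1) 1 (by decide) (by decide) (by decide +kernel) (by decide) (by decide) (by simp) u₀ h0 h1
  have hV0 : ∀ x : K, ab chevB2 K 0 x = 1 :=
    one_trick chevB2 K (r := 1) (s := 4) (by decide) (by decide) (by decide) (by decide)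
      [(2, 1, 1, 1)] [] 0 1 2 1 (by decide +kernel) (by decide) (Or.inr rfl)
      (by intro c hc; simp only [List.mem_singleton] at hc; subst hc; exact hV2) (by simp)
  have hV5 : ∀ x : K, ab chevB2 K 5 x = 1 :=
    one_trick chevB2 K (r := 1) (s := 7) (by decide) (by decide) (by decide) (by decide)
      [] [(3, 1, 2, 1)] 5 (-1) 1 1 (by decide +kernel) (by decide) (Or.inr rfl)
      (by simp) (by intro c hc; simp only [List.mem_singleton] at hc; subst hc; exact hV3)
  have hV6 : ∀ x : K, ab chevB2 K 6 x = 1 :=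
    one_trick chevB2 K (r := 2) (s := 7) (by decide) (by decide) (by decide) (by decide)
      [] [(4, -1, 2, 1)] 6 1 1 1 (by decide +kernel) (by decide) (Or.inr rfl)
      (by simp) (by intro c hc; simp only [List.mem_singleton] at hc; subst hc; exact hV4)
  have hV7 : ∀ x : K, ab chevB2 K 7 x = 1 :=
    one_trick chevB2 K (r := 3) (s := 6) (by decide) (by decide) (by decide) (by decide)
      [(5, 1, 1, 1)] [] 7 1 1 2 (by decide +kernel) (by decide) (Or.inl rfl)
      (by intro c hc; simp only [List.mem_singleton] at hc; subst hc; exact hV5) (by simp)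
  intro γ hγ
  rw [hn] at hγ
  interval_cases γ <;> assumption

theorem g2_vanish (K : Type*) [Field K] (u₀ : K) (h0 : u₀ ≠ 0) (h1 : u₀ ≠ 1) :
    ∀ γ < chevG2.nroots, ∀ x : K, ab chevG2 K γ x = 1 := by
  have hn : chevG2.nroots = 12 := rfl
  have hV0 : ∀ x : K, ab chevG2 K 0 x = 1 :=
    single chevG2 K (r := 1) (s := 5) (by decide) (by decide) (by decide) (by decide) 0 (by decide +kernel)
  have hV1 : ∀ x : K, ab chevG2 K 1 x = 1 :=
    single chevG2 K (r := 0) (s := 6) (by decide) (by decide) (by decide) (by decide) 1 (by decide +kernel)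
  have hV5 : ∀ x : K, ab chevG2 K 5 x = 1 :=
    single chevG2 K (r := 0) (s := 10) (by decide) (by decide) (by decide) (by decide) 5 (by decide +kernel)
  have hV6 : ∀ x : K, ab chevG2 K 6 x = 1 :=
    single chevG2 K (r := 1) (s := 11) (by decide) (by decide) (by decide) (by decide) 6 (by decide +kernel)
  have hV10 : ∀ x : K, ab chevG2 K 10 x = 1 :=
    single chevG2 K (r := 5) (s := 11) (by decide) (by decide) (by decide) (by decide) 10 (by decide +kernel)
  have hV11 : ∀ x : K, ab chevG2 K 11 x = 1 :=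
    single chevG2 K (r := 6) (s := 10) (by decide) (by decide) (by decide) (by decide) 11 (by decide +kernel)
  obtain ⟨hV2, hV4⟩ := two_trick chevG2 K (r := 0) (s := 8) (by decide) (by decide) (by decide) (by decide)
    [(6, -1, 1, 3), (1, -2, 2, 3)] 2 4 1 1 (by decide) (by decide) (by decide +kernel) (by decide) (by decide)
    (by
      intro c hc
      simp only [List.mem_cons, List.mem_singleton, List.not_mem_nil, or_false] at hc
      rcases hc with rfl | rfl
      · exact hV6
      · exact hV1) u₀ h0 h1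
  obtain ⟨hV3, hV7⟩ := two_trick chevG2 K (r := 0) (s := 9) (by decide) (by decide) (by decide) (by decide)
    [(10, -1, 1, 3), (5, 2, 2, 3)] 3 7 (-1) (-1) (by decide) (by decide) (by decide +kernel) (by decide) (by decide)
    (by
      intro c hc
      simp only [List.mem_cons, List.mem_singleton, List.not_mem_nil, or_false] at hc
      rcases hc with rfl | rfl
      · exact hV10
      · exact hV5) u₀ h0 h1
  have hV8 : ∀ x : K, ab chevG2 K 8 x = 1 :=
    one_trick chevG2 K (r := 1) (s := 9) (by decide) (by decide) (by decide) (by decide)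
      [(4, -1, 1, 1)] [(11, 1, 1, 3), (6, -2, 2, 3)] 8 1 1 2 (by decide +kernel) (by decide) (Or.inl rfl)
      (by intro c hc; simp only [List.mem_singleton] at hc; subst hc; exact hV4)
      (by
        intro c hc
        simp only [List.mem_cons, List.mem_singleton, List.not_mem_nil, or_false] at hc
        rcases hc with rfl | rfl
        · exact hV11
        · exact hV6)
  have hV9 : ∀ x : K, ab chevG2 K 9 x = 1 :=
    one_trick chevG2 K (r := 3) (s := 11) (by decide) (by decide) (by decide) (by decide)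
      [] [(7, 1, 2, 1), (5, -1, 3, 1), (10, 1, 3, 2)] 9 1 1 1 (by decide +kernel) (by decide) (Or.inl rfl)
      (by simp)
      (by
        intro c hc
        simp only [List.mem_cons, List.mem_singleton, List.not_mem_nil, or_false] at hc
        rcases hc with rfl | rfl | rfl
        · exact hV7
        · exact hV5
        · exact hV10)
  intro γ hγ
  rw [hn] at hγ
  interval_cases γ <;> assumption

/-- The group presented by Steinberg's generators x̄_r(t) subject only to (R1) (additivity) and (R2) (the commutator formula) is perfect, for each of the types G₂, B₂, D₄, F₄, E₆, E₇, E₈ over any field (for types B₂ and G₂ the field must have more than two elements — the cases where the Chevalley group is not simple are set aside). -/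
theorem result {K : Type*} [Field K] (D : Cfsg.Lie.ChevalleyDatum) (hD : D ∈ [Cfsg.Lie.chevG2, Cfsg.Lie.chevB2, Cfsg.Lie.chevD4, Cfsg.Lie.chevF4, Cfsg.Lie.chevE6, Cfsg.Lie.chevE7, Cfsg.Lie.chevE8]) (hK : D ∈ [Cfsg.Lie.chevB2, Cfsg.Lie.chevG2] → ∃ x : K, x ≠ 0 ∧ x ≠ 1) :
    commutator (D.SteinbergCover K) = ⊤ := by
  simp only [List.mem_cons, List.not_mem_nil, or_false] at hD
  rcases hD with rfl | rfl | rfl | rfl | rfl | rfl | rfl
  · obtain ⟨u₀, h0, h1⟩ := hK (by simp)
    exact perfect_of_vanish _ K (g2_vanish K u₀ h0 h1)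
  · obtain ⟨u₀, h0, h1⟩ := hK (by simp)
    exact perfect_of_vanish _ K (b2_vanish K u₀ h0 h1)
  · exact perfect_of_vanish _ K (all_vanish_of_wit _ K witD4 witD4_ok)
  · exact perfect_of_vanish _ K (all_vanish_of_wit _ K witF4 witF4_ok)
  · exact perfect_of_vanish _ K (all_vanish_of_wit _ K witE6 witE6_ok)
  · exact perfect_of_vanish _ K (all_vanish_of_wit _ K witE7 witE7_ok)
  · exact perfect_of_vanish _ K (all_vanish_of_wit _ K witE8 witE8_ok)

end Cfsg.Agent.S2395
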