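import Cfsg.Statements.S2419
import Cfsg.Agent.Lib.helper11c.CoxGenOK

set_option autoImplicit false
open Cfsg

namespace Cfsg.Agent.S2419
open Cfsg.Lie Cfsg.Agent.Lib.helper11

/-- The Coxeter groups of types B₂, G₂, E₆, E₇, E₈ are generated by the Coxeter element `s₁ s₂ ⋯ s_l` together with one suitable reflection (a conjugate of a simple reflection); for types D₄ and F₄ the Coxeter element together with two suitable reflections suffices. -/
theorem result (c : (Σ n : ℕ, CoxeterMatrix (Fin n)) × ℕ)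
    (hc : c ∈ [(⟨2, CoxeterMatrix.B 2⟩, 1), (⟨2, CoxeterMatrix.G₂⟩, 1), (⟨4, Cfsg.Lie.coxeterD4⟩, 2), (⟨4, CoxeterMatrix.F₄⟩, 2),
      (⟨6, CoxeterMatrix.E₆⟩, 1), (⟨7, CoxeterMatrix.E₇⟩, 1), (⟨8, CoxeterMatrix.E₈⟩, 1)]) :
    ∃ T : Finset c.1.2.Group, T.card = c.2 ∧ (∀ t ∈ T, ∃ (g : c.1.2.Group) (i : Fin c.1.1), t = g * c.1.2.simple i * g⁻¹) ∧
      Subgroup.closure (({((List.finRange c.1.1).map c.1.2.simple).prod} : Set c.1.2.Group) ∪ ↑T) = ⊤ := by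
  simp only [List.mem_cons, List.not_mem_nil, or_false] at hc
  rcases hc with rfl | rfl | rfl | rfl | rfl | rfl | rfl
  · exact cox_gen_one chevB2 (by simp) (nxAll_of_mem chevB2 (by simp)) 2 rfl
      (CoxeterMatrix.B 2) coxOK_B2 poinRB2 poinRB2_ok 0 coxGenWB2 coxGen_B2
  · exact cox_gen_one chevG2 (by simp) (nxAll_of_mem chevG2 (by simp)) 2 rfl
      CoxeterMatrix.G₂ coxOK_G2 poinRG2 poinRG2_ok 0 coxGenWG2 coxGen_G2
  · exact cox_gen_two chevD4 (by simp) (nxAll_of_mem chevD4 (by simp)) 4 rfl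
      Cfsg.Lie.coxeterD4 coxOK_D4 poinRD4 poinRD4_ok 1 2 (by decide) coxGenWD4 coxGen_D4
  · exact cox_gen_two chevF4 (by simp) (nxAll_of_mem chevF4 (by simp)) 4 rfl
      CoxeterMatrix.F₄ coxOK_F4 poinRF4 poinRF4_ok 0 2 (by decide) coxGenWF4 coxGen_F4
  · exact cox_gen_one chevE6 (by simp) (nxAll_of_mem chevE6 (by simp)) 6 rfl
      CoxeterMatrix.E₆ coxOK_E6 poinRE6 poinRE6_ok 3 coxGenWE6 coxGen_E6
  · exact cox_gen_one chevE7 (by simp) (nxAll_of_mem chevE7 (by simp)) 7 rfl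
      CoxeterMatrix.E₇ coxOK_E7 poinRE7 poinRE7_ok 3 coxGenWE7 coxGen_E7
  · exact cox_gen_one chevE8 (by simp) (nxAll_of_mem chevE8 (by simp)) 8 rfl
      CoxeterMatrix.E₈ coxOK_E8 poinRE8 poinRE8_ok 4 coxGenWE8 coxGen_E8

end Cfsg.Agent.S2419
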