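import Cfsg.Statements.S2424
-- import your own Cfsg.Agent.* helpers here
import Mathlib
import Cfsg.Agent.S2420

set_option autoImplicit false
open scoped MatrixGroups
open Cfsg

namespace Cfsg.Agent.S2424


open Cfsg
open scoped MatrixGroups

/-- q-integer -/
def Qn (q r : ℕ) : ℕ := ∑ l ∈ Finset.range r, q ^ l
/-- q-factorial -/
def Qf (q r : ℕ) : ℕ := ∏ j ∈ Finset.range r, Qn q (j + 1)
/-- falling q-factorial -/
def ff (q lam k : ℕ) : ℕ := ∏ t ∈ Finset.range k, Qn q (lam - t)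
def e2 (k : ℕ) : ℕ := ∑ t ∈ Finset.range k, t

theorem Qn_zero (q : ℕ) : Qn q 0 = 0 := by simp [Qn]

theorem Qn_split (q lam t : ℕ) (h : t ≤ lam) : Qn q lam = Qn q t + q ^ t * Qn q (lam - t) := by
  unfold Qn
  rw [Finset.mul_sum]
  obtain ⟨d, rfl⟩ := Nat.exists_eq_add_of_le h
  rw [Finset.sum_range_add, Nat.add_sub_cancel_left]
  congr 1
  apply Finset.sum_congr rfl
  intro l _
  rw [pow_add]

theorem ff_zero_of_lt (q lam k : ℕ) (h : lam < k) : ff q lam k = 0 := by
  unfold ff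
  apply Finset.prod_eq_zero (Finset.mem_range.mpr h)
  rw [Nat.sub_self, Qn_zero]

theorem Qf_split (q lam k : ℕ) (h : k ≤ lam) : Qf q lam = Qf q (lam - k) * ff q lam k := by
  induction k with
  | zero => simp [ff]
  | succ k ih =>
    have h1 := ih (by omega)
    have h2 : Qf q (lam - k) = Qf q (lam - (k + 1)) * Qn q (lam - k) := by
      have e : lam - k = (lam - (k + 1)) + 1 := by omega
      rw [e]
      unfold Qf
      rw [Finset.prod_range_succ]
    have h3 : ff q lam (k + 1) = ff q lam k * Qn q (lam - k) := by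
      unfold ff
      rw [Finset.prod_range_succ]
    rw [h1, h2, h3]
    ring

theorem ff_poly (q lam k : ℕ) :
    ((ff q lam k : ℕ) : ℂ) * (q : ℂ) ^ e2 k =
      ∏ t ∈ Finset.range k, ((Qn q lam : ℂ) - (Qn q t : ℂ)) := by
  by_cases h : k ≤ lam
  · unfold ff e2
    rw [Nat.cast_prod, ← Finset.prod_pow_eq_pow_sum, ← Finset.prod_mul_distrib]
    apply Finset.prod_congr rfl
    intro t ht
    have ht' : t ≤ lam := by have := Finset.mem_range.mp ht; omega
    rw [Qn_split q lam t ht']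
    push_cast
    ring
  · push Not at h
    rw [ff_zero_of_lt q lam k h, Finset.prod_eq_zero (Finset.mem_range.mpr h) (sub_self _)]
    simp

theorem e2_succ (k : ℕ) : e2 (k + 1) = e2 k + k := by
  unfold e2
  rw [Finset.sum_range_succ]

theorem e2_two (k : ℕ) : 2 * e2 (k + 1) = (k + 1) * k := by
  have := Finset.sum_range_id_mul_two (k + 1)
  unfold e2
  rw [Nat.add_sub_cancel] at this
  omega

theorem e2_sum_aux (n : ℕ) : 6 * ∑ k ∈ Finset.range (n + 2), e2 k = (n + 2) * (n + 1) * n := by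
  induction n with
  | zero => simp [Finset.sum_range_succ, e2]
  | succ n ih =>
    rw [Finset.sum_range_succ, Nat.mul_add, ih]
    have := e2_two (n + 1)
    nlinarith [this]

theorem e2_sum (n : ℕ) : ∑ k ∈ Finset.range n, e2 k = n * (n - 1) * (n - 2) / 6 := by
  rcases n with _ | _ | n
  · simp
  · simp [e2]
  · have h := e2_sum_aux n
    have e : (n + 1 + 1) * (n + 1 + 1 - 1) * (n + 1 + 1 - 2) = 6 * ∑ k ∈ Finset.range (n + 2), e2 k := by
      rw [h]
      simp
    rw [e, Nat.mul_div_cancel_left _ (by norm_num)]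

theorem fpc_one {G : Type*} [Group G] (H : Subgroup G) :
    fixedPointCharacter H 1 = (Nat.card (G ⧸ H) : ℂ) := by
  unfold fixedPointCharacter
  congr 1
  have : MulAction.fixedBy (G ⧸ H) (1 : G) = Set.univ := by
    ext x
    simp [MulAction.mem_fixedBy]
  rw [this]
  exact Nat.card_congr (Equiv.Set.univ _)

theorem term_eq {F : Type*} [Field F] [Fintype F] {n : ℕ} (ν : Fin n → ℕ) (hsum : ∑ i, ν i = n)
    (κ : Equiv.Perm (Fin n)) :
    (if ∀ i : Fin n, (κ i).val ≤ ν i + i.val then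
        ((Equiv.Perm.sign κ : ℤ) : ℂ) *
          fixedPointCharacter (parabolicGL n F fun i => ν i + i.val - (κ i).val) 1 else 0) *
        ((∏ i : Fin n, Qf (Fintype.card F) (ν i + i.val) : ℕ) : ℂ) =
      ((Equiv.Perm.sign κ : ℤ) : ℂ) * ((Qf (Fintype.card F) n : ℕ) : ℂ) *
        ((∏ i : Fin n, ff (Fintype.card F) (ν i + i.val) (κ i).val : ℕ) : ℂ) := by
  by_cases hv : ∀ i : Fin n, (κ i).val ≤ ν i + i.val
  · rw [if_pos hv, fpc_one]
    have hμ : ∑ i : Fin n, (ν i + i.val - (κ i).val) = n := by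
      have h1 : ∑ i : Fin n, (ν i + i.val - (κ i).val) + ∑ i : Fin n, (κ i).val =
          ∑ i : Fin n, ν i + ∑ i : Fin n, i.val := by
        rw [← Finset.sum_add_distrib, ← Finset.sum_add_distrib]
        apply Finset.sum_congr rfl
        intro i _
        exact Nat.sub_add_cancel (hv i)
      have h2 : ∑ i : Fin n, (κ i).val = ∑ i : Fin n, i.val :=
        Equiv.sum_comp κ (fun i : Fin n => i.val)
      omega
    have h3 := Cfsg.Agent.S2420.result (F := F) (q := Fintype.card F) rfl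
      (fun i : Fin n => ν i + i.val - (κ i).val) hμ
    have h4 : ∏ i : Fin n, Qf (Fintype.card F) (ν i + i.val) =
        (∏ i : Fin n, Qf (Fintype.card F) (ν i + i.val - (κ i).val)) *
          ∏ i : Fin n, ff (Fintype.card F) (ν i + i.val) (κ i).val := by
      rw [← Finset.prod_mul_distrib]
      apply Finset.prod_congr rfl
      intro i _
      exact Qf_split _ _ _ (hv i)
    have h5 : Nat.card (GL (Fin n) F ⧸ parabolicGL n F fun i => ν i + i.val - (κ i).val) *
        ∏ i : Fin n, Qf (Fintype.card F) (ν i + i.val) =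
        Qf (Fintype.card F) n * ∏ i : Fin n, ff (Fintype.card F) (ν i + i.val) (κ i).val := by
      rw [h4, ← mul_assoc]
      congr 1
    have h6 := congrArg (Nat.cast : ℕ → ℂ) h5
    rw [Nat.cast_mul, Nat.cast_mul] at h6
    rw [mul_assoc, h6]
    ring
  · rw [if_neg hv, zero_mul]
    push Not at hv
    obtain ⟨i, hi⟩ := hv
    rw [Finset.prod_eq_zero (Finset.mem_univ i) (ff_zero_of_lt _ _ _ hi)]
    simp

theorem main {F : Type*} [Field F] [Fintype F] {q : ℕ} (hq : Fintype.card F = q) {n : ℕ}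
    (ν : Fin n → ℕ) (hmono : Monotone ν) (hsum : ∑ i, ν i = n) :
    Cfsg.unipotentCharacterGL n F ν 1 * (q : ℂ) ^ (n * (n - 1) * (n - 2) / 6) *
        ∏ i : Fin n, ∏ j ∈ Finset.range (ν i + i.val), ((∑ l ∈ Finset.range (j + 1), q ^ l : ℕ) : ℂ) =
      (∏ j ∈ Finset.range n, ((∑ l ∈ Finset.range (j + 1), q ^ l : ℕ) : ℂ)) *
        ∏ i : Fin n, ∏ j ∈ Finset.univ.filter (fun j : Fin n => i < j),
          (((∑ l ∈ Finset.range (ν j + j.val), q ^ l : ℕ) : ℂ) - ((∑ l ∈ Finset.range (ν i + i.val), q ^ l : ℕ) : ℂ)) := by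
  classical
  subst hq
  have hL : ∏ i : Fin n, ∏ j ∈ Finset.range (ν i + i.val),
      ((∑ l ∈ Finset.range (j + 1), Fintype.card F ^ l : ℕ) : ℂ) =
      ((∏ i : Fin n, Qf (Fintype.card F) (ν i + i.val) : ℕ) : ℂ) := by
    unfold Qf Qn
    push_cast
    rfl
  have hR : ∏ j ∈ Finset.range n, ((∑ l ∈ Finset.range (j + 1), Fintype.card F ^ l : ℕ) : ℂ) =
      ((Qf (Fintype.card F) n : ℕ) : ℂ) := by
    unfold Qf Qn
    push_cast
    rfl
  have key : unipotentCharacterGL n F ν 1 *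
      ((∏ i : Fin n, Qf (Fintype.card F) (ν i + i.val) : ℕ) : ℂ) =
      ((Qf (Fintype.card F) n : ℕ) : ℂ) * (Matrix.of (fun (i k : Fin n) =>
        ((ff (Fintype.card F) (ν i + i.val) k.val : ℕ) : ℂ))).det := by
    rw [← Matrix.det_transpose, Matrix.det_apply', Finset.mul_sum]
    unfold unipotentCharacterGL
    rw [Finset.sum_mul]
    apply Finset.sum_congr rfl
    intro κ _
    rw [term_eq ν hsum κ]
    simp only [Matrix.transpose_apply, Matrix.of_apply]
    push_cast
    ring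
  have hdet : (Matrix.of (fun (i k : Fin n) =>
        ((ff (Fintype.card F) (ν i + i.val) k.val : ℕ) : ℂ))).det *
        (Fintype.card F : ℂ) ^ (n * (n - 1) * (n - 2) / 6) =
      ∏ i : Fin n, ∏ j ∈ Finset.Ioi i,
        (((Qn (Fintype.card F) (ν j + j.val) : ℕ) : ℂ) - ((Qn (Fintype.card F) (ν i + i.val) : ℕ) : ℂ)) := by
    rw [← Matrix.det_vandermonde (fun i : Fin n => ((Qn (Fintype.card F) (ν i + i.val) : ℕ) : ℂ)),
      Matrix.det_eval_matrixOfPolynomials_eq_det_vandermonde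
        (fun i : Fin n => ((Qn (Fintype.card F) (ν i + i.val) : ℕ) : ℂ))
        (fun k : Fin n => ∏ t ∈ Finset.range k.val,
          (Polynomial.X - Polynomial.C ((Qn (Fintype.card F) t : ℕ) : ℂ)))
        (fun k => by
          rw [Polynomial.natDegree_prod_of_monic _ _ (fun t _ => Polynomial.monic_X_sub_C _),
            Finset.sum_congr rfl (fun t _ => Polynomial.natDegree_X_sub_C _)]
          simp)
        (fun k => Polynomial.monic_prod_of_monic _ _ (fun t _ => Polynomial.monic_X_sub_C _))]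
    have h1 : (Matrix.of fun (i j : Fin n) => Polynomial.eval ((Qn (Fintype.card F) (ν i + i.val) : ℕ) : ℂ)
          (∏ t ∈ Finset.range j.val, (Polynomial.X - Polynomial.C ((Qn (Fintype.card F) t : ℕ) : ℂ)))) =
        Matrix.of (fun (i k : Fin n) => (Fintype.card F : ℂ) ^ e2 k.val *
          (Matrix.of (fun (i k : Fin n) =>
            ((ff (Fintype.card F) (ν i + i.val) k.val : ℕ) : ℂ))) i k) := by
      ext i k
      simp only [Matrix.of_apply, Polynomial.eval_prod, Polynomial.eval_sub, Polynomial.eval_X,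
        Polynomial.eval_C]
      rw [← ff_poly]
      ring
    rw [h1, Matrix.det_mul_row, Finset.prod_pow_eq_pow_sum,
      Fin.sum_univ_eq_sum_range (fun k => e2 k) n, e2_sum]
    ring
  rw [hL, hR]
  have h2 : ∀ i : Fin n, ∏ j ∈ Finset.univ.filter (fun j : Fin n => i < j),
      (((∑ l ∈ Finset.range (ν j + j.val), Fintype.card F ^ l : ℕ) : ℂ) -
        ((∑ l ∈ Finset.range (ν i + i.val), Fintype.card F ^ l : ℕ) : ℂ)) =
      ∏ j ∈ Finset.Ioi i,
        (((Qn (Fintype.card F) (ν j + j.val) : ℕ) : ℂ) - ((Qn (Fintype.card F) (ν i + i.val) : ℕ) : ℂ)) := by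
    intro i
    rw [Finset.filter_lt_eq_Ioi]
    rfl
  rw [Finset.prod_congr rfl (fun i _ => h2 i), ← hdet, ← mul_assoc, ← key]
  ring



/-- Degrees of the partition-indexed irreducible characters of `GL_n(q)`: for `ν` a partition of `n` with `n` non-decreasing parts `ν_0 ≤ ⋯ ≤ ν_{n−1}` (zeros allowed; positions counted from 0) and `λ_i = ν_i + i`, write `Q(r)` for the q-integer `1 + q + ⋯ + q^(r−1)` and `Q!(r)` for `Q(1)Q(2)⋯Q(r)`; then the degree `γ(ν)` of the character satisfies `γ(ν) · q^(n(n−1)(n−2)/6) · ∏_i Q!(λ_i) = Q!(n) · ∏_{i<j} (Q(λ_j) − Q(λ_i))`. For `ν = (1,…,1)` this gives the Steinberg degree `q^(n(n−1)/2)`, for `ν = (0,…,0,n)` degree 1. -/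
theorem result {F : Type*} [Field F] [Fintype F] {q : ℕ} (hq : Fintype.card F = q) {n : ℕ} (ν : Fin n → ℕ) (hmono : Monotone ν) (hsum : ∑ i, ν i = n) :
    Cfsg.unipotentCharacterGL n F ν 1 * (q : ℂ) ^ (n * (n - 1) * (n - 2) / 6) *
        ∏ i : Fin n, ∏ j ∈ Finset.range (ν i + i.val), ((∑ l ∈ Finset.range (j + 1), q ^ l : ℕ) : ℂ) =
      (∏ j ∈ Finset.range n, ((∑ l ∈ Finset.range (j + 1), q ^ l : ℕ) : ℂ)) *
        ∏ i : Fin n, ∏ j ∈ Finset.univ.filter (fun j : Fin n => i < j),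
          (((∑ l ∈ Finset.range (ν j + j.val), q ^ l : ℕ) : ℂ) - ((∑ l ∈ Finset.range (ν i + i.val), q ^ l : ℕ) : ℂ)) := by
  exact main hq ν hmono hsum

end Cfsg.Agent.S2424
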