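import Cfsg.Statements.S2421
-- import your own Cfsg.Agent.* helpers here
import Mathlib
import Cfsg.Agent.Lib.helper18.GLFlag2
import Cfsg.Agent.S2424
import Cfsg.Agent.Lib.helper24.CharExt815
import Cfsg.Agent.Lib.helper24.CharTwoTrans

set_option autoImplicit false
open scoped MatrixGroups
open Cfsg

namespace Cfsg.Agent.S2421


open Cfsg.Agent.Lib.helper18.GLFlag
open Cfsg.Agent.Lib.helper24
open scoped ComplexConjugate

section
variable {F : Type*} [Field F] [Fintype F] {n : ℕ}

theorem unip_gen (ν : Fin n → ℕ) :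
    IsGeneralizedCharacter (GL (Fin n) F) (unipotentCharacterGL n F ν) := by
  classical
  have h1 : unipotentCharacterGL n F ν = ∑ κ : Equiv.Perm (Fin n),
      (fun g => if ∀ i : Fin n, (κ i).val ≤ ν i + i.val then ((Equiv.Perm.sign κ : ℤ) : ℂ) *
        fixedPointCharacter (parabolicGL n F fun i => ν i + i.val - (κ i).val) g else 0) := by
    funext g
    rw [Finset.sum_apply]
    rfl
  rw [h1]
  apply Finset.sum_induction _ (IsGeneralizedCharacter (GL (Fin n) F))
    (fun a b ha hb => genChar_add ha hb) genChar_zero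
  intro κ _
  by_cases hv : ∀ i : Fin n, (κ i).val ≤ ν i + i.val
  · have h2 : (fun g : GL (Fin n) F => if ∀ i : Fin n, (κ i).val ≤ ν i + i.val then
        ((Equiv.Perm.sign κ : ℤ) : ℂ) *
          fixedPointCharacter (parabolicGL n F fun i => ν i + i.val - (κ i).val) g else 0) =
        ((Equiv.Perm.sign κ : ℤ) : ℂ) •
          (fixedPointCharacter (parabolicGL n F fun i => ν i + i.val - (κ i).val)) := by
      funext g
      rw [if_pos hv]
      rfl
    rw [h2]
    apply genChar_zsmul
    apply genChar_of_character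
    exact permChar_isCharacter (G := GL (Fin n) F)
      (GL (Fin n) F ⧸ parabolicGL n F fun i => ν i + i.val - (κ i).val)
  · have h2 : (fun g : GL (Fin n) F => if ∀ i : Fin n, (κ i).val ≤ ν i + i.val then
        ((Equiv.Perm.sign κ : ℤ) : ℂ) *
          fixedPointCharacter (parabolicGL n F fun i => ν i + i.val - (κ i).val) g else 0) = 0 := by
      funext g
      rw [if_neg hv]
      rfl
    rw [h2]
    exact genChar_zero

theorem unip_conj (ν : Fin n → ℕ) (g : GL (Fin n) F) :
    conj (unipotentCharacterGL n F ν g) = unipotentCharacterGL n F ν g := by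
  unfold unipotentCharacterGL fixedPointCharacter
  rw [map_sum]
  apply Finset.sum_congr rfl
  intro κ _
  split_ifs <;> simp

theorem unip_deg_pos (ν : Fin n → ℕ) (hmono : Monotone ν) (hsum : ∑ i, ν i = n) :
    0 < (unipotentCharacterGL n F ν 1).re := by
  classical
  have hq : 1 ≤ Fintype.card F := Fintype.card_pos
  obtain ⟨z, hz⟩ : ∃ z : ℤ, unipotentCharacterGL n F ν 1 = (z : ℂ) := by
    refine ⟨∑ κ : Equiv.Perm (Fin n), if ∀ i : Fin n, (κ i).val ≤ ν i + i.val then
      (Equiv.Perm.sign κ : ℤ) *
        (Nat.card (GL (Fin n) F ⧸ parabolicGL n F fun i => ν i + i.val - (κ i).val) : ℤ) else 0, ?_⟩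
    unfold unipotentCharacterGL
    push_cast
    apply Finset.sum_congr rfl
    intro κ _
    split_ifs
    · rw [Cfsg.Agent.S2424.fpc_one]
    · rfl
  have h := Cfsg.Agent.S2424.result (F := F) (q := Fintype.card F) rfl ν hmono hsum
  rw [hz] at h
  have hsum_pos : ∀ r : ℕ, 0 < ∑ l ∈ Finset.range (r + 1), Fintype.card F ^ l := by
    intro r
    apply Finset.sum_pos
    · intro l _
      exact pow_pos (by omega) l
    · exact ⟨0, Finset.mem_range.mpr (by omega)⟩
  have hlt : ∀ a b : ℕ, a < b → ∑ l ∈ Finset.range a, Fintype.card F ^ l <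
      ∑ l ∈ Finset.range b, Fintype.card F ^ l := by
    intro a b hab
    apply Finset.sum_lt_sum_of_subset (i := a)
    · intro l hl
      rw [Finset.mem_range] at hl ⊢
      omega
    · exact Finset.mem_range.mpr hab
    · simp
    · exact pow_pos (by omega) a
    · intro l _ _
      exact Nat.zero_le _
  have hA : 0 < ((Fintype.card F) ^ (n * (n - 1) * (n - 2) / 6) *
      ∏ i : Fin n, ∏ j ∈ Finset.range (ν i + i.val), ∑ l ∈ Finset.range (j + 1), Fintype.card F ^ l : ℤ) := by
    apply mul_pos
    · exact pow_pos (by exact_mod_cast hq) _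
    · exact_mod_cast (Finset.prod_pos (fun i _ => Finset.prod_pos (fun j _ => hsum_pos j)) :
        0 < ∏ i : Fin n, ∏ j ∈ Finset.range (ν i + i.val),
          ∑ l ∈ Finset.range (j + 1), Fintype.card F ^ l)
  have hB : 0 < ((∏ j ∈ Finset.range n, ∑ l ∈ Finset.range (j + 1), (Fintype.card F : ℤ) ^ l) *
      ∏ i : Fin n, ∏ j ∈ Finset.univ.filter (fun j : Fin n => i < j),
        ((∑ l ∈ Finset.range (ν j + j.val), (Fintype.card F : ℤ) ^ l) -
          (∑ l ∈ Finset.range (ν i + i.val), (Fintype.card F : ℤ) ^ l)) : ℤ) := by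
    apply mul_pos
    · apply Finset.prod_pos
      intro j _
      exact_mod_cast hsum_pos j
    · apply Finset.prod_pos
      intro i _
      apply Finset.prod_pos
      intro j hj
      rw [Finset.mem_filter] at hj
      have h1 := hmono hj.2.le
      have h2 : (i : ℕ) < (j : ℕ) := hj.2
      have h3 := hlt (ν i + i.val) (ν j + j.val) (by omega)
      have h4 : (∑ l ∈ Finset.range (ν i + i.val), (Fintype.card F : ℤ) ^ l) <
          (∑ l ∈ Finset.range (ν j + j.val), (Fintype.card F : ℤ) ^ l) := by exact_mod_cast h3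
      linarith
  have hzAB : z * ((Fintype.card F) ^ (n * (n - 1) * (n - 2) / 6) *
      ∏ i : Fin n, ∏ j ∈ Finset.range (ν i + i.val), ∑ l ∈ Finset.range (j + 1), Fintype.card F ^ l : ℤ) =
      ((∏ j ∈ Finset.range n, ∑ l ∈ Finset.range (j + 1), (Fintype.card F : ℤ) ^ l) *
      ∏ i : Fin n, ∏ j ∈ Finset.univ.filter (fun j : Fin n => i < j),
        ((∑ l ∈ Finset.range (ν j + j.val), (Fintype.card F : ℤ) ^ l) -
          (∑ l ∈ Finset.range (ν i + i.val), (Fintype.card F : ℤ) ^ l)) : ℤ) := by
    have h' : ((z * ((Fintype.card F) ^ (n * (n - 1) * (n - 2) / 6) *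
      ∏ i : Fin n, ∏ j ∈ Finset.range (ν i + i.val), ∑ l ∈ Finset.range (j + 1), Fintype.card F ^ l : ℤ) : ℤ) : ℂ) =
      (((∏ j ∈ Finset.range n, ∑ l ∈ Finset.range (j + 1), (Fintype.card F : ℤ) ^ l) *
      ∏ i : Fin n, ∏ j ∈ Finset.univ.filter (fun j : Fin n => i < j),
        ((∑ l ∈ Finset.range (ν j + j.val), (Fintype.card F : ℤ) ^ l) -
          (∑ l ∈ Finset.range (ν i + i.val), (Fintype.card F : ℤ) ^ l)) : ℤ) : ℂ) := by
      push_cast
      push_cast at h
      rw [← h]
      ring
    exact_mod_cast h'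
  have hzpos : 0 < z := by
    by_contra hcon
    push Not at hcon
    have := mul_nonpos_of_nonpos_of_nonneg hcon hA.le
    rw [hzAB] at this
    linarith
  rw [hz, Complex.intCast_re]
  exact_mod_cast hzpos

theorem main (ν : Fin n → ℕ) (hmono : Monotone ν) (hsum : ∑ i, ν i = n) :
    IsIrrCharacter (GL (Fin n) F) (unipotentCharacterGL n F ν) := by
  classical
  apply genChar_irr_of_norm_one (unip_gen ν)
  · unfold classInner
    have h := unip_orth (F := F) ν ν hmono hmono hsum hsum
    rw [if_pos rfl] at h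
    rw [← h]
    congr 1
    apply Finset.sum_congr rfl
    intro g _
    rw [unip_conj]
  · exact unip_deg_pos ν hmono hsum

end



/-- Irreducible characters of `GL_n(q)` indexed by partitions: for `ν` a partition of `n` written with `n` non-decreasing parts `ν_0 ≤ ⋯ ≤ ν_{n−1}` (zeros allowed; positions counted from 0) and `λ_i = ν_i + i`, the alternating sum over permutations `κ` of `{0, …, n−1}` of `sign κ` times the permutation character on partial flags of type `λ − κ` (terms with a negative entry omitted) is an irreducible complex character of `GL_n(q)`. For `ν = (1, …, 1)` this is the Steinberg character. -/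
theorem result {F : Type*} [Field F] [Fintype F] {n : ℕ} (ν : Fin n → ℕ) (hmono : Monotone ν) (hsum : ∑ i, ν i = n) :
    Cfsg.IsIrrCharacter (GL (Fin n) F) (Cfsg.unipotentCharacterGL n F ν) := by
  exact main ν hmono hsum

end Cfsg.Agent.S2421
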