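import Cfsg.Statements.S2422
-- import your own Cfsg.Agent.* helpers here
import Mathlib
import Cfsg.Agent.Lib.helper18.GLFlag2

set_option autoImplicit false
open scoped MatrixGroups
open Cfsg

namespace Cfsg.Agent.S2422

open Cfsg.Agent.Lib.helper18.GLFlag

theorem main {F : Type*} [Field F] [Fintype F] {n : ℕ} (ν ν' : Fin n → ℕ) (hmono : Monotone ν)
    (hsum : ∑ i, ν i = n) (hmono' : Monotone ν') (hsum' : ∑ i, ν' i = n)
    (h : Cfsg.unipotentCharacterGL n F ν = Cfsg.unipotentCharacterGL n F ν') : ν = ν' := by
  classical
  by_contra hne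
  have h1 := unip_orth (F := F) ν ν' hmono hmono' hsum hsum'
  have h2 := unip_orth (F := F) ν ν hmono hmono hsum hsum
  rw [if_neg hne] at h1
  rw [if_pos rfl] at h2
  rw [← h] at h1
  rw [h1] at h2
  exact zero_ne_one h2


/-- The irreducible characters of `GL_n(q)` attached to different partitions of `n` (each written with `n` non-decreasing parts, zeros allowed) by the alternating sum of flag permutation characters are different. -/
theorem result {F : Type*} [Field F] [Fintype F] {n : ℕ} (ν ν' : Fin n → ℕ) (hmono : Monotone ν) (hsum : ∑ i, ν i = n)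
    (hmono' : Monotone ν') (hsum' : ∑ i, ν' i = n) (h : Cfsg.unipotentCharacterGL n F ν = Cfsg.unipotentCharacterGL n F ν') : ν = ν' := by
  exact main ν ν' hmono hsum hmono' hsum' h

end Cfsg.Agent.S2422
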