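import Cfsg.Statements.S2433
import Cfsg.Agent.Lib.helper12.SL2Char
-- import your own Cfsg.Agent.* helpers here

set_option autoImplicit false
open Cfsg

namespace Cfsg.Agent.S2433

open Cfsg.Agent.Lib.helper12 Cfsg.Agent.Lib.helper24


/-- Let F be a finite field with q elements, q odd, α a multiplicative character of F, and R(α) the function on SL₂ induced from the linear character b ↦ α(b₁₁) of the upper triangular subgroup. Then R(α) takes the value α(a) + α(a⁻¹) at a diagonal element with entries a, a⁻¹, a² ≠ 1; the value 0 at every element with no eigenvector in F²; the value α(ε) at an upper triangular element with both diagonal entries ε and non-zero upper right entry; and the value (q + 1)α(ε) at the scalar element ε (ε = ±1). -/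
theorem result {F : Type*} [Field F] [Fintype F] [DecidableEq F] (hodd : Odd (Fintype.card F)) (α : MulChar F ℂ) (g : Matrix.SpecialLinearGroup (Fin 2) F) :
    ((g : Matrix (Fin 2) (Fin 2) F) 0 1 = 0 → (g : Matrix (Fin 2) (Fin 2) F) 1 0 = 0 → (g : Matrix (Fin 2) (Fin 2) F) 0 0 ^ 2 ≠ 1 →
      (Cfsg.indFun ((Cfsg.upperTriangularGL 2 F).comap Matrix.SpecialLinearGroup.toGL) (fun b => α (((b : Matrix.SpecialLinearGroup (Fin 2) F) : Matrix (Fin 2) (Fin 2) F) 0 0))) g = α ((g : Matrix (Fin 2) (Fin 2) F) 0 0) + α ((g : Matrix (Fin 2) (Fin 2) F) 1 1)) ∧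
    ((∀ (c : F) (v : Fin 2 → F), v ≠ 0 → (g : Matrix (Fin 2) (Fin 2) F).mulVec v ≠ c • v) → (Cfsg.indFun ((Cfsg.upperTriangularGL 2 F).comap Matrix.SpecialLinearGroup.toGL) (fun b => α (((b : Matrix.SpecialLinearGroup (Fin 2) F) : Matrix (Fin 2) (Fin 2) F) 0 0))) g = 0) ∧
    ((g : Matrix (Fin 2) (Fin 2) F) 1 0 = 0 → (g : Matrix (Fin 2) (Fin 2) F) 0 0 = (g : Matrix (Fin 2) (Fin 2) F) 1 1 → (g : Matrix (Fin 2) (Fin 2) F) 0 1 ≠ 0 →
      (Cfsg.indFun ((Cfsg.upperTriangularGL 2 F).comap Matrix.SpecialLinearGroup.toGL) (fun b => α (((b : Matrix.SpecialLinearGroup (Fin 2) F) : Matrix (Fin 2) (Fin 2) F) 0 0))) g = α ((g : Matrix (Fin 2) (Fin 2) F) 0 0)) ∧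
    ((g : Matrix (Fin 2) (Fin 2) F) 0 1 = 0 → (g : Matrix (Fin 2) (Fin 2) F) 1 0 = 0 → (g : Matrix (Fin 2) (Fin 2) F) 0 0 = (g : Matrix (Fin 2) (Fin 2) F) 1 1 →
      (Cfsg.indFun ((Cfsg.upperTriangularGL 2 F).comap Matrix.SpecialLinearGroup.toGL) (fun b => α (((b : Matrix.SpecialLinearGroup (Fin 2) F) : Matrix (Fin 2) (Fin 2) F) 0 0))) g = ((Fintype.card F : ℂ) + 1) * α ((g : Matrix (Fin 2) (Fin 2) F) 0 0)) := by
  classical
  have hR : (Cfsg.indFun ((Cfsg.upperTriangularGL 2 F).comap Matrix.SpecialLinearGroup.toGL) (fun b => α (((b : Matrix.SpecialLinearGroup (Fin 2) F) : Matrix (Fin 2) (Fin 2) F) 0 0))) =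
      indFun (borelSL F) (borelSLChar α) := rfl
  rw [hR]
  refine ⟨?_, ?_, ?_, ?_⟩
  · intro h01 h10 hsq
    rw [RSL_apply_upper α g h10]
    congr 1
    have hne : (g : Matrix (Fin 2) (Fin 2) F) 0 0 - (g : Matrix (Fin 2) (Fin 2) F) 1 1 ≠ 0 := by
      intro h
      apply hsq
      have hd := SL2_det_eq g
      have h' : (g : Matrix (Fin 2) (Fin 2) F) 0 0 = (g : Matrix (Fin 2) (Fin 2) F) 1 1 := sub_eq_zero.mp h
      rw [h01, ← h'] at hd
      linear_combination hd
    rw [Finset.sum_eq_single 0]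
    · simp [h01]
    · intro y _ hy
      rw [if_neg]
      intro h
      rw [h01, add_zero] at h
      exact hy ((mul_eq_zero.mp h).resolve_left hne)
    · intro h
      exact absurd (Finset.mem_univ _) h
  · intro hg
    exact indFun_borelSL_elliptic _ (borelSLChar_isClassFunction α) g hg
  · intro h10 heq h01
    rw [RSL_apply_upper α g h10]
    have : ∑ y : F, (if ((g : Matrix (Fin 2) (Fin 2) F) 0 0 - (g : Matrix (Fin 2) (Fin 2) F) 1 1) * y +
        (g : Matrix (Fin 2) (Fin 2) F) 0 1 = 0 then α ((g : Matrix (Fin 2) (Fin 2) F) 1 1) else 0) = 0 := by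
      apply Finset.sum_eq_zero
      intro y _
      rw [if_neg]
      rw [heq, sub_self, zero_mul, zero_add]
      exact h01
    rw [this, add_zero]
  · intro h01 h10 heq
    rw [RSL_apply_upper α g h10]
    have : ∀ y : F, (if ((g : Matrix (Fin 2) (Fin 2) F) 0 0 - (g : Matrix (Fin 2) (Fin 2) F) 1 1) * y +
        (g : Matrix (Fin 2) (Fin 2) F) 0 1 = 0 then α ((g : Matrix (Fin 2) (Fin 2) F) 1 1) else 0) =
        α ((g : Matrix (Fin 2) (Fin 2) F) 1 1) := by
      intro y
      rw [if_pos]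
      rw [heq, sub_self, zero_mul, zero_add, h01]
    simp only [this, Finset.sum_const, Finset.card_univ, nsmul_eq_mul]
    rw [← heq]
    ring

end Cfsg.Agent.S2433
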