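import Cfsg.Statements.S2437
import Mathlib

set_option autoImplicit false
open Cfsg

namespace Cfsg.Agent.S2437

variable {F : Type*} [Field F]

theorem mem_bor (A : Matrix.SpecialLinearGroup (Fin 2) F) :
    A ∈ (Cfsg.upperTriangularGL 2 F).comap Matrix.SpecialLinearGroup.toGL ↔ A 1 0 = 0 := by
  constructor
  · intro h
    have h1 : ((Matrix.SpecialLinearGroup.toGL A : GL (Fin 2) F) :
        Matrix (Fin 2) (Fin 2) F).BlockTriangular id := h
    have h2 := h1 (show id (0 : Fin 2) < id 1 by decide)
    simpa using h2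
  · intro h
    show ((Matrix.SpecialLinearGroup.toGL A : GL (Fin 2) F) :
        Matrix (Fin 2) (Fin 2) F).BlockTriangular id
    intro i j hij
    fin_cases i <;> fin_cases j
    · exact absurd hij (by decide)
    · exact absurd hij (by decide)
    · simpa using h
    · exact absurd hij (by decide)

/-- The matrix of a pair. -/
def mk (p : Fˣ × F) : Matrix.SpecialLinearGroup (Fin 2) F :=
  ⟨!![(p.1 : F), p.2; 0, ((p.1⁻¹ : Fˣ) : F)], by
    rw [Matrix.det_fin_two]; simp⟩

theorem mk_mem (p : Fˣ × F) :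
    mk p ∈ (Cfsg.upperTriangularGL 2 F).comap Matrix.SpecialLinearGroup.toGL := by
  rw [mem_bor]; simp [mk]

theorem mk_bij : Function.Bijective (fun p : Fˣ × F =>
    (⟨mk p, mk_mem p⟩ : (Cfsg.upperTriangularGL 2 F).comap Matrix.SpecialLinearGroup.toGL)) := by
  constructor
  · intro p p' h
    have h1 : mk p = mk p' := congrArg Subtype.val h
    have h2 : (mk p) 0 0 = (mk p') 0 0 := by rw [h1]
    have h3 : (mk p) 0 1 = (mk p') 0 1 := by rw [h1]
    simp [mk] at h2 h3
    exact Prod.ext (Units.ext h2) h3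
  · rintro ⟨A, hA⟩
    have hA' := (mem_bor A).mp hA
    have hdet := A.2
    rw [Matrix.det_fin_two, hA', mul_zero, sub_zero] at hdet
    refine ⟨(⟨A 0 0, A 1 1, hdet, by rw [mul_comm]; exact hdet⟩, A 0 1), ?_⟩
    apply Subtype.ext
    ext i j
    fin_cases i <;> fin_cases j
    · simp [mk]
    · simp [mk]
    · simp [mk, hA']
    · simp [mk]

/-- The parametrisation of the Borel subgroup. -/
noncomputable def eqv :
    (Fˣ × F) ≃ ((Cfsg.upperTriangularGL 2 F).comap Matrix.SpecialLinearGroup.toGL) :=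
  Equiv.ofBijective _ mk_bij

theorem eqv_val (p : Fˣ × F) : ((eqv p : (Cfsg.upperTriangularGL 2 F).comap
    Matrix.SpecialLinearGroup.toGL) : Matrix.SpecialLinearGroup (Fin 2) F) = mk p := rfl

theorem mk_val (p : Fˣ × F) : ((mk p : Matrix.SpecialLinearGroup (Fin 2) F) :
    Matrix (Fin 2) (Fin 2) F) = !![(p.1 : F), p.2; 0, (p.1 : F)⁻¹] := by
  simp [mk]

theorem comm_iff (p p' : Fˣ × F) : Commute (eqv p) (eqv p') ↔
    p'.2 * ((p.1 : F) - (p.1 : F)⁻¹) = p.2 * ((p'.1 : F) - (p'.1 : F)⁻¹) := by
  have key : Commute (eqv p) (eqv p') ↔ mk p * mk p' = mk p' * mk p := by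
    constructor
    · intro h
      have := congrArg Subtype.val h.eq
      simpa [eqv_val] using this
    · intro h
      apply Subtype.ext
      simpa [eqv_val] using h
  rw [key]
  constructor
  · intro h
    have h1 : (mk p * mk p') 0 1 = (mk p' * mk p) 0 1 := by rw [h]
    simp only [Matrix.SpecialLinearGroup.coe_mul, mk_val, Matrix.mul_apply, Fin.sum_univ_two] at h1
    simp at h1
    linear_combination h1
  · intro h
    ext i j
    simp only [Matrix.SpecialLinearGroup.coe_mul, mk_val, Matrix.mul_apply, Fin.sum_univ_two]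
    fin_cases i <;> fin_cases j
    · simp; ring
    · simp; linear_combination h
    · simp
    · simp; ring

theorem inner_count [Fintype F] [DecidableEq F] (s t : F) :
    (∑ b : F, ∑ d : F, if d * s = b * t then 1 else 0) =
      if s = 0 ∧ t = 0 then Fintype.card F * Fintype.card F else Fintype.card F := by
  by_cases hs : s = 0
  · by_cases ht : t = 0
    · subst hs; subst ht
      simp
    · subst hs
      rw [if_neg (by tauto)]
      have h1 : ∀ b d : F, (d * 0 = b * t) ↔ b = 0 := by
        intro b d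
        rw [mul_zero]
        constructor
        · intro h
          rcases mul_eq_zero.mp h.symm with h | h
          · exact h
          · exact absurd h ht
        · intro h; rw [h, zero_mul]
      simp only [h1]
      simp
  · rw [if_neg (by tauto)]
    have h1 : ∀ b d : F, (d * s = b * t) ↔ d = b * t / s := fun b d => (eq_div_iff hs).symm
    simp only [h1]
    simp

theorem card_z [Fintype F] [DecidableEq F] (hodd : Odd (Fintype.card F)) :
    (Finset.univ.filter (fun a : Fˣ => (a : F) - (a : F)⁻¹ = 0)).card = 2 := by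
  have hne : (1 : Fˣ) ≠ -1 := by
    intro h
    have h1 : (1 : F) = -1 := by
      have := congrArg Units.val h
      simpa using this
    have hchar : ringChar F ≠ 2 := by
      intro h2
      have h3 := FiniteField.even_card_iff_char_two.mp h2
      have h4 := Nat.odd_iff.mp hodd
      omega
    exact Ring.neg_one_ne_one_of_char_ne_two hchar h1.symm
  have h5 : (Finset.univ.filter (fun a : Fˣ => (a : F) - (a : F)⁻¹ = 0)) = {1, -1} := by
    ext a
    simp only [Finset.mem_filter, Finset.mem_univ, true_and, Finset.mem_insert,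
      Finset.mem_singleton]
    constructor
    · intro h
      have ha : (a : F) ≠ 0 := a.ne_zero
      have h1 : (a : F) * (a : F) = 1 := by
        have h2 : (a : F) = (a : F)⁻¹ := sub_eq_zero.mp h
        nth_rewrite 2 [h2]
        exact mul_inv_cancel₀ ha
      rcases mul_self_eq_one_iff.mp h1 with h2 | h2
      · left; exact Units.ext h2
      · right; exact Units.ext (by simpa using h2)
    · rintro (rfl | rfl) <;> simp
  rw [h5, Finset.card_pair hne]

/-- Over a finite field F with q elements, q odd, the upper triangular subgroup of SL₂ (a Borel subgroup, of order q(q − 1)) has exactly q + 3 conjugacy classes. -/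
theorem result {F : Type*} [Field F] [Fintype F] (hodd : Odd (Fintype.card F)) :
    Nat.card (ConjClasses ((Cfsg.upperTriangularGL 2 F).comap Matrix.SpecialLinearGroup.toGL)) = Fintype.card F + 3 := by
  classical
  have hfinB : Finite ((Cfsg.upperTriangularGL 2 F).comap Matrix.SpecialLinearGroup.toGL) :=
    Finite.of_equiv _ eqv
  have hcardB : Nat.card ((Cfsg.upperTriangularGL 2 F).comap Matrix.SpecialLinearGroup.toGL)
      = (Fintype.card F - 1) * Fintype.card F := by
    rw [← Nat.card_congr eqv, Nat.card_prod, Nat.card_eq_fintype_card, Nat.card_eq_fintype_card,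
      Fintype.card_units]
  have h1 := card_comm_eq_card_conjClasses_mul_card
    ((Cfsg.upperTriangularGL 2 F).comap Matrix.SpecialLinearGroup.toGL)
  have h2 : Nat.card { p : ((Cfsg.upperTriangularGL 2 F).comap Matrix.SpecialLinearGroup.toGL) ×
        ((Cfsg.upperTriangularGL 2 F).comap Matrix.SpecialLinearGroup.toGL) // Commute p.1 p.2 }
      = Nat.card {y : (Fˣ × F) × (Fˣ × F) // y.2.2 * ((y.1.1 : F) - (y.1.1 : F)⁻¹)
          = y.1.2 * ((y.2.1 : F) - (y.2.1 : F)⁻¹)} := by
    refine (Nat.card_congr (Equiv.subtypeEquiv (Equiv.prodCongr eqv eqv) ?_)).symm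
    intro y
    exact (comm_iff y.1 y.2).symm
  have h3 : Nat.card {y : (Fˣ × F) × (Fˣ × F) // y.2.2 * ((y.1.1 : F) - (y.1.1 : F)⁻¹)
          = y.1.2 * ((y.2.1 : F) - (y.2.1 : F)⁻¹)}
      = ∑ p : Fˣ × Fˣ, (if (p.1 : F) - (p.1 : F)⁻¹ = 0 ∧ (p.2 : F) - (p.2 : F)⁻¹ = 0
          then Fintype.card F * Fintype.card F else Fintype.card F) := by
    rw [Nat.card_eq_fintype_card, Fintype.card_subtype, Finset.card_filter]
    simp only [Fintype.sum_prod_type]
    refine Finset.sum_congr rfl fun a _ => ?_
    rw [Finset.sum_comm]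
    refine Finset.sum_congr rfl fun c _ => ?_
    exact inner_count _ _
  have h4 : (Finset.univ.filter (fun p : Fˣ × Fˣ =>
      (p.1 : F) - (p.1 : F)⁻¹ = 0 ∧ (p.2 : F) - (p.2 : F)⁻¹ = 0)).card = 4 := by
    rw [← Finset.univ_product_univ, Finset.filter_product (fun a : Fˣ => (a : F) - (a : F)⁻¹ = 0)
      (fun a : Fˣ => (a : F) - (a : F)⁻¹ = 0), Finset.card_product, card_z hodd]
  have h5 := Finset.card_filter_add_card_filter_not (s := (Finset.univ : Finset (Fˣ × Fˣ)))
    (fun p : Fˣ × Fˣ => (p.1 : F) - (p.1 : F)⁻¹ = 0 ∧ (p.2 : F) - (p.2 : F)⁻¹ = 0)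
  rw [h4, Finset.card_univ, Fintype.card_prod, Fintype.card_units] at h5
  rw [Finset.sum_ite, Finset.sum_const, Finset.sum_const, h4, smul_eq_mul, smul_eq_mul] at h3
  obtain ⟨r, hr⟩ : ∃ r, Fintype.card F = r + 1 := ⟨Fintype.card F - 1, by
    have := Fintype.card_pos (α := F); omega⟩
  rw [h2, h3, hcardB] at h1
  rw [hr] at h1 h5 ⊢
  rw [Nat.add_sub_cancel] at h1 h5
  have hpos : 0 < r * (r + 1) := by
    have : r ≠ 0 := by
      rintro rfl
      simp at h5
    positivity
  apply Nat.eq_of_mul_eq_mul_right hpos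
  rw [← h1]
  generalize (Finset.univ.filter (fun p : Fˣ × Fˣ =>
      ¬ ((p.1 : F) - (p.1 : F)⁻¹ = 0 ∧ (p.2 : F) - (p.2 : F)⁻¹ = 0))).card = u at h5 ⊢
  have h6 : (r + 1) * (r * r) = (r + 1) * (4 + u) := by rw [h5]
  nlinarith [h6]

end Cfsg.Agent.S2437
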