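import Cfsg.Statements.S2438
import Cfsg.Agent.Lib.helper12.SL2Odd3
-- import your own Cfsg.Agent.* helpers here

set_option autoImplicit false
open Cfsg

namespace Cfsg.Agent.S2438

open Cfsg.Agent.Lib.helper12 Cfsg.Agent.Lib.helper24
open scoped MatrixGroups

/-- Let F be a finite field with q elements, q odd, q ≥ 5, U the upper unitriangular subgroup of SL₂ over F, and χ an irreducible complex character. The sum of the values of χ over U equals 2q, q, 0, q, 0 according as the degree of χ is q + 1, q, q − 1, (q + 1)/2, (q − 1)/2; so among these five degrees the sum vanishes exactly for the degrees q − 1 and (q − 1)/2, i.e. the irreducible characters of those two degrees are the ones whose restriction to U does not contain the trivial character (the cuspidal characters), while those of degree q + 1, q and (q + 1)/2 are not cuspidal. -/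
theorem result {F : Type*} [Field F] [Fintype F] [DecidableEq F] (hodd : Odd (Fintype.card F)) (hq : 5 ≤ Fintype.card F)
    (χ : Matrix.SpecialLinearGroup (Fin 2) F → ℂ) (hχ : Cfsg.IsIrrCharacter (Matrix.SpecialLinearGroup (Fin 2) F) χ) :
    (χ 1 = (Fintype.card F : ℂ) + 1 →
      (∑ g : Matrix.SpecialLinearGroup (Fin 2) F, if (g : Matrix (Fin 2) (Fin 2) F) 1 0 = 0 ∧ (g : Matrix (Fin 2) (Fin 2) F) 0 0 = 1 ∧ (g : Matrix (Fin 2) (Fin 2) F) 1 1 = 1 then χ g else 0) = 2 * (Fintype.card F : ℂ)) ∧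
    (χ 1 = (Fintype.card F : ℂ) →
      (∑ g : Matrix.SpecialLinearGroup (Fin 2) F, if (g : Matrix (Fin 2) (Fin 2) F) 1 0 = 0 ∧ (g : Matrix (Fin 2) (Fin 2) F) 0 0 = 1 ∧ (g : Matrix (Fin 2) (Fin 2) F) 1 1 = 1 then χ g else 0) = (Fintype.card F : ℂ)) ∧
    (χ 1 = (Fintype.card F : ℂ) - 1 →
      (∑ g : Matrix.SpecialLinearGroup (Fin 2) F, if (g : Matrix (Fin 2) (Fin 2) F) 1 0 = 0 ∧ (g : Matrix (Fin 2) (Fin 2) F) 0 0 = 1 ∧ (g : Matrix (Fin 2) (Fin 2) F) 1 1 = 1 then χ g else 0) = 0) ∧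
    (χ 1 = (((Fintype.card F + 1) / 2 : ℕ) : ℂ) →
      (∑ g : Matrix.SpecialLinearGroup (Fin 2) F, if (g : Matrix (Fin 2) (Fin 2) F) 1 0 = 0 ∧ (g : Matrix (Fin 2) (Fin 2) F) 0 0 = 1 ∧ (g : Matrix (Fin 2) (Fin 2) F) 1 1 = 1 then χ g else 0) = (Fintype.card F : ℂ)) ∧
    (χ 1 = (((Fintype.card F - 1) / 2 : ℕ) : ℂ) →
      (∑ g : Matrix.SpecialLinearGroup (Fin 2) F, if (g : Matrix (Fin 2) (Fin 2) F) 1 0 = 0 ∧ (g : Matrix (Fin 2) (Fin 2) F) 0 0 = 1 ∧ (g : Matrix (Fin 2) (Fin 2) F) 1 1 = 1 then χ g else 0) = 0) := by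
  classical
  have hodd' : Fintype.card F % 2 = 1 := Nat.odd_iff.mp hodd
  have hh1 := card_cast_half_add (F := F) hodd'
  have hh2 := card_cast_half_sub (F := F) hodd'
  obtain ⟨α₀, ν, ψ, hα, hα1, hν, hψ⟩ := SL2_odd_setup hodd'
  have hν0 := quad_ne_zero hν
  obtain ⟨ξ₁, ξ₂, hne, hξ⟩ := exists_two_irr_of_norm_two (RSL_isCharacter α₀) (RSL_norm_two hα)
  have e0 : (Fintype.card F : ℂ) ≠ 0 := by
    exact_mod_cast (by omega : Fintype.card F ≠ 0)
  have e1 : (Fintype.card F : ℂ) ≠ 1 := by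
    exact_mod_cast (by omega : Fintype.card F ≠ 1)
  have e2 : (Fintype.card F : ℂ) ≠ 2 := by
    exact_mod_cast (by omega : Fintype.card F ≠ 2)
  have em1 : (Fintype.card F : ℂ) ≠ -1 := by
    have := card_cast_ne_neg (F := F) 1 one_ne_zero
    simpa using this
  have em3 : (Fintype.card F : ℂ) ≠ -3 := by
    have := card_cast_ne_neg (F := F) 3 (by norm_num)
    simpa using this
  have e3 : (Fintype.card F : ℂ) ≠ 3 := by
    exact_mod_cast (by omega : Fintype.card F ≠ 3)
  rw [hh1, hh2]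
  have hχc := isCharacter_of_isIrrCharacter hχ
  have hsum := sum_unip_eq χ
  obtain ⟨x01, xA1, x02, xA2⟩ := SL2_xi_data hα hα1 hν hψ hne hξ
  have hxi : ∀ χ : Cfsg.IrrCharacter SL(2, F), χ = ξ₁ ∨ χ = ξ₂ → nU ψ χ.1 0 = 1 := by
    rintro χ (rfl | rfl)
    · exact x01
    · exact x02
  rcases SL2_irr_classify_deg_odd hα hα1 hν hψ hne hξ ⟨χ, hχ⟩ with ⟨ht, hd⟩ | ⟨ht, hd⟩ | ⟨α, hα', ht, hd⟩ | ⟨ht, hd⟩ | ⟨hc, h0, h1, hm, hd⟩ | ⟨hc, h0, hA, hd⟩
  · simp only at hd ht
    refine ⟨fun hp => ?_, fun hp => ?_, fun hp => ?_, fun hp => ?_, fun hp => ?_⟩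
    · rw [hd] at hp
      exact absurd (by linear_combination (-1 : ℂ) * hp : (Fintype.card F : ℂ) = 0) e0
    · rw [hd] at hp
      exact absurd (by linear_combination (-1 : ℂ) * hp : (Fintype.card F : ℂ) = 1) e1
    · rw [hd] at hp
      exact absurd (by linear_combination (-1 : ℂ) * hp : (Fintype.card F : ℂ) = 2) e2
    · rw [hd] at hp
      exact absurd (by linear_combination (-2 : ℂ) * hp : (Fintype.card F : ℂ) = 1) e1
    · rw [hd] at hp
      exact absurd (by linear_combination (-2 : ℂ) * hp : (Fintype.card F : ℂ) = 3) e3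
  · simp only at hd ht
    refine ⟨fun hp => ?_, fun hp => ?_, fun hp => ?_, fun hp => ?_, fun hp => ?_⟩
    · rw [hd] at hp
      exact absurd (by linear_combination (-1 : ℂ) * hp : (1 : ℂ) = 0) one_ne_zero
    · rw [hsum, ht, sum_uSL_eq (stSL F) 0 (fun y hy => stSL_apply_uSL hy), stSL_apply_one]
      ring
    · rw [hd] at hp
      exact absurd (by linear_combination (1 : ℂ) * hp : (1 : ℂ) = 0) one_ne_zero
    · rw [hd] at hp
      exact absurd (by linear_combination (2 : ℂ) * hp : (Fintype.card F : ℂ) = 1) e1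
    · rw [hd] at hp
      exact absurd (by linear_combination (2 : ℂ) * hp : (Fintype.card F : ℂ) = -1) em1
  · simp only at hd ht
    refine ⟨fun hp => ?_, fun hp => ?_, fun hp => ?_, fun hp => ?_, fun hp => ?_⟩
    · rw [hsum, ht, sum_uSL_eq (RSL α) 1 (fun y hy => RSL_apply_uSL α hy), RSL_apply_one]
      ring
    · rw [hd] at hp
      exact absurd (by linear_combination (1 : ℂ) * hp : (1 : ℂ) = 0) one_ne_zero
    · rw [hd] at hp
      exact absurd (by linear_combination (1 / 2 : ℂ) * hp : (1 : ℂ) = 0) one_ne_zero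
    · rw [hd] at hp
      exact absurd (by linear_combination (2 : ℂ) * hp : (Fintype.card F : ℂ) = -1) em1
    · rw [hd] at hp
      exact absurd (by linear_combination (2 : ℂ) * hp : (Fintype.card F : ℂ) = -3) em3
  · simp only at hd
    refine ⟨fun hp => ?_, fun hp => ?_, fun hp => ?_, fun hp => ?_, fun hp => ?_⟩
    · rw [hd] at hp
      exact absurd (by linear_combination (-2 : ℂ) * hp : (Fintype.card F : ℂ) = -1) em1
    · rw [hd] at hp
      exact absurd (by linear_combination (-2 : ℂ) * hp : (Fintype.card F : ℂ) = 1) e1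
    · rw [hd] at hp
      exact absurd (by linear_combination (-2 : ℂ) * hp : (Fintype.card F : ℂ) = 3) e3
    · rw [hsum, (SL2_U_odd hα hα1 hν hψ hχc).1, (hxi ⟨χ, hχ⟩ ht)]
      push_cast
      ring
    · rw [hd] at hp
      exact absurd (by linear_combination (1 : ℂ) * hp : (1 : ℂ) = 0) one_ne_zero
  · simp only at hd
    refine ⟨fun hp => ?_, fun hp => ?_, fun hp => ?_, fun hp => ?_, fun hp => ?_⟩
    · rw [hd] at hp
      exact absurd (by linear_combination (-1 / 2 : ℂ) * hp : (1 : ℂ) = 0) one_ne_zero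
    · rw [hd] at hp
      exact absurd (by linear_combination (-1 : ℂ) * hp : (1 : ℂ) = 0) one_ne_zero
    · simp only at h0
      rw [hsum, (SL2_U_odd hα hα1 hν hψ hχc).1, h0]
      push_cast
      ring
    · rw [hd] at hp
      exact absurd (by linear_combination (2 : ℂ) * hp : (Fintype.card F : ℂ) = 3) e3
    · rw [hd] at hp
      exact absurd (by linear_combination (2 : ℂ) * hp : (Fintype.card F : ℂ) = 1) e1
  · simp only at hd
    refine ⟨fun hp => ?_, fun hp => ?_, fun hp => ?_, fun hp => ?_, fun hp => ?_⟩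
    · rw [hd] at hp
      exact absurd (by linear_combination (-2 : ℂ) * hp : (Fintype.card F : ℂ) = -3) em3
    · rw [hd] at hp
      exact absurd (by linear_combination (-2 : ℂ) * hp : (Fintype.card F : ℂ) = -1) em1
    · rw [hd] at hp
      exact absurd (by linear_combination (-2 : ℂ) * hp : (Fintype.card F : ℂ) = 1) e1
    · rw [hd] at hp
      exact absurd (by linear_combination (-1 : ℂ) * hp : (1 : ℂ) = 0) one_ne_zero
    · simp only at h0
      rw [hsum, (SL2_U_odd hα hα1 hν hψ hχc).1, h0]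
      push_cast
      ring

end Cfsg.Agent.S2438
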