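import Cfsg.Statements.S2531
import Mathlib

set_option autoImplicit false
open Cfsg

namespace Cfsg.Agent.S2531


/-- The number of projective points lying in a subspace. -/
theorem card_pts {F V : Type*} [Field F] [Finite F] [AddCommGroup V] [Module F V] [Finite V]
    (U : Submodule F V) :
    Nat.card {x : Projectivization F V // x.submodule ≤ U} * (Nat.card F - 1) = Nat.card U - 1 := by
  rw [Projectivization.card F U]
  congr 1
  have hinj : Function.Injective (Projectivization.map U.subtype U.injective_subtype) :=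
    Projectivization.map_injective _ _
  have hrange : Set.range (Projectivization.map U.subtype U.injective_subtype) =
      {x : Projectivization F V | x.submodule ≤ U} := by
    ext x
    constructor
    · rintro ⟨y, rfl⟩
      induction y using Projectivization.ind with
      | h u hu =>
        rw [Projectivization.map_mk]
        show (Projectivization.mk F (U.subtype u) _).submodule ≤ U
        rw [Projectivization.submodule_mk, Submodule.span_singleton_le_iff_mem]
        exact u.2
    · intro hx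
      induction x using Projectivization.ind with
      | h v hv =>
        have hx' : (Projectivization.mk F v hv).submodule ≤ U := hx
        rw [Projectivization.submodule_mk, Submodule.span_singleton_le_iff_mem] at hx'
        exact ⟨Projectivization.mk F (⟨v, hx'⟩ : U) (fun h => hv (congrArg Subtype.val h)),
          by rw [Projectivization.map_mk]; rfl⟩
  have h1 : Nat.card {x : Projectivization F V // x.submodule ≤ U} =
      Nat.card (Set.range (Projectivization.map U.subtype U.injective_subtype)) := by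
    rw [hrange]; rfl
  rw [h1, Nat.card_range_of_injective hinj]

/-- Two distinct hyperplanes meet in a subspace of codimension two. -/
theorem finrank_inf_hyp {F V : Type*} [Field F] [AddCommGroup V] [Module F V]
    [FiniteDimensional F V] {n : ℕ} (hV : Module.finrank F V = n) (W W' : Submodule F V)
    (hW : Module.finrank F W = n - 1) (hW' : Module.finrank F W' = n - 1) (hne : W ≠ W')
    (hn : 2 ≤ n) : Module.finrank F ↥(W ⊓ W') = n - 2 := by
  have h1 := Submodule.finrank_sup_add_finrank_inf_eq W W'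
  have h2 : Module.finrank F ↥(W ⊔ W') ≤ n := hV ▸ Submodule.finrank_le _
  have h3 : Module.finrank F W ≤ Module.finrank F ↥(W ⊔ W') := Submodule.finrank_mono le_sup_left
  have h4 : Module.finrank F ↥(W ⊔ W') ≠ n - 1 := by
    intro h
    have e1 : W = W ⊔ W' := Submodule.eq_of_le_of_finrank_eq le_sup_left (by rw [hW, h])
    have e2 : W' = W ⊔ W' := Submodule.eq_of_le_of_finrank_eq le_sup_right (by rw [hW', h])
    exact hne (e1.trans e2.symm)
  omega

/-- A permutation of the points induced by a semilinear injection maps the points of a subspace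
onto the points of a subspace of the same dimension. -/
theorem hyp_image {F : Type*} [Field F] [Finite F] {n : ℕ}
    (s : Equiv.Perm (Projectivization F (Fin n → F)))
    (hs : ∃ (σ : F ≃+* F) (f : (Fin n → F) →ₛₗ[(σ : F →+* F)] (Fin n → F))
      (hf : Function.Injective f), ∀ x, s x = Projectivization.map f hf x)
    (W : Submodule F (Fin n → F)) :
    ∃ W' : Submodule F (Fin n → F), Module.finrank F W' = Module.finrank F W ∧
      ∀ x, (s x).submodule ≤ W' ↔ x.submodule ≤ W := by
  obtain ⟨σ, f, hf, hsf⟩ := hs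
  have := RingHomInvPair.of_ringEquiv σ
  have : RingHomSurjective (σ : F →+* F) := RingHomSurjective.invPair
  refine ⟨W.map f, ?_, ?_⟩
  · have h1 : Nat.card (W.map f) = Nat.card W := by
      have h2 : ((W.map f : Submodule F (Fin n → F)) : Set (Fin n → F)) =
          f '' (W : Set (Fin n → F)) := Submodule.map_coe f W
      show Nat.card ((W.map f : Submodule F (Fin n → F)) : Set (Fin n → F)) =
        Nat.card (W : Set (Fin n → F))
      rw [h2, Nat.card_image_of_injective hf]
    have c1 : Nat.card (W.map f) = Nat.card F ^ Module.finrank F (W.map f) :=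
      Module.natCard_eq_pow_finrank (K := F)
    have c2 : Nat.card W = Nat.card F ^ Module.finrank F W :=
      Module.natCard_eq_pow_finrank (K := F)
    rw [c1, c2] at h1
    exact Nat.pow_right_injective (Finite.one_lt_card (α := F)) h1
  · intro x
    induction x using Projectivization.ind with
    | h v hv =>
      rw [hsf, Projectivization.map_mk, Projectivization.submodule_mk,
        Projectivization.submodule_mk, Submodule.span_singleton_le_iff_mem,
        Submodule.span_singleton_le_iff_mem, Submodule.mem_map]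
      constructor
      · rintro ⟨w, hw, hwv⟩
        rwa [← hf hwv]
      · intro hv'
        exact ⟨v, hv', rfl⟩

/-- The arithmetic contradiction. -/
theorem arith (q Q h h₂ N m m' : ℕ) (hq : 2 ≤ q) (hQ : 2 ≤ Q)
    (e1 : h * (q - 1) = q * Q - 1) (e2 : h₂ * (q - 1) = Q - 1)
    (e3 : N * (q - 1) = q * (q * Q) - 1) (e4 : m + m' + 1 = N)
    (e5 : m * h + m' * h₂ = h * h) : False := by
  obtain ⟨r, rfl⟩ : ∃ r, q = r + 1 := ⟨q - 1, by omega⟩
  have hr : 1 ≤ r := by omega
  simp only [Nat.add_sub_cancel] at e1 e2 e3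
  have p1 : 1 ≤ (r + 1) * Q := Nat.mul_pos (by omega) (by omega)
  have p3 : 1 ≤ (r + 1) * ((r + 1) * Q) := Nat.mul_pos (by omega) p1
  have E1 : (h : ℤ) * r + 1 = (r + 1) * Q := by
    have : h * r + 1 = (r + 1) * Q := by omega
    exact_mod_cast this
  have E2 : (h₂ : ℤ) * r + 1 = Q := by
    have : h₂ * r + 1 = Q := by omega
    exact_mod_cast this
  have E3 : (N : ℤ) * r + 1 = (r + 1) * ((r + 1) * Q) := by
    have : N * r + 1 = (r + 1) * ((r + 1) * Q) := by omega
    exact_mod_cast this
  have E4 : (m : ℤ) + m' + 1 = N := by exact_mod_cast e4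
  have E5 : (m : ℤ) * h + m' * h₂ = h * h := by exact_mod_cast e5
  have hr0 : (r : ℤ) ≠ 0 := by exact_mod_cast (by omega : r ≠ 0)
  have A : (h : ℤ) = Q + h₂ := by
    apply mul_right_cancel₀ hr0
    linear_combination E1 - E2
  have B : (N : ℤ) = (r + 1) * h + 1 := by
    apply mul_right_cancel₀ hr0
    linear_combination E3 - (r + 1) * E1
  have C : (h : ℤ) = (r + 1) * h₂ + 1 := by
    apply mul_right_cancel₀ hr0
    linear_combination E1 - (r + 1) * E2
  have B' : (m : ℤ) + m' = (r + 1) * h := by linarith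
  have hm : (m : ℤ) * Q = h := by
    linear_combination (h : ℤ) * C - h₂ * B' - m * A + E5
  have hQ' : (2 : ℤ) ≤ Q := by exact_mod_cast hQ
  have hr' : (1 : ℤ) ≤ r := by exact_mod_cast hr
  have hh₂ : (0 : ℤ) ≤ h₂ := by positivity
  have hm0 : (0 : ℤ) ≤ m := by positivity
  rcases Nat.lt_or_ge m 2 with hlt | hge
  · interval_cases m
    · simp at hm; omega
    · simp at hm
      have : (h₂ : ℤ) = 0 := by linarith
      rw [this] at E2
      linarith
  · have hge' : (2 : ℤ) ≤ m := by exact_mod_cast hge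
    nlinarith [mul_nonneg (sub_nonneg.mpr hge') (by linarith : (0 : ℤ) ≤ Q),
      mul_nonneg hh₂ (sub_nonneg.mpr hr')]

/-- Let `F` be a finite field and `n ≥ 3`. No set of permutations of the points of the projective space of `Fⁿ`, each induced by an invertible semilinear transformation of `Fⁿ` (so a subset of the full projective semilinear group), is sharply 2-transitive on the points: it is impossible that for all pairs of distinct points `(a, b)` and `(c, d)` exactly one member of the set sends `a` to `c` and `b` to `d`. -/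
theorem result {F : Type*} [Field F] [Finite F]
    (n : ℕ) (hn : 3 ≤ n) (S : Set (Equiv.Perm (Projectivization F (Fin n → F))))
    (hS : ∀ s ∈ S, ∃ (σ : F ≃+* F) (f : (Fin n → F) →ₛₗ[(σ : F →+* F)] (Fin n → F)) (hf : Function.Injective f),
      ∀ x, s x = Projectivization.map f hf x) :
    ¬ (∀ a b c d : Projectivization F (Fin n → F), a ≠ b → c ≠ d →
        ∃! s, s ∈ S ∧ s a = c ∧ s b = d) := by
  classical
  intro h2t
  have : Fintype (Projectivization F (Fin n → F)) := Fintype.ofFinite _
  have hq : 2 ≤ Nat.card F := Finite.one_lt_card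
  have hq1 : 0 < Nat.card F - 1 := by omega
  have hVfin : Module.finrank F (Fin n → F) = n := Module.finrank_fin_fun F
  -- points of a subspace
  obtain ⟨P, hPdef⟩ : ∃ P : Submodule F (Fin n → F) → Finset (Projectivization F (Fin n → F)),
      ∀ U x, x ∈ P U ↔ x.submodule ≤ U :=
    ⟨fun U => Finset.univ.filter (fun x => x.submodule ≤ U), fun U x => by simp⟩
  have hP : ∀ U : Submodule F (Fin n → F),
      (P U).card * (Nat.card F - 1) = Nat.card F ^ Module.finrank F U - 1 := by
    intro U
    have h1 : Nat.card {x : Projectivization F (Fin n → F) // x.submodule ≤ U} = (P U).card := by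
      rw [Nat.card_eq_fintype_card, Fintype.card_subtype]
      congr 1
      ext x
      simp [hPdef]
    rw [← h1, card_pts U, Module.natCard_eq_pow_finrank (K := F)]
  -- a hyperplane and a point outside it
  have hn0 : 0 < n := by omega
  obtain ⟨i0, -⟩ : ∃ i0 : Fin n, i0 = ⟨0, hn0⟩ := ⟨_, rfl⟩
  obtain ⟨W₀, hW₀def⟩ : ∃ W₀ : Submodule F (Fin n → F),
      W₀ = LinearMap.ker (LinearMap.proj i0 : (Fin n → F) →ₗ[F] F) := ⟨_, rfl⟩
  have hW₀ : Module.finrank F W₀ = n - 1 := by
    have h1 := LinearMap.finrank_range_add_finrank_ker (LinearMap.proj i0 : (Fin n → F) →ₗ[F] F)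
    have h2 : LinearMap.range (LinearMap.proj i0 : (Fin n → F) →ₗ[F] F) = ⊤ :=
      LinearMap.range_eq_top.mpr (fun c => ⟨Pi.single i0 c, by simp⟩)
    rw [h2, finrank_top, Module.finrank_self, hVfin, ← hW₀def] at h1
    omega
  have hv0 : (Pi.single i0 (1 : F) : Fin n → F) ≠ 0 := by
    intro h
    have h1 := congrFun h i0
    simp at h1
  obtain ⟨a, ha⟩ : ∃ a : Projectivization F (Fin n → F),
      a = Projectivization.mk F (Pi.single i0 (1 : F)) hv0 := ⟨_, rfl⟩
  have haW₀ : a ∉ P W₀ := by
    rw [hPdef, ha, Projectivization.submodule_mk, Submodule.span_singleton_le_iff_mem, hW₀def,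
      LinearMap.mem_ker]
    simp
  -- the elements of `S` fixing `a`
  obtain ⟨T, hTdef⟩ : ∃ T : Finset (Equiv.Perm (Projectivization F (Fin n → F))),
      ∀ s, s ∈ T ↔ s ∈ S ∧ s a = a :=
    ⟨Finset.univ.filter (fun s => s ∈ S ∧ s a = a), fun s => by simp⟩
  have hTS : ∀ s ∈ T, s ∈ S := fun s hs => ((hTdef s).mp hs).1
  have hTa : ∀ s ∈ T, s a = a := fun s hs => ((hTdef s).mp hs).2
  have huniq : ∀ b d, b ≠ a → d ≠ a → ∃! s, s ∈ T ∧ s b = d := by
    intro b d hb hd
    obtain ⟨s, ⟨hsS, hsa, hsb⟩, hsu⟩ := h2t a b a d (Ne.symm hb) (Ne.symm hd)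
    refine ⟨s, ⟨(hTdef s).mpr ⟨hsS, hsa⟩, hsb⟩, ?_⟩
    rintro s' ⟨hs'T, hs'b⟩
    exact hsu s' ⟨hTS s' hs'T, hTa s' hs'T, hs'b⟩
  have hcnt : ∀ b, b ≠ a → ∀ R : Finset (Projectivization F (Fin n → F)), a ∉ R →
      (T.filter (fun s => s b ∈ R)).card = R.card := by
    intro b hb R hR
    refine Finset.card_bij (fun s _ => s b) ?_ ?_ ?_
    · intro s hs
      exact (Finset.mem_filter.mp hs).2
    · intro s hs s' hs' hss'
      have h1 := Finset.mem_filter.mp hs
      have h2 := Finset.mem_filter.mp hs'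
      have hd : s b ≠ a := fun h => hR (h ▸ h1.2)
      exact (huniq b (s b) hb hd).unique ⟨h1.1, rfl⟩ ⟨h2.1, hss'.symm⟩
    · intro d hd
      have hda : d ≠ a := fun h => hR (h ▸ hd)
      obtain ⟨s, ⟨hsT, hsb⟩, -⟩ := huniq b d hb hda
      exact ⟨s, Finset.mem_filter.mpr ⟨hsT, hsb ▸ hd⟩, hsb⟩
  -- images of the hyperplane
  have hWf : ∀ s ∈ S, ∃ W' : Submodule F (Fin n → F), Module.finrank F W' = n - 1 ∧
      ∀ x, s x ∈ P W' ↔ x ∈ P W₀ := by
    intro s hs
    obtain ⟨W', h1, h2⟩ := hyp_image s (hS s hs) W₀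
    exact ⟨W', h1.trans hW₀, fun x => by rw [hPdef, hPdef]; exact h2 x⟩
  choose! Wf hWf1 hWf2 using hWf
  have haWf : ∀ s ∈ T, a ∉ P (Wf s) := by
    intro s hs h
    exact haW₀ ((hWf2 s (hTS s hs) a).mp (by rw [hTa s hs]; exact h))
  -- numbers
  have hPW₀ := hP W₀
  rw [hW₀] at hPW₀
  have hQ : 2 ≤ Nat.card F ^ (n - 2) := by
    calc 2 ≤ Nat.card F := hq
      _ = Nat.card F ^ 1 := (pow_one _).symm
      _ ≤ Nat.card F ^ (n - 2) := Nat.pow_le_pow_right (by omega) (by omega)
  have hpow1 : Nat.card F ^ (n - 1) = Nat.card F * Nat.card F ^ (n - 2) := by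
    rw [← pow_succ']; congr 1; omega
  have hpow2 : Nat.card F ^ n = Nat.card F * (Nat.card F * Nat.card F ^ (n - 2)) := by
    rw [← hpow1, ← pow_succ']; congr 1; omega
  have hW₀ne : (P W₀).Nonempty := by
    rw [Finset.nonempty_iff_ne_empty]
    intro h
    rw [h, Finset.card_empty, zero_mul, hpow1] at hPW₀
    have h3 : 2 * 2 ≤ Nat.card F * Nat.card F ^ (n - 2) := Nat.mul_le_mul hq hQ
    omega
  obtain ⟨b₀, hb₀⟩ := hW₀ne
  have hb₀a : b₀ ≠ a := fun h => haW₀ (h ▸ hb₀)
  obtain ⟨s₀, ⟨hs₀T, -⟩, -⟩ := huniq b₀ b₀ hb₀a hb₀a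
  have hTcard : T.card + 1 = Fintype.card (Projectivization F (Fin n → F)) := by
    have h1 := hcnt b₀ hb₀a (Finset.univ.erase a) (Finset.notMem_erase a _)
    have h2 : T.filter (fun s => s b₀ ∈ Finset.univ.erase a) = T := by
      apply Finset.filter_true_of_mem
      intro s hs
      rw [Finset.mem_erase]
      exact ⟨fun h => hb₀a (s.injective (h.trans (hTa s hs).symm)), Finset.mem_univ _⟩
    rw [h2, Finset.card_erase_of_mem (Finset.mem_univ a), Finset.card_univ] at h1
    have h3 : 0 < Fintype.card (Projectivization F (Fin n → F)) := Fintype.card_pos_iff.mpr ⟨a⟩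
    omega
  have hNcard : Fintype.card (Projectivization F (Fin n → F)) * (Nat.card F - 1) =
      Nat.card F * (Nat.card F * Nat.card F ^ (n - 2)) - 1 := by
    have h1 := hP ⊤
    have h2 : P ⊤ = Finset.univ := by
      ext x
      simp [hPdef]
    rw [h2, Finset.card_univ, finrank_top, hVfin, hpow2] at h1
    exact h1
  -- the double count
  obtain ⟨W₁, hW₁⟩ : ∃ W₁, W₁ = Wf s₀ := ⟨_, rfl⟩
  have haW₁ : a ∉ P W₁ := hW₁ ▸ haWf s₀ hs₀T
  have hW₁fin : Module.finrank F W₁ = n - 1 := hW₁ ▸ hWf1 s₀ (hTS s₀ hs₀T)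
  have hPW₁card : (P W₁).card = (P W₀).card := by
    apply Nat.eq_of_mul_eq_mul_right hq1
    rw [hP W₁, hW₁fin, hPW₀]
  obtain ⟨h₂, hh₂⟩ : ∃ h₂, h₂ * (Nat.card F - 1) = Nat.card F ^ (n - 2) - 1 := by
    obtain ⟨c, hc⟩ := Nat.sub_one_dvd_pow_sub_one (x := Nat.card F) (n := n - 2)
    exact ⟨c, by rw [hc, mul_comm]⟩
  have hdc : ∑ s ∈ T, ((P W₀).filter (fun b => s b ∈ P W₁)).card =
      ∑ b ∈ P W₀, (T.filter (fun s => s b ∈ P W₁)).card :=
    Finset.sum_card_bipartiteAbove_eq_sum_card_bipartiteBelow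
      (fun (s : Equiv.Perm (Projectivization F (Fin n → F)))
        (b : Projectivization F (Fin n → F)) => s b ∈ P W₁)
  have hterm : ∀ s ∈ T, ((P W₀).filter (fun b => s b ∈ P W₁)).card = (P (Wf s ⊓ W₁)).card := by
    intro s hs
    refine Finset.card_bij (fun b _ => s b) ?_ ?_ ?_
    · intro b hb
      have hb' := Finset.mem_filter.mp hb
      rw [hPdef, le_inf_iff, ← hPdef, ← hPdef]
      exact ⟨(hWf2 s (hTS s hs) b).mpr hb'.1, hb'.2⟩
    · intro b _ b' _ h
      exact s.injective h
    · intro d hd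
      rw [hPdef, le_inf_iff, ← hPdef, ← hPdef] at hd
      refine ⟨s.symm d, Finset.mem_filter.mpr ⟨?_, ?_⟩, s.apply_symm_apply d⟩
      · exact (hWf2 s (hTS s hs) (s.symm d)).mp (by rw [s.apply_symm_apply]; exact hd.1)
      · rw [s.apply_symm_apply]; exact hd.2
  have hval : ∀ s ∈ T, (P (Wf s ⊓ W₁)).card = if Wf s = W₁ then (P W₀).card else h₂ := by
    intro s hs
    split_ifs with hc
    · rw [hc, inf_idem]; exact hPW₁card
    · have hfin := finrank_inf_hyp hVfin (Wf s) W₁ (hWf1 s (hTS s hs)) hW₁fin hc (by omega)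
      apply Nat.eq_of_mul_eq_mul_right hq1
      rw [hP, hfin, hh₂]
  have hsum : ∑ s ∈ T, (if Wf s = W₁ then (P W₀).card else h₂) = (P W₀).card * (P W₀).card := by
    calc ∑ s ∈ T, (if Wf s = W₁ then (P W₀).card else h₂)
        = ∑ s ∈ T, (P (Wf s ⊓ W₁)).card := (Finset.sum_congr rfl hval).symm
      _ = ∑ s ∈ T, ((P W₀).filter (fun b => s b ∈ P W₁)).card :=
          (Finset.sum_congr rfl hterm).symm
      _ = ∑ b ∈ P W₀, (T.filter (fun s => s b ∈ P W₁)).card := hdc
      _ = ∑ b ∈ P W₀, (P W₁).card :=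
          Finset.sum_congr rfl (fun b hb => hcnt b (fun h => haW₀ (h ▸ hb)) (P W₁) haW₁)
      _ = (P W₀).card * (P W₀).card := by rw [Finset.sum_const, smul_eq_mul, hPW₁card]
  rw [Finset.sum_ite, Finset.sum_const, Finset.sum_const, smul_eq_mul, smul_eq_mul] at hsum
  have hmm : (T.filter (fun s => Wf s = W₁)).card + (T.filter (fun s => ¬ Wf s = W₁)).card =
      T.card := Finset.card_filter_add_card_filter_not _
  rw [hpow1] at hPW₀
  exact arith (Nat.card F) (Nat.card F ^ (n - 2)) (P W₀).card h₂
    (Fintype.card (Projectivization F (Fin n → F))) _ _ hq hQ hPW₀ hh₂ hNcard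
    (by rw [hmm]; exact hTcard) hsum


end Cfsg.Agent.S2531
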