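import Cfsg.Statements.S2532
import Mathlib

set_option autoImplicit false
open Cfsg

namespace Cfsg.Agent.S2532

section Helpers

open Equiv

/-- a large symmetric group centralising a permutation group of small order -/
lemma central_sym (m r : ℕ) (G : Subgroup (Perm (Fin m)))
    (hm : Nat.card G * 2 ^ Nat.card G * r ≤ m) :
    ∃ ρ : Perm (Fin r) →* Perm (Fin m), Function.Injective ρ ∧
      ∀ π, ∀ g ∈ G, ∀ y, ρ π (g y) = g (ρ π y) := by
  classical
  have : Fintype G := Fintype.ofFinite G
  have hinvap : ∀ (f : Perm (Fin m)) (z : Fin m), f⁻¹ (f z) = z := fun f z => f.symm_apply_apply z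
  obtain ⟨c, hc⟩ : ∃ c, c = Nat.card G := ⟨_, rfl⟩
  rw [← hc] at hm
  have hcpos : 0 < c := by rw [hc]; exact Nat.card_pos
  let T : Finset (Fin m) := Finset.univ.filter (fun y => ∀ g ∈ G, y ≤ g y)
  have hT : ∀ y, y ∈ T ↔ ∀ g ∈ G, y ≤ g y := by
    intro y; simp [T]
  have h1 : ∀ z : Fin m, ∃ t ∈ T, ∃ g ∈ G, g t = z := by
    intro z
    obtain ⟨g0, -, hmin⟩ := Finset.exists_min_image (Finset.univ : Finset G)
      (fun g => (g : Perm (Fin m)) z) ⟨1, Finset.mem_univ _⟩
    refine ⟨(g0 : Perm _) z, ?_, (g0 : Perm _)⁻¹, G.inv_mem g0.2, by simp⟩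
    rw [hT]
    intro g hg
    have := hmin ⟨g * g0, G.mul_mem hg g0.2⟩ (Finset.mem_univ _)
    simpa using this
  have h2 : m ≤ T.card * c := by
    have hsurj : Function.Surjective (fun p : T × G => (p.2 : Perm (Fin m)) (p.1 : Fin m)) := by
      intro z
      obtain ⟨t, ht, g, hg, rfl⟩ := h1 z
      exact ⟨(⟨t, ht⟩, ⟨g, hg⟩), rfl⟩
    have := Fintype.card_le_of_surjective _ hsurj
    rw [Fintype.card_prod, Fintype.card_fin, Fintype.card_coe, ← Nat.card_eq_fintype_card,
      ← hc] at this
    exact this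
  have h3 : ∀ t ∈ T, ∀ t' ∈ T, ∀ g ∈ G, g t = t' → t = t' := by
    intro t ht t' ht' g hg hgt
    rw [hT] at ht ht'
    have a1 := ht g hg
    have a2 := ht' g⁻¹ (G.inv_mem hg)
    rw [← hgt] at a2
    rw [hinvap] at a2
    rw [hgt] at a1 a2
    exact le_antisymm a1 a2
  let F : T → (G → Bool) := fun t g => decide ((g : Perm (Fin m)) (t : Fin m) = t)
  have hcard : Fintype.card (G → Bool) * r ≤ Fintype.card T := by
    rw [Fintype.card_fun, Fintype.card_bool, Fintype.card_coe, ← Nat.card_eq_fintype_card, ← hc]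
    by_contra hlt
    push Not at hlt
    have : T.card * c < 2 ^ c * r * c := Nat.mul_lt_mul_of_pos_right hlt hcpos
    nlinarith
  obtain ⟨b, hb⟩ := Fintype.exists_le_card_fiber_of_mul_le_card F hcard
  obtain ⟨s, hs, hsr⟩ := Finset.exists_subset_card_eq hb
  let e : Fin r ≃ s := (Finset.equivFinOfCardEq hsr).symm
  let x : Fin r → Fin m := fun i => (((e i : s) : T) : Fin m)
  have hxT : ∀ i, x i ∈ T := fun i => ((e i : s) : T).2
  have hxinj : Function.Injective x := by
    intro i j hij
    have : ((e i : s) : T) = ((e j : s) : T) := Subtype.ext hij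
    exact e.injective (Subtype.ext this)
  have hxF : ∀ i, F ((e i : s) : T) = b := by
    intro i
    have := hs (e i).2
    simpa using this
  have hstab : ∀ i j, ∀ g ∈ G, g (x i) = x i → g (x j) = x j := by
    intro i j g hg h
    have h1 := congrFun (hxF i) ⟨g, hg⟩
    have h2 := congrFun (hxF j) ⟨g, hg⟩
    have h3 : decide (g (x i) = x i) = decide (g (x j) = x j) := h1.trans h2.symm
    have h4 : decide (g (x i) = x i) = true := by simpa using h
    rw [h4] at h3
    simpa using h3.symm
  have horb : ∀ i j, ∀ g ∈ G, g (x i) = x j → i = j := by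
    intro i j g hg h
    exact hxinj (h3 _ (hxT i) _ (hxT j) g hg h)
  let rho : Perm (Fin r) → Fin m → Fin m := fun π y =>
    if h : ∃ p : Fin r × G, (p.2 : Perm (Fin m)) (x p.1) = y then
      (h.choose.2 : Perm (Fin m)) (x (π h.choose.1)) else y
  have key : ∀ π i, ∀ g ∈ G, rho π (g (x i)) = g (x (π i)) := by
    intro π i g hg
    have h : ∃ p : Fin r × G, (p.2 : Perm (Fin m)) (x p.1) = g (x i) := ⟨(i, ⟨g, hg⟩), rfl⟩
    have hspec := h.choose_spec
    have hr : rho π (g (x i)) = (h.choose.2 : Perm (Fin m)) (x (π h.choose.1)) := dif_pos h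
    rw [hr]
    obtain ⟨⟨j, g'⟩, hp⟩ : ∃ p : Fin r × G, p = h.choose := ⟨_, rfl⟩
    rw [← hp] at hspec ⊢
    simp only at hspec ⊢
    have hmem : g⁻¹ * (g' : Perm (Fin m)) ∈ G := G.mul_mem (G.inv_mem hg) g'.2
    have hji : j = i := horb j i _ hmem (by rw [Perm.mul_apply, hspec, hinvap])
    subst hji
    have := hstab j (π j) _ hmem (by rw [Perm.mul_apply, hspec, hinvap])
    rw [Perm.mul_apply, Perm.inv_eq_iff_eq] at this
    exact this
  have key1 : ∀ π i, rho π (x i) = x (π i) := fun π i => key π i 1 G.one_mem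
  have out : ∀ π y, (¬ ∃ p : Fin r × G, (p.2 : Perm (Fin m)) (x p.1) = y) → rho π y = y :=
    fun π y h => dif_neg h
  have comp : ∀ π π' y, rho π (rho π' y) = rho (π * π') y := by
    intro π π' y
    by_cases h : ∃ p : Fin r × G, (p.2 : Perm (Fin m)) (x p.1) = y
    · obtain ⟨⟨i, g⟩, rfl⟩ := h
      simp only
      rw [key π' i _ g.2, key π _ _ g.2, key (π * π') i _ g.2]
      rfl
    · rw [out π' y h, out π y h, out (π * π') y h]
  have one : ∀ y, rho 1 y = y := by
    intro y
    by_cases h : ∃ p : Fin r × G, (p.2 : Perm (Fin m)) (x p.1) = y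
    · obtain ⟨⟨i, g⟩, rfl⟩ := h
      simp only
      rw [key 1 i _ g.2]
      rfl
    · exact out 1 y h
  let ρ : Perm (Fin r) →* Perm (Fin m) :=
    { toFun := fun π => ⟨rho π, rho π⁻¹, fun y => by rw [comp, inv_mul_cancel, one],
        fun y => by rw [comp, mul_inv_cancel, one]⟩
      map_one' := Equiv.ext one
      map_mul' := fun π π' => Equiv.ext (fun y => (comp π π' y).symm) }
  have hρ : ∀ π y, ρ π y = rho π y := fun π y => rfl
  refine ⟨ρ, ?_, ?_⟩
  · rw [injective_iff_map_eq_one]
    intro π hπ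
    ext i
    have h1 : ρ π (x i) = x i := by rw [hπ]; rfl
    rw [hρ, key1] at h1
    rw [hxinj h1]
    rfl
  · intro π g hg y
    rw [hρ, hρ]
    by_cases h : ∃ p : Fin r × G, (p.2 : Perm (Fin m)) (x p.1) = y
    · obtain ⟨⟨i, g'⟩, rfl⟩ := h
      simp only
      rw [key π i _ g'.2, ← Perm.mul_apply, key π i _ (G.mul_mem hg g'.2), Perm.mul_apply]
    · have h' : ¬ ∃ p : Fin r × G, (p.2 : Perm (Fin m)) (x p.1) = g y := by
        rintro ⟨⟨i, g'⟩, hp⟩
        apply h
        refine ⟨(i, ⟨g⁻¹ * g', G.mul_mem (G.inv_mem hg) g'.2⟩), ?_⟩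
        simp only at hp ⊢
        rw [Perm.mul_apply, hp, hinvap]
      rw [out π y h, out π (g y) h']

end Helpers

/-- There is a function `f` of two natural-number arguments such that, whenever `m ≥ f(n, r)`, every subgroup of order `n` of the alternating group of degree `m` centralizes some subgroup of that alternating group isomorphic to the alternating group of degree `r`. -/
theorem result :
    ∃ f : ℕ → ℕ → ℕ, ∀ (m r : ℕ) (H : Subgroup ↥(alternatingGroup (Fin m))), f (Nat.card H) r ≤ m →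
      ∃ K : Subgroup ↥(alternatingGroup (Fin m)), Nonempty (↥K ≃* ↥(alternatingGroup (Fin r))) ∧
        K ≤ Subgroup.centralizer (H : Set ↥(alternatingGroup (Fin m))) := by
  classical
  refine ⟨fun c r => c * 2 ^ c * r, ?_⟩
  intro m r H hm
  have hcard : Nat.card (H.map (alternatingGroup (Fin m)).subtype) = Nat.card H :=
    Subgroup.card_map_of_injective (Subgroup.subtype_injective _)
  obtain ⟨ρ, hinj, hcomm⟩ := central_sym m r (H.map (alternatingGroup (Fin m)).subtype)
    (by rw [hcard]; exact hm)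
  -- images of even permutations are even
  have heven : ∀ a ∈ alternatingGroup (Fin r), ρ a ∈ alternatingGroup (Fin m) := by
    have hle : alternatingGroup (Fin r) ≤ (Equiv.Perm.sign.comp ρ).ker := by
      rw [← Equiv.Perm.closure_three_cycles_eq_alternating, Subgroup.closure_le]
      intro σ hσ
      have h3 : σ ^ 3 = 1 := by
        have := hσ.orderOf
        rw [← this]; exact pow_orderOf_eq_one σ
      show σ ∈ (Equiv.Perm.sign.comp ρ).ker
      rw [MonoidHom.mem_ker]
      have h4 : ((Equiv.Perm.sign.comp ρ) σ) ^ 3 = 1 := by rw [← map_pow, h3, map_one]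
      have h5 := Int.units_sq ((Equiv.Perm.sign.comp ρ) σ)
      calc (Equiv.Perm.sign.comp ρ) σ = ((Equiv.Perm.sign.comp ρ) σ) ^ 3 := by
            rw [pow_succ, h5, one_mul]
        _ = 1 := h4
    intro a ha
    have := hle ha
    rw [MonoidHom.mem_ker] at this
    exact Equiv.Perm.mem_alternatingGroup.mpr this
  let ρA : alternatingGroup (Fin r) →* alternatingGroup (Fin m) :=
    (ρ.comp (alternatingGroup (Fin r)).subtype).codRestrict (alternatingGroup (Fin m))
      (fun a => heven a a.2)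
  have hρA : Function.Injective ρA := by
    intro a b hab
    have : ρ a = ρ b := congrArg Subtype.val hab
    exact Subtype.ext (hinj this)
  refine ⟨ρA.range, ⟨(MonoidHom.ofInjective hρA).symm⟩, ?_⟩
  rintro _ ⟨a, rfl⟩
  rw [Subgroup.mem_centralizer_iff]
  intro h hh
  apply Subtype.ext
  apply Equiv.ext
  intro y
  show (h : Equiv.Perm (Fin m)) (ρ a y) = ρ a ((h : Equiv.Perm (Fin m)) y)
  exact (hcomm a (h : Equiv.Perm (Fin m)) ⟨h, hh, rfl⟩ y).symm

end Cfsg.Agent.S2532
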