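import Cfsg.Statements.S2533
import Cfsg.Agent.Lib.helper2.DihEmb

set_option autoImplicit false
open Cfsg

namespace Cfsg.Agent.S2533

/-- For every odd prime `p` there is a finite group `H` of order `2p³` which, for infinitely many `n`, embeds in the projective special linear group `PSL(n, p)` as a subgroup with trivial centralizer. -/
theorem result
    (p : ℕ) [Fact p.Prime] (hp : p ≠ 2) :
    ∃ (H : Type) (_ : Group H) (_ : Finite H), Nat.card H = 2 * p ^ 3 ∧
      ∀ N : ℕ, ∃ n, N ≤ n ∧ ∃ φ : H →* Matrix.ProjectiveSpecialLinearGroup (Fin n) (ZMod p),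
        Function.Injective φ ∧ Subgroup.centralizer (φ.range : Set (Matrix.ProjectiveSpecialLinearGroup (Fin n) (ZMod p))) = ⊥ := by
  have : NeZero p := ⟨(Fact.out : p.Prime).ne_zero⟩
  refine ⟨Cfsg.Agent.Lib.helper2.DihEmb.GD p, inferInstance, inferInstance,
    Cfsg.Agent.Lib.helper2.DihEmb.GD.card, fun N => ?_⟩
  refine ⟨2 * (N + 2) + 1, by omega, Cfsg.Agent.Lib.helper2.DihEmb.phi p (N + 2), ?_, ?_⟩
  · exact Cfsg.Agent.Lib.helper2.DihEmb.phi_inj p (N + 2) hp (by omega)
  · exact Cfsg.Agent.Lib.helper2.DihEmb.phi_cent p (N + 2) hp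

end Cfsg.Agent.S2533
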