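import Cfsg.Statements.S2540
import Mathlib
import Cfsg.Agent.Lib.helper13.SLSimple

set_option autoImplicit false
open Cfsg

open Cfsg.Agent.Lib.helper13

namespace Cfsg.Agent.S2540

section Helpers

open Matrix Matrix.SpecialLinearGroup in
theorem exists_sq_ne_one {F : Type*} [Field F] (hF : 4 ≤ Nat.card F) :
    ∃ a : F, a ≠ 0 ∧ a ^ 2 ≠ 1 := by
  have : Finite F := (Nat.card_pos_iff.1 (by omega)).2
  obtain ⟨x, hx⟩ : IsCyclic Fˣ := by infer_instance
  refine ⟨x, Units.ne_zero x, fun h ↦ ?_⟩
  grw [Nat.card_eq_card_units_add_one F, ← orderOf_eq_card_of_forall_mem_zpowers hx,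
    orderOf_le_of_pow_eq_one zero_lt_two (Units.ext <| by simpa using h)] at hF
  omega

open scoped commutatorElement in
theorem comm_mul_of_central {H : Type*} [Group H] (g s t : H)
    (ht : ⁅t, g⁆ ∈ Subgroup.center H) :
    ⁅s * t, g⁆ = ⁅s, g⁆ * ⁅t, g⁆ := by
  have h1 : ⁅s * t, g⁆ = s * ⁅t, g⁆ * s⁻¹ * ⁅s, g⁆ := by
    simp only [commutatorElement_def]; group
  rw [h1, Subgroup.mem_center_iff.mp ht s, mul_inv_cancel_right,
    Subgroup.mem_center_iff.mp ht ⁅s, g⁆]

open Matrix Matrix.SpecialLinearGroup in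
open scoped commutatorElement in
theorem core {ι F : Type*} [DecidableEq ι] [Fintype ι] [Field F]
    (hperf : commutator (SpecialLinearGroup ι F) = ⊤)
    (hsimp : IsSimpleGroup (ProjectiveSpecialLinearGroup ι F))
    (G : Subgroup (GL ι F))
    (hG : ∀ s : SpecialLinearGroup ι F, ∀ g ∈ G, toGL s * g * (toGL s)⁻¹ ∈ G) :
    (∀ g ∈ G, ∃ c : F, (g : Matrix ι ι F) = c • (1 : Matrix ι ι F)) ∨
      (toGL : SpecialLinearGroup ι F →* _).range ≤ G := by
  let N : Subgroup (SpecialLinearGroup ι F) := G.comap toGL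
  have hN : N.Normal := ⟨fun t ht s => by
    show toGL (s * t * s⁻¹) ∈ G
    rw [map_mul, map_mul, map_inv]; exact hG s _ ht⟩
  have hmapN : (N.map (QuotientGroup.mk' (Subgroup.center (SpecialLinearGroup ι F)))).Normal :=
    hN.map _ (QuotientGroup.mk'_surjective _)
  rcases hmapN.eq_bot_or_eq_top with h | h
  · left
    have hNc : N ≤ Subgroup.center (SpecialLinearGroup ι F) := by
      intro t ht
      have h1 : QuotientGroup.mk' (Subgroup.center (SpecialLinearGroup ι F)) t ∈
          N.map (QuotientGroup.mk' (Subgroup.center (SpecialLinearGroup ι F))) :=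
        Subgroup.mem_map_of_mem _ ht
      rw [h, Subgroup.mem_bot] at h1
      exact (QuotientGroup.eq_one_iff t).mp h1
    intro g hg
    have hcen : ∀ s : SpecialLinearGroup ι F, ⁅toGL s, g⁆ ∈ Subgroup.center (GL ι F) := by
      intro s
      have hxG : ⁅toGL s, g⁆ ∈ G := by
        rw [commutatorElement_def]
        exact G.mul_mem (hG s g hg) (G.inv_mem hg)
      have hdet : Matrix.det ((⁅toGL s, g⁆ : GL ι F) : Matrix ι ι F) = 1 := by
        have h1 : Matrix.GeneralLinearGroup.det ⁅toGL s, g⁆ = 1 := by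
          rw [map_commutatorElement]
          exact commutatorElement_eq_one_iff_mul_comm.mpr (mul_comm _ _)
        have h2 : ((Matrix.GeneralLinearGroup.det ⁅toGL s, g⁆ : Fˣ) : F) = 1 := by rw [h1]; rfl
        exact h2
      let t : SpecialLinearGroup ι F := ⟨((⁅toGL s, g⁆ : GL ι F) : Matrix ι ι F), hdet⟩
      have htG : toGL t = ⁅toGL s, g⁆ := Units.ext rfl
      have htN : t ∈ N := by
        show toGL t ∈ G
        rw [htG]; exact hxG
      obtain ⟨r, -, hr⟩ := Matrix.SpecialLinearGroup.mem_center_iff.mp (hNc htN)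
      rw [Subgroup.mem_center_iff]
      intro y
      apply Units.ext
      have hr' : ((⁅toGL s, g⁆ : GL ι F) : Matrix ι ι F) = Matrix.scalar ι r := hr.symm
      rw [Units.val_mul, Units.val_mul, hr']
      exact ((Matrix.scalar_commute r (fun _ => Commute.all _ _) (y : Matrix ι ι F)).eq).symm
    let c : SpecialLinearGroup ι F →* Subgroup.center (GL ι F) :=
      MonoidHom.mk' (fun s => ⟨⁅toGL s, g⁆, hcen s⟩) (by
        intro s t
        apply Subtype.ext
        show ⁅toGL (s * t), g⁆ = ⁅toGL s, g⁆ * ⁅toGL t, g⁆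
        rw [map_mul]
        exact comm_mul_of_central g _ _ (hcen t))
    have hker : c.ker = ⊤ := by
      have h0 : commutator (SpecialLinearGroup ι F) ≤ c.ker := by
        rw [commutator_def, Subgroup.commutator_le]
        intro a _ b _
        rw [MonoidHom.mem_ker, map_commutatorElement]
        exact commutatorElement_eq_one_iff_mul_comm.mpr
          (Subtype.ext (Subgroup.mem_center_iff.mp (c b).2 (c a).1))
      rw [hperf] at h0
      exact top_le_iff.mp h0
    have hcomm : ∀ s : SpecialLinearGroup ι F, toGL s * g = g * toGL s := by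
      intro s
      have h1 : s ∈ c.ker := by rw [hker]; exact Subgroup.mem_top s
      have h2 : c s = 1 := h1
      have h3 : ⁅toGL s, g⁆ = 1 := congrArg Subtype.val h2
      exact commutatorElement_eq_one_iff_mul_comm.mp h3
    have hsc := Matrix.mem_range_scalar_of_commute_transvectionStruct
      (M := (g : Matrix ι ι F)) (fun t => by
        have h1 := hcomm ⟨t.toMatrix, by simp⟩
        have h2 := congrArg (fun u : GL ι F => (u : Matrix ι ι F)) h1
        exact h2)
    obtain ⟨r, hr⟩ := hsc
    refine ⟨r, ?_⟩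
    rw [← hr]
    ext i j
    simp [Matrix.one_apply, Matrix.diagonal_apply]
  · right
    have hsup : N ⊔ Subgroup.center (SpecialLinearGroup ι F) = ⊤ := by
      have h1 := Subgroup.comap_map_eq (QuotientGroup.mk' (Subgroup.center (SpecialLinearGroup ι F))) N
      rw [h, Subgroup.comap_top, QuotientGroup.ker_mk'] at h1
      exact h1.symm
    have h2 := hN.commutator_le_of_self_sup_commutative_eq_top hsup inferInstance
    rw [hperf] at h2
    rintro _ ⟨s, rfl⟩
    exact h2 (Subgroup.mem_top s)

end Helpers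

/-- Let F be a finite field and n ≥ 1, excluding the case n = 2 with #F ≤ 3. A subgroup of GL_n(F) that is normalized by every element of SL_n(F) either consists of scalar matrices or contains SL_n(F). -/
theorem result {F : Type*} [Field F] [Fintype F] (n : ℕ) (hn : 1 ≤ n) (hex : ¬ (n = 2 ∧ Fintype.card F ≤ 3)) (G : Subgroup (Matrix.GeneralLinearGroup (Fin n) F)) (hG : ∀ s : Matrix.SpecialLinearGroup (Fin n) F, ∀ g ∈ G, (Matrix.SpecialLinearGroup.toGL s) * g * (Matrix.SpecialLinearGroup.toGL s)⁻¹ ∈ G) : (∀ g ∈ G, ∃ c : F, (g : Matrix (Fin n) (Fin n) F) = c • (1 : Matrix (Fin n) (Fin n) F)) ∨ (Matrix.SpecialLinearGroup.toGL : Matrix.SpecialLinearGroup (Fin n) F →* _).range ≤ G := by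
  rcases Nat.lt_or_ge n 3 with h3 | h3
  · rcases Nat.lt_or_ge n 2 with h2 | h2
    · have h1 : n = 1 := by omega
      subst h1
      left
      intro g _
      refine ⟨(g : Matrix (Fin 1) (Fin 1) F) 0 0, ?_⟩
      ext i j
      fin_cases i; fin_cases j
      simp
    · have h2' : n = 2 := by omega
      subst h2'
      have hF : 4 ≤ Nat.card F := by
        rw [Nat.card_eq_fintype_card]
        by_contra hlt
        exact hex ⟨rfl, by omega⟩
      obtain ⟨a, ha, hasq⟩ := exists_sq_ne_one hF
      exact core (Matrix.SL2.commutator_eq_top ha hasq)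
        (Matrix.ProjectiveSpecialLinearGroup.rank_two_simple hF) G hG
  · have hc : 3 ≤ Fintype.card (Fin n) := by simpa using h3
    exact core (SLSimple.commutator_eq_top hc) (SLSimple.PSL_simple hc) G hG

end Cfsg.Agent.S2540
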