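import Cfsg.Statements.S2541
import Mathlib

set_option autoImplicit false
open Cfsg

namespace Cfsg.Agent.S2541

lemma eight_dvd_lcm {a b : ℕ} (h : 8 ∣ Nat.lcm a b) : 8 ∣ a ∨ 8 ∣ b := by
  rcases Nat.eq_zero_or_pos a with rfl | ha
  · left; exact dvd_zero 8
  rcases Nat.eq_zero_or_pos b with rfl | hb
  · right; exact dvd_zero 8
  have h8 : (8 : ℕ) = 2 ^ 3 := by norm_num
  rw [h8] at h ⊢
  have hl : Nat.lcm a b ≠ 0 := Nat.lcm_ne_zero ha.ne' hb.ne'
  rw [Nat.prime_two.pow_dvd_iff_le_factorization hl, Nat.factorization_lcm ha.ne' hb.ne'] at h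
  rw [Nat.prime_two.pow_dvd_iff_le_factorization ha.ne', Nat.prime_two.pow_dvd_iff_le_factorization hb.ne']
  simp only [Finsupp.sup_apply] at h
  exact le_sup_iff.mp h

lemma eight_dvd_multiset_lcm (s : Multiset ℕ) (h : 8 ∣ s.lcm) : ∃ a ∈ s, 8 ∣ a := by
  induction s using Multiset.induction with
  | empty => simp at h
  | cons a s ih =>
    rw [Multiset.lcm_cons] at h
    rcases eight_dvd_lcm h with h1 | h1
    · exact ⟨a, Multiset.mem_cons_self a s, h1⟩
    · obtain ⟨b, hb, hb8⟩ := ih h1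
      exact ⟨b, Multiset.mem_cons_of_mem hb, hb8⟩

lemma no_order_eight (σ : Equiv.Perm (Fin 6)) : orderOf σ ≠ 8 := by
  intro h
  have h1 : 8 ∣ σ.cycleType.lcm := by rw [Equiv.Perm.lcm_cycleType, h]
  obtain ⟨a, ha, ha8⟩ := eight_dvd_multiset_lcm _ h1
  have h2 : a ≤ σ.support.card := Equiv.Perm.le_card_support_of_mem_cycleType ha
  have h3 : σ.support.card ≤ Fintype.card (Fin 6) := Finset.card_le_univ _
  rw [Fintype.card_fin] at h3
  have h4 : 0 < a := by
    have := Equiv.Perm.two_le_of_mem_cycleType ha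
    omega
  have := Nat.le_of_dvd h4 ha8
  omega

section
variable {F : Type*} [Field F]

def diagHom : F →* Matrix (Fin 2) (Fin 2) F where
  toFun x := Matrix.diagonal ![x, 1]
  map_one' := by
    ext i j
    fin_cases i <;> fin_cases j <;> simp
  map_mul' x y := by
    rw [Matrix.diagonal_mul_diagonal]
    congr 1
    ext i
    fin_cases i <;> simp

def toPGL : Fˣ →* Matrix.ProjGenLinGroup (Fin 2) F :=
  (Matrix.ProjGenLinGroup.mk).comp (Units.map diagHom)

lemma toPGL_injective : Function.Injective (toPGL (F := F)) := by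
  rw [injective_iff_map_eq_one]
  intro u hu
  have h1 : Units.map diagHom u ∈ Subgroup.center (GL (Fin 2) F) := by
    rw [← Matrix.ProjGenLinGroup.mk_eq_one]
    exact hu
  rw [Matrix.GeneralLinearGroup.mem_center_iff_val_mem_range_scalar] at h1
  obtain ⟨c, hc⟩ := h1
  have h00 := congrFun (congrFun hc 0) 0
  have h11 := congrFun (congrFun hc 1) 1
  simp [diagHom] at h00 h11
  ext
  rw [← h00, h11]
  rfl

end

/-- Let F be a field with 9 elements. The symmetric group S_6 is not isomorphic to PGL_2(F) (although both have index-2 subgroups isomorphic to A_6). -/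
theorem result {F : Type*} [Field F] [Fintype F] (hF : Fintype.card F = 9) : ¬ Nonempty (Equiv.Perm (Fin 6) ≃* Matrix.ProjGenLinGroup (Fin 2) F) := by
  rintro ⟨e⟩
  obtain ⟨ζ, hζ⟩ := IsCyclic.exists_generator (α := Fˣ)
  have hord : orderOf ζ = 8 := by
    rw [orderOf_eq_card_of_forall_mem_zpowers hζ, Nat.card_units, Nat.card_eq_fintype_card, hF]
  have h1 : orderOf (toPGL ζ) = 8 := by
    rw [orderOf_injective toPGL toPGL_injective, hord]
  have h2 : orderOf (e.symm (toPGL ζ)) = 8 := by
    rw [MulEquiv.orderOf_eq, h1]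
  exact no_order_eight _ h2

end Cfsg.Agent.S2541
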