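import Cfsg.Statements.S2550
import Mathlib

set_option autoImplicit false
open Cfsg

namespace Cfsg.Agent.S2550

section Helpers

open Matrix

theorem card_GL_eq' (F : Type*) [Field F] [Fintype F] (n : ℕ) (hn : 1 ≤ n) :
    Nat.card (GL (Fin n) F) = (Fintype.card F - 1) * Nat.card (SpecialLinearGroup (Fin n) F) := by
  classical
  have : Nonempty (Fin n) := ⟨⟨0, hn⟩⟩
  have h1 := Subgroup.card_mul_index (Matrix.GeneralLinearGroup.det (n := Fin n) (R := F)).ker
  rw [Subgroup.index_ker, MonoidHom.range_eq_top.2 Matrix.GeneralLinearGroup.det_surjective,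
    Subgroup.card_top, Nat.card_units, Nat.card_eq_fintype_card (α := F)] at h1
  have h2 : Nat.card (Matrix.GeneralLinearGroup.det (n := Fin n) (R := F)).ker
      = Nat.card (SpecialLinearGroup (Fin n) F) := by
    symm
    apply Nat.card_eq_of_bijective (fun A : SpecialLinearGroup (Fin n) F =>
      (⟨Matrix.SpecialLinearGroup.toGL A, by simp [MonoidHom.mem_ker]⟩ :
        (Matrix.GeneralLinearGroup.det (n := Fin n) (R := F)).ker))
    constructor
    · intro A B h
      exact Matrix.SpecialLinearGroup.toGL_injective (congrArg Subtype.val h)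
    · rintro ⟨g, hg⟩
      have hdet : (g : Matrix (Fin n) (Fin n) F).det = 1 := by
        have := congrArg Units.val (MonoidHom.mem_ker.1 hg)
        simpa using this
      exact ⟨⟨g.1, hdet⟩, Subtype.ext (Units.ext rfl)⟩
  rw [h2] at h1
  rw [← h1, mul_comm]

theorem card_PSL' (F : Type*) [Field F] [Fintype F] (n : ℕ) (hn : 1 ≤ n) :
    Nat.gcd n (Fintype.card F - 1) * ((Fintype.card F - 1)
      * Nat.card (ProjectiveSpecialLinearGroup (Fin n) F))
      = ∏ i : Fin n, (Fintype.card F ^ n - Fintype.card F ^ (i : ℕ)) := by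
  classical
  have hSL : (Fintype.card F - 1) * Nat.card (SpecialLinearGroup (Fin n) F)
      = ∏ i : Fin n, (Fintype.card F ^ n - Fintype.card F ^ (i : ℕ)) := by
    rw [← card_GL_eq' F n hn, Matrix.card_GL_field]
  have hZ : Nat.card (Subgroup.center (SpecialLinearGroup (Fin n) F))
      = Nat.gcd n (Fintype.card F - 1) := by
    have e := Matrix.SpecialLinearGroup.center_equiv_rootsOfUnity' (n := Fin n) (R := F) ⟨0, hn⟩
    rw [Nat.card_congr e.toEquiv, Fintype.card_fin, rootsOfUnity_eq_ker,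
      IsCyclic.card_powMonoidHom_ker, Nat.card_units, Nat.card_eq_fintype_card (α := F),
      Nat.gcd_comm]
  rw [← hSL, ← hZ]
  have h := Subgroup.card_eq_card_quotient_mul_card_subgroup
    (Subgroup.center (SpecialLinearGroup (Fin n) F))
  rw [h]
  ring

/-- normal form of a nonzero square-zero `3 × 3` matrix -/
theorem nf_sq_zero {K : Type*} [Field K] (N : Matrix (Fin 3) (Fin 3) K) (hN : N ≠ 0)
    (hNN : N * N = 0) :
    ∃ P P' : Matrix (Fin 3) (Fin 3) K, P * P' = 1 ∧ P' * P = 1 ∧
      N * P = P * Matrix.single 0 2 1 := by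
  classical
  obtain ⟨v, hv⟩ : ∃ v : Fin 3 → K, N *ᵥ v ≠ 0 := by
    by_contra hcon
    push Not at hcon
    apply hN
    ext i j
    have := congrFun (hcon (Pi.single j 1)) i
    rw [Matrix.mulVec_single_one] at this
    simpa using this
  set u : Fin 3 → K := N *ᵥ v with hu
  have hNu : N *ᵥ u = 0 := by
    rw [hu, Matrix.mulVec_mulVec, hNN, Matrix.zero_mulVec]
  let f : (Fin 3 → K) →ₗ[K] (Fin 3 → K) := Matrix.mulVecLin N
  have hrk : LinearMap.range f ≤ LinearMap.ker f := by
    rintro _ ⟨x, rfl⟩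
    rw [LinearMap.mem_ker]
    show N *ᵥ (N *ᵥ x) = 0
    rw [Matrix.mulVec_mulVec, hNN, Matrix.zero_mulVec]
  have hker : 2 ≤ Module.finrank K (LinearMap.ker f) := by
    have h1 := LinearMap.finrank_range_add_finrank_ker f
    have h2 := Submodule.finrank_mono hrk
    have h3 : Module.finrank K (Fin 3 → K) = 3 := by simp
    omega
  obtain ⟨w, hwk, hwu⟩ : ∃ w ∈ LinearMap.ker f, w ∉ Submodule.span K {u} := by
    by_contra hcon
    push Not at hcon
    have h1 : LinearMap.ker f ≤ Submodule.span K {u} := hcon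
    have h2 := Submodule.finrank_mono h1
    have h3 : Module.finrank K (Submodule.span K {u}) ≤ 1 := by
      have := finrank_span_le_card (R := K) ({u} : Set (Fin 3 → K))
      simpa using this
    omega
  have hNw : N *ᵥ w = 0 := hwk
  let P : Matrix (Fin 3) (Fin 3) K := Matrix.of (fun i j => ![u, w, v] j i)
  have hcol : P.col = ![u, w, v] := by
    funext j i
    rfl
  have hli : LinearIndependent K P.col := by
    rw [hcol, Fintype.linearIndependent_iff]
    intro g hg
    rw [Fin.sum_univ_three] at hg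
    simp only [Matrix.cons_val_zero, Matrix.cons_val_one, Matrix.cons_val_two] at hg
    have h1 := congrArg (fun x => N *ᵥ x) hg
    simp only [Matrix.mulVec_add, Matrix.mulVec_smul, hNu, hNw, smul_zero, zero_add,
      Matrix.mulVec_zero] at h1
    have hg2 : g 2 = 0 := by
      rcases smul_eq_zero.mp h1 with h | h
      · exact h
      · exact absurd h hv
    rw [hg2, zero_smul, add_zero] at hg
    have hg1 : g 1 = 0 := by
      by_contra hne
      apply hwu
      have : w = (-(g 0) / g 1) • u := by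
        have h2 : g 1 • w = -(g 0 • u) := by
          rw [eq_neg_iff_add_eq_zero, add_comm]; exact hg
        calc w = (g 1)⁻¹ • (g 1 • w) := by rw [smul_smul, inv_mul_cancel₀ hne, one_smul]
          _ = (-(g 0) / g 1) • u := by rw [h2, smul_neg, smul_smul]; rw [← neg_smul]; congr 1; field_simp
      rw [this]
      exact Submodule.smul_mem _ _ (Submodule.mem_span_singleton_self u)
    rw [hg1, zero_smul, add_zero] at hg
    have hg0 : g 0 = 0 := by
      rcases smul_eq_zero.mp hg with h | h
      · exact h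
      · exact absurd h hv
    intro i
    fin_cases i
    · exact hg0
    · exact hg1
    · exact hg2
  have hunit : IsUnit P := Matrix.linearIndependent_cols_iff_isUnit.mp hli
  have hdet : IsUnit P.det := (Matrix.isUnit_iff_isUnit_det P).mp hunit
  refine ⟨P, P⁻¹, Matrix.mul_nonsing_inv P hdet, Matrix.nonsing_inv_mul P hdet, ?_⟩
  ext i j
  have hP0 : ∀ i, P i 0 = u i := fun i => rfl
  have hP1 : ∀ i, P i 1 = w i := fun i => rfl
  have hP2 : ∀ i, P i 2 = v i := fun i => rfl
  have hNP : ∀ j, (N * P) i j = (N *ᵥ (fun k => P k j)) i := fun j => rfl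
  rw [hNP]
  fin_cases j
  · have : (fun k => P k 0) = u := funext hP0
    simp only [Fin.zero_eta]
    rw [this, hNu]
    simp [Matrix.mul_apply, Fin.sum_univ_three, Matrix.single_apply]
  · have : (fun k => P k 1) = w := funext hP1
    simp only [Fin.mk_one]
    rw [this, hNw]
    simp [Matrix.mul_apply, Fin.sum_univ_three, Matrix.single_apply]
  · have : (fun k => P k 2) = v := funext hP2
    show (N *ᵥ (fun k => P k 2)) i = _
    rw [this, ← hu]
    simp [Matrix.mul_apply, Fin.sum_univ_three, Matrix.single_apply, hP0]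

theorem scalar_of_comm_E13 {K : Type*} [Field K] [Fintype K] (hK : Fintype.card K = 4)
    (s : Matrix (Fin 3) (Fin 3) K) (c : K)
    (hcomm : s * Matrix.single 0 2 1 = Matrix.single 0 2 1 * s) (hdet : s.det = 1)
    (hs3 : s * s * s = c • (1 : Matrix (Fin 3) (Fin 3) K)) : ∃ a : K, s = a • (1 : Matrix (Fin 3) (Fin 3) K) := by
  have h2 : (2 : K) = 0 := by
    have h4 : ((Fintype.card K : ℕ) : K) = 0 := FiniteField.cast_card_eq_zero K
    rw [hK] at h4
    have h4' : (2 : K) * 2 = 0 := by
      have : ((4 : ℕ) : K) = 2 * 2 := by norm_num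
      rw [← this]; exact h4
    exact mul_self_eq_zero.mp h4'
  have h10 : s 1 0 = 0 := by
    have := congrFun (congrFun hcomm 1) 2
    simpa [Matrix.mul_apply, Fin.sum_univ_three, Matrix.single_apply] using this
  have h20 : s 2 0 = 0 := by
    have := congrFun (congrFun hcomm 2) 2
    simpa [Matrix.mul_apply, Fin.sum_univ_three, Matrix.single_apply] using this
  have h21 : s 2 1 = 0 := by
    have := congrFun (congrFun hcomm 0) 1
    simp [Matrix.mul_apply, Fin.sum_univ_three, Matrix.single_apply] at this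
    exact this.symm
  have h22 : s 2 2 = s 0 0 := by
    have := congrFun (congrFun hcomm 0) 2
    simp [Matrix.mul_apply, Fin.sum_univ_three, Matrix.single_apply] at this
    exact this.symm
  have hd : s 0 0 * s 1 1 * s 0 0 = 1 := by
    rw [Matrix.det_fin_three, h10, h20, h21, h22] at hdet
    linear_combination hdet
  have ha0 : s 0 0 ≠ 0 := by
    intro h0
    rw [h0] at hd
    simp at hd
  have ha3 : s 0 0 ^ 3 = 1 := by
    have := FiniteField.pow_card_sub_one_eq_one (s 0 0) ha0
    rw [hK] at this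
    exact this
  have h11 : s 1 1 = s 0 0 := by
    have h5 : s 0 0 ^ 2 * (s 1 1 - s 0 0) = 0 := by linear_combination hd - ha3
    rcases mul_eq_zero.mp h5 with h | h
    · exact absurd ((pow_eq_zero_iff two_ne_zero).mp h) ha0
    · exact sub_eq_zero.mp h
  have e01 := congrFun (congrFun hs3 0) 1
  have e12 := congrFun (congrFun hs3 1) 2
  have e02 := congrFun (congrFun hs3 0) 2
  simp [Matrix.mul_apply, Fin.sum_univ_three, h10, h20, h21, h22, h11] at e01 e12 e02
  have hx : s 0 1 = 0 := by
    have h5 : s 0 0 ^ 2 * s 0 1 = 0 := by linear_combination e01 - s 0 0 ^ 2 * s 0 1 * h2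
    rcases mul_eq_zero.mp h5 with h | h
    · exact absurd ((pow_eq_zero_iff two_ne_zero).mp h) ha0
    · exact h
  have hz : s 1 2 = 0 := by
    have h5 : s 0 0 ^ 2 * s 1 2 = 0 := by linear_combination e12 - s 0 0 ^ 2 * s 1 2 * h2
    rcases mul_eq_zero.mp h5 with h | h
    · exact absurd ((pow_eq_zero_iff two_ne_zero).mp h) ha0
    · exact h
  have hy : s 0 2 = 0 := by
    rw [hx, hz] at e02
    have h5 : s 0 0 ^ 2 * s 0 2 = 0 := by linear_combination e02 - s 0 0 ^ 2 * s 0 2 * h2
    rcases mul_eq_zero.mp h5 with h | h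
    · exact absurd ((pow_eq_zero_iff two_ne_zero).mp h) ha0
    · exact h
  refine ⟨s 0 0, ?_⟩
  ext i j
  fin_cases i <;> fin_cases j <;> simp [h10, h20, h21, h22, h11, hx, hy, hz]

/-- a matrix commuting with a nonzero square-zero matrix, of determinant one and scalar cube,
is scalar (over the field of four elements) -/
theorem scalar_of_comm_sq_zero {K : Type*} [Field K] [Fintype K] (hK : Fintype.card K = 4)
    (s N : Matrix (Fin 3) (Fin 3) K) (c : K) (hN : N ≠ 0) (hNN : N * N = 0)
    (hcomm : s * N = N * s) (hdet : s.det = 1)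
    (hs3 : s * s * s = c • (1 : Matrix (Fin 3) (Fin 3) K)) :
    ∃ a : K, s = a • (1 : Matrix (Fin 3) (Fin 3) K) := by
  obtain ⟨P, P', hPP', hP'P, hNP⟩ := nf_sq_zero N hN hNN
  have hE : P' * N * P = Matrix.single 0 2 1 := by
    rw [mul_assoc, hNP, ← mul_assoc, hP'P, one_mul]
  have hN' : N = P * Matrix.single 0 2 1 * P' := by
    rw [← hNP, mul_assoc, hPP', mul_one]
  have h1 : (P' * s * P) * Matrix.single 0 2 1 = Matrix.single 0 2 1 * (P' * s * P) := by
    rw [← hE]
    calc P' * s * P * (P' * N * P) = P' * s * (P * P') * N * P := by simp only [mul_assoc]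
      _ = P' * (s * N) * P := by rw [hPP', mul_one]; simp only [mul_assoc]
      _ = P' * (N * s) * P := by rw [hcomm]
      _ = P' * N * (P * P') * s * P := by rw [hPP', mul_one]; simp only [mul_assoc]
      _ = P' * N * P * (P' * s * P) := by simp only [mul_assoc]
  have h2 : (P' * s * P).det = 1 := by
    rw [Matrix.det_mul, Matrix.det_mul, mul_comm (P'.det), mul_assoc, ← Matrix.det_mul, hP'P] at *
    rw [Matrix.det_one, mul_one]
    exact hdet
  have h3 : (P' * s * P) * (P' * s * P) * (P' * s * P) = c • (1 : Matrix (Fin 3) (Fin 3) K) := by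
    calc (P' * s * P) * (P' * s * P) * (P' * s * P)
        = P' * s * (P * P') * s * (P * P') * s * P := by simp only [mul_assoc]
      _ = P' * (s * s * s) * P := by rw [hPP', mul_one, mul_one]; simp only [mul_assoc]
      _ = c • (1 : Matrix (Fin 3) (Fin 3) K) := by
          rw [hs3, Matrix.mul_smul, Matrix.smul_mul, mul_one, hP'P]
  obtain ⟨a, ha⟩ := scalar_of_comm_E13 hK (P' * s * P) c h1 h2 h3
  refine ⟨a, ?_⟩
  calc s = (P * P') * s * (P * P') := by rw [hPP', one_mul, mul_one]
    _ = P * (P' * s * P) * P' := by simp only [mul_assoc]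
    _ = a • (1 : Matrix (Fin 3) (Fin 3) K) := by
        rw [ha, Matrix.mul_smul, Matrix.smul_mul, mul_one, hPP']

/-- `PSL₃(4)` has no element of order 6 -/
theorem no_order_six {K : Type*} [Field K] [Fintype K] (hK : Fintype.card K = 4)
    (x : Matrix.ProjectiveSpecialLinearGroup (Fin 3) K) (h6 : x ^ 6 = 1) (h2 : x ^ 2 ≠ 1)
    (h3 : x ^ 3 ≠ 1) : False := by
  classical
  have htwo : (2 : K) = 0 := by
    have h4 : ((Fintype.card K : ℕ) : K) = 0 := FiniteField.cast_card_eq_zero K
    rw [hK] at h4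
    have h4' : (2 : K) * 2 = 0 := by
      have : ((4 : ℕ) : K) = 2 * 2 := by norm_num
      rw [← this]; exact h4
    exact mul_self_eq_zero.mp h4'
  have hcube : ∀ a : K, a ≠ 0 → a ^ 3 = 1 := by
    intro a ha
    have := FiniteField.pow_card_sub_one_eq_one a ha
    rw [hK] at this
    exact this
  obtain ⟨g, rfl⟩ := QuotientGroup.mk_surjective x
  have hc6 : g ^ 6 ∈ Subgroup.center (Matrix.SpecialLinearGroup (Fin 3) K) :=
    (QuotientGroup.eq_one_iff _).mp h6
  have hc2 : g ^ 2 ∉ Subgroup.center (Matrix.SpecialLinearGroup (Fin 3) K) :=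
    fun h => h2 ((QuotientGroup.eq_one_iff _).mpr h)
  have hc3 : g ^ 3 ∉ Subgroup.center (Matrix.SpecialLinearGroup (Fin 3) K) :=
    fun h => h3 ((QuotientGroup.eq_one_iff _).mpr h)
  obtain ⟨c, hc, hcA⟩ := Matrix.SpecialLinearGroup.mem_center_iff.mp hc6
  set A : Matrix (Fin 3) (Fin 3) K := (g : Matrix (Fin 3) (Fin 3) K) with hA
  have hA6 : A ^ 6 = c • (1 : Matrix (Fin 3) (Fin 3) K) := by
    rw [hA, ← Matrix.SpecialLinearGroup.coe_pow, ← hcA]
    ext i j
    simp [Matrix.scalar_apply, Matrix.diagonal_apply, Matrix.one_apply]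
  have hc3' : c ^ 3 = 1 := by simpa using hc
  have hc0 : c ≠ 0 := by
    intro h0
    rw [h0] at hc3'
    simp at hc3'
  have hscal : ∀ (n : ℕ) (e : K), A ^ n = e • (1 : Matrix (Fin 3) (Fin 3) K) →
      g ^ n ∈ Subgroup.center (Matrix.SpecialLinearGroup (Fin 3) K) := by
    intro n e he
    rw [Matrix.SpecialLinearGroup.mem_center_iff]
    have hdet : (A ^ n).det = 1 := by
      rw [hA, ← Matrix.SpecialLinearGroup.coe_pow]
      exact (g ^ n).2
    have he3 : e ^ 3 = 1 := by
      rw [he, Matrix.det_smul, Matrix.det_one, mul_one] at hdet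
      simpa using hdet
    refine ⟨e, by simpa using he3, ?_⟩
    rw [Matrix.SpecialLinearGroup.coe_pow, ← hA, he]
    ext i j
    simp [Matrix.scalar_apply, Matrix.diagonal_apply, Matrix.one_apply]
  -- the involution part
  set N : Matrix (Fin 3) (Fin 3) K := c • A ^ 3 + 1 with hNdef
  have hNN : N * N = 0 := by
    have h1 : (c • A ^ 3) * (c • A ^ 3) = 1 := by
      rw [Matrix.smul_mul, Matrix.mul_smul, smul_smul, ← pow_add, hA6, smul_smul]
      have : c * c * c = 1 := by rw [← hc3']; ring
      rw [this, one_smul]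
    have e1 : N * N = (c • A ^ 3) * (c • A ^ 3) + (2 : K) • (c • A ^ 3) + 1 := by
      rw [hNdef, two_smul]
      simp only [add_mul, mul_add, mul_one, one_mul]
      abel
    rw [e1, h1, htwo, zero_smul, add_zero]
    have h2' : (2 : K) • (1 : Matrix (Fin 3) (Fin 3) K) = 0 := by rw [htwo, zero_smul]
    rw [two_smul] at h2'
    exact h2'
  have hN0 : N ≠ 0 := by
    intro h0
    apply hc3
    apply hscal 3 (c⁻¹)
    have h1 : c • A ^ 3 = -1 := eq_neg_of_add_eq_zero_left h0
    have h2' : (-1 : Matrix (Fin 3) (Fin 3) K) = 1 := by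
      have : (2 : K) • (1 : Matrix (Fin 3) (Fin 3) K) = 0 := by rw [htwo, zero_smul]
      rw [two_smul] at this
      exact neg_eq_of_add_eq_zero_left this
    rw [h2'] at h1
    calc A ^ 3 = c⁻¹ • (c • A ^ 3) := by rw [smul_smul, inv_mul_cancel₀ hc0, one_smul]
      _ = c⁻¹ • (1 : Matrix (Fin 3) (Fin 3) K) := by rw [h1]
  have hcomm : (A ^ 2) * N = N * (A ^ 2) := by
    rw [hNdef, mul_add, add_mul, mul_one, one_mul, Matrix.mul_smul, Matrix.smul_mul,
      ← pow_add, ← pow_add]
  have hdet : (A ^ 2).det = 1 := by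
    rw [hA, ← Matrix.SpecialLinearGroup.coe_pow]
    exact (g ^ 2).2
  have hs3 : (A ^ 2) * (A ^ 2) * (A ^ 2) = c • (1 : Matrix (Fin 3) (Fin 3) K) := by
    rw [← pow_add, ← pow_add, hA6]
  obtain ⟨a, ha⟩ := scalar_of_comm_sq_zero hK (A ^ 2) N c hN0 hNN hcomm hdet hs3
  exact hc2 (hscal 2 a ha)

set_option maxRecDepth 100000 in
theorem G0_facts :
    let G₀ : Matrix (Fin 4) (Fin 4) (ZMod 2) := !![0, 1, 0, 0; 1, 1, 0, 0; 0, 0, 1, 1; 0, 0, 0, 1]
    G₀ ^ 6 = 1 ∧ (G₀ ^ 2) 0 1 = 1 ∧ (G₀ ^ 3) 2 3 = 1 := by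
  decide

/-- `PSL₄(2)` has an element of order 6 -/
theorem exists_order_six {F : Type*} [Field F] [Fintype F] (hF : Fintype.card F = 2) :
    ∃ x : Matrix.ProjectiveSpecialLinearGroup (Fin 4) F, x ^ 6 = 1 ∧ x ^ 2 ≠ 1 ∧ x ^ 3 ≠ 1 := by
  classical
  have htwo : (2 : F) = 0 := by
    have h4 : ((Fintype.card F : ℕ) : F) = 0 := FiniteField.cast_card_eq_zero F
    rw [hF] at h4
    exact_mod_cast h4
  have hc : CharP F 2 := CharTwo.of_one_ne_zero_of_two_eq_zero one_ne_zero htwo
  have hone : ∀ a : F, a ≠ 0 → a = 1 := by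
    intro a ha
    have := FiniteField.pow_card_sub_one_eq_one a ha
    rw [hF] at this
    simpa using this
  let φ : ZMod 2 →+* F := ZMod.castHom (dvd_refl 2) F
  obtain ⟨h6, h2, h3⟩ := G0_facts
  set G₀ : Matrix (Fin 4) (Fin 4) (ZMod 2) :=
    !![0, 1, 0, 0; 1, 1, 0, 0; 0, 0, 1, 1; 0, 0, 0, 1] with hG₀
  let M : Matrix (Fin 4) (Fin 4) F := φ.mapMatrix G₀
  have hM6 : M ^ 6 = 1 := by
    show (φ.mapMatrix G₀) ^ 6 = 1
    rw [← map_pow, h6, map_one]
  have hdet : M.det = 1 := by
    apply hone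
    intro h0
    have : (M ^ 6).det = 0 := by rw [Matrix.det_pow, h0]; simp
    rw [hM6, Matrix.det_one] at this
    exact one_ne_zero this
  let g : Matrix.SpecialLinearGroup (Fin 4) F := ⟨M, hdet⟩
  have hgpow : ∀ n : ℕ, ((g ^ n : Matrix.SpecialLinearGroup (Fin 4) F) : Matrix (Fin 4) (Fin 4) F)
      = φ.mapMatrix (G₀ ^ n) := by
    intro n
    rw [Matrix.SpecialLinearGroup.coe_pow, map_pow]
  have hnc : ∀ (n : ℕ) (i j : Fin 4), i ≠ j → (G₀ ^ n) i j = 1 →
      g ^ n ∉ Subgroup.center (Matrix.SpecialLinearGroup (Fin 4) F) := by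
    intro n i j hij hval hcen
    obtain ⟨r, -, hr⟩ := Matrix.SpecialLinearGroup.mem_center_iff.mp hcen
    have h1 := congrFun (congrFun hr i) j
    rw [hgpow] at h1
    simp only [Matrix.scalar_apply, Matrix.diagonal_apply_ne _ hij, RingHom.mapMatrix_apply,
      Matrix.map_apply, hval, map_one] at h1
    exact zero_ne_one h1
  refine ⟨QuotientGroup.mk g, ?_, ?_, ?_⟩
  · rw [← QuotientGroup.mk_pow]
    apply (QuotientGroup.eq_one_iff _).mpr
    have : g ^ 6 = 1 := by
      apply Subtype.ext
      rw [hgpow, h6, map_one]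
      rfl
    rw [this]
    exact Subgroup.one_mem _
  · rw [← QuotientGroup.mk_pow]
    intro h
    exact hnc 2 0 1 (by decide) h2 ((QuotientGroup.eq_one_iff _).mp h)
  · rw [← QuotientGroup.mk_pow]
    intro h
    exact hnc 3 2 3 (by decide) h3 ((QuotientGroup.eq_one_iff _).mp h)

end Helpers

/-- Let F be a field with 2 elements and K a field with 4 elements. PSL_4(F) and PSL_3(K) have the same order (20160) but are not isomorphic. -/
theorem result {F K : Type*} [Field F] [Fintype F] [Field K] [Fintype K] (hF : Fintype.card F = 2) (hK : Fintype.card K = 4) : Nat.card (Matrix.ProjectiveSpecialLinearGroup (Fin 4) F) = Nat.card (Matrix.ProjectiveSpecialLinearGroup (Fin 3) K) ∧ ¬ Nonempty (Matrix.ProjectiveSpecialLinearGroup (Fin 4) F ≃* Matrix.ProjectiveSpecialLinearGroup (Fin 3) K) := by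
  constructor
  · have h4 := card_PSL' F 4 (by norm_num)
    have h3 := card_PSL' K 3 (by norm_num)
    rw [hF, Fin.prod_univ_four] at h4
    rw [hK, Fin.prod_univ_three] at h3
    norm_num at h4 h3
    omega
  · rintro ⟨e⟩
    obtain ⟨x, h6, h2, h3⟩ := exists_order_six hF
    apply no_order_six hK (e x)
    · rw [← map_pow, h6, map_one]
    · rw [← map_pow]
      intro h
      exact h2 (e.injective (h.trans (map_one e).symm))
    · rw [← map_pow]
      intro h
      exact h3 (e.injective (h.trans (map_one e).symm))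

end Cfsg.Agent.S2550
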