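import Cfsg.Statements.S2551
-- import your own Cfsg.Agent.* helpers here
import Cfsg.Agent.Lib.helper4.A7a
import Cfsg.Agent.Lib.helper4.A7b
import Cfsg.Agent.Lib.helper4.A7c

set_option autoImplicit false
open Cfsg

namespace Cfsg.Agent.S2551

/-- Let F be the field with 2 elements. GL_4(F) (≅ A_8) has a subgroup isomorphic to the alternating group A_7, and every such subgroup acts 2-transitively on the 15 non-zero vectors of F⁴: any ordered pair of distinct non-zero vectors is carried to any other by some element of the subgroup. -/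
theorem result {F : Type*} [Field F] [Fintype F] (hF : Fintype.card F = 2) : (∃ H : Subgroup (Matrix.GeneralLinearGroup (Fin 4) F), Nonempty (H ≃* alternatingGroup (Fin 7))) ∧ ∀ H : Subgroup (Matrix.GeneralLinearGroup (Fin 4) F), Nonempty (H ≃* alternatingGroup (Fin 7)) → ∀ v w v' w' : Fin 4 → F, v ≠ 0 → w ≠ 0 → v ≠ w → v' ≠ 0 → w' ≠ 0 → v' ≠ w' → ∃ g ∈ H, (g : Matrix (Fin 4) (Fin 4) F).mulVec v = v' ∧ (g : Matrix (Fin 4) (Fin 4) F).mulVec w = w' := by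
  classical
  refine ⟨Cfsg.Agent.Lib.helper4.A7a.exists_A7 hF, ?_⟩
  rintro H ⟨φ⟩ v w v' w' hv hw hvw hv' hw' hvw'
  have hH : Nat.card H = 2520 := by
    rw [Nat.card_congr φ.toEquiv, nat_card_alternatingGroup, Nat.card_eq_fintype_card,
      Fintype.card_fin]
    decide
  have hcancel : ∀ (g : Matrix.GeneralLinearGroup (Fin 4) F) (a : Fin 4 → F),
      ((g⁻¹ : Matrix.GeneralLinearGroup (Fin 4) F) : Matrix (Fin 4) (Fin 4) F).mulVec
        ((g : Matrix (Fin 4) (Fin 4) F).mulVec a) = a := by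
    intro g a
    rw [Matrix.mulVec_mulVec, ← Units.val_mul, inv_mul_cancel, Units.val_one, Matrix.one_mulVec]
  have hinj : ∀ (g : Matrix.GeneralLinearGroup (Fin 4) F) (a b : Fin 4 → F),
      (g : Matrix (Fin 4) (Fin 4) F).mulVec a = (g : Matrix (Fin 4) (Fin 4) F).mulVec b →
      a = b := by
    intro g a b h
    rw [← hcancel g a, h, hcancel g b]
  have hne0 : ∀ (g : Matrix.GeneralLinearGroup (Fin 4) F) (a : Fin 4 → F), a ≠ 0 →
      (g : Matrix (Fin 4) (Fin 4) F).mulVec a ≠ 0 := by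
    intro g a ha h
    apply ha
    apply hinj g
    rw [h, Matrix.mulVec_zero]
  letI act : MulAction H
      {p : (Fin 4 → F) × (Fin 4 → F) // p.1 ≠ 0 ∧ p.2 ≠ 0 ∧ p.1 ≠ p.2} :=
    { smul := fun g p =>
        ⟨(((g : Matrix.GeneralLinearGroup (Fin 4) F) : Matrix (Fin 4) (Fin 4) F).mulVec p.1.1,
          ((g : Matrix.GeneralLinearGroup (Fin 4) F) : Matrix (Fin 4) (Fin 4) F).mulVec p.1.2),
          hne0 _ _ p.2.1, hne0 _ _ p.2.2.1, fun h => p.2.2.2 (hinj _ _ _ h)⟩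
      one_smul := by
        intro p
        apply Subtype.ext
        apply Prod.ext
        · show ((1 : H) : Matrix.GeneralLinearGroup (Fin 4) F).1.mulVec p.1.1 = p.1.1
          rw [Subgroup.coe_one, Units.val_one, Matrix.one_mulVec]
        · show ((1 : H) : Matrix.GeneralLinearGroup (Fin 4) F).1.mulVec p.1.2 = p.1.2
          rw [Subgroup.coe_one, Units.val_one, Matrix.one_mulVec]
      mul_smul := by
        intro g h p
        apply Subtype.ext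
        apply Prod.ext
        · show ((g * h : H) : Matrix.GeneralLinearGroup (Fin 4) F).1.mulVec p.1.1
            = (g : Matrix.GeneralLinearGroup (Fin 4) F).1.mulVec
              ((h : Matrix.GeneralLinearGroup (Fin 4) F).1.mulVec p.1.1)
          rw [Subgroup.coe_mul, Units.val_mul, Matrix.mulVec_mulVec]
        · show ((g * h : H) : Matrix.GeneralLinearGroup (Fin 4) F).1.mulVec p.1.2
            = (g : Matrix.GeneralLinearGroup (Fin 4) F).1.mulVec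
              ((h : Matrix.GeneralLinearGroup (Fin 4) F).1.mulVec p.1.2)
          rw [Subgroup.coe_mul, Units.val_mul, Matrix.mulVec_mulVec] }
  have hsmul1 : ∀ (g : H) (p : {p : (Fin 4 → F) × (Fin 4 → F) // p.1 ≠ 0 ∧ p.2 ≠ 0 ∧ p.1 ≠ p.2}),
      (g • p).1.1 = ((g : Matrix.GeneralLinearGroup (Fin 4) F) : Matrix (Fin 4) (Fin 4) F).mulVec
        p.1.1 := fun g p => rfl
  have hsmul2 : ∀ (g : H) (p : {p : (Fin 4 → F) × (Fin 4 → F) // p.1 ≠ 0 ∧ p.2 ≠ 0 ∧ p.1 ≠ p.2}),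
      (g • p).1.2 = ((g : Matrix.GeneralLinearGroup (Fin 4) F) : Matrix (Fin 4) (Fin 4) F).mulVec
        p.1.2 := fun g p => rfl
  -- stabilisers
  have hst : ∀ ω : {p : (Fin 4 → F) × (Fin 4 → F) // p.1 ≠ 0 ∧ p.2 ≠ 0 ∧ p.1 ≠ p.2},
      Nat.card (MulAction.stabilizer H ω) ∣ 24 := by
    intro ω
    have h1 : Nat.card (MulAction.stabilizer H ω) ∣ 2520 := by
      rw [← hH]
      exact Subgroup.card_subgroup_dvd_card _
    have h2 : Nat.card (MulAction.stabilizer H ω) ∣ 96 := by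
      rw [← Subgroup.card_map_of_injective (K := MulAction.stabilizer H ω)
        (f := H.subtype) H.subtype_injective]
      apply Cfsg.Agent.Lib.helper4.A7b.card_fix_pair_dvd hF ω.1.1 ω.1.2 ω.2.1 ω.2.2.1 ω.2.2.2
      intro g hg
      obtain ⟨g', hg', rfl⟩ := Subgroup.mem_map.mp hg
      have hfix : g' • ω = ω := MulAction.mem_stabilizer_iff.mp hg'
      refine ⟨?_, ?_⟩
      · have h5 := hsmul1 g' ω
        rw [hfix] at h5
        exact h5.symm
      · have h5 := hsmul2 g' ω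
        rw [hfix] at h5
        exact h5.symm
    have h3 := Nat.dvd_gcd h1 h2
    have h4 : Nat.gcd 2520 96 = 24 := by decide
    rw [h4] at h3
    exact h3
  -- the swap
  obtain ⟨σ, hσdef⟩ : ∃ σ : {p : (Fin 4 → F) × (Fin 4 → F) // p.1 ≠ 0 ∧ p.2 ≠ 0 ∧ p.1 ≠ p.2} →
      {p : (Fin 4 → F) × (Fin 4 → F) // p.1 ≠ 0 ∧ p.2 ≠ 0 ∧ p.1 ≠ p.2},
      ∀ p, (σ p).1 = (p.1.2, p.1.1) :=
    ⟨fun p => ⟨(p.1.2, p.1.1), p.2.2.1, p.2.1, Ne.symm p.2.2.2⟩, fun p => rfl⟩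
  have hσ : ∀ ω, σ ω ≠ ω := by
    intro ω h
    have h1 := congrArg (fun p : {p : (Fin 4 → F) × (Fin 4 → F) // p.1 ≠ 0 ∧ p.2 ≠ 0 ∧ p.1 ≠ p.2} =>
      p.1.1) h
    simp only [hσdef] at h1
    exact ω.2.2.2 h1.symm
  have hσσ : ∀ ω, σ (σ ω) = ω := by
    intro ω
    apply Subtype.ext
    rw [hσdef, hσdef]
  have hσg : ∀ (g : H) (ω : {p : (Fin 4 → F) × (Fin 4 → F) // p.1 ≠ 0 ∧ p.2 ≠ 0 ∧ p.1 ≠ p.2}),
      σ (g • ω) = g • σ ω := by
    intro g ω
    apply Subtype.ext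
    rw [hσdef]
    apply Prod.ext
    · show (g • ω).1.2 = (g • σ ω).1.1
      rw [hsmul2, hsmul1, hσdef]
    · show (g • ω).1.1 = (g • σ ω).1.2
      rw [hsmul1, hsmul2, hσdef]
  -- an involution and a vector it moves
  haveI : Fact (Nat.Prime 2) := ⟨Nat.prime_two⟩
  obtain ⟨t, ht⟩ := exists_prime_orderOf_dvd_card' (G := H) 2 (by rw [hH]; decide)
  have ht2 : t * t = 1 := by
    rw [← pow_two, ← ht]
    exact pow_orderOf_eq_one t
  have ht1 : t ≠ 1 := by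
    intro h
    rw [h, orderOf_one] at ht
    omega
  have hmove : ∃ a : Fin 4 → F,
      ((t : Matrix.GeneralLinearGroup (Fin 4) F) : Matrix (Fin 4) (Fin 4) F).mulVec a ≠ a := by
    by_contra hall
    push Not at hall
    apply ht1
    apply Subtype.ext
    apply Units.ext
    apply Matrix.mulVec_injective
    funext a
    rw [hall a, Subgroup.coe_one, Units.val_one, Matrix.one_mulVec]
  obtain ⟨a, ha⟩ := hmove
  have ha0 : a ≠ 0 := by
    rintro rfl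
    exact ha (Matrix.mulVec_zero _)
  obtain ⟨ω₀, hω₀⟩ : ∃ ω₀ : {p : (Fin 4 → F) × (Fin 4 → F) // p.1 ≠ 0 ∧ p.2 ≠ 0 ∧ p.1 ≠ p.2},
      ω₀.1 = (a, ((t : Matrix.GeneralLinearGroup (Fin 4) F) : Matrix (Fin 4) (Fin 4) F).mulVec a) :=
    ⟨⟨(a, _), ha0, hne0 _ _ ha0, Ne.symm ha⟩, rfl⟩
  have hmem : σ ω₀ ∈ MulAction.orbit H ω₀ := by
    rw [MulAction.mem_orbit_iff]
    refine ⟨t, ?_⟩
    apply Subtype.ext
    rw [hσdef]
    apply Prod.ext
    · show (t • ω₀).1.1 = ω₀.1.2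
      rw [hsmul1, hω₀]
    · show (t • ω₀).1.2 = ω₀.1.1
      rw [hsmul2, hω₀]
      show ((t : Matrix.GeneralLinearGroup (Fin 4) F) : Matrix (Fin 4) (Fin 4) F).mulVec
        (((t : Matrix.GeneralLinearGroup (Fin 4) F) : Matrix (Fin 4) (Fin 4) F).mulVec a) = a
      rw [Matrix.mulVec_mulVec, ← Units.val_mul, ← Subgroup.coe_mul, ht2, Subgroup.coe_one,
        Units.val_one, Matrix.one_mulVec]
  have htrans := Cfsg.Agent.Lib.helper4.A7c.trans_of_count hH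
    (Cfsg.Agent.Lib.helper4.A7c.card_pairs hF) hst σ hσ hσσ hσg ω₀ hmem
  obtain ⟨g₁, hg₁⟩ := MulAction.mem_orbit_iff.mp (htrans ⟨(v, w), hv, hw, hvw⟩)
  obtain ⟨g₂, hg₂⟩ := MulAction.mem_orbit_iff.mp (htrans ⟨(v', w'), hv', hw', hvw'⟩)
  have hg : (g₂ * g₁⁻¹) • (⟨(v, w), hv, hw, hvw⟩ :
      {p : (Fin 4 → F) × (Fin 4 → F) // p.1 ≠ 0 ∧ p.2 ≠ 0 ∧ p.1 ≠ p.2})
      = ⟨(v', w'), hv', hw', hvw'⟩ := by
    rw [← hg₁, ← hg₂, mul_smul, inv_smul_smul]
  refine ⟨((g₂ * g₁⁻¹ : H) : Matrix.GeneralLinearGroup (Fin 4) F), (g₂ * g₁⁻¹).2, ?_, ?_⟩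
  · have h := congrArg (fun p : {p : (Fin 4 → F) × (Fin 4 → F) // p.1 ≠ 0 ∧ p.2 ≠ 0 ∧ p.1 ≠ p.2} =>
      p.1.1) hg
    exact h
  · have h := congrArg (fun p : {p : (Fin 4 → F) × (Fin 4 → F) // p.1 ≠ 0 ∧ p.2 ≠ 0 ∧ p.1 ≠ p.2} =>
      p.1.2) hg
    exact h

end Cfsg.Agent.S2551
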