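import Cfsg.Statements.S2552
import Mathlib

set_option autoImplicit false
open Cfsg

namespace Cfsg.Agent.S2552

section Helpers

variable {F : Type*} [Field F] {V : Type*} [AddCommGroup V] [Module F V] [FiniteDimensional F V]

/-- A basis of `V` adapted to a subspace `U` of dimension `k`. -/
lemma exists_adapted_basis (U : Submodule F V) {k : ℕ} (hk : Module.finrank F U = k) :
    ∃ (r : ℕ) (b : Module.Basis (Fin k ⊕ Fin r) F V), (∀ i, b (Sum.inl i) ∈ U) ∧
      ∀ u ∈ U, ∃ c : Fin k → F, u = ∑ i, c i • b (Sum.inl i) := by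
  classical
  obtain ⟨W, hW⟩ := Submodule.exists_isCompl U
  let bU : Module.Basis (Fin k) F U := Module.finBasisOfFinrankEq F U hk
  let bW : Module.Basis (Fin (Module.finrank F W)) F W := Module.finBasisOfFinrankEq F W rfl
  let b : Module.Basis (Fin k ⊕ Fin (Module.finrank F W)) F V :=
    (bU.prod bW).map (Submodule.prodEquivOfIsCompl U W hW)
  have hb : ∀ i, b (Sum.inl i) = (bU i : V) := by
    intro i
    simp [b, Submodule.coe_prodEquivOfIsCompl']
  refine ⟨_, b, ?_, ?_⟩
  · intro i; rw [hb]; exact (bU i).2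
  · intro u hu
    refine ⟨fun i => bU.repr ⟨u, hu⟩ i, ?_⟩
    have h1 := bU.sum_repr ⟨u, hu⟩
    have h2 := congrArg (Subtype.val) h1
    simp only [Submodule.coe_sum, Submodule.coe_smul] at h2
    refine h2.symm.trans ?_
    exact Finset.sum_congr rfl (fun i _ => by rw [hb])

lemma exists_det_one_map (U₁ U₂ : Submodule F V) (h : Module.finrank F U₁ = Module.finrank F U₂) :
    ∃ e : V ≃ₗ[F] V, LinearMap.det (e : V →ₗ[F] V) = 1 ∧ U₁.map (e : V →ₗ[F] V) = U₂ := by
  classical
  by_cases hk0 : Module.finrank F U₁ = 0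
  · refine ⟨LinearEquiv.refl F V, by simp, ?_⟩
    have h1 : U₁ = ⊥ := Submodule.finrank_eq_zero.mp hk0
    have h2 : U₂ = ⊥ := Submodule.finrank_eq_zero.mp (h ▸ hk0)
    rw [h1, h2]; simp
  obtain ⟨k, hk⟩ : ∃ k, Module.finrank F U₁ = k := ⟨_, rfl⟩
  obtain ⟨r₁, b₁, hb₁, hs₁⟩ := exists_adapted_basis U₁ hk
  obtain ⟨r₂, b₂, hb₂, hs₂⟩ := exists_adapted_basis U₂ (h.symm.trans hk)
  have hr : r₁ = r₂ := by
    have h1 := Module.finrank_eq_card_basis b₁
    have h2 := Module.finrank_eq_card_basis b₂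
    rw [Fintype.card_sum, Fintype.card_fin, Fintype.card_fin] at h1 h2
    omega
  subst hr
  have hkpos : 0 < k := Nat.pos_of_ne_zero (hk ▸ hk0)
  let i₀ : Fin k ⊕ Fin r₁ := Sum.inl ⟨0, hkpos⟩
  let d : Fˣ := (b₁.isUnit_det b₂).unit
  let w : Fin k ⊕ Fin r₁ → Fˣ := fun i => if i = i₀ then d else 1
  have hw : ∏ i, w i = d := by
    rw [Finset.prod_eq_single i₀]
    · simp [w]
    · intro j _ hj; simp [w, hj]
    · intro h; exact absurd (Finset.mem_univ _) h
  let e : V ≃ₗ[F] V := (b₁.unitsSMul w).equiv b₂ (Equiv.refl _)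
  have he : ∀ i, e (b₁ i) = ((w i)⁻¹ : Fˣ) • b₂ i := by
    intro i
    have h1 : e ((b₁.unitsSMul w) i) = b₂ i := by simp [e]
    rw [Module.Basis.unitsSMul_apply, Units.smul_def, map_smul] at h1
    rw [← h1, Units.smul_def, smul_smul, Units.inv_mul, one_smul]
  refine ⟨e, ?_, ?_⟩
  · have h1 : LinearMap.det (e : V →ₗ[F] V) = (b₁.unitsSMul w).det b₂ := Module.Basis.det_basis b₂ (b₁.unitsSMul w)
    rw [h1, Module.Basis.det_unitsSMul, hw]
    simp only [d, IsUnit.unit_spec, Units.val_inv_eq_inv_val, smul_eq_mul,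
      AlternatingMap.smul_apply]
    exact inv_mul_cancel₀ (b₁.isUnit_det b₂).ne_zero
  · apply Submodule.eq_of_le_of_finrank_eq
    · rintro _ ⟨u, hu, rfl⟩
      obtain ⟨c, rfl⟩ := hs₁ u hu
      simp only [LinearEquiv.coe_coe, map_sum, map_smul]
      exact Submodule.sum_mem _ (fun i _ => Submodule.smul_mem _ _ (by
        rw [he, Units.smul_def]; exact Submodule.smul_mem _ _ (hb₂ i)))
    · rw [← h]
      exact LinearEquiv.finrank_map_eq e U₁

end Helpers

/-- Let F be a finite field and n ≥ 1. For every k, the special linear group SL_n(F) acts transitively on the set of k-dimensional subspaces of F^n: any two subspaces of the same dimension are carried onto each other by some matrix of determinant 1. -/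
theorem result {F : Type*} [Field F] [Fintype F] (n : ℕ) (hn : 1 ≤ n) (U₁ U₂ : Submodule F (Fin n → F)) (h : Module.finrank F U₁ = Module.finrank F U₂) : ∃ g : Matrix.SpecialLinearGroup (Fin n) F, U₁.map ((Matrix.SpecialLinearGroup.toLin' g : (Fin n → F) ≃ₗ[F] (Fin n → F)) : (Fin n → F) →ₗ[F] (Fin n → F)) = U₂ := by
  classical
  obtain ⟨e, he1, he2⟩ := exists_det_one_map U₁ U₂ h
  let g : Matrix.SpecialLinearGroup (Fin n) F :=
    ⟨LinearMap.toMatrix' (e : (Fin n → F) →ₗ[F] (Fin n → F)), by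
      rw [LinearMap.det_toMatrix']; exact he1⟩
  refine ⟨g, ?_⟩
  rw [Matrix.SpecialLinearGroup.toLin'_to_linearMap]
  show Submodule.map (Matrix.toLin' (LinearMap.toMatrix' (e : (Fin n → F) →ₗ[F] (Fin n → F)))) U₁ = U₂
  rw [Matrix.toLin'_toMatrix']
  exact he2

end Cfsg.Agent.S2552
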