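import Cfsg.Statements.S2561
import Mathlib
import Cfsg.Agent.Lib.helper13.QuadF2

set_option autoImplicit false
open Cfsg

namespace Cfsg.Agent.S2561

section Helpers

open Cfsg.Agent.S2562 Cfsg.Agent.S2616 Cfsg.Agent.S2617 Cfsg.Agent.Lib.helper13

lemma pol_P (m : ℕ) : Pol m (Cfsg.quadFormPlus m (ZMod 2)) := by
  intro u v
  ring

/-- the parametrization `w ↦ P + f(·, w)` of the forms polarizing to `f` -/
noncomputable def Phi (m : ℕ) (w : Fin m ⊕ Fin m → ZMod 2) :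
    {q : (Fin m ⊕ Fin m → ZMod 2) → ZMod 2 // Pol m q} :=
  ⟨fun v => Cfsg.quadFormPlus m (ZMod 2) v + (Cfsg.quadFormPlus m (ZMod 2) (v + w) -
    Cfsg.quadFormPlus m (ZMod 2) v - Cfsg.quadFormPlus m (ZMod 2) w), pol_shift m _ (pol_P m) w⟩

lemma Phi_apply (m : ℕ) (w v : Fin m ⊕ Fin m → ZMod 2) :
    (Phi m w).1 v = Cfsg.quadFormPlus m (ZMod 2) v + (Cfsg.quadFormPlus m (ZMod 2) (v + w) -
    Cfsg.quadFormPlus m (ZMod 2) v - Cfsg.quadFormPlus m (ZMod 2) w) := rfl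

lemma Phi_injective (m : ℕ) : Function.Injective (Phi m) := by
  intro w w' h
  have h1 : ∀ v, (Phi m w).1 v = (Phi m w').1 v := fun v => by rw [h]
  have h2 : w - w' = 0 := by
    apply (nondeg_qP (F := ZMod 2) m).2
    intro v
    have h3 := h1 v
    rw [Phi_apply, Phi_apply] at h3
    rw [QuadraticMap.polarBilin_apply_apply, QuadraticMap.polar_sub_right]
    simp only [QuadraticMap.polar, qP_apply]
    linear_combination h3
  exact sub_eq_zero.mp h2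

lemma card_pol_le (m : ℕ) :
    Nat.card {q : (Fin m ⊕ Fin m → ZMod 2) → ZMod 2 // Pol m q} ≤
      Nat.card (Fin m ⊕ Fin m → ZMod 2) := by
  have hD : ∀ (q : {q : (Fin m ⊕ Fin m → ZMod 2) → ZMod 2 // Pol m q})
      (u v : Fin m ⊕ Fin m → ZMod 2),
      q.1 (u + v) - Cfsg.quadFormPlus m (ZMod 2) (u + v) =
        (q.1 u - Cfsg.quadFormPlus m (ZMod 2) u) + (q.1 v - Cfsg.quadFormPlus m (ZMod 2) v) := by
    intro q u v
    rw [q.2 u v]
    ring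
  let ψ : {q : (Fin m ⊕ Fin m → ZMod 2) → ZMod 2 // Pol m q} →
      (Fin m ⊕ Fin m → ZMod 2) := fun q =>
    (Module.piEquiv (Fin m ⊕ Fin m) (ZMod 2) (ZMod 2)).symm (AddMonoidHom.toZModLinearMap 2
      (AddMonoidHom.mk' (fun v => q.1 v - Cfsg.quadFormPlus m (ZMod 2) v) (hD q)))
  have hψ : Function.Injective ψ := by
    intro q q' h
    have h0 := (Module.piEquiv (Fin m ⊕ Fin m) (ZMod 2) (ZMod 2)).symm.injective h
    apply Subtype.ext
    funext v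
    have h1 := congrArg (fun l => l v) h0
    have h2 : q.1 v - Cfsg.quadFormPlus m (ZMod 2) v = q'.1 v - Cfsg.quadFormPlus m (ZMod 2) v := h1
    exact sub_left_injective h2
  exact Nat.card_le_card_of_injective ψ hψ

lemma Phi_bijective (m : ℕ) : Function.Bijective (Phi m) :=
  (Phi_injective m).bijective_of_nat_card_le (card_pol_le m)

lemma two_pow_two_mul (m : ℕ) (hm : 1 ≤ m) : (2 : ℕ) ^ (2 * m) = 2 * 2 ^ (2 * m - 1) := by
  have : 2 * m = (2 * m - 1) + 1 := by omega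
  conv_lhs => rw [this, pow_succ]
  ring

lemma Phi_plus_iff (m : ℕ) (hm : 1 ≤ m) (w : Fin m ⊕ Fin m → ZMod 2) :
    (∃ g : (Fin m ⊕ Fin m → ZMod 2) ≃ₗ[ZMod 2] (Fin m ⊕ Fin m → ZMod 2),
      ∀ v, (Phi m w).1 v = Cfsg.quadFormPlus m (ZMod 2) (g v)) ↔
    Cfsg.quadFormPlus m (ZMod 2) w = 0 := by
  have hpos : 0 < 2 ^ (m - 1) := by positivity
  rw [type_plus_iff m hm _ (Phi m w).2]
  constructor
  · intro h
    by_contra hw
    have h1 := card_shift_one m _ (pol_P m) w hw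
    have h2 := card_plus_two m hm
    have h3 := two_pow_two_mul m hm
    have h4 : Nat.card {v : Fin m ⊕ Fin m → ZMod 2 // (Phi m w).1 v = 0} =
        Nat.card {v : Fin m ⊕ Fin m → ZMod 2 // Cfsg.quadFormPlus m (ZMod 2) v +
          (Cfsg.quadFormPlus m (ZMod 2) (v + w) - Cfsg.quadFormPlus m (ZMod 2) v -
          Cfsg.quadFormPlus m (ZMod 2) w) = 0} := rfl
    omega
  · intro hw
    have h1 := card_shift_zero m _ (pol_P m) w hw
    have h2 := card_plus_two m hm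
    have h4 : Nat.card {v : Fin m ⊕ Fin m → ZMod 2 // (Phi m w).1 v = 0} =
        Nat.card {v : Fin m ⊕ Fin m → ZMod 2 // Cfsg.quadFormPlus m (ZMod 2) v +
          (Cfsg.quadFormPlus m (ZMod 2) (v + w) - Cfsg.quadFormPlus m (ZMod 2) v -
          Cfsg.quadFormPlus m (ZMod 2) w) = 0} := rfl
    omega

lemma Phi_minus_iff (m : ℕ) (hm : 1 ≤ m) (w : Fin m ⊕ Fin m → ZMod 2) :
    (∃ g : (Fin m ⊕ Fin m → ZMod 2) ≃ₗ[ZMod 2] ((Fin (m - 1) ⊕ Fin (m - 1)) ⊕ Fin 2 → ZMod 2),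
      ∀ v, (Phi m w).1 v = Cfsg.quadFormMinus (m - 1) (ZMod 2) 1 1 (g v)) ↔
    Cfsg.quadFormPlus m (ZMod 2) w = 1 := by
  have hpos : 0 < 2 ^ (m - 1) := by positivity
  rw [type_minus_iff m hm _ (Phi m w).2]
  have h2 := card_plus_two m hm
  have h3 := two_pow_two_mul m hm
  have h4 : Nat.card {v : Fin m ⊕ Fin m → ZMod 2 // (Phi m w).1 v = 0} =
      Nat.card {v : Fin m ⊕ Fin m → ZMod 2 // Cfsg.quadFormPlus m (ZMod 2) v +
        (Cfsg.quadFormPlus m (ZMod 2) (v + w) - Cfsg.quadFormPlus m (ZMod 2) v -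
        Cfsg.quadFormPlus m (ZMod 2) w) = 0} := rfl
  constructor
  · intro h
    rcases z2_cases (Cfsg.quadFormPlus m (ZMod 2) w) with hw | hw
    · exfalso
      have h1 := card_shift_zero m _ (pol_P m) w hw
      omega
    · exact hw
  · intro hw
    have hw' : Cfsg.quadFormPlus m (ZMod 2) w ≠ 0 := by rw [hw]; decide
    have h1 := card_shift_one m _ (pol_P m) w hw'
    omega

end Helpers

/-- Fix the non-singular alternating form on the 2m-dimensional space over the field of two elements obtained by polarizing the plus-type form Σ xᵢyᵢ (m ≥ 1). The functions q on the space with q(u + v) = q(u) + q(v) + f(u, v) (the quadratic forms polarizing to f) number 2^(2m); each is equivalent under an invertible linear map either to the plus-type form or to the minus-type form Σ xᵢyᵢ + (z₁² + z₁z₂ + z₂²); and those of plus type number 2^(2m−1) + 2^(m−1), those of minus type 2^(2m−1) − 2^(m−1).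 -/
theorem result (m : ℕ) (hm : 1 ≤ m) :
    Nat.card {q : (Fin m ⊕ Fin m → ZMod 2) → ZMod 2 // (∀ u v : (Fin m ⊕ Fin m → ZMod 2), q (u + v) = q u + q v + (Cfsg.quadFormPlus m (ZMod 2) (u + v) - Cfsg.quadFormPlus m (ZMod 2) u - Cfsg.quadFormPlus m (ZMod 2) v))} = 2 ^ (2 * m) ∧
    (∀ q : (Fin m ⊕ Fin m → ZMod 2) → ZMod 2, (∀ u v : (Fin m ⊕ Fin m → ZMod 2), q (u + v) = q u + q v + (Cfsg.quadFormPlus m (ZMod 2) (u + v) - Cfsg.quadFormPlus m (ZMod 2) u - Cfsg.quadFormPlus m (ZMod 2) v)) →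
      (∃ g : (Fin m ⊕ Fin m → ZMod 2) ≃ₗ[ZMod 2] (Fin m ⊕ Fin m → ZMod 2), ∀ v, q v = Cfsg.quadFormPlus m (ZMod 2) (g v)) ∨
      (∃ g : (Fin m ⊕ Fin m → ZMod 2) ≃ₗ[ZMod 2] ((Fin (m - 1) ⊕ Fin (m - 1)) ⊕ Fin 2 → ZMod 2), ∀ v, q v = Cfsg.quadFormMinus (m - 1) (ZMod 2) 1 1 (g v))) ∧
    Nat.card {q : (Fin m ⊕ Fin m → ZMod 2) → ZMod 2 // (∀ u v : (Fin m ⊕ Fin m → ZMod 2), q (u + v) = q u + q v + (Cfsg.quadFormPlus m (ZMod 2) (u + v) - Cfsg.quadFormPlus m (ZMod 2) u - Cfsg.quadFormPlus m (ZMod 2) v)) ∧ ∃ g : (Fin m ⊕ Fin m → ZMod 2) ≃ₗ[ZMod 2] (Fin m ⊕ Fin m → ZMod 2), ∀ v, q v = Cfsg.quadFormPlus m (ZMod 2) (g v)} = 2 ^ (2 * m - 1) + 2 ^ (m - 1) ∧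
    Nat.card {q : (Fin m ⊕ Fin m → ZMod 2) → ZMod 2 // (∀ u v : (Fin m ⊕ Fin m → ZMod 2), q (u + v) = q u + q v + (Cfsg.quadFormPlus m (ZMod 2) (u + v) - Cfsg.quadFormPlus m (ZMod 2) u - Cfsg.quadFormPlus m (ZMod 2) v)) ∧ ∃ g : (Fin m ⊕ Fin m → ZMod 2) ≃ₗ[ZMod 2] ((Fin (m - 1) ⊕ Fin (m - 1)) ⊕ Fin 2 → ZMod 2), ∀ v, q v = Cfsg.quadFormMinus (m - 1) (ZMod 2) 1 1 (g v)} = 2 ^ (2 * m - 1) - 2 ^ (m - 1) := by
  classical
  have hcardV : Nat.card (Fin m ⊕ Fin m → ZMod 2) = 2 ^ (2 * m) := by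
    rw [Nat.card_eq_fintype_card]
    simp [two_mul]
  have hpos : 0 < 2 ^ (m - 1) := by positivity
  refine ⟨?_, ?_, ?_, ?_⟩
  · rw [← hcardV]
    exact (Nat.card_congr (Equiv.ofBijective (Phi m) (Phi_bijective m))).symm
  · intro q hq
    exact Cfsg.Agent.Lib.helper13.pol_classify m q hq
  · rw [← Cfsg.Agent.Lib.helper13.card_plus_two m hm]
    symm
    apply Nat.card_congr
    refine Equiv.ofBijective
      (fun w : {w : Fin m ⊕ Fin m → ZMod 2 // Cfsg.quadFormPlus m (ZMod 2) w = 0} =>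
        (⟨(Phi m w.1).1, (Phi m w.1).2, (Phi_plus_iff m hm w.1).mpr w.2⟩ :
          {q : (Fin m ⊕ Fin m → ZMod 2) → ZMod 2 // (∀ u v : (Fin m ⊕ Fin m → ZMod 2), q (u + v) = q u + q v + (Cfsg.quadFormPlus m (ZMod 2) (u + v) - Cfsg.quadFormPlus m (ZMod 2) u - Cfsg.quadFormPlus m (ZMod 2) v)) ∧ ∃ g : (Fin m ⊕ Fin m → ZMod 2) ≃ₗ[ZMod 2] (Fin m ⊕ Fin m → ZMod 2), ∀ v, q v = Cfsg.quadFormPlus m (ZMod 2) (g v)})) ⟨?_, ?_⟩
    · intro w w' h
      apply Subtype.ext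
      apply Phi_injective m
      apply Subtype.ext
      have h5 := congrArg (fun x => (x.1 : (Fin m ⊕ Fin m → ZMod 2) → ZMod 2)) h
      exact h5
    · rintro ⟨q, hq, hplus⟩
      obtain ⟨w, hw⟩ := (Phi_bijective m).2 ⟨q, hq⟩
      have hw1 : (Phi m w).1 = q := congrArg Subtype.val hw
      refine ⟨⟨w, (Phi_plus_iff m hm w).mp (by rw [hw1]; exact hplus)⟩, ?_⟩
      apply Subtype.ext
      exact hw1
  · have hcompl := Cfsg.Agent.Lib.helper13.card_compl m (Cfsg.quadFormPlus m (ZMod 2))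
    have h2 := Cfsg.Agent.Lib.helper13.card_plus_two m hm
    have h3 := two_pow_two_mul m hm
    have hgoal : Nat.card {q : (Fin m ⊕ Fin m → ZMod 2) → ZMod 2 // (∀ u v : (Fin m ⊕ Fin m → ZMod 2), q (u + v) = q u + q v + (Cfsg.quadFormPlus m (ZMod 2) (u + v) - Cfsg.quadFormPlus m (ZMod 2) u - Cfsg.quadFormPlus m (ZMod 2) v)) ∧ ∃ g : (Fin m ⊕ Fin m → ZMod 2) ≃ₗ[ZMod 2] ((Fin (m - 1) ⊕ Fin (m - 1)) ⊕ Fin 2 → ZMod 2), ∀ v, q v = Cfsg.quadFormMinus (m - 1) (ZMod 2) 1 1 (g v)} =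
        Nat.card {w : Fin m ⊕ Fin m → ZMod 2 // Cfsg.quadFormPlus m (ZMod 2) w = 1} := by
      symm
      apply Nat.card_congr
      refine Equiv.ofBijective
        (fun w : {w : Fin m ⊕ Fin m → ZMod 2 // Cfsg.quadFormPlus m (ZMod 2) w = 1} =>
          (⟨(Phi m w.1).1, (Phi m w.1).2, (Phi_minus_iff m hm w.1).mpr w.2⟩ :
            {q : (Fin m ⊕ Fin m → ZMod 2) → ZMod 2 // (∀ u v : (Fin m ⊕ Fin m → ZMod 2), q (u + v) = q u + q v + (Cfsg.quadFormPlus m (ZMod 2) (u + v) - Cfsg.quadFormPlus m (ZMod 2) u - Cfsg.quadFormPlus m (ZMod 2) v)) ∧ ∃ g : (Fin m ⊕ Fin m → ZMod 2) ≃ₗ[ZMod 2] ((Fin (m - 1) ⊕ Fin (m - 1)) ⊕ Fin 2 → ZMod 2), ∀ v, q v = Cfsg.quadFormMinus (m - 1) (ZMod 2) 1 1 (g v)})) ⟨?_, ?_⟩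
      · intro w w' h
        apply Subtype.ext
        apply Phi_injective m
        apply Subtype.ext
        have h5 := congrArg (fun x => (x.1 : (Fin m ⊕ Fin m → ZMod 2) → ZMod 2)) h
        exact h5
      · rintro ⟨q, hq, hminus⟩
        obtain ⟨w, hw⟩ := (Phi_bijective m).2 ⟨q, hq⟩
        have hw1 : (Phi m w).1 = q := congrArg Subtype.val hw
        refine ⟨⟨w, (Phi_minus_iff m hm w).mp (by rw [hw1]; exact hminus)⟩, ?_⟩
        apply Subtype.ext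
        exact hw1
    rw [hgoal]
    omega

end Cfsg.Agent.S2561
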