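import Cfsg.Statements.S2563
import Mathlib
import Cfsg.Agent.Lib.helper13.QuadF2
import Cfsg.Agent.Lib.helper13.Embed

set_option autoImplicit false
open Cfsg

open Cfsg.Agent.Lib.helper13

namespace Cfsg.Agent.S2563

section Helpers

open Cfsg.Agent.S2562 Cfsg.Agent.S2616 Cfsg.Agent.S2617

noncomputable section

/-- the weight of a vector over `𝔽₂` -/
def wt {n : ℕ} (v : Fin n → ZMod 2) : ℕ := ∑ i, (v i).val

/-- half the weight modulo `2` -/
def qf {n : ℕ} (v : Fin n → ZMod 2) : ZMod 2 := ((wt v / 2 : ℕ) : ZMod 2)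

lemma z2val_add (x y : ZMod 2) : (x + y).val + 2 * (x.val * y.val) = x.val + y.val := by
  revert x y; decide

lemma z2val_add_one (x : ZMod 2) : (x + 1).val + x.val = 1 := by
  revert x; decide

lemma z2_eq_of_add (x y : ZMod 2) (h : x + y = 0) : x = y := by
  revert x y; decide

lemma wt_add {n : ℕ} (u v : Fin n → ZMod 2) :
    wt (u + v) + 2 * ∑ i, (u i).val * (v i).val = wt u + wt v := by
  unfold wt
  rw [Finset.mul_sum, ← Finset.sum_add_distrib, ← Finset.sum_add_distrib]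
  exact Finset.sum_congr rfl (fun i _ => z2val_add (u i) (v i))

lemma wt_cast {n : ℕ} (v : Fin n → ZMod 2) : ((wt v : ℕ) : ZMod 2) = ∑ i, v i := by
  unfold wt
  rw [Nat.cast_sum]
  exact Finset.sum_congr rfl (fun i _ => ZMod.natCast_zmod_val (v i))

lemma wt_even {n : ℕ} (v : Fin n → ZMod 2) (h : ∑ i, v i = 0) : 2 ∣ wt v := by
  rw [← wt_cast] at h
  exact (ZMod.natCast_eq_zero_iff _ _).1 h

lemma wt_zero {n : ℕ} : wt (0 : Fin n → ZMod 2) = 0 := by
  unfold wt
  simp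

lemma qf_zero {n : ℕ} : qf (0 : Fin n → ZMod 2) = 0 := by
  unfold qf
  rw [wt_zero]
  simp

lemma qf_add {n : ℕ} (u v : Fin n → ZMod 2) (hu : ∑ i, u i = 0) (hv : ∑ i, v i = 0) :
    qf (u + v) = qf u + qf v + ∑ i, u i * v i := by
  have h1 := wt_add u v
  obtain ⟨a, ha⟩ := wt_even u hu
  obtain ⟨b, hb⟩ := wt_even v hv
  have huv : ∑ i, (u + v) i = 0 := by simp [Finset.sum_add_distrib, hu, hv]
  obtain ⟨c, hc⟩ := wt_even (u + v) huv
  have h2 : c + ∑ i, (u i).val * (v i).val = a + b := by omega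
  unfold qf
  rw [ha, hb, hc]
  simp only [Nat.mul_div_cancel_left _ (by norm_num : 0 < 2)]
  have h3 := congrArg (Nat.cast : ℕ → ZMod 2) h2
  push_cast at h3
  simp only [ZMod.natCast_zmod_val] at h3
  have h4 := z2_add_self (∑ i, u i * v i)
  linear_combination h3 - h4

lemma wt_perm {n : ℕ} (σ : Equiv.Perm (Fin n)) (v : Fin n → ZMod 2) :
    wt (fun i => v (σ i)) = wt v := by
  unfold wt
  exact Equiv.sum_comp σ (fun i => (v i).val)

lemma wt_add_one {n : ℕ} (v : Fin n → ZMod 2) : wt (fun i => v i + 1) + wt v = n := by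
  unfold wt
  rw [← Finset.sum_add_distrib]
  simp [z2val_add_one]

/-- the map `v ↦ (Σ v, v 0)` -/
def Lmap (k : ℕ) : (Fin (4 * k + 4) → ZMod 2) →ₗ[ZMod 2] (ZMod 2 × ZMod 2) where
  toFun v := (∑ i, v i, v 0)
  map_add' u v := by simp [Finset.sum_add_distrib]
  map_smul' c v := by simp [Finset.mul_sum]

/-- even weight vectors with vanishing coordinate `0` -/
abbrev V0 (k : ℕ) : Submodule (ZMod 2) (Fin (4 * k + 4) → ZMod 2) := LinearMap.ker (Lmap k)

lemma mem_V0 (k : ℕ) (v : Fin (4 * k + 4) → ZMod 2) : v ∈ V0 k ↔ ∑ i, v i = 0 ∧ v 0 = 0 := by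
  rw [LinearMap.mem_ker]
  show (∑ i, v i, v 0) = 0 ↔ _
  exact Prod.mk_eq_zero

lemma hN (k : ℕ) : ((4 * k + 4 : ℕ) : ZMod 2) = 0 := by
  rw [ZMod.natCast_eq_zero_iff]
  omega

lemma finrank_V0 (k : ℕ) : Module.finrank (ZMod 2) (V0 k) = 2 * (2 * k + 1) := by
  have h := LinearMap.finrank_range_add_finrank_ker (Lmap k)
  have h10 : (1 : Fin (4 * k + 4)) ≠ 0 := by
    intro h
    have := congrArg Fin.val h
    simp at this
  have hs : LinearMap.range (Lmap k) = ⊤ := by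
    rw [LinearMap.range_eq_top]
    rintro ⟨a, b⟩
    refine ⟨Pi.single 0 b + Pi.single 1 (a + b), ?_⟩
    show (∑ i, (Pi.single 0 b + Pi.single 1 (a + b) : Fin (4 * k + 4) → ZMod 2) i,
      (Pi.single 0 b + Pi.single 1 (a + b) : Fin (4 * k + 4) → ZMod 2) 0) = (a, b)
    have e1 : ∑ i, (Pi.single 0 b + Pi.single 1 (a + b) : Fin (4 * k + 4) → ZMod 2) i = a := by
      simp only [Pi.add_apply, Finset.sum_add_distrib, Fintype.sum_pi_single']
      linear_combination z2_add_self b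
    have e2 : (Pi.single 0 b + Pi.single 1 (a + b) : Fin (4 * k + 4) → ZMod 2) 0 = b := by
      simp [Pi.single_apply, h10.symm]
    rw [e1, e2]
  rw [hs, finrank_top, Module.finrank_prod, Module.finrank_self, Module.finrank_fin_fun] at h
  show Module.finrank (ZMod 2) (LinearMap.ker (Lmap k)) = _
  clear h10
  omega

lemma polar_qf (k : ℕ) (x y : V0 k) :
    QuadraticMap.polar (fun v : V0 k => qf (v : Fin (4 * k + 4) → ZMod 2)) x y =
      ∑ i, x.1 i * y.1 i := by
  unfold QuadraticMap.polar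
  have hx := ((mem_V0 k x.1).1 x.2).1
  have hy := ((mem_V0 k y.1).1 y.2).1
  show qf (x.1 + y.1) - qf x.1 - qf y.1 = _
  rw [qf_add _ _ hx hy]
  ring

/-- the quadratic form "half the weight" -/
def Qf (k : ℕ) : QuadraticForm (ZMod 2) (V0 k) :=
  QuadraticMap.ofPolar (fun v : V0 k => qf (v : Fin (4 * k + 4) → ZMod 2))
    (by
      intro a x
      rcases z2_cases a with rfl | rfl
      · simp [qf_zero]
      · simp)
    (by
      intro x x' y
      rw [polar_qf, polar_qf, polar_qf, ← Finset.sum_add_distrib]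
      exact Finset.sum_congr rfl (fun i _ => by simp [add_mul]))
    (by
      intro a x y
      rw [polar_qf, polar_qf, smul_eq_mul, Finset.mul_sum]
      exact Finset.sum_congr rfl (fun i _ => by simp [mul_assoc]))

lemma Qf_apply (k : ℕ) (v : V0 k) : Qf k v = qf (v : Fin (4 * k + 4) → ZMod 2) := rfl

lemma polar_Qf (k : ℕ) (x y : V0 k) :
    QuadraticMap.polar (Qf k) x y = ∑ i, x.1 i * y.1 i := polar_qf k x y

lemma Qf_nondeg (k : ℕ) : (QuadraticMap.polarBilin (Qf k)).Nondegenerate := by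
  apply nondeg_of_sep
  intro x hx
  have hx0 := (mem_V0 k x.1).1 x.2
  apply Subtype.ext
  funext i
  show x.1 i = 0
  by_cases hi : i = 0
  · rw [hi]; exact hx0.2
  · have hmem : (1 + Pi.single 0 1 + Pi.single i 1 : Fin (4 * k + 4) → ZMod 2) ∈ V0 k := by
      rw [mem_V0]
      constructor
      · simp only [Pi.add_apply, Pi.one_apply, Finset.sum_add_distrib, Fintype.sum_pi_single',
          Finset.sum_const, Finset.card_univ, Fintype.card_fin, nsmul_eq_mul, mul_one, hN]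
        decide
      · simp only [Pi.add_apply, Pi.one_apply, Pi.single_apply, if_true, if_neg (Ne.symm hi)]
        decide
    have h := hx ⟨_, hmem⟩
    rw [polar_Qf] at h
    simp only [Pi.add_apply, Pi.one_apply, mul_add, Finset.sum_add_distrib, mul_one, hx0.1,
      Pi.single_apply, mul_ite, mul_zero, Finset.sum_ite_eq', Finset.mem_univ, if_true, hx0.2,
      zero_add] at h
    exact h

/-- the action of a permutation on `V0 k` (permute, then project along the all-ones vector) -/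
def rhoFun (k : ℕ) (σ : Equiv.Perm (Fin (4 * k + 4))) (v : V0 k) : V0 k :=
  ⟨fun i => v.1 (σ⁻¹ i) + v.1 (σ⁻¹ 0), by
    rw [mem_V0]
    have hv := (mem_V0 k v.1).1 v.2
    constructor
    · rw [Finset.sum_add_distrib, Equiv.sum_comp σ⁻¹ (fun i => v.1 i), hv.1]
      simp only [Finset.sum_const, Finset.card_univ, Fintype.card_fin, nsmul_eq_mul, hN]
      ring
    · exact z2_add_self _⟩

lemma rhoFun_apply (k : ℕ) (σ : Equiv.Perm (Fin (4 * k + 4))) (v : V0 k) (i : Fin (4 * k + 4)) :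
    (rhoFun k σ v).1 i = v.1 (σ⁻¹ i) + v.1 (σ⁻¹ 0) := rfl

/-- the representation of the symmetric group on `V0 k` -/
def rho (k : ℕ) : Equiv.Perm (Fin (4 * k + 4)) →* Module.End (ZMod 2) (V0 k) where
  toFun σ :=
    { toFun := rhoFun k σ
      map_add' := by
        intro u v
        apply Subtype.ext
        funext i
        show (u + v).1 (σ⁻¹ i) + (u + v).1 (σ⁻¹ 0) =
          (u.1 (σ⁻¹ i) + u.1 (σ⁻¹ 0)) + (v.1 (σ⁻¹ i) + v.1 (σ⁻¹ 0))
        simp only [Submodule.coe_add, Pi.add_apply]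
        ring
      map_smul' := by
        intro c v
        apply Subtype.ext
        funext i
        show (c • v).1 (σ⁻¹ i) + (c • v).1 (σ⁻¹ 0) = c * (v.1 (σ⁻¹ i) + v.1 (σ⁻¹ 0))
        simp only [Submodule.coe_smul, Pi.smul_apply, smul_eq_mul]
        ring }
  map_one' := by
    apply LinearMap.ext
    intro v
    apply Subtype.ext
    funext i
    show v.1 ((1 : Equiv.Perm (Fin (4 * k + 4)))⁻¹ i) +
      v.1 ((1 : Equiv.Perm (Fin (4 * k + 4)))⁻¹ 0) = v.1 i
    have hv := (mem_V0 k v.1).1 v.2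
    simp [hv.2]
  map_mul' := by
    intro σ τ
    apply LinearMap.ext
    intro v
    apply Subtype.ext
    funext i
    show v.1 ((σ * τ)⁻¹ i) + v.1 ((σ * τ)⁻¹ 0) =
      (v.1 (τ⁻¹ (σ⁻¹ i)) + v.1 (τ⁻¹ 0)) + (v.1 (τ⁻¹ (σ⁻¹ 0)) + v.1 (τ⁻¹ 0))
    rw [_root_.mul_inv_rev, Equiv.Perm.mul_apply, Equiv.Perm.mul_apply]
    linear_combination (-1 : ZMod 2) * z2_add_self (v.1 (τ⁻¹ 0))

lemma rho_apply (k : ℕ) (σ : Equiv.Perm (Fin (4 * k + 4))) (v : V0 k) (i : Fin (4 * k + 4)) :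
    (rho k σ v).1 i = v.1 (σ⁻¹ i) + v.1 (σ⁻¹ 0) := rfl

lemma qf_rho (k : ℕ) (σ : Equiv.Perm (Fin (4 * k + 4))) (v : V0 k) :
    Qf k (rho k σ v) = Qf k v := by
  show qf (fun i => v.1 (σ⁻¹ i) + v.1 (σ⁻¹ 0)) = qf v.1
  have hv := (mem_V0 k v.1).1 v.2
  have hw : wt (fun i => v.1 (σ⁻¹ i)) = wt v.1 := wt_perm σ⁻¹ v.1
  rcases z2_cases (v.1 (σ⁻¹ 0)) with h | h
  · rw [h]
    simp only [add_zero]
    unfold qf
    rw [hw]
  · rw [h]
    have h1 := wt_add_one (fun i => v.1 (σ⁻¹ i))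
    rw [hw] at h1
    obtain ⟨a, ha⟩ := wt_even v.1 hv.1
    obtain ⟨b, hb⟩ : ∃ b, b + a = 2 * (k + 1) := ⟨2 * k + 2 - a, by omega⟩
    have h2 : wt (fun i => v.1 (σ⁻¹ i) + 1) = 2 * b := by omega
    unfold qf
    rw [h2, ha, Nat.mul_div_cancel_left _ (by norm_num : 0 < 2),
      Nat.mul_div_cancel_left _ (by norm_num : 0 < 2)]
    have h4 := congrArg (Nat.cast : ℕ → ZMod 2) hb
    push_cast at h4
    have h20 : (2 : ZMod 2) = 0 := by decide
    rw [h20, zero_mul] at h4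
    exact z2_eq_of_add _ _ h4

lemma exists_notMem (k : ℕ) (hk : 1 ≤ k) (s : Finset (Fin (4 * k + 4))) (hs : s.card ≤ 4) :
    ∃ i, i ∉ s := by
  by_contra h
  push_neg at h
  have h1 : s = Finset.univ := Finset.eq_univ_iff_forall.2 h
  rw [h1, Finset.card_univ, Fintype.card_fin] at hs
  omega

lemma pair_mem (k : ℕ) (x y : Fin (4 * k + 4)) (hx : x ≠ 0) (hy : y ≠ 0) :
    (Pi.single x 1 + Pi.single y 1 : Fin (4 * k + 4) → ZMod 2) ∈ V0 k := by
  rw [mem_V0]
  constructor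
  · simp only [Pi.add_apply, Finset.sum_add_distrib, Fintype.sum_pi_single']
    decide
  · simp only [Pi.add_apply, Pi.single_apply, if_neg (Ne.symm hx), if_neg (Ne.symm hy)]
    decide

lemma rho_inj (k : ℕ) (hk : 1 ≤ k) : Function.Injective (rho k) := by
  rw [injective_iff_map_eq_one]
  intro σ hσ
  have key : ∀ v : Fin (4 * k + 4) → ZMod 2, v ∈ V0 k → ∀ i, v (σ⁻¹ i) + v (σ⁻¹ 0) = v i := by
    intro v hv i
    have h := congrArg (fun f : Module.End (ZMod 2) (V0 k) => (f ⟨v, hv⟩).1 i) hσ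
    exact h
  obtain ⟨τ, hτ⟩ : ∃ τ : Equiv.Perm (Fin (4 * k + 4)), τ = σ⁻¹ := ⟨_, rfl⟩
  rw [← hτ] at key
  have h0 : τ 0 = 0 := by
    by_contra ht
    obtain ⟨y, hy⟩ := exists_notMem k hk {0, τ 0} (le_trans (Finset.card_le_two) (by norm_num))
    simp only [Finset.mem_insert, Finset.mem_singleton, not_or] at hy
    obtain ⟨i, hi⟩ := exists_notMem k hk {0, τ⁻¹ y, τ 0, y} Finset.card_le_four
    simp only [Finset.mem_insert, Finset.mem_singleton, not_or] at hi
    have h := key _ (pair_mem k (τ 0) y ht hy.1) i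
    have h1 : τ i ≠ τ 0 := fun h => hi.1 (τ.injective h)
    have h2 : τ i ≠ y := fun h => hi.2.1 (by rw [← h]; simp)
    simp only [Pi.add_apply, Pi.single_apply, if_neg h1, if_neg h2, if_true, if_neg hi.2.2.1,
      if_neg hi.2.2.2, if_neg (Ne.symm hy.2)] at h
    revert h
    decide
  have hfix : ∀ a, τ a = a := by
    intro a
    by_contra ha
    have ha0 : a ≠ 0 := fun h => ha (by rw [h]; exact h0)
    obtain ⟨y, hy⟩ := exists_notMem k hk {0, a, τ a}
      (le_trans (Finset.card_le_three) (by norm_num))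
    simp only [Finset.mem_insert, Finset.mem_singleton, not_or] at hy
    have h := key _ (pair_mem k a y ha0 hy.1) a
    have h3 : (0 : Fin (4 * k + 4)) ≠ y := Ne.symm hy.1
    simp only [Pi.add_apply, Pi.single_apply, if_neg ha, if_neg (Ne.symm hy.2.2), h0,
      if_neg (Ne.symm ha0), if_neg h3, if_true, if_neg (Ne.symm hy.2.1)] at h
    revert h
    decide
  have h1 : τ = 1 := Equiv.ext hfix
  rw [hτ] at h1
  exact inv_eq_one.1 h1

lemma ind4 (w : ℕ) :
    (1 ^ w + Complex.I ^ w + (-1) ^ w + (-Complex.I) ^ w : ℂ) = if 4 ∣ w then 4 else 0 := by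
  obtain ⟨q, r, hr, rfl⟩ : ∃ q r, r < 4 ∧ w = 4 * q + r :=
    ⟨w / 4, w % 4, Nat.mod_lt _ (by norm_num), (Nat.div_add_mod w 4).symm⟩
  have h1 : Complex.I ^ (4 * q + r) = Complex.I ^ r := by
    rw [pow_add, pow_mul, Complex.I_pow_four, one_pow, one_mul]
  have h2 : (-1 : ℂ) ^ (4 * q + r) = (-1) ^ r := by
    rw [pow_add, pow_mul]
    norm_num
  have h3 : (-Complex.I) ^ (4 * q + r) = (-Complex.I) ^ r := by
    rw [pow_add, pow_mul, neg_pow, Complex.I_pow_four]
    norm_num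
  rw [h1, h2, h3, one_pow]
  interval_cases r
  · have h : 4 ∣ 4 * q + 0 := by omega
    rw [if_pos h]
    norm_num
  · have h : ¬ (4 ∣ 4 * q + 1) := by omega
    rw [if_neg h]
    ring
  · have h : ¬ (4 ∣ 4 * q + 2) := by omega
    rw [if_neg h, neg_sq, Complex.I_sq]
    norm_num
  · have h : ¬ (4 ∣ 4 * q + 3) := by omega
    rw [if_neg h, Odd.neg_pow (by decide : Odd 3), Odd.neg_pow (by decide : Odd 3),
      Complex.I_pow_three]
    ring

lemma sum_z2 (g : ZMod 2 → ℂ) : ∑ x, g x = g 0 + g 1 := Fin.sum_univ_two g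

lemma charsum (n : ℕ) (z : ℂ) :
    ∑ v : Fin (n + 1) → ZMod 2, (if v 0 = 0 then (1 : ℂ) else 0) * z ^ wt v = (1 + z) ^ n := by
  have key : ∀ v : Fin (n + 1) → ZMod 2, (if v 0 = 0 then (1 : ℂ) else 0) * z ^ wt v =
      ∏ i, (if i = 0 then (if v i = 0 then (1 : ℂ) else 0) else z ^ (v i).val) := by
    intro v
    unfold wt
    rw [← Finset.prod_pow_eq_pow_sum, Fin.prod_univ_succ, Fin.prod_univ_succ]
    simp only [if_true, Fin.succ_ne_zero, if_false]
    by_cases h : v 0 = 0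
    · rw [h]
      simp
    · simp [h]
  rw [Finset.sum_congr rfl (fun v _ => key v)]
  have h2 := Finset.prod_univ_sum (fun _ : Fin (n + 1) => (Finset.univ : Finset (ZMod 2)))
    (fun (i : Fin (n + 1)) (x : ZMod 2) =>
      (if i = 0 then (if x = 0 then (1 : ℂ) else 0) else z ^ x.val))
  rw [Fintype.piFinset_univ] at h2
  rw [← h2, Fin.prod_univ_succ]
  simp only [if_true, Fin.succ_ne_zero, if_false, sum_z2]
  have hv1 : (1 : ZMod 2).val = 1 := rfl
  simp [hv1]

lemma count_eq (k : ℕ) :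
    ((Nat.card {v : Fin (4 * k + 4) → ZMod 2 // v 0 = 0 ∧ 4 ∣ wt v} : ℕ) : ℂ) * 4 =
      2 ^ (4 * k + 3) - 4 * (-4) ^ k := by
  classical
  rw [Nat.card_eq_fintype_card, Fintype.card_subtype, Finset.card_filter]
  push_cast
  rw [Finset.sum_mul]
  have h : ∀ v : Fin (4 * k + 4) → ZMod 2, ((if v 0 = 0 ∧ 4 ∣ wt v then 1 else 0 : ℂ)) * 4 =
      (if v 0 = 0 then (1 : ℂ) else 0) * 1 ^ wt v +
      (if v 0 = 0 then (1 : ℂ) else 0) * Complex.I ^ wt v +
      (if v 0 = 0 then (1 : ℂ) else 0) * (-1) ^ wt v +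
      (if v 0 = 0 then (1 : ℂ) else 0) * (-Complex.I) ^ wt v := by
    intro v
    have h4 := ind4 (wt v)
    by_cases h0 : v 0 = 0
    · by_cases h4' : 4 ∣ wt v
      · rw [if_pos h4'] at h4
        rw [if_pos ⟨h0, h4'⟩, if_pos h0]
        linear_combination -h4
      · rw [if_neg h4'] at h4
        rw [if_neg (fun h => h4' h.2), if_pos h0]
        linear_combination -h4
    · rw [if_neg (fun h => h0 h.1), if_neg h0]
      ring
  rw [Finset.sum_congr rfl (fun v _ => h v)]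
  rw [Finset.sum_add_distrib, Finset.sum_add_distrib, Finset.sum_add_distrib]
  have c1 := charsum (4 * k + 3) 1
  have c2 := charsum (4 * k + 3) Complex.I
  have c3 := charsum (4 * k + 3) (-1)
  have c4 := charsum (4 * k + 3) (-Complex.I)
  rw [c1, c2, c3, c4]
  have e0 : (2 * Complex.I) ^ 2 = -4 := by
    rw [mul_pow, Complex.I_sq]
    norm_num
  have e1 : (1 + Complex.I) ^ 2 = 2 * Complex.I := by
    rw [add_sq, Complex.I_sq]
    ring
  have e2 : (1 + -Complex.I) ^ 2 = -(2 * Complex.I) := by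
    rw [add_sq, neg_sq, Complex.I_sq]
    ring
  have e3 : (1 + Complex.I) ^ (4 * k + 3) = (-4) ^ k * (2 * Complex.I - 2) := by
    have e : 4 * k + 3 = 2 * (2 * k + 1) + 1 := by ring
    rw [e, pow_succ, pow_mul, e1, pow_succ, pow_mul, e0]
    linear_combination (2 * (-4) ^ k) * Complex.I_mul_I
  have e4 : (1 + -Complex.I) ^ (4 * k + 3) = (-4) ^ k * (-(2 * Complex.I) - 2) := by
    have e : 4 * k + 3 = 2 * (2 * k + 1) + 1 := by ring
    rw [e, pow_succ, pow_mul, e2, pow_succ, pow_mul, neg_sq, e0]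
    linear_combination (2 * (-4) ^ k) * Complex.I_mul_I
  rw [e3, e4]
  have e5 : (1 + (-1 : ℂ)) ^ (4 * k + 3) = 0 := by
    rw [add_neg_cancel]
    exact zero_pow (by omega)
  rw [e5]
  have e6 : (1 + 1 : ℂ) = 2 := by norm_num
  rw [e6]
  ring

/-- singular vectors of `Qf k` are the vectors of weight divisible by `4` -/
def singEquiv (k : ℕ) :
    {v : V0 k // Qf k v = 0} ≃ {v : Fin (4 * k + 4) → ZMod 2 // v 0 = 0 ∧ 4 ∣ wt v} where
  toFun v := ⟨v.1.1, by
    have hv := (mem_V0 k v.1.1).1 v.1.2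
    refine ⟨hv.2, ?_⟩
    have h1 : qf v.1.1 = 0 := v.2
    unfold qf at h1
    rw [ZMod.natCast_eq_zero_iff] at h1
    have h2 := wt_even v.1.1 hv.1
    omega⟩
  invFun v := ⟨⟨v.1, by
    rw [mem_V0]
    refine ⟨?_, v.2.1⟩
    rw [← wt_cast, ZMod.natCast_eq_zero_iff]
    have := v.2.2
    omega⟩, by
    show qf v.1 = 0
    unfold qf
    rw [ZMod.natCast_eq_zero_iff]
    have := v.2.2
    omega⟩
  left_inv v := rfl
  right_inv v := rfl

lemma pow_facts (k : ℕ) : (2 : ℕ) ^ (4 * k + 3) = 8 * (4 ^ k * 4 ^ k) ∧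
    (2 : ℕ) ^ (4 * k + 1) = 2 * (4 ^ k * 4 ^ k) ∧ (2 : ℕ) ^ (2 * k) = 4 ^ k := by
  have h1 : (2 : ℕ) ^ (2 * k) = 4 ^ k := by
    rw [pow_mul]
    norm_num
  have h2 : (2 : ℕ) ^ (4 * k) = 4 ^ k * 4 ^ k := by
    rw [show 4 * k = 2 * k + 2 * k by ring, pow_add, h1]
  refine ⟨?_, ?_, h1⟩
  · rw [pow_add, h2]
    ring
  · rw [pow_add, h2]
    ring

theorem types (k : ℕ) :
    (Odd k → ∃ g : V0 k ≃ₗ[ZMod 2] (Fin (2 * k + 1) ⊕ Fin (2 * k + 1) → ZMod 2),
      ∀ v, Qf k v = Cfsg.quadFormPlus (2 * k + 1) (ZMod 2) (g v)) ∧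
    (Even k → ∃ g : V0 k ≃ₗ[ZMod 2] ((Fin (2 * k) ⊕ Fin (2 * k)) ⊕ Fin 2 → ZMod 2),
      ∀ v, Qf k v = Cfsg.quadFormMinus (2 * k) (ZMod 2) 1 1 (g v)) := by
  have hc := count_eq k
  rw [← Nat.card_congr (singEquiv k)] at hc
  obtain ⟨p1, p2, p3⟩ := pow_facts k
  have hpos : 0 < 4 ^ k := by positivity
  rcases quad_classify (finrank_V0 k) (Qf k) (Qf_nondeg k) with ⟨g, hg⟩ | ⟨k', ζ, hk', hζ, g, hg⟩
  · have h2 : Nat.card {v : V0 k // Qf k v = 0} =
        Nat.card {v : Fin (2 * k + 1) ⊕ Fin (2 * k + 1) → ZMod 2 //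
          Cfsg.quadFormPlus (2 * k + 1) (ZMod 2) v = 0} :=
      Nat.card_congr (Equiv.subtypeEquiv g.toEquiv (fun v => by rw [hg]; rfl))
    have h3 := card_plus_two (2 * k + 1) (by omega)
    have e1 : 2 * (2 * k + 1) - 1 = 4 * k + 1 := by omega
    have e2 : 2 * k + 1 - 1 = 2 * k := by omega
    rw [e1, e2, p2, p3] at h3
    constructor
    · intro _
      exact ⟨g, hg⟩
    · intro hk
      exfalso
      rw [Even.neg_pow hk] at hc
      have hc' : (Nat.card {v : V0 k // Qf k v = 0} : ℂ) * 4 + 4 * 4 ^ k = 2 ^ (4 * k + 3) := by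
        linear_combination hc
      have hc'' : Nat.card {v : V0 k // Qf k v = 0} * 4 + 4 * 4 ^ k = 2 ^ (4 * k + 3) := by
        exact_mod_cast hc'
      rw [p1] at hc''
      omega
  · obtain rfl : k' = 2 * k := by omega
    have hζ1 : ζ = 1 := by
      rcases z2_cases ζ with h | h
      · exfalso
        exact hζ 0 (by rw [h]; decide)
      · exact h
    subst hζ1
    have h2 : Nat.card {v : V0 k // Qf k v = 0} =
        Nat.card {v : (Fin (2 * k) ⊕ Fin (2 * k)) ⊕ Fin 2 → ZMod 2 //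
          Cfsg.quadFormMinus (2 * k) (ZMod 2) 1 1 v = 0} :=
      Nat.card_congr (Equiv.subtypeEquiv g.toEquiv (fun v => by rw [hg]; rfl))
    have h3 := card_minus_two (2 * k)
    have e1 : 2 * (2 * k) + 1 = 4 * k + 1 := by omega
    rw [e1, p2, p3] at h3
    constructor
    · intro hk
      exfalso
      rw [Odd.neg_pow hk] at hc
      have hc' : (Nat.card {v : V0 k // Qf k v = 0} : ℂ) * 4 = 2 ^ (4 * k + 3) + 4 * 4 ^ k := by
        linear_combination hc
      have hc'' : Nat.card {v : V0 k // Qf k v = 0} * 4 = 2 ^ (4 * k + 3) + 4 * 4 ^ k := by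
        exact_mod_cast hc'
      rw [p1] at hc''
      omega
    · intro _
      exact ⟨g, hg⟩

end

end Helpers

/-- For k ≥ 1 the symmetric group of degree 4k + 4 embeds in a full orthogonal group in dimension 4k + 2 over the field of two elements: in the isometry group of the plus-type form Σ xᵢyᵢ when k is odd, and in that of the minus-type form Σ xᵢyᵢ + (z₁² + z₁z₂ + z₂²) when k is even (through its action on even partitions of a (4k+4)-set, with the form 'half the size of a part, modulo 2'). -/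
theorem result (k : ℕ) (hk : 1 ≤ k) :
    (Odd k → ∃ φ : Equiv.Perm (Fin (4 * k + 4)) →* ↥(Cfsg.isometryGroup (ZMod 2) (Cfsg.quadFormPlus (2 * k + 1) (ZMod 2))), Function.Injective φ) ∧
    (Even k → ∃ φ : Equiv.Perm (Fin (4 * k + 4)) →* ↥(Cfsg.isometryGroup (ZMod 2) (Cfsg.quadFormMinus (2 * k) (ZMod 2) 1 1)), Function.Injective φ) := by
  obtain ⟨h1, h2⟩ := types k
  constructor
  · intro hodd
    obtain ⟨g, hg⟩ := h1 hodd
    exact embed_isom (rho k) (rho_inj k hk) _ g (fun σ v => by rw [← hg, ← hg, qf_rho])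
  · intro hev
    obtain ⟨g, hg⟩ := h2 hev
    exact embed_isom (rho k) (rho_inj k hk) _ g (fun σ v => by rw [← hg, ← hg, qf_rho])

end Cfsg.Agent.S2563
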