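import Cfsg.Statements.S2564
import Mathlib
import Cfsg.Agent.Lib.helper13.QuadF2

set_option autoImplicit false
open Cfsg

namespace Cfsg.Agent.S2564

/-- On the 2m-dimensional space over the field of two elements (m ≥ 1) let f be the alternating form obtained by polarizing the plus-type form Σ xᵢyᵢ, and let q be any quadratic form polarizing to f. For a vector w, the function q + f(·, w) again polarizes to f, and it is equivalent to q under an invertible linear map (that is, has the same type) if and only if q(w) = 0. -/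
theorem result (m : ℕ) (hm : 1 ≤ m) (q : (Fin m ⊕ Fin m → ZMod 2) → ZMod 2) (hq : (∀ u v : (Fin m ⊕ Fin m → ZMod 2), q (u + v) = q u + q v + (Cfsg.quadFormPlus m (ZMod 2) (u + v) - Cfsg.quadFormPlus m (ZMod 2) u - Cfsg.quadFormPlus m (ZMod 2) v))) (w : (Fin m ⊕ Fin m → ZMod 2)) :
    (∀ u v : (Fin m ⊕ Fin m → ZMod 2), (q (u + v) + (Cfsg.quadFormPlus m (ZMod 2) (u + v + w) - Cfsg.quadFormPlus m (ZMod 2) (u + v) - Cfsg.quadFormPlus m (ZMod 2) w)) =
        (q u + (Cfsg.quadFormPlus m (ZMod 2) (u + w) - Cfsg.quadFormPlus m (ZMod 2) u - Cfsg.quadFormPlus m (ZMod 2) w)) + (q v + (Cfsg.quadFormPlus m (ZMod 2) (v + w) - Cfsg.quadFormPlus m (ZMod 2) v - Cfsg.quadFormPlus m (ZMod 2) w)) +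
        (Cfsg.quadFormPlus m (ZMod 2) (u + v) - Cfsg.quadFormPlus m (ZMod 2) u - Cfsg.quadFormPlus m (ZMod 2) v)) ∧
    ((∃ g : (Fin m ⊕ Fin m → ZMod 2) ≃ₗ[ZMod 2] (Fin m ⊕ Fin m → ZMod 2), ∀ v, q v + (Cfsg.quadFormPlus m (ZMod 2) (v + w) - Cfsg.quadFormPlus m (ZMod 2) v - Cfsg.quadFormPlus m (ZMod 2) w) = q (g v)) ↔ q w = 0) := by
  classical
  have hq' : Cfsg.Agent.Lib.helper13.Pol m q := hq
  have hsh := Cfsg.Agent.Lib.helper13.pol_shift m q hq' w
  refine ⟨fun u v => hsh u v, ?_⟩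
  have h2m : (2 : ℕ) ^ (2 * m) = 2 * 2 ^ (2 * m - 1) := by
    have : 2 * m = (2 * m - 1) + 1 := by omega
    conv_lhs => rw [this, pow_succ]
    ring
  have hpos : 0 < 2 ^ (m - 1) := by positivity
  constructor
  · rintro ⟨g, hg⟩
    by_contra hw
    have h1 : Nat.card {v : Fin m ⊕ Fin m → ZMod 2 // q v + (Cfsg.quadFormPlus m (ZMod 2) (v + w) -
        Cfsg.quadFormPlus m (ZMod 2) v - Cfsg.quadFormPlus m (ZMod 2) w) = 0} =
        Nat.card {u : Fin m ⊕ Fin m → ZMod 2 // q u = 0} :=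
      Nat.card_congr (Equiv.subtypeEquiv g.toEquiv (fun v => by rw [hg]; rfl))
    have h3 := Cfsg.Agent.Lib.helper13.card_shift_one m q hq' w hw
    rw [h1, h2m] at h3
    rcases Cfsg.Agent.Lib.helper13.card_zero_cases m hm q hq' with h4 | h4 <;> omega
  · intro hw
    have h1 := Cfsg.Agent.Lib.helper13.card_shift_zero m q hq' w hw
    rcases Cfsg.Agent.Lib.helper13.pol_classify m q hq' with ⟨g₁, hg₁⟩ | ⟨g₁, hg₁⟩
    · have h3 := (Cfsg.Agent.Lib.helper13.type_plus_iff m hm q hq').mp ⟨g₁, hg₁⟩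
      rw [← h1] at h3
      obtain ⟨g₂, hg₂⟩ := (Cfsg.Agent.Lib.helper13.type_plus_iff m hm _ hsh).mpr h3
      refine ⟨g₂.trans g₁.symm, fun v => ?_⟩
      have h5 := hg₂ v
      rw [h5, hg₁]
      simp
    · have h3 := (Cfsg.Agent.Lib.helper13.type_minus_iff m hm q hq').mp ⟨g₁, hg₁⟩
      rw [← h1] at h3
      obtain ⟨g₂, hg₂⟩ := (Cfsg.Agent.Lib.helper13.type_minus_iff m hm _ hsh).mpr h3
      refine ⟨g₂.trans g₁.symm, fun v => ?_⟩
      have h5 := hg₂ v
      rw [h5, hg₁]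
      simp

end Cfsg.Agent.S2564
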