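import Cfsg.Statements.S2565
-- import your own Cfsg.Agent.* helpers here
import Cfsg.Agent.Lib.helper6.Perm8

set_option autoImplicit false
open Cfsg

namespace Cfsg.Agent.S2565

/-- The commutator subgroup of the full orthogonal group of the plus-type form Σ xᵢyᵢ in dimension 6 over the field of two elements (the group Ω⁺₆(2), of index 2) is isomorphic to the alternating group of degree 8. -/
theorem result :
    (Cfsg.Omega (ZMod 2) (Cfsg.quadFormPlus 3 (ZMod 2))).index = 2 ∧
    Nonempty (↥(Cfsg.Omega (ZMod 2) (Cfsg.quadFormPlus 3 (ZMod 2))) ≃* alternatingGroup (Fin 8)) := by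
  obtain ⟨e⟩ := Cfsg.Agent.Lib.helper6.go6_plus_perm8 (F := ZMod 2) (by rw [ZMod.card])
  have hmap : (commutator ↥(Cfsg.isometryGroup (ZMod 2) (Cfsg.quadFormPlus 3 (ZMod 2)))).map
      (e : ↥(Cfsg.isometryGroup (ZMod 2) (Cfsg.quadFormPlus 3 (ZMod 2))) →* Equiv.Perm (Fin 8)) =
      alternatingGroup (Fin 8) := by
    rw [commutator_def, Subgroup.map_commutator, ← MonoidHom.range_eq_map,
      MonoidHom.range_eq_top.mpr e.surjective, ← commutator_def,
      alternatingGroup.commutator_perm_eq (by simp)]
  constructor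
  · have h1 := Subgroup.index_map_equiv
      (commutator ↥(Cfsg.isometryGroup (ZMod 2) (Cfsg.quadFormPlus 3 (ZMod 2)))) e
    rw [hmap, alternatingGroup.index_eq_two] at h1
    exact h1.symm
  · exact ⟨(e.subgroupMap (commutator _)).trans (MulEquiv.subgroupCongr hmap)⟩

end Cfsg.Agent.S2565
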