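import Cfsg.Statements.S2566
import Mathlib

set_option autoImplicit false
open Cfsg

namespace Cfsg.Agent.S2566

section Helpers

open Matrix

abbrev I4 := Fin 2 ⊕ Fin 2
abbrev V4 := I4 → ZMod 2
abbrev Q4 : V4 → ZMod 2 := Cfsg.quadFormPlus 2 (ZMod 2)
abbrev O4 : Subgroup (GL I4 (ZMod 2)) := Cfsg.isometryGroup (ZMod 2) (Cfsg.quadFormPlus 2 (ZMod 2))

/-- the three nonzero vectors of an anisotropic plane -/
def pv : Fin 3 → V4 := fun k i =>
  match k, i with
  | 0, .inl 0 => 1 | 0, .inl 1 => 0 | 0, .inr 0 => 1 | 0, .inr 1 => 0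
  | 1, .inl 0 => 1 | 1, .inl 1 => 1 | 1, .inr 0 => 0 | 1, .inr 1 => 1
  | 2, .inl 0 => 0 | 2, .inl 1 => 1 | 2, .inr 0 => 1 | 2, .inr 1 => 1

/-- the isometry permuting the three vectors `pv` and fixing their orthogonal complement -/
def Mm (σ : Equiv.Perm (Fin 3)) : Matrix I4 I4 (ZMod 2) := fun i j =>
  (if i = j then 1 else 0) + (pv (σ 0) i + pv 0 i) * pv 1 (Sum.swap j)
    + (pv (σ 1) i + pv 1 i) * pv 0 (Sum.swap j)

/-- the isometry interchanging the two hyperbolic planes -/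
def Gm : Matrix I4 I4 (ZMod 2) := fun i j =>
  match i, j with
  | .inl a, .inl b => if a = b then 0 else 1
  | .inr a, .inr b => if a = b then 0 else 1
  | _, _ => 0

set_option maxRecDepth 1000000 in
set_option maxHeartbeats 40000000 in
theorem D1 : ∀ σ τ : Equiv.Perm (Fin 3), Mm (σ * τ) = Mm σ * Mm τ := by decide

set_option maxRecDepth 1000000 in
theorem D2 : Mm 1 = 1 := by decide

set_option maxRecDepth 1000000 in
set_option maxHeartbeats 40000000 in
theorem D3 : ∀ (σ : Equiv.Perm (Fin 3)) (v : V4), Q4 (Mm σ *ᵥ v) = Q4 v := by decide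

set_option maxRecDepth 1000000 in
theorem D4 : ∀ σ : Equiv.Perm (Fin 3), Mm σ = 1 → σ = 1 := by decide

set_option maxRecDepth 1000000 in
set_option maxHeartbeats 40000000 in
theorem D5 : ∀ σ τ : Equiv.Perm (Fin 3),
    Mm σ * (Gm * Mm τ * Gm) = (Gm * Mm τ * Gm) * Mm σ := by decide

set_option maxRecDepth 1000000 in
set_option maxHeartbeats 40000000 in
theorem D6 : ∀ σ τ : Equiv.Perm (Fin 3), Mm σ = Gm * Mm τ * Gm → σ = 1 := by decide

set_option maxRecDepth 1000000 in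
theorem G1 : Gm * Gm = 1 := by decide

set_option maxRecDepth 1000000 in
theorem G2 : ∀ (v : V4), Q4 (Gm *ᵥ v) = Q4 v := by decide

def e1 : V4 := Pi.single (Sum.inl 0) 1
def e2 : V4 := Pi.single (Sum.inl 1) 1
def f1 : V4 := Pi.single (Sum.inr 0) 1
def f2 : V4 := Pi.single (Sum.inr 1) 1

/-- the admissible images of `(e1, f1, e2)` -/
def T3 : Finset (V4 × V4 × V4) :=
  Finset.univ.filter (fun p : V4 × V4 × V4 => Q4 p.1 = 0 ∧ Q4 p.2.1 = 0 ∧ Q4 (p.1 + p.2.1) = 1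
    ∧ Q4 p.2.2 = 0 ∧ p.2.2 ≠ 0 ∧ Q4 (p.1 + p.2.2) = 0 ∧ Q4 (p.2.1 + p.2.2) = 0)

set_option maxRecDepth 1000000 in
set_option maxHeartbeats 40000000 in
theorem T3_card : T3.card = 72 := by decide

set_option maxRecDepth 1000000 in
theorem basis_vals : Q4 e1 = 0 ∧ Q4 f1 = 0 ∧ Q4 e2 = 0 ∧ Q4 f2 = 0 ∧ Q4 (e1 + f1) = 1 ∧
    Q4 (e1 + e2) = 0 ∧ Q4 (f1 + e2) = 0 ∧ Q4 (e2 + f2) = 1 ∧ Q4 (f2 + e1) = 0 ∧ Q4 (f2 + f1) = 0 ∧
    Q4 (f2 + e2) = 1 := by decide

set_option maxRecDepth 1000000 in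
theorem f2_unique : ∀ v : V4, Q4 v = 0 → Q4 (v + e1) = 0 → Q4 (v + f1) = 0 → Q4 (v + e2) = 1 →
    v = f2 := by decide

theorem mem_O4 (g : GL I4 (ZMod 2)) : g ∈ O4 ↔
    ∀ u : V4, Q4 ((g : Matrix I4 I4 (ZMod 2)) *ᵥ u) = Q4 u :=
  ⟨fun h u => h u u, fun h u _ => h u⟩

theorem inv_mulVec_eq (g : GL I4 (ZMod 2)) (v w : V4)
    (h : (g : Matrix I4 I4 (ZMod 2)) *ᵥ v = w) :
    ((g⁻¹ : GL I4 (ZMod 2)) : Matrix I4 I4 (ZMod 2)) *ᵥ w = v := by
  rw [← h, Matrix.mulVec_mulVec, Units.inv_mul, Matrix.one_mulVec]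

/-- the invertible matrix of `Mm σ` -/
def lamU (σ : Equiv.Perm (Fin 3)) : GL I4 (ZMod 2) :=
  ⟨Mm σ, Mm σ⁻¹, by rw [← D1, mul_inv_cancel, D2], by rw [← D1, inv_mul_cancel, D2]⟩

/-- the embedding of the symmetric group of degree 3 -/
def lam : Equiv.Perm (Fin 3) →* ↥O4 where
  toFun σ := ⟨lamU σ, fun u _ => D3 σ u⟩
  map_one' := Subtype.ext (Units.ext D2)
  map_mul' σ τ := Subtype.ext (Units.ext (D1 σ τ))

theorem lam_inj : Function.Injective lam := by
  rw [injective_iff_map_eq_one]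
  intro σ h
  exact D4 σ (congrArg (fun x : ↥O4 => ((x : GL I4 (ZMod 2)) : Matrix I4 I4 (ZMod 2))) h)

/-- the swap of the two planes as an isometry -/
def gO : ↥O4 := ⟨⟨Gm, Gm, G1, G1⟩, fun u _ => G2 u⟩

theorem card_O4_le : Nat.card ↥O4 ≤ 72 := by
  obtain ⟨b1, b2, b3, b4, b5, b6, b7, b8, b9, b10, b11⟩ := basis_vals
  have hadd : ∀ (g : ↥O4) (u v : V4), Q4 ((g.1 : Matrix I4 I4 (ZMod 2)) *ᵥ u +
      (g.1 : Matrix I4 I4 (ZMod 2)) *ᵥ v) = Q4 (u + v) := by
    intro g u v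
    rw [← Matrix.mulVec_add]
    exact g.2 _ (u + v)
  have hmem : ∀ g : ↥O4, ((g.1 : Matrix I4 I4 (ZMod 2)) *ᵥ e1,
      (g.1 : Matrix I4 I4 (ZMod 2)) *ᵥ f1, (g.1 : Matrix I4 I4 (ZMod 2)) *ᵥ e2) ∈ T3 := by
    intro g
    rw [T3, Finset.mem_filter]
    refine ⟨Finset.mem_univ _, ?_, ?_, ?_, ?_, ?_, ?_, ?_⟩
    · exact (g.2 e1 e1).trans b1
    · exact (g.2 f1 f1).trans b2
    · exact (hadd g e1 f1).trans b5
    · exact (g.2 e2 e2).trans b3
    · intro h0
      have h1 := hadd g e2 f2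
      have h0' : (g.1 : Matrix I4 I4 (ZMod 2)) *ᵥ e2 = 0 := h0
      rw [h0', zero_add, b8] at h1
      have h2 : Q4 ((g.1 : Matrix I4 I4 (ZMod 2)) *ᵥ f2) = Q4 f2 := g.2 f2 f2
      rw [h2, b4] at h1
      exact zero_ne_one h1
    · exact (hadd g e1 e2).trans b6
    · exact (hadd g f1 e2).trans b7
  let Φ : ↥O4 → ↥T3 := fun g => ⟨_, hmem g⟩
  have hinj : Function.Injective Φ := by
    intro g g' hgg
    have hgg' := congrArg Subtype.val hgg
    simp only [Φ, Prod.mk.injEq] at hgg'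
    obtain ⟨h1, h2, h3⟩ := hgg'
    let h : ↥O4 := g⁻¹ * g'
    have hm : ∀ v : V4, (g.1 : Matrix I4 I4 (ZMod 2)) *ᵥ v = (g'.1 : Matrix I4 I4 (ZMod 2)) *ᵥ v →
        (h.1 : Matrix I4 I4 (ZMod 2)) *ᵥ v = v := by
      intro v hv
      show (((g⁻¹ : ↥O4) : GL I4 (ZMod 2)) * (g' : GL I4 (ZMod 2)) : GL I4 (ZMod 2)).1 *ᵥ v = v
      rw [Units.val_mul, ← Matrix.mulVec_mulVec, ← hv]
      exact inv_mulVec_eq g.1 v _ rfl
    have he1 := hm e1 h1
    have hf1 := hm f1 h2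
    have he2 := hm e2 h3
    have hf2 : (h.1 : Matrix I4 I4 (ZMod 2)) *ᵥ f2 = f2 := by
      apply f2_unique
      · exact (h.2 f2 f2).trans b4
      · rw [← he1]
        exact (hadd h f2 e1).trans b9
      · rw [← hf1]
        exact (hadd h f2 f1).trans b10
      · rw [← he2]
        exact (hadd h f2 e2).trans b11
    have hone : (h.1 : Matrix I4 I4 (ZMod 2)) = 1 := by
      ext i j
      have hcol : ∀ j : I4, (h.1 : Matrix I4 I4 (ZMod 2)) *ᵥ Pi.single j 1 = Pi.single j 1 := by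
        intro j
        rcases j with j | j
        · fin_cases j
          · exact he1
          · exact he2
        · fin_cases j
          · exact hf1
          · exact hf2
      have := congrFun (hcol j) i
      rw [Matrix.mulVec_single_one] at this
      rw [Matrix.one_apply]
      simpa [Pi.single_apply] using this
    have h1' : h = 1 := Subtype.ext (Units.ext hone)
    exact inv_mul_eq_one.mp h1'
  have hle := Nat.card_le_card_of_injective Φ hinj
  rw [Nat.card_eq_fintype_card (α := ↥T3), Fintype.card_coe, T3_card] at hle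
  exact hle

end Helpers

/-- The full orthogonal group of the plus-type form x₁y₁ + x₂y₂ in dimension 4 over the field of two elements has order 72 and is isomorphic to the wreath product of the symmetric group of degree 3 by a group of order 2: it has a normal subgroup isomorphic to the direct product of two symmetric groups of degree 3, of index 2, whose two direct factors are interchanged by conjugation by some element. -/
theorem result :
    Nat.card ↥(Cfsg.isometryGroup (ZMod 2) (Cfsg.quadFormPlus 2 (ZMod 2))) = 72 ∧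
    ∃ (A B : Subgroup ↥(Cfsg.isometryGroup (ZMod 2) (Cfsg.quadFormPlus 2 (ZMod 2)))),
      Nonempty (↥A ≃* Equiv.Perm (Fin 3)) ∧ Nonempty (↥B ≃* Equiv.Perm (Fin 3)) ∧ A ⊓ B = ⊥ ∧ (∀ a ∈ A, ∀ b ∈ B, a * b = b * a) ∧
      (A ⊔ B).index = 2 ∧ ∃ g : ↥(Cfsg.isometryGroup (ZMod 2) (Cfsg.quadFormPlus 2 (ZMod 2))), A.map (MulAut.conj g).toMonoidHom = B := by
  classical
  let A : Subgroup ↥O4 := lam.range
  let B : Subgroup ↥O4 := A.map (MulAut.conj gO).toMonoidHom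
  have hB : ∀ y, y ∈ B ↔ ∃ τ, y = gO * lam τ * gO⁻¹ := by
    intro y
    constructor
    · rintro ⟨x, ⟨τ, rfl⟩, rfl⟩
      exact ⟨τ, rfl⟩
    · rintro ⟨τ, rfl⟩
      exact ⟨lam τ, ⟨τ, rfl⟩, rfl⟩
  have hmat : ∀ τ, (((gO * lam τ * gO⁻¹ : ↥O4) : GL I4 (ZMod 2)) : Matrix I4 I4 (ZMod 2))
      = Gm * Mm τ * Gm := fun τ => rfl
  have hAB : A ⊓ B = ⊥ := by
    rw [eq_bot_iff]
    rintro x ⟨⟨σ, rfl⟩, hx2⟩
    obtain ⟨τ, hτ⟩ := (hB _).mp hx2
    have h1 := congrArg (fun x : ↥O4 => ((x : GL I4 (ZMod 2)) : Matrix I4 I4 (ZMod 2))) hτ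
    have h2 : Mm σ = Gm * Mm τ * Gm := h1
    have h3 := D6 σ τ h2
    rw [h3, map_one]
    exact Subgroup.mem_bot.mpr rfl
  have hcomm : ∀ a ∈ A, ∀ b ∈ B, a * b = b * a := by
    rintro a ⟨σ, rfl⟩ b hb
    obtain ⟨τ, rfl⟩ := (hB _).mp hb
    apply Subtype.ext
    apply Units.ext
    exact D5 σ τ
  have hAne : A ≠ ⊥ := by
    intro h
    have h1 : lam (Equiv.swap 0 1) ∈ A := ⟨_, rfl⟩
    rw [h, Subgroup.mem_bot] at h1
    have h2 := lam_inj (h1.trans (map_one lam).symm)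
    exact absurd h2 (by decide)
  have hle := card_O4_le
  -- lower bound for the join
  let Ψ : Equiv.Perm (Fin 3) × Equiv.Perm (Fin 3) → ↥(A ⊔ B) := fun p =>
    ⟨lam p.1 * (gO * lam p.2 * gO⁻¹), Subgroup.mul_mem _
      (Subgroup.mem_sup_left ⟨p.1, rfl⟩) (Subgroup.mem_sup_right ((hB _).mpr ⟨p.2, rfl⟩))⟩
  have hΨ : Function.Injective Ψ := by
    rintro ⟨σ, τ⟩ ⟨σ', τ'⟩ h
    have h1 : lam σ * (gO * lam τ * gO⁻¹) = lam σ' * (gO * lam τ' * gO⁻¹) :=
      congrArg Subtype.val h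
    have h2 : lam (σ'⁻¹ * σ) = gO * lam (τ' * τ⁻¹) * gO⁻¹ := by
      rw [map_mul, map_mul, map_inv, map_inv]
      have : (lam σ')⁻¹ * lam σ = (gO * lam τ' * gO⁻¹) * (gO * lam τ * gO⁻¹)⁻¹ := by
        rw [inv_mul_eq_iff_eq_mul, ← mul_assoc, ← h1, mul_assoc, mul_inv_cancel, mul_one]
      rw [this]
      group
    have h3 := congrArg (fun x : ↥O4 => ((x : GL I4 (ZMod 2)) : Matrix I4 I4 (ZMod 2))) h2
    have h4 : Mm (σ'⁻¹ * σ) = Gm * Mm (τ' * τ⁻¹) * Gm := h3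
    have h5 := D6 _ _ h4
    have hσ : σ = σ' := by
      have := inv_mul_eq_one.mp h5
      exact this.symm
    rw [h5, map_one] at h2
    have h6 : lam (τ' * τ⁻¹) = 1 := by
      have : gO⁻¹ * (gO * lam (τ' * τ⁻¹) * gO⁻¹) * gO = lam (τ' * τ⁻¹) := by group
      rw [← this, ← h2]
      group
    have h7 := lam_inj (h6.trans (map_one lam).symm)
    have hτ : τ = τ' := by
      have := mul_inv_eq_one.mp h7
      exact this.symm
    rw [hσ, hτ]
  have hge : 36 ≤ Nat.card ↥(A ⊔ B) := by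
    have h1 := Nat.card_le_card_of_injective Ψ hΨ
    rw [Nat.card_prod, Nat.card_eq_fintype_card, Fintype.card_perm, Fintype.card_fin] at h1
    exact h1
  -- the join is proper
  have hne : A ⊔ B ≠ ⊤ := by
    intro htop
    have hnorm : A ⊔ B ≤ Subgroup.normalizer (A : Set ↥O4) := by
      apply sup_le Subgroup.le_normalizer
      intro b hb
      rw [Subgroup.mem_normalizer_iff]
      intro n
      constructor
      · intro hn
        have : b * n * b⁻¹ = n := by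
          rw [← hcomm n hn b hb, mul_inv_cancel_right]
        rw [this]; exact hn
      · intro hn
        have h1 := hcomm _ hn b hb
        have : n = b * n * b⁻¹ := by
          have h2 : b * n * b⁻¹ * b = b * (b * n * b⁻¹) := h1
          rw [inv_mul_cancel_right] at h2
          have h3 := mul_left_cancel h2
          exact h3
        rw [this]; exact hn
    have hg : gO ∈ Subgroup.normalizer (A : Set ↥O4) := hnorm (htop ▸ Subgroup.mem_top gO)
    have hBA : B ≤ A := by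
      intro y hy
      obtain ⟨τ, rfl⟩ := (hB _).mp hy
      exact (Subgroup.mem_normalizer_iff.mp hg (lam τ)).mp ⟨τ, rfl⟩
    have hBbot : B = ⊥ := by
      rw [← hAB]
      exact (inf_eq_right.mpr hBA).symm
    apply hAne
    rw [eq_bot_iff]
    rintro x ⟨σ, rfl⟩
    have h1 : gO * lam σ * gO⁻¹ ∈ B := (hB _).mpr ⟨σ, rfl⟩
    rw [hBbot, Subgroup.mem_bot] at h1
    have h2 : lam σ = 1 := by
      have : gO⁻¹ * (gO * lam σ * gO⁻¹) * gO = lam σ := by group
      rw [← this, h1]; group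
    rw [h2]
    exact Subgroup.mem_bot.mpr rfl
  have hidx1 : (A ⊔ B).index ≠ 1 := fun h => hne (Subgroup.index_eq_one.mp h)
  have hidx0 : (A ⊔ B).index ≠ 0 := Subgroup.index_ne_zero_of_finite
  have hmul := (A ⊔ B).index_mul_card
  have hidx2 : (A ⊔ B).index = 2 := by
    by_contra hcon
    have h3 : 3 ≤ (A ⊔ B).index := by omega
    have := Nat.mul_le_mul h3 hge
    omega
  have hcard : Nat.card ↥O4 = 72 := by
    rw [hidx2] at hmul
    omega
  refine ⟨hcard, A, B, ⟨(MonoidHom.ofInjective lam_inj).symm⟩, ?_, hAB, hcomm, hidx2, gO, rfl⟩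
  exact ⟨((A.equivMapOfInjective (MulAut.conj gO).toMonoidHom (MulAut.conj gO).injective).symm.trans
    (MonoidHom.ofInjective lam_inj).symm)⟩

end Cfsg.Agent.S2566
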