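import Cfsg.Statements.S2567
import Mathlib

set_option autoImplicit false
open Cfsg

namespace Cfsg.Agent.S2567

/-- Lifting elements of prime order from PGL to GL: let F be a finite field with q elements, r a prime not dividing q − 1, and x an element of order r in GL_n(F) modulo its centre (the scalar matrices). Then x has exactly one preimage in GL_n(F) of order r. -/
theorem result {F : Type*} [Field F] [Fintype F] {q n r : ℕ} (hF : Fintype.card F = q) (hr : r.Prime) (hdiv : ¬ r ∣ q - 1) (x : GL (Fin n) F ⧸ Subgroup.center (GL (Fin n) F)) (hx : orderOf x = r) : ∃! g : GL (Fin n) F, (QuotientGroup.mk g : GL (Fin n) F ⧸ Subgroup.center (GL (Fin n) F)) = x ∧ orderOf g = r := by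
  have hcard : Nat.card Fˣ = q - 1 := by
    rw [Nat.card_units, Nat.card_eq_fintype_card, hF]
  have hcop : (Nat.card Fˣ).Coprime r := by
    rw [hcard]
    exact (Nat.Coprime.symm ((Nat.Prime.coprime_iff_not_dvd hr).mpr hdiv))
  have hcen : ∀ z : GL (Fin n) F, z ∈ Subgroup.center (GL (Fin n) F) → z ^ r = 1 → z = 1 := by
    intro z hz hzr
    rw [Matrix.GeneralLinearGroup.center_eq_range_scalar] at hz
    obtain ⟨e, rfl⟩ := hz
    have h1 : orderOf (Matrix.GeneralLinearGroup.scalar (Fin n) e) ∣ orderOf e := orderOf_map_dvd _ e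
    have h2 : orderOf e ∣ Nat.card Fˣ := orderOf_dvd_natCard e
    have h3 : orderOf (Matrix.GeneralLinearGroup.scalar (Fin n) e) ∣ r := orderOf_dvd_of_pow_eq_one hzr
    have h4 : orderOf (Matrix.GeneralLinearGroup.scalar (Fin n) e) ∣ Nat.gcd (Nat.card Fˣ) r :=
      Nat.dvd_gcd (h1.trans h2) h3
    rw [hcop] at h4
    exact orderOf_eq_one_iff.mp (Nat.dvd_one.mp h4)
  obtain ⟨g₀, rfl⟩ := QuotientGroup.mk_surjective x
  have hg₀r : g₀ ^ r ∈ Subgroup.center (GL (Fin n) F) := by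
    rw [← QuotientGroup.eq_one_iff, QuotientGroup.mk_pow, ← hx, pow_orderOf_eq_one]
  have hg₀r' := hg₀r
  rw [Matrix.GeneralLinearGroup.center_eq_range_scalar] at hg₀r'
  obtain ⟨c, hc⟩ := hg₀r'
  obtain ⟨d, hd⟩ := (powCoprime hcop).surjective c
  rw [powCoprime_apply] at hd
  set z := Matrix.GeneralLinearGroup.scalar (Fin n) d with hz
  have hzc : z ∈ Subgroup.center (GL (Fin n) F) := by
    rw [Matrix.GeneralLinearGroup.center_eq_range_scalar]
    exact ⟨d, rfl⟩
  have hzr : z ^ r = g₀ ^ r := by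
    rw [hz, ← map_pow, hd, hc]
  have hcomm : Commute g₀ z⁻¹ := by
    have := Subgroup.mem_center_iff.mp (Subgroup.inv_mem _ hzc) g₀
    exact this
  have hgr : (g₀ * z⁻¹) ^ r = 1 := by
    rw [hcomm.mul_pow, inv_pow, hzr, mul_inv_cancel]
  have hmk : (QuotientGroup.mk (g₀ * z⁻¹) : GL (Fin n) F ⧸ Subgroup.center (GL (Fin n) F)) = QuotientGroup.mk g₀ := by
    rw [QuotientGroup.eq]
    have : (g₀ * z⁻¹)⁻¹ * g₀ = z := by group
    rw [this]; exact hzc
  have hr1 : r ≠ 1 := hr.ne_one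
  refine ⟨g₀ * z⁻¹, ⟨hmk, ?_⟩, ?_⟩
  · have h1 : orderOf (g₀ * z⁻¹) ∣ r := orderOf_dvd_of_pow_eq_one hgr
    rcases (Nat.dvd_prime hr).mp h1 with h | h
    · exfalso
      rw [orderOf_eq_one_iff] at h
      rw [h] at hmk
      rw [← hmk] at hx
      rw [QuotientGroup.mk_one, orderOf_one] at hx
      exact hr1 hx.symm
    · exact h
  · rintro g' ⟨hg'mk, hg'ord⟩
    have hw : (g₀ * z⁻¹)⁻¹ * g' ∈ Subgroup.center (GL (Fin n) F) := by
      rw [← QuotientGroup.eq, hmk, hg'mk]
    set w := (g₀ * z⁻¹)⁻¹ * g' with hwdef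
    have hcomm2 : Commute (g₀ * z⁻¹)⁻¹ g' := by
      have h1 : Commute w g' := (Subgroup.mem_center_iff.mp hw g').symm
      have h2 : (g₀ * z⁻¹)⁻¹ = w * g'⁻¹ := by rw [hwdef]; group
      rw [h2]
      exact h1.mul_left (Commute.inv_left (Commute.refl g'))
    have hwr : w ^ r = 1 := by
      rw [hwdef, hcomm2.mul_pow, inv_pow, hgr, ← hg'ord, pow_orderOf_eq_one]
      simp
    have hw1 := hcen w hw hwr
    rw [hwdef] at hw1
    have : g' = (g₀ * z⁻¹) * ((g₀ * z⁻¹)⁻¹ * g') := by group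
    rw [this, hw1, mul_one]

end Cfsg.Agent.S2567
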