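import Cfsg.Statements.S2569
import Mathlib
import Cfsg.Agent.Lib.helper13.SemiCent

set_option autoImplicit false
open Cfsg

open Cfsg.Agent.Lib.helper13

namespace Cfsg.Agent.S2569

/-- In GL_n over a finite field of characteristic p, the conjugacy class of a semisimple element (an element of order prime to p) under the special linear group is its whole GL-conjugacy class: for every such x and every invertible g there is h of determinant one with h x h⁻¹ = g x g⁻¹. -/
theorem result {F : Type*} [Field F] [Fintype F] {p : ℕ} [Fact p.Prime] [CharP F p] {n : ℕ} (x g : GL (Fin n) F) (hx : (orderOf x).Coprime p) : ∃ h : GL (Fin n) F, (h : Matrix (Fin n) (Fin n) F).det = 1 ∧ h * x * h⁻¹ = g * x * g⁻¹ := by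
  classical
  rcases Nat.eq_zero_or_pos n with hn0 | hnpos
  · subst hn0
    exact ⟨g, Matrix.det_isEmpty, rfl⟩
  have : Nonempty (Fin n) := ⟨⟨0, hnpos⟩⟩
  obtain ⟨k, hk⟩ : ∃ k, k = orderOf x := ⟨_, rfl⟩
  have hkF : (k : F) ≠ 0 := by
    rw [Ne, CharP.cast_eq_zero_iff F p k, hk]
    exact (Nat.Prime.coprime_iff_not_dvd (Fact.out : p.Prime)).mp hx.symm
  obtain ⟨X, hX⟩ : ∃ X : Matrix (Fin n) (Fin n) F, X = (x : Matrix (Fin n) (Fin n) F) := ⟨_, rfl⟩
  have hXk : X ^ k = 1 := by
    have h1 : x ^ k = 1 := by rw [hk]; exact pow_orderOf_eq_one x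
    have := congrArg (fun g : GL (Fin n) F => (g : Matrix (Fin n) (Fin n) F)) h1
    rw [hX]
    simpa using this
  have hsemi : Module.End.IsSemisimple (Matrix.toLinAlgEquiv' X) := by
    have hsq : Squarefree (Polynomial.X ^ k - 1 : Polynomial F) := by
      have := (Polynomial.separable_X_pow_sub_C (1 : F) hkF one_ne_zero).squarefree
      simpa using this
    apply Module.End.isSemisimple_of_squarefree_aeval_eq_zero hsq
    rw [map_sub, map_pow, Polynomial.aeval_X, map_one, ← map_pow, hXk, map_one, sub_self]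
  have hdetg : (g : Matrix (Fin n) (Fin n) F).det ≠ 0 :=
    (Matrix.GeneralLinearGroup.det g).ne_zero
  obtain ⟨c, hc, hcdet⟩ := semisimple_commuting_det (Matrix.toLinAlgEquiv' X) hsemi
    ((g : Matrix (Fin n) (Fin n) F).det)⁻¹
  obtain ⟨C, hC⟩ : ∃ C : Matrix (Fin n) (Fin n) F, Matrix.toLinAlgEquiv' C = c :=
    ⟨Matrix.toLinAlgEquiv'.symm c, AlgEquiv.apply_symm_apply _ _⟩
  have hCX : C * X = X * C := by
    apply Matrix.toLinAlgEquiv'.injective
    rw [map_mul, map_mul, hC]
    exact hc
  have hCdet : C.det = ((g : Matrix (Fin n) (Fin n) F).det)⁻¹ := by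
    rw [← hcdet, ← hC]
    exact (LinearMap.det_toLin' C).symm
  have hCdet0 : C.det ≠ 0 := by rw [hCdet]; exact inv_ne_zero hdetg
  refine ⟨g * Matrix.GeneralLinearGroup.mkOfDetNeZero C hCdet0, ?_, ?_⟩
  · rw [Matrix.GeneralLinearGroup.coe_mul, Matrix.det_mul]
    show (g : Matrix (Fin n) (Fin n) F).det * C.det = 1
    rw [hCdet, mul_inv_cancel₀ hdetg]
  · have hcomm : Matrix.GeneralLinearGroup.mkOfDetNeZero C hCdet0 * x =
        x * Matrix.GeneralLinearGroup.mkOfDetNeZero C hCdet0 := by
      apply Units.ext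
      rw [hX] at hCX
      exact hCX
    rw [mul_inv_rev, mul_assoc, mul_assoc, ← mul_assoc _ x, ← mul_assoc (_ * x), hcomm,
      mul_assoc x, mul_inv_cancel, mul_one, mul_assoc]

end Cfsg.Agent.S2569
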