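import Cfsg.Statements.S2573
import Mathlib

set_option autoImplicit false
open Cfsg

namespace Cfsg.Agent.S2573

section Helpers

open Module

variable {F : Type*} [Field F] {V : Type*} [AddCommGroup V] [Module F V] [FiniteDimensional F V]

lemma finrank_ker_pow_le (N : V →ₗ[F] V) (h1 : finrank F (LinearMap.ker N) ≤ 1) (k : ℕ) :
    finrank F (LinearMap.ker (N ^ k)) ≤ k := by
  induction k with
  | zero =>
    have : LinearMap.ker (N ^ 0) = ⊥ := by
      rw [pow_zero]; exact LinearMap.ker_id
    rw [this, finrank_bot]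
  | succ k ih =>
    set K' := LinearMap.ker (N ^ (k + 1)) with hK'
    let f : K' →ₗ[F] V := (N ^ k).comp K'.subtype
    have hrn := LinearMap.finrank_range_add_finrank_ker f
    have hr : finrank F (LinearMap.range f) ≤ 1 := by
      refine le_trans (Submodule.finrank_mono ?_) h1
      rintro _ ⟨x, rfl⟩
      rw [LinearMap.mem_ker]
      have hx : (N ^ (k + 1)) (x : V) = 0 := x.2
      rw [pow_succ', Module.End.mul_apply] at hx
      exact hx
    have hk : finrank F (LinearMap.ker f) ≤ k := by
      refine le_trans ?_ ih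
      rw [← Submodule.finrank_map_subtype_eq K' (LinearMap.ker f)]
      apply Submodule.finrank_mono
      rintro _ ⟨x, hx, rfl⟩
      have hx' : f x = 0 := LinearMap.mem_ker.mp hx
      exact LinearMap.mem_ker.mpr hx'
    omega

lemma pow_finrank_restrict_eq_zero (N : V →ₗ[F] V) (W : Submodule F V) (hW : ∀ w ∈ W, N w ∈ W)
    (hnil : IsNilpotent N) : ∀ w ∈ W, (N ^ finrank F W) w = 0 := by
  have hnilW : IsNilpotent (N.restrict hW) := by
    obtain ⟨m, hm⟩ := hnil
    refine ⟨m, ?_⟩
    rw [Module.End.pow_restrict]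
    ext x
    simp [hm]
  have h1 := LinearMap.aeval_self_charpoly (N.restrict hW)
  rw [hnilW.charpoly_eq_X_pow_finrank] at h1
  simp only [map_pow, Polynomial.aeval_X] at h1
  intro w hw
  have h3 : ((N.restrict hW) ^ finrank F W) ⟨w, hw⟩ = 0 := by rw [h1]; rfl
  rw [Module.End.pow_restrict] at h3
  have h4 := congrArg Subtype.val h3
  simpa using h4

lemma eq_ker_pow (N : V →ₗ[F] V) (h1 : finrank F (LinearMap.ker N) ≤ 1) (hnil : IsNilpotent N)
    (W : Submodule F V) (hW : ∀ w ∈ W, N w ∈ W) : W = LinearMap.ker (N ^ finrank F W) := by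
  apply Submodule.eq_of_le_of_finrank_le
  · intro w hw
    rw [LinearMap.mem_ker]
    exact pow_finrank_restrict_eq_zero N W hW hnil w hw
  · exact finrank_ker_pow_le N h1 _

end Helpers

/-- The invariant subspaces of a regular unipotent matrix form a chain: over a finite field, if u is an n × n matrix with (u − 1)^n = 0 and rank(u − 1) = n − 1, then every subspace W of F^n with u W ⊆ W is the kernel of (u − 1)^(dim W); so u has at most one invariant subspace of each dimension. -/
theorem result {F : Type*} [Field F] [Finite F] {n : ℕ} (u : Matrix (Fin n) (Fin n) F) (hnil : (u - 1) ^ n = 0) (hreg : (u - 1).rank = n - 1) (W : Submodule F (Fin n → F)) (hW : ∀ v ∈ W, u.mulVec v ∈ W) : W = LinearMap.ker (Matrix.mulVecLin ((u - 1) ^ Module.finrank F W)) := by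
  classical
  set N : (Fin n → F) →ₗ[F] (Fin n → F) := Matrix.mulVecLin (u - 1) with hN
  have hpow : ∀ k : ℕ, Matrix.mulVecLin ((u - 1) ^ k) = N ^ k := by
    intro k
    induction k with
    | zero => simp [Module.End.one_eq_id]
    | succ k ih => rw [pow_succ, Matrix.mulVecLin_mul, ih, pow_succ]; rfl
  have hnilN : IsNilpotent N := ⟨n, by rw [← hpow, hnil]; simp⟩
  have hrank : Module.finrank F (LinearMap.range N) = n - 1 := hreg
  have hrn := LinearMap.finrank_range_add_finrank_ker N
  rw [Module.finrank_fin_fun] at hrn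
  have h1 : Module.finrank F (LinearMap.ker N) ≤ 1 := by omega
  have hWN : ∀ w ∈ W, N w ∈ W := by
    intro w hw
    have : N w = u.mulVec w - w := by
      simp [hN]
    rw [this]
    exact W.sub_mem (hW w hw) hw
  rw [hpow]
  exact eq_ker_pow N h1 hnilN W hWN

end Cfsg.Agent.S2573
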