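import Cfsg.Statements.S2571
import Mathlib
import Cfsg.Agent.S2573

set_option autoImplicit false
open Cfsg

namespace Cfsg.Agent.S2571

section Helpers

open Module

variable {F : Type*} [Field F] {V : Type*} [AddCommGroup V] [Module F V] [FiniteDimensional F V]

lemma top_of_invariant (N : V →ₗ[F] V) (h1 : finrank F (LinearMap.ker N) ≤ 1) (hnil : IsNilpotent N)
    (S : Submodule F V) (hS : ∀ x ∈ S, N x ∈ S) (x : V) (hx : x ∈ S)
    (hx' : (N ^ (finrank F V - 1)) x ≠ 0) : S = ⊤ := by
  have hSker := Cfsg.Agent.S2573.eq_ker_pow N h1 hnil S hS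
  apply Submodule.eq_top_of_finrank_eq
  have hle : finrank F S ≤ finrank F V := Submodule.finrank_le S
  by_contra hne
  have hlt : finrank F S ≤ finrank F V - 1 := by omega
  apply hx'
  have hxk : (N ^ finrank F S) x = 0 := by
    have : x ∈ LinearMap.ker (N ^ finrank F S) := by rw [← hSker]; exact hx
    exact this
  have : finrank F V - 1 = (finrank F V - 1 - finrank F S) + finrank F S := by omega
  rw [this, pow_add, Module.End.mul_apply, hxk, map_zero]

lemma apply_eq_zero_of_ker_ne_bot (N : V →ₗ[F] V) (h1 : finrank F (LinearMap.ker N) ≤ 1) (hnil : IsNilpotent N)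
    (D : V →ₗ[F] V) (hD : ∀ x, D (N x) = N (D x)) (hker : LinearMap.ker D ≠ ⊥) (z : V) (hz : N z = 0) :
    D z = 0 := by
  have hS : ∀ x ∈ LinearMap.ker D, N x ∈ LinearMap.ker D := by
    intro x hx
    rw [LinearMap.mem_ker] at hx ⊢
    rw [hD, hx, map_zero]
  have hSker := Cfsg.Agent.S2573.eq_ker_pow N h1 hnil _ hS
  have hk : finrank F (LinearMap.ker D) ≠ 0 := by
    intro h0
    exact hker (Submodule.finrank_eq_zero.mp h0)
  have hz' : z ∈ LinearMap.ker (N ^ finrank F (LinearMap.ker D)) := by
    rw [LinearMap.mem_ker]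
    obtain ⟨k, hk'⟩ := Nat.exists_eq_succ_of_ne_zero hk
    rw [hk', pow_succ, Module.End.mul_apply, hz, map_zero]
  rw [← hSker] at hz'
  exact hz'

end Helpers

/-- Centraliser of a regular unipotent element in GL_n(q): if u is an invertible n × n matrix over the field with q elements, n ≥ 1, with (u − 1)^n = 0 and rank(u − 1) = n − 1 (a single unipotent Jordan block), then its centraliser in GL_n(q) has order (q − 1) q^(n−1). -/
theorem result {F : Type*} [Field F] [Fintype F] {q n : ℕ} (hF : Fintype.card F = q) (hn : 1 ≤ n) (u : GL (Fin n) F) (hnil : ((u : Matrix (Fin n) (Fin n) F) - 1) ^ n = 0) (hreg : ((u : Matrix (Fin n) (Fin n) F) - 1).rank = n - 1) : Nat.card ↥(Subgroup.centralizer ({u} : Set (GL (Fin n) F))) = (q - 1) * q ^ (n - 1) := by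
  classical
  set M : Matrix (Fin n) (Fin n) F := (u : Matrix (Fin n) (Fin n) F) - 1 with hM
  set N : (Fin n → F) →ₗ[F] (Fin n → F) := Matrix.mulVecLin M with hN
  have hpow : ∀ k : ℕ, Matrix.mulVecLin (M ^ k) = N ^ k := by
    intro k
    induction k with
    | zero => simp [Module.End.one_eq_id]
    | succ k ih => rw [pow_succ, Matrix.mulVecLin_mul, ih, pow_succ]; rfl
  have hpow' : ∀ (k : ℕ) (x : Fin n → F), (N ^ k) x = (M ^ k).mulVec x := by
    intro k x; rw [← hpow]; rfl
  have hNn : N ^ n = 0 := by rw [← hpow, hnil]; simp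
  have hnilN : IsNilpotent N := ⟨n, hNn⟩
  have hrank : Module.finrank F (LinearMap.range N) = n - 1 := hreg
  have hrn := LinearMap.finrank_range_add_finrank_ker N
  have hdimV : Module.finrank F (Fin n → F) = n := Module.finrank_fin_fun F
  rw [hdimV] at hrn
  have h1 : Module.finrank F (LinearMap.ker N) ≤ 1 := by omega
  have hrange : LinearMap.range N = LinearMap.ker (N ^ (n - 1)) := by
    apply Submodule.eq_of_le_of_finrank_le
    · rintro _ ⟨x, rfl⟩
      rw [LinearMap.mem_ker, ← Module.End.mul_apply, ← pow_succ]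
      have : n - 1 + 1 = n := by omega
      rw [this, hNn]; rfl
    · have h3 := Cfsg.Agent.S2573.finrank_ker_pow_le N h1 (n - 1)
      omega
  obtain ⟨v, hv⟩ : ∃ v : Fin n → F, (N ^ (n - 1)) v ≠ 0 := by
    by_contra hcon
    push Not at hcon
    have htop : LinearMap.ker (N ^ (n - 1)) = ⊤ := by
      rw [eq_top_iff]; intro x _; exact LinearMap.mem_ker.mpr (hcon x)
    have h3 := Cfsg.Agent.S2573.finrank_ker_pow_le N h1 (n - 1)
    rw [htop, finrank_top, hdimV] at h3
    omega
  have hzN : N ((N ^ (n - 1)) v) = 0 := by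
    rw [← Module.End.mul_apply, ← pow_succ']
    have : n - 1 + 1 = n := by omega
    rw [this, hNn]; rfl
  have hcomm : ∀ g : GL (Fin n) F, g ∈ Subgroup.centralizer ({u} : Set (GL (Fin n) F)) →
      M * (g : Matrix (Fin n) (Fin n) F) = (g : Matrix (Fin n) (Fin n) F) * M := by
    intro g hg
    have h2 := Subgroup.mem_centralizer_iff.mp hg u rfl
    have h3 : (u : Matrix (Fin n) (Fin n) F) * (g : Matrix (Fin n) (Fin n) F) = (g : Matrix (Fin n) (Fin n) F) * (u : Matrix (Fin n) (Fin n) F) := by
      have := congrArg (fun x : GL (Fin n) F => (x : Matrix (Fin n) (Fin n) F)) h2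
      simpa using this
    rw [hM, sub_mul, mul_sub, h3, one_mul, mul_one]
  have hcommpow : ∀ (G : Matrix (Fin n) (Fin n) F), M * G = G * M → ∀ k : ℕ, M ^ k * G = G * M ^ k := by
    intro G hG k
    exact ((Commute.pow_left (show Commute M G from hG) k)).eq
  have hfmem : ∀ g : ↥(Subgroup.centralizer ({u} : Set (GL (Fin n) F))),
      ((g : GL (Fin n) F) : Matrix (Fin n) (Fin n) F).mulVec v ∉ LinearMap.range N := by
    intro g hmem
    rw [hrange, LinearMap.mem_ker, hpow', Matrix.mulVec_mulVec, hcommpow _ (hcomm g g.2), ← Matrix.mulVec_mulVec] at hmem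
    have hinj : Function.Injective ((g : GL (Fin n) F) : Matrix (Fin n) (Fin n) F).mulVec :=
      Matrix.mulVec_injective_iff_isUnit.mpr ((g : GL (Fin n) F).isUnit)
    have : (M ^ (n - 1)).mulVec v = 0 := by
      apply hinj
      rw [hmem, Matrix.mulVec_zero]
    rw [← hpow'] at this
    exact hv this
  let f : ↥(Subgroup.centralizer ({u} : Set (GL (Fin n) F))) → {w : Fin n → F // w ∉ LinearMap.range N} :=
    fun g => ⟨((g : GL (Fin n) F) : Matrix (Fin n) (Fin n) F).mulVec v, hfmem g⟩
  have hfinj : Function.Injective f := by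
    intro g g' hgg
    have h2 : ((g : GL (Fin n) F) : Matrix (Fin n) (Fin n) F).mulVec v = ((g' : GL (Fin n) F) : Matrix (Fin n) (Fin n) F).mulVec v :=
      congrArg Subtype.val hgg
    set D : Matrix (Fin n) (Fin n) F := ((g : GL (Fin n) F) : Matrix (Fin n) (Fin n) F) - ((g' : GL (Fin n) F) : Matrix (Fin n) (Fin n) F) with hD
    have hDM : M * D = D * M := by
      rw [hD, mul_sub, hcomm g g.2, hcomm g' g'.2, ← sub_mul]
    have hS : ∀ x ∈ LinearMap.ker (Matrix.mulVecLin D), N x ∈ LinearMap.ker (Matrix.mulVecLin D) := by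
      intro x hx
      rw [LinearMap.mem_ker] at hx ⊢
      change D.mulVec (M.mulVec x) = 0
      rw [Matrix.mulVec_mulVec, ← hDM, ← Matrix.mulVec_mulVec]
      change M.mulVec (D.mulVec x) = 0
      have hx' : D.mulVec x = 0 := hx
      rw [hx', Matrix.mulVec_zero]
    have hvker : v ∈ LinearMap.ker (Matrix.mulVecLin D) := by
      rw [LinearMap.mem_ker]
      change D.mulVec v = 0
      rw [hD, Matrix.sub_mulVec, h2, sub_self]
    have htop := top_of_invariant N h1 hnilN _ hS v hvker (by rw [hdimV]; exact hv)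
    have hD0 : D = 0 := by
      have h3 : Matrix.mulVecLin D = 0 := LinearMap.ker_eq_top.mp htop
      have h4 : Matrix.toLin' D = 0 := by rw [Matrix.toLin'_apply']; exact h3
      exact (LinearEquiv.map_eq_zero_iff _).mp h4
    apply Subtype.ext
    apply Units.ext
    exact sub_eq_zero.mp hD0
  have hfsurj : Function.Surjective f := by
    rintro ⟨w, hw⟩
    let φ : Polynomial F →ₗ[F] (Fin n → F) :=
      { toFun := fun p => (Polynomial.aeval M p).mulVec v
        map_add' := by intro p p'; simp [Matrix.add_mulVec]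
        map_smul' := by intro c p; simp [Matrix.smul_mulVec] }
    have hφS : ∀ x ∈ LinearMap.range φ, N x ∈ LinearMap.range φ := by
      rintro _ ⟨p, rfl⟩
      refine ⟨Polynomial.X * p, ?_⟩
      change (Polynomial.aeval M (Polynomial.X * p)).mulVec v = M.mulVec ((Polynomial.aeval M p).mulVec v)
      rw [map_mul, Polynomial.aeval_X, Matrix.mulVec_mulVec]
    have hvφ : v ∈ LinearMap.range φ := ⟨1, by change (Polynomial.aeval M 1).mulVec v = v; simp⟩
    have htop := top_of_invariant N h1 hnilN _ hφS v hvφ (by rw [hdimV]; exact hv)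
    have hwφ : w ∈ LinearMap.range φ := by rw [htop]; trivial
    obtain ⟨p, hp⟩ := hwφ
    have hp' : (Polynomial.aeval M p).mulVec v = w := hp
    set G : Matrix (Fin n) (Fin n) F := Polynomial.aeval M p with hG
    have hGM : M * G = G * M := by
      have : Polynomial.aeval M (Polynomial.X * p) = Polynomial.aeval M (p * Polynomial.X) := by rw [mul_comm]
      simpa [map_mul] using this
    have hGinj : LinearMap.ker (Matrix.mulVecLin G) = ⊥ := by
      by_contra hne
      have h5 := apply_eq_zero_of_ker_ne_bot N h1 hnilN (Matrix.mulVecLin G) (by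
        intro x
        change G.mulVec (M.mulVec x) = M.mulVec (G.mulVec x)
        rw [Matrix.mulVec_mulVec, Matrix.mulVec_mulVec, hGM]) hne _ hzN
      change G.mulVec ((N ^ (n - 1)) v) = 0 at h5
      rw [hpow', Matrix.mulVec_mulVec, ← hcommpow G hGM, ← Matrix.mulVec_mulVec, hp', ← hpow'] at h5
      apply hw
      rw [hrange]
      exact LinearMap.mem_ker.mpr h5
    have hGunit : IsUnit G := by
      rw [← Matrix.mulVec_injective_iff_isUnit]
      exact LinearMap.ker_eq_bot.mp hGinj
    have hgu : hGunit.unit ∈ Subgroup.centralizer ({u} : Set (GL (Fin n) F)) := by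
      rw [Subgroup.mem_centralizer_iff]
      intro h hh
      rw [Set.mem_singleton_iff] at hh
      subst hh
      apply Units.ext
      change (h : Matrix (Fin n) (Fin n) F) * G = G * (h : Matrix (Fin n) (Fin n) F)
      have : (h : Matrix (Fin n) (Fin n) F) = M + 1 := by rw [hM]; abel
      rw [this, add_mul, mul_add, hGM, one_mul, mul_one]
    refine ⟨⟨hGunit.unit, hgu⟩, ?_⟩
    apply Subtype.ext
    exact hp'
  rw [Nat.card_congr (Equiv.ofBijective f ⟨hfinj, hfsurj⟩)]
  have hcardV : Fintype.card (Fin n → F) = q ^ n := by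
    rw [Fintype.card_fun, Fintype.card_fin, hF]
  have hcardR : Fintype.card (LinearMap.range N) = q ^ (n - 1) := by
    rw [Module.card_eq_pow_finrank (K := F), hrank, hF]
  rw [Nat.card_eq_fintype_card, Fintype.card_subtype_compl, hcardV, hcardR]
  have : q ^ n = q * q ^ (n - 1) := by
    rw [← pow_succ']; congr 1; omega
  rw [this, Nat.sub_one_mul]

end Cfsg.Agent.S2571
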