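import Cfsg.Statements.S2572
import Mathlib
import Cfsg.Agent.S2579

set_option autoImplicit false
open Cfsg

namespace Cfsg.Agent.S2572

section Helpers

variable {F : Type*} [Field F]

/-- block form of a matrix commuting with `E₁₀` -/
def mk {k : ℕ} (a b : F) (c d : Fin k → F) (M : Matrix (Fin k) (Fin k) F) :
    Matrix (Fin (k + 2)) (Fin (k + 2)) F :=
  Matrix.of (Fin.cons (Fin.cons a 0)
    (Fin.cons (Fin.cons b (Fin.cons a c)) (fun i => Fin.cons (d i) (Fin.cons 0 (M i)))))

lemma mk_00 {k : ℕ} (a b : F) (c d : Fin k → F) (M : Matrix (Fin k) (Fin k) F) :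
    mk a b c d M 0 0 = a := rfl

lemma mk_0s {k : ℕ} (a b : F) (c d : Fin k → F) (M : Matrix (Fin k) (Fin k) F) (j : Fin (k + 1)) :
    mk a b c d M 0 j.succ = 0 := rfl

lemma mk_10 {k : ℕ} (a b : F) (c d : Fin k → F) (M : Matrix (Fin k) (Fin k) F) :
    mk a b c d M 1 0 = b := rfl

lemma mk_11 {k : ℕ} (a b : F) (c d : Fin k → F) (M : Matrix (Fin k) (Fin k) F) :
    mk a b c d M 1 1 = a := rfl

lemma mk_1s {k : ℕ} (a b : F) (c d : Fin k → F) (M : Matrix (Fin k) (Fin k) F) (j : Fin k) :
    mk a b c d M 1 j.succ.succ = c j := rfl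

lemma mk_s0 {k : ℕ} (a b : F) (c d : Fin k → F) (M : Matrix (Fin k) (Fin k) F) (i : Fin k) :
    mk a b c d M i.succ.succ 0 = d i := rfl

lemma mk_s1 {k : ℕ} (a b : F) (c d : Fin k → F) (M : Matrix (Fin k) (Fin k) F) (i : Fin k) :
    mk a b c d M i.succ.succ 1 = 0 := rfl

lemma mk_ss {k : ℕ} (a b : F) (c d : Fin k → F) (M : Matrix (Fin k) (Fin k) F) (i j : Fin k) :
    mk a b c d M i.succ.succ j.succ.succ = M i j := rfl

lemma comm_iff {k : ℕ} (h : Matrix (Fin (k + 2)) (Fin (k + 2)) F) :
    h * Matrix.single (1 : Fin (k + 2)) (0 : Fin (k + 2)) (1 : F)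
      = Matrix.single (1 : Fin (k + 2)) (0 : Fin (k + 2)) (1 : F) * h ↔
    (∀ j : Fin (k + 1), h 0 j.succ = 0) ∧ (∀ i : Fin k, h i.succ.succ 1 = 0) ∧ h 1 1 = h 0 0 := by
  classical
  constructor
  · intro H
    have key : ∀ i j, (h * Matrix.single (1 : Fin (k + 2)) (0 : Fin (k + 2)) (1 : F)) i j
        = (Matrix.single (1 : Fin (k + 2)) (0 : Fin (k + 2)) (1 : F) * h) i j := by
      intro i j; rw [H]
    refine ⟨?_, ?_, ?_⟩
    · intro j
      have := key 1 j.succ
      rw [Matrix.mul_single_apply_of_ne (hbj := Fin.succ_ne_zero j),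
        Matrix.single_mul_apply_same, one_mul] at this
      exact this.symm
    · intro i
      have := key i.succ.succ 0
      rw [Matrix.mul_single_apply_same, mul_one,
        Matrix.single_mul_apply_of_ne (h := by
          intro h1
          have : (i.succ.succ : Fin (k + 2)) = (0 : Fin (k + 1)).succ := h1
          exact Fin.succ_ne_zero i (Fin.succ_injective _ this))] at this
      exact this
    · have := key 1 0
      rw [Matrix.mul_single_apply_same, mul_one, Matrix.single_mul_apply_same, one_mul] at this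
      exact this
  · rintro ⟨h1, h2, h3⟩
    ext i j
    by_cases hj : j = 0
    · subst hj
      rw [Matrix.mul_single_apply_same, mul_one]
      by_cases hi : i = 1
      · subst hi
        rw [Matrix.single_mul_apply_same, one_mul, h3]
      · rw [Matrix.single_mul_apply_of_ne (h := hi)]
        induction i using Fin.cases with
        | zero =>
          exact h1 0
        | succ i =>
          induction i using Fin.cases with
          | zero => exact absurd rfl hi
          | succ i => exact h2 i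
    · rw [Matrix.mul_single_apply_of_ne (hbj := hj)]
      by_cases hi : i = 1
      · subst hi
        rw [Matrix.single_mul_apply_same, one_mul]
        obtain ⟨j', rfl⟩ := Fin.exists_succ_eq_of_ne_zero hj
        exact (h1 j').symm
      · rw [Matrix.single_mul_apply_of_ne (h := hi)]

lemma det_block {k : ℕ} (h : Matrix (Fin (k + 2)) (Fin (k + 2)) F)
    (h1 : ∀ j : Fin (k + 1), h 0 j.succ = 0) (h2 : ∀ i : Fin k, h i.succ.succ 1 = 0) :
    h.det = h 0 0 * h 1 1 *
      (h.submatrix (fun i : Fin k => i.succ.succ) (fun i : Fin k => i.succ.succ)).det := by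
  rw [Matrix.det_succ_row_zero, Fin.sum_univ_succ]
  have hz : ∀ j : Fin (k + 1), (-1 : F) ^ ((j.succ : Fin (k + 2)) : ℕ) * h 0 j.succ *
      (h.submatrix Fin.succ (Fin.succAbove j.succ)).det = 0 := by
    intro j; rw [h1 j]; ring
  rw [Finset.sum_eq_zero (fun j _ => hz j), add_zero]
  rw [Matrix.det_succ_column_zero, Fin.sum_univ_succ]
  have hz2 : ∀ i : Fin k, (-1 : F) ^ ((i.succ : Fin (k + 1)) : ℕ) *
      (h.submatrix Fin.succ (Fin.succAbove 0)) i.succ 0 *
      ((h.submatrix Fin.succ (Fin.succAbove 0)).submatrix (Fin.succAbove i.succ) Fin.succ).det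
        = 0 := by
    intro i
    have : (h.submatrix Fin.succ (Fin.succAbove 0)) i.succ 0 = 0 := by
      simp only [Matrix.submatrix_apply, Fin.succAbove_zero]
      exact h2 i
    rw [this]; ring
  rw [Finset.sum_eq_zero (fun j _ => hz2 j), add_zero]
  simp only [Fin.val_zero, pow_zero, one_mul, Matrix.submatrix_apply, Fin.succAbove_zero,
    Matrix.submatrix_submatrix]
  rw [mul_assoc]
  rfl

end Helpers

/-- Centraliser of a transvection in GL_n(q), n ≥ 2: if t − 1 has rank one and square zero, the centraliser of t in GL_n(q) has order q^(2n−3) (q − 1) |GL_(n−2)(q)| (a group of order q^(2n−3) extended by GL_1(q) × GL_(n−2)(q)). -/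
theorem result {F : Type*} [Field F] [Fintype F] {q n : ℕ} (hF : Fintype.card F = q) (hn : 2 ≤ n) (t : GL (Fin n) F) (ht : Cfsg.IsTransvection (t : Matrix (Fin n) (Fin n) F)) : Nat.card ↥(Subgroup.centralizer ({t} : Set (GL (Fin n) F))) = q ^ (2 * n - 3) * (q - 1) * ∏ i : Fin (n - 2), (q ^ (n - 2) - q ^ (i : ℕ)) := by
  classical
  obtain ⟨k, rfl⟩ : ∃ k, n = k + 2 := ⟨n - 2, by omega⟩
  generalize hm : k + 2 - 2 = m
  obtain rfl : k = m := by omega
  clear hm
  obtain ⟨P, hPdet, hP⟩ := S2579.exists_conj_matrix (t : Matrix (Fin (k + 2)) (Fin (k + 2)) F) ht.1 ht.2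
  obtain ⟨p, hp⟩ : ∃ p : GL (Fin (k + 2)) F, (p : Matrix (Fin (k + 2)) (Fin (k + 2)) F) = P :=
    ⟨Matrix.GeneralLinearGroup.mkOfDetNeZero P hPdet, rfl⟩
  obtain ⟨E, hE⟩ : ∃ E : Matrix (Fin (k + 2)) (Fin (k + 2)) F,
      E = Matrix.single (1 : Fin (k + 2)) (0 : Fin (k + 2)) (1 : F) := ⟨_, rfl⟩
  rw [← hE] at hP
  -- conjugate of t
  have hu : ((p⁻¹ * t * p : GL (Fin (k + 2)) F) : Matrix (Fin (k + 2)) (Fin (k + 2)) F) = 1 + E := by
    have h1 : (t : Matrix (Fin (k + 2)) (Fin (k + 2)) F) * P = P * (1 + E) := by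
      rw [Matrix.mul_add, mul_one, ← hP, sub_mul, one_mul]; abel
    have h2 : ((p⁻¹ : GL (Fin (k + 2)) F) : Matrix (Fin (k + 2)) (Fin (k + 2)) F) * P = 1 := by
      rw [← hp, ← Units.val_mul, inv_mul_cancel]; rfl
    rw [Units.val_mul, Units.val_mul, hp, mul_assoc, h1, ← mul_assoc, h2, one_mul]
  have hA : ∀ g : GL (Fin (k + 2)) F, g ∈ Subgroup.centralizer ({t} : Set (GL (Fin (k + 2)) F)) ↔
      ((p⁻¹ * g * p : GL (Fin (k + 2)) F) : Matrix (Fin (k + 2)) (Fin (k + 2)) F) * E
        = E * ((p⁻¹ * g * p : GL (Fin (k + 2)) F) : Matrix (Fin (k + 2)) (Fin (k + 2)) F) := by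
    intro g
    rw [Subgroup.mem_centralizer_singleton_iff]
    have e1 : g * t = t * g ↔ (p⁻¹ * g * p) * (p⁻¹ * t * p) = (p⁻¹ * t * p) * (p⁻¹ * g * p) := by
      constructor
      · intro h
        have : (p⁻¹ * g * p) * (p⁻¹ * t * p) = p⁻¹ * (g * t) * p := by group
        rw [this, h]; group
      · intro h
        have h1 : (p⁻¹ * g * p) * (p⁻¹ * t * p) = p⁻¹ * (g * t) * p := by group
        have h2 : (p⁻¹ * t * p) * (p⁻¹ * g * p) = p⁻¹ * (t * g) * p := by group
        rw [h1, h2] at h
        exact mul_left_cancel (mul_right_cancel h)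
    rw [e1, ← Units.val_inj, Units.val_mul, Units.val_mul (p⁻¹ * t * p), hu, Matrix.mul_add,
      Matrix.add_mul, mul_one, one_mul, add_right_inj]
  -- first equivalence
  have hcard1 : Nat.card ↥(Subgroup.centralizer ({t} : Set (GL (Fin (k + 2)) F)))
      = Nat.card {g : GL (Fin (k + 2)) F // (g : Matrix (Fin (k + 2)) (Fin (k + 2)) F) * E = E * (g : Matrix (Fin (k + 2)) (Fin (k + 2)) F)} := by
    refine Nat.card_congr (Equiv.subtypeEquiv ((Equiv.mulLeft p⁻¹).trans (Equiv.mulRight p)) ?_)
    intro g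
    exact hA g
  rw [hcard1]
  -- second equivalence
  let X := Fˣ × F × (Fin k → F) × (Fin k → F) × GL (Fin k) F
  have hdet : ∀ x : X, (mk (x.1 : F) x.2.1 x.2.2.1 x.2.2.2.1
      (x.2.2.2.2 : Matrix (Fin k) (Fin k) F)).det ≠ 0 := by
    intro x
    rw [det_block _ (fun j => mk_0s _ _ _ _ _ j) (fun i => mk_s1 _ _ _ _ _ i), mk_00, mk_11]
    have hM : (mk (x.1 : F) x.2.1 x.2.2.1 x.2.2.2.1
        (x.2.2.2.2 : Matrix (Fin k) (Fin k) F)).submatrix (fun i : Fin k => i.succ.succ)
          (fun i : Fin k => i.succ.succ) = (x.2.2.2.2 : Matrix (Fin k) (Fin k) F) := by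
      ext i j; rfl
    rw [hM]
    have h3 : ((x.2.2.2.2 : Matrix (Fin k) (Fin k) F)).det ≠ 0 := by
      have := (Matrix.isUnit_iff_isUnit_det _).mp x.2.2.2.2.isUnit
      exact this.ne_zero
    exact mul_ne_zero (mul_ne_zero x.1.ne_zero x.1.ne_zero) h3
  have hcomm : ∀ x : X, (mk (x.1 : F) x.2.1 x.2.2.1 x.2.2.2.1
      (x.2.2.2.2 : Matrix (Fin k) (Fin k) F)) * E = E * (mk (x.1 : F) x.2.1 x.2.2.1 x.2.2.2.1
      (x.2.2.2.2 : Matrix (Fin k) (Fin k) F)) := by
    intro x
    rw [hE, comm_iff]
    exact ⟨fun j => mk_0s _ _ _ _ _ j, fun i => mk_s1 _ _ _ _ _ i, by rw [mk_11, mk_00]⟩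
  let f : X → {g : GL (Fin (k + 2)) F // (g : Matrix (Fin (k + 2)) (Fin (k + 2)) F) * E = E * (g : Matrix (Fin (k + 2)) (Fin (k + 2)) F)} :=
    fun x => ⟨Matrix.GeneralLinearGroup.mkOfDetNeZero _ (hdet x), hcomm x⟩
  have hfval : ∀ x : X, ((f x).1 : Matrix (Fin (k + 2)) (Fin (k + 2)) F) = mk (x.1 : F) x.2.1 x.2.2.1 x.2.2.2.1
      (x.2.2.2.2 : Matrix (Fin k) (Fin k) F) := fun x => rfl
  have hfbij : Function.Bijective f := by
    constructor
    · intro x y hxy
      have hm : mk (x.1 : F) x.2.1 x.2.2.1 x.2.2.2.1 (x.2.2.2.2 : Matrix (Fin k) (Fin k) F)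
          = mk (y.1 : F) y.2.1 y.2.2.1 y.2.2.2.1 (y.2.2.2.2 : Matrix (Fin k) (Fin k) F) := by
        rw [← hfval, ← hfval, hxy]
      obtain ⟨a, b, c, d, M⟩ := x
      obtain ⟨a', b', c', d', M'⟩ := y
      simp only at hm
      have e1 : a = a' := by
        apply Units.ext
        have := congrFun (congrFun hm 0) 0
        rwa [mk_00, mk_00] at this
      have e2 : b = b' := by
        have := congrFun (congrFun hm 1) 0
        rwa [mk_10, mk_10] at this
      have e3 : c = c' := by
        funext j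
        have := congrFun (congrFun hm 1) j.succ.succ
        rwa [mk_1s, mk_1s] at this
      have e4 : d = d' := by
        funext i
        have := congrFun (congrFun hm i.succ.succ) 0
        rwa [mk_s0, mk_s0] at this
      have e5 : M = M' := by
        apply Units.ext
        ext i j
        have := congrFun (congrFun hm i.succ.succ) j.succ.succ
        rwa [mk_ss, mk_ss] at this
      rw [e1, e2, e3, e4, e5]
    · rintro ⟨g, hg⟩
      have hg' := hg
      rw [hE, comm_iff] at hg'
      obtain ⟨h1, h2, h3⟩ := hg'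
      have hgdet : (g : Matrix (Fin (k + 2)) (Fin (k + 2)) F).det ≠ 0 :=
        ((Matrix.isUnit_iff_isUnit_det _).mp g.isUnit).ne_zero
      rw [det_block _ h1 h2] at hgdet
      have ha : (g : Matrix (Fin (k + 2)) (Fin (k + 2)) F) 0 0 ≠ 0 := fun h => hgdet (by rw [h]; ring)
      have hM : ((g : Matrix (Fin (k + 2)) (Fin (k + 2)) F).submatrix (fun i : Fin k => i.succ.succ)
          (fun i : Fin k => i.succ.succ)).det ≠ 0 := fun h => hgdet (by rw [h]; ring)
      refine ⟨(Units.mk0 _ ha, (g : Matrix (Fin (k + 2)) (Fin (k + 2)) F) 1 0, fun j => (g : Matrix (Fin (k + 2)) (Fin (k + 2)) F) 1 j.succ.succ,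
        fun i => (g : Matrix (Fin (k + 2)) (Fin (k + 2)) F) i.succ.succ 0,
        Matrix.GeneralLinearGroup.mkOfDetNeZero _ hM), ?_⟩
      apply Subtype.ext
      apply Units.ext
      rw [hfval]
      ext i j
      induction i using Fin.cases with
      | zero =>
        induction j using Fin.cases with
        | zero => rfl
        | succ j => rw [mk_0s, h1]
      | succ i =>
        induction i using Fin.cases with
        | zero =>
          induction j using Fin.cases with
          | zero => rfl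
          | succ j =>
            induction j using Fin.cases with
            | zero => exact h3.symm
            | succ j => rfl
        | succ i =>
          induction j using Fin.cases with
          | zero => rfl
          | succ j =>
            induction j using Fin.cases with
            | zero => exact (h2 i).symm
            | succ j => rfl
  rw [← Nat.card_congr (Equiv.ofBijective f hfbij)]
  have hcF : Nat.card F = q := by rw [Nat.card_eq_fintype_card, hF]
  have hGL : Nat.card (GL (Fin k) F) = ∏ i : Fin k, (q ^ k - q ^ (i : ℕ)) := by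
    rw [Matrix.card_GL_field, hF]
  have hfun : Nat.card (Fin k → F) = q ^ k := by
    rw [Nat.card_eq_fintype_card, Fintype.card_fun, hF, Fintype.card_fin]
  rw [Nat.card_prod, Nat.card_prod, Nat.card_prod, Nat.card_prod, Nat.card_units, hcF, hfun, hGL]
  have e : 2 * (k + 2) - 3 = 1 + k + k := by omega
  rw [e, pow_add, pow_add, pow_one]
  ring

end Cfsg.Agent.S2572
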