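import Cfsg.Statements.S2574
import Mathlib
import Cfsg.Agent.S2573

set_option autoImplicit false
open Cfsg

namespace Cfsg.Agent.S2574

section Helpers

open Module Matrix

variable {F : Type*} [Field F] {m : ℕ}

lemma symp_inv (A : Matrix (Fin m ⊕ Fin m) (Fin m ⊕ Fin m) F) (hA : A ∈ Matrix.symplecticGroup (Fin m) F)
    (v w : Fin m ⊕ Fin m → F) : Cfsg.sympForm m F (A *ᵥ v) (A *ᵥ w) = Cfsg.sympForm m F v w := by
  unfold Cfsg.sympForm
  have h1 : ∀ x : Fin m ⊕ Fin m → F, (A *ᵥ v) ⬝ᵥ x = v ⬝ᵥ (Aᵀ *ᵥ x) := by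
    intro x
    rw [dotProduct_comm, Matrix.dotProduct_mulVec, ← Matrix.mulVec_transpose, dotProduct_comm]
  have hA' : Aᵀ * J (Fin m) F * A = J (Fin m) F := SymplecticGroup.mem_iff'.mp hA
  rw [h1, Matrix.mulVec_mulVec, Matrix.mulVec_mulVec, hA']

lemma symp_sub_left (v v' w : Fin m ⊕ Fin m → F) :
    Cfsg.sympForm m F (v - v') w = Cfsg.sympForm m F v w - Cfsg.sympForm m F v' w := by
  unfold Cfsg.sympForm
  rw [sub_dotProduct]

lemma symp_sub_right (v w w' : Fin m ⊕ Fin m → F) :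
    Cfsg.sympForm m F v (w - w') = Cfsg.sympForm m F v w - Cfsg.sympForm m F v w' := by
  unfold Cfsg.sympForm
  rw [Matrix.mulVec_sub, dotProduct_sub]

lemma symp_zero_right (v : Fin m ⊕ Fin m → F) : Cfsg.sympForm m F v 0 = 0 := by
  unfold Cfsg.sympForm
  rw [Matrix.mulVec_zero, dotProduct_zero]

lemma adj_step (A B : Matrix (Fin m ⊕ Fin m) (Fin m ⊕ Fin m) F) (hA : A ∈ Matrix.symplecticGroup (Fin m) F)
    (hAB : A * B = 1) (v w : Fin m ⊕ Fin m → F) :
    Cfsg.sympForm m F ((A - 1) *ᵥ v) w = Cfsg.sympForm m F v ((B - 1) *ᵥ w) := by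
  rw [Matrix.sub_mulVec, Matrix.sub_mulVec, Matrix.one_mulVec, Matrix.one_mulVec, symp_sub_left, symp_sub_right]
  congr 1
  have : w = A *ᵥ (B *ᵥ w) := by rw [Matrix.mulVec_mulVec, hAB, Matrix.one_mulVec]
  conv_lhs => rw [this]
  exact symp_inv A hA v (B *ᵥ w)

lemma adj_pow (A B : Matrix (Fin m ⊕ Fin m) (Fin m ⊕ Fin m) F) (hA : A ∈ Matrix.symplecticGroup (Fin m) F)
    (hAB : A * B = 1) (d : ℕ) : ∀ (v w : Fin m ⊕ Fin m → F),
    Cfsg.sympForm m F (((A - 1) ^ d) *ᵥ v) w = Cfsg.sympForm m F v (((B - 1) ^ d) *ᵥ w) := by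
  induction d with
  | zero => intro v w; simp
  | succ d ih =>
    intro v w
    rw [pow_succ', ← Matrix.mulVec_mulVec, adj_step A B hA hAB, ih, Matrix.mulVec_mulVec, ← pow_succ]

lemma pow_B (A B : Matrix (Fin m ⊕ Fin m) (Fin m ⊕ Fin m) F) (hAB : A * B = 1) (hBA : B * A = 1) (d : ℕ) :
    (B - 1) ^ d = (-1) ^ d • (B ^ d * (A - 1) ^ d) := by
  have h1 : B - 1 = -(B * (A - 1)) := by rw [mul_sub, hBA, mul_one]; abel
  have hc : Commute B (A - 1) := by
    change B * (A - 1) = (A - 1) * B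
    rw [mul_sub, sub_mul, hBA, hAB, mul_one, one_mul]
  rw [h1, neg_pow, hc.mul_pow]
  simp

end Helpers

/-- A regular unipotent element of the symplectic group has totally isotropic small invariant subspaces: over a finite field, if u ∈ Sp_2m(F) satisfies (u − 1)^(2m) = 0 and rank(u − 1) = 2m − 1, and W is a u-invariant subspace with 2 dim W ≤ 2m, then the alternating form vanishes identically on W. -/
theorem result {F : Type*} [Field F] [Finite F] {m : ℕ} (u : Matrix.symplecticGroup (Fin m) F) (hnil : ((u : Matrix (Fin m ⊕ Fin m) (Fin m ⊕ Fin m) F) - 1) ^ (2 * m) = 0) (hreg : ((u : Matrix (Fin m ⊕ Fin m) (Fin m ⊕ Fin m) F) - 1).rank = 2 * m - 1) (W : Submodule F (Fin m ⊕ Fin m → F)) (hW : ∀ v ∈ W, (u : Matrix (Fin m ⊕ Fin m) (Fin m ⊕ Fin m) F).mulVec v ∈ W) (hdim : 2 * Module.finrank F W ≤ 2 * m) : ∀ v ∈ W, ∀ w ∈ W, Cfsg.sympForm m F v w = 0 := by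
  classical
  set A : Matrix (Fin m ⊕ Fin m) (Fin m ⊕ Fin m) F := (u : Matrix (Fin m ⊕ Fin m) (Fin m ⊕ Fin m) F) with hAdef
  set B : Matrix (Fin m ⊕ Fin m) (Fin m ⊕ Fin m) F := ((u⁻¹ : Matrix.symplecticGroup (Fin m) F) : Matrix (Fin m ⊕ Fin m) (Fin m ⊕ Fin m) F) with hBdef
  have hA : A ∈ Matrix.symplecticGroup (Fin m) F := u.2
  have hAB : A * B = 1 := by
    have : ((u * u⁻¹ : Matrix.symplecticGroup (Fin m) F) : Matrix (Fin m ⊕ Fin m) (Fin m ⊕ Fin m) F) = 1 := by
      rw [mul_inv_cancel]; rfl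
    exact this
  have hBA : B * A = 1 := by
    have : ((u⁻¹ * u : Matrix.symplecticGroup (Fin m) F) : Matrix (Fin m ⊕ Fin m) (Fin m ⊕ Fin m) F) = 1 := by
      rw [inv_mul_cancel]; rfl
    exact this
  set N : (Fin m ⊕ Fin m → F) →ₗ[F] (Fin m ⊕ Fin m → F) := Matrix.mulVecLin (A - 1) with hN
  have hpow : ∀ k : ℕ, Matrix.mulVecLin ((A - 1) ^ k) = N ^ k := by
    intro k
    induction k with
    | zero => simp [Module.End.one_eq_id]
    | succ k ih => rw [pow_succ, Matrix.mulVecLin_mul, ih, pow_succ]; rfl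
  have hN2m : N ^ (2 * m) = 0 := by rw [← hpow, hnil]; simp
  have hnilN : IsNilpotent N := ⟨2 * m, hN2m⟩
  have hrank : Module.finrank F (LinearMap.range N) = 2 * m - 1 := hreg
  have hrn := LinearMap.finrank_range_add_finrank_ker N
  have hdimV : Module.finrank F (Fin m ⊕ Fin m → F) = 2 * m := by
    rw [Module.finrank_pi]; simp; ring
  rw [hdimV] at hrn
  have h1 : Module.finrank F (LinearMap.ker N) ≤ 1 := by omega
  have hWN : ∀ w ∈ W, N w ∈ W := by
    intro w hw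
    have : N w = A.mulVec w - w := by
      simp [hN]
    rw [this]
    exact W.sub_mem (hW w hw) hw
  set d := Module.finrank F W with hd
  have hWker : W = LinearMap.ker (N ^ d) := Cfsg.Agent.S2573.eq_ker_pow N h1 hnilN W hWN
  have hle : LinearMap.ker (N ^ d) ≤ LinearMap.ker (N ^ (2 * m - d)) := by
    intro x hx
    rw [LinearMap.mem_ker] at hx ⊢
    have : 2 * m - d = (2 * m - d - d) + d := by omega
    rw [this, pow_add, Module.End.mul_apply, hx, map_zero]
  have hrange : LinearMap.range (N ^ d) = LinearMap.ker (N ^ (2 * m - d)) := by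
    apply Submodule.eq_of_le_of_finrank_le
    · rintro _ ⟨x, rfl⟩
      rw [LinearMap.mem_ker, ← Module.End.mul_apply, ← pow_add]
      have : 2 * m - d + d = 2 * m := by omega
      rw [this, hN2m]; rfl
    · have h2 := LinearMap.finrank_range_add_finrank_ker (N ^ d)
      rw [hdimV] at h2
      have h3 := Cfsg.Agent.S2573.finrank_ker_pow_le N h1 d
      have h4 := Cfsg.Agent.S2573.finrank_ker_pow_le N h1 (2 * m - d)
      omega
  intro v hv w hw
  have hv' : v ∈ LinearMap.range (N ^ d) := by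
    rw [hrange]; apply hle; rw [← hWker]; exact hv
  obtain ⟨x, rfl⟩ := hv'
  have hw' : (N ^ d) w = 0 := by
    have : w ∈ LinearMap.ker (N ^ d) := by rw [← hWker]; exact hw
    exact this
  rw [← hpow] at hw' ⊢
  change ((A - 1) ^ d).mulVec w = 0 at hw'
  change Cfsg.sympForm m F (((A - 1) ^ d).mulVec x) w = 0
  rw [adj_pow A B hA hAB d, pow_B A B hAB hBA d, Matrix.smul_mulVec, ← Matrix.mulVec_mulVec, hw',
    Matrix.mulVec_zero, smul_zero, symp_zero_right]

end Cfsg.Agent.S2574
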