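import Cfsg.Statements.S2575
import Mathlib

set_option autoImplicit false
open Cfsg

namespace Cfsg.Agent.S2575

section Helpers

variable {F : Type*} [Field F] [Fintype F]

lemma card_ge_three (hq : Odd (Fintype.card F)) : 3 ≤ Fintype.card F := by
  have h2 : 1 < Fintype.card F := Fintype.one_lt_card
  obtain ⟨t, ht⟩ := hq
  omega

lemma exists_gen (hq : Odd (Fintype.card F)) :
    ∃ g : Fˣ, orderOf g = Fintype.card F - 1 ∧ ((g ^ ((Fintype.card F - 1) / 2) : Fˣ) : F) = -1 := by
  classical
  obtain ⟨g, hg⟩ := IsCyclic.exists_generator (α := Fˣ)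
  have hord : orderOf g = Fintype.card F - 1 := by
    rw [orderOf_eq_card_of_forall_mem_zpowers hg, Nat.card_units, Nat.card_eq_fintype_card]
  refine ⟨g, hord, ?_⟩
  have h3 := card_ge_three hq
  obtain ⟨t, ht⟩ := hq
  have hN : Fintype.card F - 1 = 2 * t := by omega
  have ht0 : 0 < t := by omega
  rw [hN, Nat.mul_div_cancel_left _ (by norm_num : 0 < 2)]
  have hsq : (g ^ t) ^ 2 = 1 := by
    rw [← pow_mul, mul_comm, ← hN, ← hord, pow_orderOf_eq_one]
  have hne : g ^ t ≠ 1 := by
    intro h
    have := orderOf_dvd_of_pow_eq_one h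
    rw [hord, hN] at this
    have := Nat.le_of_dvd ht0 this
    omega
  have hsq' : ((g ^ t : Fˣ) : F) ^ 2 = 1 := by
    rw [← Units.val_pow_eq_pow_val, hsq]; rfl
  rcases sq_eq_one_iff_of_ne_zero.mp hsq' with h | h
  · exfalso
    apply hne
    exact Units.ext h
  · exact h
where
  sq_eq_one_iff_of_ne_zero {x : F} : x ^ 2 = 1 ↔ x = 1 ∨ x = -1 := sq_eq_one_iff_of_side_aux
  sq_eq_one_iff_of_side_aux {x : F} : x ^ 2 = 1 ↔ x = 1 ∨ x = -1 := by
    constructor
    · intro h
      have : (x - 1) * (x + 1) = 0 := by ring_nf; rw [h]; ring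
      rcases mul_eq_zero.mp this with h1 | h1
      · left; exact sub_eq_zero.mp h1
      · right; exact eq_neg_of_add_eq_zero_left h1
    · rintro (rfl | rfl) <;> ring

lemma neg_one_ne_one (hq : Odd (Fintype.card F)) : (-1 : F) ≠ 1 := by
  intro h
  have hchar : ringChar F ≠ 2 := by
    intro h2
    have := FiniteField.even_card_iff_char_two.mp h2
    obtain ⟨t, ht⟩ := hq
    omega
  have h2 : (2 : F) ≠ 0 := Ring.two_ne_zero hchar
  apply h2
  have : (2 : F) = 1 - (-1) := by ring
  rw [this, h, sub_self]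

lemma prod_diag (n i : ℕ) (hi : i ≤ n) :
    ∏ j : Fin n, (if (j : ℕ) < i then (-1 : F) else 1) = (-1) ^ i := by
  rw [Fin.prod_univ_eq_prod_range (fun j => if j < i then (-1 : F) else 1) n, Finset.prod_ite,
    Finset.prod_const_one, mul_one, Finset.prod_const]
  congr 1
  have : Finset.filter (fun j => j < i) (Finset.range n) = Finset.range i := by
    ext j
    simp only [Finset.mem_filter, Finset.mem_range]
    omega
  rw [this, Finset.card_range]

end Helpers

/-- Which diagonal involutions of PGL_n(q) lie in PSL_n(q), q odd: for the diagonal matrix t with i entries −1 and n − i entries 1, some non-zero scalar multiple of t has determinant one if and only if i is even or the 2-part of q − 1 exceeds the 2-part of n (that is, −1 is an n-th power in the field exactly in the latter case). -/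
theorem result {F : Type*} [Field F] [Fintype F] {q : ℕ} (hF : Fintype.card F = q) (hq : Odd q) {n : ℕ} (hn : 1 ≤ n) (i : ℕ) (hi : i ≤ n) : (∃ c : F, c ≠ 0 ∧ (c • Matrix.diagonal (fun j : Fin n => if (j : ℕ) < i then (-1 : F) else 1)).det = 1) ↔ (Even i ∨ padicValNat 2 n < padicValNat 2 (q - 1)) := by
  subst hF
  have hN1 : Fintype.card F - 1 ≠ 0 := by
    have := card_ge_three hq
    omega
  have hn0 : n ≠ 0 := by omega
  have hdet : ∀ c : F, (c • Matrix.diagonal (fun j : Fin n => if (j : ℕ) < i then (-1 : F) else 1)).det = c ^ n * (-1) ^ i := by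
    intro c
    rw [Matrix.det_smul, Matrix.det_diagonal, Fintype.card_fin, prod_diag n i hi]
  simp only [hdet]
  obtain ⟨g, hord, hg⟩ := exists_gen hq
  set N := Fintype.card F - 1 with hNdef
  set a := padicValNat 2 N with ha
  set b := padicValNat 2 n with hb
  have hNa : 2 ^ a ∣ N := pow_padicValNat_dvd
  constructor
  · rintro ⟨c, hc0, hc⟩
    by_contra hcon
    push Not at hcon
    obtain ⟨hi_odd, hab⟩ := hcon
    have hi_odd' : Odd i := Nat.not_even_iff_odd.mp hi_odd
    rw [hi_odd'.neg_one_pow] at hc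
    have hcn : c ^ n = -1 := by
      have : c ^ n = -(c ^ n * -1) := by ring
      rw [this, hc]
    have h2a : 2 ^ a ∣ n := (padicValNat_dvd_iff_le hn0).mpr hab
    obtain ⟨n', hn'⟩ := h2a
    obtain ⟨r, hr⟩ := hNa
    have hr_odd : Odd r := by
      rw [← Nat.not_even_iff_odd]
      intro hev
      obtain ⟨r', hr'⟩ := hev
      have : 2 ^ (a + 1) ∣ N := ⟨r', by rw [hr, hr', pow_succ]; ring⟩
      exact pow_succ_padicValNat_not_dvd hN1 this
    have hcN : c ^ N = 1 := by
      have := FiniteField.pow_card_sub_one_eq_one c hc0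
      exact this
    have h1 : (c ^ n) ^ r = 1 := by
      rw [← pow_mul, hn', show 2 ^ a * n' * r = (2 ^ a * r) * n' by ring, ← hr, pow_mul, hcN, one_pow]
    rw [hcn, hr_odd.neg_one_pow] at h1
    exact neg_one_ne_one hq h1
  · rintro (hev | hlt)
    · exact ⟨1, one_ne_zero, by rw [hev.neg_one_pow]; simp⟩
    · rcases Nat.even_or_odd i with hev | hodd
      · exact ⟨1, one_ne_zero, by rw [hev.neg_one_pow]; simp⟩
      · have hb1 : 2 ^ (b + 1) ∣ N := (padicValNat_dvd_iff_le hN1).mpr hlt
        obtain ⟨N₁, hN₁⟩ := hb1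
        have hnb : 2 ^ b ∣ n := pow_padicValNat_dvd
        obtain ⟨n₁, hn₁⟩ := hnb
        have hn₁_odd : Odd n₁ := by
          rw [← Nat.not_even_iff_odd]
          intro hev
          obtain ⟨n', hn'⟩ := hev
          have : 2 ^ (b + 1) ∣ n := ⟨n', by rw [hn₁, hn', pow_succ]; ring⟩
          exact pow_succ_padicValNat_not_dvd hn0 this
        refine ⟨((g ^ N₁ : Fˣ) : F), Units.ne_zero _, ?_⟩
        rw [hodd.neg_one_pow, ← Units.val_pow_eq_pow_val, ← pow_mul]
        have hexp : N₁ * n = (N / 2) * n₁ := by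
          have hN2 : N / 2 = 2 ^ b * N₁ := by
            rw [hN₁, pow_succ, mul_assoc, mul_comm 2 N₁, ← mul_assoc, Nat.mul_div_cancel _ (by norm_num : 0 < 2)]
          rw [hN2, hn₁]; ring
        rw [hexp, pow_mul, Units.val_pow_eq_pow_val, hg, hn₁_odd.neg_one_pow]
        ring

end Cfsg.Agent.S2575
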