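import Cfsg.Statements.S2576
import Mathlib

set_option autoImplicit false
open Cfsg

namespace Cfsg.Agent.S2576

section Helpers

variable {F : Type*} [Field F] [Fintype F]

lemma card_ge_three (hq : Odd (Fintype.card F)) : 3 ≤ Fintype.card F := by
  have h2 : 1 < Fintype.card F := Fintype.one_lt_card
  obtain ⟨t, ht⟩ := hq
  omega

omit [Fintype F] in
lemma sq_eq_one_aux {x : F} (h : x ^ 2 = 1) : x = 1 ∨ x = -1 := by
  have : (x - 1) * (x + 1) = 0 := by ring_nf; rw [h]; ring
  rcases mul_eq_zero.mp this with h1 | h1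
  · left; exact sub_eq_zero.mp h1
  · right; exact eq_neg_of_add_eq_zero_left h1

lemma half_pow (hq : Odd (Fintype.card F)) (g : Fˣ) (hord : orderOf g = Fintype.card F - 1) :
    ((g ^ ((Fintype.card F - 1) / 2) : Fˣ) : F) = -1 := by
  have h3 := card_ge_three hq
  obtain ⟨t, ht⟩ := hq
  have hN : Fintype.card F - 1 = 2 * t := by omega
  have ht0 : 0 < t := by omega
  rw [hN, Nat.mul_div_cancel_left _ (by norm_num : 0 < 2)]
  have hsq : (g ^ t) ^ 2 = 1 := by
    rw [← pow_mul, mul_comm, ← hN, ← hord, pow_orderOf_eq_one]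
  have hne : g ^ t ≠ 1 := by
    intro h
    have := orderOf_dvd_of_pow_eq_one h
    rw [hord, hN] at this
    have := Nat.le_of_dvd ht0 this
    omega
  have hsq' : ((g ^ t : Fˣ) : F) ^ 2 = 1 := by
    rw [← Units.val_pow_eq_pow_val, hsq]; rfl
  rcases sq_eq_one_aux hsq' with h | h
  · exfalso
    apply hne
    exact Units.ext h
  · exact h

lemma neg_one_ne_one (hq : Odd (Fintype.card F)) : (-1 : F) ≠ 1 := by
  intro h
  have hchar : ringChar F ≠ 2 := by
    intro h2
    have := FiniteField.even_card_iff_char_two.mp h2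
    obtain ⟨t, ht⟩ := hq
    omega
  have h2 : (2 : F) ≠ 0 := Ring.two_ne_zero hchar
  apply h2
  have : (2 : F) = 1 - (-1) := by ring
  rw [this, h, sub_self]

end Helpers

/-- Which involutions of PGL_2m(q) coming from a scalar of the quadratic extension field lie in PSL_2m(q), q odd: let μ generate the Sylow 2-subgroup of the multiplicative group of the field with q elements (μ has order the 2-part of q − 1) and let t be the block-diagonal matrix with m diagonal blocks [[0, 1], [μ, 0]] (so t² is the scalar μ and t is an involution modulo scalars). Then some non-zero scalar multiple of t has determinant one if and only if q ≡ 3 (mod 4) or the 2-part of q − 1 is less than the 2-part of 2m. -/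
theorem result {F : Type*} [Field F] [Fintype F] {q : ℕ} (hF : Fintype.card F = q) (hq : Odd q) {m : ℕ} (hm : 1 ≤ m) (μ : F) (hμ : orderOf μ = 2 ^ padicValNat 2 (q - 1)) : (∃ c : F, c ≠ 0 ∧ (c • Matrix.blockDiagonal (fun _ : Fin m => !![(0 : F), 1; μ, 0])).det = 1) ↔ (q % 4 = 3 ∨ padicValNat 2 (q - 1) < padicValNat 2 (2 * m)) := by
  classical
  subst hF
  have h3 := card_ge_three hq
  have hN1 : Fintype.card F - 1 ≠ 0 := by omega
  have hm0 : m ≠ 0 := by omega
  have hdet : ∀ c : F, (c • Matrix.blockDiagonal (fun _ : Fin m => !![(0 : F), 1; μ, 0])).det = c ^ (2 * m) * (-μ) ^ m := by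
    intro c
    rw [Matrix.det_smul, Matrix.det_blockDiagonal, Fintype.card_prod, Fintype.card_fin, Fintype.card_fin]
    simp [Matrix.det_fin_two_of]
  simp only [hdet]
  set N := Fintype.card F - 1 with hNdef
  set a := padicValNat 2 N with ha
  have hNa : 2 ^ a ∣ N := pow_padicValNat_dvd
  have hv2m : padicValNat 2 (2 * m) = padicValNat 2 m + 1 := by
    rw [padicValNat.mul (by norm_num) hm0, padicValNat_self, add_comm]
  rw [hv2m]
  have hμa : μ ^ (2 ^ a) = 1 := by rw [← hμ]; exact pow_orderOf_eq_one μ
  have hNeven : 2 ∣ N := by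
    obtain ⟨t, ht⟩ := hq
    exact ⟨t, by omega⟩
  have ha1 : 1 ≤ a := (padicValNat_dvd_iff_le hN1).mp (by simpa using hNeven)
  by_cases hq4 : Fintype.card F % 4 = 3
  · simp only [hq4, true_or, iff_true]
    have ha_eq : a = 1 := by
      have h4 : ¬ 2 ^ 2 ∣ N := by
        rintro ⟨t, ht⟩
        omega
      have : ¬ 2 ≤ a := fun h => h4 ((padicValNat_dvd_iff_le hN1).mpr h)
      omega
    rw [ha_eq] at hμ hμa
    have hμ1 : μ ≠ 1 := by
      intro h
      rw [h, orderOf_one] at hμ
      norm_num at hμ
    have hμneg : μ = -1 := by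
      rcases sq_eq_one_aux (x := μ) (by rw [pow_one] at hμa; exact hμa) with h | h
      · exact absurd h hμ1
      · exact h
    exact ⟨1, one_ne_zero, by rw [hμneg]; simp⟩
  · have hq41 : Fintype.card F % 4 = 1 := by
      obtain ⟨t, ht⟩ := hq
      omega
    simp only [hq4, false_or]
    have ha2 : 2 ≤ a := (padicValNat_dvd_iff_le hN1).mp ⟨(Fintype.card F - 1) / 4, by omega⟩
    rw [Nat.lt_succ_iff, ← padicValNat_dvd_iff_le hm0]
    constructor
    · rintro ⟨c, hc0, hc⟩
      obtain ⟨g, hg⟩ := IsCyclic.exists_generator (α := Fˣ)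
      have hord : orderOf g = N := by
        rw [orderOf_eq_card_of_forall_mem_zpowers hg, Nat.card_units, Nat.card_eq_fintype_card]
      have hhalf := half_pow hq g hord
      have hpow : ∀ x : Fˣ, ∃ k : ℕ, g ^ k = x := by
        intro x
        have hx := hg x
        rw [← mem_powers_iff_mem_zpowers] at hx
        obtain ⟨k, hk⟩ := hx
        exact ⟨k, hk⟩
      have hμ0 : μ ≠ 0 := by
        rintro rfl
        rw [zero_pow (by positivity)] at hμa
        exact zero_ne_one hμa
      obtain ⟨e, he⟩ := hpow (Units.mk0 c hc0)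
      obtain ⟨f, hf⟩ := hpow (Units.mk0 μ hμ0)
      have hordμ : orderOf (g ^ f) = 2 ^ a := by
        rw [hf, ← hμ, ← orderOf_units]; rfl
      obtain ⟨r, hr⟩ := hNa
      have hr_odd : Odd r := by
        rw [← Nat.not_even_iff_odd]
        intro hev
        obtain ⟨r', hr'⟩ := hev
        have : 2 ^ (a + 1) ∣ N := ⟨r', by rw [hr, hr', pow_succ]; ring⟩
        exact pow_succ_padicValNat_not_dvd hN1 this
      have hf_odd : Odd f := by
        rw [← Nat.not_even_iff_odd]
        intro hev
        have hgcd2 : 2 ∣ Nat.gcd N f := Nat.dvd_gcd hNeven hev.two_dvd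
        have h5 : orderOf (g ^ f) = N / Nat.gcd N f := by
          rw [orderOf_pow, hord]
        rw [hordμ] at h5
        have hgN : Nat.gcd N f ∣ N := Nat.gcd_dvd_left N f
        have h6 : N = Nat.gcd N f * 2 ^ a := by
          rw [h5, Nat.mul_div_cancel' hgN]
        have h7 : Nat.gcd N f = r := by
          have : Nat.gcd N f * 2 ^ a = r * 2 ^ a := by rw [← h6, hr]; ring
          exact Nat.eq_of_mul_eq_mul_right (by positivity) this
        rw [h7] at hgcd2
        exact (Nat.not_even_iff_odd.mpr hr_odd) (even_iff_two_dvd.mpr hgcd2)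
      have hec : ((g ^ e : Fˣ) : F) = c := by rw [he]; rfl
      have hfμ : ((g ^ f : Fˣ) : F) = μ := by rw [hf]; rfl
      have hunit : (g ^ e) ^ (2 * m) * (g ^ (N / 2) * g ^ f) ^ m = 1 := by
        apply Units.ext
        have hhalf' : (g : F) ^ (N / 2) = -1 := by rw [← Units.val_pow_eq_pow_val]; exact hhalf
        rw [Units.val_pow_eq_pow_val] at hec hfμ
        simp only [Units.val_mul, Units.val_pow_eq_pow_val, Units.val_one]
        rw [hhalf', hec, hfμ, neg_one_mul]
        exact hc
      rw [← pow_mul, ← pow_add, ← pow_mul, ← pow_add] at hunit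
      have hdvd : N ∣ e * (2 * m) + (N / 2 + f) * m := by
        have h9 := orderOf_dvd_of_pow_eq_one hunit
        rw [hord] at h9; exact h9
      have hdvd2 : 2 ^ a ∣ m * (2 * e + N / 2 + f) := by
        have : e * (2 * m) + (N / 2 + f) * m = m * (2 * e + N / 2 + f) := by ring
        rw [← this]
        exact Dvd.dvd.trans ⟨r, hr⟩ hdvd
      have hodd : Odd (2 * e + N / 2 + f) := by
        have hN2 : Even (N / 2) := by
          have : N / 2 = 2 * (2 ^ (a - 2) * r) := by
            rw [hr]
            have : 2 ^ a = 2 * (2 * 2 ^ (a - 2)) := by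
              rw [← pow_succ', ← pow_succ']; congr 1; omega
            rw [this, mul_assoc, Nat.mul_div_cancel_left _ (by norm_num : 0 < 2)]; ring
          rw [this]; exact even_two_mul _
        have : Even (2 * e + N / 2) := Even.add (even_two_mul e) hN2
        exact Even.add_odd this hf_odd
      have hcop : Nat.Coprime (2 ^ a) (2 * e + N / 2 + f) := by
        apply Nat.Coprime.pow_left
        exact (Nat.coprime_two_left).mpr hodd
      exact hcop.dvd_of_dvd_mul_right hdvd2
    · rintro ⟨m', hm'⟩
      refine ⟨1, one_ne_zero, ?_⟩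
      have hmeven : Even m := by
        rw [hm']
        have : 2 ^ a = 2 * 2 ^ (a - 1) := by rw [← pow_succ']; congr 1; omega
        rw [this, mul_assoc]; exact even_two_mul _
      rw [one_pow, one_mul, neg_pow, hmeven.neg_one_pow, one_mul, hm', pow_mul, hμa, one_pow]

end Cfsg.Agent.S2576
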