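import Cfsg.Statements.S2578
import Mathlib

set_option autoImplicit false
open Cfsg

namespace Cfsg.Agent.S2578

section Helpers

open Module

variable {F : Type*} [Field F]

/-- kernel growth bound -/
lemma finrank_ker_pow_le {V : Type*} [AddCommGroup V] [Module F V] [FiniteDimensional F V]
    (f : Module.End F V) (h1 : finrank F (LinearMap.ker f) ≤ 1) :
    ∀ j : ℕ, finrank F (LinearMap.ker (f ^ j)) ≤ j := by
  intro j
  induction j with
  | zero =>
    have : LinearMap.ker (f ^ 0) = ⊥ := by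
      rw [pow_zero]; exact LinearMap.ker_id
    rw [this]; simp
  | succ j ih =>
    let g : LinearMap.ker (f ^ (j + 1)) →ₗ[F] V := (f ^ j) ∘ₗ (LinearMap.ker (f ^ (j + 1))).subtype
    have hrn := LinearMap.finrank_range_add_finrank_ker g
    have hr : finrank F (LinearMap.range g) ≤ 1 := by
      refine le_trans (Submodule.finrank_mono ?_) h1
      rintro _ ⟨x, rfl⟩
      rw [LinearMap.mem_ker]
      have h' : (f ^ (j + 1)) (x : V) = 0 := LinearMap.mem_ker.mp x.2
      show f ((f ^ j) (x : V)) = 0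
      rw [← Module.End.mul_apply, ← pow_succ']
      exact h'
    have hk : finrank F (LinearMap.ker g) ≤ finrank F (LinearMap.ker (f ^ j)) := by
      let φ : LinearMap.ker g →ₗ[F] LinearMap.ker (f ^ j) :=
        LinearMap.codRestrict _ ((LinearMap.ker (f ^ (j + 1))).subtype ∘ₗ (LinearMap.ker g).subtype)
          (by
            intro x
            have := x.2
            rw [LinearMap.mem_ker] at this
            exact this)
      refine LinearMap.finrank_le_finrank_of_injective (f := φ) ?_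
      intro x y hxy
      have := congrArg Subtype.val hxy
      exact Subtype.ext (Subtype.ext this)
    omega

lemma exists_pow_apply_ne_zero {V : Type*} [AddCommGroup V] [Module F V] [FiniteDimensional F V]
    (f : Module.End F V) (k : ℕ) (hV : finrank F V = k + 1)
    (h1 : finrank F (LinearMap.ker f) ≤ 1) : ∃ v : V, (f ^ k) v ≠ 0 := by
  by_contra hcon
  push Not at hcon
  have : LinearMap.ker (f ^ k) = ⊤ := by
    rw [LinearMap.ker_eq_top]; ext v; simp [hcon v]
  have h := finrank_ker_pow_le f h1 k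
  rw [this, finrank_top, hV] at h
  omega

lemma li_pow {V : Type*} [AddCommGroup V] [Module F V] (f : Module.End F V) (k : ℕ) (v : V)
    (h1 : (f ^ (k + 1)) v = 0) (h2 : (f ^ k) v ≠ 0) :
    LinearIndependent F (fun i : Fin (k + 1) => (f ^ (i : ℕ)) v) := by
  rw [Fintype.linearIndependent_iff]
  intro g hg
  have key : ∀ m : ℕ, m ≤ k + 1 → ∀ i : Fin (k + 1), (i : ℕ) < m → g i = 0 := by
    intro m
    induction m with
    | zero => intro _ i hi; omega
    | succ m ih =>
      intro hm i hi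
      have ih' := ih (by omega)
      by_cases him : (i : ℕ) < m
      · exact ih' i him
      · have him' : (i : ℕ) = m := by omega
        have h3 := congrArg (fun x => (f ^ (k - m)) x) hg
        simp only [map_sum, map_smul, map_zero] at h3
        rw [Finset.sum_eq_single i] at h3
        · have h4 : (f ^ (k - m)) ((f ^ (i : ℕ)) v) = (f ^ k) v := by
            rw [← Module.End.mul_apply, ← pow_add]
            congr 2; omega
          rw [h4] at h3
          rcases smul_eq_zero.mp h3 with h | h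
          · exact h
          · exact absurd h h2
        · intro j _ hji
          by_cases hjm : (j : ℕ) < m
          · rw [ih' j hjm, zero_smul]
          · have hjm' : m < (j : ℕ) := by
              rcases Nat.lt_or_ge m j with h | h
              · exact h
              · exfalso; apply hji; ext; omega
            have : (f ^ (k - m)) ((f ^ (j : ℕ)) v) = 0 := by
              rw [← Module.End.mul_apply, ← pow_add]
              have : k - m + (j : ℕ) = ((j : ℕ) - m - 1) + (k + 1) := by omega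
              rw [this, pow_add, Module.End.mul_apply, h1, map_zero]
            rw [this, smul_zero]
        · intro h; exact absurd (Finset.mem_univ i) h
  intro i
  exact key (k + 1) le_rfl i i.2

/-- the standard nilpotent Jordan block -/
def Nk (F : Type*) [Field F] (k : ℕ) : Matrix (Fin (k + 1)) (Fin (k + 1)) F :=
  Matrix.of fun i j => if (j : ℕ) = (i : ℕ) + 1 then 1 else 0

lemma Nk_apply (k : ℕ) (i j : Fin (k + 1)) :
    Nk F k i j = if (j : ℕ) = (i : ℕ) + 1 then 1 else 0 := rfl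

lemma mulN_succ {k : ℕ} (c : Matrix (Fin (k + 1)) (Fin (k + 1)) F) (i : Fin (k + 1)) (j : Fin k) :
    (c * Nk F k) i j.succ = c i j.castSucc := by
  rw [Matrix.mul_apply, Finset.sum_eq_single j.castSucc]
  · simp [Nk_apply]
  · intro l _ hl
    have : ¬ ((j.succ : Fin (k + 1)) : ℕ) = (l : ℕ) + 1 := by
      intro h; apply hl; ext; simp at h ⊢; omega
    rw [Nk_apply, if_neg this, mul_zero]
  · intro h; exact absurd (Finset.mem_univ _) h

lemma mulN_zero {k : ℕ} (c : Matrix (Fin (k + 1)) (Fin (k + 1)) F) (i : Fin (k + 1)) :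
    (c * Nk F k) i 0 = 0 := by
  rw [Matrix.mul_apply]; apply Finset.sum_eq_zero; intro l _
  rw [Nk_apply, if_neg (by simp), mul_zero]

lemma Nmul_castSucc {k : ℕ} (c : Matrix (Fin (k + 1)) (Fin (k + 1)) F) (i : Fin k)
    (j : Fin (k + 1)) : (Nk F k * c) i.castSucc j = c i.succ j := by
  rw [Matrix.mul_apply, Finset.sum_eq_single i.succ]
  · simp [Nk_apply]
  · intro l _ hl
    have : ¬ ((l : Fin (k + 1)) : ℕ) = ((i.castSucc : Fin (k + 1)) : ℕ) + 1 := by
      intro h; apply hl; ext; simp at h ⊢; omega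
    rw [Nk_apply, if_neg this, zero_mul]
  · intro h; exact absurd (Finset.mem_univ _) h

lemma Nk_mulVec_castSucc {k : ℕ} (v : Fin (k + 1) → F) (i : Fin k) :
    (Nk F k).mulVec v i.castSucc = v i.succ := by
  rw [Matrix.mulVec, dotProduct, Finset.sum_eq_single i.succ]
  · simp [Nk_apply]
  · intro l _ hl
    have : ¬ ((l : Fin (k + 1)) : ℕ) = ((i.castSucc : Fin (k + 1)) : ℕ) + 1 := by
      intro h; apply hl; ext; simp at h ⊢; omega
    rw [Nk_apply, if_neg this, zero_mul]
  · intro h; exact absurd (Finset.mem_univ _) h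

lemma Nk_pow (k : ℕ) (j : ℕ) : ∀ i l : Fin (k + 1),
    (Nk F k ^ j) i l = if (l : ℕ) = (i : ℕ) + j then 1 else 0 := by
  induction j with
  | zero =>
    intro i l
    rw [pow_zero, Matrix.one_apply]
    by_cases h : i = l
    · subst h; simp
    · rw [if_neg h, if_neg]
      intro h'; apply h; ext; omega
  | succ j ih =>
    intro i l
    rw [pow_succ]
    induction l using Fin.cases with
    | zero => rw [mulN_zero, if_neg]; simp
    | succ l =>
      rw [mulN_succ, ih]
      by_cases h : (l : ℕ) = (i : ℕ) + j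
      · rw [if_pos (by simpa using h), if_pos (by simp; omega)]
      · rw [if_neg (by simpa using h), if_neg (by simp; omega)]

lemma Nk_pow_top (k : ℕ) : Nk F k ^ (k + 1) = 0 := by
  ext i l
  rw [Nk_pow, if_neg]
  · rfl
  · have := l.2; omega

lemma Nk_rank (k : ℕ) : (Nk F k).rank = k := by
  classical
  have hrn := LinearMap.finrank_range_add_finrank_ker (Nk F k).mulVecLin
  have hker : finrank F (LinearMap.ker (Nk F k).mulVecLin) = 1 := by
    have : LinearMap.ker (Nk F k).mulVecLin = F ∙ (Pi.single (0 : Fin (k + 1)) (1 : F)) := by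
      ext v
      rw [LinearMap.mem_ker, Submodule.mem_span_singleton, Matrix.mulVecLin_apply]
      constructor
      · intro hv
        refine ⟨v 0, ?_⟩
        funext i
        induction i using Fin.cases with
        | zero => simp
        | succ i =>
          have := congrFun hv i.castSucc
          rw [Nk_mulVec_castSucc] at this
          simp [this]
      · rintro ⟨a, rfl⟩
        funext i
        rw [Matrix.mulVec_smul, Matrix.mulVec_single_one]
        simp [Nk_apply]
    rw [this, finrank_span_singleton]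
    intro h
    have := congrFun h 0
    simp at this
  have hfin : finrank F (Fin (k + 1) → F) = k + 1 := by simp
  have : (Nk F k).rank = finrank F (LinearMap.range (Nk F k).mulVecLin) := rfl
  omega

lemma det_of_comm {k : ℕ} (c : Matrix (Fin (k + 1)) (Fin (k + 1)) F)
    (hc : c * Nk F k = Nk F k * c) : c.det = c 0 0 ^ (k + 1) := by
  have h1 : ∀ (i j : Fin k), c i.succ j.succ = c i.castSucc j.castSucc := by
    intro i j
    have := congrFun (congrFun hc i.castSucc) j.succ
    rw [mulN_succ, Nmul_castSucc] at this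
    exact this.symm
  have h2 : ∀ i : Fin k, c i.succ 0 = 0 := by
    intro i
    have := congrFun (congrFun hc i.castSucc) 0
    rw [mulN_zero, Nmul_castSucc] at this
    exact this.symm
  have hlow : ∀ m : ℕ, ∀ i j : Fin (k + 1), (j : ℕ) = m → j < i → c i j = 0 := by
    intro m
    induction m with
    | zero =>
      intro i j hj hji
      have hj0 : j = 0 := Fin.ext hj
      subst hj0
      obtain ⟨i', rfl⟩ := Fin.exists_succ_eq_of_ne_zero (ne_of_gt hji)
      exact h2 i'
    | succ m ih =>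
      intro i j hj hji
      have hj0 : j ≠ 0 := by intro h; rw [h] at hj; simp at hj
      obtain ⟨j', rfl⟩ := Fin.exists_succ_eq_of_ne_zero hj0
      have hi0 : i ≠ 0 := by
        intro h; rw [h] at hji; exact absurd hji (Fin.not_lt_zero _)
      obtain ⟨i', rfl⟩ := Fin.exists_succ_eq_of_ne_zero hi0
      rw [h1]
      apply ih
      · simp at hj ⊢; omega
      · rw [Fin.lt_def] at hji ⊢; simp at hji ⊢; omega
  have hdiag : ∀ m : ℕ, ∀ i : Fin (k + 1), (i : ℕ) = m → c i i = c 0 0 := by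
    intro m
    induction m with
    | zero => intro i hi; have : i = 0 := Fin.ext hi; rw [this]
    | succ m ih =>
      intro i hi
      have hi0 : i ≠ 0 := by intro h; rw [h] at hi; simp at hi
      obtain ⟨i', rfl⟩ := Fin.exists_succ_eq_of_ne_zero hi0
      rw [h1]
      apply ih
      simp at hi ⊢; omega
  rw [Matrix.det_of_isUpperTriangular (fun i j hij => hlow _ i j rfl hij)]
  rw [Finset.prod_congr rfl (fun i _ => hdiag _ i rfl)]
  simp

lemma exists_conj_N {k : ℕ} (M : Matrix (Fin (k + 1)) (Fin (k + 1)) F) (h1 : M ^ (k + 1) = 0)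
    (h2 : M.rank = k) :
    ∃ P : Matrix (Fin (k + 1)) (Fin (k + 1)) F, P.det ≠ 0 ∧ M * P = P * Nk F k := by
  classical
  obtain ⟨f, hf⟩ : ∃ f : Module.End F (Fin (k + 1) → F), f = Matrix.toLin' M := ⟨_, rfl⟩
  have hfpow : ∀ j : ℕ, f ^ j = Matrix.toLin' (M ^ j) := by
    intro j
    induction j with
    | zero => rw [pow_zero, pow_zero, Matrix.toLin'_one]; rfl
    | succ j ih => rw [pow_succ, ih, pow_succ, Matrix.toLin'_mul, hf]; rfl
  have hfk : f ^ (k + 1) = 0 := by rw [hfpow, h1]; simp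
  have hker : finrank F (LinearMap.ker f) ≤ 1 := by
    have := LinearMap.finrank_range_add_finrank_ker f
    have hr : finrank F (LinearMap.range f) = M.rank := by
      rw [hf]; rfl
    rw [hr, h2] at this
    have hfin : finrank F (Fin (k + 1) → F) = k + 1 := by simp
    omega
  obtain ⟨v, hv⟩ := exists_pow_apply_ne_zero f k (by simp) hker
  have hli := li_pow f k v (by rw [hfk]; rfl) hv
  let P : Matrix (Fin (k + 1)) (Fin (k + 1)) F := Matrix.of fun i j => ((f ^ (k - (j : ℕ))) v) i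
  refine ⟨P, ?_, ?_⟩
  · have hcol : LinearIndependent F P.col := by
      have : P.col = (fun i : Fin (k + 1) => (f ^ (i : ℕ)) v) ∘ Fin.rev := by
        funext j
        funext i
        show ((f ^ (k - (j : ℕ))) v) i = ((f ^ ((Fin.rev j : Fin (k + 1)) : ℕ)) v) i
        have e : ((Fin.rev j : Fin (k + 1)) : ℕ) = k - (j : ℕ) := by
          rw [Fin.val_rev]; omega
        rw [e]
      rw [this]
      exact hli.comp _ Fin.rev_injective
    have := Matrix.linearIndependent_cols_iff_isUnit.mp hcol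
    exact ((Matrix.isUnit_iff_isUnit_det _).mp this).ne_zero
  · ext i j
    have hL : (M * P) i j = ((f ^ (k - (j : ℕ) + 1)) v) i := by
      rw [pow_succ', Module.End.mul_apply]
      rw [hf, Matrix.toLin'_apply, ← hf]
      simp only [Matrix.mul_apply, Matrix.mulVec, dotProduct, P, Matrix.of_apply]
    rw [hL]
    induction j using Fin.cases with
    | zero =>
      rw [mulN_zero]
      simp only [Fin.val_zero, Nat.sub_zero]
      rw [hfk]; rfl
    | succ j =>
      rw [mulN_succ]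
      show ((f ^ (k - ((j.succ : Fin (k + 1)) : ℕ) + 1)) v) i
        = ((f ^ (k - ((j.castSucc : Fin (k + 1)) : ℕ))) v) i
      have e : k - ((j.succ : Fin (k + 1)) : ℕ) + 1 = k - ((j.castSucc : Fin (k + 1)) : ℕ) := by
        have := j.2
        simp; omega
      rw [e]

/-- the relation "u is conjugate to the standard block by a matrix of determinant d" -/
def Rel {k : ℕ} (u : Matrix (Fin (k + 1)) (Fin (k + 1)) F) (d : Fˣ) : Prop :=
  ∃ P : Matrix (Fin (k + 1)) (Fin (k + 1)) F, P.det = (d : F) ∧ (u - 1) * P = P * Nk F k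

lemma rel_unique {k : ℕ} {u : Matrix (Fin (k + 1)) (Fin (k + 1)) F} {d d' : Fˣ}
    (h : Rel u d) (h' : Rel u d') : ∃ a : Fˣ, d' = d * a ^ (k + 1) := by
  classical
  obtain ⟨P, hP, hPN⟩ := h
  obtain ⟨P', hP', hPN'⟩ := h'
  have hu : IsUnit P.det := by rw [hP]; exact d.isUnit
  obtain ⟨c, hc⟩ : ∃ c, c = P⁻¹ * P' := ⟨_, rfl⟩
  have hPc : P * c = P' := by rw [hc, ← mul_assoc, Matrix.mul_nonsing_inv _ hu, one_mul]
  have hcN : c * Nk F k = Nk F k * c := by
    have : P * (c * Nk F k) = P * (Nk F k * c) := by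
      rw [← mul_assoc, hPc, ← hPN', ← hPc, ← mul_assoc, hPN, mul_assoc]
    have := congrArg (fun X => P⁻¹ * X) this
    simp only [← mul_assoc, Matrix.nonsing_inv_mul _ hu, one_mul] at this
    exact this
  have hdet : c.det = c 0 0 ^ (k + 1) := det_of_comm c hcN
  have hdc : (d' : F) = d * c 0 0 ^ (k + 1) := by
    rw [← hP', ← hPc, Matrix.det_mul, hP, hdet]
  have hc0 : c 0 0 ≠ 0 := by
    intro h0
    rw [h0, zero_pow (by omega), mul_zero] at hdc
    exact d'.ne_zero hdc
  refine ⟨Units.mk0 _ hc0, ?_⟩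
  apply Units.ext
  rw [hdc]; simp

lemma rel_conj {k : ℕ} {u u' s : Matrix (Fin (k + 1)) (Fin (k + 1)) F} {d : Fˣ}
    (h : Rel u d) (hs : s.det = 1) (hsu : u' * s = s * u) : Rel u' d := by
  obtain ⟨P, hP, hPN⟩ := h
  refine ⟨s * P, by rw [Matrix.det_mul, hs, one_mul, hP], ?_⟩
  rw [← mul_assoc, sub_mul, one_mul, hsu, mul_assoc, ← hPN, ← mul_assoc, mul_sub, mul_one,
    sub_mul, mul_assoc]

lemma rel_conj_of {k : ℕ} {u u' : Matrix (Fin (k + 1)) (Fin (k + 1)) F} {d a : Fˣ}
    (h : Rel u d) (h' : Rel u' (d * a ^ (k + 1))) :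
    ∃ s : Matrix (Fin (k + 1)) (Fin (k + 1)) F, s.det = 1 ∧ u' * s = s * u := by
  classical
  obtain ⟨P, hP, hPN⟩ := h
  obtain ⟨P', hP', hPN'⟩ := h'
  obtain ⟨P₂, hP₂⟩ : ∃ P₂, P₂ = (a : F) • P := ⟨_, rfl⟩
  have hdet₂ : P₂.det = (d : F) * (a : F) ^ (k + 1) := by
    rw [hP₂, Matrix.det_smul, hP, Fintype.card_fin]; ring
  have hu₂ : IsUnit P₂.det := by
    rw [hdet₂]; exact (d.isUnit.mul (a.isUnit.pow _))
  have hPN₂ : (u - 1) * P₂ = P₂ * Nk F k := by
    rw [hP₂, Matrix.mul_smul, hPN, Matrix.smul_mul]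
  have hinv : P₂⁻¹ * (u - 1) = Nk F k * P₂⁻¹ := by
    calc P₂⁻¹ * (u - 1) = P₂⁻¹ * ((u - 1) * P₂) * P₂⁻¹ := by
          rw [mul_assoc, mul_assoc, Matrix.mul_nonsing_inv _ hu₂, mul_one]
      _ = Nk F k * P₂⁻¹ := by
          rw [hPN₂, ← mul_assoc, Matrix.nonsing_inv_mul _ hu₂, one_mul]
  refine ⟨P' * P₂⁻¹, ?_, ?_⟩
  · rw [Matrix.det_mul, Matrix.det_nonsing_inv, hP', hdet₂, Units.val_mul,
      Units.val_pow_eq_pow_val, Ring.inverse_eq_inv']
    exact mul_inv_cancel₀ (mul_ne_zero d.ne_zero (pow_ne_zero _ a.ne_zero))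
  · have e1 : (u' - 1) * (P' * P₂⁻¹) = (P' * P₂⁻¹) * (u - 1) := by
      rw [← mul_assoc, hPN', mul_assoc, mul_assoc, hinv]
    have e2 : u' * (P' * P₂⁻¹) = (u' - 1) * (P' * P₂⁻¹) + P' * P₂⁻¹ := by
      rw [sub_mul, one_mul]; abel
    have e3 : (P' * P₂⁻¹) * u = (P' * P₂⁻¹) * (u - 1) + P' * P₂⁻¹ := by
      rw [mul_sub, mul_one]; abel
    rw [e2, e3, e1]

lemma one_add_Nk_det (k : ℕ) : (1 + Nk F k).det = 1 := by
  rw [Matrix.det_of_isUpperTriangular]
  · apply Finset.prod_eq_one
    intro i _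
    rw [Matrix.add_apply, Matrix.one_apply_eq, Nk_apply, if_neg (by omega), add_zero]
  · intro i j hij
    have hij' : (j : ℕ) < (i : ℕ) := hij
    rw [Matrix.add_apply, Matrix.one_apply_ne (by intro h; rw [h] at hij'; omega), Nk_apply,
      if_neg (by omega), add_zero]

lemma rel_exists (k : ℕ) (d : Fˣ) : ∃ u : Matrix (Fin (k + 1)) (Fin (k + 1)) F,
    u.det = 1 ∧ (u - 1) ^ (k + 1) = 0 ∧ (u - 1).rank = k ∧ Rel u d := by
  classical
  obtain ⟨P₀, hP₀⟩ : ∃ P₀ : Matrix (Fin (k + 1)) (Fin (k + 1)) F,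
      P₀ = Matrix.diagonal (fun i => if i = 0 then (d : F) else 1) := ⟨_, rfl⟩
  have hdet : P₀.det = (d : F) := by
    rw [hP₀, Matrix.det_diagonal, Finset.prod_ite_eq' Finset.univ (0 : Fin (k + 1)) (fun _ => (d : F))]
    simp
  have hu : IsUnit P₀.det := by rw [hdet]; exact d.isUnit
  obtain ⟨P, hP⟩ : ∃ P : (Matrix (Fin (k + 1)) (Fin (k + 1)) F)ˣ, (P : Matrix _ _ F) = P₀ :=
    ((Matrix.isUnit_iff_isUnit_det _).mpr hu)
  have hsub : (P : Matrix (Fin (k + 1)) (Fin (k + 1)) F) * (1 + Nk F k) * ((P⁻¹ : (Matrix (Fin (k + 1)) (Fin (k + 1)) F)ˣ) : Matrix (Fin (k + 1)) (Fin (k + 1)) F) - 1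
      = (P : Matrix (Fin (k + 1)) (Fin (k + 1)) F) * Nk F k * ((P⁻¹ : (Matrix (Fin (k + 1)) (Fin (k + 1)) F)ˣ) : Matrix (Fin (k + 1)) (Fin (k + 1)) F) := by
    rw [mul_add, add_mul, mul_one, Units.mul_inv]; abel
  refine ⟨(P : Matrix (Fin (k + 1)) (Fin (k + 1)) F) * (1 + Nk F k) * ((P⁻¹ : (Matrix (Fin (k + 1)) (Fin (k + 1)) F)ˣ) : Matrix (Fin (k + 1)) (Fin (k + 1)) F), ?_, ?_, ?_, ?_⟩
  · rw [Matrix.det_units_conj, one_add_Nk_det]
  · rw [hsub, Units.conj_pow, Nk_pow_top, mul_zero, zero_mul]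
  · rw [hsub]
    have h1 : IsUnit ((P : Matrix (Fin (k + 1)) (Fin (k + 1)) F)).det :=
      (Matrix.isUnit_iff_isUnit_det _).mp P.isUnit
    have h2 : IsUnit (((P⁻¹ : (Matrix (Fin (k + 1)) (Fin (k + 1)) F)ˣ) : Matrix (Fin (k + 1)) (Fin (k + 1)) F)).det :=
      (Matrix.isUnit_iff_isUnit_det _).mp (P⁻¹).isUnit
    rw [Matrix.rank_mul_eq_left_of_isUnit_det _ _ h2, Matrix.rank_mul_eq_right_of_isUnit_det _ _ h1,
      Nk_rank]
  · refine ⟨P₀, hdet, ?_⟩
    rw [hsub, ← hP, mul_assoc, Units.inv_mul, mul_one]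

end Helpers

/-- Regular unipotent classes of SL_n(q): for n ≥ 2 over the field with q elements, the matrices u of determinant one with (u − 1)^n = 0 and rank(u − 1) = n − 1 form a single GL_n(q)-class which splits into exactly gcd(n, q − 1) conjugacy classes of SL_n(q). -/
theorem result {F : Type*} [Field F] [Fintype F] {q : ℕ} (hF : Fintype.card F = q) {n : ℕ} (hn : 2 ≤ n) : Nat.card {C : ConjClasses (Matrix.SpecialLinearGroup (Fin n) F) // ∃ u : Matrix.SpecialLinearGroup (Fin n) F, ConjClasses.mk u = C ∧ ((u : Matrix (Fin n) (Fin n) F) - 1) ^ n = 0 ∧ ((u : Matrix (Fin n) (Fin n) F) - 1).rank = n - 1} = Nat.gcd n (q - 1) := by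
  classical
  obtain ⟨k, rfl⟩ : ∃ k, n = k + 1 := ⟨n - 1, by omega⟩
  have hQ : Nat.card (Fˣ ⧸ (powMonoidHom (k + 1) : Fˣ →* Fˣ).range) = Nat.gcd (k + 1) (q - 1) := by
    rw [← Subgroup.index_eq_card, IsCyclic.index_powMonoidHom_range, Nat.card_units,
      Nat.card_eq_fintype_card, hF, Nat.gcd_comm]
  rw [← hQ]
  have hex : ∀ C : {C : ConjClasses (Matrix.SpecialLinearGroup (Fin (k + 1)) F) // ∃ u : Matrix.SpecialLinearGroup (Fin (k + 1)) F, ConjClasses.mk u = C ∧ ((u : Matrix (Fin (k + 1)) (Fin (k + 1)) F) - 1) ^ (k + 1) = 0 ∧ ((u : Matrix (Fin (k + 1)) (Fin (k + 1)) F) - 1).rank = k + 1 - 1},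
      ∃ (u : Matrix.SpecialLinearGroup (Fin (k + 1)) F) (d : Fˣ), ConjClasses.mk u = C.1 ∧
        Rel (u : Matrix (Fin (k + 1)) (Fin (k + 1)) F) d := by
    rintro ⟨C, u, hu, h1, h2⟩
    obtain ⟨P, hP, hPN⟩ := exists_conj_N _ h1 h2
    exact ⟨u, Units.mk0 _ hP, hu, P, rfl, hPN⟩
  choose uf df huf hdf using hex
  refine Nat.card_congr (Equiv.ofBijective
    (fun C => (QuotientGroup.mk (df C) : Fˣ ⧸ (powMonoidHom (k + 1) : Fˣ →* Fˣ).range)) ⟨?_, ?_⟩)
  · intro C C' hCC'
    simp only at hCC'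
    rw [QuotientGroup.eq] at hCC'
    obtain ⟨a, ha⟩ := hCC'
    have hd' : df C' = df C * a ^ (k + 1) := by
      rw [← powMonoidHom_apply, ha]; group
    have hrel' := hdf C'
    rw [hd'] at hrel'
    obtain ⟨s, hs, hsu⟩ := rel_conj_of (hdf C) hrel'
    obtain ⟨S, hS⟩ : ∃ S : Matrix.SpecialLinearGroup (Fin (k + 1)) F,
        (S : Matrix (Fin (k + 1)) (Fin (k + 1)) F) = s := ⟨⟨s, hs⟩, rfl⟩
    apply Subtype.ext
    rw [← huf C, ← huf C', ConjClasses.mk_eq_mk_iff_isConj]
    refine isConj_iff.mpr ⟨S, mul_inv_eq_iff_eq_mul.mpr ?_⟩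
    apply Matrix.SpecialLinearGroup.ext
    intro i j
    rw [Matrix.SpecialLinearGroup.coe_mul, Matrix.SpecialLinearGroup.coe_mul, hS, hsu]
  · intro x
    obtain ⟨d, rfl⟩ := QuotientGroup.mk_surjective x
    obtain ⟨u, hu1, hu2, hu3, hu4⟩ := rel_exists (F := F) k d
    obtain ⟨U, hU⟩ : ∃ U : Matrix.SpecialLinearGroup (Fin (k + 1)) F,
        (U : Matrix (Fin (k + 1)) (Fin (k + 1)) F) = u := ⟨⟨u, hu1⟩, rfl⟩
    rw [← hU] at hu2 hu3 hu4
    refine ⟨⟨ConjClasses.mk U, U, rfl, hu2, hu3⟩, ?_⟩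
    have h1 : IsConj (uf ⟨ConjClasses.mk U, U, rfl, hu2, hu3⟩) U :=
      ConjClasses.mk_eq_mk_iff_isConj.mp (huf _)
    obtain ⟨c, hc⟩ := isConj_iff.mp h1
    replace hc := mul_inv_eq_iff_eq_mul.mp hc
    have hc' := congrArg (fun x : Matrix.SpecialLinearGroup (Fin (k + 1)) F =>
      (x : Matrix (Fin (k + 1)) (Fin (k + 1)) F)) hc
    simp only [Matrix.SpecialLinearGroup.coe_mul] at hc'
    have hrel : Rel (U : Matrix (Fin (k + 1)) (Fin (k + 1)) F)
        (df ⟨ConjClasses.mk U, U, rfl, hu2, hu3⟩) :=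
      rel_conj (hdf _) c.2 hc'.symm
    obtain ⟨a, ha⟩ := rel_unique hrel hu4
    simp only
    rw [QuotientGroup.eq]
    exact ⟨a, by rw [powMonoidHom_apply, ha]; group⟩

end Cfsg.Agent.S2578
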