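import Cfsg.Statements.S2583
-- import your own Cfsg.Agent.* helpers here
import Mathlib
import Cfsg.Agent.Lib.helper18.UniForm3

set_option autoImplicit false
open Cfsg

namespace Cfsg.Agent.S2583



open Cfsg.Agent.Lib.helper18.Jordan Cfsg.Agent.Lib.helper18.UniForm
open Matrix

universe u
variable {F : Type u} [Field F]

theorem fwd_gen_odd {n : Type*} [Fintype n] [DecidableEq n] {t : ℕ}
    (d : Fin t → ℕ) (A : Matrix n n F)
    (hr : ∀ k, ((A - 1) ^ k).rank = ∑ i, (d i - k))
    (hev : ∀ b, Even (((A - 1) ^ (2 * b + 1)).rank)) :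
    ∀ j : ℕ, Even j → 0 < j → Even (Finset.univ.filter (fun k : Fin t => d k = j)).card := by
  intro j hj hj0
  obtain ⟨c, rfl⟩ := hj
  have h1 := cnt_key d (c + c) (by omega)
  have h2 := hev (c - 1)
  have h3 := hev c
  rw [hr] at h2 h3
  have e1 : c + c - 1 = 2 * (c - 1) + 1 := by omega
  have e2 : c + c + 1 = 2 * c + 1 := by omega
  rw [e1, e2] at h1
  obtain ⟨x, hx⟩ := h2
  obtain ⟨y, hy⟩ := h3
  rw [hx, hy] at h1
  exact ⟨x + y - ∑ i, (d i - (c + c)), by omega⟩

def GoodO (F : Type u) [Field F] (s : Multiset ℕ) : Prop :=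
  ∃ (l : Type) (_ : Fintype l) (_ : DecidableEq l) (G A : Matrix l l F),
    Gᵀ = G ∧ IsUnit G.det ∧ Aᵀ * G * A = G ∧ IsNilpotent (A - 1) ∧
      ∀ k, ((A - 1) ^ k).rank = (s.map (fun a => a - k)).sum

theorem goodO_zero : GoodO F 0 := by
  refine ⟨Empty, inferInstance, inferInstance, 1, 1, by simp, by simp, by simp, ⟨1, by simp⟩,
    fun k => ?_⟩
  simp only [Multiset.map_zero, Multiset.sum_zero]
  have := Matrix.rank_le_card_width ((1 - 1 : Matrix Empty Empty F) ^ k)
  simpa using this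

theorem goodO_add {s₁ s₂ : Multiset ℕ} (h₁ : GoodO F s₁) (h₂ : GoodO F s₂) :
    GoodO F (s₁ + s₂) := by
  obtain ⟨l₁, _, _, G₁, A₁, hG₁, hd₁, hA₁, ⟨k₁, hk₁⟩, hr₁⟩ := h₁
  obtain ⟨l₂, _, _, G₂, A₂, hG₂, hd₂, hA₂, ⟨k₂, hk₂⟩, hr₂⟩ := h₂
  have hpow : ∀ k, (Matrix.fromBlocks A₁ 0 0 A₂ - 1) ^ k =
      Matrix.fromBlocks ((A₁ - 1) ^ k) 0 0 ((A₂ - 1) ^ k) := fun k => by
    rw [fromBlocks_diag_sub_one, fromBlocks_diag_pow]
  refine ⟨l₁ ⊕ l₂, inferInstance, inferInstance, Matrix.fromBlocks G₁ 0 0 G₂,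
    Matrix.fromBlocks A₁ 0 0 A₂, ?_, ?_, ?_, ⟨k₁ + k₂, ?_⟩, fun k => ?_⟩
  · rw [Matrix.fromBlocks_transpose, hG₁, hG₂]
    simp
  · rw [Matrix.det_fromBlocks_zero₂₁]
    exact hd₁.mul hd₂
  · rw [Matrix.fromBlocks_transpose, Matrix.fromBlocks_multiply, Matrix.fromBlocks_multiply]
    simp [hA₁, hA₂]
  · rw [hpow, pow_add, pow_add, hk₁, hk₂]
    simp
  · rw [hpow, rank_fromBlocks_diag, hr₁, hr₂, Multiset.map_add, Multiset.sum_add]

theorem goodO_pair (j : ℕ) (hj : 0 < j) : GoodO F {j, j} := by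
  let S := Sh F j
  let U : Matrix (Fin j) (Fin j) F := ∑ i ∈ Finset.range j, (-S) ^ i
  have hSj : (-S) ^ j = 0 := by
    rw [neg_pow, Sh_pow_self, mul_zero]
  have hU : U * (1 + S) = 1 := by
    have := geom_sum_mul_neg (-S) j
    rw [sub_neg_eq_add, hSj, sub_zero] at this
    exact this
  have hU' : (1 + S) * U = 1 := by
    have := mul_neg_geom_sum (-S) j
    rw [sub_neg_eq_add, hSj, sub_zero] at this
    exact this
  have hUS : Commute U S := by
    have h1 : U * (1 + S) = (1 + S) * U := by rw [hU, hU']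
    rw [mul_add, add_mul, mul_one, one_mul] at h1
    exact add_left_cancel h1
  have hU1 : U - 1 = (-U) * S := by
    rw [mul_add, mul_one] at hU
    rw [neg_mul, ← hU]
    abel
  have hUunit : IsUnit (-U) :=
    ⟨⟨-U, -(1 + S), by rw [neg_mul_neg, hU], by rw [neg_mul_neg, hU']⟩, rfl⟩
  have hUpow : ∀ k, (U - 1) ^ k = (-U) ^ k * S ^ k := by
    intro k
    rw [hU1, (hUS.neg_left).mul_pow]
  let A : Matrix (Fin j ⊕ Fin j) (Fin j ⊕ Fin j) F := Matrix.fromBlocks U 0 0 (1 + S)ᵀ
  have hA1 : A - 1 = Matrix.fromBlocks (U - 1) 0 0 Sᵀ := by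
    rw [fromBlocks_diag_sub_one]
    simp
  have hApow : ∀ k, (A - 1) ^ k = Matrix.fromBlocks ((-U) ^ k * S ^ k) 0 0 (S ^ k)ᵀ := by
    intro k
    rw [hA1, fromBlocks_diag_pow, hUpow, ← Matrix.transpose_pow]
  refine ⟨Fin j ⊕ Fin j, inferInstance, inferInstance,
    Matrix.fromBlocks (0 : Matrix (Fin j) (Fin j) F) (1 : Matrix (Fin j) (Fin j) F)
        (1 : Matrix (Fin j) (Fin j) F) (0 : Matrix (Fin j) (Fin j) F), A, ?_, ?_, ?_,
    ⟨j, ?_⟩, fun k => ?_⟩
  · rw [Matrix.fromBlocks_transpose]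
    simp
  · have h : Matrix.fromBlocks (0 : Matrix (Fin j) (Fin j) F) (1 : Matrix (Fin j) (Fin j) F)
        (1 : Matrix (Fin j) (Fin j) F) (0 : Matrix (Fin j) (Fin j) F) *
        Matrix.fromBlocks (0 : Matrix (Fin j) (Fin j) F) (1 : Matrix (Fin j) (Fin j) F)
        (1 : Matrix (Fin j) (Fin j) F) (0 : Matrix (Fin j) (Fin j) F) = 1 := by
      rw [Matrix.fromBlocks_multiply]
      simp [Matrix.fromBlocks_one]
    exact (Matrix.isUnit_iff_isUnit_det _).1 (IsUnit.of_mul_eq_one _ h)
  · have h2 : Aᵀ = Matrix.fromBlocks Uᵀ 0 0 (1 + S) := by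
      simp only [A, Matrix.fromBlocks_transpose]
      simp
    rw [h2, Matrix.fromBlocks_multiply, Matrix.fromBlocks_multiply]
    simp only [Matrix.zero_mul, Matrix.mul_zero, add_zero, zero_add, Matrix.mul_one]
    rw [← Matrix.transpose_mul, hU', Matrix.transpose_one]
  · rw [hApow, Sh_pow_self]
    simp
  · rw [hApow, rank_fromBlocks_diag, Matrix.rank_transpose,
      Matrix.rank_mul_eq_right_of_isUnit_det _ _
        ((Matrix.isUnit_iff_isUnit_det _).1 (hUunit.pow k)), rank_Sh_pow j hj]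
    simp

/-- the signed reversal matrix -/
def Gs (F : Type u) [Field F] (n : ℕ) : Matrix (Fin n) (Fin n) F :=
  fun i j => if j = Fin.rev i then (-1) ^ (i : ℕ) else 0

theorem Gs_mul_apply (n : ℕ) (M : Matrix (Fin n) (Fin n) F) (i j : Fin n) :
    (Gs F n * M) i j = (-1) ^ (i : ℕ) * M (Fin.rev i) j := by
  rw [Matrix.mul_apply, Finset.sum_eq_single (Fin.rev i)]
  · simp [Gs]
  · intro x _ hx
    simp [Gs, hx]
  · intro h1; exact absurd (Finset.mem_univ _) h1

theorem mul_Gs_apply (n : ℕ) (M : Matrix (Fin n) (Fin n) F) (i j : Fin n) :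
    (M * Gs F n) i j = M i (Fin.rev j) * (-1) ^ ((Fin.rev j : Fin n) : ℕ) := by
  rw [Matrix.mul_apply, Finset.sum_eq_single (Fin.rev j)]
  · simp [Gs]
  · intro x _ hx
    have : ¬ (j = Fin.rev x) := fun h => hx (by rw [h, Fin.rev_rev])
    simp [Gs, this]
  · intro h1; exact absurd (Finset.mem_univ _) h1

theorem neg_one_pow_eq_of_even_add (i j : ℕ) (h : Even (i + j)) : ((-1 : F)) ^ i = (-1) ^ j := by
  have h1 : ((-1 : F)) ^ i * (-1) ^ j = 1 := by rw [← pow_add]; exact h.neg_one_pow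
  have h2 : ((-1 : F)) ^ j * (-1) ^ j = 1 := by rw [← pow_add]; exact (Even.add_self j).neg_one_pow
  calc ((-1 : F)) ^ i = (-1) ^ i * ((-1) ^ j * (-1) ^ j) := by rw [h2, mul_one]
    _ = ((-1) ^ i * (-1) ^ j) * (-1) ^ j := by rw [mul_assoc]
    _ = (-1) ^ j := by rw [h1, one_mul]

theorem Gs_transpose (n : ℕ) (hn : Odd n) : (Gs F n)ᵀ = Gs F n := by
  ext i j
  simp only [Matrix.transpose_apply, Gs]
  by_cases h : j = Fin.rev i
  · have h' : i = Fin.rev j := by rw [h, Fin.rev_rev]
    rw [if_pos h, if_pos h']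
    apply neg_one_pow_eq_of_even_add
    rw [h, Fin.val_rev]
    obtain ⟨c, hc⟩ := hn
    have := i.isLt
    exact ⟨c, by omega⟩
  · have h' : ¬ (i = Fin.rev j) := fun h1 => h (by rw [h1, Fin.rev_rev])
    rw [if_neg h, if_neg h']

theorem Gs_mul_Gs (n : ℕ) (hn : Odd n) : Gs F n * Gs F n = 1 := by
  ext i j
  rw [Gs_mul_apply]
  simp only [Gs, Fin.rev_rev, Matrix.one_apply]
  by_cases h : i = j
  · subst h
    rw [if_pos rfl, if_pos rfl, ← pow_add]
    apply Even.neg_one_pow
    rw [Fin.val_rev]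
    obtain ⟨c, hc⟩ := hn
    have := i.isLt
    exact ⟨c, by omega⟩
  · rw [if_neg (fun h1 => h h1.symm), if_neg h, mul_zero]

theorem ShT_Gs (n : ℕ) : (Sh F n)ᵀ * Gs F n = -(Gs F n * Sh F n) := by
  ext i j
  rw [Matrix.neg_apply, Gs_mul_apply, mul_Gs_apply]
  simp only [Matrix.transpose_apply, Sh, Fin.val_rev]
  have := i.isLt
  have := j.isLt
  by_cases h : n - (↑j + 1) = (i : ℕ) + 1
  · rw [if_pos h, if_pos (by omega), one_mul, mul_one, h, pow_succ]
    ring
  · rw [if_neg h, if_neg (by omega)]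
    simp


theorem goodO_single (n : ℕ) (hn : Odd n) (h2 : (2 : F) ≠ 0) : GoodO F {n} := by
  have hn0 : 0 < n := hn.pos
  let S := Sh F n
  let G := Gs F n
  let U : Matrix (Fin n) (Fin n) F := ∑ i ∈ Finset.range n, S ^ i
  have hU : U * (1 - S) = 1 := by
    have := geom_sum_mul_neg S n
    rw [Sh_pow_self, sub_zero] at this
    exact this
  have hU' : (1 - S) * U = 1 := by
    have := mul_neg_geom_sum S n
    rw [Sh_pow_self, sub_zero] at this
    exact this
  have hUS : Commute U S := by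
    have h1 : U * (1 - S) = (1 - S) * U := by rw [hU, hU']
    rw [mul_sub, sub_mul, mul_one, one_mul] at h1
    exact sub_right_injective h1
  have hSG : Sᵀ * G = -(G * S) := ShT_Gs n
  have hGT : Gᵀ = G := Gs_transpose n hn
  have hGG : G * G = 1 := Gs_mul_Gs n hn
  let A : Matrix (Fin n) (Fin n) F := (1 + S) * U
  let V : Matrix (Fin n) (Fin n) F := U + U
  have hA1 : A - 1 = S * V := by
    have e : U - S * U = 1 := by rw [← hU', sub_mul, one_mul]
    show (1 + S) * U - 1 = S * (U + U)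
    rw [add_mul, one_mul, mul_add]
    nth_rewrite 1 [← e]
    abel
  have hSV : Commute S V := (hUS.symm).add_right (hUS.symm)
  have hVunit : IsUnit V := by
    refine ⟨⟨V, (2⁻¹ : F) • (1 - S), ?_, ?_⟩, rfl⟩
    · show (U + U) * ((2⁻¹ : F) • (1 - S)) = 1
      rw [Matrix.mul_smul, add_mul, hU, ← two_smul F (1 : Matrix (Fin n) (Fin n) F), smul_smul,
        inv_mul_cancel₀ h2, one_smul]
    · show ((2⁻¹ : F) • (1 - S)) * (U + U) = 1
      rw [Matrix.smul_mul, mul_add, hU', ← two_smul F (1 : Matrix (Fin n) (Fin n) F), smul_smul,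
        inv_mul_cancel₀ h2, one_smul]
  have hApow : ∀ k, (A - 1) ^ k = S ^ k * V ^ k := by
    intro k
    rw [hA1, hSV.mul_pow]
  refine ⟨Fin n, inferInstance, inferInstance, G, A, hGT, ?_, ?_, ⟨n, ?_⟩, fun k => ?_⟩
  · exact (Matrix.isUnit_iff_isUnit_det _).1 (IsUnit.of_mul_eq_one _ hGG)
  · have e1 : (1 + Sᵀ) * G = G * (1 - S) := by
      rw [add_mul, one_mul, hSG, mul_sub, mul_one, sub_eq_add_neg]
    have e2 : G * (1 + S) = (1 - Sᵀ) * G := by
      rw [mul_add, mul_one, sub_mul, one_mul, hSG, sub_neg_eq_add]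
    have e3 : (1 - S) * (1 + S) = (1 + S) * (1 - S) := by
      noncomm_ring
    have hAT : Aᵀ = Uᵀ * (1 + Sᵀ) := by
      show ((1 + S) * U)ᵀ = _
      rw [Matrix.transpose_mul, Matrix.transpose_add, Matrix.transpose_one]
    calc Aᵀ * G * A = Uᵀ * ((1 + Sᵀ) * G) * ((1 + S) * U) := by rw [hAT, mul_assoc Uᵀ]
      _ = Uᵀ * G * ((1 - S) * (1 + S) * U) := by
        rw [e1, ← mul_assoc Uᵀ, mul_assoc (Uᵀ * G), mul_assoc (1 - S)]
      _ = Uᵀ * G * (1 + S) := by rw [e3, mul_assoc (1 + S), hU', mul_one]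
      _ = Uᵀ * (1 - Sᵀ) * G := by rw [mul_assoc, e2, ← mul_assoc]
      _ = G := by
        have : Uᵀ * (1 - Sᵀ) = 1 := by
          have h := congrArg Matrix.transpose hU'
          rw [Matrix.transpose_mul, Matrix.transpose_sub, Matrix.transpose_one] at h
          exact h
        rw [this, one_mul]
  · rw [hApow, Sh_pow_self, zero_mul]
  · rw [hApow, Matrix.rank_mul_eq_left_of_isUnit_det _ _
      ((Matrix.isUnit_iff_isUnit_det _).1 (hVunit.pow k)), rank_Sh_pow n hn0]
    simp

theorem goodO_of_parity (h2 : (2 : F) ≠ 0) : ∀ (n : ℕ) (s : Multiset ℕ), s.card = n →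
    (∀ a ∈ s, 0 < a) → (∀ j, Even j → 0 < j → Even (s.count j)) → GoodO F s := by
  intro n
  induction n using Nat.strong_induction_on with
  | _ n ih =>
    intro s hs hpos hpar
    by_cases h0 : s = 0
    · subst h0
      exact goodO_zero
    by_cases hodd : ∃ a ∈ s, Odd a
    · obtain ⟨a, ha, hao⟩ := hodd
      obtain ⟨s', rfl⟩ := Multiset.exists_cons_of_mem ha
      have h1 : GoodO F s' := ih s'.card (by rw [← hs, Multiset.card_cons]; omega) s' rfl
        (fun x hx => hpos x (Multiset.mem_cons_of_mem hx)) (fun j hj hj0 => by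
          have := hpar j hj hj0
          rw [Multiset.count_cons_of_ne (by rintro rfl; exact (Nat.not_even_iff_odd.2 hao) hj)]
            at this
          exact this)
      have h3 := goodO_add (goodO_single a hao h2) h1
      rw [Multiset.singleton_add] at h3
      exact h3
    · push Not at hodd
      obtain ⟨a, ha⟩ := Multiset.exists_mem_of_ne_zero h0
      have hae : Even a := Nat.not_odd_iff_even.1 (hodd a ha)
      have hc := hpar a hae (hpos a ha)
      have hc1 : 1 ≤ s.count a := Multiset.one_le_count_iff_mem.2 ha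
      have hc2 : 2 ≤ s.count a := by obtain ⟨x, hx⟩ := hc; omega
      obtain ⟨s', rfl⟩ := Multiset.exists_cons_of_mem ha
      have ha' : a ∈ s' := by
        rw [Multiset.count_cons_self] at hc2
        exact Multiset.one_le_count_iff_mem.1 (by omega)
      obtain ⟨s'', rfl⟩ := Multiset.exists_cons_of_mem ha'
      have h1 : GoodO F s'' := ih s''.card (by rw [← hs]; simp) s'' rfl
        (fun x hx => hpos x (Multiset.mem_cons_of_mem (Multiset.mem_cons_of_mem hx)))
        (fun j hj hj0 => by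
          have := hpar j hj hj0
          by_cases hja : j = a
          · subst hja
            rw [Multiset.count_cons_self, Multiset.count_cons_self] at this
            obtain ⟨x, hx⟩ := this
            exact ⟨x - 1, by omega⟩
          · rw [Multiset.count_cons_of_ne hja, Multiset.count_cons_of_ne hja] at this
            exact this)
      have h3 := goodO_add (goodO_pair (F := F) a (hpos a ha)) h1
      have e : ({a, a} : Multiset ℕ) + s'' = a ::ₘ a ::ₘ s'' := by
        rw [Multiset.insert_eq_cons, Multiset.cons_add, Multiset.singleton_add]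
      rw [e] at h3
      exact h3

theorem main {F : Type*} [Field F] [Fintype F] (h2 : (2 : F) ≠ 0) {n t : ℕ} (d : Fin t → ℕ) (hd : ∀ k, 1 ≤ d k) (hsum : ∑ k, d k = n) : (∃ Q : QuadraticForm F (Fin n → F), (QuadraticMap.polarBilin Q).Nondegenerate ∧ ∃ e : ((k : Fin t) × Fin (d k)) ≃ Fin n, ∃ A : ↥(Cfsg.isometryGroup F ⇑Q), IsConj (Matrix.reindex e e (Cfsg.jordanTypeMatrix d F)) ((A : Matrix.GeneralLinearGroup (Fin n) F) : Matrix (Fin n) (Fin n) F)) ↔ ∀ j : ℕ, Even j → 0 < j → Even (Finset.univ.filter (fun k : Fin t => d k = j)).card := by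
  have hJr : ∀ (e : ((k : Fin t) × Fin (d k)) ≃ Fin n) (k : ℕ),
      ((Matrix.reindex e e (Cfsg.jordanTypeMatrix d F) - 1) ^ k).rank = ∑ i, (d i - k) := by
    intro e k
    rw [reindex_rank, rank_eq_finrank, rank_jordan]
  have hsmall : ∑ i, (d i - n) = 0 := by
    apply Finset.sum_eq_zero
    intro i _
    have := Finset.single_le_sum (f := d) (fun _ _ => Nat.zero_le _) (Finset.mem_univ i)
    omega
  constructor
  · rintro ⟨Q, hnd, e, A, hc⟩
    have hr : ∀ k, (((A.1 : Matrix (Fin n) (Fin n) F) - 1) ^ k).rank = ∑ i, (d i - k) := by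
      intro k
      rw [conj_rank _ _ hc, hJr]
    apply fwd_gen_odd d _ hr
    intro b
    let B : (Fin n → F) →ₗ[F] (Fin n → F) →ₗ[F] F := QuadraticMap.polarBilin Q
    have hB : ∀ x y, B x y = B y x := fun x y => QuadraticMap.polar_comm _ x y
    have hker : LinearMap.ker B = ⊥ := by
      rw [eq_bot_iff]
      intro v hv
      rw [LinearMap.mem_ker] at hv
      exact hnd.1 v (fun w => by show B v w = 0; rw [hv]; rfl)
    have hiso : ∀ v, Q ((A.1 : Matrix (Fin n) (Fin n) F) *ᵥ v) = Q v := fun v => A.2 v v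
    have hu : ∀ v w, B ((A.1 : Matrix (Fin n) (Fin n) F) *ᵥ v)
        ((A.1 : Matrix (Fin n) (Fin n) F) *ᵥ w) = B v w := by
      intro v w
      show QuadraticMap.polar Q _ _ = QuadraticMap.polar Q v w
      simp only [QuadraticMap.polar]
      rw [← Matrix.mulVec_add, hiso, hiso, hiso]
    have hN : IsNilpotent ((A.1 : Matrix (Fin n) (Fin n) F) - 1) := by
      refine ⟨n, ?_⟩
      apply eq_zero_of_rank_eq_zero
      rw [hr, hsmall]
    exact even_rank_odd_pow_mat h2 B hB hker _ hu hN b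
  · intro hpar
    have hg : GoodO F (pm d) := goodO_of_parity h2 _ (pm d) rfl (pm_pos d) (fun j hj hj0 => by
      rw [count_pm d _ (by omega)]
      exact hpar j hj hj0)
    obtain ⟨l, _, _, G, A, hGT, hGdet, hA, hnil, hr⟩ := hg
    have hr' : ∀ k, ((A - 1) ^ k).rank = ∑ i, (d i - k) := fun k => by rw [hr, pm_sub_sum]
    have hcard : Fintype.card l = n := by
      have := hr' 0
      simp only [pow_zero, Matrix.rank_one, Nat.sub_zero] at this
      omega
    let f : l ≃ Fin n := Fintype.equivFinOfCardEq hcard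
    let G' : Matrix (Fin n) (Fin n) F := Matrix.reindex f f G
    let A' : Matrix (Fin n) (Fin n) F := Matrix.reindex f f A
    have hrf : ∀ M : Matrix l l F, Matrix.reindex f f M = Matrix.reindexAlgEquiv F F f M :=
      fun M => rfl
    have hA' : A'ᵀ * G' * A' = G' := by
      show (Matrix.reindex f f A)ᵀ * Matrix.reindex f f G * Matrix.reindex f f A =
        Matrix.reindex f f G
      rw [Matrix.transpose_reindex, hrf, hrf, hrf, ← map_mul, ← map_mul, hA]
    have hG'T : G'ᵀ = G' := by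
      show (Matrix.reindex f f G)ᵀ = Matrix.reindex f f G
      rw [Matrix.transpose_reindex, hGT]
    have hG'det : G'.det ≠ 0 := by
      show (Matrix.reindex f f G).det ≠ 0
      rw [Matrix.reindex_apply, Matrix.det_submatrix_equiv_self]
      exact hGdet.ne_zero
    have hnil' : IsNilpotent (A' - 1) := by
      obtain ⟨k, hk⟩ := hnil
      refine ⟨k, ?_⟩
      show (Matrix.reindex f f A - 1) ^ k = 0
      rw [reindex_sub_one_pow, hk]
      simp
    have hunit : IsUnit A' := by
      have := hnil'.isUnit_add_one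
      rwa [sub_add_cancel] at this
    let Ag : GL (Fin n) F := hunit.unit
    have hAg : (Ag : Matrix (Fin n) (Fin n) F) = A' := IsUnit.unit_spec _
    let Bf : (Fin n → F) →ₗ[F] (Fin n → F) →ₗ[F] F := Matrix.toLinearMap₂' F G'
    have hBf : ∀ v w, Bf v w = v ⬝ᵥ G' *ᵥ w := fun v w => Matrix.toLinearMap₂'_apply' _ _ _
    let Q : QuadraticForm F (Fin n → F) := LinearMap.BilinMap.toQuadraticMap Bf
    have hQ : ∀ v, Q v = v ⬝ᵥ G' *ᵥ v := fun v => hBf v v
    have hsymm : ∀ v w, v ⬝ᵥ G' *ᵥ w = w ⬝ᵥ G' *ᵥ v := by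
      intro v w
      rw [Matrix.dotProduct_mulVec, ← Matrix.mulVec_transpose, hG'T, dotProduct_comm]
    have hpolar : ∀ v w, QuadraticMap.polarBilin Q v w = 2 * (v ⬝ᵥ G' *ᵥ w) := by
      intro v w
      show QuadraticMap.polar Q v w = _
      rw [LinearMap.BilinMap.polar_toQuadraticMap, hBf, hBf, hsymm w v, two_mul]
    have hcardI : Fintype.card ((k : Fin t) × Fin (d k)) = Fintype.card (Fin n) := by
      rw [Fintype.card_sigma, Fintype.card_fin]
      simp only [Fintype.card_fin]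
      exact hsum
    let e : ((k : Fin t) × Fin (d k)) ≃ Fin n := Fintype.equivOfCardEq hcardI
    refine ⟨Q, ⟨?_, ?_⟩, e, ⟨Ag, ?_⟩, ?_⟩
    · intro v hv
      have h1 : v ᵥ* G' = 0 := by
        funext i
        have := hv (Pi.single i 1)
        rw [hpolar, Matrix.dotProduct_mulVec, dotProduct_single_one] at this
        exact (mul_eq_zero.1 this).resolve_left h2
      exact Matrix.eq_zero_of_vecMul_eq_zero hG'det h1
    · intro w hw
      have h1 : G' *ᵥ w = 0 := by
        funext i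
        have := hw (Pi.single i 1)
        rw [hpolar, single_one_dotProduct] at this
        exact (mul_eq_zero.1 this).resolve_left h2
      exact Matrix.eq_zero_of_mulVec_eq_zero hG'det h1
    · intro u v
      show Q ((Ag : Matrix (Fin n) (Fin n) F) *ᵥ u) = Q u
      rw [hAg, hQ, hQ, quad_isometry G' A' hA']
    · show IsConj _ (Ag : Matrix (Fin n) (Fin n) F)
      rw [hAg]
      apply isConj_of_rank
      · refine ⟨n, ?_⟩
        apply eq_zero_of_rank_eq_zero
        rw [hJr, hsmall]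
      · exact hnil'
      · intro k
        rw [hJr]
        show _ = ((Matrix.reindex f f A - 1) ^ k).rank
        rw [reindex_rank, hr']



/-- Which unipotent Jordan types occur in a finite orthogonal group in odd characteristic: over a finite field of odd order, a unipotent matrix with Jordan block sizes d_1, …, d_t (sum n, all at least 1) is similar to an isometry of some quadratic form on F^n with non-degenerate polar form if and only if every even block size occurs an even number of times. -/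
theorem result {F : Type*} [Field F] [Fintype F] (h2 : (2 : F) ≠ 0) {n t : ℕ} (d : Fin t → ℕ) (hd : ∀ k, 1 ≤ d k) (hsum : ∑ k, d k = n) : (∃ Q : QuadraticForm F (Fin n → F), (QuadraticMap.polarBilin Q).Nondegenerate ∧ ∃ e : ((k : Fin t) × Fin (d k)) ≃ Fin n, ∃ A : ↥(Cfsg.isometryGroup F ⇑Q), IsConj (Matrix.reindex e e (Cfsg.jordanTypeMatrix d F)) ((A : Matrix.GeneralLinearGroup (Fin n) F) : Matrix (Fin n) (Fin n) F)) ↔ ∀ j : ℕ, Even j → 0 < j → Even (Finset.univ.filter (fun k : Fin t => d k = j)).card := by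
  exact main h2 d hd hsum

end Cfsg.Agent.S2583
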