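import Cfsg.Statements.S2585
import Mathlib
import Cfsg.Agent.S2562

set_option autoImplicit false
open Cfsg

namespace Cfsg.Agent.S2585

section Helpers

open Cfsg.Agent.S2562
open Matrix

variable {F : Type*} [Field F]

lemma symp_eq (m : ℕ) (u v : Fin m ⊕ Fin m → F) :
    Cfsg.sympForm m F u v =
      ∑ i, (u (Sum.inr i) * v (Sum.inl i) - u (Sum.inl i) * v (Sum.inr i)) := by
  show u ⬝ᵥ (Matrix.J (Fin m) F *ᵥ v) = _
  rw [Matrix.J, Matrix.fromBlocks_mulVec]
  simp only [dotProduct, Fintype.sum_sum_type, Sum.elim_inl, Sum.elim_inr, Matrix.zero_mulVec,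
    Matrix.neg_mulVec, Matrix.one_mulVec, zero_add, add_zero, Pi.neg_apply, Function.comp_apply,
    Finset.sum_sub_distrib]
  simp only [mul_neg, Finset.sum_neg_distrib]
  ring

lemma symp_pres {m : ℕ} (A : Matrix (Fin m ⊕ Fin m) (Fin m ⊕ Fin m) F)
    (hA : A ∈ Matrix.symplecticGroup (Fin m) F) (u v : Fin m ⊕ Fin m → F) :
    Cfsg.sympForm m F (A *ᵥ u) (A *ᵥ v) = Cfsg.sympForm m F u v := by
  show (A *ᵥ u) ⬝ᵥ (Matrix.J (Fin m) F *ᵥ (A *ᵥ v)) = u ⬝ᵥ (Matrix.J (Fin m) F *ᵥ v)
  rw [SymplecticGroup.mem_iff'] at hA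
  rw [← Matrix.vecMul_transpose A u, ← Matrix.dotProduct_mulVec, Matrix.mulVec_mulVec,
    Matrix.mulVec_mulVec, hA]

end Helpers

/-- Over a finite field of characteristic two every element of the symplectic group is orthogonal for a suitable quadratic form: for each A in Sp_2m(F) there is a quadratic form Q on F^(2m) whose polar form is the alternating form defining Sp_2m(F) (so Q is non-degenerate) and which A preserves. Equivalently, for m ≥ 1, Sp_2m(F) is the union of the conjugates of its two orthogonal subgroups O⁺_2m(F) and O⁻_2m(F). -/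
theorem result {F : Type*} [Field F] [Fintype F] [CharP F 2] {m : ℕ} (A : Matrix.symplecticGroup (Fin m) F) : ∃ Q : QuadraticForm F (Fin m ⊕ Fin m → F), (∀ u v : Fin m ⊕ Fin m → F, QuadraticMap.polar ⇑Q u v = Cfsg.sympForm m F u v) ∧ ∀ v : Fin m ⊕ Fin m → F, Q ((A : Matrix (Fin m ⊕ Fin m) (Fin m ⊕ Fin m) F).mulVec v) = Q v := by
  classical
  obtain ⟨A, hA⟩ := A
  have h2 : (2 : F) = 0 := CharTwo.two_eq_zero
  have hpol : ∀ u v : Fin m ⊕ Fin m → F,
      QuadraticMap.polar (S2562.qP F m) u v = Cfsg.sympForm m F u v := by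
    intro u v
    rw [S2562.polar_qP, symp_eq]
    apply Finset.sum_congr rfl
    intro i _
    linear_combination (u (Sum.inl i) * v (Sum.inr i)) * h2
  have hsq : ∀ x : F, ∃ y : F, y * y = x := fun x =>
    (FiniteField.isSquare_of_char_two (ringChar.eq F 2) x).imp (fun y hy => hy.symm)
  have hinj : ∀ a b : F, a * a = b * b → a = b := by
    intro a b hab
    have : (a - b) * (a - b) = 0 := by linear_combination hab - (a * b - b * b) * h2
    have := mul_self_eq_zero.mp this
    exact sub_eq_zero.mp this
  choose sq hsq' using hsq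
  set D : (Fin m ⊕ Fin m → F) → F := fun v => S2562.qP F m (A.mulVec v) + S2562.qP F m v with hD
  have hQadd : ∀ x y : Fin m ⊕ Fin m → F, S2562.qP F m (x + y) =
      S2562.qP F m x + S2562.qP F m y + QuadraticMap.polar (S2562.qP F m) x y := by
    intro x y
    simp only [QuadraticMap.polar]
    ring
  have hDadd : ∀ u v, D (u + v) = D u + D v := by
    intro u v
    simp only [hD]
    rw [Matrix.mulVec_add, hQadd, hQadd, hpol, hpol, symp_pres A hA]
    linear_combination (Cfsg.sympForm m F u v) * h2
  have hDsmul : ∀ (c : F) v, D (c • v) = c * c * D v := by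
    intro c v
    simp only [hD]
    rw [Matrix.mulVec_smul, QuadraticMap.map_smul, QuadraticMap.map_smul]
    simp only [smul_eq_mul]
    ring
  let μ : (Fin m ⊕ Fin m → F) →ₗ[F] F :=
    { toFun := fun v => sq (D v)
      map_add' := by
        intro u v
        apply hinj
        rw [hsq', hDadd]
        linear_combination (-hsq' (D u)) - hsq' (D v) - (sq (D u) * sq (D v)) * h2
      map_smul' := by
        intro c v
        apply hinj
        simp only [RingHom.id_apply, smul_eq_mul]
        rw [hsq', hDsmul]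
        linear_combination (-(c * c)) * hsq' (D v) }
  have hμ : ∀ v, μ v * μ v = D v := fun v => hsq' (D v)
  set f : (Fin m ⊕ Fin m → F) →ₗ[F] (Fin m ⊕ Fin m → F) := Matrix.mulVecLin A - LinearMap.id with hf
  have hfv : ∀ v, f v = A.mulVec v - v := fun v => by simp [hf]
  have hmem : μ ∈ (LinearMap.ker f).dualAnnihilator := by
    rw [Submodule.mem_dualAnnihilator]
    intro w hw
    rw [LinearMap.mem_ker, hfv, sub_eq_zero] at hw
    have : μ w * μ w = 0 := by
      rw [hμ]
      simp only [hD]
      rw [hw]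
      linear_combination (S2562.qP F m w) * h2
    exact mul_self_eq_zero.mp this
  rw [← LinearMap.range_dualMap_eq_dualAnnihilator_ker] at hmem
  obtain ⟨lam, hlam⟩ := hmem
  have hlam' : ∀ v, lam (A.mulVec v) = μ v + lam v := by
    intro v
    have := LinearMap.congr_fun hlam v
    rw [LinearMap.dualMap_apply, hfv, map_sub] at this
    linear_combination this
  refine ⟨S2562.qP F m + QuadraticMap.linMulLin lam lam, ?_, ?_⟩
  · intro u v
    rw [← hpol]
    show QuadraticMap.polar (fun x => S2562.qP F m x + lam x * lam x) u v = _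
    simp only [QuadraticMap.polar, map_add]
    linear_combination (lam u * lam v) * h2
  · intro v
    show S2562.qP F m (A.mulVec v) + lam (A.mulVec v) * lam (A.mulVec v) = S2562.qP F m v + lam v * lam v
    rw [hlam']
    have := hμ v
    simp only [hD] at this
    linear_combination this + (μ v * lam v + S2562.qP F m (A.mulVec v)) * h2

end Cfsg.Agent.S2585
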