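import Cfsg.Statements.S2584
-- import your own Cfsg.Agent.* helpers here
import Mathlib
import Cfsg.Agent.Lib.helper18.UniForm2
import Cfsg.Agent.S2582
import Cfsg.Agent.S2585

set_option autoImplicit false
open Cfsg

namespace Cfsg.Agent.S2584



open Cfsg.Agent.Lib.helper18.Jordan Cfsg.Agent.Lib.helper18.UniForm
open Matrix

universe u

theorem fwd_gen {F : Type u} [Field F] {n : Type*} [Fintype n] [DecidableEq n] {t : ℕ}
    (d : Fin t → ℕ) (e : ((k : Fin t) × Fin (d k)) ≃ n) (A : Matrix n n F)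
    (hc : IsConj (Matrix.reindex e e (Cfsg.jordanTypeMatrix d F)) A)
    (hev : ∀ b, Even (((A - 1) ^ (2 * b)).rank)) :
    ∀ j : ℕ, Odd j → Even (Finset.univ.filter (fun k : Fin t => d k = j)).card := by
  have hr : ∀ k, ((A - 1) ^ k).rank = ∑ i, (d i - k) := by
    intro k
    rw [conj_rank _ _ hc, reindex_rank, rank_eq_finrank, rank_jordan]
  intro j hj
  obtain ⟨b, rfl⟩ := hj
  have h1 := cnt_key d (2 * b + 1) (by omega)
  have h2 := hev b
  have h3 := hev (b + 1)
  rw [hr] at h2 h3
  have e1 : 2 * b + 1 - 1 = 2 * b := by omega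
  have e2 : 2 * b + 1 + 1 = 2 * (b + 1) := by omega
  rw [e1, e2] at h1
  obtain ⟨x, hx⟩ := h2
  obtain ⟨y, hy⟩ := h3
  rw [hx, hy] at h1
  exact ⟨x + y - ∑ i, (d i - (2 * b + 1)), by omega⟩

theorem main {F : Type*} [Field F] [Fintype F] [CharP F 2] {m t : ℕ} (d : Fin t → ℕ) (hd : ∀ k, 1 ≤ d k) (hsum : ∑ k, d k = 2 * m) : (∃ Q : QuadraticForm F (Fin (2 * m) → F), (QuadraticMap.polarBilin Q).Nondegenerate ∧ ∃ e : ((k : Fin t) × Fin (d k)) ≃ Fin (2 * m), ∃ A : ↥(Cfsg.isometryGroup F ⇑Q), IsConj (Matrix.reindex e e (Cfsg.jordanTypeMatrix d F)) ((A : Matrix.GeneralLinearGroup (Fin (2 * m)) F) : Matrix (Fin (2 * m)) (Fin (2 * m)) F)) ↔ ∀ j : ℕ, Odd j → Even (Finset.univ.filter (fun k : Fin t => d k = j)).card := by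
  constructor
  · rintro ⟨Q, hnd, e, A, hc⟩
    apply fwd_gen d e _ hc
    intro b
    let B : (Fin (2 * m) → F) →ₗ[F] (Fin (2 * m) → F) →ₗ[F] F := QuadraticMap.polarBilin Q
    have hB : ∀ v, B v v = 0 := by
      intro v
      show QuadraticMap.polar Q v v = 0
      rw [QuadraticMap.polar_self, two_smul]
      exact CharTwo.add_self_eq_zero _
    have hker : LinearMap.ker B = ⊥ := by
      rw [eq_bot_iff]
      intro v hv
      rw [LinearMap.mem_ker] at hv
      exact hnd.1 v (fun w => by show B v w = 0; rw [hv]; rfl)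
    have hiso : ∀ v, Q ((A.1 : Matrix (Fin (2 * m)) (Fin (2 * m)) F) *ᵥ v) = Q v := fun v => A.2 v v
    have hu : ∀ v w, B (Matrix.toLin' (A.1 : Matrix (Fin (2 * m)) (Fin (2 * m)) F) v)
        (Matrix.toLin' (A.1 : Matrix (Fin (2 * m)) (Fin (2 * m)) F) w) = B v w := by
      intro v w
      show QuadraticMap.polar Q _ _ = QuadraticMap.polar Q v w
      simp only [QuadraticMap.polar, Matrix.toLin'_apply]
      rw [← Matrix.mulVec_add, hiso, hiso, hiso]
    have h := even_rank_pow B hB hker (Matrix.toLin' (A.1 : Matrix (Fin (2 * m)) (Fin (2 * m)) F)) hu b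
    rw [rank_eq_finrank]
    have h2 : Matrix.toLin' ((A.1 : Matrix (Fin (2 * m)) (Fin (2 * m)) F) - 1) =
        Matrix.toLin' (A.1 : Matrix (Fin (2 * m)) (Fin (2 * m)) F) - 1 := by
      rw [map_sub, Matrix.toLin'_one]
      rfl
    rw [h2]
    exact h
  · intro hpar
    obtain ⟨e, A, hc⟩ := (Cfsg.Agent.S2582.result (F := F) d hd hsum).2 hpar
    obtain ⟨Q, hpol, hQ⟩ := Cfsg.Agent.S2585.result A
    let g : Fin m ⊕ Fin m ≃ Fin (2 * m) := finSumFinEquiv.trans (finCongr (two_mul m).symm)
    let Q' : QuadraticForm F (Fin (2 * m) → F) := Q.comp (LinearMap.funLeft F F g)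
    have hQ' : ∀ w, Q' w = Q (w ∘ g) := fun w => rfl
    let A' : Matrix (Fin (2 * m)) (Fin (2 * m)) F := Matrix.reindex g g A.1
    have hA'g : ∀ w : Fin (2 * m) → F, (A' *ᵥ w) ∘ g = A.1 *ᵥ (w ∘ g) := by
      intro w
      funext i
      simp only [A', Matrix.mulVec, dotProduct, Matrix.reindex_apply, Matrix.submatrix_apply,
        Function.comp_apply, Equiv.symm_apply_apply]
      exact Fintype.sum_equiv g.symm
        (fun x => (A.1 : Matrix (Fin m ⊕ Fin m) (Fin m ⊕ Fin m) F) i (g.symm x) * w x)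
        (fun x => (A.1 : Matrix (Fin m ⊕ Fin m) (Fin m ⊕ Fin m) F) i x * w (g x)) (fun j => by simp)
    have hdet : IsUnit A'.det := by
      simp only [A', Matrix.reindex_apply, Matrix.det_submatrix_equiv_self]
      exact SymplecticGroup.symplectic_det A.2
    let Ag : GL (Fin (2 * m)) F := ((Matrix.isUnit_iff_isUnit_det _).2 hdet).unit
    have hAg : (Ag : Matrix (Fin (2 * m)) (Fin (2 * m)) F) = A' := IsUnit.unit_spec _
    have hpolar : ∀ v w, QuadraticMap.polarBilin Q' v w = Cfsg.sympForm m F (v ∘ g) (w ∘ g) := by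
      intro v w
      rw [← hpol]
      rfl
    have hdetJ : (Matrix.J (Fin m) F).det ≠ 0 := (Matrix.isUnit_det_J (Fin m) F).ne_zero
    refine ⟨Q', ⟨?_, ?_⟩, e.trans g, ⟨Ag, ?_⟩, ?_⟩
    · intro v hv
      have h1 : (v ∘ g) ᵥ* Matrix.J (Fin m) F = 0 := by
        funext i
        have := hv ((Pi.single i 1 : Fin m ⊕ Fin m → F) ∘ g.symm)
        rw [hpolar] at this
        have e1 : ((Pi.single i 1 : Fin m ⊕ Fin m → F) ∘ g.symm) ∘ g = Pi.single i 1 := by
          funext x; simp
        rw [e1, Cfsg.sympForm, Matrix.dotProduct_mulVec, dotProduct_single_one] at this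
        exact this
      have h2 := Matrix.eq_zero_of_vecMul_eq_zero hdetJ h1
      funext x
      have := congrFun h2 (g.symm x)
      simpa using this
    · intro w hw
      have h1 : Matrix.J (Fin m) F *ᵥ (w ∘ g) = 0 := by
        funext i
        have := hw ((Pi.single i 1 : Fin m ⊕ Fin m → F) ∘ g.symm)
        rw [hpolar] at this
        have e1 : ((Pi.single i 1 : Fin m ⊕ Fin m → F) ∘ g.symm) ∘ g = Pi.single i 1 := by
          funext x; simp
        rw [e1, Cfsg.sympForm, single_one_dotProduct] at this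
        exact this
      have h2 := Matrix.eq_zero_of_mulVec_eq_zero hdetJ h1
      funext x
      have := congrFun h2 (g.symm x)
      simpa using this
    · intro u v
      show Q' ((Ag : Matrix (Fin (2 * m)) (Fin (2 * m)) F) *ᵥ u) = Q' u
      rw [hAg, hQ', hQ', hA'g, hQ]
    · show IsConj _ (Ag : Matrix (Fin (2 * m)) (Fin (2 * m)) F)
      rw [hAg]
      have := MonoidHom.map_isConj ((Matrix.reindexAlgEquiv F F g).toRingEquiv.toMonoidHom) hc
      exact this



/-- Which unipotent Jordan types occur in a finite orthogonal group in characteristic two: over a finite field of characteristic 2 and in even dimension 2m, a unipotent matrix with Jordan block sizes d_1, …, d_t (sum 2m, all at least 1) is similar to an isometry of some quadratic form on F^(2m) with non-degenerate polar form if and only if every odd block size occurs an even number of times (the same condition as for the symplectic group, which contains these orthogonal groups). -/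
theorem result {F : Type*} [Field F] [Fintype F] [CharP F 2] {m t : ℕ} (d : Fin t → ℕ) (hd : ∀ k, 1 ≤ d k) (hsum : ∑ k, d k = 2 * m) : (∃ Q : QuadraticForm F (Fin (2 * m) → F), (QuadraticMap.polarBilin Q).Nondegenerate ∧ ∃ e : ((k : Fin t) × Fin (d k)) ≃ Fin (2 * m), ∃ A : ↥(Cfsg.isometryGroup F ⇑Q), IsConj (Matrix.reindex e e (Cfsg.jordanTypeMatrix d F)) ((A : Matrix.GeneralLinearGroup (Fin (2 * m)) F) : Matrix (Fin (2 * m)) (Fin (2 * m)) F)) ↔ ∀ j : ℕ, Odd j → Even (Finset.univ.filter (fun k : Fin t => d k = j)).card := by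
  exact main d hd hsum

end Cfsg.Agent.S2584
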