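import Cfsg.Statements.S2587
import Cfsg.Agent.Lib.helper10.GUConj

set_option autoImplicit false
open Cfsg

namespace Cfsg.Agent.S2587

/-- Conjugacy in the finite general unitary group is controlled by the general linear group: two elements of GU_n(q) (the invertible matrices over the field with q² elements preserving the Hermitian form Σ u_i v_i^q) are conjugate in GU_n(q) if and only if they are conjugate in GL_n(q²). -/
theorem result {K : Type*} [Field K] [Fintype K] {q n : ℕ} (hK : Fintype.card K = q ^ 2) (A B : ↥(Cfsg.GU n K q)) : IsConj A B ↔ IsConj (A : GL (Fin n) K) (B : GL (Fin n) K) := by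
  constructor
  · intro h
    obtain ⟨c, hc⟩ := isConj_iff.mp h
    exact isConj_iff.mpr ⟨(c : GL (Fin n) K), by rw [← hc]; rfl⟩
  · intro h
    obtain ⟨x, hx⟩ := isConj_iff.mp h
    obtain ⟨σ, hq, hσσ, ω, hω⟩ := Cfsg.Agent.Lib.helper10.GUConj.exists_sigma hK
    obtain ⟨g, hg, hgA⟩ := Cfsg.Agent.Lib.helper10.GUConj.gu_conj σ q hq hσσ ω hω
      (A : GL (Fin n) K) (B : GL (Fin n) K) A.2 B.2 x hx
    exact isConj_iff.mpr ⟨⟨g, hg⟩, Subtype.ext hgA⟩

end Cfsg.Agent.S2587
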