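import Cfsg.Statements.S2592
-- import your own Cfsg.Agent.* helpers here
import Mathlib
import Cfsg.Agent.Lib.helper18.Cyc
import Cfsg.Agent.Lib.helper18.UniForm3
import Cfsg.Agent.Lib.helper18.PGL2

set_option autoImplicit false
open Cfsg

namespace Cfsg.Agent.S2592



open Cfsg.Agent.Lib.helper18.Jordan Cfsg.Agent.Lib.helper18.UniForm Cfsg.Agent.Lib.helper18.Cyc
open Matrix

universe u
variable {F : Type u} [Field F]

theorem ms_sub_one (s : Multiset ℕ) (hs : ∀ a ∈ s, 0 < a) :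
    (s.map (fun a => a - 1)).sum + s.card = s.sum := by
  induction s using Multiset.induction_on with
  | empty => simp
  | cons a s ih =>
    have h1 := ih (fun x hx => hs x (Multiset.mem_cons_of_mem hx))
    have h2 := hs a (Multiset.mem_cons_self a s)
    simp only [Multiset.map_cons, Multiset.sum_cons, Multiset.card_cons]
    omega

/-- a nilpotent matrix of corank one has maximal nilpotency index -/
theorem reg_pow_ne_zero {ι : Type*} [Fintype ι] [DecidableEq ι] (M : Matrix ι ι F) (D : ℕ)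
    (hD : Fintype.card ι = D) (hD0 : 0 < D) (hM0 : M ^ D = 0) (hr : M.rank = D - 1) :
    M ^ (D - 1) ≠ 0 := by
  have hN : IsNilpotent (Matrix.toLin' M) := ⟨D, by rw [← toLin'_pow', hM0, map_zero]⟩
  have hsum := jtype_sum _ hN
  rw [Module.finrank_fintype_fun_eq_card, hD] at hsum
  have h1 := jtype_rank _ hN 1
  rw [← rank_eq_finrank, pow_one, hr] at h1
  have h2 := ms_sub_one _ (jtype_pos _ hN)
  have hcard : (jtype _ hN).card = 1 := by omega
  obtain ⟨a, ha⟩ := Multiset.card_eq_one.1 hcard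
  rw [ha, Multiset.sum_singleton] at hsum
  intro h0
  have h3 : (Matrix.toLin' M) ^ (D - 1) = 0 := by rw [← toLin'_pow', h0, map_zero]
  have h4 := (pow_eq_zero_iff_jtype _ hN (D - 1)).1 h3 a (by rw [ha]; exact Multiset.mem_singleton_self a)
  omega

theorem card_odd_fin (m : ℕ) : Nat.card {i : Fin (m + m) // ¬ Even (i : ℕ)} = m := by
  have e : {i : Fin (m + m) // ¬ Even (i : ℕ)} ≃ Fin m :=
    { toFun := fun i => ⟨(i.1 : ℕ) / 2, by have := i.1.isLt; omega⟩
      invFun := fun j => ⟨⟨2 * (j : ℕ) + 1, by have := j.isLt; omega⟩, by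
        simp only [Nat.not_even_iff_odd]; exact ⟨j, rfl⟩⟩
      left_inv := fun i => by
        have h := Nat.not_even_iff_odd.1 i.2
        obtain ⟨k, hk⟩ := h
        apply Subtype.ext
        apply Fin.ext
        simp only
        omega
      right_inv := fun j => by
        apply Fin.ext
        simp only
        omega }
  rw [Nat.card_congr e, Nat.card_eq_fintype_card, Fintype.card_fin]

theorem card_even_vanish [Fintype F] (m : ℕ) :
    Nat.card {c : Fin (m + m) → F // ∀ i : Fin (m + m), Even (i : ℕ) → c i = 0} = Fintype.card F ^ m := by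
  have e : {c : Fin (m + m) → F // ∀ i : Fin (m + m), Even (i : ℕ) → c i = 0} ≃
      ({i : Fin (m + m) // ¬ Even (i : ℕ)} → F) :=
    { toFun := fun c i => c.1 i.1
      invFun := fun r => ⟨fun i => if h : Even (i : ℕ) then 0 else r ⟨i, h⟩, fun i hi => by
        simp only; rw [dif_pos hi]⟩
      left_inv := fun c => by
        apply Subtype.ext
        funext i
        simp only
        split_ifs with h
        · exact (c.2 i h).symm
        · rfl
      right_inv := fun r => by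
        funext i
        simp only
        rw [dif_neg i.2] }
  rw [Nat.card_congr e, Nat.card_fun, card_odd_fin, Nat.card_eq_fintype_card]


section core

variable [Fintype F] {m : ℕ} (A Y : Matrix (Fin m ⊕ Fin m) (Fin m ⊕ Fin m) F)
  (h2 : (2 : F) ≠ 0) (hm : 0 < m)
  (hAY : Commute A Y)
  (hYA : ∀ g : Matrix (Fin m ⊕ Fin m) (Fin m ⊕ Fin m) F, g * A = A * g → g * Y = Y * g)
  (hY0 : Y ^ (m + m) = 0) (hY1 : Y ^ (m + m - 1) ≠ 0)
  (hYJ : Yᵀ * Matrix.J (Fin m) F = -(Matrix.J (Fin m) F * Y))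

theorem hJunit (m : ℕ) : IsUnit (Matrix.J (Fin m) F) :=
  (Matrix.isUnit_iff_isUnit_det _).2 (Matrix.isUnit_det_J (Fin m) F)

include h2 hY0 hY1 hYJ in
theorem L_iff (c : Fin (m + m) → F) :
    (PY Y (m + m) c)ᵀ * Matrix.J (Fin m) F = -(Matrix.J (Fin m) F * PY Y (m + m) c) ↔
      ∀ i : Fin (m + m), Even (i : ℕ) → c i = 0 := by
  rw [PY_adj _ Y hYJ, ← Matrix.mul_neg, PY_neg]
  constructor
  · intro h i hi
    have h1 := (hJunit m).mul_left_cancel h
    have h3 : (-1 : F) ^ (i : ℕ) * c i = - c i := congrFun (PY_inj Y (m + m) hY0 hY1 _ _ h1) i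
    rw [hi.neg_one_pow, one_mul] at h3
    have h4 : (2 : F) * c i = 0 := by
      rw [two_mul]
      nth_rewrite 2 [h3]
      ring
    exact (mul_eq_zero.1 h4).resolve_left h2
  · intro h
    congr 2
    funext i
    by_cases hi : Even (i : ℕ)
    · rw [h i hi]; simp
    · rw [(Nat.not_even_iff_odd.1 hi).neg_one_pow]; ring

include h2 hm hYA hY0 hY1 hYJ in
theorem dich (g : Matrix (Fin m ⊕ Fin m) (Fin m ⊕ Fin m) F)
    (hgSp : gᵀ * Matrix.J (Fin m) F * g = Matrix.J (Fin m) F) (hgA : g * A = A * g) :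
    (IsUnit (1 + g) ∧ ¬ IsUnit (1 - g)) ∨ (¬ IsUnit (1 + g) ∧ IsUnit (1 - g)) := by
  have hD0 : 0 < m + m := by omega
  obtain ⟨c, rfl⟩ := comm_eq_PY Y (m + m) (by simp) hY0 hY1 g (hYA g hgA)
  obtain ⟨v, hv⟩ := exists_vec _ hY1
  set w₀ := (Y ^ (m + m - 1)) *ᵥ v with hw₀
  have hYw : Y *ᵥ w₀ = 0 := by
    rw [hw₀, Matrix.mulVec_mulVec, ← pow_succ']
    have : m + m - 1 + 1 = m + m := by omega
    rw [this, hY0, Matrix.zero_mulVec]
  have hgw : ∀ c' : Fin (m + m) → F, PY Y (m + m) c' *ᵥ w₀ = c' ⟨0, hD0⟩ • w₀ :=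
    fun c' => PY_socle Y (m + m) hD0 c' w₀ hYw
  have hinv : PY Y (m + m) (fun i => (-1) ^ (i : ℕ) * c i) * PY Y (m + m) c = 1 := by
    apply (hJunit m).mul_left_cancel
    rw [← mul_assoc, ← PY_adj _ Y hYJ, hgSp, mul_one]
  have hc0 : c ⟨0, hD0⟩ * c ⟨0, hD0⟩ = 1 := by
    have h1 := congrArg (fun M => M *ᵥ w₀) hinv
    simp only [← Matrix.mulVec_mulVec, hgw, Matrix.mulVec_smul, Matrix.one_mulVec] at h1
    simp only [pow_zero, one_mul, smul_smul] at h1
    have h3 : (c ⟨0, hD0⟩ * c ⟨0, hD0⟩ - 1) • w₀ = 0 := by rw [sub_smul, h1, one_smul, sub_self]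
    exact sub_eq_zero.1 ((smul_eq_zero.1 h3).resolve_right hv)
  have hnil := PY_nilp Y (m + m) hD0 hY0 c
  have hunit2 : IsUnit ((2 : F) • (1 : Matrix (Fin m ⊕ Fin m) (Fin m ⊕ Fin m) F)) :=
    ⟨⟨(2 : F) • 1, (2⁻¹ : F) • 1, by
      rw [smul_mul_smul_comm, mul_inv_cancel₀ h2, one_smul, one_mul], by
      rw [smul_mul_smul_comm, inv_mul_cancel₀ h2, one_smul, one_mul]⟩, rfl⟩
  have hnotunit : ∀ X : Matrix (Fin m ⊕ Fin m) (Fin m ⊕ Fin m) F, X *ᵥ w₀ = 0 → ¬ IsUnit X := by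
    intro X hX hu
    exact hv (Matrix.eq_zero_of_mulVec_eq_zero ((Matrix.isUnit_iff_isUnit_det _).1 hu).ne_zero hX)
  rcases mul_self_eq_one_iff.1 hc0 with h1 | h1
  · left
    rw [h1, one_smul] at hnil
    constructor
    · have h5 := hnil.isUnit_add_left_of_commute hunit2
        (Commute.smul_right (Commute.one_right _) (2 : F))
      have e : (2 : F) • (1 : Matrix (Fin m ⊕ Fin m) (Fin m ⊕ Fin m) F) + (PY Y (m + m) c - 1) =
          1 + PY Y (m + m) c := by
        rw [two_smul]; abel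
      rwa [e] at h5
    · apply hnotunit
      rw [Matrix.sub_mulVec, Matrix.one_mulVec, hgw, h1, one_smul, sub_self]
  · right
    rw [h1] at hnil
    constructor
    · apply hnotunit
      rw [Matrix.add_mulVec, Matrix.one_mulVec, hgw, h1, neg_one_smul, add_neg_cancel]
    · have hnil' : IsNilpotent (-(PY Y (m + m) c - (-1 : F) • 1)) := hnil.neg
      have h5 := hnil'.isUnit_add_left_of_commute hunit2
        (Commute.smul_right (Commute.one_right _) (2 : F))
      have e : (2 : F) • (1 : Matrix (Fin m ⊕ Fin m) (Fin m ⊕ Fin m) F) +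
          -(PY Y (m + m) c - (-1 : F) • 1) = 1 - PY Y (m + m) c := by
        rw [two_smul, neg_one_smul]; abel
      rwa [e] at h5

include h2 hm hYA hY0 hY1 hYJ in
theorem L_unit (h : Matrix (Fin m ⊕ Fin m) (Fin m ⊕ Fin m) F) (hA : h * A = A * h)
    (hs : hᵀ * Matrix.J (Fin m) F = -(Matrix.J (Fin m) F * h)) : IsUnit (1 + h) := by
  have hD0 : 0 < m + m := by omega
  obtain ⟨c, rfl⟩ := comm_eq_PY Y (m + m) (by simp) hY0 hY1 h (hYA h hA)
  have hc := (L_iff Y h2 hY0 hY1 hYJ c).1 hs ⟨0, hD0⟩ (by simp)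
  have hnil := PY_nilp Y (m + m) hD0 hY0 c
  rw [hc, zero_smul, sub_zero] at hnil
  exact hnil.isUnit_one_add

def Cm {m : ℕ} (A : Matrix (Fin m ⊕ Fin m) (Fin m ⊕ Fin m) F) : Type u :=
  {g : Matrix (Fin m ⊕ Fin m) (Fin m ⊕ Fin m) F //
    gᵀ * Matrix.J (Fin m) F * g = Matrix.J (Fin m) F ∧ g * A = A * g}

def Lm {m : ℕ} (A : Matrix (Fin m ⊕ Fin m) (Fin m ⊕ Fin m) F) : Type u :=
  {h : Matrix (Fin m ⊕ Fin m) (Fin m ⊕ Fin m) F //
    h * A = A * h ∧ hᵀ * Matrix.J (Fin m) F = -(Matrix.J (Fin m) F * h)}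

instance : Finite (Cm A) := by unfold Cm; infer_instance
instance : Finite (Lm A) := by unfold Lm; infer_instance

include h2 hAY hYA hY0 hY1 hYJ in
theorem card_Lm : Nat.card (Lm A) = Fintype.card F ^ m := by
  rw [← card_even_vanish]
  symm
  apply Nat.card_eq_of_bijective
    (fun c : {c : Fin (m + m) → F // ∀ i : Fin (m + m), Even (i : ℕ) → c i = 0} =>
      (⟨PY Y (m + m) c.1, (PY_comm Y (m + m) A hAY c.1).eq.symm,
        (L_iff Y h2 hY0 hY1 hYJ c.1).2 c.2⟩ : Lm A))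
  constructor
  · intro c c' h
    exact Subtype.ext (PY_inj Y _ hY0 hY1 _ _ (congrArg Subtype.val h))
  · intro h
    obtain ⟨c, hc⟩ := comm_eq_PY Y (m + m) (by simp) hY0 hY1 h.1 (hYA h.1 h.2.1)
    refine ⟨⟨c, (L_iff Y h2 hY0 hY1 hYJ c).1 (by rw [← hc]; exact h.2.2)⟩, Subtype.ext hc.symm⟩

include h2 hm hAY hYA hY0 hY1 hYJ in
theorem card_Cm : Nat.card (Cm A) = 2 * Nat.card (Lm A) := by
  classical
  let p : Cm A → Prop := fun g => IsUnit (1 + g.1)
  have hLu : ∀ h : Lm A, IsUnit (1 + h.1) := fun h => L_unit A Y h2 hm hYA hY0 hY1 hYJ h.1 h.2.1 h.2.2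
  have ePlus : {g : Cm A // p g} ≃ Lm A :=
    { toFun := fun g => ⟨cay g.1.1, (cay_comm g.1.1 A g.2 g.1.2.2.symm).symm,
        cay_skew _ g.1.1 g.1.2.1 g.2⟩
      invFun := fun h => ⟨⟨cay h.1, cay_symp _ h.1 h.2.2 (hLu h),
        (cay_comm h.1 A (hLu h) h.2.1.symm).symm⟩, isUnit_one_add_cay h2 h.1 (hLu h)⟩
      left_inv := fun g => Subtype.ext (Subtype.ext (cay_cay h2 g.1.1 g.2))
      right_inv := fun h => Subtype.ext (cay_cay h2 h.1 (hLu h)) }
  have hneg : ∀ g : Cm A, (-g.1)ᵀ * Matrix.J (Fin m) F * (-g.1) = Matrix.J (Fin m) F ∧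
      (-g.1) * A = A * (-g.1) := by
    intro g
    constructor
    · rw [Matrix.transpose_neg, Matrix.neg_mul, Matrix.neg_mul, Matrix.mul_neg, neg_neg, g.2.1]
    · rw [Matrix.neg_mul, Matrix.mul_neg, g.2.2]
  have eMinus : {g : Cm A // ¬ p g} ≃ {g : Cm A // p g} :=
    { toFun := fun g => ⟨⟨-g.1.1, hneg g.1⟩, by
        show IsUnit (1 + -g.1.1)
        rw [← sub_eq_add_neg]
        rcases dich A Y h2 hm hYA hY0 hY1 hYJ g.1.1 g.1.2.1 g.1.2.2 with h | h
        · exact absurd h.1 g.2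
        · exact h.2⟩
      invFun := fun g => ⟨⟨-g.1.1, hneg g.1⟩, by
        show ¬ IsUnit (1 + -g.1.1)
        rw [← sub_eq_add_neg]
        rcases dich A Y h2 hm hYA hY0 hY1 hYJ g.1.1 g.1.2.1 g.1.2.2 with h | h
        · exact h.2
        · exact absurd g.2 h.1⟩
      left_inv := fun g => Subtype.ext (Subtype.ext (neg_neg _))
      right_inv := fun g => Subtype.ext (Subtype.ext (neg_neg _)) }
  rw [Nat.card_congr (Equiv.sumCompl p).symm, Nat.card_sum, Nat.card_congr eMinus, Nat.card_congr ePlus]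
  ring

end core

theorem main {F : Type*} [Field F] [Fintype F] {q : ℕ} (hF : Fintype.card F = q) (hq : Odd q) {m : ℕ} (hm : 1 ≤ m) (u : Matrix.symplecticGroup (Fin m) F) (hnil : ((u : Matrix (Fin m ⊕ Fin m) (Fin m ⊕ Fin m) F) - 1) ^ (2 * m) = 0) (hreg : ((u : Matrix (Fin m ⊕ Fin m) (Fin m ⊕ Fin m) F) - 1).rank = 2 * m - 1) : Nat.card ↥(Subgroup.centralizer ({u} : Set ↥(Matrix.symplecticGroup (Fin m) F))) = 2 * q ^ m := by
  have h2 : (2 : F) ≠ 0 := by
    have h := Cfsg.Agent.Lib.helper18.PGL.ff_cast_ne_zero (F := F) hF (r := 2)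
      (by obtain ⟨k, hk⟩ := hq; exact ⟨k, by omega⟩)
    exact_mod_cast h
  set A : Matrix (Fin m ⊕ Fin m) (Fin m ⊕ Fin m) F := u.1 with hA
  have hAsp : Aᵀ * Matrix.J (Fin m) F * A = Matrix.J (Fin m) F := SymplecticGroup.mem_iff'.1 u.2
  have e2m : 2 * m = m + m := two_mul m
  rw [e2m] at hnil hreg
  have hD : Fintype.card (Fin m ⊕ Fin m) = m + m := by simp
  have hNreg := reg_pow_ne_zero (A - 1) (m + m) hD (by omega) hnil hreg
  have hunit2 : IsUnit ((2 : F) • (1 : Matrix (Fin m ⊕ Fin m) (Fin m ⊕ Fin m) F)) :=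
    ⟨⟨(2 : F) • 1, (2⁻¹ : F) • 1, by
      rw [smul_mul_smul_comm, mul_inv_cancel₀ h2, one_smul, one_mul], by
      rw [smul_mul_smul_comm, inv_mul_cancel₀ h2, one_smul, one_mul]⟩, rfl⟩
  have hu : IsUnit (1 + A) := by
    have hN : IsNilpotent (A - 1) := ⟨m + m, hnil⟩
    have h := hN.isUnit_add_left_of_commute hunit2
      (Commute.smul_right (Commute.one_right (A - 1)) (2 : F))
    have e : (2 : F) • (1 : Matrix (Fin m ⊕ Fin m) (Fin m ⊕ Fin m) F) + (A - 1) = 1 + A := by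
      rw [two_smul]
      abel
    rwa [e] at h
  set Y := cay A with hY
  have hAY : Commute A Y := cay_comm A A hu rfl
  have hYA : ∀ g : Matrix (Fin m ⊕ Fin m) (Fin m ⊕ Fin m) F, g * A = A * g → g * Y = Y * g :=
    fun g hg => cay_comm A g hu hg
  have hYJ : Yᵀ * Matrix.J (Fin m) F = -(Matrix.J (Fin m) F * Y) := cay_skew _ A hAsp hu
  have hcomm : Commute (1 - A) (1 + A)⁻¹ :=
    comm_inv (1 + A) (1 - A) hu (by noncomm_ring)
  have hYpow : ∀ k, Y ^ k = (1 - A) ^ k * ((1 + A)⁻¹) ^ k := fun k => hcomm.mul_pow k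
  have hneg : ∀ k, (1 - A) ^ k = (-1 : F) ^ k • (A - 1) ^ k := by
    intro k
    have e : (1 - A) = (-1 : F) • (A - 1) := by rw [neg_one_smul, neg_sub]
    rw [e, smul_pow]
  have hY0 : Y ^ (m + m) = 0 := by rw [hYpow, hneg, hnil, smul_zero, zero_mul]
  have hdu := (Matrix.isUnit_iff_isUnit_det _).1 hu
  have hY1 : Y ^ (m + m - 1) ≠ 0 := by
    intro h0
    rw [hYpow] at h0
    apply hNreg
    have h3 : (1 - A) ^ (m + m - 1) * ((1 + A)⁻¹) ^ (m + m - 1) * (1 + A) ^ (m + m - 1) = 0 := by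
      rw [h0, zero_mul]
    have hc2 : Commute ((1 + A)⁻¹) (1 + A) := by
      show (1 + A)⁻¹ * (1 + A) = (1 + A) * (1 + A)⁻¹
      rw [Matrix.nonsing_inv_mul _ hdu, Matrix.mul_nonsing_inv _ hdu]
    rw [mul_assoc, ← hc2.mul_pow, Matrix.nonsing_inv_mul _ hdu, one_pow, mul_one, hneg] at h3
    rcases smul_eq_zero.1 h3 with h4 | h4
    · exact absurd h4 (pow_ne_zero _ (neg_ne_zero.2 one_ne_zero))
    · exact h4
  have eC : ↥(Subgroup.centralizer ({u} : Set ↥(Matrix.symplecticGroup (Fin m) F))) ≃ Cm A :=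
    { toFun := fun x => ⟨(x.1 : Matrix (Fin m ⊕ Fin m) (Fin m ⊕ Fin m) F),
        SymplecticGroup.mem_iff'.1 x.1.2, by
          have h := congrArg Subtype.val ((Subgroup.mem_centralizer_iff.1 x.2) u rfl)
          exact h.symm⟩
      invFun := fun g => ⟨⟨g.1, SymplecticGroup.mem_iff'.2 g.2.1⟩, by
        rw [Subgroup.mem_centralizer_iff]
        rintro _ rfl
        exact Subtype.ext g.2.2.symm⟩
      left_inv := fun x => rfl
      right_inv := fun g => rfl }
  rw [Nat.card_congr eC, card_Cm A Y h2 (by omega) hAY hYA hY0 hY1 hYJ,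
    card_Lm A Y h2 hAY hYA hY0 hY1 hYJ, hF]



/-- Over a finite field with q elements, q odd, the centraliser in Sp_2m(F) (m ≥ 1) of a regular unipotent element (u − 1 nilpotent of rank 2m − 1) has order 2 q^m. -/
theorem result {F : Type*} [Field F] [Fintype F] {q : ℕ} (hF : Fintype.card F = q) (hq : Odd q) {m : ℕ} (hm : 1 ≤ m) (u : Matrix.symplecticGroup (Fin m) F) (hnil : ((u : Matrix (Fin m ⊕ Fin m) (Fin m ⊕ Fin m) F) - 1) ^ (2 * m) = 0) (hreg : ((u : Matrix (Fin m ⊕ Fin m) (Fin m ⊕ Fin m) F) - 1).rank = 2 * m - 1) : Nat.card ↥(Subgroup.centralizer ({u} : Set ↥(Matrix.symplecticGroup (Fin m) F))) = 2 * q ^ m := by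
  exact main hF hq hm u hnil hreg

end Cfsg.Agent.S2592
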