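import Cfsg.Statements.S2599
import Mathlib

set_option autoImplicit false
open Cfsg

namespace Cfsg.Agent.S2599

/-- An irreducible invariant subspace of a semisimple isometry is non-degenerate or totally singular: let Q be a quadratic form on F^n (F finite of characteristic p) with non-degenerate polar form f, x an isometry of Q of order prime to p, and U a non-zero x-invariant subspace containing no x-invariant subspace other than 0 and U. Then U meets its f-orthogonal trivially, or Q vanishes on U, or p = 2, U is a line spanned by a non-singular vector and x fixes U pointwise. -/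
theorem result {F : Type*} [Field F] [Fintype F] {p : ℕ} [Fact p.Prime] [CharP F p] {n : ℕ} (Q : QuadraticForm F (Fin n → F)) (hQ : (QuadraticMap.polarBilin Q).Nondegenerate) (x : ↥(Cfsg.isometryGroup F ⇑Q)) (hx : (orderOf x).Coprime p) (U : Submodule F (Fin n → F)) (hU0 : U ≠ ⊥) (hUx : ∀ u ∈ U, ((x : Matrix.GeneralLinearGroup (Fin n) F) : Matrix (Fin n) (Fin n) F).mulVec u ∈ U) (hirr : ∀ W : Submodule F (Fin n → F), W ≤ U → (∀ w ∈ W, ((x : Matrix.GeneralLinearGroup (Fin n) F) : Matrix (Fin n) (Fin n) F).mulVec w ∈ W) → W = ⊥ ∨ W = U) : U ⊓ LinearMap.BilinForm.orthogonal (QuadraticMap.polarBilin Q) U = ⊥ ∨ (∀ u ∈ U, Q u = 0) ∨ (p = 2 ∧ Module.finrank F U = 1 ∧ (∃ u ∈ U, Q u ≠ 0) ∧ ∀ u ∈ U, ((x : Matrix.GeneralLinearGroup (Fin n) F) : Matrix (Fin n) (Fin n) F).mulVec u = u) := by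
  classical
  set A : Matrix (Fin n) (Fin n) F := ((x : Matrix.GeneralLinearGroup (Fin n) F) : Matrix (Fin n) (Fin n) F) with hA
  have hiso : ∀ v, Q (A.mulVec v) = Q v := by
    intro v
    have := x.2 v v
    simpa using this
  have hpolar : ∀ u v, QuadraticMap.polar Q (A.mulVec u) (A.mulVec v) = QuadraticMap.polar Q u v := by
    intro u v
    simp only [QuadraticMap.polar, ← Matrix.mulVec_add, hiso]
  have hAinv : ∀ v, ((x⁻¹ : Matrix.GeneralLinearGroup (Fin n) F) : Matrix (Fin n) (Fin n) F).mulVec (A.mulVec v) = v := by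
    intro v
    rw [Matrix.mulVec_mulVec, hA, ← Units.val_mul, inv_mul_cancel, Units.val_one, Matrix.one_mulVec]
  have hinj : ∀ u v, A.mulVec u = A.mulVec v → u = v := by
    intro u v h
    rw [← hAinv u, ← hAinv v, h]
  -- the restriction of x to U
  let T : U →ₗ[F] U := (Matrix.mulVecLin A).restrict (p := U) (q := U) (fun u hu => by simpa using hUx u hu)
  have hTinj : Function.Injective T := by
    intro u v h
    apply Subtype.ext
    apply hinj
    have := congrArg Subtype.val h
    simpa [T] using this
  have hTsurj : Function.Surjective T := LinearMap.injective_iff_surjective.mp hTinj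
  have hpre : ∀ u ∈ U, ∃ u' ∈ U, A.mulVec u' = u := by
    intro u hu
    obtain ⟨u', hu'⟩ := hTsurj ⟨u, hu⟩
    refine ⟨u'.1, u'.2, ?_⟩
    have := congrArg Subtype.val hu'
    simpa [T] using this
  -- W = U ⊓ U^⊥ is invariant
  have hW := hirr (U ⊓ LinearMap.BilinForm.orthogonal (QuadraticMap.polarBilin Q) U) inf_le_left (by
    intro w hw
    refine ⟨hUx w hw.1, ?_⟩
    show A.mulVec w ∈ LinearMap.BilinForm.orthogonal (QuadraticMap.polarBilin Q) U
    rw [LinearMap.BilinForm.mem_orthogonal_iff]
    intro m hm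
    obtain ⟨m', hm', rfl⟩ := hpre m hm
    have h1 := (LinearMap.BilinForm.mem_orthogonal_iff.mp hw.2) m' hm'
    rw [QuadraticMap.polarBilin_apply_apply] at h1 ⊢
    rw [hpolar]; exact h1)
  rcases hW with hW | hW
  · left; exact hW
  right
  have hortho : ∀ u ∈ U, ∀ v ∈ U, QuadraticMap.polar Q u v = 0 := by
    intro u hu v hv
    have hv' : v ∈ U ⊓ LinearMap.BilinForm.orthogonal (QuadraticMap.polarBilin Q) U := by rw [hW]; exact hv
    have h1 := (LinearMap.BilinForm.mem_orthogonal_iff.mp hv'.2) u hu
    rw [QuadraticMap.polarBilin_apply_apply] at h1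
    exact h1
  have hadd : ∀ u ∈ U, ∀ v ∈ U, Q (u + v) = Q u + Q v := by
    intro u hu v hv
    have := hortho u hu v hv
    simp only [QuadraticMap.polar] at this
    linear_combination this
  by_cases hp2 : p = 2
  · subst hp2
    have h2 : (2 : F) = 0 := CharTwo.two_eq_zero
    let U₀ : Submodule F (Fin n → F) :=
      { carrier := {u | u ∈ U ∧ Q u = 0}
        add_mem' := by
          rintro a b ⟨ha, ha0⟩ ⟨hb, hb0⟩
          exact ⟨U.add_mem ha hb, by rw [hadd a ha b hb, ha0, hb0, add_zero]⟩
        zero_mem' := ⟨U.zero_mem, map_zero Q⟩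
        smul_mem' := by
          rintro c a ⟨ha, ha0⟩
          exact ⟨U.smul_mem c ha, by rw [QuadraticMap.map_smul, ha0, smul_zero]⟩ }
    have hU₀ := hirr U₀ (fun u hu => hu.1) (by
      rintro w ⟨hw, hw0⟩
      exact ⟨hUx w hw, by rw [hiso, hw0]⟩)
    rcases hU₀ with hU₀ | hU₀
    · right
      have hfix : ∀ u ∈ U, A.mulVec u = u := by
        intro u hu
        have hmem : A.mulVec u + (-u) ∈ U₀ := by
          refine ⟨U.add_mem (hUx u hu) (U.neg_mem hu), ?_⟩
          rw [hadd _ (hUx u hu) _ (U.neg_mem hu), hiso, QuadraticMap.map_neg, ← two_mul, h2, zero_mul]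
        rw [hU₀, Submodule.mem_bot] at hmem
        exact eq_neg_of_add_eq_zero_left hmem |>.trans (neg_neg u)
      obtain ⟨u₀, hu₀, hu₀ne⟩ := Submodule.exists_mem_ne_zero_of_ne_bot hU0
      have hspan := hirr (Submodule.span F {u₀}) (by
        rw [Submodule.span_singleton_le_iff_mem]; exact hu₀) (by
        intro w hw
        have hwU : w ∈ U := by
          have : Submodule.span F {u₀} ≤ U := by
            rw [Submodule.span_singleton_le_iff_mem]; exact hu₀
          exact this hw
        rw [hfix w hwU]; exact hw)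
      have hspanU : Submodule.span F {u₀} = U := by
        rcases hspan with h | h
        · exfalso
          rw [Submodule.span_singleton_eq_bot] at h
          exact hu₀ne h
        · exact h
      refine ⟨rfl, ?_, ⟨u₀, hu₀, ?_⟩, hfix⟩
      · rw [← hspanU]; exact finrank_span_singleton hu₀ne
      · intro h0
        have : u₀ ∈ U₀ := ⟨hu₀, h0⟩
        rw [hU₀, Submodule.mem_bot] at this
        exact hu₀ne this
    · left
      intro u hu
      have : u ∈ U₀ := by rw [hU₀]; exact hu
      exact this.2
  · left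
    intro u hu
    have h2 : (2 : F) ≠ 0 := by
      intro h
      have h2' : ((2 : ℕ) : F) = 0 := by exact_mod_cast h
      rw [CharP.cast_eq_zero_iff F p] at h2'
      have := (Nat.prime_dvd_prime_iff_eq (Fact.out : p.Prime) Nat.prime_two).mp h2'
      exact hp2 this
    have h1 := hortho u hu u hu
    rw [QuadraticMap.polar_self, two_smul, ← two_mul] at h1
    exact (mul_eq_zero.mp h1).resolve_left h2

end Cfsg.Agent.S2599
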