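import Cfsg.Statements.S2611
import Mathlib
import Cfsg.Agent.Lib.helper13.PlusEmb

set_option autoImplicit false
open Cfsg

open Cfsg.Agent.Lib.helper13

namespace Cfsg.Agent.S2611

section Helpers

open Cfsg.Agent.S2562 (qP nondeg_qP)

open scoped Matrix in
lemma core {F : Type*} [Field F] [Fintype F] {m : ℕ} (h : Fintype.card F ≠ 2 ∨ m ≠ 2)
    (Qf : (Fin m ⊕ Fin m → F) → F) (hQf : Qf = ⇑(qP F m)) (A : GL (Fin m) F) :
    (∃ g : ↥(Cfsg.isometryGroup F Qf), g ∈ Cfsg.Omega F Qf ∧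
      ((g : Matrix.GeneralLinearGroup (Fin m ⊕ Fin m) F) :
        Matrix (Fin m ⊕ Fin m) (Fin m ⊕ Fin m) F)
        = Matrix.fromBlocks (A : Matrix (Fin m) (Fin m) F) 0 0
          ((A : Matrix (Fin m) (Fin m) F)⁻¹).transpose)
      ↔ IsSquare (A : Matrix (Fin m) (Fin m) F).det := by
  subst hQf
  have hmat : mat (qP F m) (plusEmb F m A) = Matrix.fromBlocks (A : Matrix (Fin m) (Fin m) F) 0 0
      ((A : Matrix (Fin m) (Fin m) F)⁻¹).transpose := by
    rw [plusEmb_coe, Matrix.coe_units_inv]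
  have hiff : (∃ g : ↥(Cfsg.isometryGroup F ⇑(qP F m)), g ∈ Cfsg.Omega F ⇑(qP F m) ∧
      ((g : Matrix.GeneralLinearGroup (Fin m ⊕ Fin m) F) :
        Matrix (Fin m ⊕ Fin m) (Fin m ⊕ Fin m) F)
        = Matrix.fromBlocks (A : Matrix (Fin m) (Fin m) F) 0 0
          ((A : Matrix (Fin m) (Fin m) F)⁻¹).transpose)
      ↔ plusEmb F m A ∈ Cfsg.Omega F ⇑(qP F m) := by
    constructor
    · rintro ⟨g, hg, hgm⟩
      have hgeq : g = plusEmb F m A := isom_ext _ g _ (hgm.trans hmat.symm)
      rw [← hgeq]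
      exact hg
    · intro hg
      exact ⟨_, hg, hmat⟩
  rw [hiff]
  by_cases h2 : (2 : F) = 0
  · have hc : CharP F 2 := CharTwo.of_one_ne_zero_of_two_eq_zero one_ne_zero h2
    have hsq : IsSquare (A : Matrix (Fin m) (Fin m) F).det :=
      FiniteField.isSquare_of_char_two (ringChar.eq F 2) _
    refine ⟨fun _ => hsq, fun _ => ?_⟩
    rw [← plus_c2_iff h]
    have himg : imgSub (qP F m) (plusEmb F m A) (plusU0 F m) = plusU0 F m := by
      apply Submodule.eq_of_le_of_finrank_eq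
      · intro x hx
        obtain ⟨u, hu, rfl⟩ := (mem_imgSub _ _ _ x).mp hx
        rw [mem_plusU0] at hu ⊢
        intro i
        rw [plusEmb_coe]
        have h3 := congrFun (fromBlocks_mulVec_inr (A : Matrix (Fin m) (Fin m) F) 0 0
          ((A⁻¹ : GL (Fin m) F) : Matrix (Fin m) (Fin m) F)ᵀ u) i
        simp only [Function.comp_apply] at h3
        rw [h3]
        have hu0 : u ∘ Sum.inr = 0 := funext hu
        rw [hu0]
        simp
      · exact imgSub_finrank _ _ _
    rw [himg, inf_idem, plusU0_finrank, Nat.sub_self]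
    exact ⟨0, rfl⟩
  · obtain ⟨c, hc⟩ := FiniteField.exists_nonsquare (F := F) (by
      intro hch
      have : CharP F 2 := ringChar.eq_iff.mp hch
      exact h2 (CharTwo.two_eq_zero))
    rw [omega_iff_det_spin h2 _ (nondeg_qP m) c hc, plusEmb_det, plusEmb_spin h2 m c hc A,
      chiU_one_iff]
    simp

end Helpers

/-- For the hyperbolic quadratic form Σ x_i y_i on F^(2m) (F finite, m ≥ 1, excluding m = 2 over the field of two elements) and an invertible m × m matrix A, the block-diagonal isometry diag(A, (A⁻¹)ᵀ), which stabilises the two maximal totally singular subspaces x = 0 and y = 0, lies in Ω⁺_2m(F) (the commutator subgroup of the orthogonal group) if and only if det A is a square in F. -/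
theorem result {F : Type*} [Field F] [Fintype F] {m : ℕ} (hm : 1 ≤ m) (h : Fintype.card F ≠ 2 ∨ m ≠ 2) (A : GL (Fin m) F) : (∃ g : ↥(Cfsg.isometryGroup F (Cfsg.quadFormPlus m F)), g ∈ Cfsg.Omega F (Cfsg.quadFormPlus m F) ∧ ((g : Matrix.GeneralLinearGroup (Fin m ⊕ Fin m) F) : Matrix (Fin m ⊕ Fin m) (Fin m ⊕ Fin m) F) = Matrix.fromBlocks (A : Matrix (Fin m) (Fin m) F) 0 0 ((A : Matrix (Fin m) (Fin m) F)⁻¹).transpose) ↔ IsSquare (A : Matrix (Fin m) (Fin m) F).det := by
  exact core h _ (qP_coe m) A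

end Cfsg.Agent.S2611
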