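import Cfsg.Statements.S2612
import Mathlib
import Cfsg.Agent.Lib.helper13.PlusForm

set_option autoImplicit false
open Cfsg

open Cfsg.Agent.Lib.helper13

namespace Cfsg.Agent.S2612

section Helpers

open Cfsg.Agent.S2562 (qP nondeg_qP)

lemma core {F : Type*} [Field F] [Fintype F] {m : ℕ} (h : Fintype.card F ≠ 2 ∨ m ≠ 2)
    (Qf : (Fin m ⊕ Fin m → F) → F) (hQf : Qf = ⇑(qP F m)) :
    (∃ g : ↥(Cfsg.isometryGroup F Qf), g ∈ Cfsg.Omega F Qf ∧
      (∀ v : Fin m ⊕ Fin m → F, (∀ i, v (Sum.inr i) = 0) → ∀ i,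
        (((g : Matrix.GeneralLinearGroup (Fin m ⊕ Fin m) F) :
          Matrix (Fin m ⊕ Fin m) (Fin m ⊕ Fin m) F).mulVec v) (Sum.inl i) = 0) ∧
      (∀ v : Fin m ⊕ Fin m → F, (∀ i, v (Sum.inl i) = 0) → ∀ i,
        (((g : Matrix.GeneralLinearGroup (Fin m ⊕ Fin m) F) :
          Matrix (Fin m ⊕ Fin m) (Fin m ⊕ Fin m) F).mulVec v) (Sum.inr i) = 0)) ↔ Even m := by
  subst hQf
  have h' := plus_card h
  constructor
  · rintro ⟨g, hg, h1, -⟩
    obtain ⟨vs, hvs, rfl⟩ := exists_refl_list h' (qP F m) (nondeg_qP m) g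
    have hev := ((omega_iff_list h' (qP F m) (nondeg_qP m) vs hvs).mp hg).1
    have hpar := (plus_parity m vs hvs).mpr hev
    have hbot : plusU0 F m ⊓ imgSub (qP F m) (vs.map (reflEl (qP F m))).prod (plusU0 F m)
        = ⊥ := by
      rw [eq_bot_iff]
      intro x hx
      obtain ⟨hx1, hx2⟩ := Submodule.mem_inf.mp hx
      rw [mem_plusU0] at hx1
      rw [mem_imgSub] at hx2
      obtain ⟨u, hu, rfl⟩ := hx2
      rw [mem_plusU0] at hu
      have h3 := h1 u hu
      rw [Submodule.mem_bot]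
      funext c
      rcases c with c | c
      · exact h3 c
      · exact hx1 c
    rw [hbot, finrank_bot, Nat.sub_zero] at hpar
    exact hpar
  · intro hev
    obtain ⟨vs, h1, h2, h3, h4⟩ := plus_swap_list (F := F) m m le_rfl
    have hmat : mat (qP F m) (vs.map (reflEl (qP F m))).prod
        = (vs.map (fun v => Cfsg.reflectionMatrix (⇑(qP F m)) v)).prod :=
      mat_reflEl_list (qP F m) vs h1
    refine ⟨(vs.map (reflEl (qP F m))).prod, ?_, ?_, ?_⟩
    · rw [omega_iff_list h' (qP F m) (nondeg_qP m) vs h1, h2, h3]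
      exact ⟨hev, fun _ => by rw [hev.neg_one_pow]; exact ⟨1, by simp⟩⟩
    · intro v hv i
      show ((mat (qP F m) (vs.map (reflEl (qP F m))).prod).mulVec v) (Sum.inl i) = 0
      rw [hmat, h4]
      simp [hv]
    · intro v hv i
      show ((mat (qP F m) (vs.map (reflEl (qP F m))).prod).mulVec v) (Sum.inr i) = 0
      rw [hmat, h4]
      simp [hv]

end Helpers

/-- For the hyperbolic quadratic form Σ x_i y_i on F^(2m) (F finite, m ≥ 1, excluding m = 2 over the field of two elements), Ω⁺_2m(F) (the commutator subgroup of the orthogonal group) contains an element interchanging the two complementary maximal totally singular subspaces {y = 0} and {x = 0} if and only if m is even (dimension divisible by 4). -/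
theorem result {F : Type*} [Field F] [Fintype F] {m : ℕ} (hm : 1 ≤ m) (h : Fintype.card F ≠ 2 ∨ m ≠ 2) : (∃ g : ↥(Cfsg.isometryGroup F (Cfsg.quadFormPlus m F)), g ∈ Cfsg.Omega F (Cfsg.quadFormPlus m F) ∧ (∀ v : Fin m ⊕ Fin m → F, (∀ i, v (Sum.inr i) = 0) → ∀ i, (((g : Matrix.GeneralLinearGroup (Fin m ⊕ Fin m) F) : Matrix (Fin m ⊕ Fin m) (Fin m ⊕ Fin m) F).mulVec v) (Sum.inl i) = 0) ∧ (∀ v : Fin m ⊕ Fin m → F, (∀ i, v (Sum.inl i) = 0) → ∀ i, (((g : Matrix.GeneralLinearGroup (Fin m ⊕ Fin m) F) : Matrix (Fin m ⊕ Fin m) (Fin m ⊕ Fin m) F).mulVec v) (Sum.inr i) = 0)) ↔ Even m := by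
  exact core h _ (qP_coe m)

end Cfsg.Agent.S2612
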