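import Cfsg.Statements.S2614
import Mathlib
import Cfsg.Agent.Lib.helper13.Spinor

set_option autoImplicit false
open Cfsg

open Cfsg.Agent.Lib.helper13

namespace Cfsg.Agent.S2614

section Helpers

variable {F : Type*} [Field F]

/-- the odd-dimensional form as a quadratic form -/
noncomputable def qO (F : Type*) [Field F] (m : ℕ) :
    QuadraticForm F (Unit ⊕ (Fin m ⊕ Fin m) → F) :=
  QuadraticMap.proj (Sum.inl ()) (Sum.inl ())
    + ∑ i : Fin m, QuadraticMap.proj (Sum.inr (Sum.inl i)) (Sum.inr (Sum.inr i))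

lemma qO_apply (m : ℕ) (v : Unit ⊕ (Fin m ⊕ Fin m) → F) :
    qO F m v = Cfsg.quadFormOdd m F v := by
  simp [qO, Cfsg.quadFormOdd, pow_two]

lemma qO_pair (m : ℕ) (j : Fin m) (x : Unit ⊕ (Fin m ⊕ Fin m) → F) (s t : F) :
    qO F m (x + s • Pi.single (Sum.inr (Sum.inl j)) 1 + t • Pi.single (Sum.inr (Sum.inr j)) 1)
      = qO F m x + s * x (Sum.inr (Sum.inr j)) + t * x (Sum.inr (Sum.inl j)) + s * t := by
  classical
  rw [qO_apply, qO_apply]
  unfold Cfsg.quadFormOdd
  simp only [Pi.add_apply, Pi.smul_apply, smul_eq_mul, Pi.single_apply, Sum.inl.injEq,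
    reduceCtorEq, if_false, mul_zero, add_zero, mul_ite, mul_one, add_mul, mul_add, ite_mul,
    zero_mul, Finset.sum_add_distrib, Finset.sum_ite_eq', Finset.mem_univ, if_true,
    Sum.inr.injEq]
  ring

end Helpers

/-- For the form x_0² + Σ x_j y_j on F^(2m+1), F finite with q elements, q odd, and 1 ≤ i ≤ m: the involution of determinant one negating the first i hyperbolic pairs (and fixing x_0 and the other pairs) lies in Ω_(2m+1)(q) (commutator subgroup of the orthogonal group) if and only if q^i ≡ 1 (mod 4); its (−1)-eigenspace is a hyperbolic 2i-space. -/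
theorem result {F : Type*} [Field F] [Fintype F] {q : ℕ} (hF : Fintype.card F = q) (hq : Odd q) {m : ℕ} (i : ℕ) (hi : 1 ≤ i) (him : i ≤ m) : (∃ g : ↥(Cfsg.isometryGroup F (Cfsg.quadFormOdd m F)), g ∈ Cfsg.Omega F (Cfsg.quadFormOdd m F) ∧ ((g : Matrix.GeneralLinearGroup (Unit ⊕ (Fin m ⊕ Fin m)) F) : Matrix (Unit ⊕ (Fin m ⊕ Fin m)) (Unit ⊕ (Fin m ⊕ Fin m)) F) = Matrix.diagonal (fun k : Unit ⊕ (Fin m ⊕ Fin m) => if (Sum.elim (fun _ : Unit => i) (Sum.elim (fun j : Fin m => (j : ℕ)) (fun j : Fin m => (j : ℕ))) k) < i then (-1 : F) else 1)) ↔ q ^ i % 4 = 1 := by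
  classical
  have hm : 0 < m := by omega
  have h2 : (2 : F) ≠ 0 := two_ne_zero_of_odd_card hF hq
  let pa : ℕ → Unit ⊕ (Fin m ⊕ Fin m) := fun j =>
    if h : j < m then Sum.inr (Sum.inl ⟨j, h⟩) else Sum.inr (Sum.inl ⟨0, hm⟩)
  let pb : ℕ → Unit ⊕ (Fin m ⊕ Fin m) := fun j =>
    if h : j < m then Sum.inr (Sum.inr ⟨j, h⟩) else Sum.inr (Sum.inr ⟨0, hm⟩)
  obtain ⟨vs, hvs, hlen, hprod, hmat⟩ := hyp_list (qO F m) pa pb i (by
    intro j hj
    have hjm : j < m := by omega
    simp only [pa, pb, dif_pos hjm]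
    exact ⟨by simp, fun x s t => qO_pair m ⟨j, hjm⟩ x s t⟩)
  have hdiag : Matrix.diagonal (fun k : Unit ⊕ (Fin m ⊕ Fin m) => if (Sum.elim (fun _ : Unit => i) (Sum.elim (fun j : Fin m => (j : ℕ)) (fun j : Fin m => (j : ℕ))) k) < i then (-1 : F) else 1) = (vs.map (fun v => Cfsg.reflectionMatrix (⇑(qO F m)) v)).prod := by
    rw [hmat]
    congr 1
    funext k
    symm
    rcases k with u | l | l
    · have h1 : ∀ j ∈ Finset.range i, (if (Sum.inl u : Unit ⊕ (Fin m ⊕ Fin m)) = pa j ∨ Sum.inl u = pb j then (-1 : F) else 1) = 1 := by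
        intro j hj
        have hjm : j < m := by have := Finset.mem_range.mp hj; omega
        simp only [pa, pb, dif_pos hjm]
        simp
      rw [Finset.prod_congr rfl h1, Finset.prod_const_one]
      have hl' : ¬ Sum.elim (fun _ : Unit => i) (Sum.elim (fun j : Fin m => (j : ℕ)) (fun j : Fin m => (j : ℕ))) (Sum.inl u) < i := lt_irrefl i
      rw [if_neg hl']
    · have h1 : ∀ j ∈ Finset.range i, (if (Sum.inr (Sum.inl l) : Unit ⊕ (Fin m ⊕ Fin m)) = pa j ∨ Sum.inr (Sum.inl l) = pb j then (-1 : F) else 1) = if (l : ℕ) = j then (-1 : F) else 1 := by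
        intro j hj
        have hjm : j < m := by have := Finset.mem_range.mp hj; omega
        simp only [pa, pb, dif_pos hjm]
        simp [Fin.ext_iff]
      rw [Finset.prod_congr rfl h1, Finset.prod_ite_eq]
      by_cases hl : (l : ℕ) < i
      · have hl' : Sum.elim (fun _ : Unit => i) (Sum.elim (fun j : Fin m => (j : ℕ)) (fun j : Fin m => (j : ℕ))) (Sum.inr (Sum.inl l)) < i := hl
        rw [if_pos (Finset.mem_range.mpr hl), if_pos hl']
      · have hl' : ¬ Sum.elim (fun _ : Unit => i) (Sum.elim (fun j : Fin m => (j : ℕ)) (fun j : Fin m => (j : ℕ))) (Sum.inr (Sum.inl l)) < i := hl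
        rw [if_neg (fun h => hl (Finset.mem_range.mp h)), if_neg hl']
    · have h1 : ∀ j ∈ Finset.range i, (if (Sum.inr (Sum.inr l) : Unit ⊕ (Fin m ⊕ Fin m)) = pa j ∨ Sum.inr (Sum.inr l) = pb j then (-1 : F) else 1) = if (l : ℕ) = j then (-1 : F) else 1 := by
        intro j hj
        have hjm : j < m := by have := Finset.mem_range.mp hj; omega
        simp only [pa, pb, dif_pos hjm]
        simp [Fin.ext_iff]
      rw [Finset.prod_congr rfl h1, Finset.prod_ite_eq]
      by_cases hl : (l : ℕ) < i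
      · have hl' : Sum.elim (fun _ : Unit => i) (Sum.elim (fun j : Fin m => (j : ℕ)) (fun j : Fin m => (j : ℕ))) (Sum.inr (Sum.inr l)) < i := hl
        rw [if_pos (Finset.mem_range.mpr hl), if_pos hl']
      · have hl' : ¬ Sum.elim (fun _ : Unit => i) (Sum.elim (fun j : Fin m => (j : ℕ)) (fun j : Fin m => (j : ℕ))) (Sum.inr (Sum.inr l)) < i := hl
        rw [if_neg (fun h => hl (Finset.mem_range.mp h)), if_neg hl']
  rw [exists_mem_omega_iff h2 (qO F m) (Cfsg.quadFormOdd m F) (funext (fun v => (qO_apply m v).symm)) _ vs hvs hdiag]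
  rw [hlen, hprod, isSquare_neg_one_pow hF hq]
  constructor
  · exact fun h => h.2
  · exact fun h => ⟨⟨i, by ring⟩, h⟩

end Cfsg.Agent.S2614
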