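import Cfsg.Statements.S2615
import Mathlib
import Cfsg.Agent.Lib.helper13.Spinor
import Cfsg.Agent.S2679

set_option autoImplicit false
open Cfsg

open Cfsg.Agent.Lib.helper13

namespace Cfsg.Agent.S2615

section Helpers

variable {F : Type*} [Field F]

lemma qM_pair (k : ℕ) (a b : F) (j : Fin k) (x : (Fin k ⊕ Fin k) ⊕ Fin 2 → F) (s t : F) :
    Cfsg.Agent.S2679.qMg F k a b
        (x + s • Pi.single (Sum.inl (Sum.inl j)) 1 + t • Pi.single (Sum.inl (Sum.inr j)) 1)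
      = Cfsg.Agent.S2679.qMg F k a b x + s * x (Sum.inl (Sum.inr j))
        + t * x (Sum.inl (Sum.inl j)) + s * t := by
  classical
  rw [Cfsg.Agent.S2679.qMg_apply, Cfsg.Agent.S2679.qMg_apply]
  unfold Cfsg.quadFormMinus
  simp only [Pi.add_apply, Pi.smul_apply, smul_eq_mul, Pi.single_apply, Sum.inl.injEq,
    reduceCtorEq, if_false, mul_zero, add_zero, mul_ite, mul_one, add_mul, mul_add, ite_mul,
    zero_mul, Finset.sum_add_distrib, Finset.sum_ite_eq', Finset.mem_univ, if_true,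
    Sum.inr.injEq]
  ring

end Helpers

/-- For an elliptic form Σ_(j<m−1) x_j y_j + (z₁² + a z₁z₂ + b z₂²) (anisotropic binary part) on F^(2m), F finite with q elements, q odd, and 1 ≤ i ≤ m − 1: the involution negating the first i hyperbolic pairs and fixing the rest lies in Ω⁻_2m(q) (commutator subgroup of the orthogonal group) if and only if q^i ≡ 1 (mod 4). -/
theorem result {F : Type*} [Field F] [Fintype F] {q : ℕ} (hF : Fintype.card F = q) (hq : Odd q) {m : ℕ} (a b : F) (hab : ∀ z₁ z₂ : F, z₁ ^ 2 + a * z₁ * z₂ + b * z₂ ^ 2 = 0 → z₁ = 0 ∧ z₂ = 0) (i : ℕ) (hi : 1 ≤ i) (him : i + 1 ≤ m) : (∃ g : ↥(Cfsg.isometryGroup F (Cfsg.quadFormMinus (m - 1) F a b)), g ∈ Cfsg.Omega F (Cfsg.quadFormMinus (m - 1) F a b) ∧ ((g : Matrix.GeneralLinearGroup ((Fin (m - 1) ⊕ Fin (m - 1)) ⊕ Fin 2) F) : Matrix ((Fin (m - 1) ⊕ Fin (m - 1)) ⊕ Fin 2) ((Fin (m - 1) ⊕ Fin (m - 1)) ⊕ Fin 2) F) = Matrix.diagonal (fun k : (Fin (m - 1) ⊕ Fin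 (m - 1)) ⊕ Fin 2 => if (Sum.elim (Sum.elim (fun j : Fin (m - 1) => (j : ℕ)) (fun j : Fin (m - 1) => (j : ℕ))) (fun _ : Fin 2 => i) k) < i then (-1 : F) else 1)) ↔ q ^ i % 4 = 1 := by
  classical
  have hm : 0 < m - 1 := by omega
  have h2 : (2 : F) ≠ 0 := two_ne_zero_of_odd_card hF hq
  let pa : ℕ → (Fin (m - 1) ⊕ Fin (m - 1)) ⊕ Fin 2 := fun j =>
    if h : j < m - 1 then Sum.inl (Sum.inl ⟨j, h⟩) else Sum.inl (Sum.inl ⟨0, hm⟩)
  let pb : ℕ → (Fin (m - 1) ⊕ Fin (m - 1)) ⊕ Fin 2 := fun j =>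
    if h : j < m - 1 then Sum.inl (Sum.inr ⟨j, h⟩) else Sum.inl (Sum.inr ⟨0, hm⟩)
  obtain ⟨vs, hvs, hlen, hprod, hmat⟩ := hyp_list (Cfsg.Agent.S2679.qMg F (m - 1) a b) pa pb i (by
    intro j hj
    have hjm : j < m - 1 := by omega
    simp only [pa, pb, dif_pos hjm]
    exact ⟨by simp, fun x s t => qM_pair (m - 1) a b ⟨j, hjm⟩ x s t⟩)
  have hdiag : Matrix.diagonal (fun k : (Fin (m - 1) ⊕ Fin (m - 1)) ⊕ Fin 2 => if (Sum.elim (Sum.elim (fun j : Fin (m - 1) => (j : ℕ)) (fun j : Fin (m - 1) => (j : ℕ))) (fun _ : Fin 2 => i) k) < i then (-1 : F) else 1) = (vs.map (fun v => Cfsg.reflectionMatrix (⇑(Cfsg.Agent.S2679.qMg F (m - 1) a b)) v)).prod := by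
    rw [hmat]
    congr 1
    funext k
    symm
    rcases k with (l | l) | u
    · have h1 : ∀ j ∈ Finset.range i, (if (Sum.inl (Sum.inl l) : (Fin (m - 1) ⊕ Fin (m - 1)) ⊕ Fin 2) = pa j ∨ Sum.inl (Sum.inl l) = pb j then (-1 : F) else 1) = if (l : ℕ) = j then (-1 : F) else 1 := by
        intro j hj
        have hjm : j < m - 1 := by have := Finset.mem_range.mp hj; omega
        simp only [pa, pb, dif_pos hjm]
        simp [Fin.ext_iff]
      rw [Finset.prod_congr rfl h1, Finset.prod_ite_eq]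
      by_cases hl : (l : ℕ) < i
      · have hl' : Sum.elim (Sum.elim (fun j : Fin (m - 1) => (j : ℕ)) (fun j : Fin (m - 1) => (j : ℕ))) (fun _ : Fin 2 => i) (Sum.inl (Sum.inl l)) < i := hl
        rw [if_pos (Finset.mem_range.mpr hl), if_pos hl']
      · have hl' : ¬ Sum.elim (Sum.elim (fun j : Fin (m - 1) => (j : ℕ)) (fun j : Fin (m - 1) => (j : ℕ))) (fun _ : Fin 2 => i) (Sum.inl (Sum.inl l)) < i := hl
        rw [if_neg (fun h => hl (Finset.mem_range.mp h)), if_neg hl']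
    · have h1 : ∀ j ∈ Finset.range i, (if (Sum.inl (Sum.inr l) : (Fin (m - 1) ⊕ Fin (m - 1)) ⊕ Fin 2) = pa j ∨ Sum.inl (Sum.inr l) = pb j then (-1 : F) else 1) = if (l : ℕ) = j then (-1 : F) else 1 := by
        intro j hj
        have hjm : j < m - 1 := by have := Finset.mem_range.mp hj; omega
        simp only [pa, pb, dif_pos hjm]
        simp [Fin.ext_iff]
      rw [Finset.prod_congr rfl h1, Finset.prod_ite_eq]
      by_cases hl : (l : ℕ) < i
      · have hl' : Sum.elim (Sum.elim (fun j : Fin (m - 1) => (j : ℕ)) (fun j : Fin (m - 1) => (j : ℕ))) (fun _ : Fin 2 => i) (Sum.inl (Sum.inr l)) < i := hl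
        rw [if_pos (Finset.mem_range.mpr hl), if_pos hl']
      · have hl' : ¬ Sum.elim (Sum.elim (fun j : Fin (m - 1) => (j : ℕ)) (fun j : Fin (m - 1) => (j : ℕ))) (fun _ : Fin 2 => i) (Sum.inl (Sum.inr l)) < i := hl
        rw [if_neg (fun h => hl (Finset.mem_range.mp h)), if_neg hl']
    · have h1 : ∀ j ∈ Finset.range i, (if (Sum.inr u : (Fin (m - 1) ⊕ Fin (m - 1)) ⊕ Fin 2) = pa j ∨ Sum.inr u = pb j then (-1 : F) else 1) = 1 := by
        intro j hj
        have hjm : j < m - 1 := by have := Finset.mem_range.mp hj; omega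
        simp only [pa, pb, dif_pos hjm]
        simp
      rw [Finset.prod_congr rfl h1, Finset.prod_const_one]
      have hl' : ¬ Sum.elim (Sum.elim (fun j : Fin (m - 1) => (j : ℕ)) (fun j : Fin (m - 1) => (j : ℕ))) (fun _ : Fin 2 => i) (Sum.inr u) < i := lt_irrefl i
      rw [if_neg hl']
  rw [exists_mem_omega_iff h2 (Cfsg.Agent.S2679.qMg F (m - 1) a b) (Cfsg.quadFormMinus (m - 1) F a b) (funext (fun v => (Cfsg.Agent.S2679.qMg_apply (m - 1) a b v).symm)) _ vs hvs hdiag]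
  rw [hlen, hprod, isSquare_neg_one_pow hF hq]
  constructor
  · exact fun h => h.2
  · exact fun h => ⟨⟨i, by ring⟩, h⟩

end Cfsg.Agent.S2615
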