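import Cfsg.Statements.S2618
import Mathlib
import Cfsg.Agent.S2616

set_option autoImplicit false
open Cfsg

namespace Cfsg.Agent.S2618

section Helpers

open Cfsg.Agent.S2562 Cfsg.Agent.S2616

universe u v

variable {F : Type u} [Field F]

lemma par_main [Finite F] : ∀ (m : ℕ) {V : Type v} [AddCommGroup V] [Module F V]
    [FiniteDimensional F V] (Q : QuadraticForm F V), Module.finrank F V = 2 * m + 1 →
    (QuadraticMap.polarBilin Q).Nondegenerate →
    ∃ (e f : Fin m → V) (x : V), HypFam Q e f ∧ QuadraticMap.polar Q x x ≠ 0 ∧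
      ∀ i, QuadraticMap.polar Q x (e i) = 0 ∧ QuadraticMap.polar Q x (f i) = 0 := by
  intro m
  induction m with
  | zero =>
    intro V _ _ _ Q hV hQ
    obtain ⟨x, hx⟩ : ∃ x : V, x ≠ 0 := by
      have : Nontrivial V := Module.nontrivial_of_finrank_pos (R := F) (by omega)
      exact exists_ne 0
    refine ⟨Fin.elim0, Fin.elim0, x, ⟨fun i => i.elim0, fun i => i.elim0, fun i => i.elim0⟩, ?_,
      fun i => i.elim0⟩
    intro hxx
    apply hx
    apply hQ.1
    intro z
    have h1 : Module.finrank F V = 1 := by omega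
    obtain ⟨c, rfl⟩ := (finrank_eq_one_iff_of_nonzero' x hx).mp h1 z
    rw [QuadraticMap.polarBilin_apply_apply, QuadraticMap.polar_smul_right, hxx, smul_zero]
  | succ m ih =>
    intro V _ _ _ Q hV hQ
    obtain ⟨e₀, he0, he⟩ := exists_singular Q (by omega)
    obtain ⟨f₀, hf, hef⟩ := exists_partner Q hQ e₀ he0 he
    have hfin := perp_finrank Q e₀ f₀ he hf hef
    have pe : ∀ x : perp Q e₀ f₀, QuadraticMap.polar Q e₀ x = 0 :=
      fun x => ((mem_perp Q e₀ f₀ x).mp x.2).1
    have pf : ∀ x : perp Q e₀ f₀, QuadraticMap.polar Q f₀ x = 0 :=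
      fun x => ((mem_perp Q e₀ f₀ x).mp x.2).2
    obtain ⟨e', f', x, h', hxx, hort⟩ :=
      ih (res Q (perp Q e₀ f₀)) (by omega) (perp_nondeg Q hQ e₀ f₀ he hf hef)
    refine ⟨_, _, (x : V), hyp_cons Q e₀ f₀ he hf hef e' f' h', ?_, ?_⟩
    · rw [polar_res] at hxx
      exact hxx
    · intro i
      refine Fin.cases ?_ (fun i' => ?_) i
      · have h1 : QuadraticMap.polar Q (x : V) e₀ = 0 := by rw [QuadraticMap.polar_comm]; exact pe x
        have h2 : QuadraticMap.polar Q (x : V) f₀ = 0 := by rw [QuadraticMap.polar_comm]; exact pf x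
        simp [h1, h2]
      · have := hort i'
        simp only [polar_res] at this
        simpa using this

lemma par_basis {V : Type v} [AddCommGroup V] [Module F V] [FiniteDimensional F V]
    (Q : QuadraticForm F V) {m : ℕ} (hV : Module.finrank F V = 2 * m + 1)
    (e f : Fin m → V) (x : V) (h : HypFam Q e f) (hxx : QuadraticMap.polar Q x x ≠ 0)
    (hort : ∀ i, QuadraticMap.polar Q x (e i) = 0 ∧ QuadraticMap.polar Q x (f i) = 0) :
    ∃ b : Module.Basis (Unit ⊕ (Fin m ⊕ Fin m)) F V, b (Sum.inl ()) = x ∧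
      ∀ i, b (Sum.inr (Sum.inl i)) = e i ∧ b (Sum.inr (Sum.inr i)) = f i := by
  classical
  obtain ⟨h1, h2, h3⟩ := h
  have hli : LinearIndependent F (Sum.elim (fun _ : Unit => x) (Sum.elim e f)) := by
    rw [Fintype.linearIndependent_iff]
    intro g hg
    rw [Fintype.sum_sum_type, Fintype.sum_sum_type] at hg
    simp only [Sum.elim_inl, Sum.elim_inr, Finset.univ_unique, Finset.sum_singleton] at hg
    have key : ∀ w : V, g (Sum.inl default) * QuadraticMap.polar Q x w +
        (∑ i, g (Sum.inr (Sum.inl i)) * QuadraticMap.polar Q (e i) w +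
        ∑ i, g (Sum.inr (Sum.inr i)) * QuadraticMap.polar Q (f i) w) = 0 := by
      intro w
      have := congrArg (fun v => QuadraticMap.polarBilin Q v w) hg
      simpa [map_add, map_sum, map_smul, LinearMap.add_apply, LinearMap.sum_apply,
        LinearMap.smul_apply] using this
    have hex : ∀ j, QuadraticMap.polar Q (e j) x = 0 := fun j => by
      rw [QuadraticMap.polar_comm]; exact (hort j).1
    have hfx : ∀ j, QuadraticMap.polar Q (f j) x = 0 := fun j => by
      rw [QuadraticMap.polar_comm]; exact (hort j).2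
    have hl : ∀ j, g (Sum.inr (Sum.inl j)) = 0 := by
      intro j
      have := key (f j)
      simpa [h2, (h3 _ _).2, (hort j).2] using this
    have hr : ∀ j, g (Sum.inr (Sum.inr j)) = 0 := by
      intro j
      have := key (e j)
      have h4 : ∀ i, QuadraticMap.polar Q (f i) (e j) = if i = j then 1 else 0 := by
        intro i
        rw [QuadraticMap.polar_comm, h2]
        simp [eq_comm]
      simpa [h4, (h3 _ _).1, (hort j).1] using this
    have h0 : g (Sum.inl default) = 0 := by
      have := key x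
      simp only [hex, hfx, mul_zero, Finset.sum_const_zero, add_zero] at this
      exact (mul_eq_zero.mp this).resolve_right hxx
    rintro (j | j | j)
    · exact h0
    · exact hl j
    · exact hr j
  refine ⟨basisOfLinearIndependentOfCardEqFinrank' _ hli (by
    simp only [Fintype.card_sum, Fintype.card_fin, Fintype.card_unit, hV]; ring), ?_⟩
  rw [coe_basisOfLinearIndependentOfCardEqFinrank']
  exact ⟨rfl, fun i => ⟨rfl, rfl⟩⟩

end Helpers

/-- Standard (parabolic) basis of a non-degenerate quadratic space of odd dimension 2m + 1 over a finite field (the non-degeneracy of the polar form forces the characteristic to be odd): there is a basis e_i, f_i (i < m), x with Q(e_i) = Q(f_i) = 0, B(e_i, f_j) = δ_ij (B the polar form), the e's pairwise orthogonal and the f's pairwise orthogonal, x orthogonal to all of them and Q(x) ≠ 0. -/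
theorem result {F V : Type*} [Field F] [Finite F] [AddCommGroup V] [Module F V] [FiniteDimensional F V] {m : ℕ} (hV : Module.finrank F V = 2 * m + 1) (Q : QuadraticForm F V) (hQ : (QuadraticMap.polarBilin Q).Nondegenerate) : ∃ b : Module.Basis (Unit ⊕ (Fin m ⊕ Fin m)) F V, Q (b (Sum.inl ())) ≠ 0 ∧ (∀ i, QuadraticMap.polar ⇑Q (b (Sum.inl ())) (b (Sum.inr (Sum.inl i))) = 0 ∧ QuadraticMap.polar ⇑Q (b (Sum.inl ())) (b (Sum.inr (Sum.inr i))) = 0) ∧ (∀ i, Q (b (Sum.inr (Sum.inl i))) = 0 ∧ Q (b (Sum.inr (Sum.inr i))) = 0) ∧ (∀ i j, QuadraticMap.polar ⇑Q (b (Sum.inr (Sum.inl i))) (b (Sum.inr (Sum.inr j))) = if i = j then 1 else 0) ∧ (∀ i j, QuadraticMap.polar ⇑Q (b (Sum.inr (Sum.inl i))) (b (Sum.inr (Sum.inl j))) = 0 ∧ QuadraticMap.polar ⇑Q (b (Sum.inr (Sum.inr i))) (b (Sum.inr (Sum.inr j))) = 0) := by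
  classical
  obtain ⟨e, f, x, h, hxx, hort⟩ := par_main m Q hV hQ
  obtain ⟨b, hb0, hb⟩ := par_basis Q hV e f x h hxx hort
  refine ⟨b, ?_, ?_, ?_, ?_, ?_⟩
  · rw [hb0]
    intro h0
    apply hxx
    rw [QuadraticMap.polar_self, h0]
    simp
  · intro i
    rw [hb0, (hb i).1, (hb i).2]
    exact hort i
  · intro i
    rw [(hb i).1, (hb i).2]
    exact h.1 i
  · intro i j
    rw [(hb i).1, (hb j).2]
    exact h.2.1 i j
  · intro i j
    rw [(hb i).1, (hb j).1, (hb i).2, (hb j).2]
    exact h.2.2 i j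

end Cfsg.Agent.S2618
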