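import Cfsg.Statements.S2619
import Mathlib

set_option autoImplicit false
open Cfsg

namespace Cfsg.Agent.S2619

/-- Over a finite field of characteristic two, given an alternating bilinear form B on a finite-dimensional space, a basis (v_i) and scalars (λ_i), there is exactly one quadratic form whose polar form is B and whose value at each v_i is λ_i. -/
theorem result {F V ι : Type*} [Field F] [Finite F] [CharP F 2] [AddCommGroup V] [Module F V] [Fintype ι] (b : Module.Basis ι F V) (B : LinearMap.BilinForm F V) (hB : B.IsAlt) (c : ι → F) : ∃! Q : QuadraticForm F V, QuadraticMap.polarBilin Q = B ∧ ∀ i, Q (b i) = c i := by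
  classical
  let _ : LinearOrder ι := LinearOrder.lift' (Fintype.equivFin ι) (Fintype.equivFin ι).injective
  have h2 : (2 : F) = 0 := CharTwo.two_eq_zero
  have hneg : ∀ x : F, -x = x := fun x => CharTwo.neg_eq x
  let B' : LinearMap.BilinForm F V :=
    b.constr (S := F) fun i => b.constr (S := F) fun j =>
      if i = j then c i else if i < j then B (b i) (b j) else 0
  have hB' : ∀ i j, B' (b i) (b j) = if i = j then c i else if i < j then B (b i) (b j) else 0 := by
    intro i j
    show (b.constr (S := F) (fun i => b.constr (S := F) fun j =>
      if i = j then c i else if i < j then B (b i) (b j) else 0) (b i)) (b j) = _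
    rw [Module.Basis.constr_basis, Module.Basis.constr_basis]
  refine ⟨LinearMap.BilinMap.toQuadraticMap B', ⟨?_, ?_⟩, ?_⟩
  · apply LinearMap.BilinForm.ext_basis b
    intro i j
    rw [LinearMap.BilinMap.polarBilin_toQuadraticMap]
    simp only [LinearMap.add_apply, LinearMap.flip_apply, hB']
    rcases lt_trichotomy i j with h | h | h
    · have hne : i ≠ j := ne_of_lt h
      have hne' : j ≠ i := ne_of_gt h
      have hnlt : ¬ j < i := not_lt_of_gt h
      simp [hne, hne', h, hnlt]
    · subst h
      simp only [if_true]
      rw [hB (b i), ← two_mul, h2, zero_mul]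
    · have hne : i ≠ j := ne_of_gt h
      have hne' : j ≠ i := ne_of_lt h
      have hnlt : ¬ i < j := not_lt_of_gt h
      simp only [hne, hne', h, hnlt, if_false, if_true, zero_add]
      have := hB.neg_eq (b j) (b i)
      rw [← this, hneg]
  · intro i
    rw [LinearMap.BilinMap.toQuadraticMap_apply, hB']
    simp
  · rintro Q ⟨hQ1, hQ2⟩
    have hQB : Q.toBilin b = B' := by
      apply LinearMap.BilinForm.ext_basis b
      intro i j
      rw [QuadraticMap.toBilin_apply, hB', hQ2, ← hQ1]
      rfl
    calc Q = LinearMap.BilinMap.toQuadraticMap (Q.toBilin b) := (QuadraticMap.toQuadraticMap_toBilin Q b).symm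
      _ = LinearMap.BilinMap.toQuadraticMap B' := by rw [hQB]

end Cfsg.Agent.S2619
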