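import Cfsg.Statements.S2622
import Mathlib

set_option autoImplicit false
open Cfsg

namespace Cfsg.Agent.S2622

section Helpers

universe u v

variable {F : Type u} [Field F]

/-- adding a unit vector `v` to an orthonormal basis of `v^⊥` -/
lemma step {V : Type v} [AddCommGroup V] [Module F V] {n : ℕ}
    (B : LinearMap.BilinForm F V) (hS : ∀ x y, B x y = B y x)
    (v : V) (hv : B v v = 1)
    (ih : ∃ b : Module.Basis (Fin n) F (LinearMap.ker (B v)),
      ∀ i j, B (b i) (b j) = if i = j then 1 else 0) :
    ∃ b : Module.Basis (Fin (n + 1)) F V, ∀ i j, B (b i) (b j) = if i = j then 1 else 0 := by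
  obtain ⟨b', hb'⟩ := ih
  let b := Module.Basis.mkFinCons v b' (by
      intro c x hx h
      have h3 := congrArg (B v) h
      have hx' : B v x = 0 := hx
      rw [map_add, map_smul, hv, hx', map_zero] at h3
      simpa using h3)
    (by
      intro z
      refine ⟨-(B v z), ?_⟩
      show B v (z + -(B v z) • v) = 0
      simp [hv])
  refine ⟨b, ?_⟩
  have hb : (b : Fin (n + 1) → V) = Fin.cons v (Subtype.val ∘ b') :=
    Module.Basis.coe_mkFinCons _ _ _ _
  intro i j
  rw [hb]
  refine Fin.cases ?_ (fun i' => ?_) i <;> refine Fin.cases ?_ (fun j' => ?_) j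
  · simp [hv]
  · have h1 : B v (b' j') = 0 := (b' j').2
    simp [h1, (Fin.succ_ne_zero j').symm]
  · have h1 : B (b' i') v = 0 := by rw [hS]; exact (b' i').2
    simp [h1, Fin.succ_ne_zero i']
  · simp [hb']

variable [Finite F] [CharP F 2]

lemma aux : ∀ (n : ℕ) {V : Type v} [AddCommGroup V] [Module F V] [FiniteDimensional F V]
    (_ : Module.finrank F V = n) (B : LinearMap.BilinForm F V) (_ : ∀ x y, B x y = B y x)
    (_ : ∀ x, (∀ y, B x y = 0) → x = 0) (_ : ∃ v, B v v ≠ 0),
    ∃ b : Module.Basis (Fin n) F V, ∀ i j, B (b i) (b j) = if i = j then 1 else 0 := by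
  intro n
  induction n with
  | zero =>
    intro V _ _ _ hV B hS hB hna
    exfalso
    obtain ⟨v, hv⟩ := hna
    have : Subsingleton V := Module.finrank_zero_iff.mp hV
    rw [Subsingleton.elim v 0] at hv
    simp at hv
  | succ n ih =>
    intro V _ _ _ hV B hS hB hna
    have h2 : (2 : F) = 0 := CharTwo.two_eq_zero
    have h11 : (1 : F) + 1 = 0 := by rw [one_add_one_eq_two]; exact h2
    -- facts about ker (B v)
    have hfin : ∀ v : V, B v v = 1 → Module.finrank F (LinearMap.ker (B v)) = n := by
      intro v hv
      have h1 := LinearMap.finrank_range_add_finrank_ker (B v)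
      have h3 : LinearMap.range (B v) = ⊤ := by
        rw [LinearMap.range_eq_top]
        intro c
        exact ⟨c • v, by simp [hv]⟩
      rw [h3, finrank_top, Module.finrank_self, hV] at h1
      omega
    have key : ∀ v : V, B v v = 1 → (∃ x, B v x = 0 ∧ B x x ≠ 0) →
        ∃ b : Module.Basis (Fin (n + 1)) F V, ∀ i j, B (b i) (b j) = if i = j then 1 else 0 := by
      intro v hv hx
      apply step B hS v hv
      obtain ⟨x, hx1, hx2⟩ := hx
      have := ih (V := LinearMap.ker (B v)) (hfin v hv) (B.restrict (LinearMap.ker (B v)))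
        (fun x y => hS x y)
        (by
          intro x hxy
          apply Subtype.ext
          apply hB
          intro z
          have hz : z - (B v z) • v ∈ LinearMap.ker (B v) := by
            show B v (z - (B v z) • v) = 0
            simp [hv]
          have h1 := hxy ⟨_, hz⟩
          have h3 : B x (z - (B v z) • v) = 0 := h1
          have h4 : B (x : V) v = 0 := by rw [hS]; exact x.2
          rw [map_sub, map_smul, h4, smul_zero, sub_zero] at h3
          exact h3)
        ⟨⟨x, hx1⟩, hx2⟩
      exact this
    -- a vector with B v v = 1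
    obtain ⟨v₀, hv₀⟩ := hna
    obtain ⟨a, ha⟩ := FiniteField.isSquare_of_char_two (ringChar.eq F 2) (B v₀ v₀)
    have ha0 : a ≠ 0 := by
      rintro rfl
      simp at ha
      exact hv₀ ha
    have hv : B (a⁻¹ • v₀) (a⁻¹ • v₀) = 1 := by
      simp only [map_smul, LinearMap.smul_apply, smul_eq_mul, ha]
      field_simp
    generalize a⁻¹ • v₀ = v at hv
    by_cases hx : ∃ x, B v x = 0 ∧ B x x ≠ 0
    · exact key v hv hx
    · push Not at hx
      rcases Nat.eq_zero_or_pos n with rfl | hn
      · apply step B hS v hv
        exact ⟨Module.finBasisOfFinrankEq F _ (hfin v hv), fun i => i.elim0⟩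
      · have hne : LinearMap.ker (B v) ≠ ⊥ := by
          intro h
          have := hfin v hv
          rw [h, finrank_bot] at this
          omega
        obtain ⟨w, hw, hw0⟩ := Submodule.exists_mem_ne_zero_of_ne_bot hne
        have hw : B v w = 0 := hw
        obtain ⟨z, hz⟩ : ∃ z, B w z ≠ 0 := by
          by_contra h
          push Not at h
          exact hw0 (hB w h)
        have hwv : B w v = 0 := by rw [hS]; exact hw
        have h1 : B v (z - (B v z) • v) = 0 := by simp [hv]
        have h3 : B w (z - (B v z) • v) = B w z := by simp [hwv]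
        obtain ⟨w', hw'1, hw'2⟩ : ∃ w', B v w' = 0 ∧ B w w' = 1 := by
          refine ⟨(B w z)⁻¹ • (z - (B v z) • v), ?_, ?_⟩
          · rw [map_smul, h1, smul_zero]
          · rw [map_smul, h3, smul_eq_mul, inv_mul_cancel₀ hz]
        have hw'v : B w' v = 0 := by rw [hS]; exact hw'1
        apply key (v + w)
        · simp only [map_add, LinearMap.add_apply, hv, hw, hwv, hx w hw]
          simp
        · refine ⟨v + w', ?_, ?_⟩
          · simp only [map_add, LinearMap.add_apply, hv, hw'1, hwv, hw'2]
            simp [h11]
          · simp only [map_add, LinearMap.add_apply, hv, hw'1, hw'v, hx w' hw'1]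
            simp

end Helpers

/-- Over a finite field of characteristic two, a non-degenerate symmetric bilinear form that is not alternating (some vector v has B(v, v) ≠ 0) admits an orthonormal basis. -/
theorem result {F V : Type*} [Field F] [Finite F] [CharP F 2] [AddCommGroup V] [Module F V] [FiniteDimensional F V] {n : ℕ} (hV : Module.finrank F V = n) (B : LinearMap.BilinForm F V) (hS : B.IsSymm) (hB : B.Nondegenerate) (hna : ∃ v : V, B v v ≠ 0) : ∃ b : Module.Basis (Fin n) F V, ∀ i j, B (b i) (b j) = if i = j then 1 else 0 := by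
  exact aux n hV B (fun x y => hS.eq x y) (fun x hx => hB.1 x hx) hna

end Cfsg.Agent.S2622
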