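import Cfsg.Statements.S2624
import Mathlib
import Cfsg.Agent.Lib.helper13.QuadNormal

set_option autoImplicit false
open Cfsg

namespace Cfsg.Agent.S2624

section Helpers

open Cfsg.Agent.S2562 Cfsg.Agent.S2616 Cfsg.Agent.S2617 Cfsg.Agent.Lib.helper13

variable {F : Type*} [Field F]

/-- a similarity of the plus form with multiplier `c` -/
lemma plus_sim (m : ℕ) (c : F) (hc : c ≠ 0) :
    ∃ s : (Fin m ⊕ Fin m → F) ≃ₗ[F] (Fin m ⊕ Fin m → F),
      ∀ v, Cfsg.quadFormPlus m F (s v) = c * Cfsg.quadFormPlus m F v := by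
  let w : Fin m ⊕ Fin m → F := Sum.elim (fun _ => c) (fun _ => 1)
  have hw : ∀ i, w i ≠ 0 := by
    rintro (i | i)
    · exact hc
    · exact one_ne_zero
  refine ⟨LinearEquiv.piCongrRight (fun i => LinearEquiv.smulOfNeZero F F (w i) (hw i)), ?_⟩
  intro v
  show ∑ i : Fin m, (w (Sum.inl i) • v (Sum.inl i)) * (w (Sum.inr i) • v (Sum.inr i)) =
    c * ∑ i : Fin m, v (Sum.inl i) * v (Sum.inr i)
  rw [Finset.mul_sum]
  refine Finset.sum_congr rfl (fun i _ => ?_)
  simp only [w, Sum.elim_inl, Sum.elim_inr, smul_eq_mul]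
  ring

/-- a similarity of the minus form with multiplier `c = a² + ab + ζb²` -/
lemma minus_sim (k : ℕ) (ζ a b c : F) (hc : c ≠ 0) (hab : a ^ 2 + a * b + ζ * b ^ 2 = c) :
    ∃ s : ((Fin k ⊕ Fin k) ⊕ Fin 2 → F) ≃ₗ[F] ((Fin k ⊕ Fin k) ⊕ Fin 2 → F),
      ∀ v, Cfsg.quadFormMinus k F 1 ζ (s v) = c * Cfsg.quadFormMinus k F 1 ζ v := by
  let S : ((Fin k ⊕ Fin k) ⊕ Fin 2 → F) →ₗ[F] ((Fin k ⊕ Fin k) ⊕ Fin 2 → F) :=
    LinearMap.pi (Sum.elim
      (Sum.elim (fun i => c • LinearMap.proj (Sum.inl (Sum.inl i)))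
        (fun i => LinearMap.proj (Sum.inl (Sum.inr i))))
      ![a • LinearMap.proj (Sum.inr 0) - (ζ * b) • LinearMap.proj (Sum.inr 1),
        b • LinearMap.proj (Sum.inr 0) + (a + b) • LinearMap.proj (Sum.inr 1)])
  have h1 : ∀ v i, S v (Sum.inl (Sum.inl i)) = c * v (Sum.inl (Sum.inl i)) := fun v i => rfl
  have h2 : ∀ v i, S v (Sum.inl (Sum.inr i)) = v (Sum.inl (Sum.inr i)) := fun v i => rfl
  have h3 : ∀ v, S v (Sum.inr 0) = a * v (Sum.inr 0) - ζ * b * v (Sum.inr 1) := fun v => rfl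
  have h4 : ∀ v, S v (Sum.inr 1) = b * v (Sum.inr 0) + (a + b) * v (Sum.inr 1) := fun v => rfl
  have hinj : Function.Injective S := by
    rw [injective_iff_map_eq_zero]
    intro v hv
    have e1 : ∀ i, v (Sum.inl (Sum.inl i)) = 0 := by
      intro i
      have := congrFun hv (Sum.inl (Sum.inl i))
      rw [h1] at this
      exact (mul_eq_zero.mp this).resolve_left hc
    have e2 : ∀ i, v (Sum.inl (Sum.inr i)) = 0 := by
      intro i
      have := congrFun hv (Sum.inl (Sum.inr i))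
      rw [h2] at this
      exact this
    have e3 := congrFun hv (Sum.inr 0)
    have e4 := congrFun hv (Sum.inr 1)
    rw [h3] at e3
    rw [h4] at e4
    simp only [Pi.zero_apply] at e3 e4
    have e5 : v (Sum.inr 0) = 0 := by
      have : c * v (Sum.inr 0) = 0 := by
        rw [← hab]
        linear_combination (a + b) * e3 + ζ * b * e4
      exact (mul_eq_zero.mp this).resolve_left hc
    have e6 : v (Sum.inr 1) = 0 := by
      have : c * v (Sum.inr 1) = 0 := by
        rw [← hab]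
        linear_combination a * e4 - b * e3
      exact (mul_eq_zero.mp this).resolve_left hc
    funext idx
    rcases idx with (i | i) | j
    · exact e1 i
    · exact e2 i
    · fin_cases j
      · exact e5
      · exact e6
  refine ⟨LinearEquiv.ofInjectiveEndo S hinj, ?_⟩
  intro v
  show (∑ i : Fin k, S v (.inl (.inl i)) * S v (.inl (.inr i)))
      + (S v (.inr 0) ^ 2 + 1 * S v (.inr 0) * S v (.inr 1) + ζ * S v (.inr 1) ^ 2) =
    c * ((∑ i : Fin k, v (.inl (.inl i)) * v (.inl (.inr i)))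
      + (v (.inr 0) ^ 2 + 1 * v (.inr 0) * v (.inr 1) + ζ * v (.inr 1) ^ 2))
  have hsum : ∑ i : Fin k, S v (.inl (.inl i)) * S v (.inl (.inr i)) =
      c * ∑ i : Fin k, v (.inl (.inl i)) * v (.inl (.inr i)) := by
    rw [Finset.mul_sum]
    refine Finset.sum_congr rfl (fun i _ => ?_)
    rw [h1, h2]
    ring
  rw [hsum, h3, h4, ← hab]
  ring

/-- an anisotropic binary form represents every nonzero scalar -/
lemma binary_rep [Finite F] (ζ : F) (hζ : ∀ t : F, t ^ 2 + t + ζ ≠ 0) (c : F) (hc : c ≠ 0) :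
    ∃ a b : F, a ^ 2 + a * b + ζ * b ^ 2 = c := by
  let N : QuadraticForm F (Fin 2 → F) :=
    c⁻¹ • (QuadraticMap.proj 0 0 + QuadraticMap.proj 0 1 + ζ • QuadraticMap.proj 1 1)
  have hN : ∀ z : Fin 2 → F, N z = c⁻¹ * (z 0 * z 0 + z 0 * z 1 + ζ * (z 1 * z 1)) := fun z => rfl
  have han : ∀ z : Fin 2 → F, N z = 0 → z = 0 := by
    intro z hz
    rw [hN] at hz
    have h1 := (mul_eq_zero.mp hz).resolve_left (inv_ne_zero hc)
    apply (binary_eq_zero ζ hζ z).mp
    linear_combination -h1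
  obtain ⟨x, hx⟩ := exists_Q_one N (by simp) han
  rw [hN] at hx
  refine ⟨x 0, x 1, ?_⟩
  field_simp at hx
  linear_combination hx

end Helpers

/-- For a quadratic form Q on F^n with non-degenerate polar form, F finite and n ≥ 2 even, every non-zero scalar c is the multiplier of some similarity: there is an invertible linear map g with Q(g v) = c·Q(v) for all v. -/
theorem result {F : Type*} [Field F] [Fintype F] {n : ℕ} (hn : 2 ≤ n) (he : Even n) (Q : QuadraticForm F (Fin n → F)) (hQ : (QuadraticMap.polarBilin Q).Nondegenerate) (c : F) (hc : c ≠ 0) : ∃ g : (Fin n → F) ≃ₗ[F] (Fin n → F), ∀ v, Q (g v) = c * Q v := by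
  classical
  obtain ⟨m, rfl⟩ := he
  have hV : Module.finrank F (Fin (m + m) → F) = 2 * m := by simp [two_mul]
  rcases Cfsg.Agent.Lib.helper13.quad_classify hV Q hQ with ⟨h, hh⟩ | ⟨k, ζ, rfl, hζ, h, hh⟩
  · obtain ⟨s, hs⟩ := plus_sim (F := F) m c hc
    refine ⟨h.trans (s.trans h.symm), fun v => ?_⟩
    rw [hh, hh]
    simp only [LinearEquiv.trans_apply, LinearEquiv.apply_symm_apply]
    exact hs _
  · obtain ⟨a, b, hab⟩ := binary_rep ζ hζ c hc
    obtain ⟨s, hs⟩ := minus_sim (F := F) k ζ a b c hc hab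
    refine ⟨h.trans (s.trans h.symm), fun v => ?_⟩
    rw [hh, hh]
    simp only [LinearEquiv.trans_apply, LinearEquiv.apply_symm_apply]
    exact hs _

end Cfsg.Agent.S2624
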