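import Cfsg.Statements.S2625
import Mathlib

set_option autoImplicit false
open Cfsg

namespace Cfsg.Agent.S2625

/-- For a quadratic form Q on F^n with non-degenerate polar form, F finite and n odd (so |F| is odd), the multiplier of any similarity is a square: if g is an invertible linear map with Q(g v) = c·Q(v) for all v then c is a square. -/
theorem result {F : Type*} [Field F] [Fintype F] {n : ℕ} (hn : Odd n) (Q : QuadraticForm F (Fin n → F)) (hQ : (QuadraticMap.polarBilin Q).Nondegenerate) (g : (Fin n → F) ≃ₗ[F] (Fin n → F)) (c : F) (hg : ∀ v, Q (g v) = c * Q v) : IsSquare c := by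
  classical
  set B : LinearMap.BilinForm F (Fin n → F) := QuadraticMap.polarBilin Q with hB
  have hcomp : B.comp (g : (Fin n → F) →ₗ[F] (Fin n → F)) (g : (Fin n → F) →ₗ[F] (Fin n → F)) = c • B := by
    apply LinearMap.ext₂
    intro u v
    simp only [LinearMap.BilinForm.comp_apply, LinearMap.smul_apply, smul_eq_mul, hB,
      QuadraticMap.polarBilin_apply_apply, QuadraticMap.polar, LinearEquiv.coe_coe]
    rw [← map_add, hg, hg, hg]; ring
  have hmat := congrArg LinearMap.BilinForm.toMatrix' hcomp
  rw [LinearMap.BilinForm.toMatrix'_comp, map_smul] at hmat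
  have hdet := congrArg Matrix.det hmat
  rw [Matrix.det_mul, Matrix.det_mul, Matrix.det_transpose, Matrix.det_smul, Fintype.card_fin] at hdet
  have hG : (LinearMap.BilinForm.toMatrix' B).det ≠ 0 := by
    rw [← Matrix.nondegenerate_iff_det_ne_zero, LinearMap.BilinForm.nondegenerate_toMatrix'_iff]
    exact hQ
  set d := (LinearMap.toMatrix' (g : (Fin n → F) →ₗ[F] (Fin n → F))).det with hd
  have h1 : d * d = c ^ n := by
    apply mul_right_cancel₀ hG
    rw [← hdet]; ring
  obtain ⟨j, rfl⟩ := hn
  by_cases hc : c = 0
  · subst hc; exact ⟨0, by simp⟩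
  · refine ⟨d / c ^ j, ?_⟩
    rw [div_mul_div_comm, h1]
    field_simp
    ring

end Cfsg.Agent.S2625
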