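import Cfsg.Statements.S2626
import Mathlib

set_option autoImplicit false
open Cfsg

namespace Cfsg.Agent.S2626

section Helpers

open Matrix

variable {F : Type*} [Field F]

lemma mem_iso_iff {ι : Type} [Fintype ι] [DecidableEq ι] (Q : (ι → F) → F) (h : Matrix.GeneralLinearGroup ι F) :
    h ∈ Cfsg.isometryGroup F Q ↔ ∀ u : ι → F, Q ((h : Matrix ι ι F) *ᵥ u) = Q u := by
  constructor
  · intro H u
    exact H u u
  · intro H u v
    exact H u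

def blkL (k l : ℕ) : Matrix (Fin k) (Fin k) F →* Matrix (Fin k ⊕ Fin l) (Fin k ⊕ Fin l) F where
  toFun A := Matrix.fromBlocks A 0 0 1
  map_one' := Matrix.fromBlocks_one
  map_mul' A B := by
    rw [Matrix.fromBlocks_multiply]
    simp

def blkR (k l : ℕ) : Matrix (Fin l) (Fin l) F →* Matrix (Fin k ⊕ Fin l) (Fin k ⊕ Fin l) F where
  toFun A := Matrix.fromBlocks 1 0 0 A
  map_one' := Matrix.fromBlocks_one
  map_mul' A B := by
    rw [Matrix.fromBlocks_multiply]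
    simp

def embL {k l : ℕ} (Q₁ : (Fin k → F) → F) (Q₂ : (Fin l → F) → F) :
    ↥(Cfsg.isometryGroup F Q₁) →* ↥(Cfsg.isometryGroup F (fun v : Fin k ⊕ Fin l → F => Q₁ (v ∘ Sum.inl) + Q₂ (v ∘ Sum.inr))) :=
  ((Units.map (blkL k l)).comp (Cfsg.isometryGroup F Q₁).subtype).codRestrict _ (by
    intro g
    rw [mem_iso_iff]
    intro u
    have hg := (mem_iso_iff Q₁ g.1).mp g.2
    change Q₁ ((Matrix.fromBlocks (g.1 : Matrix (Fin k) (Fin k) F) 0 0 1 *ᵥ u) ∘ Sum.inl) +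
      Q₂ ((Matrix.fromBlocks (g.1 : Matrix (Fin k) (Fin k) F) 0 0 1 *ᵥ u) ∘ Sum.inr) = _
    rw [Matrix.fromBlocks_mulVec]
    simp only [Sum.elim_comp_inl, Sum.elim_comp_inr, Matrix.zero_mulVec, add_zero, zero_add, Matrix.one_mulVec]
    rw [hg])

def embR {k l : ℕ} (Q₁ : (Fin k → F) → F) (Q₂ : (Fin l → F) → F) :
    ↥(Cfsg.isometryGroup F Q₂) →* ↥(Cfsg.isometryGroup F (fun v : Fin k ⊕ Fin l → F => Q₁ (v ∘ Sum.inl) + Q₂ (v ∘ Sum.inr))) :=
  ((Units.map (blkR k l)).comp (Cfsg.isometryGroup F Q₂).subtype).codRestrict _ (by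
    intro g
    rw [mem_iso_iff]
    intro u
    have hg := (mem_iso_iff Q₂ g.1).mp g.2
    change Q₁ ((Matrix.fromBlocks 1 0 0 (g.1 : Matrix (Fin l) (Fin l) F) *ᵥ u) ∘ Sum.inl) +
      Q₂ ((Matrix.fromBlocks 1 0 0 (g.1 : Matrix (Fin l) (Fin l) F) *ᵥ u) ∘ Sum.inr) = _
    rw [Matrix.fromBlocks_mulVec]
    simp only [Sum.elim_comp_inl, Sum.elim_comp_inr, Matrix.zero_mulVec, add_zero, zero_add, Matrix.one_mulVec]
    rw [hg])

lemma map_mem_commutator {G H : Type*} [Group G] [Group H] (f : G →* H) (g : G) (hg : g ∈ commutator G) :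
    f g ∈ commutator H := by
  have h1 : f g ∈ Subgroup.map f (commutator G) := Subgroup.mem_map_of_mem f hg
  rw [commutator_def, Subgroup.map_commutator] at h1
  exact Subgroup.commutator_mono le_top le_top h1

end Helpers

/-- Ω of an orthogonal direct sum contains the product of the Ω's: for quadratic forms Q₁ on F^k and Q₂ on F^l with non-degenerate polar forms (F finite) and Q = Q₁ ⊕ Q₂ on F^(k+l), if g₁ lies in Ω(Q₁) and g₂ in Ω(Q₂) (commutator subgroups of the orthogonal groups) then the block-diagonal isometry diag(g₁, g₂) lies in Ω(Q). -/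
theorem result {F : Type*} [Field F] [Fintype F] {k l : ℕ} (Q₁ : QuadraticForm F (Fin k → F)) (Q₂ : QuadraticForm F (Fin l → F)) (h₁ : (QuadraticMap.polarBilin Q₁).Nondegenerate) (h₂ : (QuadraticMap.polarBilin Q₂).Nondegenerate) (g₁ : ↥(Cfsg.isometryGroup F ⇑Q₁)) (g₂ : ↥(Cfsg.isometryGroup F ⇑Q₂)) (hg₁ : g₁ ∈ Cfsg.Omega F ⇑Q₁) (hg₂ : g₂ ∈ Cfsg.Omega F ⇑Q₂) : ∃ g : ↥(Cfsg.isometryGroup F (fun v : Fin k ⊕ Fin l → F => Q₁ (v ∘ Sum.inl) + Q₂ (v ∘ Sum.inr))), g ∈ Cfsg.Omega F (fun v : Fin k ⊕ Fin l → F => Q₁ (v ∘ Sum.inl) + Q₂ (v ∘ Sum.inr)) ∧ ((g : Matrix.GeneralLinearGroup (Fin k ⊕ Fin l) F) : Matrix (Fin k ⊕ Fin l) (Fin k ⊕ Fin l) F) = Matrix.fromBlocks ((g₁ : Matrix.GeneralLinearGroup (Fin k) F) : Matrix (Fin k) (Fin k) F) 0 0 ((g₂ : Matrix.GeneralLinearGroup (Fin l) F) : Matrix (Fin l) (Fin l) F) := by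
  refine ⟨embL (⇑Q₁) (⇑Q₂) g₁ * embR (⇑Q₁) (⇑Q₂) g₂, ?_, ?_⟩
  · exact Subgroup.mul_mem _ (map_mem_commutator _ g₁ hg₁) (map_mem_commutator _ g₂ hg₂)
  · change Matrix.fromBlocks ((g₁ : Matrix.GeneralLinearGroup (Fin k) F) : Matrix (Fin k) (Fin k) F) 0 0 1 *
      Matrix.fromBlocks 1 0 0 ((g₂ : Matrix.GeneralLinearGroup (Fin l) F) : Matrix (Fin l) (Fin l) F) = _
    rw [Matrix.fromBlocks_multiply]
    simp

end Cfsg.Agent.S2626
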