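import Cfsg.Statements.S2627
import Mathlib
import Cfsg.Agent.Lib.helper13.OrthSum

set_option autoImplicit false
open Cfsg

open Cfsg.Agent.Lib.helper13

namespace Cfsg.Agent.S2627

/-- For an orthogonal direct sum Q = Q₁ ⊕ Q₂ of quadratic forms with non-degenerate polar forms over a finite field, an isometry g₁ of Q₁ extended by the identity on the second summand lies in Ω(Q) (the commutator subgroup of the orthogonal group of Q) if and only if g₁ lies in Ω(Q₁). (Excluded: the field of two elements when the first summand or the whole space has dimension 4, where the commutator subgroup of O⁺₄(2) is smaller than the group usually called Ω.) -/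
theorem result {F : Type*} [Field F] [Fintype F] {k l : ℕ} (h : Fintype.card F ≠ 2 ∨ (k ≠ 4 ∧ k + l ≠ 4)) (Q₁ : QuadraticForm F (Fin k → F)) (Q₂ : QuadraticForm F (Fin l → F)) (h₁ : (QuadraticMap.polarBilin Q₁).Nondegenerate) (h₂ : (QuadraticMap.polarBilin Q₂).Nondegenerate) (g₁ : ↥(Cfsg.isometryGroup F ⇑Q₁)) : (∃ g : ↥(Cfsg.isometryGroup F (fun v : Fin k ⊕ Fin l → F => Q₁ (v ∘ Sum.inl) + Q₂ (v ∘ Sum.inr))), g ∈ Cfsg.Omega F (fun v : Fin k ⊕ Fin l → F => Q₁ (v ∘ Sum.inl) + Q₂ (v ∘ Sum.inr)) ∧ ((g : Matrix.GeneralLinearGroup (Fin k ⊕ Fin l) F) : Matrix (Fin k ⊕ Fin l) (Fin k ⊕ Fin l) F) = Matrix.fromBlocks ((g₁ : Matrix.GeneralLinearGroup (Fin k) F) : Matrix (Fin k) (Fin k) F) 0 0 1) ↔ g₁ ∈ Cfsg.Omega F ⇑Q₁ := by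
  have hk : Fintype.card F ≠ 2 ∨ Fintype.card (Fin k) ≠ 4 := by
    rcases h with h | h
    · exact Or.inl h
    · right
      rw [Fintype.card_fin]
      exact h.1
  have hkl : Fintype.card F ≠ 2 ∨ Fintype.card (Fin k ⊕ Fin l) ≠ 4 := by
    rcases h with h | h
    · exact Or.inl h
    · right
      simp only [Fintype.card_sum, Fintype.card_fin]
      exact h.2
  have hQ := qSum_nondeg Q₁ Q₂ h₁ h₂
  obtain ⟨vs, hvs, hg₁⟩ := exists_refl_list hk Q₁ h₁ g₁
  have hvs' : ∀ v ∈ vs.map (fun v => Sum.elim v (0 : Fin l → F)), qSum Q₁ Q₂ v ≠ 0 := by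
    intro v hv
    obtain ⟨w, hw, rfl⟩ := List.mem_map.mp hv
    rw [qSum_elim, map_zero, add_zero]
    exact hvs w hw
  have key := omega_iff_list hkl (qSum Q₁ Q₂) hQ _ hvs'
  rw [← inlHom_refl_list Q₁ Q₂ vs hvs, ← hg₁, List.length_map, List.map_map] at key
  have hnorm : (vs.map ((fun v => qSum Q₁ Q₂ v) ∘ fun v => Sum.elim v (0 : Fin l → F)))
      = vs.map (fun v => Q₁ v) := by
    apply List.map_congr_left
    intro v _
    show qSum Q₁ Q₂ (Sum.elim v 0) = Q₁ v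
    rw [qSum_elim, map_zero, add_zero]
  rw [hnorm] at key
  have key₁ := omega_iff_list hk Q₁ h₁ vs hvs
  rw [← hg₁] at key₁
  rw [key₁, ← key]
  constructor
  · rintro ⟨g, hg, hmat⟩
    have hgeq : g = inlHom Q₁ Q₂ g₁ := isom_ext (qSum Q₁ Q₂) g (inlHom Q₁ Q₂ g₁) hmat
    rw [← hgeq]
    exact hg
  · intro hg
    exact ⟨inlHom Q₁ Q₂ g₁, hg, rfl⟩

end Cfsg.Agent.S2627
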