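import Cfsg.Statements.S2629
import Mathlib

set_option autoImplicit false
open Cfsg

namespace Cfsg.Agent.S2629

section Helpers

open Matrix

variable {F : Type*} [Field F] {n : Type*} [Fintype n] [DecidableEq n]

/-- preserving the split symmetric form -/
def IsO (M : Matrix (n ⊕ n) (n ⊕ n) F) : Prop :=
  Mᵀ * fromBlocks 0 1 1 0 * M = fromBlocks 0 1 1 0

lemma isO_iff (A B C D : Matrix n n F) :
    IsO (fromBlocks A B C D) ↔
      Cᵀ * A + Aᵀ * C = 0 ∧ Cᵀ * B + Aᵀ * D = 1 ∧ Dᵀ * A + Bᵀ * C = 1 ∧ Dᵀ * B + Bᵀ * D = 0 := by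
  unfold IsO
  rw [fromBlocks_transpose, fromBlocks_multiply, fromBlocks_multiply, fromBlocks_inj]
  simp

lemma IsO.mul {M N : Matrix (n ⊕ n) (n ⊕ n) F} (hM : IsO M) (hN : IsO N) : IsO (M * N) := by
  unfold IsO at *
  calc (M * N)ᵀ * fromBlocks 0 1 1 0 * (M * N)
      = Nᵀ * (Mᵀ * fromBlocks 0 1 1 0 * M) * N := by simp only [transpose_mul, mul_assoc]
    _ = fromBlocks 0 1 1 0 := by rw [hM, hN]

lemma isO_L (P Pi : Matrix n n F) (h : Pi * P = 1) : IsO (fromBlocks P 0 0 Piᵀ) := by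
  rw [isO_iff]
  refine ⟨by simp, ?_, ?_, by simp⟩
  · rw [← transpose_mul, h]; simp
  · rw [transpose_transpose, h]; simp

lemma det_L (P Pi : Matrix n n F) (h : Pi * P = 1) : (fromBlocks P 0 0 Piᵀ).det = 1 := by
  rw [det_fromBlocks_zero₂₁, det_transpose, mul_comm, ← det_mul, h, det_one]

lemma isO_n (T : Matrix n n F) (hT : Tᵀ + T = 0) : IsO (fromBlocks 1 T 0 1) := by
  rw [isO_iff]
  refine ⟨by simp, by simp, by simp, ?_⟩
  simp only [transpose_one, one_mul, mul_one]
  rw [add_comm]; exact hT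

lemma isO_w (E : Matrix n n F) (hE2 : E * E = E) (hEt : Eᵀ = E) :
    IsO (fromBlocks (1 - E) E E (1 - E)) := by
  rw [isO_iff]
  simp only [transpose_sub, transpose_one, hEt, mul_sub, sub_mul, mul_one, one_mul, hE2]
  refine ⟨by abel, by abel, by abel, by abel⟩

lemma det_w [DecidableEq F] (χ : n → F) (hχ : ∀ i, χ i = 0 ∨ χ i = 1) :
    (fromBlocks (1 - diagonal χ) (diagonal χ) (diagonal χ) (1 - diagonal χ)).det
      = (-1) ^ (Fintype.card {i // χ i ≠ 0}) := by
  have hE2 : diagonal χ * diagonal χ = diagonal χ := by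
    rw [diagonal_mul_diagonal]
    congr 1
    funext i
    rcases hχ i with h | h <;> simp [h]
  have e1 : fromBlocks (1 - diagonal χ) (diagonal χ) (diagonal χ) (1 - diagonal χ)
      = 1 - fromRows (diagonal χ) (-diagonal χ) * fromCols (diagonal χ) (-diagonal χ) := by
    rw [fromRows_mul_fromCols, ← fromBlocks_one]
    simp only [mul_neg, neg_mul, neg_neg, hE2]
    rw [sub_eq_add_neg (fromBlocks (1 : Matrix n n F) 0 0 1) _, fromBlocks_neg, fromBlocks_add]
    simp only [zero_add, neg_neg, ← sub_eq_add_neg]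
  rw [e1, det_one_sub_mul_comm, fromCols_mul_fromRows]
  simp only [mul_neg, neg_mul, neg_neg, hE2]
  have e2 : (1 : Matrix n n F) - (diagonal χ + diagonal χ)
      = diagonal (fun i => if χ i ≠ 0 then (-1 : F) else 1) := by
    rw [← diagonal_one, diagonal_add, diagonal_sub]
    congr 1
    funext i
    rcases hχ i with h | h
    · simp [h]
    · simp [h]
  rw [e2, det_diagonal, Finset.prod_ite, Finset.prod_const_one, mul_one, Finset.prod_const]
  congr 1
  rw [Fintype.card_subtype]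

/-- special case: the lower-left block is a 0/1 diagonal matrix -/
lemma det_of_isO_diag [DecidableEq F] (A B D : Matrix n n F) (χ : n → F) (hχ : ∀ i, χ i = 0 ∨ χ i = 1)
    (h : IsO (fromBlocks A B (diagonal χ) D)) :
    (fromBlocks A B (diagonal χ) D).det = (-1) ^ (Fintype.card {i // χ i ≠ 0}) := by
  obtain ⟨E, hE⟩ : ∃ E : Matrix n n F, E = diagonal χ := ⟨_, rfl⟩
  have hE2 : E * E = E := by
    rw [hE, diagonal_mul_diagonal]
    congr 1
    funext i
    rcases hχ i with h | h <;> simp [h]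
  have hEt : Eᵀ = E := by rw [hE, diagonal_transpose]
  have hw := det_w χ hχ
  rw [← hE] at h hw ⊢
  have h1 : E * A + Aᵀ * E = 0 := by
    have := ((isO_iff A B E D).mp h).1
    rw [hEt] at this; exact this
  have hEA : E * A * E = E * A := by
    have e : E * A = -(Aᵀ * E) := eq_neg_of_add_eq_zero_left h1
    rw [e, neg_mul, mul_assoc, hE2]
  have hT : (-(E * A))ᵀ + -(E * A) = 0 := by
    rw [transpose_neg, transpose_mul, hEt]
    have e : E * A = -(Aᵀ * E) := eq_neg_of_add_eq_zero_left h1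
    rw [e]; abel
  have hO : IsO (fromBlocks (1 - E) E E (1 - E) * (fromBlocks 1 (-(E * A)) 0 1 * fromBlocks A B E D)) :=
    (isO_w E hE2 hEt).mul ((isO_n _ hT).mul h)
  have hprod : fromBlocks (1 - E) E E (1 - E) * (fromBlocks 1 (-(E * A)) 0 1 * fromBlocks A B E D)
      = fromBlocks ((1 - E) * (A + -(E * A) * E) + E * E) ((1 - E) * (B + -(E * A) * D) + E * D)
          0 (E * (B + -(E * A) * D) + (1 - E) * D) := by
    rw [fromBlocks_multiply, fromBlocks_multiply]
    congr 1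
    · simp
    · simp
    · simp only [one_mul, zero_mul, zero_add, mul_add, mul_neg, neg_mul, sub_mul, hE2]
      rw [← mul_assoc E (E * A) E, ← mul_assoc E E A, hE2, hEA]; abel
    · simp
  rw [hprod] at hO
  have hdet1 : (fromBlocks ((1 - E) * (A + -(E * A) * E) + E * E)
      ((1 - E) * (B + -(E * A) * D) + E * D)
          0 (E * (B + -(E * A) * D) + (1 - E) * D)).det = 1 := by
    have h2 := ((isO_iff _ _ _ _).mp hO).2.1
    rw [det_fromBlocks_zero₂₁]
    simp only [transpose_zero, zero_mul, zero_add] at h2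
    have := congrArg det h2
    rw [det_mul, det_transpose, det_one] at this
    exact this
  rw [← hprod, det_mul, det_mul, hw, det_fromBlocks_zero₂₁, det_one, one_mul, one_mul] at hdet1
  have hsq : ((-1 : F) ^ (Fintype.card {i // χ i ≠ 0})) * ((-1 : F) ^ (Fintype.card {i // χ i ≠ 0})) = 1 := by
    rw [← mul_pow]; simp
  calc (fromBlocks A B E D).det
      = ((-1 : F) ^ (Fintype.card {i // χ i ≠ 0})) * (((-1 : F) ^ (Fintype.card {i // χ i ≠ 0})) * (fromBlocks A B E D).det) := by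
        rw [← mul_assoc, hsq, one_mul]
    _ = (-1 : F) ^ (Fintype.card {i // χ i ≠ 0}) := by rw [hdet1, mul_one]

lemma det_of_isO (A B C D : Matrix n n F) (h : IsO (fromBlocks A B C D)) :
    (fromBlocks A B C D).det = (-1) ^ C.rank := by
  classical
  obtain ⟨V, U, e, hV, hU, hVCU⟩ := exists_rank_normal_form C
  have hVd : IsUnit V.det := (isUnit_iff_isUnit_det V).mp hV
  have hUd : IsUnit U.det := (isUnit_iff_isUnit_det U).mp hU
  obtain ⟨χ, hχdef⟩ : ∃ χ : n → F, χ = fun i => if (e i).isLeft then (1 : F) else 0 := ⟨_, rfl⟩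
  have hχ : ∀ i, χ i = 0 ∨ χ i = 1 := by
    intro i; rw [hχdef]; by_cases h : (e i).isLeft <;> simp [h]
  have hdiag : V * C * U = diagonal χ := by
    rw [hVCU, hχdef]
    ext i j
    rw [submatrix_apply, diagonal_apply]
    by_cases hij : i = j
    · subst hij
      rcases hi : e i with a | b
      · simp
      · simp
    · rw [if_neg hij]
      have hne : e i ≠ e j := fun h => hij (e.injective h)
      rcases hi : e i with a | b <;> rcases hj : e j with a' | b'
      · rw [hi, hj] at hne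
        have : a ≠ a' := fun h => hne (by rw [h])
        simp [this]
      · simp
      · simp
      · simp
  have hL1 := isO_L (F := F) ((V⁻¹)ᵀ) (Vᵀ) (by rw [← transpose_mul, nonsing_inv_mul V hVd, transpose_one])
  have hL2 := isO_L (F := F) U (U⁻¹) (nonsing_inv_mul U hUd)
  have hd1 := det_L (F := F) ((V⁻¹)ᵀ) (Vᵀ) (by rw [← transpose_mul, nonsing_inv_mul V hVd, transpose_one])
  have hd2 := det_L (F := F) U (U⁻¹) (nonsing_inv_mul U hUd)
  rw [transpose_transpose] at hL1 hd1
  have hO := (hL1.mul h).mul hL2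
  have hprod : fromBlocks (V⁻¹)ᵀ 0 0 V * fromBlocks A B C D * fromBlocks U 0 0 (U⁻¹)ᵀ
      = fromBlocks ((V⁻¹)ᵀ * A * U) ((V⁻¹)ᵀ * B * (U⁻¹)ᵀ) (diagonal χ) (V * D * (U⁻¹)ᵀ) := by
    rw [fromBlocks_multiply, fromBlocks_multiply, ← hdiag]
    simp
  rw [hprod] at hO
  have key := det_of_isO_diag _ _ _ χ hχ hO
  rw [← hprod, det_mul, det_mul, hd1, hd2, one_mul, mul_one] at key
  rw [key]
  congr 1
  rw [← rank_diagonal, ← hdiag, rank_mul_eq_left_of_isUnit_det _ _ hUd,
    rank_mul_eq_right_of_isUnit_det _ _ hVd]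

/-- the polar form of the plus-type quadratic form -/
lemma polar_plus (m : ℕ) (u v : Fin m ⊕ Fin m → F) :
    u ⬝ᵥ ((fromBlocks (0 : Matrix (Fin m) (Fin m) F) 1 1 0) *ᵥ v)
      = Cfsg.quadFormPlus m F (u + v) - Cfsg.quadFormPlus m F u - Cfsg.quadFormPlus m F v := by
  rw [fromBlocks_mulVec]
  simp only [zero_mulVec, one_mulVec, zero_add, add_zero, dotProduct, Fintype.sum_sum_type,
    Sum.elim_inl, Sum.elim_inr, Function.comp_apply, Cfsg.quadFormPlus, Pi.add_apply]
  rw [← Finset.sum_add_distrib, ← Finset.sum_sub_distrib, ← Finset.sum_sub_distrib]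
  exact Finset.sum_congr rfl (fun i _ => by ring)

lemma isO_of_pres (m : ℕ) (G : Matrix (Fin m ⊕ Fin m) (Fin m ⊕ Fin m) F)
    (h : ∀ u, Cfsg.quadFormPlus m F (G *ᵥ u) = Cfsg.quadFormPlus m F u) : IsO G := by
  have hB : ∀ u v : Fin m ⊕ Fin m → F,
      u ⬝ᵥ ((Gᵀ * fromBlocks (0 : Matrix (Fin m) (Fin m) F) 1 1 0 * G) *ᵥ v)
        = u ⬝ᵥ ((fromBlocks (0 : Matrix (Fin m) (Fin m) F) 1 1 0) *ᵥ v) := by
    intro u v
    rw [← mulVec_mulVec, ← mulVec_mulVec, dotProduct_mulVec, vecMul_transpose, polar_plus,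
      polar_plus, ← mulVec_add, h, h, h]
  unfold IsO
  ext i j
  have := hB (Pi.single i 1) (Pi.single j 1)
  simpa [mulVec_single_one, single_dotProduct] using this

lemma finrank_inter {m : ℕ} (g : Matrix (Fin m ⊕ Fin m) (Fin m ⊕ Fin m) F) (hg : IsUnit g.det) :
    Module.finrank F ↥(LinearMap.ker (LinearMap.funLeft F F (Sum.inr : Fin m → Fin m ⊕ Fin m)) ⊓
      (LinearMap.ker (LinearMap.funLeft F F (Sum.inr : Fin m → Fin m ⊕ Fin m))).map
        (Matrix.mulVecLin g)) = m - g.toBlocks₂₁.rank := by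
  classical
  let ι : (Fin m → F) →ₗ[F] (Fin m ⊕ Fin m → F) :=
    LinearMap.pi (Sum.elim (fun i => LinearMap.proj i) (fun _ => 0))
  have hι1 : ∀ x i, ι x (Sum.inl i) = x i := fun x i => rfl
  have hι2 : ∀ x i, ι x (Sum.inr i) = 0 := fun x i => rfl
  have hkey : ∀ (x : Fin m → F) (i : Fin m), (g *ᵥ ι x) (Sum.inr i) = (g.toBlocks₂₁ *ᵥ x) i := by
    intro x i
    simp only [mulVec, dotProduct, Fintype.sum_sum_type, hι1, hι2, mul_zero, Finset.sum_const_zero,
      add_zero, toBlocks₂₁, of_apply]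
  let φ : LinearMap.ker g.toBlocks₂₁.mulVecLin →ₗ[F] (Fin m ⊕ Fin m → F) :=
    g.mulVecLin ∘ₗ ι ∘ₗ (LinearMap.ker g.toBlocks₂₁.mulVecLin).subtype
  have hφinj : Function.Injective φ := by
    intro x y hxy
    have h1 : g *ᵥ ι (x : Fin m → F) = g *ᵥ ι (y : Fin m → F) := hxy
    have h2 : ι (x : Fin m → F) = ι (y : Fin m → F) :=
      (mulVec_injective_iff_isUnit.mpr ((isUnit_iff_isUnit_det g).mpr hg)) h1
    apply Subtype.ext
    funext i
    have := congrFun h2 (Sum.inl i)
    rwa [hι1, hι1] at this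
  have hrange : LinearMap.range φ = LinearMap.ker (LinearMap.funLeft F F (Sum.inr : Fin m → Fin m ⊕ Fin m)) ⊓
      (LinearMap.ker (LinearMap.funLeft F F (Sum.inr : Fin m → Fin m ⊕ Fin m))).map
        (Matrix.mulVecLin g) := by
    ext v
    simp only [LinearMap.mem_range, Submodule.mem_inf, LinearMap.mem_ker, Submodule.mem_map]
    constructor
    · rintro ⟨x, rfl⟩
      have hx : g.toBlocks₂₁ *ᵥ (x : Fin m → F) = 0 := LinearMap.mem_ker.mp x.2
      refine ⟨?_, ι (x : Fin m → F), ?_, rfl⟩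
      · funext i
        show (g *ᵥ ι (x : Fin m → F)) (Sum.inr i) = 0
        rw [hkey, hx]; rfl
      · funext i
        exact hι2 _ i
    · rintro ⟨hv, u, hu, rfl⟩
      have hu' : u = ι (u ∘ Sum.inl) := by
        funext k
        rcases k with i | i
        · rfl
        · rw [hι2]; exact congrFun hu i
      have hx : g.toBlocks₂₁ *ᵥ (u ∘ Sum.inl) = 0 := by
        funext i
        rw [← hkey, ← hu']
        exact congrFun hv i
      refine ⟨⟨u ∘ Sum.inl, LinearMap.mem_ker.mpr hx⟩, ?_⟩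
      show g *ᵥ ι (u ∘ Sum.inl) = g *ᵥ u
      rw [← hu']
  rw [← hrange, LinearMap.finrank_range_of_inj hφinj]
  have hrn := LinearMap.finrank_range_add_finrank_ker g.toBlocks₂₁.mulVecLin
  have hfin : Module.finrank F (Fin m → F) = m := by simp
  have hr : g.toBlocks₂₁.rank = Module.finrank F (LinearMap.range g.toBlocks₂₁.mulVecLin) := rfl
  omega

end Helpers


/-- For the hyperbolic form Σ x_i y_i on F^(2m) over a finite field of odd order (m ≥ 1), an isometry g preserves the class of the maximal totally singular subspace U₀ = {y = 0} (that is, m − dim(U₀ ∩ gU₀) is even) if and only if det g = 1: the stabiliser of each of the two classes of maximal totally singular subspaces is SO. -/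
theorem result {F : Type*} [Field F] [Fintype F] (h2 : (2 : F) ≠ 0) {m : ℕ} (hm : 1 ≤ m) (g : ↥(Cfsg.isometryGroup F (Cfsg.quadFormPlus m F))) : Even (m - Module.finrank F ↥(LinearMap.ker (LinearMap.funLeft F F (Sum.inr : Fin m → Fin m ⊕ Fin m)) ⊓ (LinearMap.ker (LinearMap.funLeft F F (Sum.inr : Fin m → Fin m ⊕ Fin m))).map (Matrix.mulVecLin ((g : Matrix.GeneralLinearGroup (Fin m ⊕ Fin m) F) : Matrix (Fin m ⊕ Fin m) (Fin m ⊕ Fin m) F)))) ↔ ((g : Matrix.GeneralLinearGroup (Fin m ⊕ Fin m) F) : Matrix (Fin m ⊕ Fin m) (Fin m ⊕ Fin m) F).det = 1 := by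
  classical
  obtain ⟨G, hG⟩ : ∃ G : Matrix (Fin m ⊕ Fin m) (Fin m ⊕ Fin m) F,
      G = ((g : Matrix.GeneralLinearGroup (Fin m ⊕ Fin m) F) : Matrix (Fin m ⊕ Fin m) (Fin m ⊕ Fin m) F) := ⟨_, rfl⟩
  rw [← hG]
  have hdetu : IsUnit G.det := by
    rw [hG]; exact (Matrix.isUnit_iff_isUnit_det _).mp (Units.isUnit _)
  have hpres : ∀ u, Cfsg.quadFormPlus m F (G.mulVec u) = Cfsg.quadFormPlus m F u := by
    intro u; rw [hG]; exact g.2 u u
  have hO : IsO G := isO_of_pres m G hpres
  rw [finrank_inter G hdetu]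
  have hdet : G.det = (-1) ^ G.toBlocks₂₁.rank := by
    have := det_of_isO G.toBlocks₁₁ G.toBlocks₁₂ G.toBlocks₂₁ G.toBlocks₂₂
      (by rw [Matrix.fromBlocks_toBlocks]; exact hO)
    rw [Matrix.fromBlocks_toBlocks] at this
    exact this
  rw [hdet]
  have hle : G.toBlocks₂₁.rank ≤ m := Matrix.rank_le_width _
  have e : m - (m - G.toBlocks₂₁.rank) = G.toBlocks₂₁.rank := by omega
  rw [e]
  constructor
  · intro h; exact h.neg_one_pow
  · intro h
    by_contra hodd
    rw [Nat.not_even_iff_odd] at hodd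
    rw [hodd.neg_one_pow] at h
    apply h2
    linear_combination (-1 : F) * h

end Cfsg.Agent.S2629
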