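import Cfsg.Statements.S2631
import Mathlib
import Cfsg.Agent.Lib.helper13.PlusForm
import Cfsg.Agent.Lib.helper13.TSMove

set_option autoImplicit false
open Cfsg

open Cfsg.Agent.Lib.helper13

namespace Cfsg.Agent.S2631

section Helpers

open Cfsg.Agent.S2562 (qP nondeg_qP)

lemma core {F : Type*} [Field F] [Fintype F] {m : ℕ} (hm : 1 ≤ m)
    (h : Fintype.card F ≠ 2 ∨ m ≠ 2) (Qf : (Fin m ⊕ Fin m → F) → F) (hQf : Qf = ⇑(qP F m))
    (U W : Submodule F (Fin m ⊕ Fin m → F)) (hU : Module.finrank F U = m)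
    (hW : Module.finrank F W = m) (hU0 : ∀ u ∈ U, Qf u = 0) (hW0 : ∀ w ∈ W, Qf w = 0)
    (he : Even (m - Module.finrank F ↥(U ⊓ W))) :
    ∃ g : ↥(Cfsg.isometryGroup F Qf), g ∈ Cfsg.Omega F Qf ∧
      U.map (Matrix.mulVecLin ((g : Matrix.GeneralLinearGroup (Fin m ⊕ Fin m) F) :
        Matrix (Fin m ⊕ Fin m) (Fin m ⊕ Fin m) F)) = W := by
  subst hQf
  have h' := plus_card h
  have hWne : W ≠ ⊥ := by
    intro hb
    rw [hb, finrank_bot] at hW
    omega
  obtain ⟨g₀, hg₀, himg⟩ := ts_move (qP F m) (nondeg_qP m) U W hU0 hW0 (by rw [hU, hW])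
  obtain ⟨vs, hvs, rfl⟩ := exists_list_of_mem (qP F m) g₀ hg₀
  have hUmax : MaxTS (qP F m) U := ⟨hU0, by
    rw [hU]
    simp only [Fintype.card_sum, Fintype.card_fin]
    omega⟩
  have hpar := maxTS_parity (qP F m) (nondeg_qP m) U hUmax vs hvs
  rw [himg, hU] at hpar
  have hle : Module.finrank F ↥(U ⊓ W) ≤ m := by
    have h1 := Submodule.finrank_mono (inf_le_left : U ⊓ W ≤ U)
    rw [hU] at h1
    exact h1
  have hev : Even vs.length := by
    rw [Nat.even_iff] at hpar he ⊢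
    omega
  exact ts_omega_of_even h' (qP F m) (nondeg_qP m) U W hW0 hWne vs hvs hev himg

end Helpers

/-- For the hyperbolic form Σ x_i y_i on F^(2m) over a finite field (m ≥ 1, excluding m = 2 over the field of two elements), Ω (the commutator subgroup of the orthogonal group) acts transitively on each of the two classes of maximal totally singular subspaces: if U and W are m-dimensional totally singular subspaces with m − dim(U ∩ W) even, some element of Ω carries U to W. -/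
theorem result {F : Type*} [Field F] [Fintype F] {m : ℕ} (hm : 1 ≤ m) (h : Fintype.card F ≠ 2 ∨ m ≠ 2) (U W : Submodule F (Fin m ⊕ Fin m → F)) (hU : Module.finrank F U = m) (hW : Module.finrank F W = m) (hU0 : ∀ u ∈ U, Cfsg.quadFormPlus m F u = 0) (hW0 : ∀ w ∈ W, Cfsg.quadFormPlus m F w = 0) (he : Even (m - Module.finrank F ↥(U ⊓ W))) : ∃ g : ↥(Cfsg.isometryGroup F (Cfsg.quadFormPlus m F)), g ∈ Cfsg.Omega F (Cfsg.quadFormPlus m F) ∧ U.map (Matrix.mulVecLin ((g : Matrix.GeneralLinearGroup (Fin m ⊕ Fin m) F) : Matrix (Fin m ⊕ Fin m) (Fin m ⊕ Fin m) F)) = W := by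
  exact core hm h _ (qP_coe m) U W hU hW hU0 hW0 he

end Cfsg.Agent.S2631
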