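import Cfsg.Statements.S2632
import Mathlib
import Cfsg.Agent.Lib.helper13.WittGood

set_option autoImplicit false
open Cfsg

open Cfsg.Agent.Lib.helper13

namespace Cfsg.Agent.S2632

/-- Ω is transitive on non-degenerate subspaces of each isometry type: for a quadratic form Q on F^n, n ≥ 3, with non-degenerate polar form (F finite; excluding dimension 4 over the field of two elements), if U and W are subspaces on which the polar form is non-degenerate and there is a Q-preserving linear isomorphism U → W, then some element of Ω (the commutator subgroup of the orthogonal group) carries U to W. (In dimension 2 this fails: Ω can be {±1}, which fixes every line.) -/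
theorem result {F : Type*} [Field F] [Fintype F] {n : ℕ} (hn : 3 ≤ n) (h : Fintype.card F ≠ 2 ∨ n ≠ 4) (Q : QuadraticForm F (Fin n → F)) (hQ : (QuadraticMap.polarBilin Q).Nondegenerate) (U W : Submodule F (Fin n → F)) (hU : U ⊓ LinearMap.BilinForm.orthogonal (QuadraticMap.polarBilin Q) U = ⊥) (hW : W ⊓ LinearMap.BilinForm.orthogonal (QuadraticMap.polarBilin Q) W = ⊥) (e : U ≃ₗ[F] W) (he : ∀ u : U, Q (e u : Fin n → F) = Q (u : Fin n → F)) : ∃ g : ↥(Cfsg.isometryGroup F ⇑Q), g ∈ Cfsg.Omega F ⇑Q ∧ U.map (Matrix.mulVecLin ((g : Matrix.GeneralLinearGroup (Fin n) F) : Matrix (Fin n) (Fin n) F)) = W := by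
  have hgood : ∀ X : Submodule F (Fin n → F),
      X ⊓ LinearMap.BilinForm.orthogonal (QuadraticMap.polarBilin Q) X = ⊥ → GoodSub Q X := by
    intro X hX x hx hxy
    have h1 : x ∈ X ⊓ orthSub Q X := ⟨hx, (mem_orthSub Q X x).mpr (fun a ha => by
      rw [QuadraticMap.polar_comm]
      exact hxy a ha)⟩
    have h2 : x ∈ (⊥ : Submodule F (Fin n → F)) := by
      rw [← hX]
      exact h1
    exact (Submodule.mem_bot F).mp h2
  exact witt_omega (by rw [Fintype.card_fin]; exact h) (by rw [Fintype.card_fin]; exact hn)
    Q hQ U W (hgood U hU) (hgood W hW) e he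

end Cfsg.Agent.S2632
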