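import Cfsg.Statements.S2633
import Mathlib
import Cfsg.Agent.Lib.helper13.TSMove

set_option autoImplicit false
open Cfsg

open Cfsg.Agent.Lib.helper13

namespace Cfsg.Agent.S2633

/-- Ω is transitive on totally singular subspaces of each dimension less than half the dimension: for a quadratic form Q on F^n with non-degenerate polar form (F finite; excluding dimension 4 over the field of two elements), if U and W are subspaces of the same dimension k with 2k < n on which Q vanishes, then some element of Ω (the commutator subgroup of the orthogonal group) carries U to W. -/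
theorem result {F : Type*} [Field F] [Fintype F] {n : ℕ} (h : Fintype.card F ≠ 2 ∨ n ≠ 4) (Q : QuadraticForm F (Fin n → F)) (hQ : (QuadraticMap.polarBilin Q).Nondegenerate) (U W : Submodule F (Fin n → F)) {k : ℕ} (hk : 2 * k < n) (hU : Module.finrank F U = k) (hW : Module.finrank F W = k) (hU0 : ∀ u ∈ U, Q u = 0) (hW0 : ∀ w ∈ W, Q w = 0) : ∃ g : ↥(Cfsg.isometryGroup F ⇑Q), g ∈ Cfsg.Omega F ⇑Q ∧ U.map (Matrix.mulVecLin ((g : Matrix.GeneralLinearGroup (Fin n) F) : Matrix (Fin n) (Fin n) F)) = W := by
  have h' : Fintype.card F ≠ 2 ∨ Fintype.card (Fin n) ≠ 4 := by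
    rw [Fintype.card_fin]
    exact h
  by_cases hk0 : k = 0
  · subst hk0
    have hUb : U = ⊥ := Submodule.finrank_eq_zero.mp hU
    have hWb : W = ⊥ := Submodule.finrank_eq_zero.mp hW
    refine ⟨1, Subgroup.one_mem _, ?_⟩
    rw [hUb, hWb]
    exact Submodule.map_bot _
  · have hWne : W ≠ ⊥ := by
      intro hb
      rw [hb, finrank_bot] at hW
      exact hk0 hW.symm
    obtain ⟨g₀, hg₀, himg⟩ := ts_move Q hQ U W hU0 hW0 (by rw [hU, hW])
    obtain ⟨vs, hvs, rfl⟩ := exists_list_of_mem Q g₀ hg₀
    rcases Nat.even_or_odd vs.length with hev | hodd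
    · exact ts_omega_of_even h' Q hQ U W hW0 hWne vs hvs hev himg
    · obtain ⟨w, hQw, hw⟩ := ts_adj_refl Q hQ W (by rw [hW, Fintype.card_fin]; exact hk)
      have hvs' : ∀ v ∈ w :: vs, Q v ≠ 0 := by
        intro v hv
        rcases List.mem_cons.mp hv with rfl | hv
        · exact hQw
        · exact hvs v hv
      exact ts_omega_of_even h' Q hQ U W hW0 hWne (w :: vs) hvs'
        (by rw [List.length_cons]; exact hodd.add_one)
        (by rw [List.map_cons, List.prod_cons, imgSub_mul, himg, hw])

end Cfsg.Agent.S2633
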