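import Cfsg.Statements.S2634
import Mathlib
import Cfsg.Agent.Lib.helper13.OrthChar2

set_option autoImplicit false
open Cfsg

open Cfsg.Agent.Lib.helper13

namespace Cfsg.Agent.S2634

/-- Over a finite field of characteristic two, Ω (the commutator subgroup of the orthogonal group of a quadratic form Q on F^n with non-degenerate polar form; excluding dimension 4 over the field of two elements) acts transitively on the non-singular 1-spaces: for u, v with Q(u) ≠ 0 and Q(v) ≠ 0 some element of Ω carries the line through u to the line through v. -/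
theorem result {F : Type*} [Field F] [Fintype F] [CharP F 2] {n : ℕ} (h : Fintype.card F ≠ 2 ∨ n ≠ 4) (Q : QuadraticForm F (Fin n → F)) (hQ : (QuadraticMap.polarBilin Q).Nondegenerate) (u v : Fin n → F) (hu : Q u ≠ 0) (hv : Q v ≠ 0) : ∃ g : ↥(Cfsg.isometryGroup F ⇑Q), g ∈ Cfsg.Omega F ⇑Q ∧ (F ∙ ((g : Matrix.GeneralLinearGroup (Fin n) F) : Matrix (Fin n) (Fin n) F).mulVec u) = F ∙ v := by
  classical
  have h' : Fintype.card F ≠ 2 ∨ Fintype.card (Fin n) ≠ 4 := by simpa using h
  obtain ⟨a, ha, hau⟩ := c2_normalize Q u hu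
  obtain ⟨b, hb, hbv⟩ := c2_normalize Q v hv
  obtain ⟨ws, h1, h2⟩ := c2_connect_abs h' Q hQ (a • u) (b • v) hau hbv
  obtain ⟨vs, hvs, hlen, hmap⟩ : ∃ vs : List (Fin n → F), (∀ w ∈ vs, Q w ≠ 0) ∧ Even vs.length ∧
      ((vs.map (fun w => Cfsg.reflectionMatrix (⇑Q) w)).prod).mulVec (a • u) = b • v := by
    rcases Nat.even_or_odd ws.length with he | ho
    · exact ⟨ws, h1, he, h2⟩
    · refine ⟨ws ++ [a • u], ?_, ?_, ?_⟩
      · intro w hw
        rcases List.mem_append.mp hw with hw | hw
        · exact h1 w hw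
        · simp only [List.mem_cons, List.not_mem_nil, or_false] at hw
          rw [hw, hau]
          exact one_ne_zero
      · rw [List.length_append, List.length_singleton]
        exact Nat.even_add_one.mpr (Nat.not_even_iff_odd.mpr ho)
      · rw [List.map_append, List.prod_append, ← Matrix.mulVec_mulVec]
        simp only [List.map_cons, List.map_nil, List.prod_cons, List.prod_nil, mul_one]
        rw [refl_self Q (a • u) (by rw [hau]; exact one_ne_zero), c2_neg, h2]
  refine ⟨(vs.map (reflEl Q)).prod, c2_even_mem_comm h' Q hQ vs hvs hlen, ?_⟩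
  have h3 : (((vs.map (reflEl Q)).prod : ↥(Cfsg.isometryGroup F ⇑Q)) :
      Matrix.GeneralLinearGroup (Fin n) F).1 = (vs.map (fun w => Cfsg.reflectionMatrix (⇑Q) w)).prod :=
    reflEl_list_coe Q vs hvs
  have h4 : ((((vs.map (reflEl Q)).prod : ↥(Cfsg.isometryGroup F ⇑Q)) :
      Matrix.GeneralLinearGroup (Fin n) F) : Matrix (Fin n) (Fin n) F).mulVec (a • u) = b • v := by
    rw [← hmap]
    exact congrArg (fun M : Matrix (Fin n) (Fin n) F => M.mulVec (a • u)) h3
  have h5 : ((((vs.map (reflEl Q)).prod : ↥(Cfsg.isometryGroup F ⇑Q)) :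
      Matrix.GeneralLinearGroup (Fin n) F) : Matrix (Fin n) (Fin n) F).mulVec u = (a⁻¹ * b) • v := by
    have := congrArg (fun x => a⁻¹ • x) h4
    simp only [Matrix.mulVec_smul, smul_smul, inv_mul_cancel₀ ha, one_smul] at this
    exact this
  rw [h5]
  exact Submodule.span_singleton_smul_eq (IsUnit.mk0 _ (mul_ne_zero (inv_ne_zero ha) hb)) v

end Cfsg.Agent.S2634
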