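import Cfsg.Statements.S2635
import Mathlib
import Cfsg.Agent.Lib.helper13.OrthChar2

set_option autoImplicit false
open Cfsg

open Cfsg.Agent.Lib.helper13

namespace Cfsg.Agent.S2635

/-- Over a finite field of characteristic two, for a quadratic form Q on F^n with non-degenerate polar form, n ≥ 2, other than dimension 4 over the field of two elements, Ω (the commutator subgroup of the orthogonal group) is exactly the subgroup generated by the products of two reflections (orthogonal transvections) x ↦ x − Q(v)⁻¹ f(x, v) v, Q(v) ≠ 0: the products of an even number of reflections. -/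
theorem result {F : Type*} [Field F] [Fintype F] [CharP F 2] {n : ℕ} (hn : 2 ≤ n) (h : Fintype.card F ≠ 2 ∨ n ≠ 4) (Q : QuadraticForm F (Fin n → F)) (hQ : (QuadraticMap.polarBilin Q).Nondegenerate) : Cfsg.Omega F ⇑Q = Subgroup.closure {g : ↥(Cfsg.isometryGroup F ⇑Q) | ∃ u v : Fin n → F, Q u ≠ 0 ∧ Q v ≠ 0 ∧ ((g : Matrix.GeneralLinearGroup (Fin n) F) : Matrix (Fin n) (Fin n) F) = Cfsg.reflectionMatrix ⇑Q u * Cfsg.reflectionMatrix ⇑Q v} := by
  classical
  have h' : Fintype.card F ≠ 2 ∨ Fintype.card (Fin n) ≠ 4 := by simpa using h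
  obtain ⟨G₀, hG₀⟩ : ∃ G₀ : Set ↥(Cfsg.isometryGroup F ⇑Q), G₀ = {g : ↥(Cfsg.isometryGroup F ⇑Q) | ∃ u v : Fin n → F, Q u ≠ 0 ∧ Q v ≠ 0 ∧ ((g : Matrix.GeneralLinearGroup (Fin n) F) : Matrix (Fin n) (Fin n) F) = Cfsg.reflectionMatrix ⇑Q u * Cfsg.reflectionMatrix ⇑Q v} := ⟨_, rfl⟩
  rw [← hG₀]
  have hmemG₀ : ∀ u v : Fin n → F, Q u ≠ 0 → Q v ≠ 0 → reflEl Q u * reflEl Q v ∈ G₀ := by
    intro u v hu hv
    rw [hG₀]
    exact ⟨u, v, hu, hv, by rw [isom_coe_mul, reflEl_coe Q u hu, reflEl_coe Q v hv]⟩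
  have hG₀eq : ∀ g ∈ G₀, ∃ u v : Fin n → F, Q u ≠ 0 ∧ Q v ≠ 0 ∧ g = reflEl Q u * reflEl Q v := by
    intro g hg
    rw [hG₀] at hg
    obtain ⟨u, v, hu, hv, hguv⟩ := hg
    exact ⟨u, v, hu, hv, isom_ext Q _ _ (by rw [hguv, isom_coe_mul, reflEl_coe Q u hu, reflEl_coe Q v hv])⟩
  apply le_antisymm
  · -- the commutator subgroup is contained in the group of even products
    have hnorm : (Subgroup.closure G₀).Normal := by
      constructor
      intro x hx k
      have h1 : k * x * k⁻¹ ∈ (Subgroup.closure G₀).map (MulAut.conj k).toMonoidHom :=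
        ⟨x, hx, rfl⟩
      rw [MonoidHom.map_closure] at h1
      refine (Subgroup.closure_mono ?_) h1
      rintro y ⟨g, hg, rfl⟩
      obtain ⟨u, v, hu, hv, rfl⟩ := hG₀eq g hg
      show k * (reflEl Q u * reflEl Q v) * k⁻¹ ∈ G₀
      have h3 : k * (reflEl Q u * reflEl Q v) * k⁻¹
          = (k * reflEl Q u * k⁻¹) * (k * reflEl Q v * k⁻¹) := by group
      rw [h3, reflEl_conj Q k u hu, reflEl_conj Q k v hv]
      exact hmemG₀ _ _ (by rw [isom_pres]; exact hu) (by rw [isom_pres]; exact hv)
    show commutator ↥(Cfsg.isometryGroup F ⇑Q) ≤ Subgroup.closure G₀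
    rw [commutator_def, Subgroup.commutator_le]
    intro g₁ _ g₂ _
    by_cases hv₀ : ∃ v₀ : Fin n → F, Q v₀ ≠ 0
    · obtain ⟨v₀, hv₀⟩ := hv₀
      have hz : ∀ g : ↥(Cfsg.isometryGroup F ⇑Q),
          (QuotientGroup.mk g : ↥(Cfsg.isometryGroup F ⇑Q) ⧸ Subgroup.closure G₀)
            ∈ Subgroup.zpowers (QuotientGroup.mk (reflEl Q v₀) :
              ↥(Cfsg.isometryGroup F ⇑Q) ⧸ Subgroup.closure G₀) := by
        intro g
        have hg := cd_char2 h' Q hQ g
        unfold reflGroup at hg
        induction hg using Subgroup.closure_induction with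
        | mem x hx =>
          obtain ⟨v, hv, rfl⟩ := hx
          have : (QuotientGroup.mk (reflEl Q v) : ↥(Cfsg.isometryGroup F ⇑Q) ⧸ Subgroup.closure G₀)
              = QuotientGroup.mk (reflEl Q v₀) := by
            rw [QuotientGroup.eq]
            have h5 : (reflEl Q v)⁻¹ = reflEl Q v := by
              rw [inv_eq_iff_mul_eq_one]
              exact reflEl_mul_self Q v
            rw [h5]
            exact Subgroup.subset_closure (hmemG₀ v v₀ hv hv₀)
          rw [this]
          exact Subgroup.mem_zpowers _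
        | one => exact Subgroup.one_mem _
        | mul x y _ _ hx hy => exact Subgroup.mul_mem _ hx hy
        | inv x _ hx => exact Subgroup.inv_mem _ hx
      rw [← QuotientGroup.eq_one_iff (N := Subgroup.closure G₀), commutatorElement_def]
      obtain ⟨a, ha⟩ := Subgroup.mem_zpowers_iff.mp (hz g₁)
      obtain ⟨b, hb⟩ := Subgroup.mem_zpowers_iff.mp (hz g₂)
      simp only [QuotientGroup.mk_mul, QuotientGroup.mk_inv]
      rw [← ha, ← hb, ← zpow_add, ← zpow_neg, ← zpow_add, ← zpow_neg, ← zpow_add]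
      have : a + b + -a + -b = 0 := by ring
      rw [this, zpow_zero]
    · push Not at hv₀
      have hone : ∀ g : ↥(Cfsg.isometryGroup F ⇑Q), g = 1 := by
        intro g
        have hg := cd_char2 h' Q hQ g
        unfold reflGroup at hg
        induction hg using Subgroup.closure_induction with
        | mem x hx =>
          obtain ⟨v, hv, rfl⟩ := hx
          exact absurd (hv₀ v) hv
        | one => rfl
        | mul x y _ _ hx hy => rw [hx, hy, mul_one]
        | inv x _ hx => rw [hx, inv_one]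
      rw [hone g₁, hone g₂]
      simp
  · rw [Subgroup.closure_le]
    intro g hg
    obtain ⟨u, v, hu, hv, rfl⟩ := hG₀eq g hg
    have h3 := c2_even_mem_comm h' Q hQ [u, v] (by
      intro w hw
      simp only [List.mem_cons, List.not_mem_nil, or_false] at hw
      rcases hw with rfl | rfl
      · exact hu
      · exact hv) ⟨1, rfl⟩
    simpa using h3

end Cfsg.Agent.S2635
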