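import Cfsg.Statements.S2636
import Mathlib

set_option autoImplicit false
open Cfsg

namespace Cfsg.Agent.S2636

/-- Centraliser of a field automorphism in PGL_n: let F be the field with q = q₀^r elements, σ a field automorphism of F of prime order r (so its fixed field has q₀ elements) and n ≥ 1. The invertible matrices g whose entrywise image under σ is a scalar multiple of g — those whose coset modulo scalars is fixed by σ — number (q − 1)/(q₀ − 1) · |GL_n(q₀)|; equivalently the centraliser in PGL_n(q) of the induced automorphism has the order of PGL_n(q₀). -/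
theorem result {F : Type*} [Field F] [Fintype F] {q₀ r n : ℕ} (hr : r.Prime) (hn : 1 ≤ n) (hF : Fintype.card F = q₀ ^ r) (σ : F ≃+* F) (hσ : orderOf σ = r) : Nat.card {g : GL (Fin n) F // ∃ c : F, c ≠ 0 ∧ (g : Matrix (Fin n) (Fin n) F).map σ = c • (g : Matrix (Fin n) (Fin n) F)} = (q₀ ^ r - 1) / (q₀ - 1) * ∏ i : Fin n, (q₀ ^ n - q₀ ^ (i : ℕ)) := by
  classical
  have hnpos : 0 < n := hn
  have : Nonempty (Fin n) := ⟨⟨0, hnpos⟩⟩
  have : Finite (F ≃+* F) :=
    Finite.of_injective (fun e : F ≃+* F => (e : F → F)) DFunLike.coe_injective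
  have : Fintype (Subgroup.zpowers σ) := Fintype.ofFinite _
  have : FaithfulSMul (Subgroup.zpowers σ) F := ⟨fun {a b} h => Subtype.ext (RingEquiv.ext h)⟩
  obtain ⟨F₀, hF₀⟩ : ∃ F₀ : Subfield F, F₀ = FixedPoints.subfield (Subgroup.zpowers σ) F := ⟨_, rfl⟩
  have hfix : ∀ a : F, a ∈ F₀ ↔ σ a = a := by
    intro a
    rw [hF₀]
    constructor
    · intro h; exact h ⟨σ, Subgroup.mem_zpowers σ⟩
    · intro h m
      have hle : Subgroup.zpowers σ ≤ MulAction.stabilizer (F ≃+* F) a := by
        rw [Subgroup.zpowers_le]; exact h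
      exact hle m.2
  have hfin : Module.finrank F₀ F = r := by
    rw [hF₀, FixedPoints.finrank_eq_card (Subgroup.zpowers σ) F, Fintype.card_eq_nat_card,
      Nat.card_zpowers, hσ]
  have : Fintype F₀ := Fintype.ofFinite _
  have hq₀ : Fintype.card F₀ = q₀ := by
    have h1 : Fintype.card F = Fintype.card F₀ ^ Module.finrank F₀ F := Module.card_eq_pow_finrank
    rw [hfin, hF] at h1
    exact (Nat.pow_left_injective hr.ne_zero h1).symm
  have hq₀2 : 2 ≤ q₀ := by rw [← hq₀]; exact Fintype.one_lt_card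
  let Ψ : Fˣ × GL (Fin n) F₀ →* GL (Fin n) F :=
    MonoidHom.noncommCoprod (Matrix.GeneralLinearGroup.scalar (Fin n))
      (Matrix.GeneralLinearGroup.map F₀.subtype)
      (fun u A => Matrix.GeneralLinearGroup.scalar_commute u _)
  have hΨ : ∀ (μ : Fˣ) (g₀ : GL (Fin n) F₀), ((Ψ (μ, g₀) : GL (Fin n) F) : Matrix (Fin n) (Fin n) F) =
      (μ : F) • (g₀ : Matrix (Fin n) (Fin n) F₀).map F₀.subtype := by
    intro μ g₀
    show Matrix.scalar (Fin n) (μ : F) * (g₀ : Matrix (Fin n) (Fin n) F₀).map F₀.subtype = _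
    rw [Matrix.scalar_apply, Matrix.smul_eq_diagonal_mul]
  have hrange : ∀ g : GL (Fin n) F, g ∈ Ψ.range ↔ ∃ c : F, c ≠ 0 ∧
      (g : Matrix (Fin n) (Fin n) F).map σ = c • (g : Matrix (Fin n) (Fin n) F) := by
    intro g
    constructor
    · rintro ⟨⟨μ, g₀⟩, rfl⟩
      refine ⟨σ μ * (μ : F)⁻¹, mul_ne_zero ((map_ne_zero σ).mpr μ.ne_zero) (inv_ne_zero μ.ne_zero), ?_⟩
      rw [hΨ]
      ext i j
      simp only [Matrix.map_apply, Matrix.smul_apply, smul_eq_mul, map_mul]
      have h1 : σ ((g₀ : Matrix (Fin n) (Fin n) F₀) i j : F) = ((g₀ : Matrix (Fin n) (Fin n) F₀) i j : F) :=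
        (hfix _).mp ((g₀ : Matrix (Fin n) (Fin n) F₀) i j).2
      show σ μ * σ ((g₀ : Matrix (Fin n) (Fin n) F₀) i j : F) =
        σ μ * (μ : F)⁻¹ * (μ * ((g₀ : Matrix (Fin n) (Fin n) F₀) i j : F))
      rw [h1]
      field_simp
    · rintro ⟨c, hc, hg⟩
      have hdet : (g : Matrix (Fin n) (Fin n) F).det ≠ 0 := (Matrix.GeneralLinearGroup.det g).ne_zero
      have hg0 : (g : Matrix (Fin n) (Fin n) F) ≠ 0 := by
        intro h
        rw [h, Matrix.det_zero] at hdet
        exact hdet rfl
      obtain ⟨i, j, hij⟩ : ∃ i j, (g : Matrix (Fin n) (Fin n) F) i j ≠ 0 := by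
        by_contra hcon
        push Not at hcon
        exact hg0 (Matrix.ext hcon)
      obtain ⟨a, ha⟩ : ∃ a : F, a = (g : Matrix (Fin n) (Fin n) F) i j := ⟨_, rfl⟩
      have ha0 : a ≠ 0 := by rw [ha]; exact hij
      have hent : ∀ i' j', σ ((g : Matrix (Fin n) (Fin n) F) i' j') =
          c * (g : Matrix (Fin n) (Fin n) F) i' j' := by
        intro i' j'
        have := congrFun (congrFun hg i') j'
        simpa using this
      have hσa : σ a = c * a := by rw [ha]; exact hent i j
      have hmem : ∀ i' j', (g : Matrix (Fin n) (Fin n) F) i' j' / a ∈ F₀ := by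
        intro i' j'
        rw [hfix, map_div₀, hent, hσa, mul_div_mul_left _ _ hc]
      let M₀ : Matrix (Fin n) (Fin n) F₀ := fun i' j' => ⟨_, hmem i' j'⟩
      have hM₀ : M₀.map F₀.subtype = a⁻¹ • (g : Matrix (Fin n) (Fin n) F) := by
        ext i' j'
        simp only [Matrix.map_apply, Matrix.smul_apply, smul_eq_mul]
        show (g : Matrix (Fin n) (Fin n) F) i' j' / a = _
        rw [div_eq_inv_mul]
      have hM₀det : M₀.det ≠ 0 := by
        intro h
        have h1 : (M₀.map F₀.subtype).det = F₀.subtype M₀.det := (RingHom.map_det _ _).symm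
        rw [h, map_zero, hM₀, Matrix.det_smul] at h1
        exact mul_ne_zero (pow_ne_zero _ (inv_ne_zero ha0)) hdet h1
      refine ⟨(Units.mk0 a ha0, Matrix.GeneralLinearGroup.mkOfDetNeZero M₀ hM₀det), ?_⟩
      apply Units.ext
      rw [hΨ]
      show a • M₀.map F₀.subtype = _
      rw [hM₀, smul_smul, mul_inv_cancel₀ ha0, one_smul]
  -- kernel
  let θ : F₀ˣ →* Fˣ × GL (Fin n) F₀ :=
    ((Units.map F₀.subtype.toMonoidHom)⁻¹).prod (Matrix.GeneralLinearGroup.scalar (Fin n))
  have hθ : ∀ t : F₀ˣ, θ t = ((Units.map F₀.subtype.toMonoidHom t)⁻¹,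
      Matrix.GeneralLinearGroup.scalar (Fin n) t) := fun t => rfl
  have hθinj : Function.Injective θ := by
    intro s t hst
    rw [hθ, hθ] at hst
    have h1 := congrArg Prod.fst hst
    simp only [inv_inj] at h1
    have h2 : ((s : F₀) : F) = ((t : F₀) : F) := congrArg Units.val h1
    exact Units.ext (Subtype.ext h2)
  have hker : θ.range = Ψ.ker := by
    ext ⟨μ, g₀⟩
    rw [MonoidHom.mem_ker]
    constructor
    · rintro ⟨t, ht⟩
      rw [hθ] at ht
      obtain ⟨h1, h2⟩ := Prod.mk.inj ht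
      apply Units.ext
      rw [hΨ, ← h1, ← h2]
      ext i j
      simp only [Matrix.smul_apply, Matrix.map_apply, smul_eq_mul, Units.val_one]
      show ((Units.map F₀.subtype.toMonoidHom t)⁻¹ : Fˣ).1 *
        ((Matrix.scalar (Fin n) (t : F₀) i j : F₀) : F) = _
      rw [Matrix.scalar_apply, Matrix.diagonal_apply, Matrix.one_apply]
      by_cases hij : i = j
      · rw [if_pos hij, if_pos hij]
        show ((Units.map F₀.subtype.toMonoidHom t)⁻¹ : Fˣ).1 * ((t : F₀) : F) = 1
        have : ((t : F₀) : F) = ((Units.map F₀.subtype.toMonoidHom t : Fˣ) : F) := rfl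
        rw [this, ← Units.val_mul, inv_mul_cancel, Units.val_one]
      · rw [if_neg hij, if_neg hij]
        simp
    · intro h
      have h1 : (μ : F) • (g₀ : Matrix (Fin n) (Fin n) F₀).map F₀.subtype = 1 := by
        rw [← hΨ, h]; rfl
      have hent : ∀ i j, (μ : F) * (((g₀ : Matrix (Fin n) (Fin n) F₀) i j : F₀) : F) =
          if i = j then 1 else 0 := by
        intro i j
        have := congrFun (congrFun h1 i) j
        simpa [Matrix.one_apply] using this
      have hdiag : ∀ i, (((g₀ : Matrix (Fin n) (Fin n) F₀) i i : F₀) : F) = (μ : F)⁻¹ := by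
        intro i
        have := hent i i
        rw [if_pos rfl] at this
        exact eq_inv_of_mul_eq_one_right this
      have hoff : ∀ i j, i ≠ j → (g₀ : Matrix (Fin n) (Fin n) F₀) i j = 0 := by
        intro i j hij
        have := hent i j
        rw [if_neg hij] at this
        rcases mul_eq_zero.mp this with h | h
        · exact absurd h μ.ne_zero
        · exact Subtype.ext h
      obtain ⟨t₀, ht₀⟩ : ∃ t₀ : F₀, t₀ = (g₀ : Matrix (Fin n) (Fin n) F₀) ⟨0, hnpos⟩ ⟨0, hnpos⟩ :=
        ⟨_, rfl⟩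
      have ht₀F : (t₀ : F) = (μ : F)⁻¹ := by rw [ht₀]; exact hdiag _
      have ht₀0 : t₀ ≠ 0 := by
        intro h
        rw [h] at ht₀F
        exact inv_ne_zero μ.ne_zero ht₀F.symm
      refine ⟨Units.mk0 t₀ ht₀0, ?_⟩
      rw [hθ]
      apply Prod.ext
      · show (Units.map F₀.subtype.toMonoidHom (Units.mk0 t₀ ht₀0))⁻¹ = μ
        rw [inv_eq_iff_eq_inv]
        apply Units.ext
        rw [Units.val_inv_eq_inv_val]
        exact ht₀F
      · show Matrix.GeneralLinearGroup.scalar (Fin n) (Units.mk0 t₀ ht₀0) = g₀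
        apply Units.ext
        ext i j
        show ((Matrix.scalar (Fin n) t₀ i j : F₀) : F) = _
        rw [Matrix.scalar_apply, Matrix.diagonal_apply]
        by_cases hij : i = j
        · subst hij
          rw [if_pos rfl, hdiag, ht₀F]
        · rw [if_neg hij, hoff i j hij]
  have hkercard : Nat.card Ψ.ker = q₀ - 1 := by
    rw [← hker, Nat.card_congr (MonoidHom.ofInjective hθinj).toEquiv.symm, Nat.card_units,
      Nat.card_eq_fintype_card, hq₀]
  have hcount : Nat.card Ψ.ker * Nat.card Ψ.range = Nat.card (Fˣ × GL (Fin n) F₀) := by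
    rw [← Subgroup.index_ker]
    exact Subgroup.card_mul_index _
  have hFc : Nat.card F = q₀ ^ r := by rw [Nat.card_eq_fintype_card, hF]
  rw [Nat.card_prod, Nat.card_units, hkercard, hFc, Matrix.card_GL_field, hq₀] at hcount
  rw [Nat.card_congr (Equiv.subtypeEquivRight (fun g => (hrange g).symm))]
  have hdvd : q₀ - 1 ∣ q₀ ^ r - 1 := Nat.sub_one_dvd_pow_sub_one q₀ r
  have hpos : 0 < q₀ - 1 := by omega
  apply Nat.eq_of_mul_eq_mul_left hpos
  rw [← mul_assoc, Nat.mul_div_cancel' hdvd]
  exact hcount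

end Cfsg.Agent.S2636
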