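import Cfsg.Statements.S2639
import Mathlib
import Cfsg.Agent.Lib.helper13.Embed

set_option autoImplicit false
open Cfsg

open Cfsg.Agent.Lib.helper13

namespace Cfsg.Agent.S2639

/-- The unitary group embeds in the symplectic group of twice the dimension over the subfield: for a field K with q² elements and a field F with q elements (isomorphic to the subfield of K of order q), there is an injective homomorphism GU_m(q) → Sp_2m(F). -/
theorem result {K F : Type*} [Field K] [Fintype K] [Field F] [Fintype F] {q : ℕ} (hK : Fintype.card K = q ^ 2) (hF : Fintype.card F = q) (m : ℕ) : ∃ φ : ↥(Cfsg.GU m K q) →* ↥(Matrix.symplecticGroup (Fin m) F), Function.Injective φ := by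
  classical
  obtain ⟨ι⟩ := exists_ringHom hF hK
  letI : Algebra F K := ι.toAlgebra
  obtain ⟨c, hc0, hc⟩ := exists_skew (F := F) hF hK
  obtain ⟨w₀, hw₀⟩ := exists_tr_ne (F := F) hF hK
  obtain ⟨lam, hlam⟩ : ∃ lam : Module.Dual F K, lam (w₀ + w₀ ^ q) ≠ 0 := by
    by_contra h
    push Not at h
    exact hw₀ ((Module.forall_dual_apply_eq_zero_iff F (w₀ + w₀ ^ q)).mp h)
  let B₁ : LinearMap.BilinForm F (Fin m → K) :=
    (hermBilin K m hF).compr₂ (lam ∘ₗ LinearMap.mulLeft F c)
  let B : LinearMap.BilinForm F (Fin m → K) := B₁ - B₁.flip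
  have hB : ∀ x y, B x y = lam (c * Cfsg.hermForm m K q x y) - lam (c * Cfsg.hermForm m K q y x) :=
    fun x y => rfl
  have hAlt : B.IsAlt := by
    intro x
    rw [hB, sub_self]
  have hsep : ∀ x, (∀ y, B x y = 0) → x = 0 := by
    intro x hx
    by_contra hne
    obtain ⟨i, hi⟩ : ∃ i, x i ≠ 0 := by
      by_contra h
      push Not at h
      exact hne (funext h)
    obtain ⟨μ, hμ⟩ : ∃ μ : K, μ ^ q = w₀ / (c * x i) := ⟨(w₀ / (c * x i)) ^ q, pow_q_q hK _⟩
    have h1 : Cfsg.hermForm m K q x (Pi.single i μ) = w₀ / c := by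
      rw [herm_single_right (F := F) hF, hμ]
      field_simp
    have h2 : Cfsg.hermForm m K q (Pi.single i μ) x = (w₀ / c) ^ q := by
      rw [← h1, herm_conj (F := F) hF hK]
    have h3 := hx (Pi.single i μ)
    rw [hB, h1, h2, div_pow, hc] at h3
    apply hlam
    have e1 : c * (w₀ / c) = w₀ := by field_simp
    have e2 : c * (w₀ ^ q / -c) = -(w₀ ^ q) := by field_simp
    rw [e1, e2, map_neg, sub_neg_eq_add, ← map_add] at h3
    exact h3
  have hNd : B.Nondegenerate :=
    ⟨fun x hx => hsep x hx, fun y hy => hsep y (fun x => by rw [alt_swap B hAlt, hy x, neg_zero])⟩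
  have hfin : Module.finrank F (Fin m → K) = 2 * m := by
    rw [finrank_fun_ext hF hK]
    simp
  have hinj : Function.Injective ((Units.coeHom (Matrix (Fin m) (Fin m) K)).comp
      (Cfsg.GU m K q).subtype) := by
    intro g h hgh
    exact Subtype.ext (Units.ext hgh)
  exact embed_symp (restrHom F ((Units.coeHom (Matrix (Fin m) (Fin m) K)).comp
      (Cfsg.GU m K q).subtype)) (restrHom_injective _ hinj) B hAlt hNd hfin (by
      intro g x y
      rw [hB, hB, restrHom_apply, restrHom_apply]
      have h1 := g.2 x y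
      have h2 := g.2 y x
      rw [show ((Units.coeHom (Matrix (Fin m) (Fin m) K)).comp (Cfsg.GU m K q).subtype) g
        = Units.coeHom (Matrix (Fin m) (Fin m) K) (g : Matrix.GeneralLinearGroup (Fin m) K) from rfl]
      rw [h1, h2])

end Cfsg.Agent.S2639
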