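import Cfsg.Statements.S2641
import Mathlib
import Cfsg.Agent.Lib.helper13.UnitaryQuad

set_option autoImplicit false
open Cfsg

open Cfsg.Agent.Lib.helper13

namespace Cfsg.Agent.S2641

/-- For m odd, the unitary group GU_m(q) (over the field with q² elements) embeds in the orthogonal group O⁻_2m(q) of an elliptic form (Σ_(i<m−1) x_i y_i plus an anisotropic binary form) over the field with q elements (there is an injective homomorphism). -/
theorem result {K F : Type*} [Field K] [Fintype K] [Field F] [Fintype F] {q : ℕ} (hK : Fintype.card K = q ^ 2) (hF : Fintype.card F = q) (m : ℕ) (hm : Odd m) (a b : F) (hab : ∀ z₁ z₂ : F, z₁ ^ 2 + a * z₁ * z₂ + b * z₂ ^ 2 = 0 → z₁ = 0 ∧ z₂ = 0) : ∃ φ : ↥(Cfsg.GU m K q) →* ↥(Cfsg.isometryGroup F (Cfsg.quadFormMinus (m - 1) F a b)), Function.Injective φ := by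
  classical
  obtain ⟨ι⟩ := exists_ringHom hF hK
  letI : Algebra F K := ι.toAlgebra
  have hne1 : (1 : K) ≠ 0 := one_ne_zero
  obtain ⟨lam, hlam⟩ : ∃ lam : Module.Dual F K, lam 1 ≠ 0 := by
    by_contra h
    push Not at h
    exact hne1 ((Module.forall_dual_apply_eq_zero_iff F (1 : K)).mp h)
  have hinj : Function.Injective ((Units.coeHom (Matrix (Fin m) (Fin m) K)).comp
      (Cfsg.GU m K q).subtype) := by
    intro g h hgh
    exact Subtype.ext (Units.ext hgh)
  obtain ⟨ζ, hζ, g, hg⟩ := (unitary_type hF hK lam hlam m).2 hm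
  obtain ⟨T, hT⟩ := minus_to_ab (m - 1) a b hab ζ hζ
  exact embed_isom (restrHom F ((Units.coeHom (Matrix (Fin m) (Fin m) K)).comp
      (Cfsg.GU m K q).subtype)) (restrHom_injective _ hinj) (Cfsg.quadFormMinus (m - 1) F a b)
      (g.trans T) (by
    intro u v
    rw [LinearEquiv.trans_apply, LinearEquiv.trans_apply, hT, hT, ← hg, ← hg, QU_apply, QU_apply,
      restrHom_apply]
    congr 1
    exact u.2 v v)

end Cfsg.Agent.S2641
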