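import Cfsg.Statements.S2643
-- import your own Cfsg.Agent.* helpers here
import Mathlib
import Cfsg.Agent.S2587
import Cfsg.Agent.S2588
import Cfsg.Agent.S2592
import Cfsg.Agent.Lib.helper18.Cyc
import Cfsg.Agent.Lib.helper18.UniForm3

set_option autoImplicit false
open Cfsg

namespace Cfsg.Agent.S2643


open Matrix


open Cfsg.Agent.Lib.helper4 Cfsg.Agent.Lib.helper18.UniForm Cfsg.Agent.Lib.helper18.Cyc
open Cfsg.Agent.S2588

variable {K : Type*} [Field K] {q n : ℕ}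

/-- the matrix of an element of SU -/
def sm (s : ↥(Cfsg.SU n K q)) : Matrix (Fin n) (Fin n) K :=
  ((s : Matrix.SpecialLinearGroup (Fin n) K) : Matrix (Fin n) (Fin n) K)

theorem sm_eq (u : ↥(Cfsg.SU n K q)) :
    ((u : GL (Fin n) K) : Matrix (Fin n) (Fin n) K) = sm u := rfl

theorem sm_mul (s t : ↥(Cfsg.SU n K q)) : sm (s * t) = sm s * sm t := rfl

theorem sm_inj (s t : ↥(Cfsg.SU n K q)) (h : sm s = sm t) : s = t :=
  Subtype.ext (Subtype.ext h)

theorem sm_det (s : ↥(Cfsg.SU n K q)) : (sm s).det = 1 := s.1.2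

theorem sm_pres (s : ↥(Cfsg.SU n K q)) (u v : Fin n → K) :
    Cfsg.hermForm n K q (sm s *ᵥ u) (sm s *ᵥ v) = Cfsg.hermForm n K q u v := s.2 u v

/-- regular unipotent matrices -/
def Reg (M : Matrix (Fin n) (Fin n) K) : Prop := (M - 1) ^ n = 0 ∧ (M - 1).rank = n - 1

theorem reg_rank (hn : 0 < n) (A : Matrix (Fin n) (Fin n) K) (hA : Reg A) (k : ℕ) :
    ((A - 1) ^ k).rank = n - k := by
  rw [rank_eq_finrank]
  apply rank_single
  · rw [Module.finrank_fintype_fun_eq_card, Fintype.card_fin]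
  · rw [← toLin'_pow', hA.1, map_zero]
  · rw [← toLin'_pow']
    intro h
    exact Cfsg.Agent.S2592.reg_pow_ne_zero (A - 1) n (Fintype.card_fin n) hn hA.1 hA.2
      (Matrix.toLin'.injective (by rw [h, map_zero]))

theorem reg_isConj (hn : 0 < n) (A A' : Matrix (Fin n) (Fin n) K) (hA : Reg A) (hA' : Reg A') :
    IsConj A A' :=
  isConj_of_rank A A' ⟨n, hA.1⟩ ⟨n, hA'.1⟩
    (fun k => by rw [reg_rank hn A hA, reg_rank hn A' hA'])

theorem reg_of_isConj (A A' : Matrix (Fin n) (Fin n) K) (h : IsConj A A') (hA : Reg A) :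
    Reg A' := by
  constructor
  · apply eq_zero_of_rank_eq_zero
    rw [conj_rank A A' h n, hA.1, Matrix.rank_zero]
  · have := conj_rank A A' h 1
    rw [pow_one, pow_one] at this
    rw [this, hA.2]

theorem reg_inv (M Mi : Matrix (Fin n) (Fin n) K) (h : M * Mi = 1) (hM : Reg M) : Reg Mi := by
  have h' : Mi * M = 1 := mul_eq_one_comm.mp h
  have e : Mi - 1 = -(Mi * (M - 1)) := by rw [mul_sub, h', mul_one]; abel
  have hc : Commute Mi (M - 1) := by
    have : Commute Mi M := by show Mi * M = M * Mi; rw [h, h']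
    exact this.sub_right (Commute.one_right _)
  constructor
  · rw [e, neg_pow, hc.mul_pow, hM.1, mul_zero, mul_zero]
  · have e' : Mi - 1 = (-Mi) * (M - 1) := by rw [e, neg_mul]
    rw [e', Matrix.rank_mul_eq_right_of_isUnit_det, hM.2]
    exact (Matrix.isUnit_iff_isUnit_det _).mp
      ⟨⟨-Mi, -M, by rw [neg_mul_neg, h'], by rw [neg_mul_neg, h]⟩, rfl⟩

/-- unitary matrices -/
def Un (σ : K →+* K) (M : Matrix (Fin n) (Fin n) K) : Prop := st σ M * M = 1

theorem un_mul (σ : K →+* K) (M N : Matrix (Fin n) (Fin n) K) (hM : Un σ M) (hN : Un σ N) :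
    Un σ (M * N) := by
  unfold Un at *
  calc st σ (M * N) * (M * N) = st σ N * (st σ M * M) * N := by rw [st_mul]; simp only [mul_assoc]
    _ = 1 := by rw [hM, mul_one, hN]

theorem un_st (σ : K →+* K) (hσ2 : ∀ a, σ (σ a) = a) (M : Matrix (Fin n) (Fin n) K)
    (hM : Un σ M) : Un σ (st σ M) := by
  unfold Un at *
  rw [st_st σ hσ2]
  exact mul_eq_one_comm.mp hM

theorem st_zero (σ : K →+* K) : st σ (0 : Matrix (Fin n) (Fin n) K) = 0 := by
  ext i j; simp [st_apply]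

theorem det_st (σ : K →+* K) (M : Matrix (Fin n) (Fin n) K) : (st σ M).det = σ M.det := by
  unfold st
  rw [Matrix.det_transpose, RingHom.map_det]
  rfl

theorem un_det_mul (σ : K →+* K) (M : Matrix (Fin n) (Fin n) K) (hM : Un σ M) :
    (st σ M).det * M.det = 1 := by
  rw [← Matrix.det_mul, hM, Matrix.det_one]

theorem un_det (σ : K →+* K) (hσq : ∀ x, σ x = x ^ q) (M : Matrix (Fin n) (Fin n) K)
    (hM : Un σ M) : M.det ^ (q + 1) = 1 := by
  have := un_det_mul σ M hM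
  rw [det_st, hσq] at this
  rw [pow_succ, this]

theorem det_of_nilp (M : Matrix (Fin n) (Fin n) K) (a : K)
    (h : IsNilpotent (M - a • (1 : Matrix (Fin n) (Fin n) K))) : M.det = a ^ n := by
  have h1 : M - a • (1 : Matrix (Fin n) (Fin n) K) = M - Matrix.scalar (Fin n) a := by
    rw [Matrix.smul_one_eq_diagonal]; rfl
  rw [h1] at h
  have h2 := Matrix.isNilpotent_charpoly_sub_pow_of_isNilpotent h
  have h3 : (M - Matrix.scalar (Fin n) a).charpoly = Polynomial.X ^ Fintype.card (Fin n) :=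
    sub_eq_zero.mp (IsNilpotent.eq_zero h2)
  rw [Matrix.charpoly_sub_scalar, Fintype.card_fin] at h3
  have h4 : M.charpoly.eval 0 = (-a) ^ n := by
    have := congrArg (Polynomial.eval (-a)) h3
    rw [Polynomial.eval_comp, Polynomial.eval_add, Polynomial.eval_X, Polynomial.eval_C,
      neg_add_cancel, Polynomial.eval_pow, Polynomial.eval_X] at this
    exact this
  rw [Matrix.det_eq_sign_charpoly_coeff, Polynomial.coeff_zero_eq_eval_zero, h4, Fintype.card_fin,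
    ← mul_pow]
  simp

theorem cent_det (hn : 0 < n) (σ : K →+* K) (hσq : ∀ x, σ x = x ^ q)
    (A c : Matrix (Fin n) (Fin n) K) (hA : Reg A) (hc : Un σ c) (hcA : c * A = A * c) :
    ∃ c₀ : K, c₀ ^ (q + 1) = 1 ∧ c.det = c₀ ^ n := by
  have hY1 := Cfsg.Agent.S2592.reg_pow_ne_zero (A - 1) n (Fintype.card_fin n) hn hA.1 hA.2
  have hcN : c * (A - 1) = (A - 1) * c := by rw [mul_sub, sub_mul, hcA, mul_one, one_mul]
  obtain ⟨co, hco⟩ := comm_eq_PY (A - 1) n (Fintype.card_fin n) hA.1 hY1 c hcN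
  set c₀ := co ⟨0, hn⟩ with hc₀
  have hnil : IsNilpotent (c - c₀ • (1 : Matrix (Fin n) (Fin n) K)) := by
    rw [hco]; exact PY_nilp (A - 1) n hn hA.1 co
  refine ⟨c₀, ?_, det_of_nilp c c₀ hnil⟩
  have hc' : st σ c * c = 1 := hc
  have hci : c * st σ c = 1 := mul_eq_one_comm.mp hc'
  set N₁ := c - c₀ • (1 : Matrix (Fin n) (Fin n) K) with hN₁
  have hstN : IsNilpotent (st σ N₁) := by
    obtain ⟨k, hk⟩ := hnil
    exact ⟨k, by rw [← st_pow, hk, st_zero]⟩
  have hN2 : IsNilpotent (st σ c * N₁) := by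
    obtain ⟨k, hk⟩ := hnil
    have hcm : Commute (st σ c) N₁ := by
      have : Commute (st σ c) c := by show st σ c * c = c * st σ c; rw [hci, hc']
      exact this.sub_right ((Commute.one_right _).smul_right c₀)
    exact ⟨k, by rw [hcm.mul_pow, hk, mul_zero]⟩
  have e1 : st σ N₁ = st σ c - σ c₀ • (1 : Matrix (Fin n) (Fin n) K) := by
    rw [hN₁, st_sub, st_smul, st_one]
  have e2 : st σ c * N₁ = 1 - c₀ • st σ c := by
    rw [hN₁, mul_sub, hc', mul_smul_comm, mul_one]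
  have e3 : (1 - c₀ * σ c₀) • (1 : Matrix (Fin n) (Fin n) K) = st σ c * N₁ + c₀ • st σ N₁ := by
    rw [e1, e2, smul_sub, smul_smul, sub_smul, one_smul]; abel
  have hcomm : Commute (st σ c * N₁) (c₀ • st σ N₁) := by
    rw [e1, e2]
    have h1 : Commute (st σ c) (st σ c - σ c₀ • (1 : Matrix (Fin n) (Fin n) K)) :=
      (Commute.refl _).sub_right ((Commute.one_right _).smul_right _)
    have h2 : Commute (1 : Matrix (Fin n) (Fin n) K)
        (st σ c - σ c₀ • (1 : Matrix (Fin n) (Fin n) K)) := Commute.one_left _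
    exact (h2.sub_left (h1.smul_left c₀)).smul_right c₀
  have hnil3 : IsNilpotent ((1 - c₀ * σ c₀) • (1 : Matrix (Fin n) (Fin n) K)) := by
    rw [e3]
    exact hcomm.isNilpotent_add hN2 (hstN.smul c₀)
  obtain ⟨k, hk⟩ := hnil3
  rw [smul_pow, one_pow] at hk
  have h5 := congrFun (congrFun hk ⟨0, hn⟩) ⟨0, hn⟩
  rw [Matrix.smul_apply, Matrix.one_apply_eq, smul_eq_mul, mul_one, Matrix.zero_apply] at h5
  have h0 : 1 - c₀ * σ c₀ = 0 := pow_eq_zero_iff (n := k) (by
    rintro rfl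
    simp at h5) |>.mp h5
  rw [hσq] at h0
  rw [pow_succ']
  linear_combination -h0

/-- diagonal matrix `diag(a, 1, …, 1)` -/
def Dg (hn : 0 < n) (a : K) : Matrix (Fin n) (Fin n) K :=
  Matrix.diagonal (Function.update (fun _ => (1 : K)) ⟨0, hn⟩ a)

theorem Dg_mul (hn : 0 < n) (a b : K) : Dg hn a * Dg hn b = Dg hn (a * b) := by
  unfold Dg
  rw [Matrix.diagonal_mul_diagonal]
  congr 1
  ext i
  by_cases h : i = ⟨0, hn⟩
  · subst h; simp
  · simp [Function.update_of_ne h]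

theorem Dg_one (hn : 0 < n) : Dg hn (1 : K) = 1 := by
  unfold Dg
  rw [Function.update_eq_self_iff.mpr rfl]
  exact Matrix.diagonal_one

theorem st_Dg (hn : 0 < n) (σ : K →+* K) (a : K) : st σ (Dg hn a) = Dg hn (σ a) := by
  ext i j
  rw [st_apply]
  unfold Dg
  by_cases hij : i = j
  · subst hij
    rw [Matrix.diagonal_apply_eq, Matrix.diagonal_apply_eq]
    by_cases h : i = ⟨0, hn⟩
    · subst h; simp
    · simp [Function.update_of_ne h]
  · rw [Matrix.diagonal_apply_ne _ hij, Matrix.diagonal_apply_ne _ (fun h => hij h.symm), map_zero]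

theorem det_Dg (hn : 0 < n) (a : K) : (Dg hn a).det = a := by
  unfold Dg
  rw [Matrix.det_diagonal, Finset.prod_update_of_mem (Finset.mem_univ _)]
  simp

/-- conjugate by a unitary matrix -/
def cj (σ : K →+* K) (g U : Matrix (Fin n) (Fin n) K) : Matrix (Fin n) (Fin n) K :=
  g * U * st σ g

theorem cj_un (σ : K →+* K) (hσ2 : ∀ a, σ (σ a) = a) (g U : Matrix (Fin n) (Fin n) K)
    (hg : Un σ g) (hU : Un σ U) : Un σ (cj σ g U) :=
  un_mul σ _ _ (un_mul σ _ _ hg hU) (un_st σ hσ2 g hg)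

theorem cj_det (σ : K →+* K) (g U : Matrix (Fin n) (Fin n) K) (hg : Un σ g) :
    (cj σ g U).det = U.det := by
  unfold cj
  rw [Matrix.det_mul, Matrix.det_mul]
  have := un_det_mul σ g hg
  linear_combination U.det * this

theorem cj_reg (σ : K →+* K) (g U : Matrix (Fin n) (Fin n) K) (hg : Un σ g) (hU : Reg U) :
    Reg (cj σ g U) := by
  have hg' : st σ g * g = 1 := hg
  have hg2 : g * st σ g = 1 := mul_eq_one_comm.mp hg'
  apply reg_of_isConj U _ _ hU
  refine ⟨⟨g, st σ g, hg2, hg'⟩, ?_⟩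
  show g * U = cj σ g U * g
  unfold cj
  rw [mul_assoc, hg', mul_one]


theorem key1 (σ : K →+* K) (hσq : ∀ x, σ x = x ^ q) (hσ2 : ∀ a, σ (σ a) = a)
    (g g' U : Matrix (Fin n) (Fin n) K) (hg : Un σ g) (hg' : Un σ g') (c₀ : K)
    (hc₀ : c₀ ^ (q + 1) = 1) (hdet : g.det = g'.det * c₀ ^ n) :
    ∃ s : Matrix (Fin n) (Fin n) K, Un σ s ∧ s.det = 1 ∧ s * cj σ g' U = cj σ g U * s := by
  have hg1 : st σ g * g = 1 := hg
  have hg1' : st σ g' * g' = 1 := hg'
  have hg2' : g' * st σ g' = 1 := mul_eq_one_comm.mp hg1'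
  have hcc : σ c₀ * c₀ = 1 := by rw [hσq, ← pow_succ]; exact hc₀
  refine ⟨σ c₀ • (g * st σ g'), ?_, ?_, ?_⟩
  · unfold Un
    rw [st_smul, hσ2, st_mul, st_st σ hσ2, smul_mul_smul_comm, mul_comm c₀, hcc, one_smul]
    calc g' * st σ g * (g * st σ g') = g' * (st σ g * g) * st σ g' := by simp only [mul_assoc]
      _ = 1 := by rw [hg1, mul_one, hg2']
  · rw [Matrix.det_smul, Fintype.card_fin, Matrix.det_mul, hdet]
    have h1 := un_det_mul σ g' hg'
    have h2 : (σ c₀) ^ n * c₀ ^ n = 1 := by rw [← mul_pow, hcc, one_pow]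
    linear_combination (σ c₀) ^ n * c₀ ^ n * h1 + h2
  · unfold cj
    rw [smul_mul_assoc, mul_smul_comm]
    congr 1
    calc g * st σ g' * (g' * U * st σ g') = g * (st σ g' * g') * U * st σ g' := by
          simp only [mul_assoc]
      _ = g * U * (st σ g * g) * st σ g' := by rw [hg1', mul_one, hg1, mul_one]
      _ = g * U * st σ g * (g * st σ g') := by simp only [mul_assoc]

theorem key2 (hn : 0 < n) (σ : K →+* K) (hσq : ∀ x, σ x = x ^ q) (hσ2 : ∀ a, σ (σ a) = a)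
    (g g' U s : Matrix (Fin n) (Fin n) K) (hg : Un σ g) (hg' : Un σ g') (hs : Un σ s)
    (hsd : s.det = 1) (hU : Reg U) (h : s * cj σ g' U = cj σ g U * s) :
    ∃ c₀ : K, c₀ ^ (q + 1) = 1 ∧ g.det = g'.det * c₀ ^ n := by
  have hg1 : st σ g * g = 1 := hg
  have hg1' : st σ g' * g' = 1 := hg'
  have hcu : Un σ (st σ g * s * g') := un_mul σ _ _ (un_mul σ _ _ (un_st σ hσ2 g hg) hs) hg'
  have hcomm : (st σ g * s * g') * U = U * (st σ g * s * g') := by
    calc (st σ g * s * g') * U = st σ g * s * (g' * U * (st σ g' * g')) := by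
          rw [hg1', mul_one, mul_assoc]
      _ = st σ g * (s * (g' * U * st σ g')) * g' := by simp only [mul_assoc]
      _ = st σ g * (g * U * st σ g * s) * g' := by
          have h' : s * (g' * U * st σ g') = g * U * st σ g * s := h
          rw [h']
      _ = (st σ g * g) * U * (st σ g * s * g') := by simp only [mul_assoc]
      _ = U * (st σ g * s * g') := by rw [hg1, one_mul]
  obtain ⟨c₁, hc₁, hdc⟩ := cent_det hn σ hσq U _ hU hcu hcomm
  rw [Matrix.det_mul, Matrix.det_mul, hsd, mul_one] at hdc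
  have hcc : c₁ * σ c₁ = 1 := by rw [hσq, ← pow_succ']; exact hc₁
  refine ⟨σ c₁, ?_, ?_⟩
  · rw [← map_pow, hc₁, map_one]
  · have h1 := un_det_mul σ g hg
    have h2 : c₁ ^ n * (σ c₁) ^ n = 1 := by rw [← mul_pow, hcc, one_pow]
    linear_combination (-g.det) * h2 + σ c₁ ^ n * g'.det * h1 - σ c₁ ^ n * g.det * hdc

/-- an element of `SU` from a unitary matrix of determinant one -/
def mkSU (σ : K →+* K) (hσq : ∀ x, σ x = x ^ q) (M : Matrix (Fin n) (Fin n) K)
    (hdet : M.det = 1) (hU : Un σ M) : ↥(Cfsg.SU n K q) :=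
  ⟨⟨M, hdet⟩, fun u v => gu_of_st σ hσq M hU u v⟩

theorem sm_mkSU (σ : K →+* K) (hσq : ∀ x, σ x = x ^ q) (M : Matrix (Fin n) (Fin n) K)
    (hdet : M.det = 1) (hU : Un σ M) : sm (mkSU σ hσq M hdet hU) = M := rfl

theorem sm_un (σ : K →+* K) (hσq : ∀ x, σ x = x ^ q) (s : ↥(Cfsg.SU n K q)) : Un σ (sm s) :=
  st_of_gu σ hσq _ (sm_pres s)

/-- an element of `GU` from a unitary matrix -/
def mkGU (σ : K →+* K) (hσq : ∀ x, σ x = x ^ q) (M : Matrix (Fin n) (Fin n) K)
    (hU : Un σ M) : ↥(Cfsg.GU n K q) :=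
  ⟨⟨M, st σ M, mul_eq_one_comm.mp hU, hU⟩, fun u v => gu_of_st σ hσq M hU u v⟩

theorem gu_conj_reg [Fintype K] (hK : Fintype.card K = q ^ 2) (hn : 0 < n) (σ : K →+* K)
    (hσq : ∀ x, σ x = x ^ q)
    (M M' : Matrix (Fin n) (Fin n) K) (hM : Un σ M) (hM' : Un σ M') (hR : Reg M) (hR' : Reg M') :
    ∃ g : Matrix (Fin n) (Fin n) K, Un σ g ∧ g * M = M' * g := by
  obtain ⟨c, hc⟩ := reg_isConj hn M M' hR hR'
  have h1 : IsConj ((mkGU σ hσq M hM : ↥(Cfsg.GU n K q)) : GL (Fin n) K)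
      ((mkGU σ hσq M' hM' : ↥(Cfsg.GU n K q)) : GL (Fin n) K) := by
    rw [isConj_iff]
    refine ⟨c, Units.ext ?_⟩
    show (c : Matrix (Fin n) (Fin n) K) * M * ((c⁻¹ : (Matrix (Fin n) (Fin n) K)ˣ) : Matrix (Fin n) (Fin n) K) = M'
    rw [hc.eq, mul_assoc, Units.mul_inv, mul_one]
  have h2 := (Cfsg.Agent.S2587.result hK _ _).mpr h1
  obtain ⟨g, hg⟩ := isConj_iff.mp h2
  refine ⟨((g : GL (Fin n) K) : Matrix (Fin n) (Fin n) K), st_of_gu σ hσq _ g.2, ?_⟩
  have h3 : g * mkGU σ hσq M hM = mkGU σ hσq M' hM' * g := mul_inv_eq_iff_eq_mul.mp hg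
  have h4 := congrArg (fun z : ↥(Cfsg.GU n K q) => ((z : GL (Fin n) K) : Matrix (Fin n) (Fin n) K)) h3
  exact h4

theorem exists_reg [Fintype K] (hK : Fintype.card K = q ^ 2) (hn : 0 < n) (σ : K →+* K)
    (hσq : ∀ x, σ x = x ^ q) :
    ∃ U₀ : Matrix (Fin n) (Fin n) K, Un σ U₀ ∧ Reg U₀ ∧ U₀.det = 1 := by
  classical
  set J₀ : Matrix (Fin n) (Fin n) K := 1 + Sh K n with hJ₀
  have hJ : Reg J₀ := by
    constructor
    · rw [hJ₀, add_sub_cancel_left, Sh_pow_self]
    · rw [hJ₀, add_sub_cancel_left]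
      have := rank_Sh_pow (F := K) n hn 1
      rw [pow_one] at this
      exact this
  have hJu : IsUnit J₀ := IsNilpotent.isUnit_one_add ⟨n, Sh_pow_self n⟩
  set A₀ : GL (Fin n) K := hJu.unit with hA₀
  have hA₀v : (A₀ : Matrix (Fin n) (Fin n) K) = J₀ := IsUnit.unit_spec hJu
  have hmap : ((A₀ : Matrix (Fin n) (Fin n) K).map (fun x : K => x ^ q)).transpose = st σ J₀ := by
    rw [hA₀v]
    unfold st
    congr 1
    ext i j
    simp [hσq]
  have hShσ : st σ (Sh K n) = (Sh K n)ᵀ := by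
    ext i j
    rw [st_apply, Matrix.transpose_apply]
    unfold Sh
    split_ifs <;> simp
  have hstJ : Reg (st σ J₀) := by
    have e : st σ J₀ - 1 = (Sh K n)ᵀ := by
      rw [hJ₀, st_add, st_one, add_sub_cancel_left, hShσ]
    constructor
    · rw [e, ← Matrix.transpose_pow, Sh_pow_self, Matrix.transpose_zero]
    · rw [e, Matrix.rank_transpose]
      have := rank_Sh_pow (F := K) n hn 1
      rw [pow_one] at this
      exact this
  have hstu : IsUnit (st σ J₀) := by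
    have : st σ J₀ = 1 + (st σ J₀ - 1) := by abel
    rw [this]
    exact IsNilpotent.isUnit_one_add ⟨n, hstJ.1⟩
  have hinv : st σ J₀ * (st σ J₀)⁻¹ = 1 :=
    Matrix.mul_nonsing_inv _ ((Matrix.isUnit_iff_isUnit_det _).mp hstu)
  have hRinv : Reg (st σ J₀)⁻¹ := reg_inv _ _ hinv hstJ
  have hconj : IsConj (A₀ : Matrix (Fin n) (Fin n) K)
      (((A₀ : Matrix (Fin n) (Fin n) K).map (fun x : K => x ^ q)).transpose)⁻¹ := by
    rw [hmap, hA₀v]
    exact reg_isConj hn _ _ hJ hRinv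
  obtain ⟨B, hB⟩ := (Cfsg.Agent.S2588.result hK A₀).mpr hconj
  obtain ⟨c, hc⟩ := isConj_iff.mp hB
  have hBreg : Reg ((B : GL (Fin n) K) : Matrix (Fin n) (Fin n) K) := by
    apply reg_of_isConj J₀ _ _ hJ
    refine ⟨c, ?_⟩
    show (c : Matrix (Fin n) (Fin n) K) * J₀ = ((B : GL (Fin n) K) : Matrix (Fin n) (Fin n) K) * (c : Matrix (Fin n) (Fin n) K)
    have h3 : c * A₀ = (B : GL (Fin n) K) * c := mul_inv_eq_iff_eq_mul.mp hc
    have h4 := congrArg (fun z : GL (Fin n) K => (z : Matrix (Fin n) (Fin n) K)) h3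
    rw [← hA₀v]
    exact h4
  refine ⟨((B : GL (Fin n) K) : Matrix (Fin n) (Fin n) K), st_of_gu σ hσq _ B.2, hBreg, ?_⟩
  have := det_of_nilp ((B : GL (Fin n) K) : Matrix (Fin n) (Fin n) K) 1 (by
    rw [one_smul]; exact ⟨n, hBreg.1⟩)
  rw [this, one_pow]

theorem card_of_surj {M T : Type*} [Group M] (P : Subgroup M) (f : M → T)
    (hs : Function.Surjective f) (hf : ∀ x y, f x = f y ↔ x⁻¹ * y ∈ P) :
    Nat.card T = P.index := by
  rw [Subgroup.index]
  symm
  apply Nat.card_congr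
  refine Equiv.ofBijective (Quotient.lift f
    (fun a b h => (hf a b).mpr (QuotientGroup.leftRel_apply.mp h))) ⟨?_, ?_⟩
  · intro a b
    induction a using Quotient.inductionOn with
    | _ a =>
      induction b using Quotient.inductionOn with
      | _ b =>
        intro h
        exact Quotient.sound (QuotientGroup.leftRel_apply.mpr ((hf a b).mp h))
  · intro t
    obtain ⟨x, hx⟩ := hs t
    exact ⟨Quotient.mk _ x, hx⟩


/-- the norm-one elements of `K` -/
def Gq (K : Type*) [Field K] (q : ℕ) : Subgroup Kˣ := (powMonoidHom (q + 1) : Kˣ →* Kˣ).ker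

theorem mem_Gq (x : Kˣ) : x ∈ Gq K q ↔ (x : K) ^ (q + 1) = 1 := by
  unfold Gq
  rw [MonoidHom.mem_ker, powMonoidHom_apply, Units.ext_iff, Units.val_pow_eq_pow_val, Units.val_one]

theorem card_Gq [Fintype K] (hK : Fintype.card K = q ^ 2) : Nat.card (Gq K q) = q + 1 := by
  classical
  unfold Gq
  rw [IsCyclic.card_powMonoidHom_ker, Nat.card_eq_fintype_card, Fintype.card_units, hK]
  apply Nat.gcd_eq_right
  have hq : 1 ≤ q := by
    rcases Nat.eq_zero_or_pos q with h | h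
    · subst h
      have := Fintype.card_pos (α := K)
      rw [hK] at this
      simp at this
    · exact h
  obtain ⟨r, rfl⟩ : ∃ r, q = r + 1 := ⟨q - 1, by omega⟩
  refine ⟨r, ?_⟩
  apply Nat.sub_eq_of_eq_add
  ring

theorem main {K : Type*} [Field K] [Fintype K] {q n : ℕ} (hK : Fintype.card K = q ^ 2) (hn : 2 ≤ n) : Nat.card {C : ConjClasses ↥(Cfsg.SU n K q) // ∃ u : ↥(Cfsg.SU n K q), ConjClasses.mk u = C ∧ (((u : GL (Fin n) K) : Matrix (Fin n) (Fin n) K) - 1) ^ n = 0 ∧ (((u : GL (Fin n) K) : Matrix (Fin n) (Fin n) K) - 1).rank = n - 1} = Nat.gcd n (q + 1) := by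
  classical
  have hn0 : 0 < n := by omega
  set σ := ufrob hK with hσdef
  have hσq : ∀ x, σ x = x ^ q := ufrob_apply hK
  have hσ2 : ∀ a, σ (σ a) = a := ufrob_invol hK
  obtain ⟨U₀, hU₀, hR₀, hd₀⟩ := exists_reg hK hn0 σ hσq
  have hG : ∀ x : Gq K q, ((x : Kˣ) : K) ^ (q + 1) = 1 := fun x => (mem_Gq _).mp x.2
  have hGσ : ∀ x : Gq K q, σ ((x : Kˣ) : K) * ((x : Kˣ) : K) = 1 := by
    intro x; rw [hσq, ← pow_succ]; exact hG x
  have hDU : ∀ x : Gq K q, Un σ (Dg hn0 ((x : Kˣ) : K)) := by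
    intro x
    unfold Un
    rw [st_Dg, Dg_mul, hGσ, Dg_one]
  let w : Gq K q → ↥(Cfsg.SU n K q) := fun x =>
    mkSU σ hσq (cj σ (Dg hn0 ((x : Kˣ) : K)) U₀)
      (by rw [cj_det σ _ _ (hDU x), hd₀]) (cj_un σ hσ2 _ _ (hDU x) hU₀)
  have hw : ∀ x : Gq K q, sm (w x) = cj σ (Dg hn0 ((x : Kˣ) : K)) U₀ := fun x => rfl
  have hwreg : ∀ x : Gq K q, Reg (sm (w x)) := fun x => by
    rw [hw]; exact cj_reg σ _ _ (hDU x) hR₀
  let f : Gq K q → {C : ConjClasses ↥(Cfsg.SU n K q) // ∃ u : ↥(Cfsg.SU n K q), ConjClasses.mk u = C ∧ (((u : GL (Fin n) K) : Matrix (Fin n) (Fin n) K) - 1) ^ n = 0 ∧ (((u : GL (Fin n) K) : Matrix (Fin n) (Fin n) K) - 1).rank = n - 1} :=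
    fun x => ⟨ConjClasses.mk (w x), w x, rfl, hwreg x⟩
  have hconj_of : ∀ (a b : ↥(Cfsg.SU n K q)) (s : Matrix (Fin n) (Fin n) K), Un σ s →
      s.det = 1 → s * sm a = sm b * s → IsConj a b := by
    intro a b s hs hsd h
    rw [isConj_iff]
    refine ⟨mkSU σ hσq s hsd hs, ?_⟩
    rw [mul_inv_eq_iff_eq_mul]
    apply sm_inj
    rw [sm_mul, sm_mul, sm_mkSU]
    exact h
  have hP : ∀ x y : Gq K q, f x = f y ↔ x⁻¹ * y ∈ (powMonoidHom n : Gq K q →* Gq K q).range := by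
    intro x y
    constructor
    · intro h
      have h1 : ConjClasses.mk (w x) = ConjClasses.mk (w y) := congrArg Subtype.val h
      rw [ConjClasses.mk_eq_mk_iff_isConj, isConj_iff] at h1
      obtain ⟨s, hs⟩ := h1
      have h2 : s * w x = w y * s := mul_inv_eq_iff_eq_mul.mp hs
      have h3 : sm s * sm (w x) = sm (w y) * sm s := by rw [← sm_mul, ← sm_mul, h2]
      rw [hw, hw] at h3
      obtain ⟨c₀, hc₀, hdet⟩ := key2 hn0 σ hσq hσ2 _ _ U₀ (sm s) (hDU y) (hDU x)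
        (sm_un σ hσq s) (sm_det s) hR₀ h3
      rw [det_Dg, det_Dg] at hdet
      have hc0 : c₀ ≠ 0 := by
        rintro rfl
        rw [zero_pow (by omega)] at hc₀
        exact zero_ne_one hc₀
      refine ⟨⟨Units.mk0 c₀ hc0, (mem_Gq _).mpr (by rw [Units.val_mk0]; exact hc₀)⟩, ?_⟩
      rw [powMonoidHom_apply]
      apply Subtype.ext
      apply Units.ext
      simp only [Subgroup.coe_pow, Subgroup.coe_mul, Subgroup.coe_inv, Units.val_pow_eq_pow_val,
        Units.val_mul, Units.val_inv_eq_inv_val, Units.val_mk0]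
      rw [hdet, ← mul_assoc, inv_mul_cancel₀ (Units.ne_zero _), one_mul]
    · rintro ⟨z, hz⟩
      have hz' : ((y : Kˣ) : K) = ((x : Kˣ) : K) * ((z : Kˣ) : K) ^ n := by
        have h1 : y = x * z ^ n := by
          rw [powMonoidHom_apply] at hz
          rw [hz, mul_inv_cancel_left]
        rw [h1]
        simp only [Subgroup.coe_pow, Subgroup.coe_mul, Units.val_pow_eq_pow_val, Units.val_mul]
      obtain ⟨s, hs, hsd, hsc⟩ := key1 σ hσq hσ2 (Dg hn0 ((y : Kˣ) : K)) (Dg hn0 ((x : Kˣ) : K))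
        U₀ (hDU y) (hDU x) ((z : Kˣ) : K) (hG z) (by rw [det_Dg, det_Dg, hz'])
      apply Subtype.ext
      show ConjClasses.mk (w x) = ConjClasses.mk (w y)
      rw [ConjClasses.mk_eq_mk_iff_isConj]
      exact hconj_of (w x) (w y) s hs hsd (by rw [hw, hw]; exact hsc)
  have hsurj : Function.Surjective f := by
    rintro ⟨C, u, hu, hreg⟩
    have hreg' : Reg (sm u) := hreg
    obtain ⟨g, hg, hgU⟩ := gu_conj_reg hK hn0 σ hσq U₀ (sm u) hU₀ (sm_un σ hσq u) hR₀ hreg'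
    have hg1 : st σ g * g = 1 := hg
    have hg2 : g * st σ g = 1 := mul_eq_one_comm.mp hg1
    have hsmu : sm u = cj σ g U₀ := by
      unfold cj; rw [hgU, mul_assoc, hg2, mul_one]
    have hdg : g.det ^ (q + 1) = 1 := un_det σ hσq g hg
    have hd0 : g.det ≠ 0 := by
      intro h0; rw [h0, zero_pow (by omega)] at hdg; exact zero_ne_one hdg
    obtain ⟨x, hx⟩ : ∃ x : Gq K q, ((x : Kˣ) : K) = g.det :=
      ⟨⟨Units.mk0 g.det hd0, (mem_Gq _).mpr (by rw [Units.val_mk0]; exact hdg)⟩, rfl⟩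
    obtain ⟨s, hs, hsd, hsc⟩ := key1 σ hσq hσ2 g (Dg hn0 ((x : Kˣ) : K)) U₀ hg (hDU x) 1
      (one_pow _) (by rw [det_Dg, one_pow, mul_one, hx])
    refine ⟨x, ?_⟩
    apply Subtype.ext
    show ConjClasses.mk (w x) = C
    rw [← hu, ConjClasses.mk_eq_mk_iff_isConj]
    exact hconj_of (w x) u s hs hsd (by rw [hw, hsmu]; exact hsc)
  refine (card_of_surj _ f hsurj hP).trans ?_
  rw [IsCyclic.index_powMonoidHom_range, card_Gq hK, Nat.gcd_comm]



/-- Regular unipotent classes of SU_n(q), n ≥ 2: the elements u of the special unitary group (isometries of Σ u_i v_i^q of determinant one over the field with q² elements) with (u − 1)^n = 0 and rank(u − 1) = n − 1 form exactly gcd(n, q + 1) conjugacy classes of SU_n(q). -/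
theorem result {K : Type*} [Field K] [Fintype K] {q n : ℕ} (hK : Fintype.card K = q ^ 2) (hn : 2 ≤ n) : Nat.card {C : ConjClasses ↥(Cfsg.SU n K q) // ∃ u : ↥(Cfsg.SU n K q), ConjClasses.mk u = C ∧ (((u : GL (Fin n) K) : Matrix (Fin n) (Fin n) K) - 1) ^ n = 0 ∧ (((u : GL (Fin n) K) : Matrix (Fin n) (Fin n) K) - 1).rank = n - 1} = Nat.gcd n (q + 1) := by
  exact main hK hn

end Cfsg.Agent.S2643
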