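import Cfsg.Statements.S2644
-- import your own Cfsg.Agent.* helpers here
import Cfsg.Agent.Lib.helper4.URank

set_option autoImplicit false
open Cfsg

namespace Cfsg.Agent.S2644

/-- In the special unitary group SU_n(q) with n ≥ 3 (isometries of Σ u_i v_i^q of determinant one over the field with q² elements), any two transvections (elements t with t − 1 of rank one and square zero) are conjugate. -/
theorem result {K : Type*} [Field K] [Fintype K] {q n : ℕ} (hK : Fintype.card K = q ^ 2) (hn : 3 ≤ n) (s t : ↥(Cfsg.SU n K q)) (hs : Cfsg.IsTransvection (((s : GL (Fin n) K) : Matrix (Fin n) (Fin n) K))) (ht : Cfsg.IsTransvection (((t : GL (Fin n) K) : Matrix (Fin n) (Fin n) K))) : IsConj s t := by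
  classical
  have hs1 : (Cfsg.Agent.Lib.helper4.suM s - 1).rank = 1 := hs.1
  have ht1 : (Cfsg.Agent.Lib.helper4.suM t - 1).rank = 1 := ht.1
  obtain ⟨a, c, ha0, hc0, ha, hc, rfl⟩ := Cfsg.Agent.Lib.helper4.rank_one_su hK s hs1
  obtain ⟨a', c', ha'0, hc'0, ha', hc', rfl⟩ := Cfsg.Agent.Lib.helper4.rank_one_su hK t ht1
  obtain ⟨g, hg⟩ := Cfsg.Agent.Lib.helper4.su_tv_conj hK hn a a' c c' ha0 ha hc0 hc ha'0 ha' hc'0 hc'
  rw [isConj_iff]
  exact ⟨g, hg⟩

end Cfsg.Agent.S2644
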