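import Cfsg.Statements.S2662
import Cfsg.Agent.Lib.helper11d.Fld4
import Cfsg.Agent.Lib.helper11b.HCardOK

set_option autoImplicit false
open scoped MatrixGroups
open Cfsg

namespace Cfsg.Agent.S2662
open Cfsg.Agent.Lib.helper11 Cfsg.Lie

/-- Centralizers of field automorphisms of prime order, type E₈. Let `F` be a finite field and `G` the Chevalley group of type E₈ over `F` (for this type the group generated by the root elements is the whole group of rational points, with trivial centre). Let `φ` be a field automorphism of `G` (it sends each root element `x_s(t)` to `x_s(σ t)` for a fixed automorphism `σ` of `F`) whose order is a prime `r`. Then `F` has `q₀ ^ r` elements for some prime power `q₀`, and the subgroup of elements fixed by `φ` is isomorphic to the Chevalley group of type E₈ over a field with `q₀` elements. -/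
theorem result {F : Type*} [Field F] [Fintype F]
    (φ : MulAut ↥(Cfsg.Lie.chevE8.group F)) (hφ : Cfsg.Lie.chevE8.IsFieldAut φ) (r : ℕ) (hr : r.Prime) (ho : orderOf φ = r) :
    ∃ (F₀ : Type) (_ : Field F₀) (_ : Fintype F₀), Fintype.card F = Fintype.card F₀ ^ r ∧
      Nonempty (↥((MulEquiv.toMonoidHom φ).eqLocus (MonoidHom.id ↥(Cfsg.Lie.chevE8.group F))) ≃* ↥(Cfsg.Lie.chevE8.group F₀)) := by
  exact fld_main chevE8 (by simp)
    (fld_sdiag_inj chevE8 (by simp) 8 rfl _ _ _ _ hsnf1_E8 (by decide) hsnf2_E8)
    ⟨6, by decide, fld_x_inj chevE8 0 6 (by decide) (by decide) (by decide +kernel)⟩ φ hφ r ho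

end Cfsg.Agent.S2662
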