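import Cfsg.Statements.S2665
import Mathlib
import Cfsg.Agent.Lib.helper13.LangGL

set_option autoImplicit false
open scoped MatrixGroups
open Cfsg

open Cfsg.Agent.Lib.helper13

namespace Cfsg.Agent.S2665

/-- The Lang–Steinberg Theorem for the general linear group. Let `K` be an algebraically closed field of prime characteristic `p`, let `q = p^f` with `f ≥ 1`, and let `σ` be the endomorphism of GL_n(K) raising every matrix entry to the `q`-th power. Then every element `g` of GL_n(K) can be written `g = x · σ(x)⁻¹` for some `x` in GL_n(K): the map `x ↦ x σ(x)⁻¹` is surjective. -/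
theorem result {K : Type*} [Field K] [IsAlgClosed K] (p : ℕ) [Fact p.Prime] [CharP K p]
    (f : ℕ) (hf : 1 ≤ f) (n : ℕ) (g : GL (Fin n) K) :
    ∃ x : GL (Fin n) K, g = x * (Matrix.GeneralLinearGroup.map (iterateFrobenius K p f) x)⁻¹ := by
  classical
  let φ : (Fin n → K) →ₛₗ[iterateFrobenius K p f] (Fin n → K) :=
    { toFun := fun v => (g : Matrix (Fin n) (Fin n) K).mulVec (fun i => iterateFrobenius K p f (v i))
      map_add' := by
        intro u v
        rw [← Matrix.mulVec_add]
        congr 1
        ext i
        simp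
      map_smul' := by
        intro c v
        rw [← Matrix.mulVec_smul]
        congr 1
        ext i
        simp }
  have hφ : ∀ v : Fin n → K, φ v =
      (g : Matrix (Fin n) (Fin n) K).mulVec (fun i => iterateFrobenius K p f (v i)) := fun v => rfl
  have hφinj : Function.Injective φ := by
    intro u v huv
    rw [hφ, hφ] at huv
    have h2 := congrArg ((g⁻¹ : GL (Fin n) K) : Matrix (Fin n) (Fin n) K).mulVec huv
    simp only [Matrix.mulVec_mulVec, ← Units.val_mul, inv_mul_cancel, Units.val_one,
      Matrix.one_mulVec] at h2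
    ext i
    exact (iterateFrobenius K p f).injective (congrFun h2 i)
  have hspan := span_fixed_eq_top p f hf φ hφinj
  obtain ⟨B', hB'⟩ := exists_basis_of_span_eq_top _ hspan (Module.finrank_fin_fun K)
  have hB'fix : ∀ j, φ (B' j) = B' j := hB'
  obtain ⟨x, hx⟩ : ∃ x : Matrix (Fin n) (Fin n) K, x = (Pi.basisFun K (Fin n)).toMatrix B' := ⟨_, rfl⟩
  have hxij : ∀ i j, x i j = B' j i := by
    intro i j
    rw [hx, Module.Basis.toMatrix_apply, Pi.basisFun_repr]
  have : Invertible x := by
    rw [hx]
    exact (Pi.basisFun K (Fin n)).invertibleToMatrix B'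
  have key : (g : Matrix (Fin n) (Fin n) K) * x.map (iterateFrobenius K p f) = x := by
    ext i j
    rw [hxij, ← hB'fix j, hφ]
    simp only [Matrix.mul_apply, Matrix.map_apply, Matrix.mulVec, dotProduct, hxij]
  refine ⟨unitOfInvertible x, ?_⟩
  apply eq_mul_inv_of_mul_eq
  apply Units.ext
  exact key

end Cfsg.Agent.S2665
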