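import Cfsg.Statements.S2666
import Mathlib

set_option autoImplicit false
open Cfsg

namespace Cfsg.Agent.S2666

lemma pow_fix {X : Type*} [Group X] (σ : MulAut X) (e : ℕ) (h : X) (hh : σ h = h) : (σ ^ e) h = h := by
  induction e with
  | zero => simp
  | succ n ih => rw [pow_succ, MulAut.mul_apply, hh, ih]

lemma pow_comm {X : Type*} [Group X] (σ : MulAut X) (e : ℕ) (x : X) : (σ ^ e) (σ x) = σ ((σ ^ e) x) := by
  rw [← MulAut.mul_apply, ← MulAut.mul_apply, ← pow_succ, ← pow_succ']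

lemma telescope {X : Type*} [Group X] (σ : MulAut X) (a : X) (d : ℕ) :
    ((List.range d).map (fun i => (σ ^ i) (a * (σ a)⁻¹))).prod = a * ((σ ^ d) a)⁻¹ := by
  induction d with
  | zero => simp
  | succ n ih =>
    rw [List.range_succ, List.map_append, List.prod_append, ih]
    simp only [List.map_cons, List.map_nil, List.prod_cons, List.prod_nil, mul_one, map_mul, map_inv]
    rw [pow_comm, pow_succ', MulAut.mul_apply]
    group

lemma x_fixed {X : Type*} [Group X] (σ : MulAut X) (e : ℕ) (a : X)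
    (hg : (σ ^ e) (a * (σ a)⁻¹) = a * (σ a)⁻¹) : σ (((σ ^ e) a)⁻¹ * a) = ((σ ^ e) a)⁻¹ * a := by
  simp only [map_mul, map_inv] at hg ⊢
  rw [pow_comm] at hg
  have h1 : (σ ((σ ^ e) a))⁻¹ = ((σ ^ e) a)⁻¹ * (a * (σ a)⁻¹) := by
    rw [← hg]; group
  rw [h1]; group

lemma twist_iff {X : Type*} [Group X] (σ : MulAut X) (a b h : X) :
    b * (σ b)⁻¹ = (b * h * a⁻¹) * (a * (σ a)⁻¹) * (σ (b * h * a⁻¹))⁻¹ ↔ σ h = h := by
  simp only [map_mul, map_inv]
  constructor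
  · intro H
    have h1 : b * (h * (σ h)⁻¹) * (σ b)⁻¹ = b * (σ b)⁻¹ := by
      rw [H]; group
    have h2 : h * (σ h)⁻¹ = 1 := by simpa using h1
    exact (mul_inv_eq_one.mp h2).symm
  · intro H
    rw [H]; group

lemma fix_iff {X : Type*} [Group X] (τ : MulAut X) (a b h : X) (hh : τ h = h) :
    τ (b * h * a⁻¹) = b * h * a⁻¹ ↔ (τ b)⁻¹ * b = h * ((τ a)⁻¹ * a) * h⁻¹ := by
  simp only [map_mul, map_inv, hh]
  constructor
  · intro H
    have h1 : (τ b)⁻¹ = h * (τ a)⁻¹ * (τ b * h * (τ a)⁻¹)⁻¹ := by group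
    rw [h1, H]; group
  · intro H
    have h1 : τ b * h * (τ a)⁻¹ = b * ((τ b)⁻¹ * b)⁻¹ * h * ((τ a)⁻¹ * a) * a⁻¹ := by group
    rw [h1, H]; group

/-- Shintani descent, in an abstract form. Let `σ` be an automorphism of a group `X` such that the maps `a ↦ a·σ(a)⁻¹` and `a ↦ a·σᵉ(a)⁻¹` are surjective on `X` (the Lang–Steinberg property, which holds when `X` is a connected algebraic group and `σ` a Steinberg endomorphism), where `e ≥ 1`. Write `G` for the subgroup of fixed points of `σᵉ` and `H` for the subgroup of fixed points of `σ`. The `G`-conjugacy classes in the coset `G σ` of the semidirect product of `G` by `σ` correspond to the orbits of `G` on itself under twisted conjugation `g ↦ k g σ(k)⁻¹`, and the `e`-th power of `g σ` has `G`-part the norm `g σ(g) ⋯ σ^(e-1)(g)`. For `g` in `G` and any `a` with `g = a σ(a)⁻¹`, put `x = σᵉ(a)⁻¹ a`. Then: (1) `x` lies in `H`, and `a⁻¹ · (g σ(g) ⋯ σ^(e-1)(g)) · a = x`;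 (2) for `g, g'` in `G` with such elements `a, b` and `x, x'`, the elements `g, g'` are twisted-conjugate under `G` if and only if `x, x'` are conjugate in `H`; (3) every element of `H` arises as such an `x`. So `g ↦ x` induces a well-defined bijection from the twisted `G`-classes of `G` onto the conjugacy classes of `H` (the Shintani map). -/
theorem result {X : Type*} [Group X] (σ : MulAut X) (e : ℕ) (he : 1 ≤ e)
    (hL : ∀ g : X, ∃ a : X, g = a * (σ a)⁻¹) (hLe : ∀ g : X, ∃ a : X, g = a * ((σ ^ e) a)⁻¹) :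
    (∀ g ∈ (MulEquiv.toMonoidHom (σ ^ e)).eqLocus (MonoidHom.id X), ∀ a : X, g = a * (σ a)⁻¹ →
        ((σ ^ e) a)⁻¹ * a ∈ (MulEquiv.toMonoidHom σ).eqLocus (MonoidHom.id X) ∧
          a⁻¹ * ((List.range e).map (fun i => (σ ^ i) g)).prod * a = ((σ ^ e) a)⁻¹ * a) ∧
    (∀ g ∈ (MulEquiv.toMonoidHom (σ ^ e)).eqLocus (MonoidHom.id X), ∀ g' ∈ (MulEquiv.toMonoidHom (σ ^ e)).eqLocus (MonoidHom.id X), ∀ a b : X,
        g = a * (σ a)⁻¹ → g' = b * (σ b)⁻¹ →
          ((∃ k ∈ (MulEquiv.toMonoidHom (σ ^ e)).eqLocus (MonoidHom.id X), g' = k * g * (σ k)⁻¹) ↔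
            (∃ h ∈ (MulEquiv.toMonoidHom σ).eqLocus (MonoidHom.id X), ((σ ^ e) b)⁻¹ * b = h * (((σ ^ e) a)⁻¹ * a) * h⁻¹))) ∧
    (∀ x ∈ (MulEquiv.toMonoidHom σ).eqLocus (MonoidHom.id X), ∃ g ∈ (MulEquiv.toMonoidHom (σ ^ e)).eqLocus (MonoidHom.id X), ∃ a : X,
        g = a * (σ a)⁻¹ ∧ ((σ ^ e) a)⁻¹ * a = x) := by
  refine ⟨?_, ?_, ?_⟩
  · intro g hg a ha
    subst ha
    have hg' : (σ ^ e) (a * (σ a)⁻¹) = a * (σ a)⁻¹ := hg
    refine ⟨x_fixed σ e a hg', ?_⟩
    rw [telescope]; group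
  · intro g hg g' hg' a b ha hb
    subst ha hb
    constructor
    · rintro ⟨k, hk, hkk⟩
      obtain ⟨h, rfl⟩ : ∃ h, k = b * h * a⁻¹ := ⟨b⁻¹ * k * a, by group⟩
      have hs : σ h = h := (twist_iff σ a b h).mp hkk
      have ht : (σ ^ e) h = h := pow_fix σ e h hs
      exact ⟨h, hs, (fix_iff (σ ^ e) a b h ht).mp hk⟩
    · rintro ⟨h, hs, hx⟩
      have hs' : σ h = h := hs
      have ht : (σ ^ e) h = h := pow_fix σ e h hs'
      exact ⟨b * h * a⁻¹, (fix_iff (σ ^ e) a b h ht).mpr hx, (twist_iff σ a b h).mpr hs'⟩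
  · intro x hx
    have hx' : σ x = x := hx
    obtain ⟨c, hc⟩ := hLe x⁻¹
    have hxc : x = (σ ^ e) c * c⁻¹ := by
      have : x = (x⁻¹)⁻¹ := by group
      rw [this, hc]; group
    refine ⟨c⁻¹ * (σ c⁻¹)⁻¹, ?_, c⁻¹, rfl, ?_⟩
    · change (σ ^ e) (c⁻¹ * (σ c⁻¹)⁻¹) = c⁻¹ * (σ c⁻¹)⁻¹
      simp only [map_mul, map_inv, inv_inv]
      rw [pow_comm]
      have h1 : (σ ^ e) c = x * c := by rw [hxc]; group
      rw [h1]
      simp only [map_mul, mul_inv_rev, hx']
      group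
    · simp only [map_inv, inv_inv]
      rw [hxc]

end Cfsg.Agent.S2666
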