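import Cfsg.Statements.S2667
import Mathlib

set_option autoImplicit false
open Cfsg

namespace Cfsg.Agent.S2667

lemma pow_fix {X : Type*} [Group X] (σ : MulAut X) (e : ℕ) (h : X) (hh : σ h = h) : (σ ^ e) h = h := by
  induction e with
  | zero => simp
  | succ n ih => rw [pow_succ, MulAut.mul_apply, hh, ih]

/-- Shintani descent, in an abstract form. Let `σ` be an automorphism of a group `X` and `e ≥ 1` (no surjectivity of the Lang maps is needed for this part; in the classical setting `X` is a connected algebraic group and `σ` a Steinberg endomorphism). Write `G` for the subgroup of fixed points of `σᵉ` and `H` for the subgroup of fixed points of `σ`. The `G`-conjugacy classes in the coset `G σ` of the semidirect product of `G` by `σ` correspond to the orbits of `G` on itself under twisted conjugation `g ↦ k g σ(k)⁻¹`, and the `e`-th power of `g σ` has `G`-part the norm `g σ(g) ⋯ σ^(e-1)(g)`. For `g` in `G` and any `a` with `g = a σ(a)⁻¹`,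 put `x = σᵉ(a)⁻¹ a`. Then conjugation by `a⁻¹` carries the twisted centralizer `{k ∈ G : k g σ(k)⁻¹ = g}` (the centralizer of `g σ` in `G`) exactly onto the centralizer of `x` in `H`: an element `k` of `X` lies in `G` and satisfies `k g σ(k)⁻¹ = g` if and only if `a⁻¹ k a` lies in `H` and commutes with `x`. In particular the two centralizers are conjugate in `X` and have the same order. -/
theorem result {X : Type*} [Group X] (σ : MulAut X) (e : ℕ) (he : 1 ≤ e)
    (g : X) (hg : g ∈ (MulEquiv.toMonoidHom (σ ^ e)).eqLocus (MonoidHom.id X)) (a : X) (ha : g = a * (σ a)⁻¹) (k : X) :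
    (k ∈ (MulEquiv.toMonoidHom (σ ^ e)).eqLocus (MonoidHom.id X) ∧ k * g * (σ k)⁻¹ = g) ↔
      (a⁻¹ * k * a ∈ (MulEquiv.toMonoidHom σ).eqLocus (MonoidHom.id X) ∧
        (a⁻¹ * k * a) * (((σ ^ e) a)⁻¹ * a) = (((σ ^ e) a)⁻¹ * a) * (a⁻¹ * k * a)) := by
  subst ha
  obtain ⟨h, rfl⟩ : ∃ h, k = a * h * a⁻¹ := ⟨a⁻¹ * k * a, by group⟩
  have e1 : a⁻¹ * (a * h * a⁻¹) * a = h := by group
  rw [e1]
  change ((σ ^ e) (a * h * a⁻¹) = a * h * a⁻¹ ∧ _) ↔ (σ h = h ∧ _)
  simp only [map_mul, map_inv]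
  constructor
  · rintro ⟨h1, h2⟩
    have hs : σ h = h := by
      have h3 := mul_inv_eq_iff_eq_mul.mp h2
      have h4 : σ a * σ h * (σ a)⁻¹ = (a * (σ a)⁻¹)⁻¹ * (a * h * a⁻¹ * (a * (σ a)⁻¹)) := by
        rw [eq_inv_mul_iff_mul_eq]; exact h3.symm
      have h5 : σ h = (σ a)⁻¹ * (σ a * σ h * (σ a)⁻¹) * σ a := by group
      rw [h5, h4]; group
    refine ⟨hs, ?_⟩
    have ht : (σ ^ e) h = h := pow_fix σ e h hs
    rw [ht] at h1
    have h6 : ((σ ^ e) a)⁻¹ * a * h = h * (((σ ^ e) a)⁻¹ * a) := by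
      have : h = ((σ ^ e) a)⁻¹ * ((σ ^ e) a * h * ((σ ^ e) a)⁻¹) * (σ ^ e) a := by group
      conv_rhs => rw [this, h1]
      group
    exact h6.symm
  · rintro ⟨hs, h2⟩
    have ht : (σ ^ e) h = h := pow_fix σ e h hs
    rw [ht, hs]
    constructor
    · have hc : Commute h (((σ ^ e) a)⁻¹ * a) := h2
      have hc' := hc.inv_right
      have hc'' : h * (((σ ^ e) a)⁻¹ * a)⁻¹ = (((σ ^ e) a)⁻¹ * a)⁻¹ * h := hc'
      calc (σ ^ e) a * h * ((σ ^ e) a)⁻¹ = a * ((((σ ^ e) a)⁻¹ * a)⁻¹ * h) * ((σ ^ e) a)⁻¹ := by group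
        _ = a * (h * (((σ ^ e) a)⁻¹ * a)⁻¹) * ((σ ^ e) a)⁻¹ := by rw [hc'']
        _ = a * h * a⁻¹ := by group
    · group

end Cfsg.Agent.S2667
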