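import Cfsg.Statements.S2668
import Mathlib

set_option autoImplicit false
open Cfsg

namespace Cfsg.Agent.S2668

lemma pow_fix {X : Type*} [Group X] (σ : MulAut X) (e : ℕ) (h : X) (hh : σ h = h) : (σ ^ e) h = h := by
  induction e with
  | zero => simp
  | succ n ih => rw [pow_succ, MulAut.mul_apply, hh, ih]

lemma pow_comm {X : Type*} [Group X] (σ : MulAut X) (e : ℕ) (x : X) : (σ ^ e) (σ x) = σ ((σ ^ e) x) := by
  rw [← MulAut.mul_apply, ← MulAut.mul_apply, ← pow_succ, ← pow_succ']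

lemma telescope {X : Type*} [Group X] (σ : MulAut X) (a : X) (d : ℕ) :
    ((List.range d).map (fun i => (σ ^ i) (a * (σ a)⁻¹))).prod = a * ((σ ^ d) a)⁻¹ := by
  induction d with
  | zero => simp
  | succ n ih =>
    rw [List.range_succ, List.map_append, List.prod_append, ih]
    simp only [List.map_cons, List.map_nil, List.prod_cons, List.prod_nil, mul_one, map_mul, map_inv]
    rw [pow_comm, pow_succ', MulAut.mul_apply]
    group

lemma x_fixed {X : Type*} [Group X] (σ : MulAut X) (e : ℕ) (a : X)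
    (hg : (σ ^ e) (a * (σ a)⁻¹) = a * (σ a)⁻¹) : σ (((σ ^ e) a)⁻¹ * a) = ((σ ^ e) a)⁻¹ * a := by
  simp only [map_mul, map_inv] at hg ⊢
  rw [pow_comm] at hg
  have h1 : (σ ((σ ^ e) a))⁻¹ = ((σ ^ e) a)⁻¹ * (a * (σ a)⁻¹) := by
    rw [← hg]; group
  rw [h1]; group

/-- Shintani descent and powers (abstract form). Let `σ` be an automorphism of a group `X`, `e ≥ 1` and `d ≥ 1`, let `g` be fixed by `σᵉ` and let `a` satisfy `g = a σ(a)⁻¹`, so that the Shintani map of `(X, σ, e)` sends the class of `g σ` to the class of `x = σᵉ(a)⁻¹ a`. Put `h = g σ(g) ⋯ σ^(d-1)(g)`, the part in `X` of the `d`-th power `(g σ)^d = h σ^d`. Then `h = a σ^d(a)⁻¹` (so `a` also serves for `h` with respect to `σ^d`), `h` is fixed by `(σ^d)ᵉ`, and `(σ^d)ᵉ(a)⁻¹ a = x^d`: the Shintani map of `(X, σ^d, e)` sends the class of `(g σ)^d` to the class of `x^d`. (When `d` divides `e`, the Shintani map of `(X, σ^d, e/d)` sends it to the class of `x` itself, since `(σ^d)^(e/d)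 = σᵉ`.) -/
theorem result {X : Type*} [Group X] (σ : MulAut X) (e d : ℕ) (he : 1 ≤ e) (hd : 1 ≤ d)
    (g : X) (hg : g ∈ (MulEquiv.toMonoidHom (σ ^ e)).eqLocus (MonoidHom.id X)) (a : X) (ha : g = a * (σ a)⁻¹) :
    ((List.range d).map (fun i => (σ ^ i) g)).prod = a * ((σ ^ d) a)⁻¹ ∧
      ((List.range d).map (fun i => (σ ^ i) g)).prod ∈ (MulEquiv.toMonoidHom ((σ ^ d) ^ e)).eqLocus (MonoidHom.id X) ∧
      (((σ ^ d) ^ e) a)⁻¹ * a = (((σ ^ e) a)⁻¹ * a) ^ d := by
  subst ha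
  have hg' : (σ ^ e) (a * (σ a)⁻¹) = a * (σ a)⁻¹ := hg
  have hx := x_fixed σ e a hg'
  refine ⟨telescope σ a d, ?_, ?_⟩
  · change ((σ ^ d) ^ e) _ = _
    rw [← pow_mul, mul_comm, pow_mul]
    apply pow_fix
    rw [map_list_prod, List.map_map]
    congr 1
    apply List.map_congr_left
    intro i _
    simp only [Function.comp]
    rw [← MulAut.mul_apply, ← pow_add, add_comm, pow_add, MulAut.mul_apply, hg']
  · rw [← pow_mul, mul_comm, pow_mul]
    have key : ∀ j : ℕ, (((σ ^ e) ^ j) a)⁻¹ * a = (((σ ^ e) a)⁻¹ * a) ^ j := by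
      intro j
      induction j with
      | zero => simp
      | succ n ih =>
        have hxn : ((σ ^ e) ^ n) (((σ ^ e) a)⁻¹ * a) = ((σ ^ e) a)⁻¹ * a := by
          rw [← pow_mul]; exact pow_fix σ _ _ hx
        rw [pow_succ (σ ^ e) n, MulAut.mul_apply, pow_succ' _ n, ← ih]
        simp only [map_mul, map_inv] at hxn
        have h2 : (((σ ^ e) ^ n) ((σ ^ e) a))⁻¹ = ((σ ^ e) a)⁻¹ * a * (((σ ^ e) ^ n) a)⁻¹ := by
          rw [← hxn]; group
        rw [h2]; group
    exact key d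

end Cfsg.Agent.S2668
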