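import Cfsg.Statements.S2669
import Mathlib

set_option autoImplicit false
open Cfsg

namespace Cfsg.Agent.S2669

section Helpers

variable {X : Type*} [Group X]

lemma pow_fix (σ : MulAut X) (e : ℕ) (h : X) (hh : σ h = h) : (σ ^ e) h = h := by
  induction e with
  | zero => simp
  | succ n ih => rw [pow_succ, MulAut.mul_apply, hh, ih]

lemma pow_mem (σ : MulAut X) (Y : Subgroup X) (hY : ∀ y : X, y ∈ Y ↔ σ y ∈ Y) (e : ℕ) (y : X) (hy : y ∈ Y) :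
    (σ ^ e) y ∈ Y := by
  induction e with
  | zero => simpa using hy
  | succ n ih => rw [pow_succ', MulAut.mul_apply]; exact (hY _).mp ih

lemma LA1 (σ : MulAut X) (Y : Subgroup X) (hYL : ∀ y ∈ Y, ∃ a ∈ Y, y = a * (σ a)⁻¹) (a k : X)
    (hk : k⁻¹ * (a * (σ a)⁻¹) * σ k ∈ Y) : ∃ h, σ h = h ∧ k⁻¹ * a * h ∈ Y := by
  obtain ⟨y, hyY, hy⟩ := hYL _ hk
  refine ⟨a⁻¹ * k * y, ?_, ?_⟩
  · have h1 : σ k = (k⁻¹ * (a * (σ a)⁻¹))⁻¹ * (y * (σ y)⁻¹) := by rw [← hy]; group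
    simp only [map_mul, map_inv]
    rw [h1]; group
  · have : k⁻¹ * a * (a⁻¹ * k * y) = y := by group
    rw [this]; exact hyY

lemma LA2 (σ : MulAut X) (Y : Subgroup X) (hY : ∀ y : X, y ∈ Y ↔ σ y ∈ Y) (a k h : X)
    (hh : σ h = h) (hy : k⁻¹ * a * h ∈ Y) : k⁻¹ * (a * (σ a)⁻¹) * σ k ∈ Y := by
  have h1 : k⁻¹ * (a * (σ a)⁻¹) * σ k = (k⁻¹ * a * h) * (σ (k⁻¹ * a * h))⁻¹ := by
    simp only [map_mul, map_inv, hh]; group
  rw [h1]
  exact Y.mul_mem hy (Y.inv_mem ((hY _).mp hy))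

lemma LB1 (τ : MulAut X) (Y : Subgroup X) (hYLe : ∀ y ∈ Y, ∃ a ∈ Y, y = a * (τ a)⁻¹) (a h : X)
    (hh : τ h = h) (hB : h⁻¹ * ((τ a)⁻¹ * a) * h ∈ Y) : ∃ k, τ k = k ∧ k⁻¹ * a * h ∈ Y := by
  obtain ⟨c, hcY, hc⟩ := hYLe _ (Y.inv_mem hB)
  refine ⟨a * h * c, ?_, ?_⟩
  · have h1 : τ c = (h⁻¹ * ((τ a)⁻¹ * a) * h) * c := by
      have : τ c = (c * (τ c)⁻¹)⁻¹ * c := by group
      rw [this, ← hc]; group
    simp only [map_mul, hh]
    rw [h1]; group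
  · have : (a * h * c)⁻¹ * a * h = c⁻¹ := by group
    rw [this]; exact Y.inv_mem hcY

lemma LB2 (τ : MulAut X) (Y : Subgroup X) (hYτ : ∀ y : X, y ∈ Y → τ y ∈ Y) (a k h : X)
    (hk : τ k = k) (hh : τ h = h) (hy : k⁻¹ * a * h ∈ Y) : h⁻¹ * ((τ a)⁻¹ * a) * h ∈ Y := by
  have h1 : h⁻¹ * ((τ a)⁻¹ * a) * h = (τ (k⁻¹ * a * h))⁻¹ * (k⁻¹ * a * h) := by
    simp only [map_mul, map_inv, hh, hk]; group
  rw [h1]
  exact Y.mul_mem (Y.inv_mem (hYτ _ hy)) hy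

end Helpers

/-- Shintani descent preserves numbers of fixed points on coset spaces (abstract form). Let `σ` be an automorphism of a group `X` and `e ≥ 1`; write `G` for the fixed points of `σᵉ` and `H` for the fixed points of `σ`, and assume `G` is finite. Let `Y` be a `σ`-stable subgroup of `X` on which the maps `a ↦ a σ(a)⁻¹` and `a ↦ a σᵉ(a)⁻¹` are surjective (as for a closed connected `σ`-stable subgroup of an algebraic group). Let `g ∈ G`, let `a ∈ X` satisfy `g = a σ(a)⁻¹` and put `x = σᵉ(a)⁻¹ a` (the Shintani image, an element of `H`). The element `g σ` of the semidirect product acts on the cosets of `Y ∩ G` in `G` by `k (Y ∩ G) ↦ g σ(k) (Y ∩ G)`, fixing that coset exactly when `k⁻¹ g σ(k) ∈ Y`; and `x` fixes the coset `h (Y ∩ H)` of `H` exactly when `h⁻¹ x h ∈ Y`. Then the two numbers of fixed cosets agree; in cross-multiplied form, `#{k ∈ G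 : k⁻¹ g σ(k) ∈ Y} · |Y ∩ H| = #{h ∈ H : h⁻¹ x h ∈ Y} · |Y ∩ G|`. -/
theorem result {X : Type*} [Group X] (σ : MulAut X) (e : ℕ) (he : 1 ≤ e)
    [Finite ↥((MulEquiv.toMonoidHom (σ ^ e)).eqLocus (MonoidHom.id X))]
    (Y : Subgroup X) (hY : ∀ y : X, y ∈ Y ↔ σ y ∈ Y)
    (hYL : ∀ y ∈ Y, ∃ a ∈ Y, y = a * (σ a)⁻¹) (hYLe : ∀ y ∈ Y, ∃ a ∈ Y, y = a * ((σ ^ e) a)⁻¹)
    (g : X) (hg : g ∈ (MulEquiv.toMonoidHom (σ ^ e)).eqLocus (MonoidHom.id X)) (a : X) (ha : g = a * (σ a)⁻¹) :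
    Nat.card {k : ↥((MulEquiv.toMonoidHom (σ ^ e)).eqLocus (MonoidHom.id X)) // (k : X)⁻¹ * g * σ k ∈ Y} *
        Nat.card ↥(Y ⊓ (MulEquiv.toMonoidHom σ).eqLocus (MonoidHom.id X)) =
      Nat.card {h : ↥((MulEquiv.toMonoidHom σ).eqLocus (MonoidHom.id X)) // (h : X)⁻¹ * (((σ ^ e) a)⁻¹ * a) * h ∈ Y} *
        Nat.card ↥(Y ⊓ (MulEquiv.toMonoidHom (σ ^ e)).eqLocus (MonoidHom.id X)) := by
  classical
  subst ha
  have hYτ : ∀ y : X, y ∈ Y → (σ ^ e) y ∈ Y := fun y hy => pow_mem σ Y hY e y hy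
  have hA1 : ∀ k : X, ∃ h : X, k⁻¹ * (a * (σ a)⁻¹) * σ k ∈ Y → (σ h = h ∧ k⁻¹ * a * h ∈ Y) := by
    intro k
    by_cases hk : k⁻¹ * (a * (σ a)⁻¹) * σ k ∈ Y
    · obtain ⟨h, hh⟩ := LA1 σ Y hYL a k hk
      exact ⟨h, fun _ => hh⟩
    · exact ⟨1, fun h => absurd h hk⟩
  choose h₀ hh₀ using hA1
  have hB1 : ∀ h : X, ∃ k : X, (σ h = h ∧ h⁻¹ * (((σ ^ e) a)⁻¹ * a) * h ∈ Y) → ((σ ^ e) k = k ∧ k⁻¹ * a * h ∈ Y) := by
    intro h
    by_cases hh : σ h = h ∧ h⁻¹ * (((σ ^ e) a)⁻¹ * a) * h ∈ Y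
    · obtain ⟨k, hk⟩ := LB1 (σ ^ e) Y hYLe a h (pow_fix σ e h hh.1) hh.2
      exact ⟨k, fun _ => hk⟩
    · exact ⟨1, fun h' => absurd h' hh⟩
  choose k₀ hk₀ using hB1
  let Z := {p : X × X // (σ ^ e) p.1 = p.1 ∧ σ p.2 = p.2 ∧ p.1⁻¹ * a * p.2 ∈ Y}
  have e1 : Z ≃ {k : ↥((MulEquiv.toMonoidHom (σ ^ e)).eqLocus (MonoidHom.id X)) // (k : X)⁻¹ * (a * (σ a)⁻¹) * σ k ∈ Y} ×
      ↥(Y ⊓ (MulEquiv.toMonoidHom σ).eqLocus (MonoidHom.id X)) :=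
    { toFun := fun p =>
        (⟨⟨p.1.1, p.2.1⟩, LA2 σ Y hY a p.1.1 p.1.2 p.2.2.1 p.2.2.2⟩,
         ⟨(h₀ p.1.1)⁻¹ * p.1.2, by
            have hA := LA2 σ Y hY a p.1.1 p.1.2 p.2.2.1 p.2.2.2
            have hs := hh₀ p.1.1 hA
            refine ⟨?_, ?_⟩
            · have : (h₀ p.1.1)⁻¹ * p.1.2 = (p.1.1⁻¹ * a * h₀ p.1.1)⁻¹ * (p.1.1⁻¹ * a * p.1.2) := by group
              rw [this]
              exact Y.mul_mem (Y.inv_mem hs.2) p.2.2.2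
            · change σ ((h₀ p.1.1)⁻¹ * p.1.2) = (h₀ p.1.1)⁻¹ * p.1.2
              rw [map_mul, map_inv, hs.1, p.2.2.1]⟩)
      invFun := fun q =>
        ⟨((q.1.1 : X), h₀ (q.1.1 : X) * (q.2 : X)), by
          have hs := hh₀ (q.1.1 : X) q.1.2
          refine ⟨q.1.1.2, ?_, ?_⟩
          · have h2 : σ (q.2 : X) = q.2 := q.2.2.2
            change σ (h₀ (q.1.1 : X) * (q.2 : X)) = h₀ (q.1.1 : X) * (q.2 : X)
            rw [map_mul, hs.1, h2]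
          · have : (q.1.1 : X)⁻¹ * a * (h₀ (q.1.1 : X) * (q.2 : X)) = ((q.1.1 : X)⁻¹ * a * h₀ (q.1.1 : X)) * (q.2 : X) := by group
            change (q.1.1 : X)⁻¹ * a * (h₀ (q.1.1 : X) * (q.2 : X)) ∈ Y
            rw [this]
            exact Y.mul_mem hs.2 q.2.2.1⟩
      left_inv := by
        intro p
        apply Subtype.ext
        apply Prod.ext
        · rfl
        · change h₀ p.1.1 * ((h₀ p.1.1)⁻¹ * p.1.2) = p.1.2
          group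
      right_inv := by
        intro q
        apply Prod.ext
        · rfl
        · apply Subtype.ext
          change (h₀ (q.1.1 : X))⁻¹ * (h₀ (q.1.1 : X) * (q.2 : X)) = q.2
          group }
  have e2 : Z ≃ {h : ↥((MulEquiv.toMonoidHom σ).eqLocus (MonoidHom.id X)) // (h : X)⁻¹ * (((σ ^ e) a)⁻¹ * a) * h ∈ Y} ×
      ↥(Y ⊓ (MulEquiv.toMonoidHom (σ ^ e)).eqLocus (MonoidHom.id X)) :=
    { toFun := fun p =>
        (⟨⟨p.1.2, p.2.2.1⟩, LB2 (σ ^ e) Y hYτ a p.1.1 p.1.2 p.2.1 (pow_fix σ e _ p.2.2.1) p.2.2.2⟩,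
         ⟨(k₀ p.1.2)⁻¹ * p.1.1, by
            have hB := LB2 (σ ^ e) Y hYτ a p.1.1 p.1.2 p.2.1 (pow_fix σ e _ p.2.2.1) p.2.2.2
            have hs := hk₀ p.1.2 ⟨p.2.2.1, hB⟩
            refine ⟨?_, ?_⟩
            · have : (k₀ p.1.2)⁻¹ * p.1.1 = ((k₀ p.1.2)⁻¹ * a * p.1.2) * (p.1.1⁻¹ * a * p.1.2)⁻¹ := by group
              rw [this]
              exact Y.mul_mem hs.2 (Y.inv_mem p.2.2.2)
            · change (σ ^ e) ((k₀ p.1.2)⁻¹ * p.1.1) = (k₀ p.1.2)⁻¹ * p.1.1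
              rw [map_mul, map_inv, hs.1, p.2.1]⟩)
      invFun := fun q =>
        ⟨(k₀ (q.1.1 : X) * (q.2 : X), (q.1.1 : X)), by
          have hs := hk₀ (q.1.1 : X) ⟨q.1.1.2, q.1.2⟩
          refine ⟨?_, q.1.1.2, ?_⟩
          · have h2 : (σ ^ e) (q.2 : X) = q.2 := q.2.2.2
            change (σ ^ e) (k₀ (q.1.1 : X) * (q.2 : X)) = k₀ (q.1.1 : X) * (q.2 : X)
            rw [map_mul, hs.1, h2]
          · have : (k₀ (q.1.1 : X) * (q.2 : X))⁻¹ * a * (q.1.1 : X) = (q.2 : X)⁻¹ * ((k₀ (q.1.1 : X))⁻¹ * a * (q.1.1 : X)) := by group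
            change (k₀ (q.1.1 : X) * (q.2 : X))⁻¹ * a * (q.1.1 : X) ∈ Y
            rw [this]
            exact Y.mul_mem (Y.inv_mem q.2.2.1) hs.2⟩
      left_inv := by
        intro p
        apply Subtype.ext
        apply Prod.ext
        · change k₀ p.1.2 * ((k₀ p.1.2)⁻¹ * p.1.1) = p.1.1
          group
        · rfl
      right_inv := by
        intro q
        apply Prod.ext
        · rfl
        · apply Subtype.ext
          change (k₀ (q.1.1 : X))⁻¹ * (k₀ (q.1.1 : X) * (q.2 : X)) = q.2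
          group }
  rw [← Nat.card_prod, ← Nat.card_prod]
  exact Nat.card_congr (e1.symm.trans e2)

end Cfsg.Agent.S2669
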