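import Cfsg.Statements.S2671
import Mathlib
import Cfsg.Agent.Lib.helper10.GUPrime

set_option autoImplicit false
open Cfsg

namespace Cfsg.Agent.S2671

open Matrix Polynomial Cfsg.Agent.Lib.helper10.GUConj Cfsg.Agent.Lib.helper10.GUPrime

theorem main {K : Type*} [Field K] [Fintype K] {p q n r i b s : ℕ} [Fact p.Prime] [CharP K p]
    (hK : Fintype.card K = q ^ 2) (hr : r.Prime) (hr2 : r ≠ 2) (hrp : r ≠ p)
    (hi : i = orderOf (q : ZMod r)) (hb : b = if Odd i then i else i / 2)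
    (hs : s * b = r - 1) :
    Nat.card {C : ConjClasses ↥(Cfsg.GU n K q) //
      ∃ g : ↥(Cfsg.GU n K q), ConjClasses.mk g = C ∧ orderOf g = r} =
      if i % 4 = 2 then Nat.choose (2 * n / i + s) s - 1
      else Nat.choose (n / (2 * b) + s / 2) (s / 2) - 1 := by
  classical
  obtain ⟨σ, hq, hσ, ω₀, hω₀⟩ := exists_sigma hK
  have hb' : b = orderOf ((q ^ 2 : ℕ) : ZMod r) := by
    rw [Nat.cast_pow, orderOf_pow' _ (two_ne_zero), ← hi, hb]
    split_ifs with ho
    · have h1 : Nat.gcd i 2 = 1 := by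
        rw [← Nat.coprime_iff_gcd_eq_one, Nat.coprime_comm, Nat.prime_two.coprime_iff_not_dvd]
        intro h2
        obtain ⟨c, hc⟩ := ho
        omega
      rw [h1, Nat.div_one]
    · have h1 : Nat.gcd i 2 = 2 := by
        apply Nat.gcd_eq_right
        rw [Nat.not_odd_iff_even] at ho
        exact even_iff_two_dvd.mp ho
      rw [h1]
  obtain ⟨S, hSc, hxS, hbpos, hS1, hS2⟩ := Cfsg.Agent.S2568.cyc_facts hK r b s hr hrp hb' hs
  have h00 : ∀ P ∈ S, P.coeff 0 ≠ 0 := by
    intro P hP h0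
    obtain ⟨c, hc⟩ := (hS1 P hP).2.2.2
    have h1 := congrArg (fun f : K[X] => f.coeff 0) hc
    simp only [mul_coeff_zero, h0, zero_mul, coeff_sub, coeff_X_pow, coeff_one_zero] at h1
    rw [if_neg (Ne.symm hr.ne_zero)] at h1
    simp at h1
  have hpstS : ∀ P ∈ S, pst σ P ∈ S := by
    intro P hP
    have h1 : pst σ P ∣ X ^ r - 1 := by
      have := pst_dvd σ P _ (hS1 P hP).2.2.2
      rwa [pst_X_pow_sub_one σ r hr.pos] at this
    rcases hS2 _ (pst_monic σ P (h00 P hP))
      (pst_irreducible σ hσ P (hS1 P hP).1 (h00 P hP) (hS1 P hP).2.1) h1 with h2 | h2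
    · exfalso
      have h3 : P = X - 1 := by
        rw [← pst_pst σ hσ P (hS1 P hP).1 (h00 P hP), h2, pst_X_sub_one]
      exact hxS (h3 ▸ hP)
    · exact h2
  obtain ⟨τ, hτdef⟩ : ∃ τ : K[X] → K[X], ∀ h, τ h = if h = X - 1 ∨ h ∈ S then pst σ h else h :=
    ⟨_, fun _ => rfl⟩
  have hτ : ∀ h, h = X - 1 ∨ h ∈ S → τ h = pst σ h := fun h hh => by rw [hτdef, if_pos hh]
  have hτinv : Function.Involutive τ := by
    intro h
    by_cases hh : h = X - 1 ∨ h ∈ S
    · have h2 : pst σ h = X - 1 ∨ pst σ h ∈ S := by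
        rcases hh with rfl | hS
        · left; exact pst_X_sub_one σ
        · right; exact hpstS h hS
      rw [hτ h hh, hτ _ h2]
      rcases hh with rfl | hS
      · rw [pst_X_sub_one, pst_X_sub_one]
      · exact pst_pst σ hσ h (hS1 h hS).1 (h00 h hS)
    · have h1 : τ h = h := by rw [hτdef, if_neg hh]
      rw [h1, h1]
  have hτ0 : τ (X - 1) = X - 1 := by rw [hτ _ (Or.inl rfl), pst_X_sub_one]
  have hτS : ∀ h ∈ S, τ h ∈ S := fun h hS => by rw [hτ h (Or.inr hS)]; exact hpstS h hS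
  rw [card_classes_eq hK n r hr hrp σ hq hσ ω₀ hω₀ S hxS
    (fun P hP => ⟨(hS1 P hP).1, (hS1 P hP).2.1, (hS1 P hP).2.2.2⟩) hS2 hpstS τ hτ]
  have hx0d : (X - 1 : K[X]).natDegree = 1 := by simpa using natDegree_X_sub_C (1 : K)
  have hfixiff : ∀ h ∈ S, pst σ h = h ↔ i % 4 = 2 := by
    intro h hS
    exact pst_fixed_iff hK σ hq r hr hr2 hrp i hi h (hS1 h hS).1 (hS1 h hS).2.1
      (hS1 h hS).2.2.2 (fun e => hxS (e ▸ hS)) (by rw [(hS1 h hS).2.2.1]; exact hb')
  by_cases h4 : i % 4 = 2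
  · rw [if_pos h4]
    have hfix : ∀ h ∈ S, τ h = h := by
      intro h hS
      rw [hτ h (Or.inr hS)]
      exact (hfixiff h hS).mpr h4
    rw [card_T_fixed (X - 1) S hxS τ hτ0 hfix natDegree b hbpos hx0d
      (fun h hS => (hS1 h hS).2.2.1) n, hSc]
    have h5 : n / b = 2 * n / i := by
      have hodd : ¬ Odd i := by rw [Nat.odd_iff]; omega
      rw [hb, if_neg hodd]
      obtain ⟨m, hm⟩ : ∃ m, i = 2 * m := ⟨i / 2, by omega⟩
      rw [hm, Nat.mul_div_cancel_left _ (by norm_num : 0 < 2),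
        Nat.mul_div_mul_left _ _ (by norm_num : 0 < 2)]
    rw [h5]
  · rw [if_neg h4]
    have hfree : ∀ h ∈ S, τ h ≠ h := by
      intro h hS hfix
      rw [hτ h (Or.inr hS)] at hfix
      exact h4 ((hfixiff h hS).mp hfix)
    rw [card_T_free (X - 1) S hxS τ hτinv hτ0 hτS hfree natDegree b hbpos hx0d
      (fun h hS => (hS1 h hS).2.2.1) n, hSc]

/-- Number of conjugacy classes of elements of odd prime order r in the general unitary group GU_n(q), for r not dividing q(q + 1): let i be the multiplicative order of q modulo r, b = i if i is odd and b = i/2 if i is even, and s = (r − 1)/b. If i ≢ 2 (mod 4) the eigenvalue orbits pair off into dual pairs of totally isotropic blocks and there are C(⌊n/(2b)⌋ + s/2, s/2) − 1 classes; if i ≡ 2 (mod 4) each orbit gives a non-degenerate block of dimension i/2 and there are C(⌊2n/i⌋ + s, s) − 1 classes. -/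
theorem result {K : Type*} [Field K] [Fintype K] {p q n r i b s : ℕ} [Fact p.Prime] [CharP K p] (hK : Fintype.card K = q ^ 2) (hr : r.Prime) (hr2 : r ≠ 2) (hrp : r ≠ p) (hi : i = orderOf (q : ZMod r)) (hi2 : i ≠ 2) (hb : b = if Odd i then i else i / 2) (hs : s * b = r - 1) : Nat.card {C : ConjClasses ↥(Cfsg.GU n K q) // ∃ g : ↥(Cfsg.GU n K q), ConjClasses.mk g = C ∧ orderOf g = r} = if i % 4 = 2 then Nat.choose (2 * n / i + s) s - 1 else Nat.choose (n / (2 * b) + s / 2) (s / 2) - 1 := by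
  exact main hK hr hr2 hrp hi hb hs

end Cfsg.Agent.S2671
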