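import Cfsg.Statements.S2673
import Mathlib
import Cfsg.Agent.Lib.helper10.OrthCount

set_option autoImplicit false
open Cfsg

namespace Cfsg.Agent.S2673

open Polynomial Matrix UniqueFactorizationMonoid
open Cfsg.Agent.Lib.helper18.SpRz Cfsg.Agent.Lib.helper18.RCF Cfsg.Agent.Lib.helper10.OrthRz
open Cfsg.Agent.Lib.helper10.OrthCount

theorem main {F : Type*} [Field F] [Fintype F] {p q : ℕ} [Fact p.Prime] [CharP F p] (hF : Fintype.card F = q) (hq : Odd q) (m r i t : ℕ) (hr : r.Prime) (hr2 : r ≠ 2) (hrp : r ≠ p) (hi : i = orderOf (q : ZMod r)) (ht : t * i = r - 1) : Nat.card {C : ConjClasses ↥(Cfsg.isometryGroup F (Cfsg.quadFormOdd m F)) // ∃ g : ↥(Cfsg.isometryGroup F (Cfsg.quadFormOdd m F)), ConjClasses.mk g = C ∧ orderOf g = r} = if Odd i then Nat.choose (m / i + t / 2) (t / 2) - 1 else Nat.choose ((2 * m + 1) / i + t) t - 1 := by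
  classical
  obtain ⟨S, σ, hSc, hxS, hipos, hS1, hS2, hσinv, hσx, hσSS, hat1, hat2, hoddfp, hevfix, hσst⟩ :=
    sigma_setup hF r i t hr hr2 hrp hi ht
  have hrodd : Odd r := hr.odd_of_ne_two hr2
  have h2 : (2 : F) ≠ 0 := by
    apply Ring.two_ne_zero
    intro h
    have h3 := FiniteField.even_card_iff_char_two.1 h
    rw [hF] at h3
    obtain ⟨k, hk⟩ := hq
    omega
  have hx0m : (X - 1 : F[X]).Monic := by simpa using monic_X_sub_C (1 : F)
  have hB := NOdd_B h2 m
  have hcardι : Fintype.card (Unit ⊕ (Fin m ⊕ Fin m)) = 2 * m + 1 := by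
    simp only [Fintype.card_sum, Fintype.card_fin, Fintype.card_unit]
    omega
  have hQN : ∀ v, Cfsg.quadFormOdd m F v = v ⬝ᵥ NOdd (F := F) m *ᵥ v := by
    intro v
    rw [← qN_apply, qN_NOdd]
  have H1 : ∀ g : GL (Unit ⊕ (Fin m ⊕ Fin m)) F,
      g ∈ Cfsg.isometryGroup F (Cfsg.quadFormOdd m F) → g ^ r = 1 →
      (∀ h ∈ normalizedFactors g.1.charpoly, h = X - 1 ∨ h ∈ S) →
      (normalizedFactors g.1.charpoly).map σ = normalizedFactors g.1.charpoly ∧
      (fun _ : ℕ => True)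
        (Multiset.card ((normalizedFactors g.1.charpoly).filter (fun h => h ≠ X - 1))) := by
    intro g hgm hg hfac
    refine ⟨?_, trivial⟩
    have hgi : g.1 * (g⁻¹).1 = 1 := by rw [← Units.val_mul, mul_inv_cancel, Units.val_one]
    have hci := orth_charpoly_inv (NOdd m) _ g.1 (g⁻¹).1 hB hgi
      (fun v => by rw [← hQN, ← hQN]; exact hgm v v)
    have h1 := nf_st g.1 (g⁻¹).1 hgi hci
    conv_rhs => rw [← h1]
    exact Multiset.map_congr rfl (fun h hh => hσst h (hfac h hh))
  have hkeven : ∀ M : Multiset F[X], (∀ h ∈ M, h = X - 1 ∨ h ∈ S) → M.map σ = M →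
      Even (i * Multiset.card (M.filter (fun h => h ≠ X - 1))) := by
    intro M hM hMσ
    by_cases hodd : Odd i
    · obtain ⟨T, hTS, hT1, hTc⟩ := exists_transversal S σ hσinv hσSS (hoddfp hodd)
      rw [card_filter_two (X - 1 : F[X]) S T σ hσinv hxS hTS hT1 hσSS M hM hMσ]
      exact ⟨i * Multiset.card (M.filter (fun h => h ∈ T)), by ring⟩
    · exact (Nat.not_odd_iff_even.1 hodd).mul_right _
  have H2 : ∀ M : Multiset F[X], (∀ h ∈ M, h = X - 1 ∨ h ∈ S) → M.map σ = M →
      (M.map natDegree).sum = Fintype.card (Unit ⊕ (Fin m ⊕ Fin m)) →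
      (fun _ : ℕ => True) (Multiset.card (M.filter (fun h => h ≠ X - 1))) →
      ∃ s : GL (Unit ⊕ (Fin m ⊕ Fin m)) F, s ∈ Cfsg.isometryGroup F (Cfsg.quadFormOdd m F) ∧
        s.1.charpoly = M.prod ∧ s ^ r = 1 := by
    intro M hM hMσ hdeg _
    have hoz := oz_filter r i hrodd S hxS hS1 σ hσinv hσx hσSS hat1 hat2 M hM hMσ
      (hkeven M hM hMσ)
    have hds := deg_sum i S (fun P hP => (hS1 P hP).2.2.1) M hM
    rw [hdeg, hcardι] at hds
    obtain ⟨c, hc⟩ : ∃ c, M.count (X - 1) = c + c + 1 := by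
      obtain ⟨e, he⟩ := hkeven M hM hMσ
      exact ⟨m - e, by omega⟩
    have hprod : M.prod = (M.filter (fun h => h ≠ X - 1)).prod * ((X - 1) ^ (c + c) * (X - 1)) := by
      conv_lhs => rw [ms_decomp (X - 1 : F[X]) M]
      rw [Multiset.prod_add, Multiset.prod_replicate, hc, pow_succ]
    have hmonM : ∀ h ∈ M, h.Monic := by
      intro h hh
      rcases hM h hh with rfl | hS
      · exact hx0m
      · exact (hS1 h hS).1
    have hz : Oz r M.prod := by
      rw [hprod]
      exact oz_mul r _ _ hoz (oz_mul r _ _ (oz_hyp_fix r c) (oz_unit r h2))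
    exact oz_to_odd h2 r m M.prod
      (by rw [natDegree_multiset_prod_of_monic _ hmonM, hdeg, hcardι]) hz
  have hcc := classes_card (NOdd m) _ hB (Cfsg.quadFormOdd m F) hQN r i hr hr2 hrp S hxS hipos
    hS1 hS2 σ (fun _ => True) H1 H2
  rw [hcardι] at hcc
  rw [hcc]
  by_cases hodd : Odd i
  · rw [if_pos hodd]
    obtain ⟨T, hTS, hT1, hTc⟩ := exists_transversal S σ hσinv hσSS (hoddfp hodd)
    have hT : T.card = t / 2 := by omega
    rw [← hT]
    refine ((Eq.trans ?_ (card_inv_gen (X - 1 : F[X]) S T σ hσinv hxS hσx hTS hT1 hσSS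
      (fun k => (k ≠ 0 ∧ k ≤ (2 * m + 1) / i) ∧ True) (fun k => 2 * m + 1 - i * k))).trans
      ?_).trans (card_multiset_le_ne (X - 1 : F[X]) T (fun h => hxS (hTS h)) (m / i))
    · rfl
    · apply Nat.card_congr
      refine Equiv.subtypeEquivRight (fun N => and_congr_right (fun _ => ?_))
      show ((2 * Multiset.card N ≠ 0 ∧ 2 * Multiset.card N ≤ (2 * m + 1) / i) ∧ True) ↔
        (Multiset.card N ≠ 0 ∧ Multiset.card N ≤ m / i)
      rw [Nat.le_div_iff_mul_le hipos, Nat.le_div_iff_mul_le hipos, and_true]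
      have e : 2 * Multiset.card N * i = 2 * (Multiset.card N * i) := by ring
      rw [e]
      constructor
      · rintro ⟨h1, h2⟩
        exact ⟨by omega, by omega⟩
      · rintro ⟨h1, h2⟩
        exact ⟨by omega, by omega⟩
  · rw [if_neg hodd]
    rw [← hSc]
    refine ((Eq.trans ?_ (card_slack (X - 1 : F[X]) S hxS
      (fun k => (k ≠ 0 ∧ k ≤ (2 * m + 1) / i) ∧ True) (fun k => 2 * m + 1 - i * k))).trans
      ?_).trans (card_multiset_le_ne (X - 1 : F[X]) S hxS ((2 * m + 1) / i))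
    · apply Nat.card_congr
      refine Equiv.subtypeEquivRight (fun M => ⟨fun h => ⟨h.1, h.2.2⟩, fun h => ⟨h.1, ?_, h.2⟩⟩)
      refine (Multiset.map_congr rfl ?_).trans (Multiset.map_id M)
      intro a ha
      rcases h.1 a ha with rfl | hS
      · exact hσx
      · exact hevfix hodd a hS
    · apply Nat.card_congr
      exact Equiv.subtypeEquivRight (fun M => and_congr_right (fun _ => and_iff_left trivial))

/-- Number of conjugacy classes of elements of odd prime order r ≠ p in the orthogonal group O_(2m+1)(q) of x_0² + Σ x_j y_j, q odd: with i the multiplicative order of q mod r and t = (r − 1)/i, there are C(⌊m/i⌋ + t/2, t/2) − 1 classes if i is odd (dual pairs of totally singular i-blocks) and C(⌊(2m+1)/i⌋ + t, t) − 1 if i is even (elliptic i-blocks). -/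
theorem result {F : Type*} [Field F] [Fintype F] {p q : ℕ} [Fact p.Prime] [CharP F p] (hF : Fintype.card F = q) (hq : Odd q) (m r i t : ℕ) (hr : r.Prime) (hr2 : r ≠ 2) (hrp : r ≠ p) (hi : i = orderOf (q : ZMod r)) (ht : t * i = r - 1) : Nat.card {C : ConjClasses ↥(Cfsg.isometryGroup F (Cfsg.quadFormOdd m F)) // ∃ g : ↥(Cfsg.isometryGroup F (Cfsg.quadFormOdd m F)), ConjClasses.mk g = C ∧ orderOf g = r} = if Odd i then Nat.choose (m / i + t / 2) (t / 2) - 1 else Nat.choose ((2 * m + 1) / i + t) t - 1 := by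
  exact main hF hq m r i t hr hr2 hrp hi ht

end Cfsg.Agent.S2673
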