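import Cfsg.Statements.S2674
-- import your own Cfsg.Agent.* helpers here
import Mathlib
import Cfsg.Agent.S2568
import Cfsg.Agent.Lib.helper18.OrthRz2

set_option autoImplicit false
open Cfsg

namespace Cfsg.Agent.S2674




open Polynomial Cfsg.Agent.Lib.helper18.RCF UniqueFactorizationMonoid Cfsg.Agent.Lib.helper18.SpRz
open Cfsg.Agent.Lib.helper18.OrthRz
open scoped Matrix

/-- hyperbolic realisation data: `χ = charpoly C * charpoly C⁻¹` -/
def Hz {F : Type*} [Field F] (r : ℕ) (χ : F[X]) : Prop :=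
  ∃ (ι : Type) (_ : Fintype ι) (_ : DecidableEq ι) (C Ci : Matrix ι ι F),
    2 * Fintype.card ι = χ.natDegree ∧ C * Ci = 1 ∧ C ^ r = 1 ∧ C.charpoly * Ci.charpoly = χ

theorem hz_one {F : Type*} [Field F] (r : ℕ) : Hz (F := F) r 1 :=
  ⟨Empty, inferInstance, inferInstance, 1, 1, by simp, by simp, by simp, by simp [Matrix.charpoly]⟩

theorem hz_mul {F : Type*} [Field F] (r : ℕ) (a b : F[X]) (ha : a ≠ 0) (hb : b ≠ 0)
    (h₁ : Hz r a) (h₂ : Hz r b) : Hz r (a * b) := by
  obtain ⟨ι₁, _, _, C₁, Ci₁, hc₁, hC₁, hr₁, hχ₁⟩ := h₁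
  obtain ⟨ι₂, _, _, C₂, Ci₂, hc₂, hC₂, hr₂, hχ₂⟩ := h₂
  refine ⟨ι₁ ⊕ ι₂, inferInstance, inferInstance, Matrix.fromBlocks C₁ 0 0 C₂,
    Matrix.fromBlocks Ci₁ 0 0 Ci₂, ?_, ?_, ?_, ?_⟩
  · rw [Fintype.card_sum, natDegree_mul ha hb, ← hc₁, ← hc₂]; ring
  · rw [Matrix.fromBlocks_multiply]; simp [hC₁, hC₂]
  · rw [Matrix.fromBlocks_diagonal_pow, hr₁, hr₂, Matrix.fromBlocks_one]
  · rw [Matrix.charpoly_fromBlocks_zero₁₂, Matrix.charpoly_fromBlocks_zero₁₂, ← hχ₁, ← hχ₂]; ring

theorem hz_sq {F : Type*} [Field F] (r : ℕ) : Hz (F := F) r ((X - 1) ^ 2) := by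
  refine ⟨Unit, inferInstance, inferInstance, 1, 1, ?_, by simp, by simp, ?_⟩
  · have h1 : (X - 1 : F[X]).natDegree = 1 := by simpa using natDegree_X_sub_C (1 : F)
    have hm : (X - 1 : F[X]).Monic := by simpa using monic_X_sub_C (1 : F)
    rw [natDegree_pow' (by rw [hm.leadingCoeff, one_pow]; exact one_ne_zero), h1]
    simp
  · rw [Matrix.charpoly_one]; simp [pow_two]

theorem exists_zeta {F : Type*} [Field F] [Finite F] : ∃ ζ : F, ∀ t : F, t ^ 2 + t + ζ ≠ 0 := by
  have hni : ¬ Function.Injective (fun t : F => t ^ 2 + t) := by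
    intro hinj
    have h1 : (fun t : F => t ^ 2 + t) 0 = (fun t : F => t ^ 2 + t) (-1) := by
      simp
    have := hinj h1
    have h2 : (1 : F) = 0 := by rw [← neg_neg (1 : F), ← this, neg_zero]
    exact one_ne_zero h2
  have hns : ¬ Function.Surjective (fun t : F => t ^ 2 + t) :=
    fun hs => hni (Finite.injective_iff_surjective.2 hs)
  rw [Function.Surjective] at hns
  push Not at hns
  obtain ⟨y, hy⟩ := hns
  refine ⟨-y, fun t h => hy t ?_⟩
  show t ^ 2 + t = y
  linear_combination h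

theorem anis_of_zeta {F : Type*} [Field F] (ζ : F) (hζ : ∀ t : F, t ^ 2 + t + ζ ≠ 0) :
    ∀ z₁ z₂ : F, z₁ ^ 2 + 1 * z₁ * z₂ + ζ * z₂ ^ 2 = 0 → z₁ = 0 ∧ z₂ = 0 := by
  intro z₁ z₂ h
  by_cases hz2 : z₂ = 0
  · subst hz2
    simp at h
    exact ⟨h, rfl⟩
  · exfalso
    apply hζ (z₁ / z₂)
    field_simp
    linear_combination h

theorem classes_card_plus {F : Type*} [Field F] [Fintype F] {p : ℕ} [Fact p.Prime] [CharP F p]
    [DecidableEq F] [DecidableEq F[X]]
    (m r i : ℕ) (hr : r.Prime) (hr2 : r ≠ 2) (hrp : r ≠ p) (S : Finset F[X])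
    (hxS : (X - 1 : F[X]) ∉ S) (hipos : 0 < i)
    (hS1 : ∀ P ∈ S, P.Monic ∧ Irreducible P ∧ P.natDegree = i ∧ P ∣ (X ^ r - 1 : F[X]))
    (hS2 : ∀ h : F[X], h.Monic → Irreducible h → h ∣ (X ^ r - 1 : F[X]) → h = X - 1 ∨ h ∈ S)
    (σ : F[X] → F[X]) (ok : ℕ → Prop) (hok : ∀ c, ok c → c ≠ 0)
    (H1 : ∀ g : ↥(Cfsg.isometryGroup F (Cfsg.quadFormPlus m F)), g ^ r = 1 →
      (∀ h ∈ normalizedFactors g.1.1.charpoly, h = X - 1 ∨ h ∈ S) →
      Multiset.card ((normalizedFactors g.1.1.charpoly).filter (fun h => h ≠ X - 1)) ≠ 0 →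
      Multiset.card ((normalizedFactors g.1.1.charpoly).filter (fun h => h ≠ X - 1)) ≤ 2 * m / i →
      Multiset.count (X - 1) (normalizedFactors g.1.1.charpoly) =
        2 * m - i * Multiset.card ((normalizedFactors g.1.1.charpoly).filter (fun h => h ≠ X - 1)) →
      ((normalizedFactors g.1.1.charpoly).map σ = normalizedFactors g.1.1.charpoly ∧
        ok (Multiset.card ((normalizedFactors g.1.1.charpoly).filter (fun h => h ≠ X - 1)))))
    (H2 : ∀ M : Multiset F[X], (∀ h ∈ M, h = X - 1 ∨ h ∈ S) → M.map σ = M →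
      ok (Multiset.card (M.filter (fun h => h ≠ X - 1))) → (M.map natDegree).sum = 2 * m →
      ∃ s : ↥(Cfsg.isometryGroup F (Cfsg.quadFormPlus m F)),
        s.1.1.charpoly = M.prod ∧ s ^ r = 1)
    (hokle : ∀ c, ok c → c ≤ 2 * m / i) :
    Nat.card {C : ConjClasses ↥(Cfsg.isometryGroup F (Cfsg.quadFormPlus m F)) //
      ∃ g : ↥(Cfsg.isometryGroup F (Cfsg.quadFormPlus m F)), ConjClasses.mk g = C ∧ orderOf g = r} =
    Nat.card {M : Multiset F[X] // (∀ h ∈ M, h = X - 1 ∨ h ∈ S) ∧ M.map σ = M ∧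
      ok (Multiset.card (M.filter (fun h => h ≠ X - 1))) ∧
      M.count (X - 1) = 2 * m - i * Multiset.card (M.filter (fun h => h ≠ X - 1))} := by
  have hrF : (r : F) ≠ 0 := cast_ne_zero_of_coprime p r ((Nat.coprime_primes hr Fact.out).2 hrp)
  have hx0m : (X - 1 : F[X]).Monic := by simpa using monic_X_sub_C (1 : F)
  have hx0i : Irreducible (X - 1 : F[X]) := by simpa using irreducible_X_sub_C (1 : F)
  have hx0d : (X - 1 : F[X]).natDegree = 1 := by simpa using natDegree_X_sub_C (1 : F)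
  have hdegsum : ∀ M : Multiset F[X], (∀ h ∈ M, h = X - 1 ∨ h ∈ S) →
      (M.map natDegree).sum =
        M.count (X - 1) + i * Multiset.card (M.filter (fun h => h ≠ X - 1)) := by
    intro M hM
    have hfi : ∀ h ∈ M.filter (fun h => h ≠ X - 1), h.natDegree = i := by
      intro h hh
      rw [Multiset.mem_filter] at hh
      exact (hS1 h ((hM h hh.1).resolve_left hh.2)).2.2.1
    conv_lhs => rw [ms_decomp (X - 1 : F[X]) M]
    rw [Multiset.map_add, Multiset.sum_add, Multiset.map_replicate, Multiset.sum_replicate, hx0d,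
      smul_eq_mul, mul_one, add_comm, Multiset.map_congr rfl hfi, Multiset.map_const',
      Multiset.sum_replicate, smul_eq_mul, mul_comm]
  have hcp : ∀ a b : ↥(Cfsg.isometryGroup F (Cfsg.quadFormPlus m F)), IsConj a b →
      a.1.1.charpoly = b.1.1.charpoly := by
    intro a b hab
    obtain ⟨c, rfl⟩ := isConj_iff.1 hab
    have e1 : (c * a * c⁻¹ : ↥(Cfsg.isometryGroup F (Cfsg.quadFormPlus m F))).1.1 =
        c.1.1 * (a.1.1 * (c⁻¹).1.1) := by
      rw [← Matrix.mul_assoc]; rfl
    have e2 : (c⁻¹).1.1 * c.1.1 = 1 := by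
      have : (c⁻¹ * c).1.1 = 1 := by rw [inv_mul_cancel]; rfl
      exact this
    rw [e1, Matrix.charpoly_mul_comm, Matrix.mul_assoc, e2, Matrix.mul_one]
  let cp : ConjClasses ↥(Cfsg.isometryGroup F (Cfsg.quadFormPlus m F)) → F[X] :=
    Quotient.lift (fun g : ↥(Cfsg.isometryGroup F (Cfsg.quadFormPlus m F)) => g.1.1.charpoly) hcp
  have hNFmon : ∀ (f h : F[X]), h ∈ normalizedFactors f → h.Monic := by
    intro f h hh
    rw [← normalize_normalized_factor h hh]
    exact monic_normalize (irreducible_of_normalized_factor h hh).ne_zero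
  have hfac : ∀ A : Matrix (Fin m ⊕ Fin m) (Fin m ⊕ Fin m) F, A ^ r = 1 →
      ∀ h ∈ normalizedFactors A.charpoly, h = X - 1 ∨ h ∈ S := by
    intro A hA h hh
    have hirr := irreducible_of_normalized_factor h hh
    refine hS2 h (hNFmon _ h hh) hirr ?_
    have haev : aeval (Matrix.toLin' A) (X ^ r - 1 : F[X]) = 0 := by
      rw [map_sub, map_pow, aeval_X, map_one, ← Matrix.toLin'_pow, hA, Matrix.toLin'_one]
      exact sub_self _
    exact factor_dvd_of_aeval (Matrix.toLin' A) _ haev h hirr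
      (by rw [Matrix.charpoly_toLin']; exact dvd_of_mem_normalizedFactors hh)
  have hprodM : ∀ A : Matrix (Fin m ⊕ Fin m) (Fin m ⊕ Fin m) F,
      (normalizedFactors A.charpoly).prod = A.charpoly := by
    intro A
    apply eq_of_monic_of_associated _ (Matrix.charpoly_monic A)
      (prod_normalizedFactors (Matrix.charpoly_monic A).ne_zero)
    have := monic_multiset_prod_of_monic (normalizedFactors A.charpoly) id
      (fun h hh => hNFmon _ h hh)
    simpa using this
  have hdegM : ∀ A : Matrix (Fin m ⊕ Fin m) (Fin m ⊕ Fin m) F,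
      ((normalizedFactors A.charpoly).map natDegree).sum = 2 * m := by
    intro A
    rw [← natDegree_multiset_prod_of_monic _ (fun h hh => hNFmon _ h hh), hprodM,
      Matrix.charpoly_natDegree_eq_dim, Fintype.card_sum, Fintype.card_fin, two_mul]
  have hone : ∀ A : Matrix (Fin m ⊕ Fin m) (Fin m ⊕ Fin m) F, A ^ r = 1 →
      (∀ h ∈ normalizedFactors A.charpoly, h = X - 1) → A = 1 := by
    intro A hA hall
    have hM : normalizedFactors A.charpoly =
        Multiset.replicate (Multiset.card (normalizedFactors A.charpoly)) (X - 1) :=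
      Multiset.eq_replicate_card.2 hall
    have hcnt : Multiset.card (normalizedFactors A.charpoly) = 2 * m := by
      have h1 := hdegM A
      rw [hM, Multiset.map_replicate, Multiset.sum_replicate, hx0d, smul_eq_mul, mul_one] at h1
      exact h1
    have hc : A.charpoly = (1 : Matrix (Fin m ⊕ Fin m) (Fin m ⊕ Fin m) F).charpoly := by
      rw [Matrix.charpoly_one, Fintype.card_sum, Fintype.card_fin, ← two_mul, ← hprodM A, hM,
        Multiset.prod_replicate, hcnt]
    obtain ⟨c, hc'⟩ := Cfsg.Agent.Lib.helper4.SympSS.mat_isConj_of_charpoly A 1 r hrF hA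
      (one_pow r) hc
    have hc'' : (c : Matrix (Fin m ⊕ Fin m) (Fin m ⊕ Fin m) F) * A = 1 * c := hc'
    calc A = ((c⁻¹ : (Matrix (Fin m ⊕ Fin m) (Fin m ⊕ Fin m) F)ˣ) : Matrix _ _ F) *
          ((c : Matrix (Fin m ⊕ Fin m) (Fin m ⊕ Fin m) F) * A) := by
          rw [← Matrix.mul_assoc, Units.inv_mul, Matrix.one_mul]
      _ = 1 := by rw [hc'', Matrix.one_mul, Units.inv_mul]
  have hone' : ∀ h ∈ normalizedFactors (1 : Matrix (Fin m ⊕ Fin m) (Fin m ⊕ Fin m) F).charpoly,
      h = X - 1 := by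
    intro h hh
    have hmon := hNFmon _ h hh
    have hirr := irreducible_of_normalized_factor h hh
    have hd := dvd_of_mem_normalizedFactors hh
    rw [Matrix.charpoly_one] at hd
    have hd' : h ∣ X - 1 := hirr.prime.dvd_of_dvd_pow hd
    exact eq_of_monic_of_associated hmon hx0m (hirr.associated_of_dvd hx0i hd')
  have hpowc : ∀ g : ↥(Cfsg.isometryGroup F (Cfsg.quadFormPlus m F)), g ^ r = 1 →
      g.1.1 ^ r = 1 := by
    intro g hgr
    have : (g ^ r).1.1 = 1 := by rw [hgr]; rfl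
    rw [SubgroupClass.coe_pow, Units.val_pow_eq_pow_val] at this
    exact this
  apply Nat.card_congr
  refine Equiv.ofBijective (fun c => ⟨normalizedFactors (cp c.1), ?_⟩) ⟨?_, ?_⟩
  · rcases c with ⟨c, g, rfl, hg⟩
    have hgr : g ^ r = 1 := by rw [← hg, pow_orderOf_eq_one]
    have hA : g.1.1 ^ r = 1 := hpowc g hgr
    have h1 := hfac _ hA
    have h2 := hdegsum _ h1
    rw [hdegM] at h2
    show (∀ h ∈ normalizedFactors g.1.1.charpoly, h = X - 1 ∨ h ∈ S) ∧
      (normalizedFactors g.1.1.charpoly).map σ = normalizedFactors g.1.1.charpoly ∧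
      ok (Multiset.card ((normalizedFactors g.1.1.charpoly).filter (fun h => h ≠ X - 1))) ∧
      Multiset.count (X - 1) (normalizedFactors g.1.1.charpoly) =
        2 * m - i * Multiset.card ((normalizedFactors g.1.1.charpoly).filter (fun h => h ≠ X - 1))
    have hc0 : Multiset.card ((normalizedFactors g.1.1.charpoly).filter (fun h => h ≠ X - 1)) ≠ 0 := by
      intro h0
      rw [Multiset.card_eq_zero, Multiset.filter_eq_nil] at h0
      have h3 : g.1.1 = 1 := hone _ hA (fun h hh => not_not.1 (h0 h hh))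
      have hg1 : g = 1 := Subtype.ext (Units.ext h3)
      rw [hg1, orderOf_one] at hg
      exact hr.one_lt.ne hg
    have hcle : Multiset.card ((normalizedFactors g.1.1.charpoly).filter (fun h => h ≠ X - 1)) ≤
        2 * m / i := by
      rw [Nat.le_div_iff_mul_le hipos, mul_comm]
      omega
    have hcnt : Multiset.count (X - 1) (normalizedFactors g.1.1.charpoly) =
        2 * m - i * Multiset.card ((normalizedFactors g.1.1.charpoly).filter (fun h => h ≠ X - 1)) := by
      omega
    obtain ⟨h5, h6⟩ := H1 g hgr h1 hc0 hcle hcnt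
    exact ⟨h1, h5, h6, hcnt⟩
  · rintro ⟨c, g, rfl, hg⟩ ⟨c', g', rfl, hg'⟩ heq
    have heq' : normalizedFactors g.1.1.charpoly = normalizedFactors g'.1.1.charpoly :=
      congrArg Subtype.val heq
    apply Subtype.ext
    show ConjClasses.mk g = ConjClasses.mk g'
    rw [ConjClasses.mk_eq_mk_iff_isConj]
    have hc : g.1.1.charpoly = g'.1.1.charpoly := by
      rw [← hprodM, ← hprodM g'.1.1, heq']
    have hcop : r.Coprime p := (Nat.coprime_primes hr Fact.out).2 hrp
    have hA : g.1.1 ^ r = 1 := hpowc g (by rw [← hg, pow_orderOf_eq_one])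
    have hA' : g'.1.1 ^ r = 1 := hpowc g' (by rw [← hg', pow_orderOf_eq_one])
    have hconj := Cfsg.Agent.Lib.helper4.SympSS.mat_isConj_of_charpoly g.1.1 g'.1.1 r hrF hA hA' hc
    exact (Cfsg.Agent.Lib.helper18.OrthConj.conj_gen (Cfsg.Agent.S2562.qP F m)
      (Cfsg.Agent.S2562.nondeg_qP m) (Cfsg.quadFormPlus m F) (funext (fun v => (Cfsg.Agent.S2562.qP_apply m v).symm))
      g g' (by rw [hg]; exact hr.odd_of_ne_two hr2) (by rw [hg]; exact hcop)).2 hconj
  · rintro ⟨M, hM1, hMσ, hMok, hM4⟩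
    have hM3 := hokle _ hMok
    have hM3' : i * Multiset.card (M.filter (fun h => h ≠ X - 1)) ≤ 2 * m := by
      rw [mul_comm]
      exact (Nat.le_div_iff_mul_le hipos).1 hM3
    have hdeg : (M.map natDegree).sum = 2 * m := by
      rw [hdegsum M hM1, hM4]
      omega
    have hmonM : ∀ h ∈ M, h.Monic := by
      intro h hh
      rcases hM1 h hh with rfl | hS
      · exact hx0m
      · exact (hS1 h hS).1
    obtain ⟨s, hs1, hs2⟩ := H2 M hM1 hMσ hMok hdeg
    have hNF : normalizedFactors s.1.1.charpoly = M := by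
      rw [hs1, normalizedFactors_prod_eq]
      · refine (Multiset.map_congr rfl ?_).trans (Multiset.map_id _)
        intro h hh
        exact (hmonM h hh).normalize_eq_self
      · intro h hh
        rcases hM1 h hh with rfl | hS
        · exact hx0i
        · exact (hS1 h hS).2.1
    have hs1' : s ≠ 1 := by
      intro h1
      apply hok _ hMok
      rw [Multiset.card_eq_zero, Multiset.filter_eq_nil]
      intro h hh
      rw [← hNF, h1] at hh
      exact not_not.2 (hone' h hh)
    have : Fact r.Prime := ⟨hr⟩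
    refine ⟨⟨ConjClasses.mk s, s, rfl, orderOf_eq_prime hs2 hs1'⟩, ?_⟩
    apply Subtype.ext
    show normalizedFactors s.1.1.charpoly = M
    exact hNF


theorem degsum {F : Type*} [Field F] [DecidableEq F[X]] (S : Finset F[X]) (i : ℕ)
    (hS1 : ∀ P ∈ S, P.natDegree = i) (M : Multiset F[X])
    (hM : ∀ h ∈ M, h = X - 1 ∨ h ∈ S) :
    (M.map natDegree).sum =
      M.count (X - 1) + i * Multiset.card (M.filter (fun h => h ≠ X - 1)) := by
  have hx0d : (X - 1 : F[X]).natDegree = 1 := by simpa using natDegree_X_sub_C (1 : F)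
  have hfi : ∀ h ∈ M.filter (fun h => h ≠ X - 1), h.natDegree = i := by
    intro h hh
    rw [Multiset.mem_filter] at hh
    exact hS1 h ((hM h hh.1).resolve_left hh.2)
  conv_lhs => rw [ms_decomp (X - 1 : F[X]) M]
  rw [Multiset.map_add, Multiset.sum_add, Multiset.map_replicate, Multiset.sum_replicate, hx0d,
    smul_eq_mul, mul_one, add_comm, Multiset.map_congr rfl hfi, Multiset.map_const',
    Multiset.sum_replicate, smul_eq_mul, mul_comm]

theorem fix_factor {F : Type*} [Field F] [DecidableEq F] [DecidableEq F[X]] {ι : Type} [Fintype ι] [DecidableEq ι]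
    (A : Matrix ι ι F) (v : ι → F) (hv : v ≠ 0) (hAv : A *ᵥ v = v) :
    (X - 1 : F[X]) ∈ normalizedFactors A.charpoly := by
  have hx0m : (X - 1 : F[X]).Monic := by simpa using monic_X_sub_C (1 : F)
  have hx0i : Irreducible (X - 1 : F[X]) := by simpa using irreducible_X_sub_C (1 : F)
  have hroot : A.charpoly.IsRoot 1 := by
    rw [IsRoot, Matrix.eval_charpoly]
    apply Matrix.exists_mulVec_eq_zero_iff.1
    refine ⟨v, hv, ?_⟩
    rw [Matrix.sub_mulVec, hAv]
    simp
  rw [mem_normalizedFactors_iff' (Matrix.charpoly_monic A).ne_zero]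
  refine ⟨hx0i, hx0m.normalize_eq_self, ?_⟩
  have := dvd_iff_isRoot.2 hroot
  simpa using this

theorem cast_plus (r q k : ℕ) (hq : 1 ≤ q) (hk : 1 ≤ k) :
    (q : ZMod r) * ((q ^ (2 * k - 1) + q ^ k - q ^ (k - 1) : ℕ) : ZMod r) =
      (q : ZMod r) ^ (2 * k) + ((q : ZMod r) ^ (k + 1) - (q : ZMod r) ^ k) := by
  obtain ⟨j, rfl⟩ := Nat.exists_eq_add_of_le' hk
  have h1 : 2 * (j + 1) - 1 = 2 * j + 1 := by omega
  have h2 : j + 1 - 1 = j := by omega
  rw [h1, h2]
  have h3 : q ^ j ≤ q ^ (2 * j + 1) + q ^ (j + 1) :=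
    (Nat.pow_le_pow_right hq (by omega)).trans (Nat.le_add_left _ _)
  rw [Nat.cast_sub h3]
  push_cast
  ring

theorem cast_minus (r q k : ℕ) (hq : 1 ≤ q) (hk : 1 ≤ k) :
    (q : ZMod r) * ((q ^ (2 * k - 1) + q ^ (k - 1) - q ^ k : ℕ) : ZMod r) =
      (q : ZMod r) ^ (2 * k) - ((q : ZMod r) ^ (k + 1) - (q : ZMod r) ^ k) := by
  obtain ⟨j, rfl⟩ := Nat.exists_eq_add_of_le' hk
  have h1 : 2 * (j + 1) - 1 = 2 * j + 1 := by omega
  have h2 : j + 1 - 1 = j := by omega
  rw [h1, h2]
  have h3 : q ^ (j + 1) ≤ q ^ (2 * j + 1) + q ^ j :=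
    (Nat.pow_le_pow_right hq (by omega)).trans (Nat.le_add_right _ _)
  rw [Nat.cast_sub h3]
  push_cast
  ring

theorem main {F : Type*} [Field F] [Fintype F] {p q : ℕ} [Fact p.Prime] [CharP F p] (hF : Fintype.card F = q) (m r i t : ℕ) (hm : 1 ≤ m) (hr : r.Prime) (hr2 : r ≠ 2) (hrp : r ≠ p) (hi : i = orderOf (q : ZMod r)) (ht : t * i = r - 1) : Nat.card {C : ConjClasses ↥(Cfsg.isometryGroup F (Cfsg.quadFormPlus m F)) // ∃ g : ↥(Cfsg.isometryGroup F (Cfsg.quadFormPlus m F)), ConjClasses.mk g = C ∧ orderOf g = r} = if Odd i then Nat.choose (m / i + t / 2) (t / 2) - 1 else Nat.choose (2 * m / i + t) t - 1 - (if i ∣ 2 * m ∧ Odd (2 * m / i) then Nat.choose (2 * m / i + t - 1) (t - 1) else 0) := by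
  classical
  obtain ⟨S, hSc, hxS, hipos, hS1, hS2⟩ := Cfsg.Agent.S2568.cyc_facts hF r i t hr hrp hi ht
  have hrF : (r : F) ≠ 0 := cast_ne_zero_of_coprime p r ((Nat.coprime_primes hr Fact.out).2 hrp)
  have hrodd : Odd r := hr.odd_of_ne_two hr2
  have hx0m : (X - 1 : F[X]).Monic := by simpa using monic_X_sub_C (1 : F)
  have hx0i : Irreducible (X - 1 : F[X]) := by simpa using irreducible_X_sub_C (1 : F)
  have hqpos : 1 ≤ q := by rw [← hF]; exact Fintype.card_pos
  have : Fact r.Prime := ⟨hr⟩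
  have hmat : ∀ P ∈ S, ∃ A Ai : Matrix (Fin i) (Fin i) F, A ^ r = 1 ∧ A * Ai = 1 ∧
      A.charpoly = P ∧ A ≠ 1 := by
    intro P hP
    obtain ⟨hPm, hPi, hPd, hPr⟩ := hS1 P hP
    obtain ⟨A, hA, hAc⟩ := exists_mat_of_multiset (n := i) ({P} : Multiset F[X]) r
      (by intro h hh; rw [Multiset.mem_singleton] at hh; rw [hh]; exact ⟨hPm, hPr⟩)
      (by rw [Multiset.map_singleton, Multiset.sum_singleton, hPd])
    rw [Multiset.prod_singleton] at hAc
    refine ⟨A, A ^ (r - 1), hA, ?_, hAc, ?_⟩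
    · rw [← pow_succ', Nat.sub_add_cancel hr.pos, hA]
    · intro h1
      rw [h1, Matrix.charpoly_one, Fintype.card_fin] at hAc
      have hdvd : (X - 1 : F[X]) ∣ P := by rw [← hAc]; exact dvd_pow_self _ hipos.ne'
      have := eq_of_monic_of_associated hx0m hPm (hx0i.associated_of_dvd hPi hdvd)
      exact hxS (this ▸ hP)
  have hgi : ∀ g : ↥(Cfsg.isometryGroup F (Cfsg.quadFormPlus m F)), g.1.1 * (g⁻¹).1.1 = 1 := by
    intro g
    have : (g * g⁻¹).1.1 = 1 := by rw [mul_inv_cancel]; rfl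
    exact this
  have hinvcp : ∀ g : ↥(Cfsg.isometryGroup F (Cfsg.quadFormPlus m F)),
      (g⁻¹).1.1.charpoly = g.1.1.charpoly := by
    intro g
    exact iso_inv_charpoly (Cfsg.Agent.S2562.qP F m) (Cfsg.Agent.S2562.nondeg_qP m) g.1.1
      (g⁻¹).1.1 (hgi g)
      (fun v => by rw [Cfsg.Agent.S2562.qP_apply, Cfsg.Agent.S2562.qP_apply]; exact g.2 v v)
  have hpowc : ∀ g : ↥(Cfsg.isometryGroup F (Cfsg.quadFormPlus m F)), g ^ r = 1 →
      g.1.1 ^ r = 1 := by
    intro g hgr
    have : (g ^ r).1.1 = 1 := by rw [hgr]; rfl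
    rw [SubgroupClass.coe_pow, Units.val_pow_eq_pow_val] at this
    exact this
  have hmonS' : ∀ M : Multiset F[X], (∀ h ∈ M, h = X - 1 ∨ h ∈ S) → ∀ h ∈ M, h.Monic := by
    intro M hM h hh
    rcases hM h hh with rfl | hS
    · exact hx0m
    · exact (hS1 h hS).1
  by_cases hodd : Odd i
  · rw [if_pos hodd]
    have hstS : ∀ P ∈ S, st P ∈ S := by
      intro P hP
      obtain ⟨A, Ai, hA, hAi, hAc, hA1⟩ := hmat P hP
      have hAi' : Ai * A = 1 := mul_eq_one_comm.mp hAi
      have hAir : Ai ^ r = 1 := by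
        have hcomm : Commute A Ai := by rw [Commute, SemiconjBy, hAi, hAi']
        have := hcomm.mul_pow r
        rw [hAi, one_pow, hA, one_mul] at this
        exact this.symm
      have h1 : Ai.charpoly = st P := by rw [charpoly_inv A Ai hAi, hAc]
      have hirr : Irreducible (st P) := st_irr P (hS1 P hP).2.1
      have hdvd : st P ∣ X ^ r - 1 :=
        factor_dvd_of_pow_eq_one Ai r hAir (st P) hirr (by rw [h1])
      rcases hS2 (st P) (st_monic P (hS1 P hP).1.ne_zero) hirr hdvd with h | h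
      · exfalso
        have := st_st P (hS1 P hP).1
        rw [h, st_X_sub_one] at this
        exact hxS (this ▸ hP)
      · exact h
    have hfp : ∀ P ∈ S, st P ≠ P := by
      intro P hP hfix
      obtain ⟨A, Ai, hA, hAi, hAc, hA1⟩ := hmat P hP
      have hz := rz_self r hrodd hrF A Ai hA hAi (by rw [hAc]; exact (hS1 P hP).2.1) hA1
        (by rw [charpoly_inv A Ai hAi, hAc, hfix])
      have := rz_even r _ hz
      rw [hAc, (hS1 P hP).2.2.1] at this
      exact (Nat.not_even_iff_odd.2 hodd) this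
    obtain ⟨σ, hσdef⟩ : ∃ σ : F[X] → F[X], σ = fun P => if P ∈ S then st P else P := ⟨_, rfl⟩
    have hσS : ∀ P ∈ S, σ P = st P := by
      intro P hP; rw [hσdef]; exact if_pos hP
    have hσnS : ∀ P, P ∉ S → σ P = P := by
      intro P hP; rw [hσdef]; exact if_neg hP
    have hσinv : Function.Involutive σ := by
      intro P
      by_cases hP : P ∈ S
      · rw [hσS P hP, hσS _ (hstS P hP), st_st P (hS1 P hP).1]
      · rw [hσnS P hP, hσnS P hP]
    have hσx : σ (X - 1) = X - 1 := hσnS _ hxS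
    have hσSS : ∀ P ∈ S, σ P ∈ S := fun P hP => by rw [hσS P hP]; exact hstS P hP
    have H1 : ∀ g : ↥(Cfsg.isometryGroup F (Cfsg.quadFormPlus m F)), g ^ r = 1 →
        (∀ h ∈ normalizedFactors g.1.1.charpoly, h = X - 1 ∨ h ∈ S) →
        Multiset.card ((normalizedFactors g.1.1.charpoly).filter (fun h => h ≠ X - 1)) ≠ 0 →
        Multiset.card ((normalizedFactors g.1.1.charpoly).filter (fun h => h ≠ X - 1)) ≤ 2 * m / i →
        Multiset.count (X - 1) (normalizedFactors g.1.1.charpoly) =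
          2 * m - i * Multiset.card ((normalizedFactors g.1.1.charpoly).filter (fun h => h ≠ X - 1)) →
        ((normalizedFactors g.1.1.charpoly).map σ = normalizedFactors g.1.1.charpoly ∧
          (fun c : ℕ => c ≠ 0 ∧ c ≤ 2 * m / i)
            (Multiset.card ((normalizedFactors g.1.1.charpoly).filter (fun h => h ≠ X - 1)))) := by
      intro g hg hfac hc0 hcle _
      refine ⟨?_, hc0, hcle⟩
      have h1 := nf_st g.1.1 (g⁻¹).1.1 (hgi g) (hinvcp g)
      conv_rhs => rw [← h1]
      apply Multiset.map_congr rfl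
      intro h hh
      rcases hfac h hh with rfl | hS
      · rw [hσx, st_X_sub_one]
      · exact hσS h hS
    have H2 : ∀ M : Multiset F[X], (∀ h ∈ M, h = X - 1 ∨ h ∈ S) → M.map σ = M →
        (fun c : ℕ => c ≠ 0 ∧ c ≤ 2 * m / i) (Multiset.card (M.filter (fun h => h ≠ X - 1))) →
        (M.map natDegree).sum = 2 * m →
        ∃ s : ↥(Cfsg.isometryGroup F (Cfsg.quadFormPlus m F)),
          s.1.1.charpoly = M.prod ∧ s ^ r = 1 := by
      intro M hM hMσ _ hdeg
      have hz : Hz r M.prod := by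
        refine gen_multiset (Hz r) (hz_one r) (hz_mul r) (hz_sq r) S σ i
          (fun P hP => ⟨(hS1 P hP).1, (hS1 P hP).2.2.1⟩) hσSS
          (fun P _ => hσinv P) ?_ ?_ _ M rfl hM hMσ (by rw [hdeg]; exact even_two_mul m)
        · intro P hP hfix
          rw [hσS P hP] at hfix
          exact absurd hfix (hfp P hP)
        · intro P hP _
          obtain ⟨A, Ai, hA, hAi, hAc, hA1⟩ := hmat P hP
          refine ⟨Fin i, inferInstance, inferInstance, A, Ai, ?_, hAi, hA, ?_⟩
          · rw [natDegree_mul (hS1 P hP).1.ne_zero (hS1 _ (hσSS P hP)).1.ne_zero,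
              (hS1 P hP).2.2.1, (hS1 _ (hσSS P hP)).2.2.1, Fintype.card_fin, two_mul]
          · rw [charpoly_inv A Ai hAi, hAc, hσS P hP]
      obtain ⟨ι, _, _, C, Ci, hc, hC, hCr, hχ⟩ := hz
      have hcm : Fintype.card ι = m := by
        have := natDegree_multiset_prod_of_monic M (hmonS' M hM)
        rw [hdeg] at this
        omega
      obtain ⟨s, hs1, hs2⟩ := hyp_to_plus m r hcm C Ci hC hCr
      exact ⟨s, by rw [hs1, hχ], hs2⟩
    obtain ⟨T, hTS, hT1, hTc⟩ := exists_transversal S σ hσinv hσSS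
      (fun P hP => by rw [hσS P hP]; exact hfp P hP)
    rw [classes_card_plus m r i hr hr2 hrp S hxS hipos hS1 hS2 σ
        (fun c : ℕ => c ≠ 0 ∧ c ≤ 2 * m / i) (fun c h => h.1) H1 H2 (fun c h => h.2),
      card_inv (X - 1 : F[X]) S T σ hσinv hxS hσx hTS hT1 hσSS m i hipos,
      card_multiset_le_ne (X - 1 : F[X]) T (fun h => hxS (hTS h)) (m / i)]
    have : T.card = t / 2 := by omega
    rw [this]
  · rw [if_neg hodd]
    have hev : Even i := Nat.not_odd_iff_even.1 hodd
    obtain ⟨e, he⟩ := hev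
    have hepos : 0 < e := by omega
    have hq1 : ((q : ZMod r)) ^ e = -1 := by
      have h1 : ((q : ZMod r) ^ e) * ((q : ZMod r) ^ e) = 1 := by
        rw [← pow_add, ← he, hi, pow_orderOf_eq_one]
      rcases mul_self_eq_one_iff.1 h1 with h | h
      · exfalso
        have : e < orderOf (q : ZMod r) := by rw [← hi]; omega
        exact pow_ne_one_of_lt_orderOf (by omega) this h
      · exact h
    have hdvd : r ∣ q ^ e + 1 := by
      rw [← ZMod.natCast_eq_zero_iff]
      push_cast
      rw [hq1]; ring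
    have h2ne : (2 : ZMod r) ≠ 0 := by
      intro h
      have h2 : ((2 : ℕ) : ZMod r) = 0 := by exact_mod_cast h
      rw [ZMod.natCast_eq_zero_iff] at h2
      exact hr2 ((Nat.prime_dvd_prime_iff_eq hr Nat.prime_two).1 h2)
    have hqne1 : (q : ZMod r) ≠ 1 := by
      intro h
      rw [h, one_pow] at hq1
      apply h2ne
      linear_combination hq1
    have hq0 : (q : ZMod r) ≠ 0 := by
      intro h
      rw [h, zero_pow hepos.ne'] at hq1
      have : (1 : ZMod r) = 0 := by rw [← neg_neg (1 : ZMod r), ← hq1, neg_zero]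
      exact one_ne_zero this
    have hfrob : ∀ (A : Matrix (Fin i) (Fin i) F) (k : ℕ),
        (A ^ (q ^ k)).charpoly = A.charpoly := by
      intro A k
      induction k with
      | zero => rw [pow_zero, pow_one]
      | succ k ih =>
        have := FiniteField.Matrix.charpoly_pow_card (A ^ (q ^ k))
        rw [hF] at this
        rw [pow_succ, pow_mul, this, ih]
    have hatom : ∀ P ∈ S, P.Monic ∧ Qz r P := by
      intro P hP
      refine ⟨(hS1 P hP).1, ?_⟩
      obtain ⟨A, Ai, hA, hAi, hAc, hA1⟩ := hmat P hP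
      have hAq : A ^ (q ^ e) * A = 1 := by
        obtain ⟨k, hk⟩ := hdvd
        rw [← pow_succ, hk, pow_mul, hA, one_pow]
      have hAiq : Ai = A ^ (q ^ e) := by
        calc Ai = (A ^ (q ^ e) * A) * Ai := by rw [hAq, Matrix.one_mul]
          _ = A ^ (q ^ e) := by rw [Matrix.mul_assoc, hAi, Matrix.mul_one]
      have := qz_self r hrodd hrF A Ai hA hAi (by rw [hAc]; exact (hS1 P hP).2.1) hA1
        (by rw [hAiq, hfrob])
      rwa [hAc] at this
    have hpowe : ∀ c : ℕ, (q : ZMod r) ^ (e * c) = (-1) ^ c := by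
      intro c; rw [pow_mul, hq1]
    obtain ⟨ok, hokdef⟩ : ∃ ok : ℕ → Prop,
        ok = fun c => (c ≠ 0 ∧ c ≤ 2 * m / i) ∧ ¬ (i * c = 2 * m ∧ Odd c) := ⟨_, rfl⟩
    have H1 : ∀ g : ↥(Cfsg.isometryGroup F (Cfsg.quadFormPlus m F)), g ^ r = 1 →
        (∀ h ∈ normalizedFactors g.1.1.charpoly, h = X - 1 ∨ h ∈ S) →
        Multiset.card ((normalizedFactors g.1.1.charpoly).filter (fun h => h ≠ X - 1)) ≠ 0 →
        Multiset.card ((normalizedFactors g.1.1.charpoly).filter (fun h => h ≠ X - 1)) ≤ 2 * m / i →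
        Multiset.count (X - 1) (normalizedFactors g.1.1.charpoly) =
          2 * m - i * Multiset.card ((normalizedFactors g.1.1.charpoly).filter (fun h => h ≠ X - 1)) →
        ((normalizedFactors g.1.1.charpoly).map id = normalizedFactors g.1.1.charpoly ∧
          ok (Multiset.card ((normalizedFactors g.1.1.charpoly).filter (fun h => h ≠ X - 1)))) := by
      intro g hg hfac hc0 hcle hcnt
      refine ⟨Multiset.map_id _, ?_⟩
      rw [hokdef]
      refine ⟨⟨hc0, hcle⟩, ?_⟩
      rintro ⟨hic, hcodd⟩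
      have hcnt0 : Multiset.count (X - 1) (normalizedFactors g.1.1.charpoly) = 0 := by
        rw [hcnt, hic]; exact Nat.sub_self _
      have hfix : ∀ v : Fin m ⊕ Fin m → F, g.1.1 *ᵥ v = v → v = 0 := by
        intro v hv
        by_contra hv0
        have := fix_factor g.1.1 v hv0 hv
        exact (Multiset.count_eq_zero.1 hcnt0) this
      have hmod := card_zero_modEq r g.1.1 (hpowc g hg) (Cfsg.quadFormPlus m F) (fun v => g.2 v v)
      have hone : Nat.card {v : Fin m ⊕ Fin m → F // Cfsg.quadFormPlus m F v = 0 ∧ g.1.1 *ᵥ v = v} = 1 := by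
        rw [Nat.card_eq_one_iff_unique]
        refine ⟨⟨fun a b => Subtype.ext ((hfix a.1 a.2.2).trans (hfix b.1 b.2.2).symm)⟩,
          ⟨⟨0, ?_, Matrix.mulVec_zero _⟩⟩⟩
        rw [← Cfsg.Agent.S2562.qP_apply, map_zero]
      rw [hone, Cfsg.Agent.S0289.result hF m hm] at hmod
      have hmod' := (ZMod.natCast_eq_natCast_iff _ _ _).2 hmod
      have hcast := cast_plus r q m hqpos hm
      rw [hmod'] at hcast
      have hmec : m = e * Multiset.card ((normalizedFactors g.1.1.charpoly).filter (fun h => h ≠ X - 1)) := by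
        have h1 : (e + e) * Multiset.card ((normalizedFactors g.1.1.charpoly).filter (fun h => h ≠ X - 1)) = 2 * m := by
          rw [← he]; exact hic
        have h2 : (e + e) * Multiset.card ((normalizedFactors g.1.1.charpoly).filter (fun h => h ≠ X - 1)) =
            2 * (e * Multiset.card ((normalizedFactors g.1.1.charpoly).filter (fun h => h ≠ X - 1))) := by ring
        omega
      have hQm : (q : ZMod r) ^ m = -1 := by
        rw [hmec, hpowe, hcodd.neg_one_pow]
      have hQ2m : (q : ZMod r) ^ (2 * m) = 1 := by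
        rw [mul_comm, pow_mul, hQm]; ring
      rw [hQ2m, pow_succ, hQm] at hcast
      apply hqne1
      have h3 : (2 : ZMod r) * ((q : ZMod r) - 1) = 0 := by
        push_cast at hcast
        linear_combination hcast
      rcases mul_eq_zero.1 h3 with h | h
      · exact absurd h h2ne
      · exact sub_eq_zero.1 h
    have H2 : ∀ M : Multiset F[X], (∀ h ∈ M, h = X - 1 ∨ h ∈ S) → M.map id = M →
        ok (Multiset.card (M.filter (fun h => h ≠ X - 1))) → (M.map natDegree).sum = 2 * m →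
        ∃ s : ↥(Cfsg.isometryGroup F (Cfsg.quadFormPlus m F)),
          s.1.1.charpoly = M.prod ∧ s ^ r = 1 := by
      intro M hM _ hMok hdeg
      rw [hokdef] at hMok
      obtain ⟨⟨hc0, hcle⟩, hnot⟩ := hMok
      obtain ⟨M', hM'⟩ : ∃ M' : Multiset F[X], M' = M.filter (fun h => h ≠ X - 1) := ⟨_, rfl⟩
      obtain ⟨c, hc⟩ : ∃ c : ℕ, c = Multiset.card M' := ⟨_, rfl⟩
      rw [← hM', ← hc] at hc0 hcle hnot
      have hM'S : ∀ h ∈ M', h ∈ S := by
        intro h hh
        rw [hM', Multiset.mem_filter] at hh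
        exact (hM h hh.1).resolve_left hh.2
      have hds := degsum S i (fun P hP => (hS1 P hP).2.2.1) M hM
      rw [hdeg, ← hM', ← hc] at hds
      have hic : i * c = 2 * (e * c) := by rw [he]; ring
      obtain ⟨k, hk⟩ : ∃ k : ℕ, k = m - e * c := ⟨_, rfl⟩
      have hkm : k ≤ m := by omega
      have hmk : m - k = e * c := by omega
      have hcount : M.count (X - 1) = 2 * k := by omega
      obtain ⟨ιb, _, _, g, gi, Mq, Ni, hcb, hg, hgr, hMq, hN, hfix, hχ⟩ :=
        qz_prod r S hatom M' hM'S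
      have hcb' : Fintype.card ιb = 2 * (m - k) := by
        rw [hcb, natDegree_multiset_prod_of_monic M' (fun h hh => (hS1 h (hM'S h hh)).1),
          Multiset.map_congr rfl (fun h hh => (hS1 h (hM'S h hh)).2.2.1), Multiset.map_const',
          Multiset.sum_replicate, smul_eq_mul, ← hc, hmk, mul_comm, hic]
      have hsq : (q : ZMod r) ^ (2 * (m - k)) = 1 := by
        rw [hmk, mul_comm 2, pow_mul, hpowe, ← pow_mul, mul_comm, pow_mul]
        simp
      have hprod : M.prod = g.charpoly * (X - 1) ^ (2 * k) := by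
        conv_lhs => rw [ms_decomp (X - 1 : F[X]) M]
        rw [Multiset.prod_add, Multiset.prod_replicate, ← hM', hχ, hcount]
      rw [hprod]
      rcases Nat.even_or_odd c with hce | hco
      · -- hyperbolic complement
        have hQmk : (q : ZMod r) ^ (m - k) = 1 := by
          rw [hmk, hpowe, hce.neg_one_pow]
        refine to_plus hF r hr2 hqne1 hq0 m k hm hkm hsq g gi Mq Ni hcb' hg hgr hMq hN hfix
          (ιd := Fin k ⊕ Fin k) (by rw [Fintype.card_sum, Fintype.card_fin, two_mul])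
          (Cfsg.Agent.S2562.qP F k) (Cfsg.Agent.S2562.nondeg_qP k) ?_
        rw [hQmk, one_mul]
        rcases Nat.eq_zero_or_pos k with hk0 | hkpos
        · subst hk0
          have hone : Nat.card {w : Fin 0 ⊕ Fin 0 → F // Cfsg.Agent.S2562.qP F 0 w = 0} = 1 := by
            rw [Nat.card_eq_one_iff_unique]
            exact ⟨⟨fun a b => Subtype.ext (Subsingleton.elim _ _)⟩, ⟨⟨0, map_zero _⟩⟩⟩
          rw [hone]
          simp
        · have hcard : Nat.card {w : Fin k ⊕ Fin k → F // Cfsg.Agent.S2562.qP F k w = 0} =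
              q ^ (2 * k - 1) + q ^ k - q ^ (k - 1) := by
            rw [← Cfsg.Agent.S0289.result hF k hkpos]
            exact Nat.card_congr (Equiv.subtypeEquivRight
              (fun v => by rw [Cfsg.Agent.S2562.qP_apply]))
          rw [hcard]
          exact cast_plus r q k hqpos hkpos
      · -- elliptic complement
        have hkpos : 1 ≤ k := by
          by_contra hk0
          apply hnot
          refine ⟨?_, hco⟩
          omega
        have hQmk : (q : ZMod r) ^ (m - k) = -1 := by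
          rw [hmk, hpowe, hco.neg_one_pow]
        obtain ⟨ζ, hζ⟩ := exists_zeta (F := F)
        refine to_plus hF r hr2 hqne1 hq0 m k hm hkm hsq g gi Mq Ni hcb' hg hgr hMq hN hfix
          (ιd := (Fin (k - 1) ⊕ Fin (k - 1)) ⊕ Fin 2)
          (by simp only [Fintype.card_sum, Fintype.card_fin]; omega)
          (Cfsg.Agent.S2562.qM F (k - 1) ζ) (Cfsg.Agent.S2562.nondeg_qM (k - 1) ζ hζ) ?_
        have hcard : Nat.card {w : (Fin (k - 1) ⊕ Fin (k - 1)) ⊕ Fin 2 → F //
            Cfsg.Agent.S2562.qM F (k - 1) ζ w = 0} = q ^ (2 * k - 1) + q ^ (k - 1) - q ^ k := by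
          rw [← Cfsg.Agent.S0290.result hF k hkpos 1 ζ (anis_of_zeta ζ hζ)]
          exact Nat.card_congr (Equiv.subtypeEquivRight
            (fun v => by rw [Cfsg.Agent.S2562.qM_apply]))
        rw [hcard, hQmk, cast_minus r q k hqpos hkpos]
        ring
    have hSpos : 0 < S.card := by
      rw [hSc]
      rcases Nat.eq_zero_or_pos t with h | h
      · exfalso
        rw [h, zero_mul] at ht
        have := hr.two_le
        omega
      · exact h
    rw [classes_card_plus m r i hr hr2 hrp S hxS hipos hS1 hS2 id ok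
        (fun c h => by rw [hokdef] at h; exact h.1.1) H1 H2
        (fun c h => by rw [hokdef] at h; exact h.1.2), ← hSc]
    refine (Eq.trans ?_ (card_slack (X - 1 : F[X]) S hxS ok
      (fun c => 2 * m - i * c))).trans ?_
    · apply Nat.card_congr
      exact Equiv.subtypeEquivRight
        (fun M => ⟨fun h => ⟨h.1, h.2.2⟩, fun h => ⟨h.1, Multiset.map_id M, h.2⟩⟩)
    · rw [hokdef]
      exact card_excl (X - 1 : F[X]) S hxS hSpos i (2 * m) hipos (by omega)



/-- Number of conjugacy classes of elements of odd prime order r ≠ p in the orthogonal group O⁺_2m(q) of Σ x_j y_j (m ≥ 1): with i the multiplicative order of q mod r and t = (r − 1)/i — if i is odd, C(⌊m/i⌋ + t/2, t/2) − 1; if i is even, C(⌊2m/i⌋ + t, t) − 1 minus, when i divides 2m with odd quotient, the C(2m/i + t − 1, t − 1) tuples using the whole space (an odd number of elliptic i-blocks fills an elliptic, not a hyperbolic, space). -/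
theorem result {F : Type*} [Field F] [Fintype F] {p q : ℕ} [Fact p.Prime] [CharP F p] (hF : Fintype.card F = q) (m r i t : ℕ) (hm : 1 ≤ m) (hr : r.Prime) (hr2 : r ≠ 2) (hrp : r ≠ p) (hi : i = orderOf (q : ZMod r)) (ht : t * i = r - 1) : Nat.card {C : ConjClasses ↥(Cfsg.isometryGroup F (Cfsg.quadFormPlus m F)) // ∃ g : ↥(Cfsg.isometryGroup F (Cfsg.quadFormPlus m F)), ConjClasses.mk g = C ∧ orderOf g = r} = if Odd i then Nat.choose (m / i + t / 2) (t / 2) - 1 else Nat.choose (2 * m / i + t) t - 1 - (if i ∣ 2 * m ∧ Odd (2 * m / i) then Nat.choose (2 * m / i + t - 1) (t - 1) else 0) := by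
  exact main hF m r i t hm hr hr2 hrp hi ht

end Cfsg.Agent.S2674
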