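import Cfsg.Statements.S2675
import Mathlib
import Cfsg.Agent.Lib.helper10.OrthType

set_option autoImplicit false
open Cfsg

namespace Cfsg.Agent.S2675

open Polynomial Matrix UniqueFactorizationMonoid
open Cfsg.Agent.Lib.helper18.SpRz Cfsg.Agent.Lib.helper18.RCF Cfsg.Agent.Lib.helper10.OrthRz
open Cfsg.Agent.Lib.helper10.OrthCount Cfsg.Agent.Lib.helper10.OrthType

theorem main {F : Type*} [Field F] [Fintype F] {p q : ℕ} [Fact p.Prime] [CharP F p] (hF : Fintype.card F = q) (m r i t : ℕ) (hm : 1 ≤ m) (a c : F) (hac : ∀ z₁ z₂ : F, z₁ ^ 2 + a * z₁ * z₂ + c * z₂ ^ 2 = 0 → z₁ = 0 ∧ z₂ = 0) (hr : r.Prime) (hr2 : r ≠ 2) (hrp : r ≠ p) (hi : i = orderOf (q : ZMod r)) (ht : t * i = r - 1) : Nat.card {C : ConjClasses ↥(Cfsg.isometryGroup F (Cfsg.quadFormMinus (m - 1) F a c)) // ∃ g : ↥(Cfsg.isometryGroup F (Cfsg.quadFormMinus (m - 1) F a c)), ConjClasses.mk g = C ∧ orderOf g = r} = if Odd i then Nat.choose (m / i + t / 2) (t / 2) - 1 - (if i ∣ m then Nat.choose (m / i + t / 2 -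 1) (t / 2 - 1) else 0) else Nat.choose (2 * m / i + t) t - 1 - (if i ∣ 2 * m ∧ Even (2 * m / i) then Nat.choose (2 * m / i + t - 1) (t - 1) else 0) := by
  classical
  obtain ⟨S, σ, hSc, hxS, hipos, hS1, hS2, hσinv, hσx, hσSS, hat1, hat2, hoddfp, hevfix, hσst⟩ :=
    sigma_setup hF r i t hr hr2 hrp hi ht
  have : Fact r.Prime := ⟨hr⟩
  have hrodd : Odd r := hr.odd_of_ne_two hr2
  have hQi : (q : ZMod r) ^ i = 1 := by rw [hi]; exact pow_orderOf_eq_one _
  have hQr : (q : ZMod r) ≠ 0 := by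
    intro h0
    rw [h0, zero_pow hipos.ne'] at hQi
    exact zero_ne_one hQi
  have ht1 : 1 ≤ t := by
    have h2r : 2 ≤ r := hr.two_le
    rcases Nat.eq_zero_or_pos t with h0 | h0
    · rw [h0, zero_mul] at ht
      omega
    · exact h0
  have hB := NMinus_B (m - 1) a c hac
  have hcardι : Fintype.card ((Fin (m - 1) ⊕ Fin (m - 1)) ⊕ Fin 2) = 2 * m := by
    simp only [Fintype.card_sum, Fintype.card_fin]
    omega
  have hQN : ∀ v, Cfsg.quadFormMinus (m - 1) F a c v = v ⬝ᵥ NMinus (m - 1) a c *ᵥ v :=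
    fun v => (qN_NMinus (m - 1) a c v).symm
  have hkeven : ∀ M : Multiset F[X], (∀ h ∈ M, h = X - 1 ∨ h ∈ S) → M.map σ = M →
      Even (i * Multiset.card (M.filter (fun h => h ≠ X - 1))) := by
    intro M hM hMσ
    by_cases hodd : Odd i
    · obtain ⟨T, hTS, hT1, hTc⟩ := exists_transversal S σ hσinv hσSS (hoddfp hodd)
      rw [card_filter_two (X - 1 : F[X]) S T σ hσinv hxS hTS hT1 hσSS M hM hMσ]
      exact ⟨i * Multiset.card (M.filter (fun h => h ∈ T)), by ring⟩
    · exact (Nat.not_odd_iff_even.1 hodd).mul_right _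
  have H1 : ∀ g : GL ((Fin (m - 1) ⊕ Fin (m - 1)) ⊕ Fin 2) F,
      g ∈ Cfsg.isometryGroup F (Cfsg.quadFormMinus (m - 1) F a c) → g ^ r = 1 →
      (∀ h ∈ normalizedFactors g.1.charpoly, h = X - 1 ∨ h ∈ S) →
      (normalizedFactors g.1.charpoly).map σ = normalizedFactors g.1.charpoly ∧
      (fun k : ℕ => ¬(i * k = 2 * m ∧ Even k))
        (Multiset.card ((normalizedFactors g.1.charpoly).filter (fun h => h ≠ X - 1))) := by
    intro g hgm hg hfac
    have hσpart : (normalizedFactors g.1.charpoly).map σ = normalizedFactors g.1.charpoly := by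
      have hgi : g.1 * (g⁻¹).1 = 1 := by rw [← Units.val_mul, mul_inv_cancel, Units.val_one]
      have hci := orth_charpoly_inv (NMinus (m - 1) a c) _ g.1 (g⁻¹).1 hB hgi
        (fun v => by rw [← hQN, ← hQN]; exact hgm v v)
      have h1 := nf_st g.1 (g⁻¹).1 hgi hci
      conv_rhs => rw [← h1]
      exact Multiset.map_congr rfl (fun h hh => hσst h (hfac h hh))
    refine ⟨hσpart, ?_⟩
    rintro ⟨hik, hkev⟩
    have hds := deg_sum i S (fun P hP => (hS1 P hP).2.2.1) _ hfac
    rw [nf_deg, hcardι] at hds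
    have hcnt : Multiset.count (X - 1) (normalizedFactors g.1.charpoly) = 0 := by omega
    have hfilt : (normalizedFactors g.1.charpoly).filter (fun h => h ≠ X - 1) =
        normalizedFactors g.1.charpoly := by
      rw [Multiset.filter_eq_self]
      intro h hh h0
      rw [h0] at hh
      exact (Multiset.count_eq_zero.1 hcnt) hh
    have hev1 : g.1.charpoly.eval 1 ≠ 0 := by
      rw [← nf_prod g.1, ← hfilt]
      exact filter_eval_one S hxS (fun P hP => ⟨(hS1 P hP).1, (hS1 P hP).2.1⟩) _ hfac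
    have hQm := minus_free hF m hm a c hac g r hr hr2 hQr hg
      (fun v hv => no_fix g.1 hev1 v hv) (fun v => hgm v v)
    obtain ⟨k', hk'⟩ := hkev
    have hm' : m = i * k' := by
      rw [hk'] at hik
      have h5 : i * (k' + k') = 2 * (i * k') := by ring
      omega
    rw [hm', pow_mul, hQi, one_pow] at hQm
    exact one_ne_neg_one_zmod r hr hr2 hQm
  have H2 : ∀ M : Multiset F[X], (∀ h ∈ M, h = X - 1 ∨ h ∈ S) → M.map σ = M →
      (M.map natDegree).sum = Fintype.card ((Fin (m - 1) ⊕ Fin (m - 1)) ⊕ Fin 2) →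
      (fun k : ℕ => ¬(i * k = 2 * m ∧ Even k))
        (Multiset.card (M.filter (fun h => h ≠ X - 1))) →
      ∃ s : GL ((Fin (m - 1) ⊕ Fin (m - 1)) ⊕ Fin 2) F,
        s ∈ Cfsg.isometryGroup F (Cfsg.quadFormMinus (m - 1) F a c) ∧
        s.1.charpoly = M.prod ∧ s ^ r = 1 := by
    intro M hM hMσ hdeg hok
    have hoz := oz_filter r i hrodd S hxS hS1 σ hσinv hσx hσSS hat1 hat2 M hM hMσ
      (hkeven M hM hMσ)
    have hds := deg_sum i S (fun P hP => (hS1 P hP).2.2.1) M hM
    rw [hdeg, hcardι] at hds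
    obtain ⟨n, hn⟩ := hkeven M hM hMσ
    have hχd : ((M.filter (fun h => h ≠ X - 1)).prod).natDegree = 2 * n := by
      rw [filter_natDegree i S (fun P hP => ⟨(hS1 P hP).1, (hS1 P hP).2.2.1⟩) M hM, hn, two_mul]
    have hχ1 := filter_eval_one S hxS (fun P hP => ⟨(hS1 P hP).1, (hS1 P hP).2.1⟩) M hM
    have hd0 : m - n = 0 → (q : ZMod r) ^ m ≠ 1 := by
      intro hd
      have hnm : n = m := by omega
      have hkodd : ¬ Even (Multiset.card (M.filter (fun h => h ≠ X - 1))) :=
        fun hev => hok ⟨by omega, hev⟩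
      have hiev : Even i := by
        by_contra hio
        rw [Nat.not_even_iff_odd] at hio
        have hko := Nat.not_even_iff_odd.1 hkodd
        have h6 := hio.mul hko
        rw [hn] at h6
        exact (Nat.not_even_iff_odd.2 h6) ⟨n, rfl⟩
      obtain ⟨e, he⟩ := hiev
      have hQe := zmod_half r (q : ZMod r) i e hi he hipos
      have hmk : m = e * Multiset.card (M.filter (fun h => h ≠ X - 1)) := by
        have h7 : i * Multiset.card (M.filter (fun h => h ≠ X - 1)) =
            2 * (e * Multiset.card (M.filter (fun h => h ≠ X - 1))) := by rw [he]; ring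
        omega
      rw [hmk, pow_mul, hQe, (Nat.not_even_iff_odd.1 hkodd).neg_one_pow]
      exact fun h => one_ne_neg_one_zmod r hr hr2 h.symm
    obtain ⟨s, hs1, hs2, hs3⟩ := oz_to_minus hF r hr hr2 hQr a c hac m n (m - n) hm _ hχd hχ1
      hoz (by omega) hd0
    refine ⟨s, hs1, ?_, hs3⟩
    rw [hs2]
    conv_rhs => rw [ms_decomp (X - 1 : F[X]) M]
    rw [Multiset.prod_add, Multiset.prod_replicate]
    congr 2
    omega
  have hcc := classes_card (NMinus (m - 1) a c) _ hB (Cfsg.quadFormMinus (m - 1) F a c) hQN r i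
    hr hr2 hrp S hxS hipos hS1 hS2 σ (fun k => ¬(i * k = 2 * m ∧ Even k)) H1 H2
  obtain ⟨D2, hD2⟩ : ∃ D2, D2 = 2 * m / i := ⟨_, rfl⟩
  rw [hcardι, ← hD2] at hcc
  rw [hcc]
  by_cases hodd : Odd i
  · rw [if_pos hodd]
    obtain ⟨T, hTS, hT1, hTc⟩ := exists_transversal S σ hσinv hσSS (hoddfp hodd)
    have hT : T.card = t / 2 := by omega
    have hTpos : 1 ≤ T.card := by omega
    rw [← hT]
    by_cases hdiv : i ∣ m
    · rw [if_pos hdiv]
      obtain ⟨L, hL⟩ := hdiv
      have hLpos : 1 ≤ L := by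
        rcases Nat.eq_zero_or_pos L with h0 | h0
        · rw [h0, mul_zero] at hL
          omega
        · exact h0
      have hmi : m / i = L := by rw [hL]; exact Nat.mul_div_cancel_left L hipos
      rw [hmi, pascal_sub L T.card hLpos hTpos]
      refine ((Eq.trans ?_ (card_inv_gen (X - 1 : F[X]) S T σ hσinv hxS hσx hTS hT1 hσSS
        (fun k => (k ≠ 0 ∧ k ≤ D2) ∧ ¬(i * k = 2 * m ∧ Even k)) (fun k => 2 * m - i * k))).trans
        ?_).trans (card_multiset_le_ne (X - 1 : F[X]) T (fun h => hxS (hTS h)) (L - 1))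
      · rfl
      · apply Nat.card_congr
        refine Equiv.subtypeEquivRight (fun N => and_congr_right (fun _ => ?_))
        show ((2 * Multiset.card N ≠ 0 ∧ 2 * Multiset.card N ≤ D2) ∧
          ¬(i * (2 * Multiset.card N) = 2 * m ∧ Even (2 * Multiset.card N))) ↔
          (Multiset.card N ≠ 0 ∧ Multiset.card N ≤ L - 1)
        rw [hD2, ok_iff_div i (2 * m) (2 * L) (2 * Multiset.card N) hipos (by rw [hL]; ring)]
        have hev : Even (2 * Multiset.card N) := even_two_mul _
        simp only [hev, and_true]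
        omega
    · rw [if_neg hdiv, Nat.sub_zero]
      refine ((Eq.trans ?_ (card_inv_gen (X - 1 : F[X]) S T σ hσinv hxS hσx hTS hT1 hσSS
        (fun k => (k ≠ 0 ∧ k ≤ D2) ∧ ¬(i * k = 2 * m ∧ Even k)) (fun k => 2 * m - i * k))).trans
        ?_).trans (card_multiset_le_ne (X - 1 : F[X]) T (fun h => hxS (hTS h)) (m / i))
      · rfl
      · apply Nat.card_congr
        refine Equiv.subtypeEquivRight (fun N => and_congr_right (fun _ => ?_))
        show ((2 * Multiset.card N ≠ 0 ∧ 2 * Multiset.card N ≤ D2) ∧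
          ¬(i * (2 * Multiset.card N) = 2 * m ∧ Even (2 * Multiset.card N))) ↔
          (Multiset.card N ≠ 0 ∧ Multiset.card N ≤ m / i)
        have hnd : ¬ i ∣ 2 * m := fun h =>
          hdiv ((Nat.Coprime.dvd_mul_left (Nat.coprime_two_right.2 hodd)).1 h)
        rw [hD2, ok_iff_ndiv i (2 * m) _ hnd, Nat.le_div_iff_mul_le hipos,
          Nat.le_div_iff_mul_le hipos]
        have e : 2 * Multiset.card N * i = 2 * (Multiset.card N * i) := by ring
        rw [e]
        omega
  · rw [if_neg hodd, ← hSc]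
    have hSpos : 1 ≤ S.card := by rw [hSc]; exact ht1
    have hσid : ∀ M : Multiset F[X], (∀ h ∈ M, h = X - 1 ∨ h ∈ S) → M.map σ = M := by
      intro M hM
      refine (Multiset.map_congr rfl ?_).trans (Multiset.map_id M)
      intro b hb
      rcases hM b hb with rfl | hS
      · exact hσx
      · exact hevfix hodd b hS
    by_cases hcond : i ∣ 2 * m ∧ Even (2 * m / i)
    · rw [if_pos hcond]
      obtain ⟨⟨L, hL⟩, hLev⟩ := hcond
      have hmi : 2 * m / i = L := by rw [hL]; exact Nat.mul_div_cancel_left L hipos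
      rw [hmi] at hLev ⊢
      have hLpos : 1 ≤ L := by
        rcases Nat.eq_zero_or_pos L with h0 | h0
        · rw [h0, mul_zero] at hL
          omega
        · exact h0
      rw [pascal_sub L S.card hLpos hSpos]
      refine ((Eq.trans ?_ (card_slack (X - 1 : F[X]) S hxS
        (fun k => (k ≠ 0 ∧ k ≤ D2) ∧ ¬(i * k = 2 * m ∧ Even k)) (fun k => 2 * m - i * k))).trans
        ?_).trans (card_multiset_le_ne (X - 1 : F[X]) S hxS (L - 1))
      · apply Nat.card_congr
        exact Equiv.subtypeEquivRight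
          (fun M => ⟨fun h => ⟨h.1, h.2.2⟩, fun h => ⟨h.1, hσid M h.1, h.2⟩⟩)
      · apply Nat.card_congr
        refine Equiv.subtypeEquivRight (fun M => and_congr_right (fun _ => ?_))
        show ((Multiset.card M ≠ 0 ∧ Multiset.card M ≤ D2) ∧
          ¬(i * Multiset.card M = 2 * m ∧ Even (Multiset.card M))) ↔
          (Multiset.card M ≠ 0 ∧ Multiset.card M ≤ L - 1)
        rw [hD2, ok_iff_div i (2 * m) L _ hipos hL]
        constructor
        · rintro ⟨⟨h1, h2⟩, h3⟩
          have h4 : Multiset.card M ≠ L := fun h => h3 ⟨h, by rw [h]; exact hLev⟩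
          omega
        · rintro ⟨h1, h2⟩
          exact ⟨⟨h1, by omega⟩, fun h => by omega⟩
    · rw [if_neg hcond, Nat.sub_zero]
      refine ((Eq.trans ?_ (card_slack (X - 1 : F[X]) S hxS
        (fun k => (k ≠ 0 ∧ k ≤ D2) ∧ ¬(i * k = 2 * m ∧ Even k)) (fun k => 2 * m - i * k))).trans
        ?_).trans (card_multiset_le_ne (X - 1 : F[X]) S hxS (2 * m / i))
      · apply Nat.card_congr
        exact Equiv.subtypeEquivRight
          (fun M => ⟨fun h => ⟨h.1, h.2.2⟩, fun h => ⟨h.1, hσid M h.1, h.2⟩⟩)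
      · apply Nat.card_congr
        refine Equiv.subtypeEquivRight (fun M => and_congr_right (fun _ => ?_))
        show ((Multiset.card M ≠ 0 ∧ Multiset.card M ≤ D2) ∧
          ¬(i * Multiset.card M = 2 * m ∧ Even (Multiset.card M))) ↔
          (Multiset.card M ≠ 0 ∧ Multiset.card M ≤ 2 * m / i)
        rw [hD2]
        refine and_iff_left ?_
        rintro ⟨h1, h2⟩
        apply hcond
        have hd : i ∣ 2 * m := ⟨_, h1.symm⟩
        refine ⟨hd, ?_⟩
        have h8 : 2 * m / i = Multiset.card M := by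
          rw [← h1]; exact Nat.mul_div_cancel_left _ hipos
        rw [h8]
        exact h2

/-- Number of conjugacy classes of elements of odd prime order r ≠ p in the orthogonal group O⁻_2m(q) of an elliptic form Σ_(j<m−1) x_j y_j + z₁² + a z₁z₂ + c z₂² (binary part anisotropic, m ≥ 1): with i the multiplicative order of q mod r and t = (r − 1)/i — if i is odd, C(⌊m/i⌋ + t/2, t/2) − 1 minus, when i divides m, the C(m/i + t/2 − 1, t/2 − 1) tuples filling the whole space (dual pairs of totally singular blocks fill a hyperbolic space); if i is even, C(⌊2m/i⌋ + t, t) − 1 minus, when i divides 2m with even quotient, the C(2m/i + t − 1, t − 1) tuples filling the whole space with an even number of elliptic blocks. -/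
theorem result {F : Type*} [Field F] [Fintype F] {p q : ℕ} [Fact p.Prime] [CharP F p] (hF : Fintype.card F = q) (m r i t : ℕ) (hm : 1 ≤ m) (a c : F) (hac : ∀ z₁ z₂ : F, z₁ ^ 2 + a * z₁ * z₂ + c * z₂ ^ 2 = 0 → z₁ = 0 ∧ z₂ = 0) (hr : r.Prime) (hr2 : r ≠ 2) (hrp : r ≠ p) (hi : i = orderOf (q : ZMod r)) (ht : t * i = r - 1) : Nat.card {C : ConjClasses ↥(Cfsg.isometryGroup F (Cfsg.quadFormMinus (m - 1) F a c)) // ∃ g : ↥(Cfsg.isometryGroup F (Cfsg.quadFormMinus (m - 1) F a c)), ConjClasses.mk g = C ∧ orderOf g = r} = if Odd i then Nat.choose (m / i + t / 2) (t / 2) - 1 - (if i ∣ m then Nat.choose (m / i + t / 2 - 1) (t / 2 - 1) else 0) else Nat.choose (2 * m / i + t) t - 1 - (if i ∣ 2 * m ∧ Even (2 * m / i) then Nat.choose (2 * m / i + t - 1) (t - 1) else 0) := by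
  exact main hF m r i t hm a c hac hr hr2 hrp hi ht

end Cfsg.Agent.S2675
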