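import Cfsg.Statements.S2678
import Mathlib
import Cfsg.Agent.Lib.helper13.Embed
import Cfsg.Agent.S2585

set_option autoImplicit false
open Cfsg

open Cfsg.Agent.Lib.helper13

namespace Cfsg.Agent.S2678

/-- Field-extension embedding of symplectic groups: for a field K with q² elements and a field F with q elements there is an injective homomorphism Sp_2a(K) → Sp_4a(F). -/
theorem result {K F : Type*} [Field K] [Fintype K] [Field F] [Fintype F] {q : ℕ} (hK : Fintype.card K = q ^ 2) (hF : Fintype.card F = q) (a : ℕ) : ∃ φ : ↥(Matrix.symplecticGroup (Fin a) K) →* ↥(Matrix.symplecticGroup (Fin (2 * a)) F), Function.Injective φ := by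
  classical
  obtain ⟨ι⟩ := exists_ringHom hF hK
  letI : Algebra F K := ι.toAlgebra
  have hne1 : (1 : K) ≠ 0 := one_ne_zero
  obtain ⟨lam, hlam⟩ : ∃ lam : Module.Dual F K, lam 1 ≠ 0 := by
    by_contra h
    push Not at h
    exact hne1 ((Module.forall_dual_apply_eq_zero_iff F (1 : K)).mp h)
  let S : (Fin a ⊕ Fin a → K) →ₗ[K] (Fin a ⊕ Fin a → K) →ₗ[K] K :=
    Matrix.toLinearMap₂' K (Matrix.J (Fin a) K)
  have hS : ∀ x y, S x y = Cfsg.sympForm a K x y := fun x y => Matrix.toLinearMap₂'_apply' _ _ _
  let B : LinearMap.BilinForm F (Fin a ⊕ Fin a → K) := (S.restrictScalars₁₂ F F).compr₂ lam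
  have hB : ∀ x y, B x y = lam (Cfsg.sympForm a K x y) := fun x y => by
    show lam (S x y) = _
    rw [hS]
  have hAlt : B.IsAlt := by
    intro x
    rw [hB, Cfsg.Agent.S2585.symp_eq]
    have : ∑ i : Fin a, (x (Sum.inr i) * x (Sum.inl i) - x (Sum.inl i) * x (Sum.inr i)) = 0 :=
      Finset.sum_eq_zero (fun i _ => by ring)
    rw [this, map_zero]
  have hsep : ∀ x, (∀ y, B x y = 0) → x = 0 := by
    intro x hx
    have h0 : ∀ y, Cfsg.sympForm a K x y = 0 := by
      intro y
      by_contra hne
      apply hlam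
      have := hx ((Cfsg.sympForm a K x y)⁻¹ • y)
      rw [hB, ← hS, map_smul, hS, smul_eq_mul, inv_mul_cancel₀ hne] at this
      exact this
    funext k
    rcases k with i | i
    · have := h0 (Pi.single (Sum.inr i) 1)
      rw [Cfsg.Agent.S2585.symp_eq] at this
      simp only [Pi.single_apply, Sum.inr.injEq, reduceCtorEq, if_false, mul_zero, zero_sub,
        mul_ite, mul_one, Finset.sum_neg_distrib, Finset.sum_ite_eq', Finset.mem_univ, if_true,
        neg_eq_zero] at this
      exact this
    · have := h0 (Pi.single (Sum.inl i) 1)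
      rw [Cfsg.Agent.S2585.symp_eq] at this
      simp only [Pi.single_apply, Sum.inl.injEq, reduceCtorEq, if_false, mul_zero, sub_zero,
        mul_ite, mul_one, Finset.sum_ite_eq', Finset.mem_univ, if_true] at this
      exact this
  have hNd : B.Nondegenerate :=
    ⟨fun x hx => hsep x hx, fun y hy => hsep y (fun x => by rw [alt_swap B hAlt, hy x, neg_zero])⟩
  have hfin : Module.finrank F (Fin a ⊕ Fin a → K) = 2 * (2 * a) := by
    rw [finrank_fun_ext hF hK]
    simp
    ring
  exact embed_symp (restrHom F (Matrix.symplecticGroup (Fin a) K).subtype)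
    (restrHom_injective _ Subtype.val_injective) B hAlt hNd hfin (by
      intro g x y
      rw [hB, hB, restrHom_apply, restrHom_apply]
      congr 1
      exact Cfsg.Agent.S2585.symp_pres _ g.2 x y)

end Cfsg.Agent.S2678
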