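import Cfsg.Statements.S2682
-- import your own Cfsg.Agent.* helpers here
import Mathlib
import Cfsg.Agent.Lib.helper4.SpInvCent2

set_option autoImplicit false
open Cfsg

namespace Cfsg.Agent.S2682

/-- Centraliser order of an involution t of Sp_2m(q), q even, with s = rank(t − 1) even and f(v, tv) ≠ 0 for some v, f the symplectic form (type c_s): |C(t)| = q^(2ms − (3s² − 3s)/2 − 1) · |Sp_(s−2)(q)| · |Sp_(2m−2s)(q)|. -/
theorem result {F : Type*} [Field F] [Fintype F] [CharP F 2] {q : ℕ} (hF : Fintype.card F = q) {m s : ℕ} (t : Matrix.symplecticGroup (Fin m) F) (ht : t ^ 2 = 1) (hs : ((t : Matrix (Fin m ⊕ Fin m) (Fin m ⊕ Fin m) F) - 1).rank = s) (heven : Even s) (hna : ∃ v : Fin m ⊕ Fin m → F, Cfsg.sympForm m F v ((t : Matrix (Fin m ⊕ Fin m) (Fin m ⊕ Fin m) F).mulVec v) ≠ 0) : Nat.card ↥(Subgroup.centralizer ({t} : Set ↥(Matrix.symplecticGroup (Fin m) F))) = q ^ (2 * m * s - (3 * s ^ 2 - 3 * s)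 / 2 - 1) * ((q : ℕ) ^ (((s - 2) / 2) ^ 2) * ∏ i : Fin ((s - 2) / 2), (q ^ (2 * ((i : ℕ) + 1)) - 1)) * ((q : ℕ) ^ ((m - s) ^ 2) * ∏ i : Fin (m - s), (q ^ (2 * ((i : ℕ) + 1)) - 1)) := by
  classical
  haveI : Fact (Nat.Prime 2) := ⟨Nat.prime_two⟩
  have ht1 : t ≠ 1 := by
    rintro rfl
    obtain ⟨v, hv⟩ := hna
    apply hv
    have h0 : ((1 : Matrix.symplecticGroup (Fin m) F) :
        Matrix (Fin m ⊕ Fin m) (Fin m ⊕ Fin m) F) = 1 := rfl
    rw [h0, Matrix.one_mulVec]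
    exact Cfsg.Agent.S0766.sf_self v
  have ho : orderOf t = 2 := orderOf_eq_prime ht ht1
  rcases Cfsg.Agent.Lib.helper4.spnf_of_invol t ho with ⟨s', hs', h⟩ | ⟨k, hk, h⟩
  · obtain ⟨hrank, hle, hcard⟩ := Cfsg.Agent.Lib.helper4.sp_cent_of_nf_id hF t h
    rw [hs] at hrank
    subst hrank
    obtain ⟨c, hc⟩ := heven
    obtain ⟨n, rfl⟩ : ∃ n, c = n + 1 := ⟨c - 1, by omega⟩
    have hs2 : s = 2 * n + 2 := by omega
    subst hs2
    rw [hcard, Cfsg.Agent.Lib.helper4.card_on_even hF n,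
      Cfsg.Agent.Lib.helper4.cent_exp_arith2 m (2 * n + 2) (by omega) hle]
    have e1 : (2 * n + 2 - 2) / 2 = n := by omega
    have e2 : 2 * n + 2 - 1 = 2 * n + 1 := by omega
    rw [e1, e2, Fin.prod_univ_eq_prod_range (fun i => q ^ (2 * (i + 1)) - 1) n,
      Fin.prod_univ_eq_prod_range (fun i => q ^ (2 * (i + 1)) - 1) (m - (2 * n + 2)),
      pow_add]
    ring
  · exfalso
    obtain ⟨v, hv⟩ := hna
    exact hv (Cfsg.Agent.Lib.helper4.spnf_alt Sum.swap (fun x => Sum.swap_swap x)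
      (fun x => by cases x <;> simp) t h v)

end Cfsg.Agent.S2682
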