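import Cfsg.Statements.S2683
-- import your own Cfsg.Agent.* helpers here
import Cfsg.Agent.Lib.helper4.OrthInvCent2

set_option autoImplicit false
open Cfsg

open Cfsg.Agent.Lib.helper13 Cfsg.Agent.Lib.helper4

namespace Cfsg.Agent.S2683

/-- For the hyperbolic form Σ x_j y_j on F^(2m) over a finite field with q elements, q even (excluding m = 2 over the field of two elements), and an involution x of the orthogonal group with s = rank(x − 1) odd (type b_s; such x lie outside Ω): the elements of Ω (the commutator subgroup of the orthogonal group) commuting with x number q^(2m(s−1) − (3s² − 3s)/2) · |Sp_(s−1)(q)| · |Sp_(2m−2s)(q)|, where |Sp_2k(q)| = q^(k²) Π_(i=1)^k (q^(2i) − 1). -/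
theorem result {F : Type*} [Field F] [Fintype F] [CharP F 2] {q : ℕ} (hF : Fintype.card F = q) {m s : ℕ} (h : Fintype.card F ≠ 2 ∨ m ≠ 2) (x : ↥(Cfsg.isometryGroup F (Cfsg.quadFormPlus m F))) (hx : x ^ 2 = 1) (hs : (((x : Matrix.GeneralLinearGroup (Fin m ⊕ Fin m) F) : Matrix (Fin m ⊕ Fin m) (Fin m ⊕ Fin m) F) - 1).rank = s) (hodd : Odd s) : Nat.card {g : ↥(Cfsg.Omega F (Cfsg.quadFormPlus m F)) // (g : ↥(Cfsg.isometryGroup F (Cfsg.quadFormPlus m F))) * x = x * (g : ↥(Cfsg.isometryGroup F (Cfsg.quadFormPlus m F)))} = q ^ (2 * m * (s - 1) - (3 * s ^ 2 - 3 * s) / 2) * ((q : ℕ) ^ (((s - 1) / 2) ^ 2) * ∏ i : Fin ((s - 1) / 2), (q ^ (2 * ((i : ℕ) + 1)) - 1)) * ((q : ℕ) ^ ((m - s) ^ 2) * ∏ i : Fin (m - s), (q ^ (2 * ((i : ℕ) + 1)) - 1)) := by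
  classical
  have key : ∀ (Qf : (Fin m ⊕ Fin m → F) → F), Qf = ⇑(Cfsg.Agent.S2562.qP F m) →
      ∀ (x : ↥(Cfsg.isometryGroup F Qf)), x ^ 2 = 1 →
      (((x : Matrix.GeneralLinearGroup (Fin m ⊕ Fin m) F) :
        Matrix (Fin m ⊕ Fin m) (Fin m ⊕ Fin m) F) - 1).rank = s →
      Nat.card {g : ↥(Cfsg.Omega F Qf) // (g : ↥(Cfsg.isometryGroup F Qf)) * x
          = x * (g : ↥(Cfsg.isometryGroup F Qf))}
        = q ^ (2 * m * (s - 1) - (3 * s ^ 2 - 3 * s) / 2)
          * ((q : ℕ) ^ (((s - 1) / 2) ^ 2) * ∏ i : Fin ((s - 1) / 2), (q ^ (2 * ((i : ℕ) + 1)) - 1))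
          * ((q : ℕ) ^ ((m - s) ^ 2) * ∏ i : Fin (m - s), (q ^ (2 * ((i : ℕ) + 1)) - 1)) := by
    intro Qf hQf
    subst hQf
    intro x hx hs
    haveI : Fact (Nat.Prime 2) := ⟨Nat.prime_two⟩
    have hQ := Cfsg.Agent.S2562.nondeg_qP (F := F) m
    have hx1 : x ≠ 1 := by
      rintro rfl
      have h0 : (((1 : ↥(Cfsg.isometryGroup F ⇑(Cfsg.Agent.S2562.qP F m))) :
          Matrix.GeneralLinearGroup (Fin m ⊕ Fin m) F) :
          Matrix (Fin m ⊕ Fin m) (Fin m ⊕ Fin m) F) - 1 = 0 := sub_self _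
      rw [h0, Matrix.rank_zero] at hs
      rw [← hs] at hodd
      obtain ⟨c, hc⟩ := hodd
      omega
    have ho : orderOf x = 2 := orderOf_eq_prime hx hx1
    rcases nf_of_invol (Cfsg.Agent.S2562.qP F m) hQ x ho with ⟨s', hs', hnf⟩ | ⟨k, hk, hnf⟩
    · have hrank := nf_rank _ hQ _ (fun _ => rfl) x hnf
      rw [Fintype.card_fin] at hrank
      have hss : s' = s := by
        rw [← hrank]
        exact hs
      subst hss
      obtain ⟨n, rfl⟩ := hodd
      obtain ⟨hle, hcard⟩ := orth_cent_omega_id hF m h (2 * n) x hnf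
      rw [hcard, card_on_odd hF n]
      have e1 : (2 * n + 1 - 1) / 2 = n := by omega
      rw [e1, Fin.prod_univ_eq_prod_range (fun i => q ^ (2 * (i + 1)) - 1) n,
        Fin.prod_univ_eq_prod_range (fun i => q ^ (2 * (i + 1)) - 1) (m - (2 * n + 1))]
      ring
    · exfalso
      have hrank := nf_rank _ hQ _ (fun x => Sum.swap_swap x) x hnf
      rw [Fintype.card_sum, Fintype.card_fin] at hrank
      have hss : k + k = s := by
        rw [← hrank]
        exact hs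
      rw [← hss] at hodd
      obtain ⟨c, hc⟩ := hodd
      omega
  exact key _ (qP_coe m).symm x hx hs

end Cfsg.Agent.S2683
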