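import Cfsg.Statements.S2684
-- import your own Cfsg.Agent.* helpers here
import Cfsg.Agent.Lib.helper4.OrthInvCent3

set_option autoImplicit false
open Cfsg

open Cfsg.Agent.Lib.helper13 Cfsg.Agent.Lib.helper4

namespace Cfsg.Agent.S2684

/-- For the hyperbolic form Q = Σ x_j y_j on F^(2m) over a finite field with q elements, q even (excluding m = 2 over the field of two elements), and an involution x ≠ 1 of the orthogonal group with s = rank(x − 1) even and Q vanishing on the image of x − 1 (equivalently f(v, xv) = 0 for all v, where f(u, w) = Q(u + w) − Q(u) − Q(w) is the bilinear form of Q; type a_s, which lies in Ω): its centraliser in Ω (the commutator subgroup of the orthogonal group) has order q^(2ms − (3s² + s)/2) · |Sp_s(q)| · |Ω⁺_(2m−2s)(q)|, where |Ω⁺_2k(q)| = q^(k(k−1)) (q^k − 1) Π_(i=1)^(k−1) (q^(2i) − 1) for k ≥ 1 and the last factor is 1 when s = m. -/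
theorem result {F : Type*} [Field F] [Fintype F] [CharP F 2] {q : ℕ} (hF : Fintype.card F = q) {m s : ℕ} (h : Fintype.card F ≠ 2 ∨ m ≠ 2) (x : ↥(Cfsg.isometryGroup F (Cfsg.quadFormPlus m F))) (hx : x ^ 2 = 1) (hx1 : x ≠ 1) (hs : (((x : Matrix.GeneralLinearGroup (Fin m ⊕ Fin m) F) : Matrix (Fin m ⊕ Fin m) (Fin m ⊕ Fin m) F) - 1).rank = s) (heven : Even s) (halt : ∀ v : Fin m ⊕ Fin m → F, Cfsg.quadFormPlus m F ((((x : Matrix.GeneralLinearGroup (Fin m ⊕ Fin m) F) : Matrix (Fin m ⊕ Fin m) (Fin m ⊕ Fin m) F) - 1).mulVec v) = 0) : Nat.card {g : ↥(Cfsg.Omega F (Cfsg.quadFormPlus m F)) // (g : ↥(Cfsg.isometryGroup F (Cfsg.quadFormPlus m F))) * x = x * (g : ↥(Cfsg.isometryGroup F (Cfsg.quadFormPlus m F)))} = q ^ (2 * m * s - (3 * s ^ 2 + s) / 2) * ((q : ℕ) ^ ((s / 2) ^ 2) * ∏ i : Fin (s / 2), (q ^ (2 * ((i : ℕ) + 1)) - 1)) * (if s = m then 1 else q ^ ((m - s) * (m - s - 1)) * (q ^ (m - s) - 1) * ∏ i : Fin (m - s - 1), (q ^ (2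 * ((i : ℕ) + 1)) - 1)) := by
  classical
  have key : ∀ (Qf : (Fin m ⊕ Fin m → F) → F), Qf = ⇑(Cfsg.Agent.S2562.qP F m) →
      ∀ (x : ↥(Cfsg.isometryGroup F Qf)), x ^ 2 = 1 → x ≠ 1 →
      (((x : Matrix.GeneralLinearGroup (Fin m ⊕ Fin m) F) :
        Matrix (Fin m ⊕ Fin m) (Fin m ⊕ Fin m) F) - 1).rank = s →
      (∀ v : Fin m ⊕ Fin m → F, Qf ((((x : Matrix.GeneralLinearGroup (Fin m ⊕ Fin m) F) :
        Matrix (Fin m ⊕ Fin m) (Fin m ⊕ Fin m) F) - 1).mulVec v) = 0) →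
      Nat.card {g : ↥(Cfsg.Omega F Qf) // (g : ↥(Cfsg.isometryGroup F Qf)) * x
          = x * (g : ↥(Cfsg.isometryGroup F Qf))}
        = q ^ (2 * m * s - (3 * s ^ 2 + s) / 2)
          * ((q : ℕ) ^ ((s / 2) ^ 2) * ∏ i : Fin (s / 2), (q ^ (2 * ((i : ℕ) + 1)) - 1))
          * (if s = m then 1 else q ^ ((m - s) * (m - s - 1)) * (q ^ (m - s) - 1)
              * ∏ i : Fin (m - s - 1), (q ^ (2 * ((i : ℕ) + 1)) - 1)) := by
    intro Qf hQf
    subst hQf
    intro x hx hx1 hs halt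
    haveI : Fact (Nat.Prime 2) := ⟨Nat.prime_two⟩
    have hQ := Cfsg.Agent.S2562.nondeg_qP (F := F) m
    have ho : orderOf x = 2 := orderOf_eq_prime hx hx1
    rcases nf_of_invol (Cfsg.Agent.S2562.qP F m) hQ x ho with ⟨s', hs', hnf⟩ | ⟨k, hk, hnf⟩
    · exfalso
      haveI : Nonempty (Fin s') := ⟨⟨0, hs'⟩⟩
      obtain ⟨v, hv⟩ := nf_not_alt _ hQ (id : Fin s' → Fin s') (fun _ => rfl) x hnf
      apply hv
      have h2 : (((x : Matrix.GeneralLinearGroup (Fin m ⊕ Fin m) F) :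
          Matrix (Fin m ⊕ Fin m) (Fin m ⊕ Fin m) F) - 1).mulVec v
          = (mat (Cfsg.Agent.S2562.qP F m) x).mulVec v + v := by
        rw [Matrix.sub_mulVec, Matrix.one_mulVec, sub_eq_add_neg, c2_neg]
      rw [← h2]
      exact halt v
    · have hrank := nf_rank _ hQ _ (fun x => Sum.swap_swap x) x hnf
      rw [Fintype.card_sum, Fintype.card_fin] at hrank
      have hss : k + k = s := by
        rw [← hrank]
        exact hs
      subst hss
      obtain ⟨hle, hcard⟩ := orth_cent_omega_swap hF m h k hk x hnf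
      rw [hcard]
      have e1 : (k + k) / 2 = k := by omega
      rw [e1, Fin.prod_univ_eq_prod_range (fun i => q ^ (2 * (i + 1)) - 1) k,
        Fin.prod_univ_eq_prod_range (fun i => q ^ (2 * (i + 1)) - 1) (m - (k + k) - 1)]
      ring
  exact key _ (qP_coe m).symm x hx hx1 hs halt

end Cfsg.Agent.S2684
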