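import Cfsg.Statements.S2685
-- import your own Cfsg.Agent.* helpers here
import Cfsg.Agent.Lib.helper4.OrthInvCent2

set_option autoImplicit false
open Cfsg

open Cfsg.Agent.Lib.helper13 Cfsg.Agent.Lib.helper4

namespace Cfsg.Agent.S2685

theorem cent_exp_arith3 (m n : ℕ) (h : 2 * n + 1 + 1 ≤ m) :
    (2 * n + 1) + (2 * m * (2 * n + 1 + 1 - 1) - (3 * (2 * n + 1 + 1) ^ 2 - 3 * (2 * n + 1 + 1)) / 2)
      = 2 * m * (2 * n + 1 + 1 - 1) - (3 * (2 * n + 1 + 1) ^ 2 - 5 * (2 * n + 1 + 1)) / 2 - 1 := by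
  obtain ⟨k, hk⟩ : ∃ k, k = 2 * n + 1 := ⟨_, rfl⟩
  rw [← hk]
  rw [← hk] at h
  have hk1 : 1 ≤ k := by omega
  obtain ⟨d, rfl⟩ := Nat.exists_eq_add_of_le h
  obtain ⟨a, ha⟩ : ∃ a, a = k * (k + 1) / 2 := ⟨_, rfl⟩
  have h1 : 2 * a = k ^ 2 + k := by
    rw [ha, Nat.two_mul_div_two_of_even (Nat.even_mul_succ_self k)]
    ring
  have hX : k ≤ k ^ 2 := Nat.le_self_pow (by norm_num) k
  have e1 : (3 * (k + 1) ^ 2 - 3 * (k + 1)) / 2 = 3 * a := by
    have h3 : 3 * (k + 1) ^ 2 = 3 * k ^ 2 + 6 * k + 3 := by ring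
    have h4 : 3 * (k + 1) ^ 2 - 3 * (k + 1) = 2 * (3 * a) := by omega
    rw [h4, Nat.mul_div_cancel_left _ (by norm_num)]
  have e2 : (3 * (k + 1) ^ 2 - 5 * (k + 1)) / 2 = 3 * a - k - 1 := by
    have h3 : 3 * (k + 1) ^ 2 = 3 * k ^ 2 + 6 * k + 3 := by ring
    have h4 : 3 * (k + 1) ^ 2 - 5 * (k + 1) = 2 * (3 * a - k - 1) := by omega
    rw [h4, Nat.mul_div_cancel_left _ (by norm_num)]
  have e3 : 2 * (k + 1 + d) * (k + 1 - 1) = 2 * k ^ 2 + 2 * k + 2 * (d * k) := by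
    rw [Nat.add_sub_cancel]
    ring
  rw [e1, e2, e3]
  omega

/-- For the hyperbolic form Q = Σ x_j y_j on F^(2m) over a finite field with q elements, q even (excluding m = 2 over the field of two elements), and an involution x of the orthogonal group with s = rank(x − 1) even and Q not vanishing on the image of x − 1 (f(v, xv) ≠ 0 for some v, where f(u, w) = Q(u + w) − Q(u) − Q(w) is the bilinear form of Q; type c_s, which lies in Ω): its centraliser in Ω (the commutator subgroup of the orthogonal group) has order q^(2m(s−1) − (3s² − 5s)/2 − 1) · |Sp_(s−2)(q)| · |Sp_(2m−2s)(q)|. -/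
theorem result {F : Type*} [Field F] [Fintype F] [CharP F 2] {q : ℕ} (hF : Fintype.card F = q) {m s : ℕ} (h : Fintype.card F ≠ 2 ∨ m ≠ 2) (x : ↥(Cfsg.isometryGroup F (Cfsg.quadFormPlus m F))) (hx : x ^ 2 = 1) (hs : (((x : Matrix.GeneralLinearGroup (Fin m ⊕ Fin m) F) : Matrix (Fin m ⊕ Fin m) (Fin m ⊕ Fin m) F) - 1).rank = s) (heven : Even s) (hna : ∃ v : Fin m ⊕ Fin m → F, Cfsg.quadFormPlus m F ((((x : Matrix.GeneralLinearGroup (Fin m ⊕ Fin m) F) : Matrix (Fin m ⊕ Fin m) (Fin m ⊕ Fin m) F) - 1).mulVec v) ≠ 0) : Nat.card {g : ↥(Cfsg.Omega F (Cfsg.quadFormPlus m F)) // (g : ↥(Cfsg.isometryGroup F (Cfsg.quadFormPlus m F))) * x = x * (g : ↥(Cfsg.isometryGroup F (Cfsg.quadFormPlus m F)))} = q ^ (2 * m * (s - 1) - (3 * s ^ 2 - 5 * s) / 2 - 1) * ((q : ℕ) ^ (((s - 2) / 2) ^ 2) * ∏ i : Fin ((s - 2) / 2), (q ^ (2 * ((i : ℕ) + 1)) - 1)) * ((q : ℕ) ^ ((m - s) ^ 2) * ∏ i : Fin (m - s), (q ^ (2 * ((i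 : ℕ) + 1)) - 1)) := by
  classical
  have key : ∀ (Qf : (Fin m ⊕ Fin m → F) → F), Qf = ⇑(Cfsg.Agent.S2562.qP F m) →
      ∀ (x : ↥(Cfsg.isometryGroup F Qf)), x ^ 2 = 1 →
      (((x : Matrix.GeneralLinearGroup (Fin m ⊕ Fin m) F) :
        Matrix (Fin m ⊕ Fin m) (Fin m ⊕ Fin m) F) - 1).rank = s →
      (∃ v : Fin m ⊕ Fin m → F, Qf ((((x : Matrix.GeneralLinearGroup (Fin m ⊕ Fin m) F) :
        Matrix (Fin m ⊕ Fin m) (Fin m ⊕ Fin m) F) - 1).mulVec v) ≠ 0) →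
      Nat.card {g : ↥(Cfsg.Omega F Qf) // (g : ↥(Cfsg.isometryGroup F Qf)) * x
          = x * (g : ↥(Cfsg.isometryGroup F Qf))}
        = q ^ (2 * m * (s - 1) - (3 * s ^ 2 - 5 * s) / 2 - 1)
          * ((q : ℕ) ^ (((s - 2) / 2) ^ 2) * ∏ i : Fin ((s - 2) / 2), (q ^ (2 * ((i : ℕ) + 1)) - 1))
          * ((q : ℕ) ^ ((m - s) ^ 2) * ∏ i : Fin (m - s), (q ^ (2 * ((i : ℕ) + 1)) - 1)) := by
    intro Qf hQf
    subst hQf
    intro x hx hs hna
    haveI : Fact (Nat.Prime 2) := ⟨Nat.prime_two⟩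
    have hQ := Cfsg.Agent.S2562.nondeg_qP (F := F) m
    obtain ⟨v, hv⟩ := hna
    have hx1 : x ≠ 1 := by
      rintro rfl
      apply hv
      have h0 : (((1 : ↥(Cfsg.isometryGroup F ⇑(Cfsg.Agent.S2562.qP F m))) :
          Matrix.GeneralLinearGroup (Fin m ⊕ Fin m) F) :
          Matrix (Fin m ⊕ Fin m) (Fin m ⊕ Fin m) F) - 1 = 0 := sub_self _
      rw [h0, Matrix.zero_mulVec, map_zero]
    have ho : orderOf x = 2 := orderOf_eq_prime hx hx1
    rcases nf_of_invol (Cfsg.Agent.S2562.qP F m) hQ x ho with ⟨s', hs', hnf⟩ | ⟨k, hk, hnf⟩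
    · have hrank := nf_rank _ hQ _ (fun _ => rfl) x hnf
      rw [Fintype.card_fin] at hrank
      have hss : s' = s := by
        rw [← hrank]
        exact hs
      subst hss
      obtain ⟨c, hc⟩ := heven
      obtain ⟨n, rfl⟩ : ∃ n, s' = 2 * n + 1 + 1 := ⟨c - 1, by omega⟩
      obtain ⟨hle, hcard⟩ := orth_cent_omega_id hF m h (2 * n + 1) x hnf
      have hon : Nat.card {a : Fin (2 * n + 1 + 1) → (Fin (2 * n + 1 + 1) → F) // Cfsg.Agent.Lib.helper4.IsON a}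
          = q ^ (2 * n + 1) * (q ^ (n ^ 2) * ∏ i ∈ Finset.range n, (q ^ (2 * (i + 1)) - 1)) :=
        card_on_even hF n
      rw [hcard, hon]
      have e1 : (2 * n + 1 + 1 - 2) / 2 = n := by omega
      rw [e1, Fin.prod_univ_eq_prod_range (fun i => q ^ (2 * (i + 1)) - 1) n,
        Fin.prod_univ_eq_prod_range (fun i => q ^ (2 * (i + 1)) - 1) (m - (2 * n + 1 + 1)),
        ← cent_exp_arith3 m n hle, pow_add]
      ring
    · exfalso
      apply hv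
      have h1 := nf_alt _ Sum.swap (fun x => Sum.swap_swap x)
        (fun x => by rcases x with i | i <;> simp) x hnf v
      have h2 : (((x : Matrix.GeneralLinearGroup (Fin m ⊕ Fin m) F) :
          Matrix (Fin m ⊕ Fin m) (Fin m ⊕ Fin m) F) - 1).mulVec v
          = (mat (Cfsg.Agent.S2562.qP F m) x).mulVec v + v := by
        rw [Matrix.sub_mulVec, Matrix.one_mulVec, sub_eq_add_neg, c2_neg]
      rw [h2]
      exact h1
  exact key _ (qP_coe m).symm x hx hs hna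

end Cfsg.Agent.S2685
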