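import Cfsg.Statements.S2689
import Mathlib
import Cfsg.Agent.Lib.helper13.PSLnPred

set_option autoImplicit false
open Cfsg

open Cfsg.Agent.Lib.helper13

namespace Cfsg.Agent.S2689

/-- The automorphism group of a simple projective special linear group PSL_n(F) over a finite field (n ≥ 2; |F| ≥ 4 when n = 2) is generated by the automorphisms induced by invertible semilinear maps of F^n (the image of the projective semilinear group) together with the inverse-transpose automorphism. -/
theorem result {F : Type*} [Field F] [Fintype F] {p f : ℕ} [Fact p.Prime] (hF : Fintype.card F = p ^ f) (hf : 1 ≤ f) {n : ℕ} (hn : 2 ≤ n) (hs : n = 2 → 4 ≤ Fintype.card F) :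
    Cfsg.gammaPSL n F ⊔ Cfsg.autSubgroupOf (fun β : Matrix.ProjectiveSpecialLinearGroup (Fin n) F ≃* Matrix.ProjectiveSpecialLinearGroup (Fin n) F => Cfsg.IsInverseTransposeAutPSL β) = ⊤ := by
  rw [eq_top_iff]
  intro β _
  rcases Nat.lt_or_ge n 3 with h3 | h3
  · obtain rfl : n = 2 := by omega
    obtain ⟨A, τ, hα⟩ := Cfsg.Agent.Lib.helper13.PSL2Aut.aut_decomp hF hf β
    rw [hα]
    exact Subgroup.mem_sup_left (Subgroup.subset_closure
      ⟨A, τ, Cfsg.Agent.Lib.helper13.PN.isInduced_mul2 A τ⟩)
  · obtain ⟨g, σ, h | h⟩ := Cfsg.Agent.Lib.helper13.PN.aut_decomp_n p f hF hf h3 β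
    · rw [h]
      exact Subgroup.mem_sup_left (Subgroup.subset_closure
        ⟨g, σ, Cfsg.Agent.Lib.helper13.PN.isInduced_mul g σ⟩)
    · rw [h]
      exact Subgroup.mul_mem _ (Subgroup.mem_sup_left (Subgroup.subset_closure
        ⟨g, σ, Cfsg.Agent.Lib.helper13.PN.isInduced_mul g σ⟩))
        (Subgroup.mem_sup_right (Subgroup.subset_closure
          Cfsg.Agent.Lib.helper13.PN.isInvTr_itAut))

end Cfsg.Agent.S2689
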