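import Cfsg.Statements.S2699
import Mathlib
import Cfsg.Agent.Lib.helper13.Char2Odd
import Cfsg.Agent.Lib.helper13.QuadOdd
import Cfsg.Agent.Lib.helper13.PSLnGraph2

set_option autoImplicit false
open Cfsg

open Cfsg.Agent.Lib.helper13 Matrix

namespace Cfsg.Agent.S2699

/-- Let T = PSL_n(F) over the field with p^f elements with n ≥ 3 odd, n = 2m + 1, and G = Inndiag(T) the image of PGL_n(F). Every involutory graph automorphism γ of T (an inner-diagonal automorphism followed by inverse-transpose, of order 2) has centralizer C_G(γ) isomorphic to the projective conformal orthogonal group of the form x₀² + Σ xᵢ yᵢ in dimension n (for q even this group is isomorphic to Sp_{n−1}(q)), and any two involutory graph automorphisms are G-conjugate. -/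
theorem result {F : Type*} [Field F] [Fintype F] {p f : ℕ} [Fact p.Prime] (hF : Fintype.card F = p ^ f) (hf : 1 ≤ f) {n : ℕ} (hn : 3 ≤ n) {m : ℕ} (hnm : n = 2 * m + 1) (γ γ' : MulAut (Matrix.ProjectiveSpecialLinearGroup (Fin n) F)) (hγ : Cfsg.IsGraphAutClassPSL γ) (hγ2 : orderOf γ = 2) (hγ' : Cfsg.IsGraphAutClassPSL γ') (hγ'2 : orderOf γ' = 2) :
    Nonempty (↥(Cfsg.inndiagPSL n F ⊓ Subgroup.centralizer {γ}) ≃* Cfsg.PGO F (Cfsg.quadFormOdd m F)) ∧ Cfsg.IsConjUnder (Cfsg.inndiagPSL n F) γ γ' := by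
  classical
  have hn2 : 2 ≤ n := by omega
  obtain ⟨g, rfl⟩ := PN.graph_eq_gam γ hγ
  obtain ⟨g', rfl⟩ := PN.graph_eq_gam γ' hγ'
  have hsq : PN.gam g * PN.gam g = 1 := by
    rw [← pow_two, ← hγ2]
    exact pow_orderOf_eq_one _
  have hsq' : PN.gam g' * PN.gam g' = 1 := by
    rw [← pow_two, ← hγ'2]
    exact pow_orderOf_eq_one _
  by_cases h2 : (2 : F) = 0
  · have hch : CharP F 2 := CharTwo.of_one_ne_zero_of_two_eq_zero one_ne_zero h2
    have hsym : ∀ g : GL (Fin n) F, PN.gam g * PN.gam g = 1 →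
        (g : Matrix (Fin n) (Fin n) F)ᵀ = g := by
      intro g hsq
      rcases PN.invol_sym_or_skew hn2 g hsq with hg | hg
      · exact hg
      · rw [hg]
        ext i j
        exact CharTwo.neg_eq _
    refine ⟨?_, C2.char2_odd_conj m hnm g g' (hsym g hsq) (hsym g' hsq')⟩
    obtain ⟨Φ⟩ := PN.graph_centralizer_bil hn2 g
    obtain ⟨Φ'⟩ := C2.char2_odd_cent_iso m hnm g (hsym g hsq)
    exact ⟨Φ.trans Φ'⟩
  · have hsym : ∀ g : GL (Fin n) F, PN.gam g * PN.gam g = 1 →
        (g : Matrix (Fin n) (Fin n) F)ᵀ = g := by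
      intro g hsq
      rcases PN.invol_sym_or_skew hn2 g hsq with hg | hg
      · exact hg
      · exfalso
        have h5 := congrArg Matrix.det hg
        have hpow : (-1 : F) ^ n = -1 := by
          rw [hnm, pow_succ, pow_mul, neg_one_sq, one_pow, one_mul]
        rw [Matrix.det_transpose, Matrix.det_neg, Fintype.card_fin, hpow] at h5
        have h6 : (2 : F) * (g : Matrix (Fin n) (Fin n) F).det = 0 := by linear_combination h5
        have h7 : (g : Matrix (Fin n) (Fin n) F).det ≠ 0 := by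
          rw [← Matrix.GeneralLinearGroup.val_det_apply]
          exact Units.ne_zero _
        exact h7 ((mul_eq_zero.1 h6).resolve_left h2)
    have hfin : Module.finrank F (Fin n → F) = 2 * m + 1 := by
      rw [Module.finrank_fin_fun, hnm]
    have hcl : ∀ g : GL (Fin n) F, (g : Matrix (Fin n) (Fin n) F)ᵀ = g →
        ∃ (c : F) (T : (Fin n → F) ≃ₗ[F] (Unit ⊕ (Fin m ⊕ Fin m) → F)), c ≠ 0 ∧
          ∀ v, v ⬝ᵥ ((g : Matrix (Fin n) (Fin n) F) *ᵥ v) = c * Cfsg.quadFormOdd m F (T v) := by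
      intro g hg
      obtain ⟨Q, hQ, hQnd⟩ := PN.sym_quad h2 g hg
      obtain ⟨c, T, hc, hT⟩ := QO.odd_classify h2 hfin Q hQnd
      exact ⟨c, T, hc, fun v => by rw [← hQ]; exact hT v⟩
    obtain ⟨c, T, hc, hT⟩ := hcl g (hsym g hsq)
    obtain ⟨c', T', hc', hT'⟩ := hcl g' (hsym g' hsq')
    constructor
    · obtain ⟨Φ⟩ := PN.graph_centralizer_sym hn2 h2 g (hsym g hsq)
      obtain ⟨Φ'⟩ := GF.pgo_congr
        (fun v : Fin n → F => v ⬝ᵥ ((g : Matrix (Fin n) (Fin n) F) *ᵥ v))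
        (Cfsg.quadFormOdd m F) T c⁻¹ (inv_ne_zero hc)
        (fun v => by rw [hT, ← mul_assoc, inv_mul_cancel₀ hc, one_mul])
      exact ⟨Φ.trans Φ'⟩
    · have h3 : ∀ v : Fin n → F, v ⬝ᵥ ((g : Matrix (Fin n) (Fin n) F) *ᵥ v) =
          (c * c'⁻¹) * ((T.trans T'.symm v) ⬝ᵥ ((g' : Matrix (Fin n) (Fin n) F) *ᵥ
            (T.trans T'.symm v))) := by
        intro v
        rw [hT', LinearEquiv.trans_apply, LinearEquiv.apply_symm_apply, hT]
        field_simp
      obtain ⟨A, hA⟩ := PN.congr_of_quad_eq h2 g g' (hsym g hsq) (hsym g' hsq')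
        (T.trans T'.symm) (c * c'⁻¹) h3
      exact PN.conj_of_congr g g' A (Units.mk0 (c * c'⁻¹) (mul_ne_zero hc (inv_ne_zero hc'))) hA

end Cfsg.Agent.S2699
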