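import Cfsg.Statements.S2700
import Mathlib
import Cfsg.Agent.Lib.helper13.PSLnGraph2

set_option autoImplicit false
open Cfsg

open Cfsg.Agent.Lib.helper13 Matrix

namespace Cfsg.Agent.S2700

/-- Let T = PSL_n(F) over a finite field of odd order with n = 2m ≥ 4 even, and G = Inndiag(T) the image of PGL_n(F). The involutory graph automorphisms of T fall into exactly three G-classes, with representatives γ₁, γ₂, γ₃ whose centralizers in G are isomorphic respectively to the projective conformal symplectic group PGSp_n(F), the projective conformal orthogonal group of the plus-type form Σ xᵢ yᵢ, and that of a minus-type form Σ xᵢ yᵢ + z₁² + a z₁ z₂ + b z₂² (anisotropic binary part) in dimension n. -/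
theorem result {F : Type*} [Field F] [Fintype F] (hodd : Odd (Fintype.card F)) {n m : ℕ} (hm : 2 ≤ m) (hnm : n = 2 * m) :
    ∃ (γ₁ γ₂ γ₃ : MulAut (Matrix.ProjectiveSpecialLinearGroup (Fin n) F)) (a b : F), (∀ z₁ z₂ : F, z₁ ^ 2 + a * z₁ * z₂ + b * z₂ ^ 2 = 0 → z₁ = 0 ∧ z₂ = 0) ∧ Cfsg.IsGraphAutClassPSL γ₁ ∧ orderOf γ₁ = 2 ∧ Cfsg.IsGraphAutClassPSL γ₂ ∧ orderOf γ₂ = 2 ∧ Cfsg.IsGraphAutClassPSL γ₃ ∧ orderOf γ₃ = 2 ∧ ¬ Cfsg.IsConjUnder (Cfsg.inndiagPSL n F) γ₁ γ₂ ∧ ¬ Cfsg.IsConjUnder (Cfsg.inndiagPSL n F) γ₁ γ₃ ∧ ¬ Cfsg.IsConjUnder (Cfsg.inndiagPSL n F) γ₂ γ₃ ∧ (∀ γ : MulAut (Matrix.ProjectiveSpecialLinearGroup (Fin n) F), Cfsg.IsGraphAutClassPSL γ → orderOf γ = 2 → Cfsg.IsConjUnder (Cfsg.inndiagPSL n F) γ₁ γ ∨ Cfsg.IsConjUnder (Cfsg.inndiagPSL n F) γ₂ γ ∨ Cfsg.IsConjUnder (Cfsg.inndiagPSL n F) γ₃ γ) ∧ Nonempty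 (↥(Cfsg.inndiagPSL n F ⊓ Subgroup.centralizer {γ₁}) ≃* Cfsg.PGSp m F) ∧ Nonempty (↥(Cfsg.inndiagPSL n F ⊓ Subgroup.centralizer {γ₂}) ≃* Cfsg.PGO F (Cfsg.quadFormPlus m F)) ∧ Nonempty (↥(Cfsg.inndiagPSL n F ⊓ Subgroup.centralizer {γ₃}) ≃* Cfsg.PGO F (Cfsg.quadFormMinus (m - 1) F a b)) := by
  classical
  have hn2 : 2 ≤ n := by omega
  have hn3 : 3 ≤ n := by omega
  have h2 : (2 : F) ≠ 0 := GF.two_ne_zero_of_odd hodd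
  obtain ⟨k, rfl⟩ : ∃ k, m = k + 1 := ⟨m - 1, by omega⟩
  obtain ⟨R, -, -⟩ := GF.exists_reindex (F := F) hnm
  obtain ⟨e'⟩ : Nonempty (((Fin k ⊕ Fin k) ⊕ Fin 2) ≃ Fin n) :=
    ⟨Fintype.equivOfCardEq (by simp only [Fintype.card_sum, Fintype.card_fin]; omega)⟩
  obtain ⟨R'⟩ : Nonempty ((Fin n → F) ≃ₗ[F] ((Fin k ⊕ Fin k) ⊕ Fin 2 → F)) :=
    ⟨LinearEquiv.funCongrLeft F F e'⟩
  obtain ⟨ζ₀, hζ₀⟩ := PN.exists_zeta (F := F)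
  obtain ⟨g₁, hs₁, hg₁⟩ := PN.exists_skew_of_symp R
  obtain ⟨g₂, hs₂, hg₂⟩ := PN.exists_sym_of_quad (Cfsg.Agent.S2562.qP F (k + 1))
    (Cfsg.Agent.S2562.nondeg_qP (k + 1)) R
  obtain ⟨g₃, hs₃, hg₃⟩ := PN.exists_sym_of_quad (Cfsg.Agent.S2562.qM F k ζ₀)
    (Cfsg.Agent.S2562.nondeg_qM k ζ₀ hζ₀) R'
  have hg₂' : ∀ v : Fin n → F, v ⬝ᵥ ((g₂ : Matrix (Fin n) (Fin n) F) *ᵥ v) =
      2 * Cfsg.quadFormPlus (k + 1) F (R v) := fun v => by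
    rw [hg₂, Cfsg.Agent.S2562.qP_apply]
  have hg₃' : ∀ v : Fin n → F, v ⬝ᵥ ((g₃ : Matrix (Fin n) (Fin n) F) *ᵥ v) =
      2 * Cfsg.quadFormMinus k F 1 ζ₀ (R' v) := fun v => by
    rw [hg₃, Cfsg.Agent.S2562.qM_apply]
  refine ⟨PN.gam g₁, PN.gam g₂, PN.gam g₃, 1, ζ₀, GF.aniso_of_irred ζ₀ hζ₀,
    PN.gam_isGraph hn3 g₁, PN.gam_order hn3 g₁ (Or.inr hs₁),
    PN.gam_isGraph hn3 g₂, PN.gam_order hn3 g₂ (Or.inl hs₂),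
    PN.gam_isGraph hn3 g₃, PN.gam_order hn3 g₃ (Or.inl hs₃),
    PN.not_conj_skew_sym hn2 h2 g₁ g₂ hs₁ hs₂, PN.not_conj_skew_sym hn2 h2 g₁ g₃ hs₁ hs₃,
    PN.not_conj_plus_minus hn2 k g₂ g₃ ζ₀ hζ₀ h2 R R' hg₂' hg₃', ?_, ?_, ?_, ?_⟩
  · intro γ hγ hγ2
    obtain ⟨g, rfl⟩ := PN.graph_eq_gam γ hγ
    have hsq : PN.gam g * PN.gam g = 1 := by
      rw [← pow_two, ← hγ2]
      exact pow_orderOf_eq_one _
    rcases PN.invol_sym_or_skew hn2 g hsq with hg | hg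
    · right
      exact PN.classify_sym h2 k hnm g g₂ g₃ ζ₀ hζ₀ R R' hg hs₂ hs₃ hg₂' hg₃'
    · left
      exact PN.classify_skew h2 (k + 1) hnm g g₁ R hg hg₁
  · obtain ⟨Φ⟩ := PN.graph_centralizer_bil hn2 g₁
    obtain ⟨Φ'⟩ := GF.psim_congr
      (fun u v : Fin n → F => u ⬝ᵥ ((g₁ : Matrix (Fin n) (Fin n) F) *ᵥ v))
      (Cfsg.sympForm (k + 1) F) R 1 one_ne_zero (fun u v => by rw [one_mul, hg₁])
    exact ⟨Φ.trans Φ'⟩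
  · obtain ⟨Φ⟩ := PN.graph_centralizer_sym hn2 h2 g₂ hs₂
    obtain ⟨Φ'⟩ := GF.pgo_congr
      (fun v : Fin n → F => v ⬝ᵥ ((g₂ : Matrix (Fin n) (Fin n) F) *ᵥ v))
      (Cfsg.quadFormPlus (k + 1) F) R (2 : F)⁻¹ (inv_ne_zero h2)
      (fun v => by rw [hg₂', ← mul_assoc, inv_mul_cancel₀ h2, one_mul])
    exact ⟨Φ.trans Φ'⟩
  · obtain ⟨Φ⟩ := PN.graph_centralizer_sym hn2 h2 g₃ hs₃
    obtain ⟨Φ'⟩ := GF.pgo_congr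
      (fun v : Fin n → F => v ⬝ᵥ ((g₃ : Matrix (Fin n) (Fin n) F) *ᵥ v))
      (Cfsg.quadFormMinus k F 1 ζ₀) R' (2 : F)⁻¹ (inv_ne_zero h2)
      (fun v => by rw [hg₃', ← mul_assoc, inv_mul_cancel₀ h2, one_mul])
    exact ⟨Φ.trans Φ'⟩

end Cfsg.Agent.S2700
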