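import Cfsg.Statements.S2701
import Mathlib
import Cfsg.Agent.Lib.helper13.Char2Graph
import Cfsg.Agent.Lib.helper13.PSLnGraph2

set_option autoImplicit false
open Cfsg

open Cfsg.Agent.Lib.helper13 Matrix

namespace Cfsg.Agent.S2701

/-- Let T = PSL_n(F) over a finite field of characteristic 2 with n = 2m ≥ 4 even, and G = Inndiag(T) the image of PGL_n(F). The involutory graph automorphisms of T fall into exactly two G-classes, with representatives γ₁ and γ₃ whose centralizers in G are isomorphic respectively to the symplectic group Sp_n(F) and to the centralizer in Sp_n(F) of a symplectic transvection. -/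
theorem result {F : Type*} [Field F] [Fintype F] [CharP F 2] {n m : ℕ} (hm : 2 ≤ m) (hnm : n = 2 * m) :
    ∃ (γ₁ γ₃ : MulAut (Matrix.ProjectiveSpecialLinearGroup (Fin n) F)) (t : ↥(Matrix.symplecticGroup (Fin m) F)), Cfsg.IsTransvection (t : Matrix (Fin m ⊕ Fin m) (Fin m ⊕ Fin m) F) ∧ Cfsg.IsGraphAutClassPSL γ₁ ∧ orderOf γ₁ = 2 ∧ Cfsg.IsGraphAutClassPSL γ₃ ∧ orderOf γ₃ = 2 ∧ ¬ Cfsg.IsConjUnder (Cfsg.inndiagPSL n F) γ₁ γ₃ ∧ (∀ γ : MulAut (Matrix.ProjectiveSpecialLinearGroup (Fin n) F), Cfsg.IsGraphAutClassPSL γ → orderOf γ = 2 → Cfsg.IsConjUnder (Cfsg.inndiagPSL n F) γ₁ γ ∨ Cfsg.IsConjUnder (Cfsg.inndiagPSL n F) γ₃ γ) ∧ Nonempty (↥(Cfsg.inndiagPSL n F ⊓ Subgroup.centralizer {γ₁}) ≃* ↥(Matrix.symplecticGroup (Fin m) F)) ∧ Nonempty (↥(Cfsg.inndiagPSL n F ⊓ Subgroup.centralizer {γ₃}) ≃* ↥(Subgroup.centralizer ({t} : Set ↥(Matrix.symplecticGroup (Fin m) F)))) := by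
  classical
  have hn2 : 2 ≤ n := by omega
  have hn3 : 3 ≤ n := by omega
  have hm1 : 1 ≤ m := by omega
  have h2 : (2 : F) = 0 := CharTwo.two_eq_zero
  obtain ⟨R, -, -⟩ := GF.exists_reindex (F := F) hnm
  obtain ⟨g₁, hs₁, hg₁⟩ := PN.exists_skew_of_symp R
  have halt₁ : ∀ v : Fin n → F, v ⬝ᵥ ((g₁ : Matrix (Fin n) (Fin n) F) *ᵥ v) = 0 := fun v => by
    rw [hg₁]
    exact Cfsg.Agent.S0766.sf_self _
  obtain ⟨z₀, hz₀⟩ : ∃ z₀ : Fin m ⊕ Fin m → F, z₀ ≠ 0 :=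
    ⟨Pi.single (Sum.inl ⟨0, by omega⟩) 1, fun h => by
      have h5 := congrFun h (Sum.inl ⟨0, by omega⟩)
      rw [Pi.single_eq_same, Pi.zero_apply] at h5
      exact one_ne_zero h5⟩
  have h1sym : ((1 : GL (Fin n) F) : Matrix (Fin n) (Fin n) F)ᵀ =
      ((1 : GL (Fin n) F) : Matrix (Fin n) (Fin n) F) := by
    rw [Units.val_one, Matrix.transpose_one]
  have h1na : ∃ v : Fin n → F,
      v ⬝ᵥ (((1 : GL (Fin n) F) : Matrix (Fin n) (Fin n) F) *ᵥ v) ≠ 0 :=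
    ⟨Pi.single ⟨0, by omega⟩ 1, by
      rw [Units.val_one, Matrix.one_mulVec, single_dotProduct, one_mul, Pi.single_eq_same]
      exact one_ne_zero⟩
  obtain ⟨T₃, hT₃⟩ := C2.nonalt_classify m hnm (1 : GL (Fin n) F) h1sym h1na z₀ hz₀
  refine ⟨PN.gam g₁, PN.gam 1, Cfsg.Agent.S0766.tv z₀ 1, C2.tv_isTransvection z₀ hz₀,
    PN.gam_isGraph hn3 g₁, PN.gam_order hn3 g₁ (Or.inr hs₁),
    PN.gam_isGraph hn3 1, PN.gam_order hn3 1 (Or.inl h1sym), ?_, ?_, ?_, ?_⟩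
  · intro hc
    obtain ⟨A, c, hAc⟩ := PN.congr_of_conj hn2 g₁ 1 hc
    obtain ⟨v, hv⟩ : ∃ v : Fin n → F, v = Pi.single ⟨0, by omega⟩ 1 := ⟨_, rfl⟩
    have h5 := form_mul ((A : Matrix (Fin n) (Fin n) F)ᵀ) (g₁ : Matrix (Fin n) (Fin n) F) v v
    rw [halt₁, Matrix.transpose_transpose, hAc, Units.val_one, Matrix.smul_mulVec,
      Matrix.one_mulVec, dotProduct_smul, smul_eq_mul, hv, single_dotProduct, one_mul,
      Pi.single_eq_same, mul_one] at h5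
    exact c.ne_zero h5.symm
  · intro γ hγ hγ2
    obtain ⟨g, rfl⟩ := PN.graph_eq_gam γ hγ
    have hsq : PN.gam g * PN.gam g = 1 := by
      rw [← pow_two, ← hγ2]
      exact pow_orderOf_eq_one _
    have hsym : (g : Matrix (Fin n) (Fin n) F)ᵀ = g := by
      rcases PN.invol_sym_or_skew hn2 g hsq with hg | hg
      · exact hg
      · rw [hg]
        ext i j
        exact CharTwo.neg_eq _
    by_cases halt : ∀ v : Fin n → F, v ⬝ᵥ ((g : Matrix (Fin n) (Fin n) F) *ᵥ v) = 0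
    · left
      obtain ⟨T, hT⟩ := C2.alt_classify m hnm g halt
      have h3 : ∀ u v : Fin n → F, u ⬝ᵥ ((g : Matrix (Fin n) (Fin n) F) *ᵥ v) =
          (-1 : F) * ((T.trans R.symm u) ⬝ᵥ ((g₁ : Matrix (Fin n) (Fin n) F) *ᵥ
            (T.trans R.symm v))) := by
        intro u v
        rw [hg₁, LinearEquiv.trans_apply, LinearEquiv.trans_apply, LinearEquiv.apply_symm_apply,
          LinearEquiv.apply_symm_apply, hT]
        ring
      obtain ⟨A, hA⟩ := PN.congr_of_bil_eq g g₁ (T.trans R.symm) (-1 : F) h3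
      exact PN.isConjUnder_symm _ (PN.conj_of_congr g g₁ A (-1 : Fˣ) (by
        rw [Units.val_neg, Units.val_one]
        exact hA))
    · right
      push Not at halt
      obtain ⟨T, hT⟩ := C2.nonalt_classify m hnm g hsym halt z₀ hz₀
      have h3 : ∀ u v : Fin n → F, u ⬝ᵥ ((g : Matrix (Fin n) (Fin n) F) *ᵥ v) =
          (1 : F) * ((T.trans T₃.symm u) ⬝ᵥ
            (((1 : GL (Fin n) F) : Matrix (Fin n) (Fin n) F) *ᵥ (T.trans T₃.symm v))) := by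
        intro u v
        rw [hT₃, LinearEquiv.trans_apply, LinearEquiv.trans_apply, LinearEquiv.apply_symm_apply,
          LinearEquiv.apply_symm_apply, hT, one_mul]
      obtain ⟨A, hA⟩ := PN.congr_of_bil_eq g 1 (T.trans T₃.symm) (1 : F) h3
      exact PN.isConjUnder_symm _ (PN.conj_of_congr g 1 A (1 : Fˣ) (by
        rw [Units.val_one]
        exact hA))
  · obtain ⟨Φ⟩ := PN.graph_centralizer_bil hn2 g₁
    obtain ⟨Φ'⟩ := GF.psim_congr
      (fun u v : Fin n → F => u ⬝ᵥ ((g₁ : Matrix (Fin n) (Fin n) F) *ᵥ v))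
      (Cfsg.sympForm m F) R 1 one_ne_zero (fun u v => by rw [one_mul, hg₁])
    obtain ⟨Φ''⟩ := C2.pgsp_iso_sp (F := F) m hm1
    exact ⟨Φ.trans (Φ'.trans Φ'')⟩
  · obtain ⟨Φ⟩ := PN.graph_centralizer_bil hn2 (1 : GL (Fin n) F)
    obtain ⟨Φ'⟩ := GF.psim_congr
      (fun u v : Fin n → F => u ⬝ᵥ (((1 : GL (Fin n) F) : Matrix (Fin n) (Fin n) F) *ᵥ v))
      (fun u v : Fin m ⊕ Fin m → F => Cfsg.sympForm m F u v +
        Cfsg.sympForm m F z₀ u * Cfsg.sympForm m F z₀ v) T₃ 1 one_ne_zero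
      (fun u v => by rw [one_mul]; exact (hT₃ u v).symm)
    obtain ⟨Φ''⟩ := C2.std_iso (F := F) m hm1 z₀ hz₀
    exact ⟨Φ.trans (Φ'.trans Φ'')⟩

end Cfsg.Agent.S2701
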