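import Cfsg.Statements.S2702
import Mathlib
import Cfsg.Agent.Lib.helper13.PSLnSplit2

set_option autoImplicit false
open Cfsg

open Cfsg.Agent.Lib.helper13 Matrix

namespace Cfsg.Agent.S2702

/-- Let T = PSL_n(F) over the field with q = p^f elements, n ≥ 3, G = Inndiag(T) the image of PGL_n(F), and γ an involutory graph automorphism of T. The G-class of γ is the union of exactly c T-classes, where: if n is even and q is odd, c = gcd(n/2, q − 1) when C_G(γ) is isomorphic to the projective conformal symplectic group PGSp_n(F) (symplectic type) and c = gcd(n, q − 1)/2 otherwise; and c = gcd(n, q − 1) when n is odd or q is even. -/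
theorem result {F : Type*} [Field F] [Fintype F] {p f : ℕ} [Fact p.Prime] (hF : Fintype.card F = p ^ f) (hf : 1 ≤ f) {n : ℕ} (hn : 3 ≤ n) (γ : MulAut (Matrix.ProjectiveSpecialLinearGroup (Fin n) F)) (hγ : Cfsg.IsGraphAutClassPSL γ) (hγ2 : orderOf γ = 2) :
    ((Even n ∧ Odd p ∧ Nonempty (↥(Cfsg.inndiagPSL n F ⊓ Subgroup.centralizer {γ}) ≃* Cfsg.PGSp (n / 2) F)) → Cfsg.splitClassCount (Cfsg.inndiagPSL n F) (Cfsg.Inn (Matrix.ProjectiveSpecialLinearGroup (Fin n) F)) γ = Nat.gcd (n / 2) (p ^ f - 1)) ∧ ((Even n ∧ Odd p ∧ ¬ Nonempty (↥(Cfsg.inndiagPSL n F ⊓ Subgroup.centralizer {γ}) ≃* Cfsg.PGSp (n / 2) F)) → Cfsg.splitClassCount (Cfsg.inndiagPSL n F) (Cfsg.Inn (Matrix.ProjectiveSpecialLinearGroup (Fin n) F)) γ = Nat.gcd n (p ^ f - 1) / 2) ∧ (¬ (Even n ∧ Odd p) → Cfsg.splitClassCount (Cfsg.inndiagPSL n F) (Cfsg.Inn (Matrix.ProjectiveSpecialLinearGroup (Fin n) F)) γ = Nat.gcd n (p ^ f - 1)) := by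
  obtain ⟨g, rfl⟩ := PN.graph_eq_gam γ hγ
  have hsq : PN.gam g * PN.gam g = 1 := by
    rw [← pow_two, ← hγ2]
    exact pow_orderOf_eq_one _
  have hss := PN.invol_sym_or_skew (by omega) g hsq
  rw [← hF]
  by_cases hcase : Even n ∧ Odd p
  · obtain ⟨⟨m, hm⟩, hp⟩ := hcase
    have hnm : n = 2 * m := by omega
    have hm2 : 2 ≤ m := by omega
    have hdiv : n / 2 = m := by omega
    have hodd : Odd (Fintype.card F) := by
      rw [hF]
      exact hp.pow
    have h2 : (2 : F) ≠ 0 := GF.two_ne_zero_of_odd hodd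
    rw [hdiv]
    rcases hss with hs | hs
    · exact ⟨fun h => absurd h.2.2 (PN.sym_cent_not_iso (by omega) hodd m hm2 hnm g hs),
        fun _ => PN.split_sym (by omega) hodd m hnm g hs,
        fun h => absurd ⟨⟨m, hm⟩, hp⟩ h⟩
    · exact ⟨fun _ => PN.split_skew (by omega) h2 m (by omega) hnm g hs,
        fun h => absurd (PN.skew_cent_iso (by omega) h2 m hnm g hs) h.2.2,
        fun h => absurd ⟨⟨m, hm⟩, hp⟩ h⟩
  · have hcase' : Odd n ∨ (2 : F) = 0 := by
      by_cases hev : Even n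
      · right
        have hp : ¬ Odd p := fun hp => hcase ⟨hev, hp⟩
        have hp2 : p = 2 := (Nat.Prime.eq_two_or_odd' (Fact.out : p.Prime)).resolve_right hp
        have h0 : ((Fintype.card F : ℕ) : F) = 0 := Nat.cast_card_eq_zero F
        rw [hF, hp2, Nat.cast_pow, Nat.cast_ofNat] at h0
        exact (pow_eq_zero_iff (by omega)).1 h0
      · left
        exact Nat.not_even_iff_odd.1 hev
    exact ⟨fun h => absurd ⟨h.1, h.2.1⟩ hcase, fun h => absurd ⟨h.1, h.2.1⟩ hcase,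
      fun _ => PN.split_odd (by omega) g hcase'⟩

end Cfsg.Agent.S2702
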