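import Cfsg.Statements.S2703
import Mathlib
import Cfsg.Agent.Lib.helper13.PSLnGraph

set_option autoImplicit false
open Cfsg

open Cfsg.Agent.Lib.helper13 Matrix

namespace Cfsg.Agent.S2703

/-- Let T = PSL_n(F) over the field with q elements, q odd, n = 2m ≥ 4 even, and ι the inverse-transpose automorphism. Its centralizer in G = Inndiag(T) (the image of PGL_n(F)) is isomorphic to the projective conformal orthogonal group of the plus-type form Σ xᵢ yᵢ in dimension n when n(q − 1)/4 is even, and to that of a minus-type form (Σ xᵢ yᵢ + z₁² + a z₁ z₂ + b z₂² with anisotropic binary part) when n(q − 1)/4 is odd. -/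
theorem result {F : Type*} [Field F] [Fintype F] (hodd : Odd (Fintype.card F)) {n m : ℕ} (hm : 2 ≤ m) (hnm : n = 2 * m) (ι : MulAut (Matrix.ProjectiveSpecialLinearGroup (Fin n) F)) (hι : Cfsg.IsInverseTransposeAutPSL ι) :
    (Even (n * (Fintype.card F - 1) / 4) → Nonempty (↥(Cfsg.inndiagPSL n F ⊓ Subgroup.centralizer {ι}) ≃* Cfsg.PGO F (Cfsg.quadFormPlus m F))) ∧ (¬ Even (n * (Fintype.card F - 1) / 4) → ∃ a b : F, (∀ z₁ z₂ : F, z₁ ^ 2 + a * z₁ * z₂ + b * z₂ ^ 2 = 0 → z₁ = 0 ∧ z₂ = 0) ∧ Nonempty (↥(Cfsg.inndiagPSL n F ⊓ Subgroup.centralizer {ι}) ≃* Cfsg.PGO F (Cfsg.quadFormMinus (m - 1) F a b))) := by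
  classical
  have hn : 2 ≤ n := by omega
  have h2 : (2 : F) ≠ 0 := GF.two_ne_zero_of_odd hodd
  have hι' : ι = PN.gam (1 : GL (Fin n) F) := by
    rw [(PN.isInvTr_iff ι).1 hι]
    unfold PN.gam
    rw [map_one, one_mul]
  have hQ : (fun v : Fin n → F => v ⬝ᵥ (((1 : GL (Fin n) F) : Matrix (Fin n) (Fin n) F) *ᵥ v))
      = (GF.SS : (Fin n → F) → F) := by
    funext v
    rw [Units.val_one, Matrix.one_mulVec]
    unfold GF.SS dotProduct
    exact Finset.sum_congr rfl (fun k _ => (pow_two _).symm)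
  have hC := PN.graph_centralizer_sym hn h2 (1 : GL (Fin n) F)
    (by rw [Units.val_one, Matrix.transpose_one])
  rw [← hι', hQ] at hC
  obtain ⟨Φ⟩ := hC
  constructor
  · intro he
    obtain ⟨Φ'⟩ := GF.ss_pgo_plus hodd hnm ((GF.parity_iff hodd hnm).1 he)
    exact ⟨Φ.trans Φ'⟩
  · intro he
    rw [GF.parity_iff hodd hnm] at he
    push Not at he
    obtain ⟨ζ, hζ, ⟨Φ'⟩⟩ := GF.ss_pgo_minus hodd hnm ⟨he.1, Nat.not_even_iff_odd.1 he.2⟩
    exact ⟨1, ζ, GF.aniso_of_irred ζ hζ, ⟨Φ.trans Φ'⟩⟩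

end Cfsg.Agent.S2703
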