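import Cfsg.Statements.S2706
import Mathlib
import Cfsg.Agent.Lib.helper13.Char2Odd
import Cfsg.Agent.Lib.helper13.OddGraph
import Cfsg.Agent.Lib.helper13.PSUGraph3

set_option autoImplicit false
open Cfsg

open Cfsg.Agent.Lib.helper13 Matrix

namespace Cfsg.Agent.S2706

/-- Let T = PSU_n(q) be simple with n = 2m + 1 ≥ 3 odd, realised over the field F with q² elements, and G = Inndiag(T) the image of PGU_n(q). Every involutory graph automorphism γ of T (an inner-diagonal automorphism times a standard field automorphism of even order, of order 2) has centralizer C_G(γ) isomorphic to the projective conformal orthogonal group of the form x₀² + Σ xᵢ yᵢ in dimension n over a field F₀ with q elements, and any two involutory graph automorphisms of T are G-conjugate. -/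
theorem result {F : Type*} [Field F] [Fintype F] {p f q : ℕ} [Fact p.Prime] (hq : q = p ^ f) (hf : 1 ≤ f) (hF : Fintype.card F = q ^ 2) {n : ℕ} (hn : 3 ≤ n) (hs : ¬ (n = 3 ∧ q = 2)) {m : ℕ} (hnm : n = 2 * m + 1) (F₀ : Type*) [Field F₀] [Fintype F₀] (hF₀ : Fintype.card F₀ = q) (γ γ' : MulAut (Cfsg.PSU n F q)) (hγ : Cfsg.IsGraphAutClassPSU γ) (hγ2 : orderOf γ = 2) (hγ' : Cfsg.IsGraphAutClassPSU γ') (hγ'2 : orderOf γ' = 2) :
    Nonempty (↥(Cfsg.inndiagPSU n F q ⊓ Subgroup.centralizer {γ}) ≃* Cfsg.PGO F₀ (Cfsg.quadFormOdd m F₀)) ∧ Cfsg.IsConjUnder (Cfsg.inndiagPSU n F q) γ γ' := by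
  classical
  have hn2 : 2 ≤ n := by omega
  obtain ⟨τ, hτq, hτ1, hτ2⟩ := PU.exists_tau hF
  have hτo : orderOf τ = 2 := orderOf_eq_prime (by rw [pow_two]; exact hτ2) hτ1
  obtain ⟨ι⟩ := exists_ringHom hF₀ hF
  have hι : ∀ b : F, τ b = b ↔ ∃ a, ι a = b := by
    let _ : Algebra F₀ F := ι.toAlgebra
    intro b
    rw [hτq]
    constructor
    · intro hb
      exact fix_mem hF₀ b hb
    · rintro ⟨a, rfl⟩
      exact pow_q_algebraMap hF₀ a
  have hF' : Fintype.card F = p ^ (f * 2) := by rw [hF, hq, pow_mul]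
  have hf' : 1 ≤ f * 2 := by omega
  obtain ⟨h, rfl⟩ := PU.graphU_eq_gam hF hn τ hτo hF' hf' γ hγ hγ2
  obtain ⟨h', rfl⟩ := PU.graphU_eq_gam hF hn τ hτo hF' hf' γ' hγ' hγ'2
  have hsq : PU.gamU τ h * PU.gamU τ h = 1 := by
    rw [← pow_two, ← hγ2]
    exact pow_orderOf_eq_one _
  have hsq' : PU.gamU τ h' * PU.gamU τ h' = 1 := by
    rw [← pow_two, ← hγ'2]
    exact pow_orderOf_eq_one _
  have hν1 : (1 : Fˣ) * Units.map ((τ : F →+* F) : F →* F) 1 = 1 := by rw [map_one, mul_one]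
  have hκ1 : Units.map ((τ : F →+* F) : F →* F) 1 = 1 * 1 := by rw [map_one, mul_one]
  have hc1 : Units.map (ι : F₀ →* F) (1 : F₀ˣ)⁻¹ = 1 := by rw [inv_one, map_one]
  have hc1' : Units.map (ι : F₀ →* F) (1 : F₀ˣ)⁻¹ = (1 : Fˣ)⁻¹ := by rw [hc1, inv_one]
  have hcn : Units.map (ι : F₀ →* F) (-1 : F₀ˣ)⁻¹ = -1 := by
    rw [inv_neg_one, PU.unitsMap_neg_one]
  have hcn' : Units.map (ι : F₀ →* F) (-1 : F₀ˣ)⁻¹ = (-1 : Fˣ)⁻¹ := by rw [hcn, inv_neg_one]
  have hdata : ∀ h : ↥(Cfsg.GU n F q), PU.gamU τ h * PU.gamU τ h = 1 →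
      ∃ (a : GL (Fin n) F) (S₀ : GL (Fin n) F₀), PU.IsData τ ι 1 1 h a S₀ ∧
        (S₀ : Matrix (Fin n) (Fin n) F₀)ᵀ = S₀ := by
    intro h hsq
    obtain ⟨lam, hlam, hh⟩ := PU.invol_lam hF hn τ hτ2 hτq h hsq
    have hsymcase : lam = 1 → ∃ (a : GL (Fin n) F) (S₀ : GL (Fin n) F₀),
        PU.IsData τ ι 1 1 h a S₀ ∧ (S₀ : Matrix (Fin n) (Fin n) F₀)ᵀ = S₀ := by
      intro hlam1
      subst hlam1
      obtain ⟨a, S₀, hd⟩ := PU.data_exist τ hτq hτ1 hτ2 ι hι 1 1 1 hν1 hκ1 h hh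
      have hS₀ : (S₀ : Matrix (Fin n) (Fin n) F₀)ᵀ = S₀ := by
        have h1 := PU.transpose_of_mapι_itGL ι S₀ 1 (1 : Fˣ)⁻¹ hc1'
          (PU.data_sym τ hτq hτ2 ι 1 1 1 hν1 h a S₀ hd)
        rw [Units.val_one, one_smul] at h1
        exact h1
      exact ⟨a, S₀, hd, hS₀⟩
    rcases hlam with hlam | hlam
    · exact hsymcase hlam
    · by_cases h2 : (2 : F₀) = 0
      · apply hsymcase
        rw [hlam]
        apply Units.ext
        rw [Units.val_neg, Units.val_one]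
        have h2F : (2 : F) = 0 := by
          have h5 := congrArg ι h2
          rw [map_ofNat, map_zero] at h5
          exact h5
        linear_combination -h2F
      · exfalso
        have hodd : Odd q := by
          rw [← hF₀, Nat.odd_iff]
          apply FiniteField.odd_card_of_char_ne_two
          intro h5
          apply h2
          have h6 := CharP.cast_eq_zero F₀ (ringChar F₀)
          rw [h5] at h6
          exact_mod_cast h6
        subst hlam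
        obtain ⟨ν, hν⟩ := PU.exists_nu_neg hodd hF τ hτq
        obtain ⟨κ, hκ⟩ := PU.exists_kappa_neg τ hτ1 hτ2
        obtain ⟨a, S₀, hd⟩ := PU.data_exist τ hτq hτ1 hτ2 ι hι ν κ (-1) hν hκ h hh
        have hS₀ : (S₀ : Matrix (Fin n) (Fin n) F₀)ᵀ = -(S₀ : Matrix (Fin n) (Fin n) F₀) := by
          have h1 := PU.transpose_of_mapι_itGL ι S₀ (-1) (-1 : Fˣ)⁻¹ hcn'
            (PU.data_sym τ hτq hτ2 ι ν κ (-1) hν h a S₀ hd)
          rw [Units.val_neg, Units.val_one, neg_one_smul] at h1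
          exact h1
        exact QO.not_skew_odd h2 hnm S₀ hS₀
  obtain ⟨a, S₀, hd, hS₀⟩ := hdata h hsq
  obtain ⟨a', S₀', hd', hS₀'⟩ := hdata h' hsq'
  by_cases h2 : (2 : F₀) = 0
  · have hch : CharP F₀ 2 := CharTwo.of_one_ne_zero_of_two_eq_zero one_ne_zero h2
    constructor
    · obtain ⟨Φ⟩ := PU.psu_graph_centralizer hF hn τ hτq hτ1 hτ2 ι hι h a 1 1 S₀ hd.1 hd.2
        (Cfsg.Geo.similarityGroup
          (fun u v : Fin n → F₀ => u ⬝ᵥ ((S₀ : Matrix (Fin n) (Fin n) F₀) *ᵥ v)))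
        (fun x => PN.bilSim_iff _ x)
      obtain ⟨Φ'⟩ := C2.char2_odd_cent_iso m hnm S₀ hS₀
      exact ⟨Φ.trans Φ'⟩
    · have hc := C2.char2_odd_conj m hnm S₀' S₀ hS₀' hS₀
      obtain ⟨A, c, hAc⟩ := PN.congr_of_conj hn2 S₀' S₀ hc
      exact PU.data_conj hF hn τ hτq hτ2 ι hι 1 1 h h' a a' S₀ S₀' hd hd' _ _
        (PU.rel_of_congr S₀ S₀' A c hAc)
  · constructor
    · obtain ⟨Φ⟩ := PU.psu_graph_centralizer hF hn τ hτq hτ1 hτ2 ι hι h a 1 1 S₀ hd.1 hd.2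
        (Cfsg.Geo.quadSimilarityGroup
          (fun v : Fin n → F₀ => v ⬝ᵥ ((S₀ : Matrix (Fin n) (Fin n) F₀) *ᵥ v)))
        (fun x => PN.quadSim_iff h2 _ hS₀ x)
      obtain ⟨Φ'⟩ := QO.odd_pgo_iso h2 hnm S₀ hS₀
      exact ⟨Φ.trans Φ'⟩
    · have hc := QO.odd_conj h2 hnm S₀' S₀ hS₀' hS₀
      obtain ⟨A, c, hAc⟩ := PN.congr_of_conj hn2 S₀' S₀ hc
      exact PU.data_conj hF hn τ hτq hτ2 ι hι 1 1 h h' a a' S₀ S₀' hd hd' _ _
        (PU.rel_of_congr S₀ S₀' A c hAc)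

end Cfsg.Agent.S2706
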