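import Cfsg.Statements.S2707
import Mathlib
import Cfsg.Agent.Lib.helper13.PSUGraph3

set_option autoImplicit false
open Cfsg

open Cfsg.Agent.Lib.helper13 Matrix

namespace Cfsg.Agent.S2707

/-- Let T = PSU_n(q) with n = 2m ≥ 4 even and q odd, realised over the field F with q² elements, and G = Inndiag(T) the image of PGU_n(q). The involutory graph automorphisms of T fall into exactly three G-classes, with representatives whose centralizers in G are isomorphic respectively to the projective conformal symplectic group PGSp_n(F₀), the projective conformal orthogonal group of the plus-type form Σ xᵢ yᵢ, and that of a minus-type form Σ xᵢ yᵢ + z₁² + a z₁ z₂ + b z₂² (anisotropic binary part) in dimension n, all over a field F₀ with q elements. -/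
theorem result {F : Type*} [Field F] [Fintype F] {q : ℕ} (hodd : Odd q) (hF : Fintype.card F = q ^ 2) {n m : ℕ} (hm : 2 ≤ m) (hnm : n = 2 * m) (F₀ : Type*) [Field F₀] [Fintype F₀] (hF₀ : Fintype.card F₀ = q) :
    ∃ (γ₁ γ₂ γ₃ : MulAut (Cfsg.PSU n F q)) (a b : F₀), (∀ z₁ z₂ : F₀, z₁ ^ 2 + a * z₁ * z₂ + b * z₂ ^ 2 = 0 → z₁ = 0 ∧ z₂ = 0) ∧ Cfsg.IsGraphAutClassPSU γ₁ ∧ orderOf γ₁ = 2 ∧ Cfsg.IsGraphAutClassPSU γ₂ ∧ orderOf γ₂ = 2 ∧ Cfsg.IsGraphAutClassPSU γ₃ ∧ orderOf γ₃ = 2 ∧ ¬ Cfsg.IsConjUnder (Cfsg.inndiagPSU n F q) γ₁ γ₂ ∧ ¬ Cfsg.IsConjUnder (Cfsg.inndiagPSU n F q) γ₁ γ₃ ∧ ¬ Cfsg.IsConjUnder (Cfsg.inndiagPSU n F q) γ₂ γ₃ ∧ (∀ γ : MulAut (Cfsg.PSU n F q), Cfsg.IsGraphAutClassPSU γ → orderOf γ = 2 → Cfsg.IsConjUnder (Cfsg.inndiagPSU n F q) γ₁ γ ∨ Cfsg.IsConjUnder (Cfsg.inndiagPSU n F q) γ₂ γ ∨ Cfsg.IsConjUnder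 (Cfsg.inndiagPSU n F q) γ₃ γ) ∧ Nonempty (↥(Cfsg.inndiagPSU n F q ⊓ Subgroup.centralizer {γ₁}) ≃* Cfsg.PGSp m F₀) ∧ Nonempty (↥(Cfsg.inndiagPSU n F q ⊓ Subgroup.centralizer {γ₂}) ≃* Cfsg.PGO F₀ (Cfsg.quadFormPlus m F₀)) ∧ Nonempty (↥(Cfsg.inndiagPSU n F q ⊓ Subgroup.centralizer {γ₃}) ≃* Cfsg.PGO F₀ (Cfsg.quadFormMinus (m - 1) F₀ a b)) := by
  classical
  have hn2 : 2 ≤ n := by omega
  have hn3 : 3 ≤ n := by omega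
  have hoddF : Odd (Fintype.card F) := by rw [hF]; exact hodd.pow
  have h2F : (2 : F) ≠ 0 := GF.two_ne_zero_of_odd hoddF
  have hodd₀ : Odd (Fintype.card F₀) := by rw [hF₀]; exact hodd
  have h2 : (2 : F₀) ≠ 0 := GF.two_ne_zero_of_odd hodd₀
  obtain ⟨τ, hτq, hτ1, hτ2⟩ := PU.exists_tau hF
  have hτo : orderOf τ = 2 := orderOf_eq_prime (by rw [pow_two]; exact hτ2) hτ1
  obtain ⟨ι⟩ := exists_ringHom hF₀ hF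
  have hι : ∀ b : F, τ b = b ↔ ∃ a, ι a = b := by
    letI : Algebra F₀ F := ι.toAlgebra
    intro b
    rw [hτq]
    constructor
    · intro hb
      exact fix_mem hF₀ b hb
    · rintro ⟨a, rfl⟩
      exact pow_q_algebraMap hF₀ a
  obtain ⟨p, hp⟩ := CharP.exists F
  haveI := hp
  obtain ⟨f, hpp, hF'⟩ := FiniteField.card F p
  haveI : Fact p.Prime := ⟨hpp⟩
  have hf : 1 ≤ (f : ℕ) := f.pos
  obtain ⟨ν, hν⟩ := PU.exists_nu_neg hodd hF τ hτq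
  obtain ⟨κ, hκ⟩ := PU.exists_kappa_neg τ hτ1 hτ2
  have hν1 : (1 : Fˣ) * Units.map ((τ : F →+* F) : F →* F) 1 = 1 := by rw [map_one, mul_one]
  have hκ1 : Units.map ((τ : F →+* F) : F →* F) 1 = 1 * 1 := by rw [map_one, mul_one]
  obtain ⟨k, rfl⟩ : ∃ k, m = k + 1 := ⟨m - 1, by omega⟩
  obtain ⟨R, -, -⟩ := GF.exists_reindex (F := F₀) hnm
  obtain ⟨e'⟩ : Nonempty (((Fin k ⊕ Fin k) ⊕ Fin 2) ≃ Fin n) :=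
    ⟨Fintype.equivOfCardEq (by simp only [Fintype.card_sum, Fintype.card_fin]; omega)⟩
  obtain ⟨R'⟩ : Nonempty ((Fin n → F₀) ≃ₗ[F₀] ((Fin k ⊕ Fin k) ⊕ Fin 2 → F₀)) :=
    ⟨LinearEquiv.funCongrLeft F₀ F₀ e'⟩
  obtain ⟨ζ₀, hζ₀⟩ := PN.exists_zeta (F := F₀)
  obtain ⟨g₁, hs₁, hg₁⟩ := PN.exists_skew_of_symp R
  obtain ⟨g₂, hs₂, hg₂⟩ := PN.exists_sym_of_quad (Cfsg.Agent.S2562.qP F₀ (k + 1))
    (Cfsg.Agent.S2562.nondeg_qP (k + 1)) R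
  obtain ⟨g₃, hs₃, hg₃⟩ := PN.exists_sym_of_quad (Cfsg.Agent.S2562.qM F₀ k ζ₀)
    (Cfsg.Agent.S2562.nondeg_qM k ζ₀ hζ₀) R'
  have hg₂' : ∀ v : Fin n → F₀, v ⬝ᵥ ((g₂ : Matrix (Fin n) (Fin n) F₀) *ᵥ v) =
      2 * Cfsg.quadFormPlus (k + 1) F₀ (R v) := fun v => by
    rw [hg₂, Cfsg.Agent.S2562.qP_apply]
  have hg₃' : ∀ v : Fin n → F₀, v ⬝ᵥ ((g₃ : Matrix (Fin n) (Fin n) F₀) *ᵥ v) =
      2 * Cfsg.quadFormMinus k F₀ 1 ζ₀ (R' v) := fun v => by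
    rw [hg₃, Cfsg.Agent.S2562.qM_apply]
  have hc1 : Units.map (ι : F₀ →* F) (1 : F₀ˣ)⁻¹ = 1 := by rw [inv_one, map_one]
  have hc1' : Units.map (ι : F₀ →* F) (1 : F₀ˣ)⁻¹ = (1 : Fˣ)⁻¹ := by rw [hc1, inv_one]
  have hcn : Units.map (ι : F₀ →* F) (-1 : F₀ˣ)⁻¹ = -1 := by
    rw [inv_neg_one, PU.unitsMap_neg_one]
  have hcn' : Units.map (ι : F₀ →* F) (-1 : F₀ˣ)⁻¹ = (-1 : Fˣ)⁻¹ := by rw [hcn, inv_neg_one]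
  have ht₁ : (g₁ : Matrix (Fin n) (Fin n) F₀)ᵀ =
      ((-1 : F₀ˣ) : F₀) • (g₁ : Matrix (Fin n) (Fin n) F₀) := by
    rw [hs₁, Units.val_neg, Units.val_one, neg_one_smul]
  have ht₂ : (g₂ : Matrix (Fin n) (Fin n) F₀)ᵀ =
      ((1 : F₀ˣ) : F₀) • (g₂ : Matrix (Fin n) (Fin n) F₀) := by
    rw [hs₂, Units.val_one, one_smul]
  have ht₃ : (g₃ : Matrix (Fin n) (Fin n) F₀)ᵀ =
      ((1 : F₀ˣ) : F₀) • (g₃ : Matrix (Fin n) (Fin n) F₀) := by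
    rw [hs₃, Units.val_one, one_smul]
  obtain ⟨h₁, a₁, hd₁⟩ := PU.data_rep (q := q) τ hτq hτ1 hτ2 ι hι ν κ (-1) hν hκ g₁
    (PU.mapι_itGL_of_transpose ι g₁ (-1) (-1) hcn ht₁)
  obtain ⟨h₂, a₂, hd₂⟩ := PU.data_rep (q := q) τ hτq hτ1 hτ2 ι hι 1 1 1 hν1 hκ1 g₂
    (PU.mapι_itGL_of_transpose ι g₂ 1 1 hc1 ht₂)
  obtain ⟨h₃, a₃, hd₃⟩ := PU.data_rep (q := q) τ hτq hτ1 hτ2 ι hι 1 1 1 hν1 hκ1 g₃
    (PU.mapι_itGL_of_transpose ι g₃ 1 1 hc1 ht₃)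
  have hsq₁ := PU.data_sq τ hτ2 ν (-1) hν (h₁ : GL (Fin n) F) a₁ hd₁.1
  have hsq₂ := PU.data_sq τ hτ2 1 1 hν1 (h₂ : GL (Fin n) F) a₂ hd₂.1
  have hsq₃ := PU.data_sq τ hτ2 1 1 hν1 (h₃ : GL (Fin n) F) a₃ hd₃.1
  have hne : (-1 : Fˣ) ≠ 1 := by
    intro h
    have h1 : ((-1 : Fˣ) : F) = ((1 : Fˣ) : F) := by rw [h]
    rw [Units.val_neg, Units.val_one] at h1
    apply h2F
    linear_combination -h1
  refine ⟨PU.gamU τ h₁, PU.gamU τ h₂, PU.gamU τ h₃, 1, ζ₀, GF.aniso_of_irred ζ₀ hζ₀,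
    PU.gamU_isGraph hn3 τ hτo h₁, PU.gamU_order hF hn3 τ hτ1 hτ2 h₁ (-1) hsq₁,
    PU.gamU_isGraph hn3 τ hτo h₂, PU.gamU_order hF hn3 τ hτ1 hτ2 h₂ 1 hsq₂,
    PU.gamU_isGraph hn3 τ hτo h₃, PU.gamU_order hF hn3 τ hτ1 hτ2 h₃ 1 hsq₃,
    fun hc => hne (PU.lam_invariant hF hn3 τ hτq hτ2 h₁ h₂ (-1) 1 hsq₁ hsq₂ hc),
    fun hc => hne (PU.lam_invariant hF hn3 τ hτq hτ2 h₁ h₃ (-1) 1 hsq₁ hsq₃ hc),
    ?_, ?_, ?_, ?_, ?_⟩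
  · intro hc
    obtain ⟨x, c, hxc⟩ := PU.data_nonconj hF hn3 τ hτq hτ1 hτ2 ι hι 1 1 h₂ h₃ a₂ a₃ g₂ g₃
      hd₂ hd₃ hc
    exact PN.not_conj_plus_minus hn2 k g₂ g₃ ζ₀ hζ₀ h2 R R' hg₂' hg₃'
      (PN.conj_of_congr g₂ g₃ x c (PU.rel_coe g₂ g₃ x c hxc))
  · intro γ hγ hγ2
    obtain ⟨h, rfl⟩ := PU.graphU_eq_gam hF hn3 τ hτo hF' hf γ hγ hγ2
    have hsq : PU.gamU τ h * PU.gamU τ h = 1 := by
      rw [← pow_two, ← hγ2]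
      exact pow_orderOf_eq_one _
    obtain ⟨lam, hlam | hlam, hh⟩ := PU.invol_lam hF hn3 τ hτ2 hτq h hsq
    · right
      subst hlam
      obtain ⟨a, S₀, hd⟩ := PU.data_exist τ hτq hτ1 hτ2 ι hι 1 1 1 hν1 hκ1 h hh
      have hS₀ : (S₀ : Matrix (Fin n) (Fin n) F₀)ᵀ = S₀ := by
        have h1 := PU.transpose_of_mapι_itGL ι S₀ 1 (1 : Fˣ)⁻¹ hc1'
          (PU.data_sym τ hτq hτ2 ι 1 1 1 hν1 h a S₀ hd)
        rw [Units.val_one, one_smul] at h1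
        exact h1
      rcases PN.classify_sym h2 k hnm S₀ g₂ g₃ ζ₀ hζ₀ R R' hS₀ hs₂ hs₃ hg₂' hg₃' with hc | hc
      · left
        obtain ⟨A, c, hAc⟩ := PN.congr_of_conj hn2 g₂ S₀ hc
        exact PN.isConjUnder_symm _ (PU.data_conj hF hn3 τ hτq hτ2 ι hι 1 1 h h₂ a a₂ S₀ g₂
          hd hd₂ _ _ (PU.rel_of_congr S₀ g₂ A c hAc))
      · right
        obtain ⟨A, c, hAc⟩ := PN.congr_of_conj hn2 g₃ S₀ hc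
        exact PN.isConjUnder_symm _ (PU.data_conj hF hn3 τ hτq hτ2 ι hι 1 1 h h₃ a a₃ S₀ g₃
          hd hd₃ _ _ (PU.rel_of_congr S₀ g₃ A c hAc))
    · left
      subst hlam
      obtain ⟨a, S₀, hd⟩ := PU.data_exist τ hτq hτ1 hτ2 ι hι ν κ (-1) hν hκ h hh
      have hS₀ : (S₀ : Matrix (Fin n) (Fin n) F₀)ᵀ = -(S₀ : Matrix (Fin n) (Fin n) F₀) := by
        have h1 := PU.transpose_of_mapι_itGL ι S₀ (-1) (-1 : Fˣ)⁻¹ hcn'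
          (PU.data_sym τ hτq hτ2 ι ν κ (-1) hν h a S₀ hd)
        rw [Units.val_neg, Units.val_one, neg_one_smul] at h1
        exact h1
      have hc := PN.classify_skew h2 (k + 1) hnm S₀ g₁ R hS₀ hg₁
      obtain ⟨A, c, hAc⟩ := PN.congr_of_conj hn2 g₁ S₀ hc
      exact PN.isConjUnder_symm _ (PU.data_conj hF hn3 τ hτq hτ2 ι hι ν κ h h₁ a a₁ S₀ g₁
        hd hd₁ _ _ (PU.rel_of_congr S₀ g₁ A c hAc))
  · obtain ⟨Φ⟩ := PU.psu_graph_centralizer hF hn3 τ hτq hτ1 hτ2 ι hι h₁ a₁ ν κ g₁ hd₁.1 hd₁.2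
      (Cfsg.Geo.similarityGroup
        (fun u v : Fin n → F₀ => u ⬝ᵥ ((g₁ : Matrix (Fin n) (Fin n) F₀) *ᵥ v)))
      (fun x => PN.bilSim_iff _ x)
    obtain ⟨Φ'⟩ := GF.psim_congr
      (fun u v : Fin n → F₀ => u ⬝ᵥ ((g₁ : Matrix (Fin n) (Fin n) F₀) *ᵥ v))
      (Cfsg.sympForm (k + 1) F₀) R 1 one_ne_zero (fun u v => by rw [one_mul, hg₁])
    exact ⟨Φ.trans Φ'⟩
  · obtain ⟨Φ⟩ := PU.psu_graph_centralizer hF hn3 τ hτq hτ1 hτ2 ι hι h₂ a₂ 1 1 g₂ hd₂.1 hd₂.2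
      (Cfsg.Geo.quadSimilarityGroup
        (fun v : Fin n → F₀ => v ⬝ᵥ ((g₂ : Matrix (Fin n) (Fin n) F₀) *ᵥ v)))
      (fun x => PN.quadSim_iff h2 _ hs₂ x)
    obtain ⟨Φ'⟩ := GF.pgo_congr
      (fun v : Fin n → F₀ => v ⬝ᵥ ((g₂ : Matrix (Fin n) (Fin n) F₀) *ᵥ v))
      (Cfsg.quadFormPlus (k + 1) F₀) R (2 : F₀)⁻¹ (inv_ne_zero h2)
      (fun v => by rw [hg₂', ← mul_assoc, inv_mul_cancel₀ h2, one_mul])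
    exact ⟨Φ.trans Φ'⟩
  · obtain ⟨Φ⟩ := PU.psu_graph_centralizer hF hn3 τ hτq hτ1 hτ2 ι hι h₃ a₃ 1 1 g₃ hd₃.1 hd₃.2
      (Cfsg.Geo.quadSimilarityGroup
        (fun v : Fin n → F₀ => v ⬝ᵥ ((g₃ : Matrix (Fin n) (Fin n) F₀) *ᵥ v)))
      (fun x => PN.quadSim_iff h2 _ hs₃ x)
    obtain ⟨Φ'⟩ := GF.pgo_congr
      (fun v : Fin n → F₀ => v ⬝ᵥ ((g₃ : Matrix (Fin n) (Fin n) F₀) *ᵥ v))
      (Cfsg.quadFormMinus k F₀ 1 ζ₀) R' (2 : F₀)⁻¹ (inv_ne_zero h2)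
      (fun v => by rw [hg₃', ← mul_assoc, inv_mul_cancel₀ h2, one_mul])
    exact ⟨Φ.trans Φ'⟩

end Cfsg.Agent.S2707
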