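import Cfsg.Statements.S2708
import Mathlib
import Cfsg.Agent.Lib.helper13.Char2Graph2
import Cfsg.Agent.Lib.helper13.PSUGraph3

set_option autoImplicit false
open Cfsg

open Cfsg.Agent.Lib.helper13 Matrix

namespace Cfsg.Agent.S2708

/-- Let T = PSU_n(q) with n = 2m ≥ 4 even and q even, realised over the field F (of characteristic 2) with q² elements, and G = Inndiag(T) the image of PGU_n(q). The involutory graph automorphisms of T fall into exactly two G-classes, with representatives whose centralizers in G are isomorphic respectively to the symplectic group Sp_n(F₀) and to the centralizer in Sp_n(F₀) of a symplectic transvection, F₀ a field with q elements. -/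
theorem result {F : Type*} [Field F] [Fintype F] [CharP F 2] {q : ℕ} (hF : Fintype.card F = q ^ 2) {n m : ℕ} (hm : 2 ≤ m) (hnm : n = 2 * m) (F₀ : Type*) [Field F₀] [Fintype F₀] (hF₀ : Fintype.card F₀ = q) :
    ∃ (γ₁ γ₃ : MulAut (Cfsg.PSU n F q)) (t : ↥(Matrix.symplecticGroup (Fin m) F₀)), Cfsg.IsTransvection (t : Matrix (Fin m ⊕ Fin m) (Fin m ⊕ Fin m) F₀) ∧ Cfsg.IsGraphAutClassPSU γ₁ ∧ orderOf γ₁ = 2 ∧ Cfsg.IsGraphAutClassPSU γ₃ ∧ orderOf γ₃ = 2 ∧ ¬ Cfsg.IsConjUnder (Cfsg.inndiagPSU n F q) γ₁ γ₃ ∧ (∀ γ : MulAut (Cfsg.PSU n F q), Cfsg.IsGraphAutClassPSU γ → orderOf γ = 2 → Cfsg.IsConjUnder (Cfsg.inndiagPSU n F q) γ₁ γ ∨ Cfsg.IsConjUnder (Cfsg.inndiagPSU n F q) γ₃ γ) ∧ Nonempty (↥(Cfsg.inndiagPSU n F q ⊓ Subgroup.centralizer {γ₁}) ≃* ↥(Matrix.symplecticGroup (Fin m) F₀)) ∧ Nonempty (↥(Cfsg.inndiagPSU n F q ⊓ Subgroup.centralizer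 {γ₃}) ≃* ↥(Subgroup.centralizer ({t} : Set ↥(Matrix.symplecticGroup (Fin m) F₀)))) := by
  classical
  have hn2 : 2 ≤ n := by omega
  have hn3 : 3 ≤ n := by omega
  have hm1 : 1 ≤ m := by omega
  obtain ⟨τ, hτq, hτ1, hτ2⟩ := PU.exists_tau hF
  have hτo : orderOf τ = 2 := orderOf_eq_prime (by rw [pow_two]; exact hτ2) hτ1
  obtain ⟨ι⟩ := exists_ringHom hF₀ hF
  have hι : ∀ b : F, τ b = b ↔ ∃ a, ι a = b := by
    let _ : Algebra F₀ F := ι.toAlgebra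
    intro b
    rw [hτq]
    constructor
    · intro hb
      exact fix_mem hF₀ b hb
    · rintro ⟨a, rfl⟩
      exact pow_q_algebraMap hF₀ a
  have : CharP F₀ 2 := RingHom.charP ι ι.injective 2
  obtain ⟨f, hpp, hF'⟩ := FiniteField.card F 2
  have : Fact (Nat.Prime 2) := ⟨Nat.prime_two⟩
  have hf : 1 ≤ (f : ℕ) := f.pos
  have hν1 : (1 : Fˣ) * Units.map ((τ : F →+* F) : F →* F) 1 = 1 := by rw [map_one, mul_one]
  have hκ1 : Units.map ((τ : F →+* F) : F →* F) 1 = 1 * 1 := by rw [map_one, mul_one]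
  obtain ⟨g₁, R, z₀, T₃, hz₀, hs₁, hg₁, hT₃⟩ := C2.std_data (F := F₀) hm1 hnm
  have halt₁ : ∀ v : Fin n → F₀, v ⬝ᵥ ((g₁ : Matrix (Fin n) (Fin n) F₀) *ᵥ v) = 0 := fun v => by
    rw [hg₁]
    exact Cfsg.Agent.S0766.sf_self _
  have hc1 : Units.map (ι : F₀ →* F) (1 : F₀ˣ)⁻¹ = 1 := by rw [inv_one, map_one]
  have hc1' : Units.map (ι : F₀ →* F) (1 : F₀ˣ)⁻¹ = (1 : Fˣ)⁻¹ := by rw [hc1, inv_one]
  have ht₁ : (g₁ : Matrix (Fin n) (Fin n) F₀)ᵀ =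
      ((1 : F₀ˣ) : F₀) • (g₁ : Matrix (Fin n) (Fin n) F₀) := by
    rw [hs₁, Units.val_one, one_smul]
    ext i j
    exact CharTwo.neg_eq _
  have ht₃ : ((1 : GL (Fin n) F₀) : Matrix (Fin n) (Fin n) F₀)ᵀ =
      ((1 : F₀ˣ) : F₀) • ((1 : GL (Fin n) F₀) : Matrix (Fin n) (Fin n) F₀) := by
    rw [Units.val_one, Units.val_one, one_smul, Matrix.transpose_one]
  obtain ⟨h₁, a₁, hd₁⟩ := PU.data_rep (q := q) τ hτq hτ1 hτ2 ι hι 1 1 1 hν1 hκ1 g₁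
    (PU.mapι_itGL_of_transpose ι g₁ 1 1 hc1 ht₁)
  obtain ⟨h₃, a₃, hd₃⟩ := PU.data_rep (q := q) τ hτq hτ1 hτ2 ι hι 1 1 1 hν1 hκ1
    (1 : GL (Fin n) F₀) (PU.mapι_itGL_of_transpose ι 1 1 1 hc1 ht₃)
  have hsq₁ := PU.data_sq τ hτ2 1 1 hν1 (h₁ : GL (Fin n) F) a₁ hd₁.1
  have hsq₃ := PU.data_sq τ hτ2 1 1 hν1 (h₃ : GL (Fin n) F) a₃ hd₃.1
  refine ⟨PU.gamU τ h₁, PU.gamU τ h₃, Cfsg.Agent.S0766.tv z₀ 1, C2.tv_isTransvection z₀ hz₀,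
    PU.gamU_isGraph hn3 τ hτo h₁, PU.gamU_order hF hn3 τ hτ1 hτ2 h₁ 1 hsq₁,
    PU.gamU_isGraph hn3 τ hτo h₃, PU.gamU_order hF hn3 τ hτ1 hτ2 h₃ 1 hsq₃, ?_, ?_, ?_, ?_⟩
  · intro hc
    obtain ⟨x, c, hxc⟩ := PU.data_nonconj hF hn3 τ hτq hτ1 hτ2 ι hι 1 1 h₁ h₃ a₁ a₃ g₁ 1
      hd₁ hd₃ hc
    exact C2.not_conj_alt_one hn2 g₁ halt₁
      (PN.conj_of_congr g₁ 1 x c (PU.rel_coe g₁ 1 x c hxc))
  · intro γ hγ hγ2
    obtain ⟨h, rfl⟩ := PU.graphU_eq_gam hF hn3 τ hτo hF' hf γ hγ hγ2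
    have hsq : PU.gamU τ h * PU.gamU τ h = 1 := by
      rw [← pow_two, ← hγ2]
      exact pow_orderOf_eq_one _
    obtain ⟨lam, hlam, hh⟩ := PU.invol_lam hF hn3 τ hτ2 hτq h hsq
    have hlam1 : lam = 1 := by
      rcases hlam with hlam | hlam
      · exact hlam
      · rw [hlam]
        apply Units.ext
        rw [Units.val_neg, Units.val_one]
        exact CharTwo.neg_eq 1
    subst hlam1
    obtain ⟨a, S₀, hd⟩ := PU.data_exist τ hτq hτ1 hτ2 ι hι 1 1 1 hν1 hκ1 h hh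
    have hS₀ : (S₀ : Matrix (Fin n) (Fin n) F₀)ᵀ = S₀ := by
      have h1 := PU.transpose_of_mapι_itGL ι S₀ 1 (1 : Fˣ)⁻¹ hc1'
        (PU.data_sym τ hτq hτ2 ι 1 1 1 hν1 h a S₀ hd)
      rw [Units.val_one, one_smul] at h1
      exact h1
    rcases C2.classify_sym2 hnm S₀ g₁ R hg₁ z₀ hz₀ T₃ hT₃ hS₀ with hc | hc
    · left
      obtain ⟨A, c, hAc⟩ := PN.congr_of_conj hn2 g₁ S₀ hc
      exact PN.isConjUnder_symm _ (PU.data_conj hF hn3 τ hτq hτ2 ι hι 1 1 h h₁ a a₁ S₀ g₁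
        hd hd₁ _ _ (PU.rel_of_congr S₀ g₁ A c hAc))
    · right
      obtain ⟨A, c, hAc⟩ := PN.congr_of_conj hn2 1 S₀ hc
      exact PN.isConjUnder_symm _ (PU.data_conj hF hn3 τ hτq hτ2 ι hι 1 1 h h₃ a a₃ S₀ 1
        hd hd₃ _ _ (PU.rel_of_congr S₀ 1 A c hAc))
  · obtain ⟨Φ⟩ := PU.psu_graph_centralizer hF hn3 τ hτq hτ1 hτ2 ι hι h₁ a₁ 1 1 g₁ hd₁.1 hd₁.2
      (Cfsg.Geo.similarityGroup
        (fun u v : Fin n → F₀ => u ⬝ᵥ ((g₁ : Matrix (Fin n) (Fin n) F₀) *ᵥ v)))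
      (fun x => PN.bilSim_iff _ x)
    obtain ⟨Φ'⟩ := GF.psim_congr
      (fun u v : Fin n → F₀ => u ⬝ᵥ ((g₁ : Matrix (Fin n) (Fin n) F₀) *ᵥ v))
      (Cfsg.sympForm m F₀) R 1 one_ne_zero (fun u v => by rw [one_mul, hg₁])
    obtain ⟨Φ''⟩ := C2.pgsp_iso_sp (F := F₀) m hm1
    exact ⟨Φ.trans (Φ'.trans Φ'')⟩
  · obtain ⟨Φ⟩ := PU.psu_graph_centralizer hF hn3 τ hτq hτ1 hτ2 ι hι h₃ a₃ 1 1
      (1 : GL (Fin n) F₀) hd₃.1 hd₃.2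
      (Cfsg.Geo.similarityGroup (fun u v : Fin n → F₀ =>
        u ⬝ᵥ (((1 : GL (Fin n) F₀) : Matrix (Fin n) (Fin n) F₀) *ᵥ v)))
      (fun x => PN.bilSim_iff _ x)
    obtain ⟨Φ'⟩ := GF.psim_congr
      (fun u v : Fin n → F₀ => u ⬝ᵥ (((1 : GL (Fin n) F₀) : Matrix (Fin n) (Fin n) F₀) *ᵥ v))
      (fun u v : Fin m ⊕ Fin m → F₀ => Cfsg.sympForm m F₀ u v +
        Cfsg.sympForm m F₀ z₀ u * Cfsg.sympForm m F₀ z₀ v) T₃ 1 one_ne_zero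
      (fun u v => by rw [one_mul]; exact (hT₃ u v).symm)
    obtain ⟨Φ''⟩ := C2.std_iso (F := F₀) m hm1 z₀ hz₀
    exact ⟨Φ.trans (Φ'.trans Φ'')⟩

end Cfsg.Agent.S2708
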