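import Cfsg.Statements.S2709
import Mathlib
import Cfsg.Agent.Lib.helper13.PSUSplit

set_option autoImplicit false
open Cfsg

open Cfsg.Agent.Lib.helper13 Matrix

namespace Cfsg.Agent.S2709

/-- Let T = PSU_n(q) be simple (n ≥ 3, (n,q) ≠ (3,2), q = p^f), realised over the field F with q² elements, G = Inndiag(T) the image of PGU_n(q), and γ an involutory graph automorphism of T. The G-class of γ is the union of exactly c T-classes, where: if n is even and q is odd, c = gcd(n/2, q + 1) when C_G(γ) is isomorphic to PGSp_n(F₀) for a field F₀ with q elements (symplectic type) and c = gcd(n, q + 1)/2 otherwise; and c = gcd(n, q + 1) when n is odd or q is even. -/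
theorem result {F : Type*} [Field F] [Fintype F] {p f q : ℕ} [Fact p.Prime] (hq : q = p ^ f) (hf : 1 ≤ f) (hF : Fintype.card F = q ^ 2) {n : ℕ} (hn : 3 ≤ n) (hs : ¬ (n = 3 ∧ q = 2)) (F₀ : Type*) [Field F₀] [Fintype F₀] (hF₀ : Fintype.card F₀ = q) (γ : MulAut (Cfsg.PSU n F q)) (hγ : Cfsg.IsGraphAutClassPSU γ) (hγ2 : orderOf γ = 2) :
    ((Even n ∧ Odd q ∧ Nonempty (↥(Cfsg.inndiagPSU n F q ⊓ Subgroup.centralizer {γ}) ≃* Cfsg.PGSp (n / 2) F₀)) → Cfsg.splitClassCount (Cfsg.inndiagPSU n F q) (Cfsg.Inn (Cfsg.PSU n F q)) γ = Nat.gcd (n / 2) (q + 1)) ∧ ((Even n ∧ Odd q ∧ ¬ Nonempty (↥(Cfsg.inndiagPSU n F q ⊓ Subgroup.centralizer {γ}) ≃* Cfsg.PGSp (n / 2) F₀)) → Cfsg.splitClassCount (Cfsg.inndiagPSU n F q) (Cfsg.Inn (Cfsg.PSU n F q)) γ = Nat.gcd n (q + 1) / 2) ∧ (¬ (Even n ∧ Odd q) → Cfsg.splitClassCount (Cfsg.inndiagPSU n F q) (Cfsg.Inn (Cfsg.PSU n F q)) γ = Nat.gcd n (q + 1)) := by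
  classical
  have hc := PU.psu_charP hq hf hF
  obtain ⟨τ, hτq, hτ1, hτ2⟩ := PU.exists_tau hF
  have hτo : orderOf τ = 2 := orderOf_eq_prime (by rw [pow_two]; exact hτ2) hτ1
  obtain ⟨ι⟩ := exists_ringHom hF₀ hF
  have hι : ∀ b : F, τ b = b ↔ ∃ a, ι a = b := by
    letI : Algebra F₀ F := ι.toAlgebra
    intro b
    rw [hτq]
    constructor
    · intro hb
      exact fix_mem hF₀ b hb
    · rintro ⟨a, rfl⟩
      exact pow_q_algebraMap hF₀ a
  have hF' : Fintype.card F = p ^ (f * 2) := by rw [hF, hq, pow_mul]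
  obtain ⟨h, rfl⟩ := PU.graphU_eq_gam hF hn τ hτo hF' (by omega) γ hγ hγ2
  have hsq : PU.gamU τ h * PU.gamU τ h = 1 := by
    rw [← pow_two, ← hγ2]
    exact pow_orderOf_eq_one _
  obtain ⟨lam, hlam, hh⟩ := PU.invol_lam hF hn τ hτ2 hτq h hsq
  by_cases hcase : Even n ∧ Odd q
  · obtain ⟨⟨m, hm⟩, hoddq⟩ := hcase
    have hnm : n = 2 * m := by omega
    have hm2 : 2 ≤ m := by omega
    have hdiv : n / 2 = m := by omega
    have hodd₀ : Odd (Fintype.card F₀) := by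
      rw [hF₀]
      exact hoddq
    have h2 : (2 : F₀) ≠ 0 := GF.two_ne_zero_of_odd hodd₀
    rw [hdiv]
    have hν1 : (1 : Fˣ) * Units.map ((τ : F →+* F) : F →* F) 1 = 1 := by rw [map_one, mul_one]
    have hκ1 : Units.map ((τ : F →+* F) : F →* F) 1 = 1 * 1 := by rw [map_one, mul_one]
    have hc1' : Units.map (ι : F₀ →* F) (1 : F₀ˣ)⁻¹ = (1 : Fˣ)⁻¹ := by
      rw [inv_one, map_one, inv_one]
    have hcn' : Units.map (ι : F₀ →* F) (-1 : F₀ˣ)⁻¹ = (-1 : Fˣ)⁻¹ := by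
      rw [inv_neg_one, PU.unitsMap_neg_one, inv_neg_one]
    rcases hlam with hlam | hlam
    · subst hlam
      obtain ⟨a, S₀, hd⟩ := PU.data_exist τ hτq hτ1 hτ2 ι hι 1 1 1 hν1 hκ1 h hh
      have hS₀ : (S₀ : Matrix (Fin n) (Fin n) F₀)ᵀ = S₀ := by
        have h1 := PU.transpose_of_mapι_itGL ι S₀ 1 (1 : Fˣ)⁻¹ hc1'
          (PU.data_sym τ hτq hτ2 ι 1 1 1 hν1 h a S₀ hd)
        rw [Units.val_one, one_smul] at h1
        exact h1
      exact ⟨fun hh' => absurd hh'.2.2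
          (PU.psu_sym_cent_not_iso hF hn τ hτq hτ1 hτ2 ι hι hodd₀ m hm2 hnm h a 1 1 S₀ hd hS₀),
        fun _ => PU.split_psu_sym hF hn hs p τ hτq hτ1 hτ2 ι hι hoddq hodd₀ m hnm h a 1 1 S₀
          hd hS₀,
        fun hh' => absurd ⟨⟨m, hm⟩, hoddq⟩ hh'⟩
    · subst hlam
      obtain ⟨ν, hν⟩ := PU.exists_nu_neg hoddq hF τ hτq
      obtain ⟨κ, hκ⟩ := PU.exists_kappa_neg τ hτ1 hτ2
      obtain ⟨a, S₀, hd⟩ := PU.data_exist τ hτq hτ1 hτ2 ι hι ν κ (-1) hν hκ h hh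
      have hS₀ : (S₀ : Matrix (Fin n) (Fin n) F₀)ᵀ = -(S₀ : Matrix (Fin n) (Fin n) F₀) := by
        have h1 := PU.transpose_of_mapι_itGL ι S₀ (-1) (-1 : Fˣ)⁻¹ hcn'
          (PU.data_sym τ hτq hτ2 ι ν κ (-1) hν h a S₀ hd)
        rw [Units.val_neg, Units.val_one, neg_one_smul] at h1
        exact h1
      exact ⟨fun _ => PU.split_psu_skew hF hn hs p τ hτq hτ1 hτ2 ι hι h2 m (by omega) hnm h a
          ν κ S₀ hd hS₀,
        fun hh' => absurd
          (PU.psu_skew_cent_iso hF hn τ hτq hτ1 hτ2 ι hι h2 m hnm h a ν κ S₀ hd hS₀) hh'.2.2,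
        fun hh' => absurd ⟨⟨m, hm⟩, hoddq⟩ hh'⟩
  · have hcase' : Odd n ∨ (2 : F) = 0 := by
      by_cases hev : Even n
      · right
        have hq2 : ¬ Odd q := fun hq' => hcase ⟨hev, hq'⟩
        have hqe : Even q := Nat.not_odd_iff_even.1 hq2
        have hpe : Even p := by
          rw [hq] at hqe
          exact (Nat.even_pow.1 hqe).1
        have hp2 : p = 2 := (Nat.Prime.even_iff Fact.out).1 hpe
        have h0 : ((p : ℕ) : F) = 0 := CharP.cast_eq_zero F p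
        rw [hp2] at h0
        exact_mod_cast h0
      · left
        exact Nat.not_even_iff_odd.1 hev
    exact ⟨fun hh' => absurd ⟨hh'.1, hh'.2.1⟩ hcase, fun hh' => absurd ⟨hh'.1, hh'.2.1⟩ hcase,
      fun _ => PU.split_psu_odd hF hn hs p τ hτq hτ2 h hcase'⟩

end Cfsg.Agent.S2709
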