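import Cfsg.Statements.S2710
import Mathlib
import Cfsg.Agent.Lib.helper13.PSUGraph

set_option autoImplicit false
open Cfsg

open Cfsg.Agent.Lib.helper13 Matrix

namespace Cfsg.Agent.S2710

/-- Let T = PSU_n(q) with n ≥ 4 divisible by 4 (n = 2m) and q odd, realised over the field F with q² elements, G = Inndiag(T) the image of PGU_n(q), and φ the standard field automorphism of T attached to the q-th power map of F (it induces inverse-transpose on the unitary matrices and is a graph automorphism). Its centralizer in G is isomorphic to the projective conformal orthogonal group of the plus-type form Σ xᵢ yᵢ in dimension n over a field F₀ with q elements. (Dimensions n ≡ 2 (mod 4) are not covered.) -/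
theorem result {F : Type*} [Field F] [Fintype F] {q : ℕ} (hodd : Odd q) (hF : Fintype.card F = q ^ 2) {n m : ℕ} (hm : 2 ≤ m) (hnm : n = 2 * m) (h4 : 4 ∣ n) (F₀ : Type*) [Field F₀] [Fintype F₀] (hF₀ : Fintype.card F₀ = q) (σ : F ≃+* F) (hσ : ∀ a : F, σ a = a ^ q) (φ : MulAut (Cfsg.PSU n F q)) (hφ : Cfsg.IsFieldAutPSUOf σ φ) :
    Nonempty (↥(Cfsg.inndiagPSU n F q ⊓ Subgroup.centralizer {φ}) ≃* Cfsg.PGO F₀ (Cfsg.quadFormPlus m F₀)) := by
  classical
  have hn : 3 ≤ n := by omega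
  have hφ' : φ = PU.fieldAut σ := PU.eq_fieldAut_of σ φ hφ
  obtain ⟨τ, hτq, hτ1, hτ2⟩ := PU.exists_tau hF
  have hστ : σ = τ := by
    apply RingEquiv.ext
    intro a
    rw [hσ, hτq]
  rw [hστ] at hφ'
  obtain ⟨ι⟩ := exists_ringHom hF₀ hF
  have hι : ∀ b : F, τ b = b ↔ ∃ a, ι a = b := by
    letI : Algebra F₀ F := ι.toAlgebra
    intro b
    rw [hτq]
    constructor
    · intro hb
      exact fix_mem hF₀ b hb
    · rintro ⟨a, rfl⟩
      exact pow_q_algebraMap hF₀ a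
  have hodd₀ : Odd (Fintype.card F₀) := by rw [hF₀]; exact hodd
  have h2 : (2 : F₀) ≠ 0 := GF.two_ne_zero_of_odd hodd₀
  have hQ : (fun v : Fin n → F₀ => v ⬝ᵥ ((1 : Matrix (Fin n) (Fin n) F₀) *ᵥ v))
      = (GF.SS : (Fin n → F₀) → F₀) := by
    funext v
    rw [Matrix.one_mulVec]
    unfold GF.SS dotProduct
    exact Finset.sum_congr rfl (fun k _ => (pow_two _).symm)
  have hH : ∀ x : GL (Fin n) F₀, x ∈ Cfsg.Geo.quadSimilarityGroup (GF.SS : (Fin n → F₀) → F₀) ↔
      ∃ c : F₀ˣ, (x : Matrix (Fin n) (Fin n) F₀)ᵀ * ((1 : GL (Fin n) F₀) : Matrix (Fin n) (Fin n) F₀) *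
        (x : Matrix (Fin n) (Fin n) F₀) = (c : F₀) • ((1 : GL (Fin n) F₀) : Matrix (Fin n) (Fin n) F₀) := by
    intro x
    rw [← hQ, Units.val_one]
    exact PN.quadSim_iff h2 1 Matrix.transpose_one x
  have hC := PU.psu_graph_centralizer hF hn τ hτq hτ1 hτ2 ι hι (1 : ↥(Cfsg.GU n F q))
    (1 : GL (Fin n) F) 1 1 (1 : GL (Fin n) F₀)
    (by rw [map_one, map_one, inv_one, mul_one, mul_one]; rfl)
    (by rw [map_one, map_one, map_one, map_one, inv_one, mul_one])
    _ hH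
  have hg : PU.gamU τ (1 : ↥(Cfsg.GU n F q)) = φ := by
    unfold PU.gamU
    rw [map_one, one_mul, hφ']
  rw [hg] at hC
  obtain ⟨Φ⟩ := hC
  have hme : Even m := by
    obtain ⟨k, hk⟩ := h4
    exact ⟨k, by omega⟩
  obtain ⟨Φ'⟩ := GF.ss_pgo_plus hodd₀ hnm (Or.inr hme)
  exact ⟨Φ.trans Φ'⟩

end Cfsg.Agent.S2710
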