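import Cfsg.Statements.S2723
import Mathlib
import Cfsg.Agent.Lib.helper13.OrthAut3
import Cfsg.Agent.Lib.helper13.GraphForm
import Cfsg.Agent.S2613

set_option autoImplicit false
open Cfsg

open Cfsg.Agent.Lib.helper13 Matrix

namespace Cfsg.Agent.S2723

section Helpers

/-- `-1 ∈ Ω⁺_{2m}(q)` iff `q ^ m ≡ 1 (mod 4)` -/
theorem neg_plus_iff {F : Type*} [Field F] [Fintype F] (hodd : Odd (Fintype.card F)) {m : ℕ}
    (hm : 1 ≤ m) :
    (∃ g : ↥(Cfsg.isometryGroup F ⇑(Cfsg.Agent.S2562.qP F m)),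
      g ∈ Cfsg.Omega F ⇑(Cfsg.Agent.S2562.qP F m) ∧
        ((g : GL (Fin m ⊕ Fin m) F) : Matrix (Fin m ⊕ Fin m) (Fin m ⊕ Fin m) F) = -1) ↔
      Fintype.card F ^ m % 4 = 1 := by
  have hcoe : Cfsg.quadFormPlus m F = ⇑(Cfsg.Agent.S2562.qP F m) :=
    funext (fun v => (Cfsg.Agent.S2562.qP_apply m v).symm)
  have h := Cfsg.Agent.S2613.result (F := F) (q := Fintype.card F) rfl hodd (m := m) m hm le_rfl
  have hfun : (fun k : Fin m ⊕ Fin m =>
      if (Sum.elim (fun j : Fin m => (j : ℕ)) (fun j : Fin m => (j : ℕ)) k) < m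
        then (-1 : F) else 1) = fun _ => (-1 : F) := by
    funext k
    rcases k with k | k <;> simp [k.2]
  have hdiag : Matrix.diagonal (fun _ : Fin m ⊕ Fin m => (-1 : F)) = -1 := by
    rw [← Matrix.diagonal_one, ← Matrix.diagonal_neg]
  rw [hfun, hdiag, hcoe] at h
  exact h

end Helpers

/-- Let T = PΩ⁺_{2m}(F) with m ≥ 4 and |F| = q odd. The image of the special orthogonal group in Aut(T) contains the inner automorphism group T with index 1 (they coincide) when m is odd and q ≡ 3 (mod 4), and with index 2 otherwise (the index is 2 exactly when the discriminant of the form is a square). -/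
theorem result {F : Type*} [Field F] [Fintype F] (hodd : Odd (Fintype.card F)) {m : ℕ} (hm : 4 ≤ m) :
    ((Odd m ∧ Fintype.card F % 4 = 3) → (Cfsg.Inn (Cfsg.POmega F (Cfsg.quadFormPlus m F))).relIndex (Cfsg.psoAut F (Cfsg.quadFormPlus m F)) = 1) ∧ (¬ (Odd m ∧ Fintype.card F % 4 = 3) → (Cfsg.Inn (Cfsg.POmega F (Cfsg.quadFormPlus m F))).relIndex (Cfsg.psoAut F (Cfsg.quadFormPlus m F)) = 2) := by
  classical
  have h2 : (2 : F) ≠ 0 := GF.two_ne_zero_of_odd hodd
  have hcoe : Cfsg.quadFormPlus m F = ⇑(Cfsg.Agent.S2562.qP F m) :=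
    funext (fun v => (Cfsg.Agent.S2562.qP_apply m v).symm)
  rw [hcoe]
  have hcard : Fintype.card (Fin m ⊕ Fin m) = 2 * m := by
    rw [Fintype.card_sum, Fintype.card_fin]
    ring
  have hcard6 : 6 ≤ Fintype.card (Fin m ⊕ Fin m) := by
    rw [hcard]
    omega
  have hev : Even (Fintype.card (Fin m ⊕ Fin m)) := by
    rw [hcard]
    exact even_two_mul m
  have key := OA.inn_relIndex_pso h2 hcard6 hev (Cfsg.Agent.S2562.qP F m)
    (Cfsg.Agent.S2562.nondeg_qP m)
  rw [neg_plus_iff hodd (by omega), OA.pow_mod_four _ _ hodd, not_not] at key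
  exact ⟨key.2, key.1⟩

end Cfsg.Agent.S2723
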