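import Cfsg.Statements.S2725
import Mathlib
import Cfsg.Agent.Lib.helper13.PlusDiag
import Cfsg.Agent.Lib.helper13.GraphForm
import Cfsg.Agent.S2723

set_option autoImplicit false
open Cfsg

open Cfsg.Agent.Lib.helper13 Matrix

namespace Cfsg.Agent.S2725

section Helpers

/-- `-1 ∈ Ω⁺_{2m}(q)` unless `m` is odd and `q ≡ 3 (mod 4)` -/
theorem negEl_plus_iff {F : Type*} [Field F] [Fintype F] (hodd : Odd (Fintype.card F)) {m : ℕ}
    (hm : 1 ≤ m) :
    negEl (Cfsg.Agent.S2562.qP F m) ∈ Cfsg.Omega F ⇑(Cfsg.Agent.S2562.qP F m) ↔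
      ¬ (Odd m ∧ Fintype.card F % 4 = 3) := by
  have hiff := (Cfsg.Agent.S2723.neg_plus_iff (F := F) hodd (m := m) hm).trans
    (OA.pow_mod_four _ _ hodd)
  constructor
  · intro h
    exact hiff.1 ⟨negEl _, h, negEl_coe _⟩
  · intro h
    obtain ⟨g, hg, hg1⟩ := hiff.2 h
    have hgn : g = negEl (Cfsg.Agent.S2562.qP F m) :=
      isom_ext (Cfsg.Agent.S2562.qP F m) g (negEl _) (by rw [hg1, negEl_coe])
    rw [← hgn]
    exact hg

theorem plus_struct {F : Type*} [Field F] [Fintype F] (hodd : Odd (Fintype.card F)) {m : ℕ}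
    (hm : 4 ≤ m) (Qf : (Fin m ⊕ Fin m → F) → F) (hQf : Qf = ⇑(Cfsg.Agent.S2562.qP F m)) :
    ((Odd m ∧ Fintype.card F % 4 = 3) → (∃ φ : ↥(OA.diagGen Qf) →* Multiplicative (ZMod 2),
      Function.Surjective φ ∧ φ.ker = (Cfsg.Inn (Cfsg.POmega F Qf)).subgroupOf (OA.diagGen Qf))) ∧
    ((Odd m ∧ Fintype.card F % 4 = 1) → (∃ φ : ↥(OA.diagGen Qf) →* Multiplicative (ZMod 4),
      Function.Surjective φ ∧ φ.ker = (Cfsg.Inn (Cfsg.POmega F Qf)).subgroupOf (OA.diagGen Qf))) ∧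
    (Even m → (∃ φ : ↥(OA.diagGen Qf) →* Multiplicative (ZMod 2 × ZMod 2),
      Function.Surjective φ ∧
        φ.ker = (Cfsg.Inn (Cfsg.POmega F Qf)).subgroupOf (OA.diagGen Qf))) := by
  subst hQf
  have h2 : (2 : F) ≠ 0 := GF.two_ne_zero_of_odd hodd
  have hnegiff := negEl_plus_iff (F := F) hodd (m := m) (by omega)
  refine ⟨fun h => OA.plus_diag_c2 h2 m (by omega) (fun hneg => hnegiff.1 hneg h),
    fun h => OA.plus_diag_c4 h2 m (by omega) h.1 (hnegiff.2 (fun h' => by omega)),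
    fun h => OA.plus_diag_klein h2 m (by omega) h
      (hnegiff.2 (fun h' => (Nat.not_odd_iff_even.2 h) h'.1))⟩

end Helpers

/-- Let T = PΩ⁺_{2m}(F) with m ≥ 4 and |F| = q odd. The inner-diagonal group G = Inndiag(T) (image of the class-preserving similarities) taken modulo the inner automorphism group T is cyclic of order 2 when m is odd and q ≡ 3 (mod 4), cyclic of order 4 when m is odd and q ≡ 1 (mod 4), and elementary abelian of order 4 when m is even. -/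
theorem result {F : Type*} [Field F] [Fintype F] (hodd : Odd (Fintype.card F)) {m : ℕ} (hm : 4 ≤ m) :
    ((Odd m ∧ Fintype.card F % 4 = 3) → (∃ φ : ↥(Cfsg.inndiagPOmegaPlus m F) →* Multiplicative (ZMod 2), Function.Surjective φ ∧ φ.ker = (Cfsg.Inn (Cfsg.POmega F (Cfsg.quadFormPlus m F))).subgroupOf (Cfsg.inndiagPOmegaPlus m F))) ∧ ((Odd m ∧ Fintype.card F % 4 = 1) → (∃ φ : ↥(Cfsg.inndiagPOmegaPlus m F) →* Multiplicative (ZMod 4), Function.Surjective φ ∧ φ.ker = (Cfsg.Inn (Cfsg.POmega F (Cfsg.quadFormPlus m F))).subgroupOf (Cfsg.inndiagPOmegaPlus m F))) ∧ (Even m → (∃ φ : ↥(Cfsg.inndiagPOmegaPlus m F) →* Multiplicative (ZMod 2 × ZMod 2), Function.Surjective φ ∧ φ.ker = (Cfsg.Inn (Cfsg.POmega F (Cfsg.quadFormPlus m F))).subgroupOf (Cfsg.inndiagPOmegaPlus m F))) := by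
  have hcoe : Cfsg.quadFormPlus m F = ⇑(Cfsg.Agent.S2562.qP F m) :=
    funext (fun v => (Cfsg.Agent.S2562.qP_apply m v).symm)
  exact plus_struct hodd hm (Cfsg.quadFormPlus m F) hcoe

end Cfsg.Agent.S2725
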