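import Cfsg.Statements.S2718
import Mathlib
import Cfsg.Agent.Lib.helper13.PlusDiag
import Cfsg.Agent.Lib.helper13.GraphForm
import Cfsg.Agent.Lib.helper13.GraphSplit
import Cfsg.Agent.S2725

set_option autoImplicit false
open Cfsg

open Cfsg.Agent.Lib.helper13 Matrix

namespace Cfsg.Agent.S2718

section Helpers

open Cfsg.Agent.S2562 (qP qP_apply nondeg_qP)

theorem plus_comm {F : Type*} [Field F] [Fintype F] (h2 : (2 : F) ≠ 0) (m : ℕ) (hm : 3 ≤ m)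
    (h0 : ∃ v, (⇑(qP F m)) v ≠ 0)
    (hneg : negEl (qP F m) ∈ Cfsg.Omega F ⇑(qP F m)) (a b : MulAut (Cfsg.POmega F ⇑(qP F m)))
    (ha : a ∈ OA.dSub (qP F m) h0 m) (hb : b ∈ OA.dSub (qP F m) h0 m) :
    a * b * a⁻¹ * b⁻¹ ∈ Cfsg.Inn (Cfsg.POmega F ⇑(qP F m)) := by
  rcases Nat.even_or_odd m with he | ho
  · have hex := OA.plus_diag_klein h2 m hm he hneg
    rw [OA.diagGen_plus h2 m h0] at hex
    obtain ⟨φ, -, hker⟩ := hex
    exact SC.comm_mem_of_hom _ _ φ hker a b ha hb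
  · have hex := OA.plus_diag_c4 h2 m hm ho hneg
    rw [OA.diagGen_plus h2 m h0] at hex
    obtain ⟨φ, -, hker⟩ := hex
    exact SC.comm_mem_of_hom _ _ φ hker a b ha hb

theorem plus_main {F : Type*} [Field F] [Fintype F] (hodd : Odd (Fintype.card F)) {m : ℕ}
    (hm : 4 ≤ m) (Qf : (Fin m ⊕ Fin m → F) → F) (hQf : Qf = ⇑(qP F m))
    (γ : MulAut (Cfsg.POmega F Qf))
    (hγ : ∃ g : GL (Fin m ⊕ Fin m) F, g ∈ Cfsg.Geo.quadSimilarityGroup (F := F) Qf ∧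
      ¬ Cfsg.PreservesSingularClasses Qf (g : Matrix (Fin m ⊕ Fin m) (Fin m ⊕ Fin m) F) ∧
      Cfsg.IsInducedBySemilinearPOmega Qf g (RingEquiv.refl F) γ)
    (hγ2 : orderOf γ = 2) :
    (Cfsg.splitClassCount (OA.diagGen Qf) (Cfsg.Inn (Cfsg.POmega F Qf)) γ = 1 ∨
      Cfsg.splitClassCount (OA.diagGen Qf) (Cfsg.Inn (Cfsg.POmega F Qf)) γ = 2) ∧
    (¬ (Odd m ∧ Fintype.card F % 4 = 3) →
      Cfsg.splitClassCount (OA.diagGen Qf) (Cfsg.Inn (Cfsg.POmega F Qf)) γ = 2) := by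
  subst hQf
  have h2 : (2 : F) ≠ 0 := GF.two_ne_zero_of_odd hodd
  have h0 := OA.plus_h0 (F := F) m (by omega)
  obtain ⟨g, hg, hpsc, hind⟩ := hγ
  have hγeq := OA.eq_conjAut_of_induced _ ⟨g, hg⟩ γ hind
  rw [OA.diagGen_plus h2 m h0]
  obtain ⟨c, hc⟩ := Cfsg.Agent.Lib.helper4.exists_nonsq (F := F) h2
  have hc0 : c ≠ 0 := by
    rintro rfl
    exact hc ⟨0, by simp⟩
  have hnegiff := Cfsg.Agent.S2725.negEl_plus_iff (F := F) hodd (m := m) (by omega)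
  have hdelta : OA.delta (⇑(qP F m)) h0 m ⟨g, hg⟩ ≠ 1 :=
    fun h => hpsc ((OA.psc_plus h2 m h0 ⟨g, hg⟩).2 h)
  have hGG : OA.conjAut (⇑(qP F m)) (⟨g, hg⟩ * ⟨g, hg⟩) = 1 := by
    rw [(OA.conjAut (⇑(qP F m))).map_mul, ← hγeq, ← pow_two, ← hγ2, pow_orderOf_eq_one]
  have key := OA.graph_split h2 m (OA.plus_card m) (by omega) (qP F m) (nondeg_qP m) h0
    (OA.dsim m (Units.mk0 c hc0)) (OA.dsim_delta m h0 _)
    (by rw [OA.dsim_mult m h0, Units.val_mk0]; exact hc)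
    (fun hneg a b ha hb => plus_comm h2 m (by omega) h0 hneg a b ha hb) ⟨g, hg⟩ hdelta hGG
  rw [hγeq]
  exact ⟨key.1, fun h => key.2 (hnegiff.2 h)⟩

end Helpers

/-- Let T = PΩ⁺_{2m}(F) with m ≥ 4 and |F| = q odd, G = Inndiag(T), and γ an involutory graph automorphism of T induced by a similarity (one interchanging the two classes of maximal totally singular subspaces). Then the G-class of γ is either a single T-class or the union of exactly two T-classes, and it is the union of two unless m is odd and q ≡ 3 (mod 4). -/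
theorem result {F : Type*} [Field F] [Fintype F] (hodd : Odd (Fintype.card F)) {m : ℕ} (hm : 4 ≤ m) (γ : MulAut (Cfsg.POmega F (Cfsg.quadFormPlus m F))) (hγ : Cfsg.IsSimilarityGraphAutPOmegaPlus m γ) (hγ2 : orderOf γ = 2) :
    (Cfsg.splitClassCount (Cfsg.inndiagPOmegaPlus m F) (Cfsg.Inn (Cfsg.POmega F (Cfsg.quadFormPlus m F))) γ = 1 ∨ Cfsg.splitClassCount (Cfsg.inndiagPOmegaPlus m F) (Cfsg.Inn (Cfsg.POmega F (Cfsg.quadFormPlus m F))) γ = 2) ∧ (¬ (Odd m ∧ Fintype.card F % 4 = 3) → Cfsg.splitClassCount (Cfsg.inndiagPOmegaPlus m F) (Cfsg.Inn (Cfsg.POmega F (Cfsg.quadFormPlus m F))) γ = 2) := by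
  have hcoe : Cfsg.quadFormPlus m F = ⇑(Cfsg.Agent.S2562.qP F m) :=
    funext (fun v => (Cfsg.Agent.S2562.qP_apply m v).symm)
  exact plus_main hodd hm (Cfsg.quadFormPlus m F) hcoe γ hγ hγ2

end Cfsg.Agent.S2718
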