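import Cfsg.Statements.S2722
import Mathlib
import Cfsg.Agent.Lib.helper13.OrthAut2
import Cfsg.Agent.Lib.helper13.GraphForm

set_option autoImplicit false
open Cfsg

open Cfsg.Agent.Lib.helper13 Matrix

namespace Cfsg.Agent.S2722

/-- Let T = PΩ⁺_{2m}(F) with m ≥ 4 and |F| = q odd. Inside Aut(T), the image G̃ of the conformal orthogonal group of the form modulo the image of the special orthogonal group is elementary abelian of order 4. -/
theorem result {F : Type*} [Field F] [Fintype F] (hodd : Odd (Fintype.card F)) {m : ℕ} (hm : 4 ≤ m) :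
    (∃ φ : ↥(Cfsg.pgoAut F (Cfsg.quadFormPlus m F)) →* Multiplicative (ZMod 2 × ZMod 2), Function.Surjective φ ∧ φ.ker = (Cfsg.psoAut F (Cfsg.quadFormPlus m F)).subgroupOf (Cfsg.pgoAut F (Cfsg.quadFormPlus m F))) := by
  classical
  have h2 : (2 : F) ≠ 0 := GF.two_ne_zero_of_odd hodd
  obtain ⟨c, hc⟩ := Cfsg.Agent.Lib.helper4.exists_nonsq h2
  have hc0 : c ≠ 0 := by
    rintro rfl
    exact hc ⟨0, by simp⟩
  have hcoe : Cfsg.quadFormPlus m F = ⇑(Cfsg.Agent.S2562.qP F m) :=
    funext (fun v => (Cfsg.Agent.S2562.qP_apply m v).symm)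
  rw [hcoe]
  obtain ⟨g₀, hg₀⟩ : ∃ g₀ : GL (Fin m ⊕ Fin m) F, (g₀ : Matrix (Fin m ⊕ Fin m) (Fin m ⊕ Fin m) F) =
      Matrix.diagonal (Sum.elim (fun _ => c) (fun _ => 1)) :=
    ⟨⟨Matrix.diagonal (Sum.elim (fun _ => c) (fun _ => 1)),
      Matrix.diagonal (Sum.elim (fun _ => c⁻¹) (fun _ => 1)), by
        rw [Matrix.diagonal_mul_diagonal, ← Matrix.diagonal_one]
        congr 1
        funext k
        rcases k with k | k <;> simp [hc0], by
        rw [Matrix.diagonal_mul_diagonal, ← Matrix.diagonal_one]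
        congr 1
        funext k
        rcases k with k | k <;> simp [hc0]⟩, rfl⟩
  exact OA.pgo_mod_pso h2 m (by rw [Fintype.card_sum, Fintype.card_fin]; ring)
    (by rw [Fintype.card_sum, Fintype.card_fin]; omega) (Cfsg.Agent.S2562.qP F m)
    (Cfsg.Agent.S2562.nondeg_qP m) g₀ (Units.mk0 c hc0) (fun v => by
      rw [hg₀, Units.val_mk0, Cfsg.Agent.S2562.qP_apply, Cfsg.Agent.S2562.qP_apply]
      unfold Cfsg.quadFormPlus
      rw [Finset.mul_sum]
      apply Finset.sum_congr rfl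
      intro i _
      rw [Matrix.mulVec_diagonal, Matrix.mulVec_diagonal]
      simp only [Sum.elim_inl, Sum.elim_inr]
      ring) (by rw [Units.val_mk0]; exact hc)

end Cfsg.Agent.S2722
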