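import Cfsg.Statements.S2724
import Mathlib
import Cfsg.Agent.Lib.helper13.OrthAut4
import Cfsg.Agent.Lib.helper13.GraphForm
import Cfsg.Agent.S2723

set_option autoImplicit false
open Cfsg

open Cfsg.Agent.Lib.helper13 Matrix

namespace Cfsg.Agent.S2724

section Helpers

/-- a similarity of the hyperbolic form with non-square multiplier -/
theorem plus_data {F : Type*} [Field F] [Fintype F] (hodd : Odd (Fintype.card F)) (m : ℕ) :
    ∃ (g₀ : GL (Fin m ⊕ Fin m) F) (c₀ : Fˣ),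
      (∀ v, Cfsg.Agent.S2562.qP F m
        ((g₀ : Matrix (Fin m ⊕ Fin m) (Fin m ⊕ Fin m) F) *ᵥ v) =
          (c₀ : F) * Cfsg.Agent.S2562.qP F m v) ∧ ¬ IsSquare (c₀ : F) := by
  classical
  have h2 : (2 : F) ≠ 0 := GF.two_ne_zero_of_odd hodd
  obtain ⟨c, hc⟩ := Cfsg.Agent.Lib.helper4.exists_nonsq h2
  have hc0 : c ≠ 0 := by
    rintro rfl
    exact hc ⟨0, by simp⟩
  obtain ⟨g₀, hg₀⟩ : ∃ g₀ : GL (Fin m ⊕ Fin m) F, (g₀ : Matrix (Fin m ⊕ Fin m) (Fin m ⊕ Fin m) F) =
      Matrix.diagonal (Sum.elim (fun _ => c) (fun _ => 1)) :=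
    ⟨⟨Matrix.diagonal (Sum.elim (fun _ => c) (fun _ => 1)),
      Matrix.diagonal (Sum.elim (fun _ => c⁻¹) (fun _ => 1)), by
        rw [Matrix.diagonal_mul_diagonal, ← Matrix.diagonal_one]
        congr 1
        funext k
        rcases k with k | k <;> simp [hc0], by
        rw [Matrix.diagonal_mul_diagonal, ← Matrix.diagonal_one]
        congr 1
        funext k
        rcases k with k | k <;> simp [hc0]⟩, rfl⟩
  refine ⟨g₀, Units.mk0 c hc0, ?_, ?_⟩
  · intro v
    rw [hg₀, Units.val_mk0, Cfsg.Agent.S2562.qP_apply, Cfsg.Agent.S2562.qP_apply]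
    unfold Cfsg.quadFormPlus
    rw [Finset.mul_sum]
    apply Finset.sum_congr rfl
    intro i _
    rw [Matrix.mulVec_diagonal, Matrix.mulVec_diagonal]
    simp only [Sum.elim_inl, Sum.elim_inr]
    ring
  · rw [Units.val_mk0]
    exact hc

end Helpers

/-- Let T = PΩ⁺_{2m}(F) with m ≥ 4 and |F| = q odd. The image G̃ of the conformal orthogonal group in Aut(T), taken modulo the inner automorphism group T, is elementary abelian of order 4 when m is odd and q ≡ 3 (mod 4), and dihedral of order 8 otherwise. -/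
theorem result {F : Type*} [Field F] [Fintype F] (hodd : Odd (Fintype.card F)) {m : ℕ} (hm : 4 ≤ m) :
    ((Odd m ∧ Fintype.card F % 4 = 3) → (∃ φ : ↥(Cfsg.pgoAut F (Cfsg.quadFormPlus m F)) →* Multiplicative (ZMod 2 × ZMod 2), Function.Surjective φ ∧ φ.ker = (Cfsg.Inn (Cfsg.POmega F (Cfsg.quadFormPlus m F))).subgroupOf (Cfsg.pgoAut F (Cfsg.quadFormPlus m F)))) ∧ (¬ (Odd m ∧ Fintype.card F % 4 = 3) → (∃ φ : ↥(Cfsg.pgoAut F (Cfsg.quadFormPlus m F)) →* DihedralGroup 4, Function.Surjective φ ∧ φ.ker = (Cfsg.Inn (Cfsg.POmega F (Cfsg.quadFormPlus m F))).subgroupOf (Cfsg.pgoAut F (Cfsg.quadFormPlus m F)))) := by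
  classical
  have h2 : (2 : F) ≠ 0 := GF.two_ne_zero_of_odd hodd
  have hcoe : Cfsg.quadFormPlus m F = ⇑(Cfsg.Agent.S2562.qP F m) :=
    funext (fun v => (Cfsg.Agent.S2562.qP_apply m v).symm)
  rw [hcoe]
  have hcard : Fintype.card (Fin m ⊕ Fin m) = 2 * m := by
    rw [Fintype.card_sum, Fintype.card_fin]
    ring
  have hcard6 : 6 ≤ Fintype.card (Fin m ⊕ Fin m) := by
    rw [hcard]
    omega
  have hdata := plus_data hodd m
  have key := OA.pgo_mod_inn h2 m hcard hcard6 (Cfsg.Agent.S2562.qP F m)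
    (Cfsg.Agent.S2562.nondeg_qP m) hdata.choose hdata.choose_spec.choose
    hdata.choose_spec.choose_spec.1 hdata.choose_spec.choose_spec.2
  have hiff := (Cfsg.Agent.S2723.neg_plus_iff (F := F) hodd (m := m) (by omega)).trans
    (OA.pow_mod_four _ _ hodd)
  exact ⟨fun h => key.2 (fun h' => (hiff.1 h') h), fun h => key.1 (hiff.2 h)⟩

end Cfsg.Agent.S2724
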