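import Cfsg.Statements.S2727
import Mathlib
import Cfsg.Agent.Lib.helper13.OrthAut3
import Cfsg.Agent.Lib.helper13.GraphForm
import Cfsg.Agent.Lib.helper4.OrthForms
import Cfsg.Agent.Lib.helper4.OrthNeg
import Cfsg.Agent.S2621

set_option autoImplicit false
open Cfsg

open Cfsg.Agent.Lib.helper13 Matrix

namespace Cfsg.Agent.S2727

section Helpers

/-- `-1 ∈ Ω⁻_{2m+2}(q)` iff `m` is even and `q ≡ 3 (mod 4)` -/
theorem neg_minus_iff {F : Type*} [Field F] [Fintype F] (hodd : Odd (Fintype.card F)) (m : ℕ)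
    (a b : F) (hab : (∀ z₁ z₂ : F, z₁ ^ 2 + a * z₁ * z₂ + b * z₂ ^ 2 = 0 → z₁ = 0 ∧ z₂ = 0)) :
    (∃ g : ↥(Cfsg.isometryGroup F ⇑(Cfsg.Agent.S2679.qMg F m a b)),
      g ∈ Cfsg.Omega F ⇑(Cfsg.Agent.S2679.qMg F m a b) ∧
        ((g : GL ((Fin m ⊕ Fin m) ⊕ Fin 2) F) :
          Matrix ((Fin m ⊕ Fin m) ⊕ Fin 2) ((Fin m ⊕ Fin m) ⊕ Fin 2) F) = -1) ↔
      (Even m ∧ Fintype.card F % 4 = 3) := by
  classical
  have h2 : (2 : F) ≠ 0 := GF.two_ne_zero_of_odd hodd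
  have hcoe : Cfsg.quadFormMinus m F a b = ⇑(Cfsg.Agent.S2679.qMg F m a b) :=
    funext (fun v => (Cfsg.Agent.S2679.qMg_apply m a b v).symm)
  have hcard : Fintype.card ((Fin m ⊕ Fin m) ⊕ Fin 2) = 2 * (m + 1) := by
    rw [Fintype.card_sum, Fintype.card_sum, Fintype.card_fin, Fintype.card_fin]
    ring
  have hev : Even (Fintype.card ((Fin m ⊕ Fin m) ⊕ Fin 2)) := by
    rw [hcard]
    exact even_two_mul (m + 1)
  have h1 := Cfsg.Agent.Lib.helper4.neg_one_mem_omega_iff h2 hev (Cfsg.Agent.S2679.qMg F m a b)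
    (⇑(Cfsg.Agent.S2679.qMg F m a b)) rfl (Cfsg.Agent.Lib.helper4.nondeg_qMg m a b hab)
  have h3 := Cfsg.Agent.S2621.result (F := F) (q := Fintype.card F) rfl hodd (m := m + 1)
    (by omega) a b hab (Pi.basisFun F ((Fin m ⊕ Fin m) ⊕ Fin 2))
  simp only [Pi.basisFun_apply] at h3
  have h4 : IsSquare (Matrix.of (fun i j : (Fin m ⊕ Fin m) ⊕ Fin 2 =>
      QuadraticMap.polar ⇑(Cfsg.Agent.S2679.qMg F m a b) (Pi.single i 1) (Pi.single j 1))).det ↔
      ¬ Even ((m + 1) * (Fintype.card F - 1) / 2) := by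
    rw [← hcoe]
    exact h3
  rw [h1, h4, Cfsg.Agent.Lib.helper4.not_even_half_iff _ _ hodd, OA.pow_succ_mod_four _ _ hodd]

end Helpers

/-- Let T = PΩ⁻_{2m+2}(F) with m ≥ 3 and |F| = q odd (form with anisotropic binary part). The image of the special orthogonal group in Aut(T) contains the inner automorphism group T with index 2 when m is even and q ≡ 3 (mod 4), and coincides with it otherwise (the index is 2 exactly when the discriminant of the form is a square). -/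
theorem result {F : Type*} [Field F] [Fintype F] (hodd : Odd (Fintype.card F)) {m : ℕ} (hm : 3 ≤ m) (a b : F) (hab : (∀ z₁ z₂ : F, z₁ ^ 2 + a * z₁ * z₂ + b * z₂ ^ 2 = 0 → z₁ = 0 ∧ z₂ = 0)) :
    ((Even m ∧ Fintype.card F % 4 = 3) → (Cfsg.Inn (Cfsg.POmega F (Cfsg.quadFormMinus m F a b))).relIndex (Cfsg.psoAut F (Cfsg.quadFormMinus m F a b)) = 2) ∧ (¬ (Even m ∧ Fintype.card F % 4 = 3) → (Cfsg.Inn (Cfsg.POmega F (Cfsg.quadFormMinus m F a b))).relIndex (Cfsg.psoAut F (Cfsg.quadFormMinus m F a b)) = 1) := by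
  classical
  have h2 : (2 : F) ≠ 0 := GF.two_ne_zero_of_odd hodd
  have hcoe : Cfsg.quadFormMinus m F a b = ⇑(Cfsg.Agent.S2679.qMg F m a b) :=
    funext (fun v => (Cfsg.Agent.S2679.qMg_apply m a b v).symm)
  rw [hcoe]
  have hcard : Fintype.card ((Fin m ⊕ Fin m) ⊕ Fin 2) = 2 * (m + 1) := by
    rw [Fintype.card_sum, Fintype.card_sum, Fintype.card_fin, Fintype.card_fin]
    ring
  have hcard6 : 6 ≤ Fintype.card ((Fin m ⊕ Fin m) ⊕ Fin 2) := by
    rw [hcard]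
    omega
  have hev : Even (Fintype.card ((Fin m ⊕ Fin m) ⊕ Fin 2)) := by
    rw [hcard]
    exact even_two_mul (m + 1)
  have key := OA.inn_relIndex_pso h2 hcard6 hev (Cfsg.Agent.S2679.qMg F m a b)
    (Cfsg.Agent.Lib.helper4.nondeg_qMg m a b hab)
  rw [neg_minus_iff hodd m a b hab] at key
  exact key

end Cfsg.Agent.S2727
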