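import Cfsg.Statements.S2728
import Mathlib
import Cfsg.Agent.Lib.helper13.OrthAut4
import Cfsg.Agent.Lib.helper13.GraphForm
import Cfsg.Agent.Lib.helper4.OrthForms
import Cfsg.Agent.S2726
import Cfsg.Agent.S2727

set_option autoImplicit false
open Cfsg

open Cfsg.Agent.Lib.helper13 Matrix

namespace Cfsg.Agent.S2728

/-- Let T = PΩ⁻_{2m+2}(F) with m ≥ 3 and |F| = q odd (form with anisotropic binary part). The image G̃ of the conformal orthogonal group in Aut(T), taken modulo the inner automorphism group T, is dihedral of order 8 when m is even and q ≡ 3 (mod 4), and elementary abelian of order 4 otherwise. -/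
theorem result {F : Type*} [Field F] [Fintype F] (hodd : Odd (Fintype.card F)) {m : ℕ} (hm : 3 ≤ m) (a b : F) (hab : (∀ z₁ z₂ : F, z₁ ^ 2 + a * z₁ * z₂ + b * z₂ ^ 2 = 0 → z₁ = 0 ∧ z₂ = 0)) :
    ((Even m ∧ Fintype.card F % 4 = 3) → (∃ φ : ↥(Cfsg.pgoAut F (Cfsg.quadFormMinus m F a b)) →* DihedralGroup 4, Function.Surjective φ ∧ φ.ker = (Cfsg.Inn (Cfsg.POmega F (Cfsg.quadFormMinus m F a b))).subgroupOf (Cfsg.pgoAut F (Cfsg.quadFormMinus m F a b)))) ∧ (¬ (Even m ∧ Fintype.card F % 4 = 3) → (∃ φ : ↥(Cfsg.pgoAut F (Cfsg.quadFormMinus m F a b)) →* Multiplicative (ZMod 2 × ZMod 2), Function.Surjective φ ∧ φ.ker = (Cfsg.Inn (Cfsg.POmega F (Cfsg.quadFormMinus m F a b))).subgroupOf (Cfsg.pgoAut F (Cfsg.quadFormMinus m F a b)))) := by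
  classical
  have h2 : (2 : F) ≠ 0 := GF.two_ne_zero_of_odd hodd
  have hcoe : Cfsg.quadFormMinus m F a b = ⇑(Cfsg.Agent.S2679.qMg F m a b) :=
    funext (fun v => (Cfsg.Agent.S2679.qMg_apply m a b v).symm)
  rw [hcoe]
  have hcard : Fintype.card ((Fin m ⊕ Fin m) ⊕ Fin 2) = 2 * (m + 1) := by
    rw [Fintype.card_sum, Fintype.card_sum, Fintype.card_fin, Fintype.card_fin]
    ring
  have hcard6 : 6 ≤ Fintype.card ((Fin m ⊕ Fin m) ⊕ Fin 2) := by
    rw [hcard]
    omega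
  have hdata := Cfsg.Agent.S2726.minus_data hodd m a b hab
  have key := OA.pgo_mod_inn h2 (m + 1) hcard hcard6 (Cfsg.Agent.S2679.qMg F m a b)
    (Cfsg.Agent.Lib.helper4.nondeg_qMg m a b hab) hdata.choose hdata.choose_spec.choose
    hdata.choose_spec.choose_spec.1 hdata.choose_spec.choose_spec.2
  have hiff := Cfsg.Agent.S2727.neg_minus_iff hodd m a b hab
  exact ⟨fun h => key.1 (hiff.2 h), fun h => key.2 (fun h' => h (hiff.1 h'))⟩

end Cfsg.Agent.S2728
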