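import Cfsg.Statements.S2729
import Mathlib
import Cfsg.Agent.Lib.helper13.MinusDiag
import Cfsg.Agent.Lib.helper13.GraphForm
import Cfsg.Agent.S2726
import Cfsg.Agent.S2727

set_option autoImplicit false
open Cfsg

open Cfsg.Agent.Lib.helper13 Matrix

namespace Cfsg.Agent.S2729

section Helpers

/-- `-1 ∈ Ω⁻_{2m+2}(q)` iff `m` is even and `q ≡ 3 (mod 4)` -/
theorem negEl_minus_iff {F : Type*} [Field F] [Fintype F] (hodd : Odd (Fintype.card F)) (m : ℕ)
    (a b : F) (hab : (∀ z₁ z₂ : F, z₁ ^ 2 + a * z₁ * z₂ + b * z₂ ^ 2 = 0 → z₁ = 0 ∧ z₂ = 0)) :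
    negEl (Cfsg.Agent.S2679.qMg F m a b) ∈ Cfsg.Omega F ⇑(Cfsg.Agent.S2679.qMg F m a b) ↔
      (Even m ∧ Fintype.card F % 4 = 3) := by
  have hiff := Cfsg.Agent.S2727.neg_minus_iff hodd m a b hab
  constructor
  · intro h
    exact hiff.1 ⟨negEl _, h, negEl_coe _⟩
  · intro h
    obtain ⟨g, hg, hg1⟩ := hiff.2 h
    have hgn : g = negEl (Cfsg.Agent.S2679.qMg F m a b) :=
      isom_ext (Cfsg.Agent.S2679.qMg F m a b) g (negEl _) (by rw [hg1, negEl_coe])
    rw [← hgn]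
    exact hg

theorem minus_struct {F : Type*} [Field F] [Fintype F] (hodd : Odd (Fintype.card F)) {m : ℕ}
    (hm : 3 ≤ m) (a b : F)
    (hab : (∀ z₁ z₂ : F, z₁ ^ 2 + a * z₁ * z₂ + b * z₂ ^ 2 = 0 → z₁ = 0 ∧ z₂ = 0))
    (Qf : ((Fin m ⊕ Fin m) ⊕ Fin 2 → F) → F) (hQf : Qf = ⇑(Cfsg.Agent.S2679.qMg F m a b)) :
    ((Even m ∧ Fintype.card F % 4 = 3) →
      (∃ φ : ↥(OA.diagGenMinus m a b Qf) →* Multiplicative (ZMod 4), Function.Surjective φ ∧
        φ.ker = (Cfsg.Inn (Cfsg.POmega F Qf)).subgroupOf (OA.diagGenMinus m a b Qf))) ∧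
    (¬ (Even m ∧ Fintype.card F % 4 = 3) →
      (∃ φ : ↥(OA.diagGenMinus m a b Qf) →* Multiplicative (ZMod 2), Function.Surjective φ ∧
        φ.ker = (Cfsg.Inn (Cfsg.POmega F Qf)).subgroupOf (OA.diagGenMinus m a b Qf))) := by
  subst hQf
  have h2 : (2 : F) ≠ 0 := GF.two_ne_zero_of_odd hodd
  have hnegiff := negEl_minus_iff hodd m a b hab
  have hdata := Cfsg.Agent.S2726.minus_data hodd m a b hab
  exact ⟨fun h => OA.minus_diag_c4 hodd h2 m hm h.1 a b hab (hnegiff.2 h),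
    fun h => OA.minus_diag_c2 hodd h2 m hm a b hab hdata.choose hdata.choose_spec.choose
      hdata.choose_spec.choose_spec.1 hdata.choose_spec.choose_spec.2
      (fun hneg => h (hnegiff.1 hneg))⟩

end Helpers

/-- Let T = PΩ⁻_{2m+2}(F) with m ≥ 3 and |F| = q odd (form with anisotropic binary part). The inner-diagonal group G = Inndiag(T) (image of the class-preserving similarities) taken modulo the inner automorphism group T is cyclic of order 4 when m is even and q ≡ 3 (mod 4), and of order 2 otherwise. -/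
theorem result {F : Type*} [Field F] [Fintype F] (hodd : Odd (Fintype.card F)) {m : ℕ} (hm : 3 ≤ m) (a b : F) (hab : (∀ z₁ z₂ : F, z₁ ^ 2 + a * z₁ * z₂ + b * z₂ ^ 2 = 0 → z₁ = 0 ∧ z₂ = 0)) :
    ((Even m ∧ Fintype.card F % 4 = 3) → (∃ φ : ↥(Cfsg.inndiagPOmegaMinus m F a b) →* Multiplicative (ZMod 4), Function.Surjective φ ∧ φ.ker = (Cfsg.Inn (Cfsg.POmega F (Cfsg.quadFormMinus m F a b))).subgroupOf (Cfsg.inndiagPOmegaMinus m F a b))) ∧ (¬ (Even m ∧ Fintype.card F % 4 = 3) → (∃ φ : ↥(Cfsg.inndiagPOmegaMinus m F a b) →* Multiplicative (ZMod 2), Function.Surjective φ ∧ φ.ker = (Cfsg.Inn (Cfsg.POmega F (Cfsg.quadFormMinus m F a b))).subgroupOf (Cfsg.inndiagPOmegaMinus m F a b))) := by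
  have hcoe : Cfsg.quadFormMinus m F a b = ⇑(Cfsg.Agent.S2679.qMg F m a b) :=
    funext (fun v => (Cfsg.Agent.S2679.qMg_apply m a b v).symm)
  exact minus_struct hodd hm a b hab (Cfsg.quadFormMinus m F a b) hcoe

end Cfsg.Agent.S2729
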