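import Cfsg.Statements.S2738
import Mathlib

set_option autoImplicit false
open Cfsg

namespace Cfsg.Agent.S2738


open Matrix in
theorem aux (F : Type*) [Field F] [Fintype F] (hF : Fintype.card F = 4) :
    Nat.card ↥(Subgroup.center (Matrix.SpecialLinearGroup (Fin 3) F)) = 3 ∧
    ¬ ∃ K : Subgroup (Matrix.SpecialLinearGroup (Fin 3) F),
      Subgroup.IsComplement' (Subgroup.center (Matrix.SpecialLinearGroup (Fin 3) F)) K := by
  classical
  have hU : Fintype.card Fˣ = 3 := by rw [Fintype.card_units, hF]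
  have hpow : ∀ u : Fˣ, u ^ 3 = 1 := fun u => by rw [← hU]; exact pow_card_eq_one
  constructor
  · have e := Matrix.SpecialLinearGroup.center_equiv_rootsOfUnity' (R := F) (0 : Fin 3)
    rw [Nat.card_congr e.toEquiv]
    have htop : rootsOfUnity (Fintype.card (Fin 3)) F = ⊤ := by
      rw [eq_top_iff]
      intro u _
      rw [mem_rootsOfUnity]
      simpa using hpow u
    rw [htop, Nat.card_congr Subgroup.topEquiv.toEquiv, Nat.card_eq_fintype_card, hU]
  · rintro ⟨K, hK⟩
    -- an element of order 3 of the field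
    obtain ⟨u, hu⟩ : ∃ u : Fˣ, u ≠ 1 := by
      by_contra hcon
      push Not at hcon
      have : Fintype.card Fˣ ≤ 1 := Fintype.card_le_one_iff.mpr (fun a b => by rw [hcon a, hcon b])
      omega
    set ω : F := (u : F) with hω
    have hω3 : ω ^ 3 = 1 := by
      have := congrArg (fun x : Fˣ => (x : F)) (hpow u)
      simpa using this
    have hω1 : ω ≠ 1 := fun h => hu (Units.ext h)
    have hω0 : ω ≠ 0 := u.ne_zero
    have hω2 : ω ^ 2 ≠ 1 := by
      intro h
      apply hω1
      have h3 : ω ^ 3 = ω := by rw [pow_succ, h, one_mul]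
      rw [← h3, hω3]
    -- the matrices
    let A : Matrix (Fin 3) (Fin 3) F := !![1, 0, 0; 0, ω, 0; 0, 0, ω ^ 2]
    let B : Matrix (Fin 3) (Fin 3) F := !![0, 1, 0; 0, 0, 1; 1, 0, 0]
    let Z : Matrix (Fin 3) (Fin 3) F := !![ω ^ 2, 0, 0; 0, ω ^ 2, 0; 0, 0, ω ^ 2]
    have hA : A.det = 1 := by
      rw [Matrix.det_fin_three]
      simp [A]
      rw [← pow_succ']
      exact hω3
    have hB : B.det = 1 := by
      rw [Matrix.det_fin_three]
      simp [B]
    have hZ : Z.det = 1 := by
      rw [Matrix.det_fin_three]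
      simp [Z]
      have : ω ^ 6 = 1 := by rw [show 6 = 3 * 2 from rfl, pow_mul, hω3, one_pow]
      rw [← pow_add, ← pow_add]
      exact this
    let a : Matrix.SpecialLinearGroup (Fin 3) F := ⟨A, hA⟩
    let b : Matrix.SpecialLinearGroup (Fin 3) F := ⟨B, hB⟩
    let z : Matrix.SpecialLinearGroup (Fin 3) F := ⟨Z, hZ⟩
    have hω4 : ω ^ 4 = ω := by rw [pow_succ, hω3, one_mul]
    have hrel : a * b = z * (b * a) := by
      apply Subtype.ext
      show A * B = Z * (B * A)
      ext i j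
      fin_cases i <;> fin_cases j <;>
        simp [A, B, Z, Matrix.mul_apply, Fin.sum_univ_three, ← pow_succ, ← pow_add, hω4, hω3]
    have hzc : z ∈ Subgroup.center (Matrix.SpecialLinearGroup (Fin 3) F) := by
      rw [Matrix.SpecialLinearGroup.mem_center_iff]
      refine ⟨ω ^ 2, ?_, ?_⟩
      · simp only [Fintype.card_fin]
        rw [← pow_mul, show 2 * 3 = 3 * 2 from rfl, pow_mul, hω3, one_pow]
      · ext i j
        fin_cases i <;> fin_cases j <;> simp [z, Z, Matrix.scalar_apply]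
    have hz1 : z ≠ 1 := by
      intro h
      have h1 : (z : Matrix (Fin 3) (Fin 3) F) 0 0 = (1 : Matrix (Fin 3) (Fin 3) F) 0 0 := by
        rw [h]; rfl
      have h2 : (z : Matrix (Fin 3) (Fin 3) F) 0 0 = ω ^ 2 := rfl
      rw [h2, Matrix.one_apply_eq] at h1
      exact hω2 h1
    -- decompose
    obtain ⟨⟨⟨z₁, hz₁⟩, ⟨k₁, hk₁⟩⟩, h1, -⟩ := (Subgroup.isComplement'_def.mp hK).existsUnique a
    obtain ⟨⟨⟨z₂, hz₂⟩, ⟨k₂, hk₂⟩⟩, h2, -⟩ := (Subgroup.isComplement'_def.mp hK).existsUnique b
    have h1' : z₁ * k₁ = a := h1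
    have h2' : z₂ * k₂ = b := h2
    have c1 : ∀ g, g * z₁ = z₁ * g := Subgroup.mem_center_iff.mp hz₁
    have c2 : ∀ g, g * z₂ = z₂ * g := Subgroup.mem_center_iff.mp hz₂
    have cz : ∀ g, g * z = z * g := Subgroup.mem_center_iff.mp hzc
    have hk : k₁ * k₂ = z * (k₂ * k₁) := by
      have e1 : a * b = z₁ * z₂ * (k₁ * k₂) := by
        rw [← h1', ← h2']
        calc z₁ * k₁ * (z₂ * k₂) = z₁ * (k₁ * z₂) * k₂ := by group
          _ = z₁ * (z₂ * k₁) * k₂ := by rw [c2 k₁]
          _ = z₁ * z₂ * (k₁ * k₂) := by group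
      have e2 : z * (b * a) = z₁ * z₂ * (z * (k₂ * k₁)) := by
        rw [← h1', ← h2']
        calc z * (z₂ * k₂ * (z₁ * k₁)) = z * (z₂ * (k₂ * z₁) * k₁) := by group
          _ = z * (z₂ * (z₁ * k₂) * k₁) := by rw [c1 k₂]
          _ = (z * (z₂ * z₁)) * (k₂ * k₁) := by group
          _ = ((z₂ * z₁) * z) * (k₂ * k₁) := by rw [cz (z₂ * z₁)]
          _ = (z₁ * z₂ * z) * (k₂ * k₁) := by rw [c1 z₂]
          _ = z₁ * z₂ * (z * (k₂ * k₁)) := by group
      have e3 := hrel
      rw [e1, e2] at e3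
      exact mul_left_cancel e3
    have hzK : z ∈ K := by
      have : z = k₁ * k₂ * (k₂ * k₁)⁻¹ := by rw [hk]; group
      rw [this]
      exact K.mul_mem (K.mul_mem hk₁ hk₂) (K.inv_mem (K.mul_mem hk₂ hk₁))
    have hbot := hK.disjoint
    have := Subgroup.disjoint_def.mp hbot hzc hzK
    exact hz1 this


/-- The special linear group SL(3, 4) has centre of order 3 and does not split over it: no subgroup is a complement to the centre (so SL(3, 4) is a non-split central extension of PSL(3, 4) by a group of order 3). -/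
theorem result (F : Type*) [Field F] [Fintype F] (hF : Fintype.card F = 4) : Nat.card ↥(Subgroup.center (Matrix.SpecialLinearGroup (Fin 3) F)) = 3 ∧ ¬ ∃ K : Subgroup (Matrix.SpecialLinearGroup (Fin 3) F), Subgroup.IsComplement' (Subgroup.center (Matrix.SpecialLinearGroup (Fin 3) F)) K := by
  exact aux F hF

end Cfsg.Agent.S2738
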