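import Mathlib
import Cfsg.Statements.S2739
import Cfsg.Agent.Lib.helper17.U32d
import Cfsg.Agent.Lib.helper2.SLCard

set_option autoImplicit false
open scoped Pointwise
open Cfsg

namespace Cfsg.Agent.S2739

open Cfsg.Agent.Lib.helper17.SL33
open Cfsg.Agent.Lib.helper17.U32
open Cfsg.Agent.Lib.helper17.U33 (slEquiv3 slEquiv3_apply M3.mul_def M3.one_def)

/-! ### explicit data: a Sylow 3-subgroup of `SL(3,4)` and diagonalising matrices -/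

def l27 : List (M3 F4) := [
  ⟨⟨true, false⟩, ⟨false, false⟩, ⟨false, false⟩, ⟨false, false⟩, ⟨true, false⟩, ⟨false, false⟩, ⟨false, false⟩, ⟨false, false⟩, ⟨true, false⟩⟩,
  ⟨⟨true, false⟩, ⟨false, false⟩, ⟨false, false⟩, ⟨false, false⟩, ⟨false, true⟩, ⟨false, false⟩, ⟨false, false⟩, ⟨false, false⟩, ⟨true, true⟩⟩,
  ⟨⟨true, false⟩, ⟨false, false⟩, ⟨false, false⟩, ⟨false, false⟩, ⟨true, true⟩, ⟨false, false⟩, ⟨false, false⟩, ⟨false, false⟩, ⟨false, true⟩⟩,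
  ⟨⟨false, true⟩, ⟨false, false⟩, ⟨false, false⟩, ⟨false, false⟩, ⟨true, false⟩, ⟨false, false⟩, ⟨false, false⟩, ⟨false, false⟩, ⟨true, true⟩⟩,
  ⟨⟨false, true⟩, ⟨false, false⟩, ⟨false, false⟩, ⟨false, false⟩, ⟨false, true⟩, ⟨false, false⟩, ⟨false, false⟩, ⟨false, false⟩, ⟨false, true⟩⟩,
  ⟨⟨false, true⟩, ⟨false, false⟩, ⟨false, false⟩, ⟨false, false⟩, ⟨true, true⟩, ⟨false, false⟩, ⟨false, false⟩, ⟨false, false⟩, ⟨true, false⟩⟩,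
  ⟨⟨true, true⟩, ⟨false, false⟩, ⟨false, false⟩, ⟨false, false⟩, ⟨true, false⟩, ⟨false, false⟩, ⟨false, false⟩, ⟨false, false⟩, ⟨false, true⟩⟩,
  ⟨⟨true, true⟩, ⟨false, false⟩, ⟨false, false⟩, ⟨false, false⟩, ⟨false, true⟩, ⟨false, false⟩, ⟨false, false⟩, ⟨false, false⟩, ⟨true, false⟩⟩,
  ⟨⟨true, true⟩, ⟨false, false⟩, ⟨false, false⟩, ⟨false, false⟩, ⟨true, true⟩, ⟨false, false⟩, ⟨false, false⟩, ⟨false, false⟩, ⟨true, true⟩⟩,
  ⟨⟨false, false⟩, ⟨false, false⟩, ⟨true, false⟩, ⟨true, false⟩, ⟨false, false⟩, ⟨false, false⟩, ⟨false, false⟩, ⟨true, false⟩, ⟨false, false⟩⟩,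
  ⟨⟨false, false⟩, ⟨false, false⟩, ⟨true, false⟩, ⟨false, true⟩, ⟨false, false⟩, ⟨false, false⟩, ⟨false, false⟩, ⟨true, true⟩, ⟨false, false⟩⟩,
  ⟨⟨false, false⟩, ⟨false, false⟩, ⟨true, false⟩, ⟨true, true⟩, ⟨false, false⟩, ⟨false, false⟩, ⟨false, false⟩, ⟨false, true⟩, ⟨false, false⟩⟩,
  ⟨⟨false, false⟩, ⟨false, false⟩, ⟨false, true⟩, ⟨true, false⟩, ⟨false, false⟩, ⟨false, false⟩, ⟨false, false⟩, ⟨true, true⟩, ⟨false, false⟩⟩,
  ⟨⟨false, false⟩, ⟨false, false⟩, ⟨false, true⟩, ⟨false, true⟩, ⟨false, false⟩, ⟨false, false⟩, ⟨false, false⟩, ⟨false, true⟩, ⟨false, false⟩⟩,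
  ⟨⟨false, false⟩, ⟨false, false⟩, ⟨false, true⟩, ⟨true, true⟩, ⟨false, false⟩, ⟨false, false⟩, ⟨false, false⟩, ⟨true, false⟩, ⟨false, false⟩⟩,
  ⟨⟨false, false⟩, ⟨false, false⟩, ⟨true, true⟩, ⟨true, false⟩, ⟨false, false⟩, ⟨false, false⟩, ⟨false, false⟩, ⟨false, true⟩, ⟨false, false⟩⟩,
  ⟨⟨false, false⟩, ⟨false, false⟩, ⟨true, true⟩, ⟨false, true⟩, ⟨false, false⟩, ⟨false, false⟩, ⟨false, false⟩, ⟨true, false⟩, ⟨false, false⟩⟩,
  ⟨⟨false, false⟩, ⟨false, false⟩, ⟨true, true⟩, ⟨true, true⟩, ⟨false, false⟩, ⟨false, false⟩, ⟨false, false⟩, ⟨true, true⟩, ⟨false, false⟩⟩,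
  ⟨⟨false, false⟩, ⟨true, false⟩, ⟨false, false⟩, ⟨false, false⟩, ⟨false, false⟩, ⟨true, false⟩, ⟨true, false⟩, ⟨false, false⟩, ⟨false, false⟩⟩,
  ⟨⟨false, false⟩, ⟨true, false⟩, ⟨false, false⟩, ⟨false, false⟩, ⟨false, false⟩, ⟨false, true⟩, ⟨true, true⟩, ⟨false, false⟩, ⟨false, false⟩⟩,
  ⟨⟨false, false⟩, ⟨true, false⟩, ⟨false, false⟩, ⟨false, false⟩, ⟨false, false⟩, ⟨true, true⟩, ⟨false, true⟩, ⟨false, false⟩, ⟨false, false⟩⟩,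
  ⟨⟨false, false⟩, ⟨false, true⟩, ⟨false, false⟩, ⟨false, false⟩, ⟨false, false⟩, ⟨true, false⟩, ⟨true, true⟩, ⟨false, false⟩, ⟨false, false⟩⟩,
  ⟨⟨false, false⟩, ⟨false, true⟩, ⟨false, false⟩, ⟨false, false⟩, ⟨false, false⟩, ⟨false, true⟩, ⟨false, true⟩, ⟨false, false⟩, ⟨false, false⟩⟩,
  ⟨⟨false, false⟩, ⟨false, true⟩, ⟨false, false⟩, ⟨false, false⟩, ⟨false, false⟩, ⟨true, true⟩, ⟨true, false⟩, ⟨false, false⟩, ⟨false, false⟩⟩,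
  ⟨⟨false, false⟩, ⟨true, true⟩, ⟨false, false⟩, ⟨false, false⟩, ⟨false, false⟩, ⟨true, false⟩, ⟨false, true⟩, ⟨false, false⟩, ⟨false, false⟩⟩,
  ⟨⟨false, false⟩, ⟨true, true⟩, ⟨false, false⟩, ⟨false, false⟩, ⟨false, false⟩, ⟨false, true⟩, ⟨true, false⟩, ⟨false, false⟩, ⟨false, false⟩⟩,
  ⟨⟨false, false⟩, ⟨true, true⟩, ⟨false, false⟩, ⟨false, false⟩, ⟨false, false⟩, ⟨true, true⟩, ⟨true, true⟩, ⟨false, false⟩, ⟨false, false⟩⟩]

def lz : List (M3 F4) := [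
  ⟨⟨true, false⟩, ⟨false, false⟩, ⟨false, false⟩, ⟨false, false⟩, ⟨true, false⟩, ⟨false, false⟩, ⟨false, false⟩, ⟨false, false⟩, ⟨true, false⟩⟩,
  ⟨⟨false, true⟩, ⟨false, false⟩, ⟨false, false⟩, ⟨false, false⟩, ⟨false, true⟩, ⟨false, false⟩, ⟨false, false⟩, ⟨false, false⟩, ⟨false, true⟩⟩,
  ⟨⟨true, true⟩, ⟨false, false⟩, ⟨false, false⟩, ⟨false, false⟩, ⟨true, true⟩, ⟨false, false⟩, ⟨false, false⟩, ⟨false, false⟩, ⟨true, true⟩⟩]

def dd : M3 F4 := ⟨⟨true, false⟩, ⟨false, false⟩, ⟨false, false⟩, ⟨false, false⟩, ⟨false, true⟩, ⟨false, false⟩, ⟨false, false⟩, ⟨false, false⟩, ⟨true, true⟩⟩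

def tbl : List (M3 F4 × M3 F4) := [
  (⟨⟨true, false⟩, ⟨false, false⟩, ⟨false, false⟩, ⟨false, false⟩, ⟨false, true⟩, ⟨false, false⟩, ⟨false, false⟩, ⟨false, false⟩, ⟨true, true⟩⟩,
   ⟨⟨true, false⟩, ⟨false, false⟩, ⟨false, false⟩, ⟨false, false⟩, ⟨true, false⟩, ⟨false, false⟩, ⟨false, false⟩, ⟨false, false⟩, ⟨true, false⟩⟩),
  (⟨⟨true, false⟩, ⟨false, false⟩, ⟨false, false⟩, ⟨false, false⟩, ⟨true, true⟩, ⟨false, false⟩, ⟨false, false⟩, ⟨false, false⟩, ⟨false, true⟩⟩,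
   ⟨⟨true, false⟩, ⟨false, false⟩, ⟨false, false⟩, ⟨false, false⟩, ⟨false, false⟩, ⟨true, false⟩, ⟨false, false⟩, ⟨true, false⟩, ⟨false, false⟩⟩),
  (⟨⟨false, true⟩, ⟨false, false⟩, ⟨false, false⟩, ⟨false, false⟩, ⟨true, false⟩, ⟨false, false⟩, ⟨false, false⟩, ⟨false, false⟩, ⟨true, true⟩⟩,
   ⟨⟨false, false⟩, ⟨true, false⟩, ⟨false, false⟩, ⟨true, false⟩, ⟨false, false⟩, ⟨false, false⟩, ⟨false, false⟩, ⟨false, false⟩, ⟨true, false⟩⟩),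
  (⟨⟨false, true⟩, ⟨false, false⟩, ⟨false, false⟩, ⟨false, false⟩, ⟨true, true⟩, ⟨false, false⟩, ⟨false, false⟩, ⟨false, false⟩, ⟨true, false⟩⟩,
   ⟨⟨false, false⟩, ⟨false, false⟩, ⟨true, false⟩, ⟨true, false⟩, ⟨false, false⟩, ⟨false, false⟩, ⟨false, false⟩, ⟨true, false⟩, ⟨false, false⟩⟩),
  (⟨⟨true, true⟩, ⟨false, false⟩, ⟨false, false⟩, ⟨false, false⟩, ⟨true, false⟩, ⟨false, false⟩, ⟨false, false⟩, ⟨false, false⟩, ⟨false, true⟩⟩,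
   ⟨⟨false, false⟩, ⟨true, false⟩, ⟨false, false⟩, ⟨false, false⟩, ⟨false, false⟩, ⟨true, false⟩, ⟨true, false⟩, ⟨false, false⟩, ⟨false, false⟩⟩),
  (⟨⟨true, true⟩, ⟨false, false⟩, ⟨false, false⟩, ⟨false, false⟩, ⟨false, true⟩, ⟨false, false⟩, ⟨false, false⟩, ⟨false, false⟩, ⟨true, false⟩⟩,
   ⟨⟨false, false⟩, ⟨false, false⟩, ⟨true, false⟩, ⟨false, false⟩, ⟨true, false⟩, ⟨false, false⟩, ⟨true, false⟩, ⟨false, false⟩, ⟨false, false⟩⟩),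
  (⟨⟨false, false⟩, ⟨false, false⟩, ⟨true, false⟩, ⟨true, false⟩, ⟨false, false⟩, ⟨false, false⟩, ⟨false, false⟩, ⟨true, false⟩, ⟨false, false⟩⟩,
   ⟨⟨true, false⟩, ⟨true, false⟩, ⟨true, false⟩, ⟨true, false⟩, ⟨false, true⟩, ⟨true, true⟩, ⟨true, false⟩, ⟨true, true⟩, ⟨false, true⟩⟩),
  (⟨⟨false, false⟩, ⟨false, false⟩, ⟨true, false⟩, ⟨false, true⟩, ⟨false, false⟩, ⟨false, false⟩, ⟨false, false⟩, ⟨true, true⟩, ⟨false, false⟩⟩,
   ⟨⟨false, true⟩, ⟨true, false⟩, ⟨false, true⟩, ⟨true, false⟩, ⟨true, false⟩, ⟨true, true⟩, ⟨true, false⟩, ⟨false, true⟩, ⟨false, true⟩⟩),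
  (⟨⟨false, false⟩, ⟨false, false⟩, ⟨true, false⟩, ⟨true, true⟩, ⟨false, false⟩, ⟨false, false⟩, ⟨false, false⟩, ⟨false, true⟩, ⟨false, false⟩⟩,
   ⟨⟨true, true⟩, ⟨true, false⟩, ⟨true, true⟩, ⟨true, false⟩, ⟨true, true⟩, ⟨true, true⟩, ⟨true, false⟩, ⟨true, false⟩, ⟨false, true⟩⟩),
  (⟨⟨false, false⟩, ⟨false, false⟩, ⟨false, true⟩, ⟨true, false⟩, ⟨false, false⟩, ⟨false, false⟩, ⟨false, false⟩, ⟨true, true⟩, ⟨false, false⟩⟩,
   ⟨⟨true, true⟩, ⟨true, true⟩, ⟨true, false⟩, ⟨true, false⟩, ⟨false, true⟩, ⟨true, false⟩, ⟨true, false⟩, ⟨true, true⟩, ⟨true, true⟩⟩),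
  (⟨⟨false, false⟩, ⟨false, false⟩, ⟨false, true⟩, ⟨false, true⟩, ⟨false, false⟩, ⟨false, false⟩, ⟨false, false⟩, ⟨false, true⟩, ⟨false, false⟩⟩,
   ⟨⟨true, false⟩, ⟨true, true⟩, ⟨false, true⟩, ⟨true, false⟩, ⟨true, false⟩, ⟨true, false⟩, ⟨true, false⟩, ⟨false, true⟩, ⟨true, true⟩⟩),
  (⟨⟨false, false⟩, ⟨false, false⟩, ⟨false, true⟩, ⟨true, true⟩, ⟨false, false⟩, ⟨false, false⟩, ⟨false, false⟩, ⟨true, false⟩, ⟨false, false⟩⟩,
   ⟨⟨false, true⟩, ⟨true, true⟩, ⟨true, true⟩, ⟨true, false⟩, ⟨true, true⟩, ⟨true, false⟩, ⟨true, false⟩, ⟨true, false⟩, ⟨true, true⟩⟩),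
  (⟨⟨false, false⟩, ⟨false, false⟩, ⟨true, true⟩, ⟨true, false⟩, ⟨false, false⟩, ⟨false, false⟩, ⟨false, false⟩, ⟨false, true⟩, ⟨false, false⟩⟩,
   ⟨⟨false, true⟩, ⟨false, true⟩, ⟨true, false⟩, ⟨true, false⟩, ⟨false, true⟩, ⟨false, true⟩, ⟨true, false⟩, ⟨true, true⟩, ⟨true, false⟩⟩),
  (⟨⟨false, false⟩, ⟨false, false⟩, ⟨true, true⟩, ⟨false, true⟩, ⟨false, false⟩, ⟨false, false⟩, ⟨false, false⟩, ⟨true, false⟩, ⟨false, false⟩⟩,
   ⟨⟨true, true⟩, ⟨false, true⟩, ⟨false, true⟩, ⟨true, false⟩, ⟨true, false⟩, ⟨false, true⟩, ⟨true, false⟩, ⟨false, true⟩, ⟨true, false⟩⟩),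
  (⟨⟨false, false⟩, ⟨false, false⟩, ⟨true, true⟩, ⟨true, true⟩, ⟨false, false⟩, ⟨false, false⟩, ⟨false, false⟩, ⟨true, true⟩, ⟨false, false⟩⟩,
   ⟨⟨true, false⟩, ⟨false, true⟩, ⟨true, true⟩, ⟨true, false⟩, ⟨true, true⟩, ⟨false, true⟩, ⟨true, false⟩, ⟨true, false⟩, ⟨true, false⟩⟩),
  (⟨⟨false, false⟩, ⟨true, false⟩, ⟨false, false⟩, ⟨false, false⟩, ⟨false, false⟩, ⟨true, false⟩, ⟨true, false⟩, ⟨false, false⟩, ⟨false, false⟩⟩,
   ⟨⟨true, false⟩, ⟨true, false⟩, ⟨true, false⟩, ⟨true, false⟩, ⟨true, true⟩, ⟨false, true⟩, ⟨true, false⟩, ⟨false, true⟩, ⟨true, true⟩⟩),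
  (⟨⟨false, false⟩, ⟨true, false⟩, ⟨false, false⟩, ⟨false, false⟩, ⟨false, false⟩, ⟨false, true⟩, ⟨true, true⟩, ⟨false, false⟩, ⟨false, false⟩⟩,
   ⟨⟨true, true⟩, ⟨true, true⟩, ⟨true, false⟩, ⟨true, false⟩, ⟨true, true⟩, ⟨true, true⟩, ⟨true, false⟩, ⟨false, true⟩, ⟨true, false⟩⟩),
  (⟨⟨false, false⟩, ⟨true, false⟩, ⟨false, false⟩, ⟨false, false⟩, ⟨false, false⟩, ⟨true, true⟩, ⟨false, true⟩, ⟨false, false⟩, ⟨false, false⟩⟩,
   ⟨⟨false, true⟩, ⟨false, true⟩, ⟨true, false⟩, ⟨true, false⟩, ⟨true, true⟩, ⟨true, false⟩, ⟨true, false⟩, ⟨false, true⟩, ⟨false, true⟩⟩),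
  (⟨⟨false, false⟩, ⟨false, true⟩, ⟨false, false⟩, ⟨false, false⟩, ⟨false, false⟩, ⟨true, false⟩, ⟨true, true⟩, ⟨false, false⟩, ⟨false, false⟩⟩,
   ⟨⟨false, true⟩, ⟨true, true⟩, ⟨true, true⟩, ⟨true, false⟩, ⟨true, false⟩, ⟨true, true⟩, ⟨true, false⟩, ⟨true, true⟩, ⟨true, false⟩⟩),
  (⟨⟨false, false⟩, ⟨false, true⟩, ⟨false, false⟩, ⟨false, false⟩, ⟨false, false⟩, ⟨false, true⟩, ⟨false, true⟩, ⟨false, false⟩, ⟨false, false⟩⟩,
   ⟨⟨true, false⟩, ⟨false, true⟩, ⟨true, true⟩, ⟨true, false⟩, ⟨true, false⟩, ⟨true, false⟩, ⟨true, false⟩, ⟨true, true⟩, ⟨false, true⟩⟩),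
  (⟨⟨false, false⟩, ⟨false, true⟩, ⟨false, false⟩, ⟨false, false⟩, ⟨false, false⟩, ⟨true, true⟩, ⟨true, false⟩, ⟨false, false⟩, ⟨false, false⟩⟩,
   ⟨⟨true, true⟩, ⟨true, false⟩, ⟨true, true⟩, ⟨true, false⟩, ⟨true, false⟩, ⟨false, true⟩, ⟨true, false⟩, ⟨true, true⟩, ⟨true, true⟩⟩),
  (⟨⟨false, false⟩, ⟨true, true⟩, ⟨false, false⟩, ⟨false, false⟩, ⟨false, false⟩, ⟨true, false⟩, ⟨false, true⟩, ⟨false, false⟩, ⟨false, false⟩⟩,
   ⟨⟨true, true⟩, ⟨false, true⟩, ⟨false, true⟩, ⟨true, false⟩, ⟨false, true⟩, ⟨true, false⟩, ⟨true, false⟩, ⟨true, false⟩, ⟨false, true⟩⟩),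
  (⟨⟨false, false⟩, ⟨true, true⟩, ⟨false, false⟩, ⟨false, false⟩, ⟨false, false⟩, ⟨false, true⟩, ⟨true, false⟩, ⟨false, false⟩, ⟨false, false⟩⟩,
   ⟨⟨false, true⟩, ⟨true, false⟩, ⟨false, true⟩, ⟨true, false⟩, ⟨false, true⟩, ⟨false, true⟩, ⟨true, false⟩, ⟨true, false⟩, ⟨true, true⟩⟩),
  (⟨⟨false, false⟩, ⟨true, true⟩, ⟨false, false⟩, ⟨false, false⟩, ⟨false, false⟩, ⟨true, true⟩, ⟨true, true⟩, ⟨false, false⟩, ⟨false, false⟩⟩,
   ⟨⟨true, false⟩, ⟨true, true⟩, ⟨false, true⟩, ⟨true, false⟩, ⟨false, true⟩, ⟨true, true⟩, ⟨true, false⟩, ⟨true, false⟩, ⟨true, false⟩⟩)]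

/-- the concrete special linear group -/
abbrev SLc : Type := Matrix.SpecialLinearGroup (Fin 3) F4

/-- the concrete projective special linear group -/
abbrev PSLc : Type := Matrix.ProjectiveSpecialLinearGroup (Fin 3) F4

theorem l27_det : ∀ m ∈ l27, det3 m = 1 := by decide
theorem l27_mul : ∀ m ∈ l27, ∀ n ∈ l27, m * n ∈ l27 := by decide
theorem l27_one : (1 : M3 F4) ∈ l27 := by decide
theorem l27_inv : ∀ m ∈ l27, ∃ n ∈ l27, m * n = 1 := by decide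
theorem l27_nodup : l27.Nodup := by decide
theorem tbl_spec : ∀ e ∈ tbl, det3 e.2 = 1 ∧ e.2 * e.1 = dd * e.2 := by decide
theorem tbl_complete : ∀ m ∈ l27, m ∉ lz → ∃ e ∈ tbl, e.1 = m := by decide
theorem dd_det : det3 dd = 1 := by decide
theorem lz_spec : ∀ m ∈ lz, m.a ^ 3 = 1 ∧ m = ⟨m.a, 0, 0, 0, m.a, 0, 0, 0, m.a⟩ := by decide

/-- the explicit Sylow 3-subgroup: monomial matrices of determinant one with cyclic pattern -/
def P1 : Subgroup SLc where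
  carrier := {x | enc3 x ∈ l27}
  mul_mem' := by
    intro x y hx hy
    show enc3 (x * y) ∈ l27
    rw [enc3_mul]
    exact l27_mul _ hx _ hy
  one_mem' := by
    show enc3 (1 : SLc) ∈ l27
    rw [enc3_one]
    exact l27_one
  inv_mem' := by
    intro x hx
    obtain ⟨n, hn, hmn⟩ := l27_inv _ hx
    have hd := l27_det n hn
    have h1 : dec3g n hd = x⁻¹ := by
      apply eq_inv_of_mul_eq_one_right
      apply enc3_injective
      rw [enc3_mul, enc3_dec3g, enc3_one]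
      exact hmn
    show enc3 x⁻¹ ∈ l27
    rw [← h1, enc3_dec3g]
    exact hn

theorem card_P1 : Nat.card P1 = 27 :=
  card_of_list enc3 enc3_injective (P1 : Set SLc) l27 l27_nodup (fun _ => Iff.rfl)
    (fun m hm => ⟨dec3g m (l27_det m hm), enc3_dec3g _ _⟩)

theorem card_SLc : Nat.card SLc = 60480 := by
  have h := Cfsg.Agent.Lib.helper2.SLCard.card_SL F4 3 (by norm_num)
  rw [F4.card, Fin.prod_univ_three] at h
  have h2 : 3 * Nat.card SLc = 181440 := h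
  omega

theorem fact3 : (Nat.card SLc).factorization 3 = 3 := by
  rw [card_SLc, show (60480 : ℕ) = 3 ^ 3 * 2240 by norm_num,
    Nat.factorization_mul (by norm_num) (by norm_num), Nat.factorization_pow]
  simp [Nat.Prime.factorization_self Nat.prime_three,
    Nat.factorization_eq_zero_of_not_dvd (show ¬ 3 ∣ 2240 by norm_num)]

instance : Fact (Nat.Prime 3) := ⟨Nat.prime_three⟩

/-- `P1` as a Sylow subgroup -/
noncomputable def P1s : Sylow 3 SLc := Sylow.ofCard P1 (by rw [card_P1, fact3]; norm_num)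

theorem coe_P1s : (P1s : Subgroup SLc) = P1 := Sylow.coe_ofCard _ _

theorem center_cube (z : SLc) (hz : z ∈ Subgroup.center SLc) : z ^ 3 = 1 := by
  rw [Matrix.SpecialLinearGroup.mem_center_iff] at hz
  obtain ⟨r, hr, hA⟩ := hz
  apply Subtype.ext
  rw [Matrix.SpecialLinearGroup.coe_pow, ← hA, ← map_pow]
  simp only [Fintype.card_fin] at hr
  rw [hr, map_one]
  rfl

theorem mem_center_of_lz (x : SLc) (hx : enc3 x ∈ lz) : x ∈ Subgroup.center SLc := by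
  obtain ⟨h1, h2⟩ := lz_spec _ hx
  rw [Matrix.SpecialLinearGroup.mem_center_iff]
  refine ⟨x 0 0, h1, ?_⟩
  have h2' : (⟨x 0 0, x 0 1, x 0 2, x 1 0, x 1 1, x 1 2, x 2 0, x 2 1, x 2 2⟩ : M3 F4) =
      ⟨x 0 0, 0, 0, 0, x 0 0, 0, 0, 0, x 0 0⟩ := h2
  rw [M3.mk.injEq] at h2'
  obtain ⟨-, e01, e02, e10, e11, e12, e20, e21, e22⟩ := h2'
  ext i j
  fin_cases i <;> fin_cases j <;> simp [Matrix.scalar_apply, Matrix.diagonal, *]

/-- the diagonal element of order three -/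
def Dm : SLc := dec3g dd dd_det

/-- its image in the projective group -/
def Dbar : PSLc := QuotientGroup.mk Dm

theorem core (xb : PSLc) (h1 : xb ≠ 1) (h3 : xb ^ 3 = 1) : ∃ γ : PSLc, γ * xb * γ⁻¹ = Dbar := by
  obtain ⟨x, rfl⟩ := QuotientGroup.mk_surjective xb
  have hx3 : x ^ 3 ∈ Subgroup.center SLc := by
    rw [← QuotientGroup.eq_one_iff]
    exact h3
  have hx9 : x ^ 9 = 1 := by
    have := center_cube _ hx3
    rw [← pow_mul] at this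
    exact this
  have hp : IsPGroup 3 (Subgroup.zpowers x) := by
    have hdvd : orderOf x ∣ 3 ^ 2 := orderOf_dvd_of_pow_eq_one hx9
    obtain ⟨k, -, hk⟩ := (Nat.dvd_prime_pow Nat.prime_three).mp hdvd
    exact IsPGroup.of_card (n := k) (by rw [Nat.card_zpowers, hk])
  obtain ⟨Q, hQ⟩ := hp.exists_le_sylow
  obtain ⟨g, hg⟩ := MulAction.exists_smul_eq SLc P1s Q
  have hxQ : x ∈ (Q : Subgroup SLc) := hQ (Subgroup.mem_zpowers x)
  have hx' : g⁻¹ * x * g ∈ P1 := by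
    rw [← hg, Sylow.coe_subgroup_smul, coe_P1s, Subgroup.mem_pointwise_smul_iff_inv_smul_mem,
      MulAut.smul_def, MulAut.conj_inv_apply] at hxQ
    exact hxQ
  have hns : enc3 (g⁻¹ * x * g) ∉ lz := by
    intro hz
    have hc := mem_center_of_lz _ hz
    apply h1
    rw [QuotientGroup.eq_one_iff]
    have h' := (inferInstance : (Subgroup.center SLc).Normal).conj_mem _ hc g
    have e : g * (g⁻¹ * x * g) * g⁻¹ = x := by group
    rw [e] at h'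
    exact h'
  obtain ⟨e, he, hem⟩ := tbl_complete _ hx' hns
  obtain ⟨hdet, hconj⟩ := tbl_spec e he
  have key : dec3g e.2 hdet * (g⁻¹ * x * g) = Dm * dec3g e.2 hdet := by
    apply enc3_injective
    rw [enc3_mul (dec3g e.2 hdet) (g⁻¹ * x * g), enc3_mul Dm (dec3g e.2 hdet), enc3_dec3g, Dm,
      enc3_dec3g, ← hem]
    exact hconj
  refine ⟨QuotientGroup.mk (dec3g e.2 hdet * g⁻¹), ?_⟩
  show (QuotientGroup.mk (dec3g e.2 hdet * g⁻¹) : PSLc) * QuotientGroup.mk x *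
    (QuotientGroup.mk (dec3g e.2 hdet * g⁻¹))⁻¹ = QuotientGroup.mk Dm
  rw [← QuotientGroup.mk_inv, ← QuotientGroup.mk_mul, ← QuotientGroup.mk_mul]
  congr 1
  have e2 : dec3g e.2 hdet * g⁻¹ * x * (dec3g e.2 hdet * g⁻¹)⁻¹ =
      (dec3g e.2 hdet * (g⁻¹ * x * g)) * (dec3g e.2 hdet)⁻¹ := by group
  rw [e2, key]
  group

theorem conj_all (X : Subgroup PSLc) (hX : Nat.card X = 3) :
    ∃ γ : PSLc, MulAut.conj γ • X = Subgroup.zpowers Dbar := by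
  have hne : X ≠ ⊥ := by
    intro h
    rw [h] at hX
    simp at hX
  obtain ⟨⟨xb, hxb⟩, hxb1⟩ := Subgroup.ne_bot_iff_exists_ne_one.mp hne
  have h1 : xb ≠ 1 := fun h => hxb1 (Subtype.ext h)
  have h3 : xb ^ 3 = 1 := by
    have := pow_card_eq_one' (G := X) (x := ⟨xb, hxb⟩)
    rw [hX] at this
    exact congrArg Subtype.val this
  have ho : orderOf xb = 3 := orderOf_eq_prime h3 h1
  have hXz : Subgroup.zpowers xb = X := by
    have : Finite X := Nat.finite_of_card_ne_zero (by rw [hX]; norm_num)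
    apply Subgroup.eq_of_le_of_card_ge (Subgroup.zpowers_le.mpr hxb)
    rw [Nat.card_zpowers, ho, hX]
  obtain ⟨γ, hγ⟩ := core xb h1 h3
  refine ⟨γ, ?_⟩
  have hmap : MulAut.conj γ • Subgroup.zpowers xb =
      (Subgroup.zpowers xb).map (MulAut.conj γ).toMonoidHom := rfl
  rw [← hXz, hmap, MonoidHom.map_zpowers]
  congr 1

theorem transport {G H : Type*} [Group G] [Group H] (E : G ≃* H)
    (h : ∀ X : Subgroup H, Nat.card X = 3 → ∀ Y : Subgroup H, Nat.card Y = 3 →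
      ∃ g : H, MulAut.conj g • X = Y)
    (X Y : Subgroup G) (hX : Nat.card X = 3) (hY : Nat.card Y = 3) :
    ∃ g : G, MulAut.conj g • X = Y := by
  have cX : Nat.card (X.map E.toMonoidHom) = 3 := by
    rw [← hX]
    exact Subgroup.card_map_of_injective E.injective
  have cY : Nat.card (Y.map E.toMonoidHom) = 3 := by
    rw [← hY]
    exact Subgroup.card_map_of_injective E.injective
  obtain ⟨g, hg⟩ := h _ cX _ cY
  refine ⟨E.symm g, ?_⟩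
  ext y
  rw [Subgroup.mem_pointwise_smul_iff_inv_smul_mem, MulAut.smul_def, MulAut.conj_inv_apply]
  have h1 : E y ∈ Y.map E.toMonoidHom ↔ y ∈ Y := by
    constructor
    · rintro ⟨z, hz, hzy⟩
      have := E.injective hzy
      rwa [← this]
    · intro hy
      exact ⟨y, hy, rfl⟩
  rw [← h1, ← hg, Subgroup.mem_pointwise_smul_iff_inv_smul_mem, MulAut.smul_def,
    MulAut.conj_inv_apply]
  constructor
  · intro hx
    exact ⟨_, hx, by simp⟩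
  · rintro ⟨z, hz, hzy⟩
    have : z = (E.symm g)⁻¹ * y * E.symm g := by
      apply E.injective
      have hzy' : E z = g⁻¹ * E y * g := hzy
      rw [hzy']
      simp
    rwa [← this]

/-- In the projective special linear group PSL(3, 4) all subgroups of order 3 are conjugate. -/
theorem result (F : Type*) [Field F] [Fintype F] (hF : Fintype.card F = 4) (X Y : Subgroup (Matrix.ProjectiveSpecialLinearGroup (Fin 3) F)) (hX : Nat.card ↥X = 3) (hY : Nat.card ↥Y = 3) : ∃ g : Matrix.ProjectiveSpecialLinearGroup (Fin 3) F, MulAut.conj g • X = Y := by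
  have e : F ≃+* F4 := FiniteField.ringEquivOfCardEq (by rw [hF, F4.card])
  refine transport (quotCenterEquiv (slEquiv3 e)) ?_ X Y hX hY
  intro X' hX' Y' hY'
  obtain ⟨g1, h1⟩ := conj_all X' hX'
  obtain ⟨g2, h2⟩ := conj_all Y' hY'
  refine ⟨g2⁻¹ * g1, ?_⟩
  rw [map_mul, mul_smul, h1, ← h2, map_inv, inv_smul_smul]

end Cfsg.Agent.S2739
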