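import Cfsg.Statements.S2779
import Mathlib
import Cfsg.Agent.Lib.helper20.NatSL2

set_option autoImplicit false
open Cfsg
open Cfsg.Agent.Lib.helper15 Cfsg.Agent.Lib.helper20.NatSL2
open scoped commutatorElement

namespace Cfsg.Agent.S2779

/-- Let L act on the elementary abelian p-group V (inside a finite group, by conjugation, faithfully) as SL₂(F) on its natural module, F a field with p^n elements, and let S be a Sylow p-subgroup of L. Then [V, S, S] = 1; |V| = p^(2n) and |C_V(S)| = p^n; and for every nonidentity s ∈ S and every v ∈ V outside C_V(S): C_V(s) = C_V(S) = [V, S] = [V, s] = the subgroup generated by the commutators [v, t], t ∈ S. -/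
theorem result {G : Type*} [Group G] [Finite G] {p : ℕ} [Fact p.Prime] {F : Type*} [Field F] [Fintype F] (n : ℕ) (hF : Fintype.card F = p ^ n) (V L : Subgroup G) (hnat : Cfsg.IsNaturalSL2Module F V L) (hf : L ⊓ Subgroup.centralizer (V : Set G) = ⊥) (S : Sylow p ↥L) (T : Subgroup G) (hT : T = ((S : Subgroup ↥L).map L.subtype)) : ⁅⁅V, T⁆, T⁆ = ⊥ ∧ Nat.card V = p ^ (2 * n) ∧ Nat.card ↥(V ⊓ Subgroup.centralizer ((T : Subgroup G) : Set G)) = p ^ n ∧ ∀ s ∈ T, s ≠ 1 → (V ⊓ Subgroup.centralizer ({s} : Set G)) = (V ⊓ Subgroup.centralizer ((T : Subgroup G) : Set G)) ∧ ⁅V, T⁆ = (V ⊓ Subgroup.centralizer ((T : Subgroup G) : Set G)) ∧ ⁅V, Subgroup.zpowers s⁆ = (V ⊓ Subgroup.centralizer ((T : Subgroup G) : Set G)) ∧ ∀ v ∈ V, v ∉ Subgroup.centralizer (T : Set G) → Subgroup.closure {x : G | ∃ t ∈ T, x = v * t * v⁻¹ * t⁻¹} = (V ⊓ Subgroup.centralizer ((T : Subgroup G) : Set G)) := by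
  classical
  obtain ⟨D⟩ := exists_data n hF V L hnat hf S T hT
  have hW := D.inf_centralizer_T
  have hcomm : ⁅V, T⁆ = D.W := by
    apply le_antisymm
    · rw [Subgroup.commutator_le]
      intro v hv t ht
      rw [commutatorElement_def]
      exact (D.comm_mem hv ht).1
    · rintro w ⟨hwV, hw1⟩
      obtain ⟨v, hv, hv0, hv1⟩ := D.exists_V 0 1
      obtain ⟨t, ht, hr⟩ := D.exists_T (-(D.φ w 0))
      have hc := D.comm_mem hv ht
      have e : w = v * t * v⁻¹ * t⁻¹ := by
        apply D.φ_ext hwV hc.1.1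
        · rw [hc.2, hr, hv1]; simp
        · rw [hw1, hc.1.2]
      rw [e, ← commutatorElement_def]
      exact Subgroup.commutator_mem_commutator hv ht
  refine ⟨?_, ?_, ?_, ?_⟩
  · rw [hcomm, ← hW, eq_bot_iff, Subgroup.commutator_le]
    intro g hg t ht
    rw [Subgroup.mem_bot, commutatorElement_eq_one_iff_mul_comm]
    exact ((Subgroup.mem_centralizer_iff.mp hg.2) t ht).symm
  · have hb : Function.Bijective (fun v : V => D.φ v.1) := by
      constructor
      · intro v w h
        exact Subtype.ext (D.φ_inj v.1 v.2 w.1 w.2 h)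
      · intro x
        obtain ⟨v, hv, h⟩ := D.φ_surj x
        exact ⟨⟨v, hv⟩, h⟩
    rw [Nat.card_congr (Equiv.ofBijective _ hb), Nat.card_eq_fintype_card, Fintype.card_fun,
      Fintype.card_fin, hF, ← pow_mul, mul_comm]
  · rw [hW]
    have hb : Function.Bijective (fun w : D.W => D.φ w.1 0) := by
      constructor
      · intro v w h
        exact Subtype.ext (D.φ_ext v.2.1 w.2.1 h (by rw [v.2.2, w.2.2]))
      · intro a
        obtain ⟨v, hv, h0, h1⟩ := D.exists_V a 0
        exact ⟨⟨v, ⟨hv, h1⟩⟩, h0⟩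
    rw [Nat.card_congr (Equiv.ofBijective _ hb), Nat.card_eq_fintype_card, hF]
  · intro s hs hs1
    refine ⟨by rw [D.inf_centralizer_singleton hs hs1, hW], by rw [hcomm, hW], ?_, ?_⟩
    · rw [hW]
      apply le_antisymm
      · rw [← hcomm]
        exact Subgroup.commutator_mono le_rfl ((Subgroup.zpowers_le).mpr hs)
      · rintro w ⟨hwV, hw1⟩
        obtain ⟨v, hv, hv0, hv1⟩ := D.exists_V 0 (-(D.φ w 0) / Dk.eb (D.r s))
        have hc := D.comm_mem hv hs
        have hne := D.eb_ne_zero hs hs1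
        have e : w = v * s * v⁻¹ * s⁻¹ := by
          apply D.φ_ext hwV hc.1.1
          · rw [hc.2, hv1]; field_simp
          · rw [hw1, hc.1.2]
        rw [e, ← commutatorElement_def]
        exact Subgroup.commutator_mem_commutator hv (Subgroup.mem_zpowers s)
    · intro v hv hvT
      rw [hW]
      have hv1 : D.φ v 1 ≠ 0 := by
        intro h
        apply hvT
        have h2 : v ∈ D.W := ⟨hv, h⟩
        rw [← hW] at h2
        exact h2.2
      apply le_antisymm
      · rw [Subgroup.closure_le]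
        rintro x ⟨t, ht, rfl⟩
        exact (D.comm_mem hv ht).1
      · rintro w ⟨hwV, hw1⟩
        obtain ⟨t, ht, hr⟩ := D.exists_T (-(D.φ w 0) / D.φ v 1)
        have hc := D.comm_mem hv ht
        have e : w = v * t * v⁻¹ * t⁻¹ := by
          apply D.φ_ext hwV hc.1.1
          · rw [hc.2, hr]; simp; field_simp
          · rw [hw1, hc.1.2]
        rw [e]
        exact Subgroup.subset_closure ⟨t, ht, rfl⟩

end Cfsg.Agent.S2779
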