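import Cfsg.Statements.S2780
import Mathlib
import Cfsg.Agent.Lib.helper20.NatSL2

set_option autoImplicit false
open Cfsg
open Cfsg.Agent.Lib.helper15 Cfsg.Agent.Lib.helper20.NatSL2

namespace Cfsg.Agent.S2780

/-- Let L act on the elementary abelian p-group V (inside a finite group, faithfully) as SL₂(F) on its natural module, F a field with p^n elements, S a Sylow p-subgroup of L. Then: for every g ∈ L not normalizing S, V is the internal direct product of C_V(S) and C_V(gSg⁻¹); every nonidentity element of L of order prime to p acts on V without nonidentity fixed points; and C_V(S) and V/C_V(S) are irreducible for N_L(S): the only N_L(S)-invariant subgroups of C_V(S) are 1 and C_V(S), and the only N_L(S)-invariant subgroups between C_V(S) and V are those two. -/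
theorem result {G : Type*} [Group G] [Finite G] {p : ℕ} [Fact p.Prime] {F : Type*} [Field F] [Fintype F] (n : ℕ) (hF : Fintype.card F = p ^ n) (V L : Subgroup G) (hnat : Cfsg.IsNaturalSL2Module F V L) (hf : L ⊓ Subgroup.centralizer (V : Set G) = ⊥) (S : Sylow p ↥L) (T : Subgroup G) (hT : T = ((S : Subgroup ↥L).map L.subtype)) : (∀ g ∈ L, g ∉ Subgroup.normalizer (T : Set G) → Cfsg.IsInternalDirectProduct (V ⊓ Subgroup.centralizer ((T : Subgroup G) : Set G)) (V ⊓ Subgroup.centralizer ((T.map (MulAut.conj g).toMonoidHom : Subgroup G) : Set G)) V) ∧ (∀ x ∈ L, x ≠ 1 → (orderOf x).Coprime p → (V ⊓ Subgroup.centralizer ({x} : Set G)) = ⊥) ∧ (∀ U : Subgroup G, U ≤ (V ⊓ Subgroup.centralizer ((T : Subgroup G) : Set G)) → L ⊓ Subgroup.normalizer (T : Set G) ≤ Subgroup.normalizer (U : Set G) → U = ⊥ ∨ U = (V ⊓ Subgroup.centralizer ((T : Subgroup G) : Set G))) ∧ (∀ U : Subgroup G, (V ⊓ Subgroup.centralizer ((T : Subgroup G) : Set G)) ≤ U → U ≤ V → L ⊓ Subgroup.normalizer (T : Set G) ≤ Subgroup.normalizer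 (U : Set G) → U = (V ⊓ Subgroup.centralizer ((T : Subgroup G) : Set G)) ∨ U = V) := by
  classical
  obtain ⟨D⟩ := exists_data n hF V L hnat hf S T hT
  have hchar : CharP F p := charP_of_card hF
  have hW := D.inf_centralizer_T
  rw [hW]
  refine ⟨?_, ?_, ?_, ?_⟩
  · intro g hg hgN
    have hc : Dk.ec (D.r g) ≠ 0 := fun h => hgN (D.mem_normalizer hg h)
    have hmem : ∀ v, v ∈ V ⊓ Subgroup.centralizer
        ((T.map (MulAut.conj g).toMonoidHom : Subgroup G) : Set G) ↔
        v ∈ V ∧ Dk.ea (D.r g) * D.φ v 1 = Dk.ec (D.r g) * D.φ v 0 := by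
      intro v
      rw [Subgroup.mem_inf]
      constructor
      · rintro ⟨hv, h⟩
        exact ⟨hv, (D.mem_conj_cent hg hv).mp h⟩
      · rintro ⟨hv, h⟩
        exact ⟨hv, (D.mem_conj_cent hg hv).mpr h⟩
    refine ⟨D.W_le, inf_le_left, ?_, ?_, ?_⟩
    · intro a ha b hb
      exact D.V_comm ha.1 ((hmem b).mp hb).1
    · rw [eq_bot_iff]
      rintro v ⟨hv1, hv2⟩
      obtain ⟨hv, h1⟩ := hv1
      obtain ⟨-, h2⟩ := (hmem v).mp hv2
      rw [h1, mul_zero] at h2
      have h0 : D.φ v 0 = 0 := by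
        rcases mul_eq_zero.mp h2.symm with h3 | h3
        · exact absurd h3 hc
        · exact h3
      rw [Subgroup.mem_bot]
      exact D.eq_one_of_φ hv h0 h1
    · apply le_antisymm
      · exact sup_le D.W_le inf_le_left
      · intro v hv
        obtain ⟨w', hw', hw'0, hw'1⟩ := D.exists_V (Dk.ea (D.r g) * D.φ v 1 / Dk.ec (D.r g))
          (D.φ v 1)
        obtain ⟨w, hw, hw0, hw1⟩ := D.exists_V (D.φ v 0 - Dk.ea (D.r g) * D.φ v 1 / Dk.ec (D.r g))
          0
        have e : v = w * w' := by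
          apply D.φ_ext hv (V.mul_mem hw hw')
          · rw [D.φ_mul w hw w' hw', Pi.add_apply, hw0, hw'0]; ring
          · rw [D.φ_mul w hw w' hw', Pi.add_apply, hw1, hw'1]; ring
        rw [e]
        refine Subgroup.mul_mem_sup ⟨hw, hw1⟩ ((hmem w').mpr ⟨hw', ?_⟩)
        rw [hw'0, hw'1]
        field_simp
  · intro x hx hx1 hcop
    rw [eq_bot_iff]
    rintro v ⟨hv, hvc⟩
    rw [Subgroup.mem_bot]
    have hc : x * v = v * x := (Subgroup.mem_centralizer_iff.mp hvc) x rfl
    exact D.fixed_trivial hx hx1 hcop hv hc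
  · intro U hU hN
    by_cases hbot : U = ⊥
    · left; exact hbot
    · right
      apply le_antisymm hU
      obtain ⟨u, hu1⟩ := (Subgroup.ne_bot_iff_exists_ne_one.mp hbot)
      have huU : (u : G) ∈ U := u.2
      have huW := hU huU
      have hu0 : D.φ (u : G) 0 ≠ 0 := by
        intro h
        apply hu1
        exact Subtype.ext (D.eq_one_of_φ huW.1 h huW.2)
      rintro w ⟨hwV, hw1⟩
      by_cases hw0 : D.φ w 0 = 0
      · rw [D.eq_one_of_φ hwV hw0 hw1]
        exact U.one_mem
      · have ha : D.φ w 0 / D.φ (u : G) 0 ≠ 0 := div_ne_zero hw0 hu0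
        obtain ⟨h, hh, hact⟩ := D.exists_torus ha
        have hmemU : h * (u : G) * h⁻¹ ∈ U := (Subgroup.mem_normalizer_iff.mp (hN hh) _).mp huU
        obtain ⟨e0, e1⟩ := hact _ huW.1
        have e : w = h * (u : G) * h⁻¹ := by
          apply D.φ_ext hwV (D.conj h hh.1 _ huW.1).1
          · rw [e0]; field_simp
          · rw [e1, hw1, huW.2, mul_zero]
        rw [e]
        exact hmemU
  · intro U hWU hUV hN
    by_cases hle : U ≤ D.W
    · left; exact le_antisymm hle hWU
    · right
      apply le_antisymm hUV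
      obtain ⟨u, huU, huW⟩ := SetLike.not_le_iff_exists.mp hle
      have huV := hUV huU
      have hu1 : D.φ u 1 ≠ 0 := fun h => huW ⟨huV, h⟩
      intro v hv
      by_cases hv1 : D.φ v 1 = 0
      · exact hWU ⟨hv, hv1⟩
      · have ha : D.φ u 1 / D.φ v 1 ≠ 0 := div_ne_zero hu1 hv1
        obtain ⟨h, hh, hact⟩ := D.exists_torus ha
        have hmemU : h * u * h⁻¹ ∈ U := (Subgroup.mem_normalizer_iff.mp (hN hh) _).mp huU
        obtain ⟨e0, e1⟩ := hact _ huV
        have hmV := (D.conj h hh.1 _ huV).1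
        have hw : v * (h * u * h⁻¹)⁻¹ ∈ D.W := by
          refine ⟨V.mul_mem hv (V.inv_mem hmV), ?_⟩
          rw [D.φ_mul v hv _ (V.inv_mem hmV), Pi.add_apply, D.φ_inv hmV, Pi.neg_apply, e1]
          field_simp
          ring
        have e : v = v * (h * u * h⁻¹)⁻¹ * (h * u * h⁻¹) := by group
        rw [e]
        exact U.mul_mem (hWU hw) hmemU

end Cfsg.Agent.S2780
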