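import Cfsg.Statements.S2807
import Cfsg.Agent.Lib.helper7.YoshidaWr

set_option autoImplicit false
open Cfsg

namespace Cfsg.Agent.S2807

/-- Let S be a Sylow p-subgroup of the finite group G. If S ∩ G' ≠ S ∩ (N_G(S))' (derived subgroups), then the wreath product Z_p ≀ Z_p — realised as a Sylow p-subgroup of the symmetric group of degree p² — is a homomorphic image of S. -/
theorem result {G : Type*} [Group G] [Finite G] {p : ℕ} [Fact p.Prime] (S : Sylow p G) (h : (S : Subgroup G) ⊓ commutator G ≠ (S : Subgroup G) ⊓ ⁅Subgroup.normalizer ((S : Subgroup G) : Set G), Subgroup.normalizer ((S : Subgroup G) : Set G)⁆) : ∃ (P : Sylow p (Equiv.Perm (Fin (p ^ 2)))) (f : ↥(S : Subgroup G) →* ↥(P : Subgroup (Equiv.Perm (Fin (p ^ 2))))), Function.Surjective f := by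
  have hwc : Cfsg.IsWeaklyClosed (S : Subgroup G) (S : Subgroup G) := by
    refine ⟨le_rfl, fun g hg => ?_⟩
    apply Subgroup.eq_of_le_of_card_ge hg
    rw [Subgroup.card_map_of_injective (MulAut.conj g).injective]
  have key : ∃ x ∈ (S : Subgroup G), ∃ z ∈ (S : Subgroup G),
      ∃ W₀ : Subgroup ↥(S : Subgroup G), IsCoatom W₀ ∧
        (fun y : G => y⁻¹ * z⁻¹ * y * z)^[p - 1] x ∈ W₀.map (S : Subgroup G).subtype ∧
        (fun y : G => y⁻¹ * z⁻¹ * y * z)^[p - 1] x ∉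
          ((frattini ↥W₀).map W₀.subtype).map (S : Subgroup G).subtype := by
    by_contra hcon
    push Not at hcon
    apply h
    apply le_antisymm
    · exact le_inf inf_le_left
        (Cfsg.Agent.Lib.helper7.Yoshida.focal_le S (S : Subgroup G) hwc hcon)
    · apply inf_le_inf_left
      rw [commutator_def]
      exact Subgroup.commutator_mono le_top le_top
  obtain ⟨x, hx, z, hz, S₀, hS₀, hc, hcΦ⟩ := key
  have hiter : ∀ k : ℕ,
      (((fun y : ↥(S : Subgroup G) => y⁻¹ * (⟨z, hz⟩ : ↥(S : Subgroup G))⁻¹ * y * ⟨z, hz⟩)^[k]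
        ⟨x, hx⟩ : ↥(S : Subgroup G)) : G) = (fun y : G => y⁻¹ * z⁻¹ * y * z)^[k] x := by
    intro k
    induction k with
    | zero => rfl
    | succ k ih =>
      rw [Function.iterate_succ_apply', Function.iterate_succ_apply', ← ih]
      rfl
  apply Cfsg.Agent.Lib.helper7.Yoshida.wreath_image S.isPGroup' S₀ hS₀ ⟨x, hx⟩ ⟨z, hz⟩
  · obtain ⟨a, ha, hae⟩ := hc
    have h1 : a = (fun y : ↥(S : Subgroup G) =>
        y⁻¹ * (⟨z, hz⟩ : ↥(S : Subgroup G))⁻¹ * y * ⟨z, hz⟩)^[p - 1] ⟨x, hx⟩ :=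
      Subtype.ext (hae.trans (hiter (p - 1)).symm)
    rw [← h1]; exact ha
  · intro hmem
    apply hcΦ
    obtain ⟨b, hb, hbe⟩ := hmem
    refine ⟨S₀.subtype b, ⟨b, hb, rfl⟩, ?_⟩
    rw [hbe]
    exact hiter (p - 1)

end Cfsg.Agent.S2807
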