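import Cfsg.Statements.S2946
import Mathlib
import Cfsg.Agent.S1851
import Cfsg.Agent.Lib.helper3.JComp
import Cfsg.Agent.Lib.helper3.Thompson
import Cfsg.Agent.Lib.helper3.Basic
import Cfsg.Agent.Lib.helper14.Large
import Cfsg.Agent.Lib.helper14.PReduced
import Cfsg.Agent.Lib.helper14.PGroupFrattini
import Cfsg.Agent.Lib.helper14.Trace
import Cfsg.Agent.Lib.helper14.WeaklyClosed4
import Cfsg.Agent.Lib.helper14.PIrred
import Cfsg.Agent.Lib.helper14.Amalgam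

set_option autoImplicit false
open Cfsg

namespace Cfsg.Agent.S2946

open Cfsg.Agent.Lib.helper14
open scoped commutatorElement

universe u

/-! ### Elementary helper lemmas -/

theorem mem_sup_decomp {G : Type*} [Group G] (K J : Subgroup G)
    (hJK : J ≤ Subgroup.normalizer (K : Set G)) {x : G} (hx : x ∈ K ⊔ J) :
    ∃ k ∈ K, ∃ j ∈ J, x = k * j := by
  have hconj : ∀ j ∈ J, ∀ k ∈ K, j * k * j⁻¹ ∈ K := fun j hj k hk =>
    (Subgroup.mem_normalizer_iff.1 (hJK hj) k).1 hk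
  rw [Subgroup.sup_eq_closure] at hx
  induction hx using Subgroup.closure_induction with
  | mem y hy =>
    rcases hy with hy | hy
    · exact ⟨y, hy, 1, J.one_mem, (mul_one y).symm⟩
    · exact ⟨1, K.one_mem, y, hy, (one_mul y).symm⟩
  | one => exact ⟨1, K.one_mem, 1, J.one_mem, (mul_one 1).symm⟩
  | mul y z _ _ hy hz =>
    obtain ⟨k₁, hk₁, j₁, hj₁, rfl⟩ := hy
    obtain ⟨k₂, hk₂, j₂, hj₂, rfl⟩ := hz
    exact ⟨k₁ * (j₁ * k₂ * j₁⁻¹), K.mul_mem hk₁ (hconj j₁ hj₁ k₂ hk₂), j₁ * j₂,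
      J.mul_mem hj₁ hj₂, by group⟩
  | inv y _ hy =>
    obtain ⟨k, hk, j, hj, rfl⟩ := hy
    exact ⟨j⁻¹ * k⁻¹ * j⁻¹⁻¹, hconj j⁻¹ (J.inv_mem hj) k⁻¹ (K.inv_mem hk), j⁻¹,
      J.inv_mem hj, by group⟩

/-- `A` is an elementary abelian 2-subgroup of `S` of largest possible order. -/
def MaxEA {G : Type u} [Group G] (S A : Subgroup G) : Prop :=
  A ≤ S ∧ IsElementaryAbelian 2 A ∧
    ∀ B : Subgroup G, B ≤ S → IsElementaryAbelian 2 B → Nat.card B ≤ Nat.card A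

theorem maxEA_le_thompson {G : Type u} [Group G] {S A : Subgroup G} (h : MaxEA S A) :
    A ≤ thompsonSubgroupOf 2 S := by
  obtain ⟨hAS, hA, hmax⟩ := h
  have hmem : A.subgroupOf S ∈ maxElementaryAbelianSubgroups 2 ↥S := by
    refine ⟨Cfsg.Agent.Lib.helper3.isEA_comap 2 S.subtype S.subtype_injective hA, ?_⟩
    intro B hB
    have h1 := hmax (B.map S.subtype) (Subgroup.map_subtype_le B)
      (Cfsg.Agent.Lib.helper3.isEA_map 2 S.subtype hB)
    rw [Subgroup.card_map_of_injective S.subtype_injective] at h1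
    have h2 : Nat.card (A.subgroupOf S) = Nat.card A :=
      Nat.card_congr (Subgroup.subgroupOfEquivOfLe hAS).toEquiv
    rw [h2]; exact h1
  have h3 := Cfsg.Agent.Lib.helper3.le_thompson hmem
  intro a ha
  unfold thompsonSubgroupOf
  exact Subgroup.mem_map.2 ⟨⟨a, hAS ha⟩, h3 (Subgroup.mem_subgroupOf.2 ha), rfl⟩

theorem thompson_le_of_maxEA {G : Type u} [Group G] (S C : Subgroup G)
    (h : ∀ A, MaxEA S A → A ≤ C) : thompsonSubgroupOf 2 S ≤ C := by
  unfold thompsonSubgroupOf thompsonSubgroup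
  rw [Subgroup.map_le_iff_le_comap]
  apply sSup_le
  intro A hA
  have hA' : MaxEA S (A.map S.subtype) := by
    refine ⟨Subgroup.map_subtype_le A, Cfsg.Agent.Lib.helper3.isEA_map 2 S.subtype hA.1, ?_⟩
    intro B hBS hB
    have h1 := hA.2 (B.subgroupOf S)
      (Cfsg.Agent.Lib.helper3.isEA_comap 2 S.subtype S.subtype_injective hB)
    rw [Subgroup.card_map_of_injective S.subtype_injective]
    have h2 : Nat.card (B.subgroupOf S) = Nat.card B :=
      Nat.card_congr (Subgroup.subgroupOfEquivOfLe hBS).toEquiv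
    rw [← h2]; exact h1
  intro a ha
  rw [Subgroup.mem_comap]
  exact h _ hA' (Subgroup.mem_map_of_mem _ ha)

theorem le_of_index_three {G : Type*} [Group G] [Finite G] (K P R : Subgroup G)
    (hidx : P.relIndex K = 3) (hPR : P ≤ R) (hRK : R ≤ K) (hR : IsPGroup 2 R) : R ≤ P := by
  have h1 := Subgroup.relIndex_mul_relIndex P R K hPR hRK
  rw [hidx] at h1
  have h2 := Cfsg.Agent.Lib.helper3.card_mul_relIndex_of_le hPR
  obtain ⟨n, hn⟩ := (IsPGroup.iff_card).1 hR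
  have h3 : P.relIndex R ∣ 3 := Dvd.intro _ h1
  have h4 : P.relIndex R ∣ 2 ^ n := by rw [← hn, ← h2]; exact Dvd.intro_left _ rfl
  have h5 : P.relIndex R = 1 := by
    have h6 : P.relIndex R ∣ Nat.gcd 3 (2 ^ n) := Nat.dvd_gcd h3 h4
    have hc : Nat.gcd 3 (2 ^ n) = 1 := Nat.Coprime.pow_right n (by norm_num)
    rw [hc] at h6
    exact Nat.dvd_one.1 h6
  exact Subgroup.relIndex_eq_one.1 h5

theorem index_three_cases {G : Type*} [Group G] [Finite G] (K P D : Subgroup G)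
    (hidx : P.relIndex K = 3) (hPD : P ≤ D) (hDK : D ≤ K) : D ≤ P ∨ K ≤ D := by
  have h1 := Subgroup.relIndex_mul_relIndex P D K hPD hDK
  rw [hidx] at h1
  have h3 : P.relIndex D ∣ 3 := Dvd.intro _ h1
  rcases (Nat.dvd_prime Nat.prime_three).1 h3 with h | h
  · left; exact Subgroup.relIndex_eq_one.1 h
  · right
    rw [h] at h1
    have h4 : D.relIndex K = 1 := by omega
    exact Subgroup.relIndex_eq_one.1 h4

theorem card_two_of {G : Type*} [Group G] [Finite G] (W F : Subgroup G) (hFW : F ≤ W)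
    (hW : Nat.card W = 4) (h1 : F ≠ ⊥) (h2 : F ≠ W) : Nat.card F = 2 := by
  have hd : Nat.card F ∣ 4 := hW ▸ Subgroup.card_dvd_of_le hFW
  have hle : Nat.card F ≤ 4 := Nat.le_of_dvd (by norm_num) hd
  have hne1 : Nat.card F ≠ 1 := fun h => h1 (Subgroup.card_eq_one.1 h)
  have hne4 : Nat.card F ≠ 4 := fun h => h2 (Subgroup.eq_of_le_of_card_ge hFW (by rw [hW, h]))
  have hpos : 0 < Nat.card F := Nat.card_pos
  generalize Nat.card F = n at hd hle hne1 hne4 hpos ⊢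
  interval_cases n <;> first | rfl | omega

theorem mul_mem_of_index_two {G : Type*} [Group G] [Finite G] (W F : Subgroup G) (hFW : F ≤ W)
    (hF : Nat.card F = 2) (hW : Nat.card W = 4) {a b : G} (ha : a ∈ W) (hb : b ∈ W)
    (ha' : a ∉ F) (hb' : b ∉ F) : a * b ∈ F := by
  have hidx : (F.subgroupOf W).index = 2 := by
    have h1 := Cfsg.Agent.Lib.helper3.card_mul_relIndex_of_le hFW
    rw [hF, hW] at h1
    show F.relIndex W = 2
    omega
  have h2 := (Subgroup.mul_mem_iff_of_index_two hidx (a := (⟨a, ha⟩ : ↥W)) (b := ⟨b, hb⟩))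
  rw [Subgroup.mem_subgroupOf, Subgroup.mem_subgroupOf, Subgroup.mem_subgroupOf] at h2
  exact h2.2 ⟨fun h => absurd h ha', fun h => absurd h hb'⟩

theorem comm_mem_of_index_two {G : Type*} [Group G] [Finite G] (W F : Subgroup G) (hFW : F ≤ W)
    (hF : Nat.card F = 2) (hW : Nat.card W = 4) (g : G)
    (hg : g ∈ Subgroup.normalizer (W : Set G))
    (hgF : ∀ f ∈ F, g * f * g⁻¹ = f) (v : G) (hv : v ∈ W) : g * v * g⁻¹ * v⁻¹ ∈ F := by
  by_cases hvF : v ∈ F
  · rw [hgF v hvF, mul_inv_cancel]; exact F.one_mem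
  · have h1 : g * v * g⁻¹ ∈ W := (Subgroup.mem_normalizer_iff.1 hg v).1 hv
    have h2 : g * v * g⁻¹ ∉ F := by
      intro h
      have h3 := hgF _ h
      have e : g * v * g⁻¹ = v := by
        apply mul_left_cancel (a := g)
        apply mul_right_cancel (b := g⁻¹)
        exact h3
      rw [e] at h
      exact hvF h
    exact mul_mem_of_index_two W F hFW hF hW h1 (W.inv_mem hv) h2
      (fun h => hvF (by simpa using F.inv_mem h))

/-- A subgroup generated by odd-order elements acts fixed-point-freely on the four-group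
`[V, K]`. -/
theorem inf_cent_bot {G : Type*} [Group G] [Finite G] (K V : Subgroup G)
    (hodd : Subgroup.closure {g : G | g ∈ K ∧ Odd (orderOf g)} = K)
    (hKV : K ≤ Subgroup.normalizer (V : Set G))
    (hV2 : ∀ z ∈ ⁅V, K⁆, z * z = 1) (hW4 : Nat.card ↥(⁅V, K⁆) = 4) :
    ⁅V, K⁆ ⊓ Subgroup.centralizer (K : Set G) = ⊥ := by
  by_contra hne
  obtain ⟨W, hWdef⟩ : ∃ W : Subgroup G, W = ⁅V, K⁆ := ⟨_, rfl⟩
  rw [← hWdef] at hne hV2 hW4
  obtain ⟨F, hFdef⟩ : ∃ F : Subgroup G, F = W ⊓ Subgroup.centralizer (K : Set G) := ⟨_, rfl⟩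
  rw [← hFdef] at hne
  have hFW : F ≤ W := hFdef ▸ inf_le_left
  have hFC : F ≤ Subgroup.centralizer (K : Set G) := hFdef ▸ inf_le_right
  have hKW : K ≤ Subgroup.normalizer (W : Set G) := by
    rw [hWdef]
    exact le_normalizer_commutator V K K hKV Subgroup.le_normalizer
  -- commutators with `W` land in `F`
  have hcomm : ∀ y ∈ K, ∀ v ∈ W, y * v * y⁻¹ * v⁻¹ ∈ F := by
    intro y hy v hv
    by_cases hFeq : F = W
    · have hvC : v ∈ Subgroup.centralizer (K : Set G) := hFC (hFeq ▸ hv)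
      have h1 : y * v = v * y := (Subgroup.mem_centralizer_iff.1 hvC) y hy
      have h2 : y * v * y⁻¹ * v⁻¹ = 1 := by rw [h1]; group
      rw [h2]; exact F.one_mem
    · have hF2 : Nat.card F = 2 := card_two_of W F hFW hW4 hne hFeq
      apply comm_mem_of_index_two W F hFW hF2 hW4 y (hKW hy) _ v hv
      intro f hf
      have h1 : y * f = f * y := (Subgroup.mem_centralizer_iff.1 (hFC hf)) y hy
      rw [h1]; group
  -- odd-order elements of `K` centralize `W`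
  have hoddW : ∀ y ∈ K, Odd (orderOf y) → ∀ v ∈ W, y * v * y⁻¹ = v := by
    intro y hy hyo v hv
    have hc := hcomm y hy v hv
    apply Cfsg.Agent.S1851.kc y v (orderOf y) 1 hyo (pow_orderOf_eq_one y)
    · have h1 : y * (y * v * y⁻¹ * v⁻¹) = (y * v * y⁻¹ * v⁻¹) * y :=
        (Subgroup.mem_centralizer_iff.1 (hFC hc)) y hy
      rw [h1]; group
    · rw [pow_one, pow_two]
      exact hV2 _ (hFW hc)
  have hKCW : K ≤ Subgroup.centralizer (W : Set G) := by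
    rw [← hodd, Subgroup.closure_le]
    intro y hy
    rw [SetLike.mem_coe, Subgroup.mem_centralizer_iff]
    intro v hv
    have h1 := hoddW y hy.1 hy.2 v hv
    calc v * y = y * v * y⁻¹ * y := by rw [h1]
      _ = y * v := by group
  -- odd-order elements of `K` centralize `V`
  have hoddV : ∀ y ∈ K, Odd (orderOf y) → ∀ z ∈ V, y * z * y⁻¹ = z := by
    intro y hy hyo z hz
    have hc : y * z * y⁻¹ * z⁻¹ ∈ W := by
      rw [hWdef, Subgroup.commutator_comm]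
      exact Subgroup.commutator_mem_commutator hy hz
    apply Cfsg.Agent.S1851.kc y z (orderOf y) 1 hyo (pow_orderOf_eq_one y)
    · have h1 : (y * z * y⁻¹ * z⁻¹) * y = y * (y * z * y⁻¹ * z⁻¹) :=
        (Subgroup.mem_centralizer_iff.1 (hKCW hy)) _ hc
      rw [← h1]; group
    · rw [pow_one, pow_two]
      exact hV2 _ hc
  have hKCV : K ≤ Subgroup.centralizer (V : Set G) := by
    rw [← hodd, Subgroup.closure_le]
    intro y hy
    rw [SetLike.mem_coe, Subgroup.mem_centralizer_iff]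
    intro v hv
    have h1 := hoddV y hy.1 hy.2 v hv
    calc v * y = y * v * y⁻¹ * y := by rw [h1]
      _ = y * v := by group
  have hbot : W = ⊥ := by
    rw [hWdef, Subgroup.commutator_eq_bot_iff_le_centralizer, Subgroup.le_centralizer_iff]
    exact hKCV
  rw [hbot, Subgroup.card_bot] at hW4
  omega

/-- Replacement: a largest elementary abelian subgroup not centralizing the four-group `W`
can be replaced by one containing `W`. -/
theorem replace_maxEA {G : Type u} [Group G] [Finite G] (S W A : Subgroup G)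
    (hS : IsPGroup 2 S) (hWS : W ≤ S) (hSW : S ≤ Subgroup.normalizer (W : Set G))
    (hW4 : Nat.card W = 4) (hW2 : ∀ w ∈ W, w * w = 1) (hWab : ∀ a ∈ W, ∀ b ∈ W, a * b = b * a)
    (hA : MaxEA S A) (hAW : ¬ A ≤ Subgroup.centralizer (W : Set G)) :
    MaxEA S ((A ⊓ Subgroup.centralizer (W : Set G)) ⊔ W) := by
  obtain ⟨hAS, hAE, hAmax⟩ := hA
  have hAE' := (Cfsg.Agent.Lib.helper3.isEA_iff 2 A).1 hAE
  obtain ⟨a, haA, haW⟩ := SetLike.not_le_iff_exists.1 hAW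
  obtain ⟨Fa, hFa⟩ : ∃ Fa : Subgroup G,
      Fa = W ⊓ Subgroup.centralizer ((Subgroup.zpowers a : Subgroup G) : Set G) := ⟨_, rfl⟩
  have hWp : IsPGroup 2 W := hS.to_le hWS
  have hW1 : W ≠ ⊥ := by
    intro h; rw [h, Subgroup.card_bot] at hW4; omega
  have haS : a ∈ S := hAS haA
  have haN : Subgroup.zpowers a ≤ Subgroup.normalizer (W : Set G) := by
    rw [Subgroup.zpowers_le]; exact hSW haS
  have hFa1 : Fa ≠ ⊥ := by
    rw [hFa]
    exact inf_centralizer_ne_bot_of_le_normalizer W (Subgroup.zpowers a) hWp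
      (hS.to_le (by rw [Subgroup.zpowers_le]; exact haS)) hW1 haN
  have hFaW : Fa ≤ W := hFa ▸ inf_le_left
  have hmemFa : ∀ w, w ∈ Fa ↔ w ∈ W ∧ a * w * a⁻¹ = w := by
    intro w
    rw [hFa, Subgroup.mem_inf, Subgroup.mem_centralizer_iff]
    constructor
    · rintro ⟨h1, h2⟩
      refine ⟨h1, ?_⟩
      have h3 := h2 a (Subgroup.mem_zpowers a)
      rw [h3]; group
    · rintro ⟨h1, h2⟩
      refine ⟨h1, ?_⟩
      intro h hh
      obtain ⟨n, rfl⟩ := Subgroup.mem_zpowers_iff.1 hh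
      have hc : Commute a w := by
        show a * w = w * a
        calc a * w = a * w * a⁻¹ * a := by group
          _ = w * a := by rw [h2]
      exact (hc.zpow_left n).eq
  have hFaW' : Fa ≠ W := by
    intro h
    apply haW
    rw [Subgroup.mem_centralizer_iff]
    intro w hw
    have h1 := ((hmemFa w).1 (h ▸ hw)).2
    calc w * a = a * w * a⁻¹ * a := by rw [h1]
      _ = a * w := by group
  have hFa2 : Nat.card Fa = 2 := card_two_of W Fa hFaW hW4 hFa1 hFaW'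
  obtain ⟨f, hf1, hfuniq⟩ := (Nat.card_eq_two_iff' (1 : ↥Fa)).1 hFa2
  have huniq : ∀ x ∈ Fa, ∀ y ∈ Fa, x ≠ 1 → y ≠ 1 → x = y := by
    intro x hx y hy hx1 hy1
    have e1 := hfuniq ⟨x, hx⟩ (fun h => hx1 ((Subgroup.mk_eq_one _).1 h))
    have e2 := hfuniq ⟨y, hy⟩ (fun h => hy1 ((Subgroup.mk_eq_one _).1 h))
    exact congrArg Subtype.val (e1.trans e2.symm)
  have hAN : ∀ a' ∈ A, a' ∈ Subgroup.normalizer (W : Set G) := fun a' ha' => hSW (hAS ha')
  -- every element of `A` fixes `Fa` pointwise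
  have hAfix : ∀ a' ∈ A, ∀ w ∈ Fa, a' * w * a'⁻¹ = w := by
    intro a' ha' w hw
    by_cases hw1 : w = 1
    · rw [hw1]; group
    · have hwW := ((hmemFa w).1 hw)
      have h1 : a' * w * a'⁻¹ ∈ Fa := by
        rw [hmemFa]
        refine ⟨(Subgroup.mem_normalizer_iff.1 (hAN a' ha') w).1 hwW.1, ?_⟩
        have hc : a * a' = a' * a := hAE'.1 a haA a' ha'
        calc a * (a' * w * a'⁻¹) * a⁻¹ = (a * a') * w * (a * a')⁻¹ := by group
          _ = (a' * a) * w * (a' * a)⁻¹ := by rw [hc]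
          _ = a' * (a * w * a⁻¹) * a'⁻¹ := by group
          _ = a' * w * a'⁻¹ := by rw [hwW.2]
      apply huniq _ h1 _ hw _ hw1
      intro h
      apply hw1
      have e : w = a'⁻¹ * (a' * w * a'⁻¹) * a' := by group
      rw [e, h]; group
  obtain ⟨v₀, hv₀W, hv₀F⟩ : ∃ v₀ ∈ W, v₀ ∉ Fa := by
    by_contra hcon
    push Not at hcon
    exact hFaW' (le_antisymm hFaW hcon)
  have hfixall : ∀ g : G, (∀ w ∈ Fa, g * w * g⁻¹ = w) → g * v₀ * g⁻¹ = v₀ →
      g ∈ Subgroup.centralizer (W : Set G) := by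
    intro g hg1 hg2
    rw [Subgroup.mem_centralizer_iff]
    intro w hw
    have key : g * w * g⁻¹ = w := by
      by_cases hwF : w ∈ Fa
      · exact hg1 w hwF
      · have h1 : w * v₀⁻¹ ∈ Fa :=
          mul_mem_of_index_two W Fa hFaW hFa2 hW4 hw (W.inv_mem hv₀W) hwF
            (fun h => hv₀F (by simpa using Fa.inv_mem h))
        have h2 := hg1 _ h1
        calc g * w * g⁻¹ = (g * (w * v₀⁻¹) * g⁻¹) * (g * v₀ * g⁻¹) := by group
          _ = (w * v₀⁻¹) * v₀ := by rw [h2, hg2]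
          _ = w := by group
    calc w * g = g * w * g⁻¹ * g := by rw [key]
      _ = g * w := by group
  have hca : a * v₀ * a⁻¹ * v₀⁻¹ ∈ Fa :=
    comm_mem_of_index_two W Fa hFaW hFa2 hW4 a (hAN a haA) (hAfix a haA) v₀ hv₀W
  have hca1 : a * v₀ * a⁻¹ * v₀⁻¹ ≠ 1 := by
    intro h
    apply haW
    apply hfixall a (hAfix a haA)
    calc a * v₀ * a⁻¹ = (a * v₀ * a⁻¹ * v₀⁻¹) * v₀ := by group
      _ = v₀ := by rw [h, one_mul]
  obtain ⟨A₀, hA₀⟩ : ∃ A₀ : Subgroup G, A₀ = A ⊓ Subgroup.centralizer (W : Set G) := ⟨_, rfl⟩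
  have hsplit : ∀ a' ∈ A, a' ∈ A₀ ∨ a⁻¹ * a' ∈ A₀ := by
    intro a' ha'
    have hc' : a' * v₀ * a'⁻¹ * v₀⁻¹ ∈ Fa :=
      comm_mem_of_index_two W Fa hFaW hFa2 hW4 a' (hAN a' ha') (hAfix a' ha') v₀ hv₀W
    by_cases h1 : a' * v₀ * a'⁻¹ * v₀⁻¹ = 1
    · left
      rw [hA₀]
      refine Subgroup.mem_inf.2 ⟨ha', hfixall a' (hAfix a' ha') ?_⟩
      calc a' * v₀ * a'⁻¹ = (a' * v₀ * a'⁻¹ * v₀⁻¹) * v₀ := by group
        _ = v₀ := by rw [h1, one_mul]
    · right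
      have e := huniq _ hc' _ hca h1 hca1
      have e2 : a' * v₀ * a'⁻¹ = a * v₀ * a⁻¹ := by
        calc a' * v₀ * a'⁻¹ = (a' * v₀ * a'⁻¹ * v₀⁻¹) * v₀ := by group
          _ = (a * v₀ * a⁻¹ * v₀⁻¹) * v₀ := by rw [e]
          _ = a * v₀ * a⁻¹ := by group
      have hmem : a⁻¹ * a' ∈ A := A.mul_mem (A.inv_mem haA) ha'
      rw [hA₀]
      refine Subgroup.mem_inf.2 ⟨hmem, hfixall _ (hAfix _ hmem) ?_⟩
      calc a⁻¹ * a' * v₀ * (a⁻¹ * a')⁻¹ = a⁻¹ * (a' * v₀ * a'⁻¹) * a := by group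
        _ = a⁻¹ * (a * v₀ * a⁻¹) * a := by rw [e2]
        _ = v₀ := by group
  have hcard1 : Nat.card A ≤ 2 * Nat.card A₀ := by
    have h1 : Nat.card A = (A : Set G).ncard := (Nat.card_coe_set_eq _).symm
    have h2 : Nat.card A₀ = (A₀ : Set G).ncard := (Nat.card_coe_set_eq _).symm
    have hsub : (A : Set G) ⊆ (A₀ : Set G) ∪ (fun x => a * x) '' (A₀ : Set G) := by
      intro a' ha'
      rcases hsplit a' ha' with h | h
      · left; exact h
      · right; exact ⟨a⁻¹ * a', h, by group⟩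
    have h3 := Set.ncard_le_ncard hsub (Set.toFinite _)
    have h4 := Set.ncard_union_le (A₀ : Set G) ((fun x => a * x) '' (A₀ : Set G))
    have h5 := Set.ncard_image_le (f := fun x => a * x) (Set.toFinite (A₀ : Set G))
    rw [h1, h2]; omega
  have hA₀A : A₀ ≤ A := hA₀ ▸ inf_le_left
  have hA₀C : A₀ ≤ Subgroup.centralizer (W : Set G) := hA₀ ▸ inf_le_right
  have hinf : Nat.card (A₀ ⊓ W : Subgroup G) ≤ 2 := by
    rw [← hFa2]
    apply Subgroup.card_le_of_le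
    intro x hx
    rw [hmemFa]
    refine ⟨(Subgroup.mem_inf.1 hx).2, ?_⟩
    have hc : a * x = x * a := hAE'.1 a haA x (hA₀A (Subgroup.mem_inf.1 hx).1)
    rw [hc]; group
  have hcard2 := Cfsg.Agent.Lib.helper3.card_mul_card_le A₀ W
  rw [hW4] at hcard2
  have hcard3 : Nat.card A ≤ Nat.card (A₀ ⊔ W : Subgroup G) := by
    have h6 : Nat.card (A₀ ⊔ W : Subgroup G) * Nat.card (A₀ ⊓ W : Subgroup G) ≤
        Nat.card (A₀ ⊔ W : Subgroup G) * 2 := Nat.mul_le_mul_left _ hinf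
    omega
  rw [← hA₀]
  refine ⟨sup_le (hA₀A.trans hAS) hWS, ?_, ?_⟩
  · apply Cfsg.Agent.Lib.helper3.isEA_sup 2 (Cfsg.Agent.Lib.helper3.isEA_of_le 2 hA₀A hAE)
      ((Cfsg.Agent.Lib.helper3.isEA_iff 2 W).2
        ⟨hWab, fun w hw => by rw [pow_two]; exact hW2 w hw⟩)
    intro x hx w hw
    exact ((Subgroup.mem_centralizer_iff.1 (hA₀C hx)) w hw).symm
  · intro B hBS hB
    exact (hAmax B hBS hB).trans hcard3

/-! ### The main argument, for an abstract 2-subgroup `J` -/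

theorem core {G : Type u} [Group G] [Finite G] (J K : Subgroup G) (hJ2 : IsPGroup 2 J)
    (hodd : Subgroup.closure {g : G | g ∈ K ∧ Odd (orderOf g)} = K)
    (hKJ : ⁅K, J⁆ = K)
    (hidx : (pCoreOf 2 K).relIndex K = 3)
    (hsyl : ∀ S : Subgroup G, IsSylowTwoIn S (K ⊔ J) → J ≤ S → thompsonSubgroupOf 2 S = J)
    (hW4 : Nat.card ↥(wOf K) = 4) (hW2 : ∀ w ∈ wOf K, w * w = 1) :
    Nat.card ↥(omegaCenterOf J ⊓ wOf K) = 2 ∧
      (omegaCenterOf J ⊓ ((K ⊔ J) ⊓ Subgroup.centralizer ((K ⊔ J : Subgroup G) : Set G))) ⊔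
        (omegaCenterOf J ⊓ wOf K) = omegaCenterOf J := by
  obtain ⟨P, hP⟩ : ∃ P : Subgroup G, P = pCoreOf 2 K := ⟨_, rfl⟩
  obtain ⟨ZP, hZP⟩ : ∃ ZP : Subgroup G,
      ZP = omegaOne 2 (P ⊓ Subgroup.centralizer (P : Set G)) := ⟨_, rfl⟩
  obtain ⟨W, hW⟩ : ∃ W : Subgroup G, W = ⁅ZP, K⁆ := ⟨_, rfl⟩
  have hWK : wOf K = W := by rw [hW, hZP, hP]; rfl
  obtain ⟨Z₀, hZ₀⟩ : ∃ Z₀ : Subgroup G,
      Z₀ = omegaOne 2 (J ⊓ Subgroup.centralizer (J : Set G)) := ⟨_, rfl⟩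
  have hZ₀J : omegaCenterOf J = Z₀ := by rw [hZ₀]; rfl
  rw [hWK] at hW4 hW2 ⊢
  rw [hZ₀J]
  rw [← hP] at hidx
  obtain ⟨X, hX⟩ : ∃ X : Subgroup G, X = K ⊔ J := ⟨_, rfl⟩
  rw [← hX] at hsyl ⊢
  -- Step 1: normalizers
  have hJK : J ≤ Subgroup.normalizer (K : Set G) := by
    apply le_normalizer_of_conj_mem K J
    intro j hj x hx
    have hx' : x ∈ ⁅K, J⁆ := by rw [hKJ]; exact hx
    have h1 := Cfsg.Agent.Lib.helper3.conj_mem_commutator_right hj hx'
    rw [hKJ] at h1; exact h1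
  have hXK : X ≤ Subgroup.normalizer (K : Set G) := by
    rw [hX]; exact sup_le Subgroup.le_normalizer hJK
  have hKX : K ≤ X := hX ▸ le_sup_left
  have hJX : J ≤ X := hX ▸ le_sup_right
  have hXP : X ≤ Subgroup.normalizer (P : Set G) := by
    rw [hP]; exact le_normalizer_pCoreOf_of_le_normalizer 2 K X hXK
  have hXZP : X ≤ Subgroup.normalizer (ZP : Set G) := by
    rw [hZP]; exact hXP.trans (le_normalizer_omegaOne_center 2 P)
  have hXW : X ≤ Subgroup.normalizer (W : Set G) := by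
    rw [hW]; exact le_normalizer_commutator ZP K X hXZP hXK
  have hPK : P ≤ K := hP ▸ pCoreOf_le 2 K
  have hPp : IsPGroup 2 P := hP ▸ isPGroup_pCoreOf 2 K
  have hZPle : ZP ≤ P ⊓ Subgroup.centralizer (P : Set G) := hZP ▸ omegaOne_center_le 2 P
  have hWZP : W ≤ ZP := by
    rw [hW, Subgroup.commutator_le]
    intro z hz k hk
    have h1 : k * z⁻¹ * k⁻¹ ∈ ZP :=
      (Subgroup.mem_normalizer_iff.1 (hXZP (hKX hk)) z⁻¹).1 (ZP.inv_mem hz)
    have e : ⁅z, k⁆ = z * (k * z⁻¹ * k⁻¹) := by rw [commutatorElement_def]; group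
    rw [e]; exact ZP.mul_mem hz h1
  have hWP : W ≤ P := fun w hw => (Subgroup.mem_inf.1 (hZPle (hWZP hw))).1
  have hWCP : W ≤ Subgroup.centralizer (P : Set G) :=
    fun w hw => (Subgroup.mem_inf.1 (hZPle (hWZP hw))).2
  have hPCW : P ≤ Subgroup.centralizer (W : Set G) := by
    rw [Subgroup.le_centralizer_iff]; exact hWCP
  have hWab : ∀ a ∈ W, ∀ b ∈ W, a * b = b * a := by
    intro a ha b hb
    exact (Subgroup.mem_centralizer_iff.1 (hWCP hb)) a (hWP ha)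
  have hW1 : W ≠ ⊥ := by
    intro h; rw [h, Subgroup.card_bot] at hW4; omega
  have hWp : IsPGroup 2 W := hPp.to_le hWP
  -- Step 2: `K` acts fixed-point-freely on `W`
  have hF : W ⊓ Subgroup.centralizer (K : Set G) = ⊥ := by
    rw [hW]
    apply inf_cent_bot K ZP hodd (hKX.trans hXZP)
    · rw [← hW]; exact hW2
    · rw [← hW]; exact hW4
  -- Step 3: `J` does not centralize `W`
  have hJW : ¬ J ≤ Subgroup.centralizer (W : Set G) := by
    intro h
    have hKN : K ≤ Subgroup.normalizer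
        ((Subgroup.centralizer (W : Set G) : Subgroup G) : Set G) :=
      (hKX.trans hXW).trans (normalizer_le_normalizer_centralizer W)
    have hKC : K ≤ Subgroup.centralizer (W : Set G) := by
      rw [← hKJ, Subgroup.commutator_le]
      intro k hk j hj
      have h1 : k * j * k⁻¹ ∈ Subgroup.centralizer (W : Set G) :=
        (Subgroup.mem_normalizer_iff.1 (hKN hk) j).1 (h hj)
      rw [commutatorElement_def]
      exact Subgroup.mul_mem _ h1 (Subgroup.inv_mem _ (h hj))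
    have hWC : W ≤ Subgroup.centralizer (K : Set G) := by
      rw [Subgroup.le_centralizer_iff]; exact hKC
    apply hW1
    rw [← hF]
    exact (inf_eq_left.2 hWC).symm
  obtain ⟨F₀, hF₀⟩ : ∃ F₀ : Subgroup G, F₀ = W ⊓ Subgroup.centralizer (J : Set G) := ⟨_, rfl⟩
  have hJNW : J ≤ Subgroup.normalizer (W : Set G) := hJX.trans hXW
  have hF₀2 : Nat.card F₀ = 2 := by
    apply card_two_of W F₀ (hF₀ ▸ inf_le_left) hW4
    · rw [hF₀]; exact inf_centralizer_ne_bot_of_le_normalizer W J hWp hJ2 hW1 hJNW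
    · intro h
      apply hJW
      rw [Subgroup.le_centralizer_iff]
      rw [hF₀] at h
      exact inf_eq_left.1 h
  -- Step 5: `S = P J` is a Sylow 2-subgroup of `X`
  obtain ⟨S, hS⟩ : ∃ S : Subgroup G, S = P ⊔ J := ⟨_, rfl⟩
  have hPS : P ≤ S := hS ▸ le_sup_left
  have hJS : J ≤ S := hS ▸ le_sup_right
  have hSX : S ≤ X := hS ▸ sup_le (hPK.trans hKX) hJX
  have hSp : IsPGroup 2 S := by
    rw [hS]; exact IsPGroup.to_sup_of_normal_left' hPp hJ2 (hJX.trans hXP)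
  have hSmax : ∀ R : Subgroup G, IsPGroup 2 R → R ≤ X → S ≤ R → R ≤ S := by
    intro R hR hRX hSR r hr
    obtain ⟨k, hk, j, hj, rfl⟩ := mem_sup_decomp K J hJK (hX ▸ hRX hr)
    have hkR : k ∈ R := by
      have e : k = k * j * j⁻¹ := by group
      rw [e]; exact R.mul_mem hr (R.inv_mem (hSR (hJS hj)))
    have hkP : k ∈ P := le_of_index_three K P (R ⊓ K) hidx (le_inf (hPS.trans hSR) hPK)
      inf_le_right (hR.to_le inf_le_left) (Subgroup.mem_inf.2 ⟨hkR, hk⟩)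
    exact S.mul_mem (hPS hkP) (hJS hj)
  have hSsyl : IsSylowTwoIn S X := by
    refine ⟨hSX, hSp, ?_⟩
    obtain ⟨Q, hQ⟩ := IsPGroup.exists_le_sylow (hSp.comap_subtype (K := X))
    have hQS : (Q : Subgroup ↥X).map X.subtype ≤ S := by
      apply hSmax _ (Q.isPGroup'.map _) (Subgroup.map_subtype_le _)
      intro s hs
      exact ⟨⟨s, hSX hs⟩, hQ (Subgroup.mem_subgroupOf.2 hs), rfl⟩
    have hQeq : S.subgroupOf X = (Q : Subgroup ↥X) := by
      apply le_antisymm hQ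
      intro q hq
      show X.subtype q ∈ S
      exact hQS (Subgroup.mem_map_of_mem _ hq)
    show Odd ((S.subgroupOf X).index)
    rw [hQeq, Nat.odd_iff]
    have h2 := Q.not_dvd_index
    omega
  have hJS' : thompsonSubgroupOf 2 S = J := hsyl S hSsyl hJS
  -- Step 6
  have hmaxJ : ∀ A, MaxEA S A → A ≤ J := fun A hA => hJS' ▸ maxEA_le_thompson hA
  have hZ₀mem : ∀ z ∈ Z₀, (z ∈ J ∧ z ∈ Subgroup.centralizer (J : Set G)) ∧ z ^ 2 = 1 := by
    intro z hz; rw [hZ₀] at hz; exact omegaOne_center_mem 2 J hz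
  have hzmem : ∀ z ∈ Z₀, ∀ E, MaxEA S E → z ∈ E := by
    intro z hz E hE
    obtain ⟨⟨hzJ, hzC⟩, hz2⟩ := hZ₀mem z hz
    have hEJ := hmaxJ E hE
    have hEA : IsElementaryAbelian 2 (E ⊔ Subgroup.zpowers z) := by
      apply Cfsg.Agent.Lib.helper3.isEA_sup_zpowers 2 hE.2.1 hz2
      intro a ha
      exact (Subgroup.mem_centralizer_iff.1 hzC) a (hEJ ha)
    have hle : E ⊔ Subgroup.zpowers z ≤ S :=
      sup_le hE.1 (by rw [Subgroup.zpowers_le]; exact hJS hzJ)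
    have hcard := hE.2.2 _ hle hEA
    have heq : E = E ⊔ Subgroup.zpowers z := Subgroup.eq_of_le_of_card_ge le_sup_left hcard
    rw [heq]
    exact (le_sup_right : Subgroup.zpowers z ≤ E ⊔ Subgroup.zpowers z) (Subgroup.mem_zpowers z)
  -- Step 7: `C = C_X(W)` is a 2-group inside `S`
  obtain ⟨C, hC⟩ : ∃ C : Subgroup G, C = X ⊓ Subgroup.centralizer (W : Set G) := ⟨_, rfl⟩
  have hXNC : X ≤ Subgroup.normalizer (C : Set G) := by
    rw [hC]
    exact le_normalizer_inf X (Subgroup.centralizer (W : Set G)) X Subgroup.le_normalizer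
      (hXW.trans (normalizer_le_normalizer_centralizer W))
  have hKCWP : K ⊓ Subgroup.centralizer (W : Set G) ≤ P := by
    rcases index_three_cases K P (K ⊓ Subgroup.centralizer (W : Set G)) hidx
      (le_inf hPK hPCW) inf_le_left with h | h
    · exact h
    · exfalso
      have hKC : K ≤ Subgroup.centralizer (W : Set G) := h.trans inf_le_right
      have hWC : W ≤ Subgroup.centralizer (K : Set G) := by
        rw [Subgroup.le_centralizer_iff]; exact hKC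
      apply hW1
      rw [← hF]
      exact (inf_eq_left.2 hWC).symm
  have hCp : IsPGroup 2 C := by
    rintro ⟨c, hc⟩
    have hc' : c ∈ X ⊓ Subgroup.centralizer (W : Set G) := hC ▸ hc
    have hcX : c ∈ X := (Subgroup.mem_inf.1 hc').1
    have hcW : c ∈ Subgroup.centralizer (W : Set G) := (Subgroup.mem_inf.1 hc').2
    obtain ⟨k, m, hm, hkm⟩ := Nat.exists_eq_two_pow_mul_odd (orderOf_pos c).ne'
    refine ⟨k, ?_⟩
    have h1 : (c ^ (2 ^ k)) ^ m = 1 := by rw [← pow_mul, ← hkm, pow_orderOf_eq_one]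
    have h2 : orderOf (c ^ (2 ^ k)) ∣ m := orderOf_dvd_of_pow_eq_one h1
    have h3 : Odd (orderOf (c ^ (2 ^ k))) := Odd.of_dvd_nat hm h2
    have h4 : c ^ (2 ^ k) ∈ K := by
      apply Cfsg.Agent.Lib.helper3.mem_of_coprime_of_sup hJK hJ2 (hX ▸ X.pow_mem hcX _)
      exact Nat.coprime_two_right.2 h3
    have h5 : c ^ (2 ^ k) ∈ P := hKCWP (Subgroup.mem_inf.2 ⟨h4, Subgroup.pow_mem _ hcW _⟩)
    obtain ⟨l, hl⟩ := hPp ⟨c ^ (2 ^ k), h5⟩
    have hl' : (c ^ (2 ^ k)) ^ (2 ^ l) = 1 := by simpa using congrArg Subtype.val hl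
    have h6 : orderOf (c ^ (2 ^ k)) ∣ 2 ^ l := orderOf_dvd_of_pow_eq_one hl'
    have h7 : orderOf (c ^ (2 ^ k)) = 1 :=
      Nat.Coprime.eq_one_of_dvd (Nat.Coprime.pow_right l (Nat.coprime_two_right.2 h3)) h6
    have h8 : c ^ (2 ^ k) = 1 := orderOf_eq_one_iff.1 h7
    exact Subtype.ext (by simpa using h8)
  have hCS : C ≤ S := by
    have h1 : C ⊔ S ≤ S :=
      hSmax (C ⊔ S) (IsPGroup.to_sup_of_normal_left' hCp hSp (hSX.trans hXNC))
        (sup_le (hC ▸ inf_le_left) hSX) le_sup_right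
    exact le_sup_left.trans h1
  have hWS : W ≤ S := hWP.trans hPS
  have hSNW : S ≤ Subgroup.normalizer (W : Set G) := hSX.trans hXW
  -- Step 8
  have hH2 : ∀ A, MaxEA S A → ¬ A ≤ Subgroup.centralizer (W : Set G) →
      MaxEA S ((A ⊓ Subgroup.centralizer (W : Set G)) ⊔ W) :=
    fun A hA hAW => replace_maxEA S W A hSp hWS hSNW hW4 hW2 hWab hA hAW
  -- Step 9
  have hH1 : ∀ E, MaxEA S E → E ≤ Subgroup.centralizer (W : Set G) →
      ∀ z ∈ Z₀, ∀ g ∈ X, g * z * g⁻¹ ∈ E := by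
    intro E hE hEW z hz g hg
    have hEC : E ≤ C := by rw [hC]; exact le_inf (hE.1.trans hSX) hEW
    obtain ⟨E', hE'⟩ : ∃ E' : Subgroup G, E' = E.map (MulAut.conj g⁻¹).toMonoidHom := ⟨_, rfl⟩
    have hE'C : E' ≤ C := by
      rw [hE']
      rintro _ ⟨e, he, rfl⟩
      have hn := hXNC (X.inv_mem hg)
      have h1 := (Subgroup.mem_normalizer_iff.1 hn e).1 (hEC he)
      simpa using h1
    have hE'max : MaxEA S E' := by
      refine ⟨hE'C.trans hCS, hE' ▸ Cfsg.Agent.Lib.helper3.isEA_map 2 _ hE.2.1, ?_⟩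
      intro B hBS hB
      rw [hE', Subgroup.card_map_of_injective (MulAut.conj g⁻¹).injective]
      exact hE.2.2 B hBS hB
    have h1 := hzmem z hz E' hE'max
    rw [hE'] at h1
    obtain ⟨e, he, hez⟩ := h1
    have hez' : g⁻¹ * e * g = z := by simpa using hez
    have e2 : g * z * g⁻¹ = e := by rw [← hez']; group
    rw [e2]; exact he
  have hG : ∀ A', MaxEA S A' → ∀ a' ∈ A', ∀ z ∈ Z₀, ∀ g ∈ X,
      a' * (g * z * g⁻¹) * a'⁻¹ * (g * z * g⁻¹)⁻¹ ∈ W := by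
    intro A' hA' a' ha' z hz g hg
    have hA'E := (Cfsg.Agent.Lib.helper3.isEA_iff 2 A').1 hA'.2.1
    by_cases hAW : A' ≤ Subgroup.centralizer (W : Set G)
    · have h1 := hH1 A' hA' hAW z hz g hg
      have hc : a' * (g * z * g⁻¹) = (g * z * g⁻¹) * a' := hA'E.1 a' ha' _ h1
      have e : a' * (g * z * g⁻¹) * a'⁻¹ * (g * z * g⁻¹)⁻¹ = 1 := by rw [hc]; group
      rw [e]; exact W.one_mem
    · have hB := hH2 A' hA' hAW
      have hBW : (A' ⊓ Subgroup.centralizer (W : Set G)) ⊔ W ≤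
          Subgroup.centralizer (W : Set G) := by
        apply sup_le inf_le_right
        intro w hw
        rw [Subgroup.mem_centralizer_iff]
        intro w' hw'
        exact hWab w' hw' w hw
      have h1 := hH1 _ hB hBW z hz g hg
      rw [sup_comm] at h1
      obtain ⟨w, hw, a₀, ha₀, hu⟩ := mem_sup_decomp W (A' ⊓ Subgroup.centralizer (W : Set G))
        (inf_le_left.trans (hA'.1.trans hSNW)) h1
      rw [hu]
      have hc : Commute a₀ a' := hA'E.1 a₀ (Subgroup.mem_inf.1 ha₀).1 a' ha'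
      have hc' : a₀ * a'⁻¹ = a'⁻¹ * a₀ := (hc.inv_right).eq
      have e : a' * (w * a₀) * a'⁻¹ * (w * a₀)⁻¹ = (a' * w * a'⁻¹) * w⁻¹ := by
        calc a' * (w * a₀) * a'⁻¹ * (w * a₀)⁻¹ = a' * w * (a₀ * a'⁻¹) * a₀⁻¹ * w⁻¹ := by group
          _ = a' * w * (a'⁻¹ * a₀) * a₀⁻¹ * w⁻¹ := by rw [hc']
          _ = (a' * w * a'⁻¹) * w⁻¹ := by group
      rw [e]
      exact W.mul_mem ((Subgroup.mem_normalizer_iff.1 (hSNW (hA'.1 ha')) w).1 hw) (W.inv_mem hw)
  -- Step 10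
  have hXconj : ∀ x ∈ X, ∀ w ∈ W, x * w * x⁻¹ ∈ W := fun x hx w hw =>
    (Subgroup.mem_normalizer_iff.1 (hXW hx) w).1 hw
  have hβ : ∀ z ∈ Z₀, ∀ k ∈ K, k * z * k⁻¹ * z⁻¹ ∈ W := by
    intro z hz
    let M : Subgroup G :=
      { carrier := {m | m ∈ X ∧ ∀ g ∈ X, m * (g * z * g⁻¹) * m⁻¹ * (g * z * g⁻¹)⁻¹ ∈ W}
        one_mem' := ⟨X.one_mem, fun g hg => by simp [W.one_mem]⟩
        mul_mem' := by
          rintro m₁ m₂ ⟨h1, h1'⟩ ⟨h2, h2'⟩
          refine ⟨X.mul_mem h1 h2, fun g hg => ?_⟩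
          have e : m₁ * m₂ * (g * z * g⁻¹) * (m₁ * m₂)⁻¹ * (g * z * g⁻¹)⁻¹ =
              (m₁ * (m₂ * (g * z * g⁻¹) * m₂⁻¹ * (g * z * g⁻¹)⁻¹) * m₁⁻¹) *
                (m₁ * (g * z * g⁻¹) * m₁⁻¹ * (g * z * g⁻¹)⁻¹) := by group
          rw [e]
          exact W.mul_mem (hXconj m₁ h1 _ (h2' g hg)) (h1' g hg)
        inv_mem' := by
          rintro m ⟨h1, h1'⟩
          refine ⟨X.inv_mem h1, fun g hg => ?_⟩
          have e : m⁻¹ * (g * z * g⁻¹) * m⁻¹⁻¹ * (g * z * g⁻¹)⁻¹ =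
              m⁻¹ * (m * (g * z * g⁻¹) * m⁻¹ * (g * z * g⁻¹)⁻¹)⁻¹ * m⁻¹⁻¹ := by group
          rw [e]
          exact hXconj m⁻¹ (X.inv_mem h1) _ (W.inv_mem (h1' g hg)) }
    have hMmem : ∀ m, m ∈ M ↔
        m ∈ X ∧ ∀ g ∈ X, m * (g * z * g⁻¹) * m⁻¹ * (g * z * g⁻¹)⁻¹ ∈ W := fun m => Iff.rfl
    have hMconj : ∀ x ∈ X, ∀ m ∈ M, x * m * x⁻¹ ∈ M := by
      intro x hx m hm
      rw [hMmem] at hm ⊢
      refine ⟨X.mul_mem (X.mul_mem hx hm.1) (X.inv_mem hx), fun g hg => ?_⟩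
      have e : x * m * x⁻¹ * (g * z * g⁻¹) * (x * m * x⁻¹)⁻¹ * (g * z * g⁻¹)⁻¹ =
          x * (m * ((x⁻¹ * g) * z * (x⁻¹ * g)⁻¹) * m⁻¹ *
            ((x⁻¹ * g) * z * (x⁻¹ * g)⁻¹)⁻¹) * x⁻¹ := by group
      rw [e]
      exact hXconj x hx _ (hm.2 (x⁻¹ * g) (X.mul_mem (X.inv_mem hx) hg))
    have hJM : J ≤ M := by
      rw [← hJS']
      apply thompson_le_of_maxEA
      intro A hA a ha
      rw [hMmem]
      exact ⟨hSX (hA.1 ha), fun g hg => hG A hA a ha z hz g hg⟩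
    have hKM : K ≤ M := by
      rw [← hKJ, Subgroup.commutator_le]
      intro k hk j hj
      rw [commutatorElement_def]
      exact M.mul_mem (hMconj k (hKX hk) j (hJM hj)) (M.inv_mem (hJM hj))
    intro k hk
    have h1 := ((hMmem k).1 (hKM hk)).2 1 X.one_mem
    simpa using h1
  -- Step 11
  obtain ⟨A, hA, hAW⟩ : ∃ A, MaxEA S A ∧ ¬ A ≤ Subgroup.centralizer (W : Set G) := by
    by_contra hcon
    push Not at hcon
    have h := thompson_le_of_maxEA S _ hcon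
    rw [hJS'] at h
    exact hJW h
  have hWJ : W ≤ J := le_sup_right.trans (hmaxJ _ (hH2 A hA hAW))
  have hZ₀F : Z₀ ⊓ W = F₀ := by
    rw [hF₀]
    ext w
    rw [Subgroup.mem_inf, Subgroup.mem_inf]
    constructor
    · rintro ⟨h1, h2⟩
      exact ⟨h2, (hZ₀mem w h1).1.2⟩
    · rintro ⟨h1, h2⟩
      refine ⟨?_, h1⟩
      rw [hZ₀]
      exact mem_omegaOne_center (hWJ h1) h2 (by rw [pow_two]; exact hW2 w h1)
  refine ⟨by rw [hZ₀F]; exact hF₀2, ?_⟩
  -- Step 12: the splitting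
  apply le_antisymm (sup_le inf_le_left inf_le_left)
  intro z hz
  obtain ⟨⟨hzJ, hzC⟩, hz2⟩ := hZ₀mem z hz
  have hzcomm : ∀ j ∈ J, j * z = z * j := fun j hj => (Subgroup.mem_centralizer_iff.1 hzC) j hj
  obtain ⟨x, hxK, hxP⟩ : ∃ x ∈ K, x ∉ P := by
    by_contra hcon
    push Not at hcon
    have h1 : P.relIndex K = 1 := Subgroup.relIndex_eq_one.2 hcon
    omega
  have hKgen : K ≤ P ⊔ Subgroup.zpowers x := by
    rcases index_three_cases K P (P ⊔ Subgroup.zpowers x) hidx le_sup_left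
      (sup_le hPK (by rw [Subgroup.zpowers_le]; exact hxK)) with h | h
    · exact absurd (h ((le_sup_right : Subgroup.zpowers x ≤ P ⊔ Subgroup.zpowers x)
        (Subgroup.mem_zpowers x))) hxP
    · exact h
  have hcentK : ∀ c : G, (∀ t ∈ P, t * c = c * t) → x * c = c * x →
      c ∈ Subgroup.centralizer (K : Set G) := by
    intro c h1 h2
    have hle : K ≤ Subgroup.centralizer ({c} : Set G) := by
      apply hKgen.trans
      apply sup_le
      · intro t ht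
        rw [Subgroup.mem_centralizer_iff]
        intro y hy
        rw [Set.mem_singleton_iff] at hy
        rw [hy]; exact (h1 t ht).symm
      · rw [Subgroup.zpowers_le, Subgroup.mem_centralizer_iff]
        intro y hy
        rw [Set.mem_singleton_iff] at hy
        rw [hy]; exact h2.symm
    rw [Subgroup.mem_centralizer_iff]
    intro k hk
    exact ((Subgroup.mem_centralizer_iff.1 (hle hk)) c (Set.mem_singleton c)).symm
  have hPcW : ∀ t ∈ P, ∀ w ∈ W, t * w = w * t := fun t ht w hw =>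
    ((Subgroup.mem_centralizer_iff.1 (hWCP hw)) t ht)
  have hfpf : ∀ w ∈ W, x * w * x⁻¹ = w → w = 1 := by
    intro w hw h
    have h1 : w ∈ Subgroup.centralizer (K : Set G) := by
      apply hcentK w (fun t ht => hPcW t ht w hw)
      calc x * w = x * w * x⁻¹ * x := by group
        _ = w * x := by rw [h]
    have h2 : w ∈ W ⊓ Subgroup.centralizer (K : Set G) := Subgroup.mem_inf.2 ⟨hw, h1⟩
    rw [hF, Subgroup.mem_bot] at h2
    exact h2
  have hxX : x ∈ X := hKX hxK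
  have hd := hβ z hz x hxK
  obtain ⟨v, hvW, hv⟩ : ∃ v ∈ W, x * v * x⁻¹ * v⁻¹ = x * z * x⁻¹ * z⁻¹ := by
    let φ : ↥W → ↥W := fun v =>
      ⟨x * v.1 * x⁻¹ * v.1⁻¹, W.mul_mem (hXconj x hxX v.1 v.2) (W.inv_mem v.2)⟩
    have hinj : Function.Injective φ := by
      intro v₁ v₂ h
      have h' : x * v₁.1 * x⁻¹ * v₁.1⁻¹ = x * v₂.1 * x⁻¹ * v₂.1⁻¹ := congrArg Subtype.val h
      have h2 : x * (v₂.1⁻¹ * v₁.1) * x⁻¹ = v₂.1⁻¹ * v₁.1 := by
        calc x * (v₂.1⁻¹ * v₁.1) * x⁻¹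
            = (x * v₂.1 * x⁻¹)⁻¹ * (x * v₁.1 * x⁻¹ * v₁.1⁻¹) * v₁.1 := by group
          _ = (x * v₂.1 * x⁻¹)⁻¹ * (x * v₂.1 * x⁻¹ * v₂.1⁻¹) * v₁.1 := by rw [h']
          _ = v₂.1⁻¹ * v₁.1 := by group
      have h3 := hfpf _ (W.mul_mem (W.inv_mem v₂.2) v₁.2) h2
      apply Subtype.ext
      calc v₁.1 = v₂.1 * (v₂.1⁻¹ * v₁.1) := by group
        _ = v₂.1 := by rw [h3, mul_one]
    have hsurj : Function.Surjective φ := Finite.injective_iff_surjective.1 hinj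
    obtain ⟨v, hv⟩ := hsurj ⟨_, hd⟩
    exact ⟨v.1, v.2, congrArg Subtype.val hv⟩
  have hzW : ∀ w ∈ W, z * w = w * z := fun w hw => (hzcomm w (hWJ hw)).symm
  obtain ⟨c, hc⟩ : ∃ c : G, c = z * v⁻¹ := ⟨_, rfl⟩
  have hxc : x * c = c * x := by
    obtain ⟨d, hdd⟩ : ∃ d : G, d = x * z * x⁻¹ * z⁻¹ := ⟨_, rfl⟩
    rw [← hdd] at hv hd
    have e1 : x * z * x⁻¹ = d * z := by rw [hdd]; group
    have e2 : x * v * x⁻¹ = d * v := by rw [← hv]; group
    have e3 : d * z = z * d := (hzW d hd).symm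
    have e4 : d * v⁻¹ = v⁻¹ * d := hWab d hd v⁻¹ (W.inv_mem hvW)
    have e5 : x * c * x⁻¹ = c := by
      calc x * c * x⁻¹ = (x * z * x⁻¹) * (x * v * x⁻¹)⁻¹ := by rw [hc]; group
        _ = d * z * (d * v)⁻¹ := by rw [e1, e2]
        _ = (d * z) * v⁻¹ * d⁻¹ := by group
        _ = z * (d * v⁻¹) * d⁻¹ := by rw [e3]; group
        _ = z * (v⁻¹ * d) * d⁻¹ := by rw [e4]
        _ = c := by rw [hc]; group
    calc x * c = x * c * x⁻¹ * x := by group
      _ = c * x := by rw [e5]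
  have hSNJ : S ≤ Subgroup.normalizer (J : Set G) := by
    have h := Cfsg.Agent.Lib.helper3.normalizer_le_normalizer_thompsonOf 2 S
    rw [hJS'] at h
    exact Subgroup.le_normalizer.trans h
  have hβF : ∀ t ∈ P, t * z * t⁻¹ * z⁻¹ ∈ F₀ := by
    intro t ht
    have hβW := hβ z hz t (hPK ht)
    rw [hF₀]
    refine Subgroup.mem_inf.2 ⟨hβW, ?_⟩
    rw [Subgroup.mem_centralizer_iff]
    intro j hj
    obtain ⟨s, hs⟩ : ∃ s : G, s = j * t * j⁻¹ * t⁻¹ := ⟨_, rfl⟩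
    have hsP : s ∈ P := by
      rw [hs]
      exact P.mul_mem ((Subgroup.mem_normalizer_iff.1 (hXP (hJX hj)) t).1 ht) (P.inv_mem ht)
    have hsJ : s ∈ J := by
      have h1 : t * j⁻¹ * t⁻¹ ∈ J :=
        (Subgroup.mem_normalizer_iff.1 (hSNJ (hPS ht)) j⁻¹).1 (J.inv_mem hj)
      have e : s = j * (t * j⁻¹ * t⁻¹) := by rw [hs]; group
      rw [e]; exact J.mul_mem hj h1
    have e1 : j * z = z * j := hzcomm j hj
    have e2 : s * z = z * s := hzcomm s hsJ
    have e3 : s * (t * z * t⁻¹ * z⁻¹) = (t * z * t⁻¹ * z⁻¹) * s := hPcW s hsP _ hβW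
    have ez : j * z * j⁻¹ = z := by rw [e1]; group
    have et : j * t * j⁻¹ = s * t := by rw [hs]; group
    have ez' : z * s⁻¹ * z⁻¹ = s⁻¹ := by
      have e4 : z * s⁻¹ = s⁻¹ * z := ((Commute.inv_left (show Commute s z from e2)).eq).symm
      rw [e4]; group
    have key : j * (t * z * t⁻¹ * z⁻¹) * j⁻¹ = t * z * t⁻¹ * z⁻¹ := by
      calc j * (t * z * t⁻¹ * z⁻¹) * j⁻¹
          = (j * t * j⁻¹) * (j * z * j⁻¹) * (j * t * j⁻¹)⁻¹ * (j * z * j⁻¹)⁻¹ := by group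
        _ = (s * t) * z * (s * t)⁻¹ * z⁻¹ := by rw [ez, et]
        _ = s * (t * z * t⁻¹ * z⁻¹) * (z * s⁻¹ * z⁻¹) := by group
        _ = s * (t * z * t⁻¹ * z⁻¹) * s⁻¹ := by rw [ez']
        _ = (t * z * t⁻¹ * z⁻¹) * s * s⁻¹ := by rw [e3]
        _ = t * z * t⁻¹ * z⁻¹ := by group
    calc j * (t * z * t⁻¹ * z⁻¹) = j * (t * z * t⁻¹ * z⁻¹) * j⁻¹ * j := by group
      _ = t * z * t⁻¹ * z⁻¹ * j := by rw [key]
  have hβc : ∀ t ∈ P, t * z * t⁻¹ * z⁻¹ = t * c * t⁻¹ * c⁻¹ := by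
    intro t ht
    have e1 : t⁻¹ * v⁻¹ = v⁻¹ * t⁻¹ := hPcW t⁻¹ (P.inv_mem ht) v⁻¹ (W.inv_mem hvW)
    symm
    calc t * c * t⁻¹ * c⁻¹ = t * z * (v⁻¹ * t⁻¹) * v * z⁻¹ := by rw [hc]; group
      _ = t * z * (t⁻¹ * v⁻¹) * v * z⁻¹ := by rw [e1]
      _ = t * z * t⁻¹ * z⁻¹ := by group
  have hF₀W : F₀ ≤ W := hF₀ ▸ inf_le_left
  have hβ1 : ∀ t ∈ P, t * z * t⁻¹ * z⁻¹ = 1 := by
    intro t ht
    by_contra hne
    have h1 := hβF t ht
    have hxt : x * t * x⁻¹ ∈ P := (Subgroup.mem_normalizer_iff.1 (hXP hxX) t).1 ht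
    have h2 := hβF _ hxt
    have e : x * (t * z * t⁻¹ * z⁻¹) * x⁻¹ = (x * t * x⁻¹) * z * (x * t * x⁻¹)⁻¹ * z⁻¹ := by
      rw [hβc t ht, hβc _ hxt]
      have hxc' : x * c * x⁻¹ = c := by rw [hxc]; group
      calc x * (t * c * t⁻¹ * c⁻¹) * x⁻¹
          = (x * t * x⁻¹) * (x * c * x⁻¹) * (x * t * x⁻¹)⁻¹ * (x * c * x⁻¹)⁻¹ := by group
        _ = (x * t * x⁻¹) * c * (x * t * x⁻¹)⁻¹ * c⁻¹ := by rw [hxc']
    rw [← e] at h2
    obtain ⟨f, hf1, hfuniq⟩ := (Nat.card_eq_two_iff' (1 : ↥F₀)).1 hF₀2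
    have e1 := hfuniq ⟨_, h1⟩ (fun h => hne ((Subgroup.mk_eq_one _).1 h))
    have hne2 : x * (t * z * t⁻¹ * z⁻¹) * x⁻¹ ≠ 1 := by
      intro h
      apply hne
      have e' : t * z * t⁻¹ * z⁻¹ = x⁻¹ * (x * (t * z * t⁻¹ * z⁻¹) * x⁻¹) * x := by group
      rw [e', h]; group
    have e2 := hfuniq ⟨_, h2⟩ (fun h => hne2 ((Subgroup.mk_eq_one _).1 h))
    have e3 : x * (t * z * t⁻¹ * z⁻¹) * x⁻¹ = t * z * t⁻¹ * z⁻¹ :=
      congrArg Subtype.val (e2.trans e1.symm)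
    exact hne (hfpf _ (hF₀W h1) e3)
  have hzP : ∀ t ∈ P, t * z = z * t := by
    intro t ht
    have h := hβ1 t ht
    calc t * z = (t * z * t⁻¹ * z⁻¹) * z * t := by group
      _ = z * t := by rw [h, one_mul]
  have hcP : ∀ t ∈ P, t * c = c * t := by
    intro t ht
    have e1 : t * v⁻¹ = v⁻¹ * t := hPcW t ht v⁻¹ (W.inv_mem hvW)
    rw [hc]
    calc t * (z * v⁻¹) = (t * z) * v⁻¹ := by group
      _ = z * (t * v⁻¹) := by rw [hzP t ht]; group
      _ = z * v⁻¹ * t := by rw [e1]; group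
  have hcK : c ∈ Subgroup.centralizer (K : Set G) := hcentK c hcP hxc
  have hJNCK : J ≤ Subgroup.normalizer
      ((Subgroup.centralizer (K : Set G) : Subgroup G) : Set G) :=
    hJK.trans (normalizer_le_normalizer_centralizer K)
  have hvJ : v ∈ Subgroup.centralizer (J : Set G) := by
    rw [Subgroup.mem_centralizer_iff]
    intro j hj
    have h1 : j * c * j⁻¹ * c⁻¹ ∈ Subgroup.centralizer (K : Set G) :=
      Subgroup.mul_mem _ ((Subgroup.mem_normalizer_iff.1 (hJNCK hj) c).1 hcK)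
        (Subgroup.inv_mem _ hcK)
    have e1 : j * z = z * j := hzcomm j hj
    have hjv : j * v⁻¹ * j⁻¹ * v ∈ W :=
      W.mul_mem ((Subgroup.mem_normalizer_iff.1 (hJNW hj) v⁻¹).1 (W.inv_mem hvW)) hvW
    have e2 : j * c * j⁻¹ * c⁻¹ = j * v⁻¹ * j⁻¹ * v := by
      have e3 : z * (j * v⁻¹ * j⁻¹ * v) = (j * v⁻¹ * j⁻¹ * v) * z := hzW _ hjv
      calc j * c * j⁻¹ * c⁻¹ = (j * z) * v⁻¹ * j⁻¹ * v * z⁻¹ := by rw [hc]; group
        _ = z * (j * v⁻¹ * j⁻¹ * v) * z⁻¹ := by rw [e1]; group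
        _ = (j * v⁻¹ * j⁻¹ * v) * z * z⁻¹ := by rw [e3]
        _ = j * v⁻¹ * j⁻¹ * v := by group
    rw [e2] at h1
    have h2 : j * v⁻¹ * j⁻¹ * v ∈ W ⊓ Subgroup.centralizer (K : Set G) :=
      Subgroup.mem_inf.2 ⟨hjv, h1⟩
    rw [hF, Subgroup.mem_bot] at h2
    calc j * v = v * (j * v⁻¹ * j⁻¹ * v)⁻¹ * j := by group
      _ = v * j := by rw [h2, inv_one, mul_one]
  have hvF₀ : v ∈ Z₀ ⊓ W := by
    rw [hZ₀F, hF₀]; exact Subgroup.mem_inf.2 ⟨hvW, hvJ⟩
  have hvZ₀ : v ∈ Z₀ := (Subgroup.mem_inf.1 hvF₀).1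
  have hcZ₀ : c ∈ Z₀ := by rw [hc]; exact Z₀.mul_mem hz (Z₀.inv_mem hvZ₀)
  have hcJ := (hZ₀mem c hcZ₀).1
  have hcX : c ∈ Subgroup.centralizer (X : Set G) := by
    have hle : X ≤ Subgroup.centralizer ({c} : Set G) := by
      rw [hX]
      apply sup_le
      · intro k hk
        rw [Subgroup.mem_centralizer_iff]
        intro y hy
        rw [Set.mem_singleton_iff] at hy
        rw [hy]; exact ((Subgroup.mem_centralizer_iff.1 hcK) k hk).symm
      · intro j hj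
        rw [Subgroup.mem_centralizer_iff]
        intro y hy
        rw [Set.mem_singleton_iff] at hy
        rw [hy]; exact ((Subgroup.mem_centralizer_iff.1 hcJ.2) j hj).symm
    rw [Subgroup.mem_centralizer_iff]
    intro g hg
    exact ((Subgroup.mem_centralizer_iff.1 (hle hg)) c (Set.mem_singleton c)).symm
  have hzcv : z = c * v := by rw [hc]; group
  rw [hzcv]
  exact Subgroup.mul_mem_sup
    (Subgroup.mem_inf.2 ⟨hcZ₀, Subgroup.mem_inf.2 ⟨hJX hcJ.1, hcX⟩⟩) hvF₀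

/-- Let G be a finite group of characteristic 2 type in which every 2-local subgroup is solvable and the centralizer of Ω₁(Z(S)) lies in N_G(S) for every Sylow 2-subgroup S, and let T be a nontrivial 2-subgroup (below, J is the Thompson subgroup generated by the elementary abelian 2-subgroups of largest order), K a J(T)-component and Z₀ = Ω₁(Z(J(T))). Then Z₀ meets W_K = [Ω₁(Z(O₂(K))), K] in a subgroup of order 2, and Z₀ is the product of Z₀ ∩ Z(⟨K, J(T)⟩) and Z₀ ∩ W_K. -/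
theorem result {G : Type*} [Group G] [Finite G] (hL : Cfsg.IsCharacteristicTwoType G) (hN : ∀ N : Subgroup G, Cfsg.IsTwoLocal N → Group.IsSolvable ↥N)
    (hZ : ∀ S : Sylow 2 G, Subgroup.centralizer (Cfsg.omegaCenterOf (S : Subgroup G) : Set G) ≤ Subgroup.normalizer ((S : Subgroup G) : Set G)) (T : Subgroup G) (hT : IsPGroup 2 ↥T) (hT1 : T ≠ ⊥) (K : Subgroup G) (hK : Cfsg.IsJComponent T K)
    (Z₀ : Subgroup G) (hZ₀ : Z₀ = Cfsg.omegaCenterOf (Cfsg.thompsonSubgroupOf 2 T)) :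
    Nat.card ↥(Z₀ ⊓ Cfsg.wOf K) = 2 ∧
      (Z₀ ⊓ ((K ⊔ Cfsg.thompsonSubgroupOf 2 T) ⊓ Subgroup.centralizer ((K ⊔ Cfsg.thompsonSubgroupOf 2 T) : Set G))) ⊔ (Z₀ ⊓ Cfsg.wOf K) = Z₀ := by
  obtain ⟨h1, h2, h3, h4, h5, h6⟩ := hK
  have hJT : thompsonSubgroupOf 2 T ≤ T := by
    unfold thompsonSubgroupOf; exact Subgroup.map_subtype_le _
  have hJ2 : IsPGroup 2 (thompsonSubgroupOf 2 T) := hT.to_le hJT
  have hcent : Subgroup.centralizer ((K : Set G) ⊔ ((thompsonSubgroupOf 2 T : Subgroup G) : Set G)) =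
      Subgroup.centralizer ((K ⊔ thompsonSubgroupOf 2 T : Subgroup G) : Set G) := by
    apply le_antisymm
    · intro c hc
      rw [Subgroup.mem_centralizer_iff] at hc
      have hle : K ⊔ thompsonSubgroupOf 2 T ≤ Subgroup.centralizer ({c} : Set G) := by
        apply sup_le
        · intro k hk
          rw [Subgroup.mem_centralizer_iff]
          intro y hy
          rw [Set.mem_singleton_iff] at hy
          rw [hy]; exact (hc k (Or.inl hk)).symm
        · intro j hj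
          rw [Subgroup.mem_centralizer_iff]
          intro y hy
          rw [Set.mem_singleton_iff] at hy
          rw [hy]; exact (hc j (Or.inr hj)).symm
      rw [Subgroup.mem_centralizer_iff]
      intro g hg
      exact ((Subgroup.mem_centralizer_iff.1 (hle hg)) c (Set.mem_singleton c)).symm
    · apply Subgroup.centralizer_le
      intro g hg
      rcases hg with hg | hg
      · exact (le_sup_left : K ≤ K ⊔ thompsonSubgroupOf 2 T) hg
      · exact (le_sup_right : thompsonSubgroupOf 2 T ≤ K ⊔ thompsonSubgroupOf 2 T) hg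
  rw [hZ₀, hcent]
  exact core (thompsonSubgroupOf 2 T) K hJ2 h1 h2 h3 h4 h5 h6

end Cfsg.Agent.S2946
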