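import Cfsg.Statements.S3103
-- import your own Cfsg.Agent.* helpers here
import Mathlib
import Cfsg.Agent.S4208
import Cfsg.Agent.Lib.helper2.PSL42
import Cfsg.Agent.Lib.helper16.PConstr

set_option autoImplicit false
open Cfsg

namespace Cfsg.Agent.S3103

open Matrix
open scoped commutatorElement

theorem zmod2_eq_one : ∀ x : ZMod 2, x ≠ 0 → x = 1 := by decide

/-- a faithful additive action on an `F_2`-space of order at most 16 embeds into `SL_4(2)` -/
theorem lin_embed {V : Type*} [AddCommGroup V] [Module (ZMod 2) V] [Finite V]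
    (hcard : Nat.card V ≤ 16) {A : Type*} [Group A]
    (φ : A → V → V) (hadd : ∀ a v w, φ a (v + w) = φ a v + φ a w) (h1 : ∀ v, φ 1 v = v)
    (hmul : ∀ a b v, φ (a * b) v = φ a (φ b v)) (hfaith : ∀ a, (∀ v, φ a v = v) → a = 1) :
    ∃ Θ : A →* Matrix.SpecialLinearGroup (Fin 4) (ZMod 2), Function.Injective Θ := by
  classical
  have hd : Module.finrank (ZMod 2) V ≤ 4 := by
    have h1 := Module.natCard_eq_pow_finrank (K := ZMod 2) (V := V)
    rw [Nat.card_zmod] at h1
    rw [h1] at hcard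
    by_contra hcon
    push Not at hcon
    have : 2 ^ 5 ≤ 2 ^ Module.finrank (ZMod 2) V := Nat.pow_le_pow_right (by norm_num) hcon
    omega
  obtain ⟨L, hL⟩ : ∃ L : A → (V →ₗ[ZMod 2] V), ∀ a v, L a v = φ a v :=
    ⟨fun a => (AddMonoidHom.mk' (φ a) (hadd a)).toZModLinearMap 2, fun a v => rfl⟩
  obtain ⟨c, r, hrc⟩ : ∃ (c : V →ₗ[ZMod 2] (Fin 4 → ZMod 2))
      (r : (Fin 4 → ZMod 2) →ₗ[ZMod 2] V), ∀ w, r (c w) = w := by
    obtain ⟨b⟩ : Nonempty (Module.Basis (Fin (Module.finrank (ZMod 2) V)) (ZMod 2) V) :=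
      ⟨Module.finBasis (ZMod 2) V⟩
    refine ⟨b.constr (ZMod 2) (fun i => Pi.single (Fin.castLE hd i) (1 : ZMod 2)),
      (Pi.basisFun (ZMod 2) (Fin 4)).constr (ZMod 2)
        (fun j => if hj : j.val < Module.finrank (ZMod 2) V then b ⟨j.val, hj⟩ else 0), ?_⟩
    have h : ((Pi.basisFun (ZMod 2) (Fin 4)).constr (ZMod 2)
        (fun j => if hj : j.val < Module.finrank (ZMod 2) V then b ⟨j.val, hj⟩ else 0)).comp
        (b.constr (ZMod 2) (fun i => Pi.single (Fin.castLE hd i) (1 : ZMod 2))) = LinearMap.id := by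
      apply b.ext
      intro i
      rw [LinearMap.comp_apply, LinearMap.id_apply, Module.Basis.constr_basis,
        ← Pi.basisFun_apply, Module.Basis.constr_basis]
      simp
    intro w
    have := congrArg (fun f => f w) h
    simpa using this
  obtain ⟨T, hT⟩ : ∃ T : A → ((Fin 4 → ZMod 2) →ₗ[ZMod 2] (Fin 4 → ZMod 2)),
      ∀ a v, T a v = c (φ a (r v)) + (v - c (r v)) :=
    ⟨fun a => c.comp ((L a).comp r) + (LinearMap.id - c.comp r), fun a v => by
      simp [hL]⟩
  have hT1 : T 1 = LinearMap.id := by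
    apply LinearMap.ext
    intro v
    rw [hT, h1, LinearMap.id_apply]
    abel
  have hTmul : ∀ a b, T (a * b) = (T a).comp (T b) := by
    intro a b
    apply LinearMap.ext
    intro v
    rw [LinearMap.comp_apply, hT, hT, hT, hmul]
    have e : r (c (φ b (r v)) + (v - c (r v))) = φ b (r v) := by
      rw [map_add, map_sub, hrc, hrc]
      abel
    rw [e]
    abel
  have hdet : ∀ a, (LinearMap.toMatrix' (T a)).det = 1 := by
    intro a
    apply zmod2_eq_one
    intro h0
    have h2 : LinearMap.toMatrix' (T a) * LinearMap.toMatrix' (T a⁻¹) = 1 := by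
      rw [← LinearMap.toMatrix'_comp, ← hTmul, mul_inv_cancel, hT1, LinearMap.toMatrix'_id]
    have h3 := congrArg Matrix.det h2
    rw [Matrix.det_mul, h0, zero_mul, Matrix.det_one] at h3
    exact zero_ne_one h3
  refine ⟨{ toFun := fun a => ⟨LinearMap.toMatrix' (T a), hdet a⟩
            map_one' := by
              apply Subtype.ext
              show LinearMap.toMatrix' (T 1) = 1
              rw [hT1, LinearMap.toMatrix'_id]
            map_mul' := fun a b => by
              apply Subtype.ext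
              show LinearMap.toMatrix' (T (a * b)) =
                LinearMap.toMatrix' (T a) * LinearMap.toMatrix' (T b)
              rw [hTmul, LinearMap.toMatrix'_comp] }, ?_⟩
  intro a b hab
  have h2 : LinearMap.toMatrix' (T a) = LinearMap.toMatrix' (T b) := congrArg Subtype.val hab
  have h3 : T a = T b := LinearMap.toMatrix'.injective h2
  have h4 : ∀ w, φ a w = φ b w := by
    intro w
    have h5 := congrArg (fun f => f (c w)) h3
    simp only [hT, hrc] at h5
    have h6 : c (φ a w) = c (φ b w) := by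
      have := add_right_cancel h5
      exact this
    have h7 := congrArg r h6
    rwa [hrc, hrc] at h7
  have h5 : b⁻¹ * a = 1 := by
    apply hfaith
    intro v
    rw [hmul, h4, ← hmul, inv_mul_cancel, h1]
  calc a = b * (b⁻¹ * a) := by group
    _ = b := by rw [h5, mul_one]

/-- automorphisms of an elementary abelian 2-group of order at most 16 embed in `SL_4(2)` -/
theorem aut_embed {Q : Type*} [Group Q] [Finite Q] (hQcomm : ∀ a b : Q, a * b = b * a)
    (hQexp : ∀ a : Q, a ^ 2 = 1) (hcard : Nat.card Q ≤ 16) :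
    ∃ Θ : MulAut Q →* Matrix.SpecialLinearGroup (Fin 4) (ZMod 2), Function.Injective Θ := by
  have hfin : Finite (Additive Q) := inferInstanceAs (Finite Q)
  exact @lin_embed (Additive Q) (Cfsg.Agent.S4208.eaAddCommGroup Q hQcomm)
    (Cfsg.Agent.S4208.eaModule 2 Q hQcomm hQexp) hfin hcard (MulAut Q) _
    (fun β v => Additive.ofMul (β v.toMul))
    (fun β v w => congrArg Additive.ofMul (map_mul β v.toMul w.toMul))
    (fun v => rfl) (fun a b v => rfl)
    (fun a ha => by
      ext v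
      exact congrArg Additive.toMul (ha (Additive.ofMul v)))

/-- `SL_4(2)` embeds in the alternating group of degree 8 -/
theorem sl42_embed : ∃ f : Matrix.SpecialLinearGroup (Fin 4) (ZMod 2) →*
    ↥(alternatingGroup (Fin 8)), Function.Injective f := by
  obtain ⟨e⟩ := Cfsg.Agent.Lib.helper2.PSL42.iso (F := ZMod 2) (ZMod.card 2)
  refine ⟨(e.toMonoidHom).comp (QuotientGroup.mk'
    (Subgroup.center (Matrix.SpecialLinearGroup (Fin 4) (ZMod 2)))), ?_⟩
  apply e.injective.comp
  rw [← MonoidHom.ker_eq_bot_iff, QuotientGroup.ker_mk']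
  exact Cfsg.Agent.Lib.helper2.PSL42.center_eq_bot

/-- Let X be a finite 2-constrained group with no nontrivial normal subgroup of odd order such that O₂(X) has sectional 2-rank at most 4. Then X/O₂(X) is isomorphic to a subgroup of the alternating group of degree 8. -/
theorem result {X : Type*} [Group X] [Finite X] (hc : Cfsg.IsPConstrained 2 X) (hO : Cfsg.oddCore X = ⊥)
    (h4 : Cfsg.SectionalPRankLE 2 4 ↥(Cfsg.pCore 2 X)) :
    ∃ f : X ⧸ Cfsg.pCore 2 X →* ↥(alternatingGroup (Fin 8)), Function.Injective f := by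
  classical
  haveI : Fact (Nat.Prime 2) := ⟨Nat.prime_two⟩
  have hcent : Subgroup.centralizer ((Cfsg.pCore 2 X : Subgroup X) : Set X) ≤ Cfsg.pCore 2 X :=
    (Cfsg.Agent.Lib.helper16.pc_iff_of_core_bot hO).mp hc
  have hPp : IsPGroup 2 ↥(Cfsg.pCore 2 X) := Cfsg.Agent.Lib.helper15.pCore_isPGroup 2 X
  obtain ⟨n, hn⟩ := IsPGroup.iff_card.mp hPp
  obtain ⟨r, hr⟩ := hPp.index (frattini ↥(Cfsg.pCore 2 X))
  have hQcomm : ∀ a b : ↥(Cfsg.pCore 2 X) ⧸ frattini ↥(Cfsg.pCore 2 X), a * b = b * a := by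
    intro a b
    induction a using QuotientGroup.induction_on with
    | H u =>
      induction b using QuotientGroup.induction_on with
      | H v =>
        rw [← QuotientGroup.mk_mul, ← QuotientGroup.mk_mul, QuotientGroup.eq]
        apply Cfsg.Agent.S4208.commutator_le_frattini 2 hPp
        have : (u * v)⁻¹ * (v * u) = ⁅v⁻¹, u⁻¹⁆ := by
          rw [commutatorElement_def]; group
        rw [this]
        exact Subgroup.commutator_mem_commutator (Subgroup.mem_top _) (Subgroup.mem_top _)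
  have hQexp : ∀ a : ↥(Cfsg.pCore 2 X) ⧸ frattini ↥(Cfsg.pCore 2 X), a ^ 2 = 1 := by
    intro a
    induction a using QuotientGroup.induction_on with
    | H u =>
      rw [← QuotientGroup.mk_pow, QuotientGroup.eq_one_iff]
      exact Cfsg.Agent.S4208.pow_mem_frattini 2 hPp u
  have hcard : Nat.card (↥(Cfsg.pCore 2 X) ⧸ frattini ↥(Cfsg.pCore 2 X)) ≤ 16 := by
    have hmap : ((frattini ↥(Cfsg.pCore 2 X)).subgroupOf ⊤).map
        (Subgroup.topEquiv : ↥(⊤ : Subgroup ↥(Cfsg.pCore 2 X)) ≃* ↥(Cfsg.pCore 2 X)).toMonoidHom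
        = frattini ↥(Cfsg.pCore 2 X) := by
      ext x
      constructor
      · rintro ⟨y, hy, rfl⟩
        exact hy
      · intro hx
        exact ⟨⟨x, Subgroup.mem_top x⟩, hx, rfl⟩
    obtain ⟨e⟩ : Nonempty ((↥(⊤ : Subgroup ↥(Cfsg.pCore 2 X)) ⧸
        (frattini ↥(Cfsg.pCore 2 X)).subgroupOf ⊤) ≃*
        (↥(Cfsg.pCore 2 X) ⧸ frattini ↥(Cfsg.pCore 2 X))) :=
      ⟨QuotientGroup.congr _ _ Subgroup.topEquiv hmap⟩
    have hrank := h4 ⊤ ((frattini ↥(Cfsg.pCore 2 X)).subgroupOf ⊤) ⊤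
      ⟨⟨fun a b => Subtype.ext (by
        apply e.injective
        rw [Subgroup.coe_mul, Subgroup.coe_mul, map_mul, map_mul]
        exact hQcomm _ _)⟩⟩
      (fun a _ => by
        apply e.injective
        rw [map_pow, map_one]
        exact hQexp _)
    rw [Subgroup.card_top, Nat.card_congr e.toEquiv] at hrank
    exact hrank
  obtain ⟨Θ, hΘ⟩ := aut_embed hQcomm hQexp hcard
  obtain ⟨Ψ, hΨ⟩ : ∃ Ψ : MulAut ↥(Cfsg.pCore 2 X) →*
      MulAut (↥(Cfsg.pCore 2 X) ⧸ frattini ↥(Cfsg.pCore 2 X)),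
      ∀ α u, Ψ α (QuotientGroup.mk u) = QuotientGroup.mk (α u) :=
    ⟨{ toFun := fun α => QuotientGroup.congr (frattini ↥(Cfsg.pCore 2 X))
          (frattini ↥(Cfsg.pCore 2 X)) α
          (Subgroup.characteristic_iff_map_eq.mp inferInstance α)
       map_one' := by
         ext x
         induction x using QuotientGroup.induction_on with
         | H u => rfl
       map_mul' := fun α β => by
         ext x
         induction x using QuotientGroup.induction_on with
         | H u => rfl }, fun α u => rfl⟩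
  have hkerΨ : ∀ α ∈ Ψ.ker, ∀ x : ↥(Cfsg.pCore 2 X), α x * x⁻¹ ∈ frattini ↥(Cfsg.pCore 2 X) := by
    intro α hα x
    have h1 : Ψ α (QuotientGroup.mk x) = QuotientGroup.mk x := by
      rw [MonoidHom.mem_ker.mp hα]; rfl
    rw [hΨ, QuotientGroup.eq] at h1
    have h2 := Subgroup.inv_mem _ h1
    have h3 := (inferInstance : (frattini ↥(Cfsg.pCore 2 X)).Normal).conj_mem _ h2 x
    have e : x * ((α x)⁻¹ * x)⁻¹ * x⁻¹ = α x * x⁻¹ := by group
    rw [← e]; exact h3
  have hΨp : IsPGroup 2 ↥Ψ.ker := by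
    have hdvd := Cfsg.Agent.S4207.result hn hr Ψ.ker hkerΨ
    obtain ⟨j, -, hj⟩ := (Nat.dvd_prime_pow Nat.prime_two).mp hdvd
    exact IsPGroup.of_card hj
  obtain ⟨g, hg⟩ := sl42_embed
  obtain ⟨F, hF⟩ : ∃ F : X →* ↥(alternatingGroup (Fin 8)),
      F = g.comp (Θ.comp (Ψ.comp (MulAut.conjNormal (H := Cfsg.pCore 2 X)))) := ⟨_, rfl⟩
  have hFker : ∀ x : X, F x = 1 ↔
      Ψ (MulAut.conjNormal (H := Cfsg.pCore 2 X) x) = 1 := by
    intro x
    rw [hF]
    constructor
    · intro h
      apply hΘ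
      apply hg
      rw [map_one, map_one]
      exact h
    · intro h
      show g (Θ (Ψ (MulAut.conjNormal (H := Cfsg.pCore 2 X) x))) = 1
      rw [h, map_one, map_one]
  have hker1 : Cfsg.pCore 2 X ≤ F.ker := by
    intro x hx
    rw [MonoidHom.mem_ker, hFker]
    ext v
    induction v using QuotientGroup.induction_on with
    | H u =>
      rw [hΨ, MulAut.one_apply]
      have e1 : MulAut.conjNormal (H := Cfsg.pCore 2 X) x u =
          (⟨x, hx⟩ : ↥(Cfsg.pCore 2 X)) * u * (⟨x, hx⟩ : ↥(Cfsg.pCore 2 X))⁻¹ := by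
        apply Subtype.ext
        rw [MulAut.conjNormal_apply]
        rfl
      rw [e1, QuotientGroup.mk_mul, QuotientGroup.mk_mul, hQcomm, QuotientGroup.mk_inv,
        inv_mul_cancel_left]
  have hker2 : F.ker ≤ Cfsg.pCore 2 X := by
    apply Cfsg.Agent.Lib.helper15.le_pCore (MonoidHom.normal_ker F)
    intro k
    have hk1 : Ψ (MulAut.conjNormal (H := Cfsg.pCore 2 X) (k : X)) = 1 :=
      (hFker _).mp (MonoidHom.mem_ker.mp k.2)
    obtain ⟨j, hj⟩ := hΨp ⟨MulAut.conjNormal (H := Cfsg.pCore 2 X) (k : X),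
      MonoidHom.mem_ker.mpr hk1⟩
    have hj' : (MulAut.conjNormal (H := Cfsg.pCore 2 X) (k : X)) ^ 2 ^ j = 1 :=
      congrArg Subtype.val hj
    rw [← map_pow] at hj'
    have hcen : (k : X) ^ 2 ^ j ∈ Subgroup.centralizer ((Cfsg.pCore 2 X : Subgroup X) : Set X) := by
      rw [Subgroup.mem_centralizer_iff]
      intro q hq
      have h5 := congrArg (fun α : MulAut ↥(Cfsg.pCore 2 X) =>
        ((α (⟨q, hq⟩ : ↥(Cfsg.pCore 2 X)) : ↥(Cfsg.pCore 2 X)) : X)) hj'
      simp only [MulAut.conjNormal_apply, MulAut.one_apply] at h5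
      calc q * (k : X) ^ 2 ^ j = ((k : X) ^ 2 ^ j * q * ((k : X) ^ 2 ^ j)⁻¹) * (k : X) ^ 2 ^ j := by
            rw [h5]
        _ = (k : X) ^ 2 ^ j * q := by group
    obtain ⟨i, hi⟩ := hPp ⟨(k : X) ^ 2 ^ j, hcent hcen⟩
    have hi' : ((k : X) ^ 2 ^ j) ^ 2 ^ i = 1 := congrArg Subtype.val hi
    refine ⟨j + i, Subtype.ext ?_⟩
    rw [Subgroup.coe_pow, pow_add, pow_mul, hi']
    rfl
  have hker : F.ker = Cfsg.pCore 2 X := le_antisymm hker2 hker1
  refine ⟨QuotientGroup.lift (Cfsg.pCore 2 X) F hker1, ?_⟩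
  rw [injective_iff_map_eq_one]
  intro a ha
  obtain ⟨x, rfl⟩ := QuotientGroup.mk_surjective a
  rw [QuotientGroup.lift_mk] at ha
  have hx : x ∈ F.ker := MonoidHom.mem_ker.mpr ha
  rw [hker] at hx
  exact (QuotientGroup.eq_one_iff x).mpr hx


end Cfsg.Agent.S3103
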