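import Cfsg.Statements.S3116
import Mathlib
import Cfsg.Agent.Lib.helper26.Chain

set_option autoImplicit false
open Cfsg

namespace Cfsg.Agent.S3116

open Cfsg.Agent.Lib.helper26

/-- A 2-group with a cyclic subgroup `⟨c⟩` of index 2 outside of which all elements have order
smaller than that of `c` has a 2-group of automorphisms. -/
theorem aut_two_group {X : Type*} [Group X] [Finite X] (h2 : IsPGroup 2 X) (c : X)
    (hcard : Nat.card X = 2 * orderOf c)
    (hout : ∀ g : X, g ∉ Subgroup.zpowers c → orderOf g < orderOf c) :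
    IsPGroup 2 (MulAut X) := by
  classical
  haveI : Fact (Nat.Prime 2) := ⟨Nat.prime_two⟩
  obtain ⟨e, he⟩ : ∃ e, orderOf c = 2 ^ e := by
    obtain ⟨k, hk⟩ := h2 c
    obtain ⟨j, -, hj⟩ := (Nat.dvd_prime_pow Nat.prime_two).mp (orderOf_dvd_of_pow_eq_one hk)
    exact ⟨j, hj⟩
  have hchar : ∀ a : MulAut X, a c ∈ Subgroup.zpowers c := by
    intro a
    by_contra hna
    have := hout _ hna
    rw [MulEquiv.orderOf_eq] at this
    exact lt_irrefl _ this
  have hidx : (Subgroup.zpowers c).index = 2 := by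
    have h1 := Subgroup.card_mul_index (Subgroup.zpowers c)
    rw [Nat.card_zpowers, hcard] at h1
    have hpos : 0 < orderOf c := orderOf_pos c
    exact Nat.eq_of_mul_eq_mul_left hpos (h1.trans (mul_comm _ _))
  have hpowk : ∀ a : MulAut X, ∃ k : ℕ, a c = c ^ k ∧ (1 ≤ e → Odd k) := by
    intro a
    have h1 := hchar a
    rw [← mem_powers_iff_mem_zpowers] at h1
    obtain ⟨k, hk⟩ := h1
    have hk' : c ^ k = a c := hk
    refine ⟨k, hk'.symm, fun he1 => ?_⟩
    have h3 : orderOf (c ^ k) = orderOf c := by rw [hk']; exact MulEquiv.orderOf_eq a c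
    rw [orderOf_pow, he] at h3
    by_contra hodd
    rw [Nat.not_odd_iff_even] at hodd
    have h2dvd : 2 ∣ Nat.gcd (2 ^ e) k := Nat.dvd_gcd (dvd_pow_self 2 (by omega)) hodd.two_dvd
    have hg : Nat.gcd (2 ^ e) k ∣ 2 ^ e := Nat.gcd_dvd_left _ _
    have h4 : 2 ^ e / Nat.gcd (2 ^ e) k * Nat.gcd (2 ^ e) k = 2 ^ e := Nat.div_mul_cancel hg
    rw [h3] at h4
    have hg1 : Nat.gcd (2 ^ e) k = 1 := by
      have hpos : 0 < 2 ^ e := by positivity
      exact Nat.eq_of_mul_eq_mul_left hpos (by rw [h4, mul_one])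
    rw [hg1] at h2dvd
    omega
  let L : ℕ → Subgroup X := fun i => if i ≤ e then Subgroup.zpowers (c ^ 2 ^ (e - i)) else ⊤
  have hL : ∀ i, ∀ a ∈ (⊤ : Subgroup (MulAut X)), ∀ x ∈ L i, a x ∈ L i := by
    intro i a _ x hx
    by_cases hi : i ≤ e
    · simp only [L, if_pos hi] at hx ⊢
      obtain ⟨t, rfl⟩ := Subgroup.mem_zpowers_iff.mp hx
      obtain ⟨k, hk, -⟩ := hpowk a
      rw [map_zpow, map_pow, hk, ← pow_mul, mul_comm, pow_mul]
      exact Subgroup.zpow_mem _ (Subgroup.pow_mem _ (Subgroup.mem_zpowers _) k) t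
    · simp only [L, if_neg hi]; exact Subgroup.mem_top _
  have h0 : L 0 = ⊥ := by
    simp only [L, if_pos (Nat.zero_le e), Nat.sub_zero]
    rw [← he, pow_orderOf_eq_one]; exact Subgroup.zpowers_one_eq_bot
  have hn : L (e + 1) = ⊤ := by
    simp only [L]; rw [if_neg (by omega)]
  have hP := chainStab_isPGroup h2 ⊤ L hL h0 (e + 1) hn
  have hstab : ∀ a : MulAut X, ∀ i, ∀ x ∈ L (i + 1), x⁻¹ * a x ∈ L i := by
    intro a i x hx
    by_cases hi : i + 1 ≤ e
    · have hi' : i ≤ e := by omega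
      simp only [L, if_pos hi] at hx
      simp only [L, if_pos hi']
      obtain ⟨t, rfl⟩ := Subgroup.mem_zpowers_iff.mp hx
      obtain ⟨k, hk, hodd⟩ := hpowk a
      obtain ⟨u, hu⟩ := hodd (by omega)
      obtain ⟨d, hd⟩ : ∃ d : X, d = c ^ 2 ^ (e - (i + 1)) := ⟨_, rfl⟩
      have hd2 : c ^ 2 ^ (e - i) = d ^ 2 := by
        rw [hd, ← pow_mul, ← pow_succ]; congr 2; omega
      have had : a d = (d ^ 2) ^ u * d := by
        rw [hd, map_pow, hk, ← pow_mul, mul_comm k, pow_mul, ← hd, hu, pow_succ, pow_mul]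
      rw [hd2, ← hd, map_zpow, had]
      have hc1 : Commute ((d ^ 2) ^ u) d := ((Commute.refl d).pow_left 2).pow_left u
      have hc2 : Commute (((d ^ 2) ^ u) ^ t) (d ^ t) := hc1.zpow_zpow t t
      rw [hc1.mul_zpow, hc2.eq, inv_mul_cancel_left]
      exact Subgroup.zpow_mem _ (Subgroup.pow_mem _ (Subgroup.mem_zpowers _) u) t
    · by_cases hie : i = e
      · have hle : i ≤ e := by omega
        simp only [L, if_neg hi, if_pos hle]
        rw [hie, Nat.sub_self, pow_zero, pow_one]
        rw [Subgroup.mul_mem_iff_of_index_two hidx, inv_mem_iff]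
        constructor
        · intro hxc
          obtain ⟨t, rfl⟩ := Subgroup.mem_zpowers_iff.mp hxc
          rw [map_zpow]; exact Subgroup.zpow_mem _ (hchar a) t
        · intro haxc
          obtain ⟨t, ht⟩ := Subgroup.mem_zpowers_iff.mp haxc
          have : x = (a⁻¹ c) ^ t := by rw [← map_zpow, ht]; simp
          rw [this]; exact Subgroup.zpow_mem _ (hchar a⁻¹) t
      · have : ¬ i ≤ e := by omega
        simp only [L, if_neg this]; exact Subgroup.mem_top _
  intro a
  have hmem : (⟨a, Subgroup.mem_top a⟩ : (⊤ : Subgroup (MulAut X))) ∈ chainStab ⊤ L hL :=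
    fun i x hx => hstab a i x hx
  obtain ⟨k, hk⟩ := hP ⟨⟨a, Subgroup.mem_top a⟩, hmem⟩
  refine ⟨k, ?_⟩
  have := congrArg (fun z : ↥(chainStab ⊤ L hL) => ((z : (⊤ : Subgroup (MulAut X))) : MulAut X)) hk
  simpa using this

/-- The automorphism group of a dihedral 2-group of order at least 8, or of a quasi-dihedral (semidihedral) 2-group of order at least 16, is a 2-group. -/
theorem result {X : Type*} [Group X] [Finite X] (h2 : IsPGroup 2 X)
    (h : (∃ n : ℕ, 4 ≤ n ∧ Nonempty (X ≃* DihedralGroup n)) ∨ Cfsg.IsQuasiDihedral X) : IsPGroup 2 (MulAut X) := by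
  classical
  rcases h with ⟨n, hn, ⟨e⟩⟩ | ⟨n, hn, hcard, x, y, hx, hy, hyx⟩
  · haveI : NeZero n := ⟨by omega⟩
    have hc : orderOf (e.symm (DihedralGroup.r 1)) = n := by
      rw [MulEquiv.orderOf_eq, DihedralGroup.orderOf_r_one]
    apply aut_two_group h2 (e.symm (DihedralGroup.r 1))
    · rw [hc, Nat.card_congr e.toEquiv, DihedralGroup.nat_card]
    · intro g hg
      rw [hc, ← MulEquiv.orderOf_eq e g]
      cases hge : e g with
      | r i =>
        exfalso
        apply hg
        have h1 : g = e.symm (DihedralGroup.r 1) ^ i.val := by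
          rw [← map_pow, DihedralGroup.r_one_pow, ZMod.natCast_zmod_val, ← hge]; simp
        rw [h1]; exact Subgroup.pow_mem _ (Subgroup.mem_zpowers _) _
      | sr i =>
        rw [DihedralGroup.orderOf_sr]; omega
  · have h8 : 8 ≤ 2 ^ n := by
      calc 8 = 2 ^ 3 := by norm_num
        _ ≤ 2 ^ n := Nat.pow_le_pow_right (by norm_num) hn
    have hcard' : Nat.card X = 2 * orderOf x := by rw [hcard, hx, pow_succ, mul_comm]
    apply aut_two_group h2 x hcard'
    intro g hg
    have hidx : (Subgroup.zpowers x).index = 2 := by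
      have h1 := Subgroup.card_mul_index (Subgroup.zpowers x)
      rw [Nat.card_zpowers, hcard'] at h1
      have hpos : 0 < orderOf x := orderOf_pos x
      exact Nat.eq_of_mul_eq_mul_left hpos (h1.trans (mul_comm _ _))
    have hy2 : y * y = 1 := by rw [← pow_two, ← hy, pow_orderOf_eq_one]
    have hyinv : y⁻¹ = y := inv_eq_of_mul_eq_one_right hy2
    have hyC : y ∉ Subgroup.zpowers x := by
      intro hyC
      obtain ⟨t, rfl⟩ := Subgroup.mem_zpowers_iff.mp hyC
      have h1 : x ^ t * x * (x ^ t)⁻¹ = x := by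
        have : Commute (x ^ t) x := (Commute.refl x).zpow_left t
        rw [this.eq, mul_inv_cancel_right]
      rw [h1] at hyx
      have h2 : x ^ 1 = x ^ (2 ^ (n - 1) - 1) := by rw [pow_one]; exact hyx
      rw [pow_eq_pow_iff_modEq, hx] at h2
      have h4 : 4 ≤ 2 ^ (n - 1) := by
        calc 4 = 2 ^ 2 := by norm_num
          _ ≤ 2 ^ (n - 1) := Nat.pow_le_pow_right (by norm_num) (by omega)
      have h5 : 2 ^ n = 2 * 2 ^ (n - 1) := by
        rw [← pow_succ']; congr 1; omega
      have h6 := h2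
      unfold Nat.ModEq at h6
      rw [Nat.mod_eq_of_lt (by omega), Nat.mod_eq_of_lt (by omega)] at h6
      omega
    have hgy : g * y ∈ Subgroup.zpowers x := by
      rw [Subgroup.mul_mem_iff_of_index_two hidx]
      exact iff_of_false hg hyC
    obtain ⟨t, ht⟩ := Subgroup.mem_zpowers_iff.mp hgy
    have hg' : g = x ^ t * y := by
      rw [ht, mul_assoc, hy2, mul_one]
    have hconj : y * x ^ t * y⁻¹ = (x ^ (2 ^ (n - 1) - 1)) ^ t := by
      rw [← hyx, conj_zpow]
    have hg2 : g ^ 2 = (x ^ (2 ^ (n - 1))) ^ t := by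
      have e1 : g ^ 2 = x ^ t * (y * x ^ t * y⁻¹) * (y * y) := by
        rw [hg', pow_two]; group
      rw [e1, hconj, hy2, mul_one]
      have e2 : x ^ 2 ^ (n - 1) = x * x ^ (2 ^ (n - 1) - 1) := by
        rw [← pow_succ']; congr 1
        have : 1 ≤ 2 ^ (n - 1) := Nat.one_le_two_pow
        omega
      have hcm : Commute x (x ^ (2 ^ (n - 1) - 1)) := (Commute.refl x).pow_right _
      rw [e2, hcm.mul_zpow]
    have hg4 : g ^ 4 = 1 := by
      have e3 : g ^ 4 = (g ^ 2) ^ 2 := by rw [← pow_mul]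
      rw [e3, hg2, ← zpow_natCast, ← zpow_mul, mul_comm, zpow_mul, zpow_natCast, ← pow_mul, ← pow_succ]
      have : n - 1 + 1 = n := by omega
      rw [this, ← hx, pow_orderOf_eq_one, one_zpow]
    have hle : orderOf g ≤ 4 := Nat.le_of_dvd (by norm_num) (orderOf_dvd_of_pow_eq_one hg4)
    rw [hx]; omega

end Cfsg.Agent.S3116
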