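import Mathlib
import Cfsg.Statements.S3362

set_option autoImplicit false
open Cfsg

namespace Cfsg.Agent.S3362

def gtab : Fin 8 → Fin 12 → Fin 12 :=
  ![![0, 1, 2, 4, 5, 3, 7, 8, 6, 10, 11, 9],
    ![0, 1, 2, 6, 7, 8, 9, 10, 11, 3, 4, 5],
    ![0, 1, 2, 3, 6, 9, 5, 8, 11, 4, 7, 10],
    ![0, 1, 2, 3, 7, 11, 10, 5, 6, 8, 9, 4],
    ![0, 1, 2, 3, 10, 8, 11, 6, 4, 7, 5, 9],
    ![3, 1, 2, 0, 4, 5, 7, 6, 10, 11, 8, 9],
    ![1, 0, 2, 3, 4, 5, 9, 10, 11, 6, 7, 8],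
    ![0, 2, 1, 3, 4, 5, 11, 9, 10, 7, 8, 6]]

def Wt : ℕ → Fin 12 → List (Fin 8)
  | 0 => ![[6, 7], [7], [], [5, 6, 7], [0, 5, 6, 7], [0, 0, 5, 6, 7], [1, 5, 6, 7], [1, 0, 5, 6, 7], [1, 0, 0, 5, 6, 7], [1, 1, 5, 6, 7], [4, 0, 5, 6, 7], [4, 1, 5, 6, 7]]
  | 1 => ![[6], [], [], [5, 6], [0, 5, 6], [0, 0, 5, 6], [1, 5, 6], [1, 0, 5, 6], [1, 0, 0, 5, 6], [1, 1, 5, 6], [4, 0, 5, 6], [4, 1, 5, 6]]
  | 2 => ![[], [], [], [5], [0, 5], [0, 0, 5], [1, 5], [1, 0, 5], [1, 0, 0, 5], [1, 1, 5], [4, 0, 5], [4, 1, 5]]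
  | 3 => ![[], [], [], [], [0], [0, 0], [1], [1, 0], [1, 0, 0], [1, 1], [4, 0], [4, 1]]
  | 4 => ![[], [], [], [], [], [2, 2], [2], [3], [2, 3], [3, 4], [4], [4, 2]]
  | _ => fun _ => []

def Sct : ℕ → Fin 8 → Fin 12 → List (Fin 8)
  | 0 => ![![[0], [0], [0], [], [], [], [], [], [], [3, 4], [], [2]],
      ![[1, 0], [4, 1, 2, 3], [1], [], [], [], [], [3, 4], [3, 4], [], [2], [2]],
      ![[3], [4, 2], [2], [2, 3], [2, 3], [2, 3], [2, 3], [2, 3], [3], [2, 3], [3], [4]],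
      ![[2, 3], [3, 4], [3], [3], [3], [4], [4], [3], [3], [3], [4], [4]],
      ![[3, 4], [2, 3], [4], [2], [], [2], [], [2], [2], [2], [2, 2], [2, 2]],
      ![[], [5], [5], [], [0, 0, 2, 2], [0, 2, 2], [4, 1, 3], [4, 0, 4, 2], [0, 0, 3, 4], [4, 0, 2, 3], [1, 2], [1, 0, 0]],
      ![[], [], [6], [5], [5], [5], [5], [5, 4, 2], [5, 4, 2], [5], [5, 2], [5, 2]],
      ![[6], [], [], [6], [6], [6], [6, 2], [6], [6, 2], [6], [6, 2], [6, 2]]]
  | 1 => ![![[0], [0], [], [], [], [], [], [], [], [3], [], [4, 2]],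
      ![[1, 1], [1], [], [], [], [], [], [3], [3], [], [4, 2], [4, 2]],
      ![[3, 4], [2], [], [4], [4], [4], [4], [4], [3, 4], [4], [3, 4], [2, 3]],
      ![[4], [3], [], [3, 4], [3, 4], [2, 3], [2, 3], [3, 4], [3, 4], [3, 4], [2, 3], [2, 3]],
      ![[3], [4], [], [4, 2], [], [4, 2], [], [4, 2], [4, 2], [4, 2], [2, 2], [2, 2]],
      ![[], [5], [], [], [0, 0, 2, 2], [0, 2, 2], [1, 4, 2], [1, 0, 0, 3], [0, 0, 3], [1, 0, 0], [4, 1, 2], [4, 0, 2, 3]],
      ![[], [], [], [5], [5], [5], [5], [5, 2], [5, 2], [5], [5, 4, 2], [5, 4, 2]],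
      ![[], [], [], [], [], [], [], [], [], [], [], []]]
  | 2 => ![![[0], [], [], [], [], [], [], [], [], [4], [], [2, 3]],
      ![[1], [], [], [], [], [], [], [4], [4], [], [2, 3], [2, 3]],
      ![[2], [], [], [3], [3], [3], [3], [3], [2], [3], [2], [4, 2]],
      ![[3], [], [], [2], [2], [4, 2], [4, 2], [2], [2], [2], [4, 2], [4, 2]],
      ![[4], [], [], [2, 3], [], [2, 3], [], [2, 3], [2, 3], [2, 3], [2, 2], [2, 2]],
      ![[], [], [], [], [0, 0, 2, 2], [0, 2, 2], [1, 1, 2, 3], [4, 1], [0, 0, 4], [4, 1, 2, 3], [1, 0, 0, 2, 3], [1, 0]],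
      ![[], [], [], [], [], [], [], [], [], [], [], []],
      ![[], [], [], [], [], [], [], [], [], [], [], []]]
  | 3 => ![![[], [], [], [], [], [], [], [], [], [2, 3], [], [4]],
      ![[], [], [], [], [], [], [], [2, 3], [2, 3], [], [4], [4]],
      ![[], [], [], [2], [2], [2], [2], [2], [3], [2], [3], [3, 4]],
      ![[], [], [], [3], [3], [3, 4], [3, 4], [3], [3], [3], [3, 4], [3, 4]],
      ![[], [], [], [4], [], [4], [], [4], [4], [4], [2, 2], [2, 2]],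
      ![[], [], [], [], [], [], [], [], [], [], [], []],
      ![[], [], [], [], [], [], [], [], [], [], [], []],
      ![[], [], [], [], [], [], [], [], [], [], [], []]]
  | 4 => ![![[], [], [], [], [], [], [], [], [], [], [], []],
      ![[], [], [], [], [], [], [], [], [], [], [], []],
      ![[], [], [], [], [], [], [], [], [], [], [], []],
      ![[], [], [], [], [], [], [], [], [], [], [], []],
      ![[], [], [], [], [], [], [], [], [], [], [], []],
      ![[], [], [], [], [], [], [], [], [], [], [], []],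
      ![[], [], [], [], [], [], [], [], [], [], [], []],
      ![[], [], [], [], [], [], [], [], [], [], [], []]]
  | _ => fun _ _ => []


/-- evaluation of words on points -/
def evw : List (Fin 8) → Fin 12 → Fin 12
  | [], x => x
  | j :: w, x => gtab j (evw w x)

/-- the eight generators -/
def gen : Fin 8 → Equiv.Perm (Fin 12) :=
  ![Equiv.swap (3 : Fin 12) 5 * Equiv.swap (3 : Fin 12) 4 * Equiv.swap (6 : Fin 12) 8 * Equiv.swap (6 : Fin 12) 7 * Equiv.swap (9 : Fin 12) 11 * Equiv.swap (9 : Fin 12) 10,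
    Equiv.swap (3 : Fin 12) 9 * Equiv.swap (3 : Fin 12) 6 * Equiv.swap (4 : Fin 12) 10 * Equiv.swap (4 : Fin 12) 7 * Equiv.swap (5 : Fin 12) 11 * Equiv.swap (5 : Fin 12) 8,
    Equiv.swap (4 : Fin 12) 9 * Equiv.swap (4 : Fin 12) 5 * Equiv.swap (4 : Fin 12) 6 * Equiv.swap (7 : Fin 12) 10 * Equiv.swap (7 : Fin 12) 11 * Equiv.swap (7 : Fin 12) 8,
    Equiv.swap (4 : Fin 12) 11 * Equiv.swap (4 : Fin 12) 5 * Equiv.swap (4 : Fin 12) 7 * Equiv.swap (6 : Fin 12) 8 * Equiv.swap (6 : Fin 12) 9 * Equiv.swap (6 : Fin 12) 10,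
    Equiv.swap (4 : Fin 12) 8 * Equiv.swap (4 : Fin 12) 5 * Equiv.swap (4 : Fin 12) 10 * Equiv.swap (6 : Fin 12) 7 * Equiv.swap (6 : Fin 12) 9 * Equiv.swap (6 : Fin 12) 11,
    Equiv.swap (0 : Fin 12) 3 * Equiv.swap (6 : Fin 12) 7 * Equiv.swap (8 : Fin 12) 10 * Equiv.swap (9 : Fin 12) 11,
    Equiv.swap (0 : Fin 12) 1 * Equiv.swap (6 : Fin 12) 9 * Equiv.swap (7 : Fin 12) 10 * Equiv.swap (8 : Fin 12) 11,
    Equiv.swap (1 : Fin 12) 2 * Equiv.swap (6 : Fin 12) 11 * Equiv.swap (7 : Fin 12) 9 * Equiv.swap (8 : Fin 12) 10]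

theorem gen_apply : ∀ (j : Fin 8) (x : Fin 12), gen j x = gtab j x := by decide

/-- evaluation of words as permutations -/
def evp (w : List (Fin 8)) : Equiv.Perm (Fin 12) := (w.map gen).prod

theorem evp_nil : evp [] = 1 := rfl

theorem evp_cons (j : Fin 8) (w : List (Fin 8)) : evp (j :: w) = gen j * evp w := by
  simp [evp]

theorem evp_append (w1 w2 : List (Fin 8)) : evp (w1 ++ w2) = evp w1 * evp w2 := by
  simp [evp]

theorem evp_apply (w : List (Fin 8)) (x : Fin 12) : evp w x = evw w x := by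
  induction w with
  | nil => rfl
  | cons j w ih =>
    rw [evp_cons, Equiv.Perm.mul_apply, ih, gen_apply]
    rfl

/-- allowed letters at each level of the stabilizer chain -/
def al : ℕ → Fin 8 → Bool
  | 0, _ => true
  | 1, j => decide (j.val < 7)
  | 2, j => decide (j.val < 6)
  | 3, j => decide (j.val < 5)
  | 4, j => decide (2 ≤ j.val ∧ j.val < 5)
  | _, _ => false

/-- points fixed at each level -/
def fixd : ℕ → List (Fin 12)
  | 0 => []
  | 1 => [2]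
  | 2 => [1, 2]
  | 3 => [0, 1, 2]
  | 4 => [3, 0, 1, 2]
  | _ => [4, 3, 0, 1, 2]

/-- base points -/
def bp : ℕ → Fin 12
  | 0 => 2
  | 1 => 1
  | 2 => 0
  | 3 => 3
  | 4 => 4
  | _ => 0

/-- the groups of the stabilizer chain -/
def Gr (i : ℕ) : Subgroup (Equiv.Perm (Fin 12)) :=
  Subgroup.closure {g | ∃ j, al i j = true ∧ g = gen j}

theorem chk1 : ∀ i < 5, ∀ c : Fin 12, ∀ l ∈ Wt i c, al i l = true := by decide +kernel

theorem chk2 : ∀ i < 5, ∀ j : Fin 8, ∀ c : Fin 12, ∀ l ∈ Sct i j c, al (i + 1) l = true := by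
  decide +kernel

theorem chk3 : ∀ i < 5, ∀ (j : Fin 8) (c : Fin 12), (al i j = true ∧ c ∉ fixd i) →
    (gtab j c ∉ fixd i ∧
      ∀ x : Fin 12, evw (j :: Wt i c) x = evw (Wt i (gtab j c) ++ Sct i j c) x) := by
  decide +kernel

theorem chk4 : ∀ i < 5, ∀ j : Fin 8, al (i + 1) j = true → al i j = true := by decide +kernel

theorem chk5 : ∀ i < 5, Wt i (bp i) = [] ∧ bp i ∉ fixd i ∧ fixd (i + 1) = bp i :: fixd i ∧
    bp i ∈ fixd 5 := by decide +kernel

theorem chk6 : ∀ i < 6, ∀ (j : Fin 8) (a : Fin 12), (al i j = true ∧ a ∈ fixd i) → gtab j a = a := by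
  decide +kernel

theorem chk7 : ∀ i < 5, ∀ c : Fin 12, c ∉ fixd i → evw (Wt i c) (bp i) = c := by decide +kernel

theorem perm_apply_inv (f : Equiv.Perm (Fin 12)) (x : Fin 12) : f (f⁻¹ x) = x := by
  rw [← Equiv.Perm.mul_apply, mul_inv_cancel]; rfl

theorem perm_inv_apply (f : Equiv.Perm (Fin 12)) (x : Fin 12) : f⁻¹ (f x) = x := by
  rw [← Equiv.Perm.mul_apply, inv_mul_cancel]; rfl

theorem al5 : ∀ j : Fin 8, al 5 j = false := by decide

theorem al_lt (i : ℕ) (j : Fin 8) (h : al i j = true) : i < 5 := by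
  by_contra hi
  have h5 : 5 ≤ i := by omega
  obtain ⟨k, rfl⟩ := Nat.exists_eq_add_of_le h5
  have : al (5 + k) j = false := by
    rw [show 5 + k = k + 5 by omega]
    rfl
  rw [this] at h
  exact Bool.false_ne_true h

theorem Gr_mono (i : ℕ) : Gr (i + 1) ≤ Gr i := by
  apply Subgroup.closure_mono
  rintro g ⟨j, hj, rfl⟩
  have hi : i < 5 := by
    have := al_lt _ _ hj
    omega
  exact ⟨j, chk4 i hi j hj, rfl⟩

theorem gen_mem (i : ℕ) (j : Fin 8) (h : al i j = true) : gen j ∈ Gr i :=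
  Subgroup.subset_closure ⟨j, h, rfl⟩

theorem evp_mem (i : ℕ) (w : List (Fin 8)) (h : ∀ l ∈ w, al i l = true) : evp w ∈ Gr i := by
  induction w with
  | nil => rw [evp_nil]; exact Subgroup.one_mem _
  | cons j w ih =>
    rw [evp_cons]
    exact Subgroup.mul_mem _ (gen_mem i j (h j (List.mem_cons_self)))
      (ih (fun l hl => h l (List.mem_cons_of_mem _ hl)))

theorem Gr_fix (i : ℕ) (g : Equiv.Perm (Fin 12)) (hg : g ∈ Gr i) : ∀ a ∈ fixd i, g a = a := by
  induction hg using Subgroup.closure_induction with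
  | mem x hx =>
    obtain ⟨j, hj, rfl⟩ := hx
    intro a ha
    have hi : i < 6 := by
      have := al_lt _ _ hj
      omega
    rw [gen_apply]
    exact chk6 i hi j a ⟨hj, ha⟩
  | one => intro a _; rfl
  | mul x y _ _ ihx ihy =>
    intro a ha
    rw [Equiv.Perm.mul_apply, ihy a ha, ihx a ha]
  | inv x _ ih =>
    intro a ha
    rw [Equiv.Perm.inv_eq_iff_eq, ih a ha]

/-- Schreier's lemma for one level of the chain -/
theorem level (i : ℕ) (hi : i < 5) (g : Equiv.Perm (Fin 12)) (hg : g ∈ Gr i) :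
    ∃ c : Fin 12, c ∉ fixd i ∧ ∃ h ∈ Gr (i + 1), g = evp (Wt i c) * h := by
  have key : ∀ g : Equiv.Perm (Fin 12), g ∈ Gr i → ∀ x : Equiv.Perm (Fin 12),
      (∃ c : Fin 12, c ∉ fixd i ∧ ∃ h ∈ Gr (i + 1), x = evp (Wt i c) * h) →
      ∃ c : Fin 12, c ∉ fixd i ∧ ∃ h ∈ Gr (i + 1), g * x = evp (Wt i c) * h := by
    intro g hg
    induction hg using Subgroup.closure_induction with
    | mem y hy =>
      obtain ⟨j, hj, rfl⟩ := hy
      rintro x ⟨c, hc, h, hh, rfl⟩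
      obtain ⟨h1, h2⟩ := chk3 i hi j c ⟨hj, hc⟩
      refine ⟨gtab j c, h1, evp (Sct i j c) * h, ?_, ?_⟩
      · exact Subgroup.mul_mem _ (evp_mem _ _ (chk2 i hi j c)) hh
      · rw [← mul_assoc, ← mul_assoc, ← evp_cons, ← evp_append]
        congr 1
        ext x
        rw [evp_apply, evp_apply, h2 x]
    | one =>
      intro x hx
      rw [one_mul]
      exact hx
    | mul a b _ _ iha ihb =>
      intro x hx
      rw [mul_assoc]
      exact iha _ (ihb x hx)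
    | inv a _ iha =>
      intro x hx
      have hpow : ∀ k : ℕ, ∃ c : Fin 12, c ∉ fixd i ∧ ∃ h ∈ Gr (i + 1),
          a ^ k * x = evp (Wt i c) * h := by
        intro k
        induction k with
        | zero => rw [pow_zero, one_mul]; exact hx
        | succ k ih =>
          rw [pow_succ', mul_assoc]
          exact iha _ ih
      have hinv : a⁻¹ = a ^ (orderOf a - 1) := by
        rw [inv_eq_iff_mul_eq_one, ← pow_succ', Nat.sub_add_cancel (orderOf_pos a),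
          pow_orderOf_eq_one]
      rw [hinv]
      exact hpow _
  have h1 := key g hg 1 ⟨bp i, (chk5 i hi).2.1, 1, Subgroup.one_mem _, by
    rw [(chk5 i hi).1, evp_nil, one_mul]⟩
  rwa [mul_one] at h1

theorem Gr5 (g : Equiv.Perm (Fin 12)) (hg : g ∈ Gr 5) : g = 1 := by
  have h : {g : Equiv.Perm (Fin 12) | ∃ j, al 5 j = true ∧ g = gen j} = ∅ := by
    ext x
    constructor
    · rintro ⟨j, hj, _⟩
      rw [al5 j] at hj
      exact absurd hj Bool.false_ne_true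
    · intro hx
      exact absurd hx (Set.notMem_empty x)
  unfold Gr at hg
  rw [h, Subgroup.closure_empty] at hg
  exact Subgroup.mem_bot.mp hg

/-- the only element of the chain fixing all base points is the identity -/
theorem sharp (k : ℕ) : ∀ i : ℕ, i + k = 5 → ∀ g : Equiv.Perm (Fin 12), g ∈ Gr i →
    (∀ a ∈ fixd 5, g a = a) → g = 1 := by
  induction k with
  | zero =>
    intro i hi g hg _
    have : i = 5 := by omega
    subst this
    exact Gr5 g hg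
  | succ k ih =>
    intro i hi g hg hfix
    have hi5 : i < 5 := by omega
    obtain ⟨c, hc, h, hh, rfl⟩ := level i hi5 g hg
    obtain ⟨e1, e2, e3, e4⟩ := chk5 i hi5
    have hb : h (bp i) = bp i := by
      apply Gr_fix (i + 1) h hh
      rw [e3]
      exact List.mem_cons_self
    have h2 := hfix (bp i) e4
    rw [Equiv.Perm.mul_apply, hb, evp_apply, chk7 i hi5 c hc] at h2
    rw [h2, e1, evp_nil, one_mul] at hfix ⊢
    exact ih (i + 1) (by omega) h hh hfix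

/-- the chain realises every permutation on the base points -/
theorem trans (k : ℕ) : ∀ i : ℕ, i + k = 5 → ∀ σ : Equiv.Perm (Fin 12),
    (∀ a ∈ fixd i, σ a = a) → ∃ g ∈ Gr i, ∀ a ∈ fixd 5, g a = σ a := by
  induction k with
  | zero =>
    intro i hi σ hσ
    have : i = 5 := by omega
    subst this
    exact ⟨1, Subgroup.one_mem _, fun a ha => (hσ a ha).symm⟩
  | succ k ih =>
    intro i hi σ hσ
    have hi5 : i < 5 := by omega
    obtain ⟨e1, e2, e3, e4⟩ := chk5 i hi5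
    have hc : σ (bp i) ∉ fixd i := by
      intro hmem
      have h1 := hσ _ hmem
      have h2 := σ.injective h1
      rw [h2] at hmem
      exact e2 hmem
    have hu : evp (Wt i (σ (bp i))) ∈ Gr i := evp_mem _ _ (chk1 i hi5 _)
    have hub : evp (Wt i (σ (bp i))) (bp i) = σ (bp i) := by
      rw [evp_apply, chk7 i hi5 _ hc]
    obtain ⟨h, hh, hprop⟩ := ih (i + 1) (by omega) ((evp (Wt i (σ (bp i))))⁻¹ * σ) (by
      intro a ha
      rw [e3] at ha
      rw [Equiv.Perm.mul_apply, Equiv.Perm.inv_eq_iff_eq]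
      rcases List.mem_cons.mp ha with rfl | ha'
      · exact hub.symm
      · rw [hσ a ha', Gr_fix i _ hu a ha'])
    refine ⟨evp (Wt i (σ (bp i))) * h, Subgroup.mul_mem _ hu (Gr_mono i hh), ?_⟩
    intro a ha
    rw [Equiv.Perm.mul_apply, hprop a ha, Equiv.Perm.mul_apply, perm_apply_inv]

/-- the base, as an embedding -/
def Bemb : Fin 5 ↪ Fin 12 := ⟨![2, 1, 0, 3, 4], by decide⟩

theorem Bemb_mem : ∀ k : Fin 5, Bemb k ∈ fixd 5 := by decide

theorem fixd_Bemb : ∀ a ∈ fixd 5, ∃ k : Fin 5, Bemb k = a := by decide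

theorem exists_map (y : Fin 5 ↪ Fin 12) : ∃ g ∈ Gr 0, ∀ k : Fin 5, g (Bemb k) = y k := by
  obtain ⟨σ, hσ⟩ := Equiv.Perm.exists_smul_eq_embedding Bemb y
  obtain ⟨g, hg, hprop⟩ := trans 5 0 rfl σ (by intro a ha; exact absurd ha (List.not_mem_nil))
  refine ⟨g, hg, ?_⟩
  intro k
  rw [hprop _ (Bemb_mem k), ← hσ]
  rfl

theorem Gr0_eq : Gr 0 = Subgroup.closure {gen 0, gen 1, gen 2, gen 3, gen 4, gen 5, gen 6, gen 7} := by
  unfold Gr
  congr 1
  ext g
  constructor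
  · rintro ⟨j, _, rfl⟩
    fin_cases j <;> simp
  · intro hg
    simp only [Set.mem_insert_iff, Set.mem_singleton_iff] at hg
    rcases hg with rfl | rfl | rfl | rfl | rfl | rfl | rfl | rfl
    · exact ⟨0, rfl, rfl⟩
    · exact ⟨1, rfl, rfl⟩
    · exact ⟨2, rfl, rfl⟩
    · exact ⟨3, rfl, rfl⟩
    · exact ⟨4, rfl, rfl⟩
    · exact ⟨5, rfl, rfl⟩
    · exact ⟨6, rfl, rfl⟩
    · exact ⟨7, rfl, rfl⟩

theorem Gr1_eq : Gr 1 = Subgroup.closure {gen 0, gen 1, gen 2, gen 3, gen 4, gen 5, gen 6} := by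
  unfold Gr
  congr 1
  ext g
  constructor
  · rintro ⟨j, hj, rfl⟩
    fin_cases j
    · simp
    · simp
    · simp
    · simp
    · simp
    · simp
    · simp
    · exact absurd hj (by decide)
  · intro hg
    simp only [Set.mem_insert_iff, Set.mem_singleton_iff] at hg
    rcases hg with rfl | rfl | rfl | rfl | rfl | rfl | rfl
    · exact ⟨0, rfl, rfl⟩
    · exact ⟨1, rfl, rfl⟩
    · exact ⟨2, rfl, rfl⟩
    · exact ⟨3, rfl, rfl⟩
    · exact ⟨4, rfl, rfl⟩
    · exact ⟨5, rfl, rfl⟩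
    · exact ⟨6, rfl, rfl⟩

theorem Gr1_eq_inf : Gr 1 = Gr 0 ⊓ MulAction.stabilizer (Equiv.Perm (Fin 12)) (2 : Fin 12) := by
  apply le_antisymm
  · intro g hg
    rw [Subgroup.mem_inf]
    refine ⟨Gr_mono 0 hg, ?_⟩
    show g (2 : Fin 12) = 2
    exact Gr_fix 1 g hg 2 (by decide)
  · intro g hg
    rw [Subgroup.mem_inf] at hg
    obtain ⟨hg0, hg2'⟩ := hg
    have hg2 : g (2 : Fin 12) = 2 := hg2'
    obtain ⟨c, hc, h, hh, rfl⟩ := level 0 (by norm_num) g hg0
    have hh2 : h 2 = 2 := Gr_fix 1 h hh 2 (by decide)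
    have h3 : (evp (Wt 0 c) * h) 2 = 2 := hg2
    rw [Equiv.Perm.mul_apply, hh2, evp_apply] at h3
    have h4 := chk7 0 (by norm_num) c hc
    have h5 : c = 2 := by
      rw [← h4]
      exact h3
    subst h5
    have h6 : Wt 0 2 = [] := (chk5 0 (by norm_num)).1
    rw [h6, evp_nil, one_mul]
    exact hh

theorem stab_bot (y : Fin 5 ↪ Fin 12) : MulAction.stabilizer (Gr 0) y = ⊥ := by
  rw [Subgroup.eq_bot_iff_forall]
  intro g hg
  rw [MulAction.mem_stabilizer_iff] at hg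
  obtain ⟨h, hh, hprop⟩ := exists_map y
  have hgy : ∀ k : Fin 5, (g : Equiv.Perm (Fin 12)) (y k) = y k := by
    intro k
    have := congrArg (fun z : Fin 5 ↪ Fin 12 => z k) hg
    exact this
  have h1 : h⁻¹ * (g : Equiv.Perm (Fin 12)) * h = 1 := by
    apply sharp 5 0 rfl _ (Subgroup.mul_mem _ (Subgroup.mul_mem _ (Subgroup.inv_mem _ hh) g.2) hh)
    intro a ha
    obtain ⟨k, rfl⟩ := fixd_Bemb a ha
    rw [Equiv.Perm.mul_apply, Equiv.Perm.mul_apply, hprop k, hgy k, Equiv.Perm.inv_eq_iff_eq,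
      hprop k]
  apply Subtype.ext
  have h2 : (g : Equiv.Perm (Fin 12)) = h * (h⁻¹ * (g : Equiv.Perm (Fin 12)) * h) * h⁻¹ := by group
  rw [h2, h1]
  simp

theorem pretrans : MulAction.IsMultiplyPretransitive (Gr 0) (Fin 12) 5 := by
  rw [MulAction.isMultiplyPretransitive_iff]
  intro x y
  obtain ⟨gx, hgx, hx⟩ := exists_map x
  obtain ⟨gy, hgy, hy⟩ := exists_map y
  refine ⟨⟨gy * gx⁻¹, Subgroup.mul_mem _ hgy (Subgroup.inv_mem _ hgx)⟩, ?_⟩
  ext k
  show ((gy * gx⁻¹) (x k) : ℕ) = y k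
  rw [← hx k, Equiv.Perm.mul_apply, perm_inv_apply, hy k]

theorem card_Gr0 : Nat.card (Gr 0) = 95040 := by
  have hbij : Function.Bijective (fun g : Gr 0 => g • Bemb) := by
    constructor
    · intro g1 g2 h
      have h' : ∀ k : Fin 5, (g1 : Equiv.Perm (Fin 12)) (Bemb k) = (g2 : Equiv.Perm (Fin 12)) (Bemb k) := by
        intro k
        have := congrArg (fun z : Fin 5 ↪ Fin 12 => z k) h
        exact this
      have h1 : (g2 : Equiv.Perm (Fin 12))⁻¹ * (g1 : Equiv.Perm (Fin 12)) = 1 := by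
        apply sharp 5 0 rfl _ (Subgroup.mul_mem _ (Subgroup.inv_mem _ g2.2) g1.2)
        intro a ha
        obtain ⟨k, rfl⟩ := fixd_Bemb a ha
        rw [Equiv.Perm.mul_apply, h' k, perm_inv_apply]
      apply Subtype.ext
      exact (inv_mul_eq_one.mp h1).symm
    · intro y
      have := pretrans
      exact MulAction.exists_smul_eq (Gr 0) Bemb y
  rw [Nat.card_congr (Equiv.ofBijective _ hbij), Nat.card_eq_fintype_card,
    Fintype.card_embedding_eq, Fintype.card_fin, Fintype.card_fin]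
  rfl

theorem card_Gr1 : Nat.card (Gr 1) = 7920 := by
  have hstab : MulAction.stabilizer (Gr 0) (2 : Fin 12) = (Gr 1).subgroupOf (Gr 0) := by
    ext g
    rw [MulAction.mem_stabilizer_iff, Subgroup.mem_subgroupOf, Gr1_eq_inf]
    constructor
    · intro h
      exact ⟨g.2, h⟩
    · intro h
      exact h.2
  have horb : MulAction.orbit (Gr 0) (2 : Fin 12) = Set.univ := by
    apply Set.eq_univ_of_forall
    intro c
    refine ⟨⟨evp (Wt 0 c), evp_mem _ _ (chk1 0 (by norm_num) c)⟩, ?_⟩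
    show evp (Wt 0 c) 2 = c
    rw [evp_apply]
    exact chk7 0 (by norm_num) c (by intro h; exact absurd h (List.not_mem_nil))
  have h1 := MulAction.index_stabilizer (Gr 0) (2 : Fin 12)
  rw [horb, Set.ncard_univ, Nat.card_eq_fintype_card, Fintype.card_fin, hstab] at h1
  have h2 := Subgroup.card_mul_index ((Gr 1).subgroupOf (Gr 0))
  rw [h1, card_Gr0, Nat.card_congr (Subgroup.subgroupOfEquivOfLe (Gr_mono 0)).toEquiv] at h2
  have h3 : Nat.card (Gr 1) * 12 = 95040 := h2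
  omega

/-- An explicit construction of the Mathieu groups of degrees 11 and 12. On the points 0, …, 11 let s = (3 4 5)(6 7 8)(9 10 11), t = (3 6 9)(4 7 10)(5 8 11), u = (4 6 5 9)(7 8 11 10), v = (4 7 5 11)(6 10 9 8), w = (4 10 5 8)(6 11 9 7), x₁ = (0 3)(6 7)(8 10)(9 11), x₂ = (0 1)(6 9)(7 10)(8 11), x₃ = (1 2)(6 11)(7 9)(8 10) (each written as a product of transpositions). Then the group M₁₂ generated by all eight permutations is sharply 5-transitive on the 12 points and has order 95040, and the group M₁₁ generated by the first seven has order 7920 and is the stabilizer of the point 2 in M₁₂. -/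
theorem result
    (s t u v w x₁ x₂ x₃ : Equiv.Perm (Fin 12))
    (hs : s = Equiv.swap (3 : Fin 12) 5 * Equiv.swap (3 : Fin 12) 4 * Equiv.swap (6 : Fin 12) 8 * Equiv.swap (6 : Fin 12) 7 * Equiv.swap (9 : Fin 12) 11 * Equiv.swap (9 : Fin 12) 10) (ht : t = Equiv.swap (3 : Fin 12) 9 * Equiv.swap (3 : Fin 12) 6 * Equiv.swap (4 : Fin 12) 10 * Equiv.swap (4 : Fin 12) 7 * Equiv.swap (5 : Fin 12) 11 * Equiv.swap (5 : Fin 12) 8)
    (hu : u = Equiv.swap (4 : Fin 12) 9 * Equiv.swap (4 : Fin 12) 5 * Equiv.swap (4 : Fin 12) 6 * Equiv.swap (7 : Fin 12) 10 * Equiv.swap (7 : Fin 12) 11 * Equiv.swap (7 : Fin 12) 8) (hv : v = Equiv.swap (4 : Fin 12) 11 * Equiv.swap (4 : Fin 12) 5 * Equiv.swap (4 : Fin 12) 7 * Equiv.swap (6 : Fin 12) 8 * Equiv.swap (6 : Fin 12) 9 * Equiv.swap (6 : Fin 12) 10) (hw : w = Equiv.swap (4 : Fin 12) 8 * Equiv.swap (4 : Fin 12) 5 * Equiv.swap (4 : Fin 12) 10 * Equiv.swap (6 : Fin 12) 7 * Equiv.swap (6 :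 Fin 12) 9 * Equiv.swap (6 : Fin 12) 11)
    (hx₁ : x₁ = Equiv.swap (0 : Fin 12) 3 * Equiv.swap (6 : Fin 12) 7 * Equiv.swap (8 : Fin 12) 10 * Equiv.swap (9 : Fin 12) 11) (hx₂ : x₂ = Equiv.swap (0 : Fin 12) 1 * Equiv.swap (6 : Fin 12) 9 * Equiv.swap (7 : Fin 12) 10 * Equiv.swap (8 : Fin 12) 11)
    (hx₃ : x₃ = Equiv.swap (1 : Fin 12) 2 * Equiv.swap (6 : Fin 12) 11 * Equiv.swap (7 : Fin 12) 9 * Equiv.swap (8 : Fin 12) 10)
    (M₁₂ M₁₁ : Subgroup (Equiv.Perm (Fin 12))) (hM₁₂ : M₁₂ = Subgroup.closure {s, t, u, v, w, x₁, x₂, x₃})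
    (hM₁₁ : M₁₁ = Subgroup.closure {s, t, u, v, w, x₁, x₂}) :
    MulAction.IsMultiplyPretransitive M₁₂ (Fin 12) 5 ∧ (∀ y : Fin 5 ↪ Fin 12, MulAction.stabilizer M₁₂ y = ⊥) ∧
    Nat.card M₁₂ = 95040 ∧ Nat.card M₁₁ = 7920 ∧
    M₁₁ = M₁₂ ⊓ MulAction.stabilizer (Equiv.Perm (Fin 12)) (2 : Fin 12) := by
  subst hs ht hu hv hw hx₁ hx₂ hx₃
  have e12 : M₁₂ = Gr 0 := by
    rw [hM₁₂, Gr0_eq]
    rfl
  have e11 : M₁₁ = Gr 1 := by
    rw [hM₁₁, Gr1_eq]
    rfl
  subst e12 e11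
  exact ⟨pretrans, stab_bot, card_Gr0, card_Gr1, Gr1_eq_inf⟩

end Cfsg.Agent.S3362
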