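import Mathlib
import Cfsg.Statements.S3374
import Cfsg.Agent.Lib.helper17.SL25

set_option autoImplicit false
open Cfsg

namespace Cfsg.Agent.S3374

open Cfsg.Agent.Lib.helper17.SL25
open scoped Pointwise

/-- a semidirect product with fixed-point-free action is a Frobenius group -/
theorem frob_of_fpf {N H : Type*} [Group N] [Group H] (φ : H →* MulAut N) [hN : Nontrivial N]
    [hH : Nontrivial H] (hfpf : ∀ h : H, h ≠ 1 → ∀ n : N, φ h n = n → n = 1) :
    Cfsg.IsFrobeniusComplement (SemidirectProduct.inr : H →* N ⋊[φ] H).range := by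
  refine ⟨?_, ?_, ?_⟩
  · intro h
    obtain ⟨a, ha⟩ := exists_ne (1 : H)
    have h1 : (SemidirectProduct.inr a : N ⋊[φ] H) ∈ (⊥ : Subgroup _) := by
      rw [← h]; exact ⟨a, rfl⟩
    rw [Subgroup.mem_bot] at h1
    exact ha (SemidirectProduct.inr_injective (h1.trans (map_one _).symm))
  · intro h
    obtain ⟨n, hn⟩ := exists_ne (1 : N)
    have h1 : (SemidirectProduct.inl n : N ⋊[φ] H) ∈ (SemidirectProduct.inr : H →* N ⋊[φ] H).range := by
      rw [h]; trivial
    obtain ⟨a, ha⟩ := h1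
    have h2 := congrArg SemidirectProduct.left ha
    rw [SemidirectProduct.left_inr, SemidirectProduct.left_inl] at h2
    exact hn h2.symm
  · intro g hg
    rw [eq_bot_iff]
    rintro a ⟨ha1, ha2⟩
    obtain ⟨h1, rfl⟩ := ha1
    have ha2' : (SemidirectProduct.inr h1 : N ⋊[φ] H) ∈
        MulAut.conj g • (SemidirectProduct.inr : H →* N ⋊[φ] H).range := ha2
    rw [Subgroup.mem_pointwise_smul_iff_inv_smul_mem] at ha2'
    obtain ⟨h2, hh2⟩ := ha2'
    have hh3 : (SemidirectProduct.inr h2 : N ⋊[φ] H) = g⁻¹ * SemidirectProduct.inr h1 * g := by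
      rw [hh2]
      show (MulAut.conj g)⁻¹ (SemidirectProduct.inr h1) = _
      rw [← map_inv, MulAut.conj_apply, inv_inv]
    have hh4 : g * SemidirectProduct.inr h2 = SemidirectProduct.inr h1 * g := by
      rw [hh3]; group
    have hh5 := congrArg SemidirectProduct.left hh4
    rw [SemidirectProduct.mul_left, SemidirectProduct.mul_left, SemidirectProduct.left_inr,
      SemidirectProduct.left_inr, map_one, mul_one, one_mul, SemidirectProduct.right_inr] at hh5
    have hgl : g.left ≠ 1 := by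
      intro hl
      apply hg
      refine ⟨g.right, ?_⟩
      ext
      · rw [SemidirectProduct.left_inr, hl]
      · rw [SemidirectProduct.right_inr]
    rw [Subgroup.mem_bot]
    by_contra hne
    have h1ne : h1 ≠ 1 := by
      intro h
      apply hne
      rw [h, map_one]
    exact hgl (hfpf h1 h1ne g.left hh5.symm)

/-- the three generators in `SL(2,11)` -/
def X11 : Matrix.SpecialLinearGroup (Fin 2) (ZMod 11) :=
  ⟨!![0, 1; 10, 10], by rw [Matrix.det_fin_two_of]; decide⟩
def Y11 : Matrix.SpecialLinearGroup (Fin 2) (ZMod 11) :=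
  ⟨!![0, 2; 5, 3], by rw [Matrix.det_fin_two_of]; decide⟩
def Z11 : Matrix.SpecialLinearGroup (Fin 2) (ZMod 11) :=
  ⟨!![10, 0; 0, 10], by rw [Matrix.det_fin_two_of]; decide⟩

theorem enc_X11 : enc X11 = ⟨0, 1, 10, 10⟩ := rfl
theorem enc_Y11 : enc Y11 = ⟨0, 2, 5, 3⟩ := rfl
theorem enc_Z11 : enc Z11 = ⟨10, 0, 0, 10⟩ := rfl

theorem X11_pow : X11 ^ 3 = 1 := by
  apply enc_injective
  rw [m2_pow_succ, m2_pow_succ, pow_one, enc_one, enc_X11]
  decide

theorem Y11_pow : Y11 ^ 5 = 1 := by
  apply enc_injective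
  rw [m2_pow_succ, m2_pow_succ, m2_pow_succ, m2_pow_succ, pow_one, enc_one, enc_Y11]
  decide

theorem Z11_pow : Z11 ^ 2 = 1 := by
  apply enc_injective
  rw [m2_pow_succ, pow_one, enc_one, enc_Z11]
  decide

theorem ZX11 : Z11⁻¹ * X11 * Z11 * X11⁻¹ = 1 := by
  apply eq_one_of_mul_eq
  apply enc_injective
  rw [enc_mul, enc_mul, enc_X11, enc_Z11]
  decide

theorem ZY11 : Z11⁻¹ * Y11 * Z11 * Y11⁻¹ = 1 := by
  apply eq_one_of_mul_eq
  apply enc_injective
  rw [enc_mul, enc_mul, enc_Y11, enc_Z11]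
  decide

theorem XY11 : (X11 * Y11) ^ 2 * Z11⁻¹ = 1 := by
  apply eq_one_of_sq_eq
  apply enc_injective
  rw [enc_mul, enc_mul, enc_X11, enc_Y11, enc_Z11]
  decide

/-- the action of `SL(2,11)` on the plane, multiplicatively -/
noncomputable def act : Matrix.SpecialLinearGroup (Fin 2) (ZMod 11) →*
    MulAut (Multiplicative (Fin 2 → ZMod 11)) :=
  (MulAutMultiplicative (Fin 2 → ZMod 11)).symm.toMonoidHom.comp
    ((DistribMulAction.toAddAut ((Fin 2 → ZMod 11) ≃ₗ[ZMod 11] (Fin 2 → ZMod 11))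
      (Fin 2 → ZMod 11)).comp Matrix.SpecialLinearGroup.toLin')

theorem act_apply (A : Matrix.SpecialLinearGroup (Fin 2) (ZMod 11)) (v : Fin 2 → ZMod 11) :
    act A (Multiplicative.ofAdd v) = Multiplicative.ofAdd (A.1.mulVec v) := rfl

theorem fix_zero (A : Matrix.SpecialLinearGroup (Fin 2) (ZMod 11))
    (hdet : ((enc A).a - 1) * ((enc A).d - 1) - (enc A).b * (enc A).c ≠ 0)
    (n : Multiplicative (Fin 2 → ZMod 11)) (h : act A n = n) : n = 1 := by
  have hp : Fact (Nat.Prime 11) := ⟨by norm_num⟩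
  obtain ⟨v, hv⟩ : ∃ v : Fin 2 → ZMod 11, Multiplicative.ofAdd v = n := ⟨n.toAdd, rfl⟩
  subst hv
  rw [act_apply] at h
  have h' : A.1.mulVec v = v := Multiplicative.ofAdd.injective h
  have h0 := congrFun h' 0
  have h1 := congrFun h' 1
  simp only [Matrix.mulVec, dotProduct, Fin.sum_univ_two] at h0 h1
  have hd : ((enc A).a - 1) * ((enc A).d - 1) - (enc A).b * (enc A).c =
      (A.1 0 0 - 1) * (A.1 1 1 - 1) - A.1 0 1 * A.1 1 0 := rfl
  rw [hd] at hdet
  have e0 : ((A.1 0 0 - 1) * (A.1 1 1 - 1) - A.1 0 1 * A.1 1 0) * v 0 = 0 := by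
    linear_combination (A.1 1 1 - 1) * h0 - A.1 0 1 * h1
  have e1 : ((A.1 0 0 - 1) * (A.1 1 1 - 1) - A.1 0 1 * A.1 1 0) * v 1 = 0 := by
    linear_combination (A.1 0 0 - 1) * h1 - A.1 1 0 * h0
  have v0 : v 0 = 0 := (mul_eq_zero.mp e0).resolve_left hdet
  have v1 : v 1 = 0 := (mul_eq_zero.mp e1).resolve_left hdet
  have hv : v = 0 := by
    ext i
    fin_cases i
    · exact v0
    · exact v1
  rw [hv]
  rfl

/-- SL(2,5) occurs as a Frobenius complement: there is a finite group L with a subgroup H isomorphic to SL(2,5) which is a non-trivial proper subgroup meeting each conjugate gHg⁻¹ with g outside H trivially. -/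
theorem result :
    ∃ (L : Type) (_ : Group L) (_ : Finite L) (H : Subgroup L),
      Cfsg.IsFrobeniusComplement H ∧ Nonempty (H ≃* Matrix.SpecialLinearGroup (Fin 2) (ZMod 5)) := by
  obtain ⟨ρ, hρx, hρy, hρz⟩ := exists_hom X11_pow Y11_pow Z11_pow ZX11 ZY11 XY11
  obtain ⟨φ, hφ⟩ : ∃ φ : PresentedGroup rels →* MulAut (Multiplicative (Fin 2 → ZMod 11)),
      φ = act.comp ρ := ⟨_, rfl⟩
  have himg : (words gx gy gz).map (fun g => enc (ρ g)) = lits11 := by
    rw [words_image, hρx, hρy, hρz, enc_X11, enc_Y11, enc_Z11, words_lits11]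
  have hfpf : ∀ h : PresentedGroup rels, h ≠ 1 → ∀ n : Multiplicative (Fin 2 → ZMod 11),
      φ h n = n → n = 1 := by
    intro h hne n hn
    have hmem := mem_words h
    rw [words_head, List.mem_cons] at hmem
    rcases hmem with h1 | hmem
    · exact absurd h1 hne
    · have h2 : enc (ρ h) ∈ lits11.tail := by
        rw [← himg, ← List.map_tail]
        exact List.mem_map_of_mem hmem
      have h3 := lits11_fpf _ h2
      rw [hφ] at hn
      exact fix_zero (ρ h) h3 n hn
  obtain ⟨e0⟩ := iso_SL25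
  have hntH : Nontrivial (PresentedGroup rels) := by
    have : Nontrivial (Matrix.SpecialLinearGroup (Fin 2) (ZMod 5)) := by
      refine ⟨⟨X5, 1, ?_⟩⟩
      intro h
      have := congrArg enc h
      rw [enc_X5, enc_one] at this
      revert this
      decide
    exact e0.toEquiv.nontrivial
  have hntN : Nontrivial (Multiplicative (Fin 2 → ZMod 11)) := by
    have hp : Fact (Nat.Prime 11) := ⟨by norm_num⟩
    infer_instance
  have hfin : Finite (Multiplicative (Fin 2 → ZMod 11) ⋊[φ] PresentedGroup rels) :=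
    Finite.of_equiv _ SemidirectProduct.equivProd.symm
  refine ⟨Multiplicative (Fin 2 → ZMod 11) ⋊[φ] PresentedGroup rels, inferInstance, hfin,
    (SemidirectProduct.inr : PresentedGroup rels →* _).range, frob_of_fpf φ hfpf, ?_⟩
  exact ⟨(MonoidHom.ofInjective SemidirectProduct.inr_injective).symm.trans e0⟩

end Cfsg.Agent.S3374
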