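import Mathlib
import Cfsg.Statements.S3375

set_option autoImplicit false
open Cfsg

namespace Cfsg.Agent.S3375

theorem sq_apply {H : Type*} [Group H] (γ : MulAut H) (hγ : orderOf γ = 2) (h : H) : γ (γ h) = h := by
  have : γ ^ 2 = 1 := by rw [← hγ]; exact pow_orderOf_eq_one γ
  have h2 : (γ ^ 2) h = h := by rw [this]; rfl
  rwa [pow_two] at h2

/-- a γ-invariant subgroup of index 2 is inverted when there are exactly two fixed points -/
theorem inv_of_invariant {H : Type*} [Group H] [Finite H] (γ : MulAut H) (hγ : orderOf γ = 2)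
    (hfix : Nat.card {h : H // γ h = h} = 2) (A : Subgroup H) (hA : A.index = 2)
    (hinv : ∀ a ∈ A, γ a ∈ A) : ∀ a ∈ A, γ a = a⁻¹ := by
  classical
  have := Fintype.ofFinite H
  have hsq := sq_apply γ hγ
  have hinv' : ∀ a, γ a ∈ A ↔ a ∈ A := fun a => ⟨fun h => by simpa [hsq] using hinv _ h, hinv a⟩
  set φ : H → H := fun h => h⁻¹ * γ h with hφ
  have hφA : ∀ h, φ h ∈ A := by
    intro h
    rw [hφ]
    simp only
    rw [Subgroup.mul_mem_iff_of_index_two hA, inv_mem_iff, hinv']
  -- counting
  have hcount : Fintype.card H ≤ 2 * (Finset.univ.image φ).card := by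
    have := Finset.card_le_mul_card_image (f := φ) (Finset.univ : Finset H) 2 (by
      intro b hb
      obtain ⟨h, -, rfl⟩ := Finset.mem_image.mp hb
      rw [← hfix, Nat.card_eq_fintype_card, Fintype.card_subtype]
      apply Finset.card_le_card_of_injOn (fun x => x * h⁻¹)
      · intro x hx
        simp only [Finset.coe_filter, Finset.mem_univ, true_and, Set.mem_ofPred_eq] at hx ⊢
        -- hx : x⁻¹ * γ x = h⁻¹ * γ h
        have hx' : x⁻¹ * γ x = h⁻¹ * γ h := hx
        have e : γ x = x * h⁻¹ * γ h := by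
          calc γ x = x * (x⁻¹ * γ x) := by group
            _ = x * (h⁻¹ * γ h) := by rw [hx']
            _ = _ := by group
        rw [map_mul, map_inv, e]; group
      · intro x _ y _ hxy
        exact mul_right_cancel hxy)
    simpa using this
  have hcardA : Nat.card A * 2 = Fintype.card H := by
    rw [← hA, Subgroup.card_mul_index, Nat.card_eq_fintype_card]
  have hsub : Finset.univ.image φ ⊆ (A : Set H).toFinset := by
    intro x hx
    obtain ⟨h, -, rfl⟩ := Finset.mem_image.mp hx
    simpa using hφA h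
  have hcardA' : (A : Set H).toFinset.card = Nat.card A := by
    rw [Set.toFinset_card, Nat.card_eq_fintype_card]; rfl
  have heq : Finset.univ.image φ = (A : Set H).toFinset :=
    Finset.eq_of_subset_of_card_le hsub (by rw [hcardA']; omega)
  intro a ha
  have : a ∈ Finset.univ.image φ := by rw [heq]; simpa using ha
  obtain ⟨h, -, rfl⟩ := Finset.mem_image.mp this
  simp only [hφ, map_mul, map_inv, hsq, mul_inv_rev, inv_inv]

theorem comm_of_inv {H : Type*} [Group H] (γ : MulAut H) (A : Subgroup H)
    (h : ∀ a ∈ A, γ a = a⁻¹) : IsMulCommutative A := by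
  refine ⟨⟨fun a b => ?_⟩⟩
  have h1 := h _ (A.mul_mem a.2 b.2)
  rw [map_mul, h _ a.2, h _ b.2] at h1
  apply Subtype.ext
  show (a : H) * b = b * a
  have h2 : ((a : H)⁻¹ * (b : H)⁻¹)⁻¹ = (((a : H) * b)⁻¹)⁻¹ := by rw [h1]
  simpa using h2.symm

/-- Let γ be an automorphism of order 2 of a finite group H. (i) If γ fixes only the identity, then H is abelian and γ inverts every element. (ii) If γ has exactly two fixed points and H has a subgroup of index 2, then H has a γ-invariant abelian subgroup of index 2 on which γ acts by inversion. -/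
theorem result {H : Type*} [Group H] [Finite H] (γ : MulAut H) (hγ : orderOf γ = 2) :
    ((∀ h : H, γ h = h → h = 1) → (∀ a b : H, a * b = b * a) ∧ ∀ h : H, γ h = h⁻¹) ∧
    ((Nat.card {h : H // γ h = h} = 2 ∧ ∃ M : Subgroup H, M.index = 2) →
      ∃ A : Subgroup H, A.index = 2 ∧ IsMulCommutative A ∧ (∀ a ∈ A, γ a ∈ A) ∧ ∀ a ∈ A, γ a = a⁻¹) := by
  classical
  have hsq := sq_apply γ hγ
  constructor
  · intro hfix
    have hinj : Function.Injective (fun h : H => h⁻¹ * γ h) := by
      intro x y hxy
      have hxy' : x⁻¹ * γ x = y⁻¹ * γ y := hxy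
      have : γ (x * y⁻¹) = x * y⁻¹ := by
        have e : γ x = x * y⁻¹ * γ y := by
          calc γ x = x * (x⁻¹ * γ x) := by group
            _ = x * (y⁻¹ * γ y) := by rw [hxy']
            _ = _ := by group
        rw [map_mul, map_inv, e]; group
      have := hfix _ this
      exact mul_inv_eq_one.mp this
    have hsurj := Finite.surjective_of_injective hinj
    have hinvall : ∀ h : H, γ h = h⁻¹ := by
      intro a
      obtain ⟨h, rfl⟩ := hsurj a
      simp only [map_mul, map_inv, hsq, mul_inv_rev, inv_inv]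
    refine ⟨fun a b => ?_, hinvall⟩
    have h1 := hinvall (a * b)
    rw [map_mul, hinvall a, hinvall b] at h1
    have h2 : ((a : H)⁻¹ * (b : H)⁻¹)⁻¹ = (((a : H) * b)⁻¹)⁻¹ := by rw [h1]
    simpa using h2.symm
  · rintro ⟨hfix, M, hM⟩
    suffices hsuff : ∃ A : Subgroup H, A.index = 2 ∧ ∀ a ∈ A, γ a ∈ A by
      obtain ⟨A, hA, hAinv⟩ := hsuff
      have h := inv_of_invariant γ hγ hfix A hA hAinv
      exact ⟨A, hA, comm_of_inv γ A h, hAinv, h⟩
    by_cases hMinv : ∀ a ∈ M, γ a ∈ M
    · exact ⟨M, hM, hMinv⟩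
    · -- N = {h | h ∈ M ↔ γ h ∈ M}
      let N : Subgroup H :=
        { carrier := {h | h ∈ M ↔ γ h ∈ M}
          one_mem' := by simp
          mul_mem' := by
            intro a b ha hb
            simp only [Set.mem_ofPred_eq] at ha hb ⊢
            rw [map_mul, Subgroup.mul_mem_iff_of_index_two hM, Subgroup.mul_mem_iff_of_index_two hM, ha, hb]
          inv_mem' := by
            intro a ha
            simp only [Set.mem_ofPred_eq] at ha ⊢
            rw [map_inv, inv_mem_iff, inv_mem_iff, ha] }
      have hNmem : ∀ h, h ∈ N ↔ (h ∈ M ↔ γ h ∈ M) := fun h => Iff.rfl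
      refine ⟨N, ?_, ?_⟩
      · push Not at hMinv
        obtain ⟨a, haM, haγ⟩ := hMinv
        have haN : a ∉ N := by rw [hNmem]; tauto
        rw [Subgroup.index_eq_two_iff]
        refine ⟨a, fun b => ?_⟩
        have key : b * a ∈ N ↔ ¬ b ∈ N := by
          rw [hNmem, hNmem, map_mul, Subgroup.mul_mem_iff_of_index_two hM, Subgroup.mul_mem_iff_of_index_two hM]
          tauto
        rw [key]
        by_cases hb : b ∈ N
        · exact Or.inr ⟨hb, fun h => h hb⟩
        · exact Or.inl ⟨hb, hb⟩
      · intro a ha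
        rw [hNmem] at ha ⊢
        rw [hsq]
        exact ha.symm

end Cfsg.Agent.S3375
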