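import Mathlib
import Cfsg.Statements.S3378
import Cfsg.Agent.Lib.helper17.SL25
import Cfsg.Agent.Lib.helper23.BurnsidePQ
import Cfsg.Agent.Lib.helper2.Idx2
import Cfsg.Agent.S0494
import Cfsg.Agent.S3377

set_option autoImplicit false
open Cfsg

namespace Cfsg.Agent.S3378

open Cfsg.Agent.Lib.helper17.SL25 Cfsg.Agent.Lib.helper23

theorem solv_ext {G : Type*} [Group G] (K : Subgroup G) [K.Normal] (h1 : Group.IsSolvable K)
    (h2 : Group.IsSolvable (G ⧸ K)) : Group.IsSolvable G := by
  refine Group.isSolvable_of_ker_le_range K.subtype (QuotientGroup.mk' K) ?_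
  rw [QuotientGroup.ker_mk', Subgroup.range_subtype]

theorem solv30 {G : Type*} [Group G] [Finite G] (h : Nat.card G = 30) : Group.IsSolvable G := by
  have hp2 : Fact (Nat.Prime 2) := ⟨Nat.prime_two⟩
  obtain ⟨T⟩ : Nonempty (Sylow 2 G) := inferInstance
  have hT : Nat.card (T : Subgroup G) = 2 := by
    obtain ⟨k, hk⟩ := T.2.exists_card_eq
    have h1 := Subgroup.card_mul_index (T : Subgroup G)
    have h2 := T.not_dvd_index
    rw [h] at h1
    rw [hk] at h1 ⊢
    obtain ⟨idx, hidx⟩ : ∃ idx, idx = (T : Subgroup G).index := ⟨_, rfl⟩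
    rw [← hidx] at h1 h2
    have hk1 : k = 1 := by
      rcases k with _ | _ | k
      · exfalso; apply h2
        rw [pow_zero, one_mul] at h1
        rw [h1]; norm_num
      · rfl
      · exfalso
        have : 4 ∣ 30 := ⟨2 ^ k * idx, by rw [← h1]; ring⟩
        omega
    rw [hk1]; rfl
  have hcyc : IsCyclic (T : Subgroup G) := isCyclic_of_prime_card (p := 2) hT
  obtain ⟨H, hH⟩ := Cfsg.Agent.Lib.helper2.Idx2.exists_index_two_of_cyclic_sylow
    (by rw [h]; decide) T hcyc
  have hn : H.Normal := Subgroup.normal_of_index_eq_two hH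
  have hc := Subgroup.card_mul_index H
  rw [h, hH] at hc
  have hH15 : Nat.card H = 15 := by omega
  have s1 : Group.IsSolvable H :=
    burnside_paqb 3 5 1 1 (by norm_num) (by norm_num) (by rw [hH15]; norm_num)
  have s2 : Group.IsSolvable (G ⧸ H) :=
    burnside_paqb 2 3 1 0 (by norm_num) (by norm_num) (by rw [← Subgroup.index_eq_card, hH]; norm_num)
  exact solv_ext H s1 s2

theorem solv_small {H : Type*} [Group H] [Finite H] (hd : Nat.card H ∣ 120) (h60 : Nat.card H ≠ 60)
    (h120 : Nat.card H ≠ 120) : Group.IsSolvable H := by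
  obtain ⟨n, hn⟩ : ∃ n, Nat.card H = n := ⟨_, rfl⟩
  rw [hn] at hd h60 h120
  have hle : n ≤ 120 := Nat.le_of_dvd (by norm_num) hd
  have hpos : 0 < n := by rw [← hn]; exact Nat.card_pos
  have hmem : n = 1 ∨ n = 2 ∨ n = 3 ∨ n = 4 ∨ n = 5 ∨ n = 6 ∨ n = 8 ∨ n = 10 ∨ n = 12 ∨ n = 15 ∨
      n = 20 ∨ n = 24 ∨ n = 30 ∨ n = 40 := by
    obtain ⟨k, hk⟩ := hd
    interval_cases n <;> omega
  have p2 : Nat.Prime 2 := by norm_num
  have p3 : Nat.Prime 3 := by norm_num
  have p5 : Nat.Prime 5 := by norm_num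
  rcases hmem with rfl | rfl | rfl | rfl | rfl | rfl | rfl | rfl | rfl | rfl | rfl | rfl | rfl | rfl
  · exact burnside_paqb 2 3 0 0 p2 p3 (by rw [hn]; norm_num)
  · exact burnside_paqb 2 3 1 0 p2 p3 (by rw [hn]; norm_num)
  · exact burnside_paqb 2 3 0 1 p2 p3 (by rw [hn]; norm_num)
  · exact burnside_paqb 2 3 2 0 p2 p3 (by rw [hn]; norm_num)
  · exact burnside_paqb 2 5 0 1 p2 p5 (by rw [hn]; norm_num)
  · exact burnside_paqb 2 3 1 1 p2 p3 (by rw [hn]; norm_num)
  · exact burnside_paqb 2 3 3 0 p2 p3 (by rw [hn]; norm_num)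
  · exact burnside_paqb 2 5 1 1 p2 p5 (by rw [hn]; norm_num)
  · exact burnside_paqb 2 3 2 1 p2 p3 (by rw [hn]; norm_num)
  · exact burnside_paqb 3 5 1 1 p3 p5 (by rw [hn]; norm_num)
  · exact burnside_paqb 2 5 2 1 p2 p5 (by rw [hn]; norm_num)
  · exact burnside_paqb 2 3 3 1 p2 p3 (by rw [hn]; norm_num)
  · exact solv30 hn
  · exact burnside_paqb 2 5 3 1 p2 p5 (by rw [hn]; norm_num)

theorem quat_sq : ∀ g : QuaternionGroup 2, g ≠ 1 →
    g = QuaternionGroup.a 2 ∨ g * g = QuaternionGroup.a 2 := by decide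

theorem quat_invol : ∀ g : QuaternionGroup 2, g * g = 1 → g ≠ 1 → g = QuaternionGroup.a 2 := by
  decide

theorem quat_ne : (QuaternionGroup.a 2 : QuaternionGroup 2) ≠ 1 := by decide

/-- the faithful case is impossible -/
theorem no_faithful (G : Type*) [Group G] [Finite G] (hG : Nat.card G = 120)
    (hQ : ∀ P : Sylow 2 G, Nonempty ((P : Subgroup G) ≃* QuaternionGroup 2))
    (hmax : ∀ N : Subgroup G, N.Normal → Group.IsSolvable N → N = ⊥) : False := by
  have hp2 : Fact (Nat.Prime 2) := ⟨Nat.prime_two⟩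
  have hp5 : Fact (Nat.Prime 5) := ⟨by norm_num⟩
  obtain ⟨P5⟩ : Nonempty (Sylow 5 G) := inferInstance
  have hP5 : Nat.card (P5 : Subgroup G) = 5 ∧ (P5 : Subgroup G).index = 24 := by
    obtain ⟨k, hk⟩ := P5.2.exists_card_eq
    have h1 := Subgroup.card_mul_index (P5 : Subgroup G)
    have h2 := P5.not_dvd_index
    rw [hG] at h1
    rw [hk] at h1 ⊢
    obtain ⟨idx, hidx⟩ : ∃ idx, idx = (P5 : Subgroup G).index := ⟨_, rfl⟩
    rw [← hidx] at h1 h2 ⊢
    have hk1 : k = 1 := by
      rcases k with _ | _ | k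
      · exfalso; apply h2
        rw [pow_zero, one_mul] at h1
        rw [h1]; norm_num
      · rfl
      · exfalso
        have : 25 ∣ 120 := ⟨5 ^ k * idx, by rw [← h1]; ring⟩
        omega
    subst hk1
    refine ⟨rfl, ?_⟩
    omega
  obtain ⟨hP5c, hidx⟩ := hP5
  have hn5 : Nat.card (Sylow 5 G) = 1 ∨ Nat.card (Sylow 5 G) = 6 := by
    have h1 := card_sylow_modEq_one 5 G
    have h2 := P5.card_dvd_index
    rw [hidx] at h2
    have hle := Nat.le_of_dvd (by norm_num) h2
    obtain ⟨n, hn⟩ : ∃ n, Nat.card (Sylow 5 G) = n := ⟨_, rfl⟩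
    rw [hn] at h1 h2 hle ⊢
    unfold Nat.ModEq at h1
    obtain ⟨k, hk⟩ := h2
    interval_cases n <;> omega
  rcases hn5 with h1 | h6
  · have hsub : Subsingleton (Sylow 5 G) := (Nat.card_eq_one_iff_unique.mp h1).1
    have hn := P5.normal_of_subsingleton
    have hs : Group.IsSolvable (P5 : Subgroup G) :=
      burnside_paqb 5 2 1 0 (by norm_num) (by norm_num) (by rw [hP5c]; norm_num)
    have := hmax P5 hn hs
    rw [this] at hP5c
    simp at hP5c
  · obtain ⟨φ, hφ⟩ : ∃ φ : G →* Equiv.Perm (Sylow 5 G), φ = MulAction.toPermHom G (Sylow 5 G) :=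
      ⟨_, rfl⟩
    have hφa : ∀ g Q, φ g Q = g • Q := by
      intro g Q; rw [hφ]; rfl
    have hker : φ.ker = ⊥ := by
      apply hmax _ inferInstance
      obtain ⟨N5, hN5⟩ : ∃ N5 : Subgroup G, N5 = MulAction.stabilizer G P5 := ⟨_, rfl⟩
      have hle : φ.ker ≤ N5 := by
        intro g hg
        rw [hN5, MulAction.mem_stabilizer_iff, ← hφa, MonoidHom.mem_ker.mp hg]
        rfl
      have hN : Nat.card N5 = 20 := by
        have := Subgroup.card_mul_index N5
        have h7 := P5.card_eq_index_normalizer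
        rw [← Sylow.stabilizer_eq_normalizer, ← hN5, h6] at h7
        rw [← h7, hG] at this
        omega
      have hd : Nat.card φ.ker ∣ 20 := by rw [← hN]; exact Subgroup.card_dvd_of_le hle
      exact solv_small (hd.trans (by norm_num)) (by intro h; rw [h] at hd; omega)
        (by intro h; rw [h] at hd; omega)
    obtain ⟨P⟩ : Nonempty (Sylow 2 G) := inferInstance
    obtain ⟨e⟩ := hQ P
    have hPcard : Nat.card (P : Subgroup G) = 8 := by
      rw [Nat.card_congr e.toEquiv, Nat.card_eq_fintype_card, QuaternionGroup.card]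
    obtain ⟨z, hz⟩ : ∃ z : (P : Subgroup G), z = e.symm (QuaternionGroup.a 2) := ⟨_, rfl⟩
    have hez : e z = QuaternionGroup.a 2 := by rw [hz, MulEquiv.apply_symm_apply]
    have hz1 : z ≠ 1 := by
      intro h
      rw [h, map_one] at hez
      exact quat_ne hez.symm
    have hfix : ∀ Q : Sylow 5 G, (z : G) • Q = Q := by
      intro Q
      obtain ⟨S, hS⟩ : ∃ S : Subgroup (P : Subgroup G), S = MulAction.stabilizer (P : Subgroup G) Q :=
        ⟨_, rfl⟩
      have hSne : S ≠ ⊥ := by
        intro hbot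
        have h1 := MulAction.index_stabilizer (P : Subgroup G) Q
        rw [← hS, hbot, Subgroup.index_bot, hPcard] at h1
        have h2 := Set.ncard_le_card (MulAction.orbit (P : Subgroup G) Q)
        rw [h6] at h2
        omega
      obtain ⟨s, hsS, hs1⟩ : ∃ s ∈ S, s ≠ 1 := by
        by_contra hcon
        push Not at hcon
        exact hSne ((Subgroup.eq_bot_iff_forall S).mpr hcon)
      have hes1 : e s ≠ 1 := by
        intro h
        exact hs1 (e.injective (h.trans (map_one e).symm))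
      have hzS : z ∈ S := by
        rcases quat_sq (e s) hes1 with h | h
        · have : s = z := e.injective (h.trans hez.symm)
          rw [← this]; exact hsS
        · have : s * s = z := e.injective (by rw [map_mul, h, hez])
          rw [← this]; exact S.mul_mem hsS hsS
      rw [hS, MulAction.mem_stabilizer_iff] at hzS
      exact hzS
    have hzker : (z : G) ∈ φ.ker := by
      rw [MonoidHom.mem_ker]
      ext Q : 1
      rw [hφa, hfix]
      rfl
    rw [hker] at hzker
    exact hz1 (Subtype.ext (Subgroup.mem_bot.mp hzker))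

theorem pow4_cube {G : Type*} [Group G] (a : G) (h : a ^ 3 * a ^ 3 = 1) : (a ^ 4) ^ 3 = 1 := by
  have h6 : a ^ 6 = 1 := by rw [← h, ← pow_add]
  rw [← pow_mul, show 4 * 3 = 6 * 2 from rfl, pow_mul, h6, one_pow]

theorem pow6_fifth {G : Type*} [Group G] (a : G) (h : a ^ 5 * a ^ 5 = 1) : (a ^ 6) ^ 5 = 1 := by
  have h10 : a ^ 10 = 1 := by rw [← h, ← pow_add]
  rw [← pow_mul, show 6 * 5 = 10 * 3 from rfl, pow_mul, h10, one_pow]

/-- the case of a central subgroup of order 2 with quotient `A₅` -/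
theorem case_two (G : Type*) [Group G] [Finite G] (hG : Nat.card G = 120)
    (hQ : ∀ P : Sylow 2 G, Nonempty ((P : Subgroup G) ≃* QuaternionGroup 2))
    (K : Subgroup G) [hKn : K.Normal] (hK2 : Nat.card K = 2) [hsimple : IsSimpleGroup (G ⧸ K)]
    (h60 : Nat.card (G ⧸ K) = 60) :
    Nonempty (PresentedGroup rels ≃* G) := by
  classical
  have hp2 : Fact (Nat.Prime 2) := ⟨Nat.prime_two⟩
  obtain ⟨ψ⟩ := Cfsg.Agent.S0494.result (G := G ⧸ K) h60
  have hKk : ∀ k ∈ K, k * k = 1 := by
    intro k hk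
    have h1 := pow_card_eq_one' (G := K) (x := ⟨k, hk⟩)
    rw [hK2] at h1
    have h2 := congrArg Subtype.val h1
    rw [← pow_two]
    exact h2
  obtain ⟨z, hzK, hz1⟩ : ∃ z ∈ K, z ≠ 1 := by
    by_contra hcon
    push Not at hcon
    have : K = ⊥ := (Subgroup.eq_bot_iff_forall K).mpr hcon
    rw [this] at hK2
    simp at hK2
  have hKz : ∀ k ∈ K, k = 1 ∨ k = z := by
    intro k hk
    by_contra hcon
    push Not at hcon
    have hfK : Fintype K := Fintype.ofFinite K
    have h3 : 2 < Fintype.card K := by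
      rw [Fintype.two_lt_card_iff]
      refine ⟨1, ⟨z, hzK⟩, ⟨k, hk⟩, ?_, ?_, ?_⟩
      · intro h; exact hz1 (congrArg Subtype.val h).symm
      · intro h; exact hcon.1 (congrArg Subtype.val h).symm
      · intro h; exact hcon.2 (congrArg Subtype.val h).symm
    rw [← Nat.card_eq_fintype_card, hK2] at h3
    omega
  have hzz : z * z = 1 := hKk z hzK
  have hzc : ∀ g : G, g * z = z * g := by
    intro g
    have h1 : g * z * g⁻¹ ∈ K := hKn.conj_mem z hzK g
    rcases hKz _ h1 with h | h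
    · exfalso
      apply hz1
      have : z = g⁻¹ * (g * z * g⁻¹) * g := by group
      rw [this, h]; group
    · calc g * z = g * z * g⁻¹ * g := by group
        _ = z * g := by rw [h]
  -- the generators
  obtain ⟨x0, hx0⟩ := QuotientGroup.mk_surjective (ψ.symm Cfsg.Agent.S3377.X)
  obtain ⟨y0, hy0⟩ := QuotientGroup.mk_surjective (ψ.symm Cfsg.Agent.S3377.Y)
  have hx3K : x0 ^ 3 ∈ K := by
    rw [← QuotientGroup.eq_one_iff, QuotientGroup.mk_pow, hx0, ← map_pow, Cfsg.Agent.S3377.X_pow,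
      map_one]
  have hy5K : y0 ^ 5 ∈ K := by
    rw [← QuotientGroup.eq_one_iff, QuotientGroup.mk_pow, hy0, ← map_pow, Cfsg.Agent.S3377.Y_pow,
      map_one]
  obtain ⟨x, hxdef⟩ : ∃ x : G, x = x0 ^ 4 := ⟨_, rfl⟩
  obtain ⟨y, hydef⟩ : ∃ y : G, y = y0 ^ 6 := ⟨_, rfl⟩
  have hx3 : x ^ 3 = 1 := by rw [hxdef]; exact pow4_cube x0 (hKk _ hx3K)
  have hy5 : y ^ 5 = 1 := by rw [hydef]; exact pow6_fifth y0 (hKk _ hy5K)
  have hxbar : ((x : G) : G ⧸ K) = ψ.symm Cfsg.Agent.S3377.X := by
    have h4 : Cfsg.Agent.S3377.X ^ 4 = Cfsg.Agent.S3377.X := by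
      rw [pow_succ, Cfsg.Agent.S3377.X_pow, one_mul]
    rw [hxdef, QuotientGroup.mk_pow, hx0, ← map_pow, h4]
  have hybar : ((y : G) : G ⧸ K) = ψ.symm Cfsg.Agent.S3377.Y := by
    have h6 : Cfsg.Agent.S3377.Y ^ 6 = Cfsg.Agent.S3377.Y := by
      rw [pow_succ, Cfsg.Agent.S3377.Y_pow, one_mul]
    rw [hydef, QuotientGroup.mk_pow, hy0, ← map_pow, h6]
  have htbar : ((x * y : G) : G ⧸ K) = ψ.symm (Cfsg.Agent.S3377.X * Cfsg.Agent.S3377.Y) := by
    rw [QuotientGroup.mk_mul, hxbar, hybar, map_mul]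
  have ht2K : (x * y) ^ 2 ∈ K := by
    rw [← QuotientGroup.eq_one_iff, QuotientGroup.mk_pow, htbar, ← map_pow,
      Cfsg.Agent.S3377.XY_pow, map_one]
  have htK : x * y ∉ K := by
    intro h
    rw [← QuotientGroup.eq_one_iff, htbar] at h
    have h2 : Cfsg.Agent.S3377.X * Cfsg.Agent.S3377.Y = 1 := by
      have := congrArg ψ h
      rwa [MulEquiv.apply_symm_apply, map_one] at this
    exact Cfsg.Agent.S3377.XY_ne h2
  rcases hKz _ ht2K with ht1 | htz
  · exfalso
    obtain ⟨t, htdef⟩ : ∃ t : G, t = x * y := ⟨_, rfl⟩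
    rw [← htdef] at ht1 htK
    have htne : t ≠ 1 := by
      intro h; apply htK; rw [h]; exact K.one_mem
    have hto : orderOf t = 2 := orderOf_eq_prime ht1 htne
    have hpg : IsPGroup 2 (Subgroup.zpowers t) := by
      apply IsPGroup.of_card (n := 1)
      rw [Nat.card_zpowers, hto, pow_one]
    obtain ⟨P, hP⟩ := hpg.exists_le_sylow
    have hKP : K ≤ P := by
      have hK2g : IsPGroup 2 K := IsPGroup.of_card (n := 1) (by rw [hK2, pow_one])
      have := P.is_maximal' (P.2.to_sup_of_normal_right hK2g) le_sup_left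
      rw [← this]; exact le_sup_right
    obtain ⟨e⟩ := hQ P
    have htP : t ∈ (P : Subgroup G) := hP (Subgroup.mem_zpowers t)
    have hzP : z ∈ (P : Subgroup G) := hKP hzK
    have h1 : e ⟨t, htP⟩ = QuaternionGroup.a 2 := by
      apply quat_invol
      · rw [← map_mul]
        have : (⟨t, htP⟩ : (P : Subgroup G)) * ⟨t, htP⟩ = 1 := by
          apply Subtype.ext
          show t * t = 1
          rw [← pow_two]; exact ht1
        rw [this, map_one]
      · intro h
        have := e.injective (h.trans (map_one e).symm)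
        exact htne (congrArg Subtype.val this)
    have h2 : e ⟨z, hzP⟩ = QuaternionGroup.a 2 := by
      apply quat_invol
      · rw [← map_mul]
        have : (⟨z, hzP⟩ : (P : Subgroup G)) * ⟨z, hzP⟩ = 1 := by
          apply Subtype.ext
          exact hzz
        rw [this, map_one]
      · intro h
        have := e.injective (h.trans (map_one e).symm)
        exact hz1 (congrArg Subtype.val this)
    have h3 := e.injective (h1.trans h2.symm)
    have h4 : t = z := congrArg Subtype.val h3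
    exact htK (h4 ▸ hzK)
  · have hz2 : z ^ 2 = 1 := by rw [pow_two]; exact hzz
    have hzx : z⁻¹ * x * z * x⁻¹ = 1 := eq_one_of_mul_eq (hzc x)
    have hzy : z⁻¹ * y * z * y⁻¹ = 1 := eq_one_of_mul_eq (hzc y)
    have hxy : (x * y) ^ 2 * z⁻¹ = 1 := by rw [htz, mul_inv_cancel]
    obtain ⟨f, hfx, hfy, hfz⟩ := exists_hom hx3 hy5 hz2 hzx hzy hxy
    have htop : (f.range.map (QuotientGroup.mk' K)).comap ψ.symm.toMonoidHom = ⊤ := by
      apply Cfsg.Agent.S3377.eq_top_of_mem
      · rw [Subgroup.mem_comap]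
        exact ⟨x, ⟨gx, hfx⟩, hxbar⟩
      · rw [Subgroup.mem_comap]
        exact ⟨y, ⟨gy, hfy⟩, hybar⟩
    have hsurj : Function.Surjective f := by
      intro g
      have h1 : ψ (g : G ⧸ K) ∈ (f.range.map (QuotientGroup.mk' K)).comap ψ.symm.toMonoidHom := by
        rw [htop]; trivial
      rw [Subgroup.mem_comap] at h1
      have h2 : ψ.symm.toMonoidHom (ψ (g : G ⧸ K)) = (g : G ⧸ K) := ψ.symm_apply_apply _
      rw [h2] at h1
      obtain ⟨h, hh, hhg⟩ := h1
      have hk : h⁻¹ * g ∈ K := QuotientGroup.eq.mp hhg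
      obtain ⟨a, rfl⟩ := hh
      rcases hKz _ hk with h1 | h2
      · refine ⟨a, ?_⟩
        have : g = f a * ((f a)⁻¹ * g) := by group
        rw [this, h1, mul_one]
      · refine ⟨a * gz, ?_⟩
        have : g = f a * ((f a)⁻¹ * g) := by group
        rw [this, h2, map_mul, hfz]
    have hbij : Function.Bijective f := by
      apply Function.Surjective.bijective_of_nat_card_le hsurj
      rw [hG]
      exact card_pres_le
    exact ⟨MulEquiv.ofBijective f hbij⟩

theorem part1 (G : Type*) [Group G] [Finite G] (hG : Nat.card G = 120) (hns : ¬ Group.IsSolvable G)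
    (hQ : ∀ P : Sylow 2 G, Nonempty ((P : Subgroup G) ≃* QuaternionGroup 2)) :
    Nonempty (PresentedGroup rels ≃* G) := by
  classical
  obtain ⟨K, hKn, hKs, hKmax⟩ : ∃ K : Subgroup G, K.Normal ∧ Group.IsSolvable K ∧
      ∀ N : Subgroup G, N.Normal → Group.IsSolvable N → Nat.card N ≤ Nat.card K := by
    have hne : Nonempty {K : Subgroup G // K.Normal ∧ Group.IsSolvable K} :=
      ⟨⟨⊥, inferInstance, inferInstance⟩⟩
    obtain ⟨⟨K, hK1, hK2⟩, hmax⟩ := Finite.exists_max
      (fun K : {K : Subgroup G // K.Normal ∧ Group.IsSolvable K} => Nat.card K.1)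
    exact ⟨K, hK1, hK2, fun N hN1 hN2 => hmax ⟨N, hN1, hN2⟩⟩
  have hQns : ¬ Group.IsSolvable (G ⧸ K) := fun h => hns (solv_ext K hKs h)
  have hcard := Subgroup.card_mul_index K
  rw [hG, Subgroup.index_eq_card] at hcard
  have hQcard : Nat.card (G ⧸ K) = 60 ∨ Nat.card (G ⧸ K) = 120 := by
    by_contra hcon
    push Not at hcon
    exact hQns (solv_small ⟨Nat.card K, by rw [← hcard, mul_comm]⟩ hcon.1 hcon.2)
  rcases hQcard with h60 | h120
  · have hK2 : Nat.card K = 2 := by rw [h60] at hcard; omega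
    have hsimple : IsSimpleGroup (G ⧸ K) := by
      have hnt : Nontrivial (G ⧸ K) := by
        rw [← Finite.one_lt_card_iff_nontrivial]; omega
      refine ⟨fun M hM => ?_⟩
      by_cases hM60 : Nat.card M = 60
      · right; exact Subgroup.eq_top_of_card_eq M (by rw [hM60, h60])
      · left
        have hMd : Nat.card M ∣ 60 := by rw [← h60]; exact Subgroup.card_subgroup_dvd_card M
        have hMs : Group.IsSolvable M := solv_small (hMd.trans (by norm_num)) hM60
          (by intro h; rw [h] at hMd; omega)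
        obtain ⟨N, hN⟩ : ∃ N : Subgroup G, N = M.comap (QuotientGroup.mk' K) := ⟨_, rfl⟩
        have hNn : N.Normal := by rw [hN]; infer_instance
        have hKN : K ≤ N := by
          intro k hk
          rw [hN, Subgroup.mem_comap]
          have : QuotientGroup.mk' K k = 1 := (QuotientGroup.eq_one_iff k).mpr hk
          rw [this]; exact M.one_mem
        have hNs : Group.IsSolvable N := by
          subst hN
          refine Group.isSolvable_of_ker_le_range (Subgroup.inclusion hKN)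
            ((QuotientGroup.mk' K).subgroupComap M) ?_
          intro n hn
          have h1 : (QuotientGroup.mk' K).subgroupComap M n = 1 := hn
          have h2 : QuotientGroup.mk' K (n : G) = 1 := congrArg Subtype.val h1
          have h3 : (n : G) ∈ K := (QuotientGroup.eq_one_iff _).mp h2
          exact ⟨⟨n, h3⟩, Subtype.ext rfl⟩
        have hle := hKmax N hNn hNs
        have hNK : K = N := Subgroup.eq_of_le_of_card_ge hKN hle
        rw [← Subgroup.map_comap_eq_self_of_surjective (QuotientGroup.mk'_surjective K) M, ← hN,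
          ← hNK, QuotientGroup.map_mk'_self]
    exact case_two G hG hQ K hK2 h60
  · exfalso
    have hK1 : Nat.card K = 1 := by rw [h120] at hcard; omega
    apply no_faithful G hG hQ
    intro N hN1 hN2
    have := hKmax N hN1 hN2
    rw [hK1] at this
    exact (Subgroup.card_le_one_iff_eq_bot N).mp this

/-- Every non-solvable group of order 120 whose Sylow 2-subgroups are quaternion of order 8 is isomorphic to SL(2,5), and SL(2,5) has the presentation ⟨x, y, z | x³ = y⁵ = z² = 1, z⁻¹xz = x, z⁻¹yz = y, (xy)² = z⟩. -/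
theorem result :
    (∀ (G : Type*) [Group G] [Finite G], Nat.card G = 120 → ¬ Group.IsSolvable G →
      (∀ P : Sylow 2 G, Nonempty ((P : Subgroup G) ≃* QuaternionGroup 2)) →
      Nonempty (G ≃* Matrix.SpecialLinearGroup (Fin 2) (ZMod 5))) ∧
    Nonempty (PresentedGroup ({FreeGroup.of (0 : Fin 3) ^ 3, FreeGroup.of (1 : Fin 3) ^ 5, FreeGroup.of (2 : Fin 3) ^ 2,
        (FreeGroup.of (2 : Fin 3))⁻¹ * FreeGroup.of 0 * FreeGroup.of 2 * (FreeGroup.of (0 : Fin 3))⁻¹,
        (FreeGroup.of (2 : Fin 3))⁻¹ * FreeGroup.of 1 * FreeGroup.of 2 * (FreeGroup.of (1 : Fin 3))⁻¹,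
        (FreeGroup.of (0 : Fin 3) * FreeGroup.of 1) ^ 2 * (FreeGroup.of (2 : Fin 3))⁻¹} : Set (FreeGroup (Fin 3)))
      ≃* Matrix.SpecialLinearGroup (Fin 2) (ZMod 5)) := by
  refine ⟨?_, iso_SL25⟩
  intro G _ _ hG hns hQ
  obtain ⟨e1⟩ := part1 G hG hns hQ
  obtain ⟨e2⟩ := iso_SL25
  exact ⟨e1.symm.trans e2⟩

end Cfsg.Agent.S3378
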