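import Mathlib
import Cfsg.Statements.S3379

set_option autoImplicit false
open Cfsg

namespace Cfsg.Agent.S3379

variable {G : Type*} [Group G]

theorem conj_iter (x y : G) (r : ℕ) (h : x⁻¹ * y * x = y ^ r) (i : ℕ) :
    (x⁻¹) ^ i * y * x ^ i = y ^ (r ^ i) := by
  induction i with
  | zero => simp
  | succ i ih =>
    have h1 : (x⁻¹) ^ (i + 1) * y * x ^ (i + 1) = x⁻¹ * ((x⁻¹) ^ i * y * x ^ i) * x := by
      rw [pow_succ', pow_succ]; group
    rw [h1, ih]
    have h2 : x⁻¹ * y ^ (r ^ i) * x = (x⁻¹ * y * x) ^ (r ^ i) := by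
      have := conj_pow (a := x⁻¹) (b := y) (i := r ^ i)
      rw [inv_inv] at this
      exact this.symm
    rw [h2, h, ← pow_mul, pow_succ']

theorem comm_of_closure {Q : Type*} [Group Q] (a b : Q) (hab : a * b = b * a)
    (htop : Subgroup.closure {a, b} = ⊤) (u v : Q) : u * v = v * u := by
  have hcomm : ∀ s ∈ ({a, b} : Set Q), ∀ t ∈ ({a, b} : Set Q), s * t = t * s := by
    rintro s (rfl | rfl) t (rfl | rfl)
    · rfl
    · exact hab
    · exact hab.symm
    · rfl
  have hI : IsMulCommutative (Subgroup.closure {a, b}) := Subgroup.isMulCommutative_closure hcomm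
  have hu : u ∈ Subgroup.closure {a, b} := by rw [htop]; trivial
  have hv : v ∈ Subgroup.closure {a, b} := by rw [htop]; trivial
  have := mul_comm' (⟨u, hu⟩ : Subgroup.closure {a, b}) ⟨v, hv⟩
  exact congrArg Subtype.val this

/-- Let G be a finite group all of whose Sylow subgroups are cyclic. Then G is generated by two elements x and y of coprime orders n and m with x⁻¹yx = y^r, where gcd(r − 1, m) = 1 and r^n ≡ 1 (mod m). -/
theorem result {G : Type*} [Group G] [Finite G]
    (hZ : ∀ (p : ℕ) [Fact p.Prime] (P : Sylow p G), IsCyclic (P : Subgroup G)) :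
    ∃ (x y : G) (n m r : ℕ), Subgroup.closure {x, y} = ⊤ ∧ orderOf x = n ∧ orderOf y = m ∧
      x⁻¹ * y * x = y ^ r ∧ Nat.Coprime (r - 1) m ∧ Nat.Coprime n m ∧ 1 ≤ r ∧ r ^ n % m = 1 % m := by
  have hG : IsZGroup G := ⟨fun p hp P => by have := Fact.mk hp; exact hZ p P⟩
  obtain ⟨H, hH⟩ := Subgroup.exists_right_complement'_of_coprime hG.coprime_commutator_index
  have h1 : Abelianization G ≃* H := hH.symm.QuotientMulEquiv
  have hHc : IsCyclic H := isCyclic_of_surjective _ h1.surjective
  have hNc : IsCyclic (commutator G) := hG.isCyclic_commutator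
  obtain ⟨y0, hy0⟩ := IsCyclic.exists_generator (α := commutator G)
  obtain ⟨x0, hx0⟩ := IsCyclic.exists_generator (α := H)
  set x : G := (x0 : G) with hx
  set y : G := (y0 : G) with hy
  have hordx : orderOf x = Nat.card H := by
    rw [hx, Subgroup.orderOf_coe]; exact orderOf_eq_card_of_forall_mem_zpowers hx0
  have hordy : orderOf y = Nat.card (commutator G) := by
    rw [hy, Subgroup.orderOf_coe]; exact orderOf_eq_card_of_forall_mem_zpowers hy0
  have hyN : ∀ g ∈ commutator G, ∃ k : ℤ, y ^ k = g := by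
    intro g hg
    obtain ⟨k, hk⟩ := Subgroup.mem_zpowers_iff.mp (hy0 ⟨g, hg⟩)
    refine ⟨k, ?_⟩
    have := congrArg Subtype.val hk
    simpa using this
  have hxH : ∀ g ∈ H, ∃ k : ℤ, x ^ k = g := by
    intro g hg
    obtain ⟨k, hk⟩ := Subgroup.mem_zpowers_iff.mp (hx0 ⟨g, hg⟩)
    refine ⟨k, ?_⟩
    have := congrArg Subtype.val hk
    simpa using this
  have hgen : Subgroup.closure {x, y} = ⊤ := by
    rw [eq_top_iff, ← hH.sup_eq_top, sup_le_iff]
    constructor
    · intro g hg
      obtain ⟨k, rfl⟩ := hyN g hg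
      exact Subgroup.zpow_mem _ (Subgroup.subset_closure (by simp)) k
    · intro g hg
      obtain ⟨k, rfl⟩ := hxH g hg
      exact Subgroup.zpow_mem _ (Subgroup.subset_closure (by simp)) k
  have hm_pos : 0 < orderOf y := orderOf_pos y
  -- the exponent r
  have hconj : x⁻¹ * y * x ∈ commutator G := by
    have hn : (commutator G).Normal := inferInstance
    have := hn.conj_mem y y0.2 x⁻¹
    simpa using this
  obtain ⟨k, hk⟩ := hyN _ hconj
  set m := orderOf y with hm
  set j : ℕ := (k % (m : ℤ)).toNat with hj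
  have hjk : (j : ℤ) = k % (m : ℤ) := Int.toNat_of_nonneg (Int.emod_nonneg _ (by positivity))
  have hyj : y ^ j = x⁻¹ * y * x := by
    rw [← hk, ← zpow_natCast, hjk, hm, zpow_mod_orderOf]
  set r : ℕ := j + m with hr
  have hyr : x⁻¹ * y * x = y ^ r := by
    rw [hr, pow_add, hyj, hm, pow_orderOf_eq_one, mul_one]
  have hr1 : 1 ≤ r := by omega
  -- r ^ n ≡ 1
  have hpow : r ^ orderOf x % m = 1 % m := by
    have h2 := conj_iter x y r hyr (orderOf x)
    rw [inv_pow, pow_orderOf_eq_one, inv_one, one_mul, mul_one] at h2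
    have h3 : y ^ (r ^ orderOf x) = y ^ 1 := by rw [← h2, pow_one]
    exact (pow_eq_pow_iff_modEq.mp h3)
  -- coprimality of r - 1 and m
  have hcop : Nat.Coprime (r - 1) m := by
    set Q : Subgroup G := Subgroup.zpowers (y ^ (r - 1)) with hQ
    have hyQ : y ∈ Subgroup.normalizer (Q : Set G) := by
      apply Subgroup.mem_normalizer_fintype
      intro q hq
      obtain ⟨i, rfl⟩ := Subgroup.mem_zpowers_iff.mp hq
      have : y * (y ^ (r - 1)) ^ i * y⁻¹ = (y ^ (r - 1)) ^ i := by
        rw [← zpow_natCast, ← zpow_mul]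
        have hc : Commute y (y ^ (((r - 1 : ℕ) : ℤ) * i)) := (Commute.refl y).zpow_right _
        rw [hc.eq, mul_inv_cancel_right]
      rw [this]; exact hq
    have hxQ' : x⁻¹ ∈ Subgroup.normalizer (Q : Set G) := by
      apply Subgroup.mem_normalizer_fintype
      intro q hq
      obtain ⟨i, rfl⟩ := Subgroup.mem_zpowers_iff.mp hq
      have h4 : x⁻¹ * (y ^ (r - 1)) ^ i * x⁻¹⁻¹ = ((y ^ (r - 1)) ^ r) ^ i := by
        rw [inv_inv]
        have e1 : x⁻¹ * (y ^ (r - 1)) ^ i * x = (x⁻¹ * y ^ (r - 1) * x) ^ i := by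
          have := conj_zpow (a := x⁻¹) (b := y ^ (r - 1)) (i := i)
          rw [inv_inv] at this
          exact this.symm
        have e2 : x⁻¹ * y ^ (r - 1) * x = (x⁻¹ * y * x) ^ (r - 1) := by
          have := conj_pow (a := x⁻¹) (b := y) (i := r - 1)
          rw [inv_inv] at this
          exact this.symm
        rw [e1, e2, hyr, ← pow_mul, ← pow_mul, mul_comm]
      rw [h4]
      exact Subgroup.zpow_mem _ (Subgroup.pow_mem _ (Subgroup.mem_zpowers _) _) _
    have hxQ : x ∈ Subgroup.normalizer (Q : Set G) := by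
      have := Subgroup.inv_mem _ hxQ'
      simpa using this
    have hnorm : Subgroup.normalizer (Q : Set G) = ⊤ := by
      rw [eq_top_iff, ← hgen, Subgroup.closure_le]
      rintro g (rfl | rfl)
      · exact hxQ
      · exact hyQ
    have hQn : Q.Normal := Subgroup.normalizer_eq_top_iff.mp hnorm
    have hquot : ∀ u v : G ⧸ Q, u * v = v * u := by
      apply comm_of_closure (QuotientGroup.mk' Q x) (QuotientGroup.mk' Q y)
      · have e : (QuotientGroup.mk' Q x)⁻¹ * QuotientGroup.mk' Q y * QuotientGroup.mk' Q x =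
            QuotientGroup.mk' Q y := by
          rw [← map_inv, ← map_mul, ← map_mul, hyr]
          have hsplit : y ^ r = y * y ^ (r - 1) := by
            rw [← pow_succ']; congr 1; omega
          rw [hsplit, map_mul]
          have : QuotientGroup.mk' Q (y ^ (r - 1)) = 1 := by
            rw [QuotientGroup.mk'_apply, QuotientGroup.eq_one_iff]
            exact Subgroup.mem_zpowers _
          rw [this, mul_one]
        calc QuotientGroup.mk' Q x * QuotientGroup.mk' Q y
            = QuotientGroup.mk' Q x * ((QuotientGroup.mk' Q x)⁻¹ * QuotientGroup.mk' Q y * QuotientGroup.mk' Q x) := by rw [e]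
          _ = QuotientGroup.mk' Q y * QuotientGroup.mk' Q x := by group
      · have := congrArg (Subgroup.map (QuotientGroup.mk' Q)) hgen
        rw [MonoidHom.map_closure, Subgroup.map_top_of_surjective _ (QuotientGroup.mk'_surjective Q)] at this
        rw [← this]
        congr 1
        ext z
        simp [Set.image_pair]
    have hle : commutator G ≤ Q := by
      apply Subgroup.Normal.quotient_commutative_iff_commutator_le.mp
      exact ⟨⟨hquot⟩⟩
    have hyQmem : y ∈ Q := hle y0.2
    obtain ⟨i, hi⟩ := Subgroup.mem_zpowers_iff.mp hyQmem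
    have h5 : y ^ ((((r - 1 : ℕ) : ℤ)) * i - 1) = 1 := by
      rw [zpow_sub, zpow_mul, zpow_natCast, hi, zpow_one, mul_inv_cancel]
    obtain ⟨t, ht⟩ := (orderOf_dvd_iff_zpow_eq_one).mpr h5
    rw [← Nat.isCoprime_iff_coprime]
    exact ⟨i, -t, by rw [← hm] at ht; linear_combination ht⟩
  refine ⟨x, y, orderOf x, m, r, hgen, rfl, rfl, hyr, hcop, ?_, hr1, hpow⟩
  rw [hordx, hordy, ← hH.symm.index_eq_card]
  exact hG.coprime_commutator_index.symm

end Cfsg.Agent.S3379
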