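import Mathlib
import Cfsg.Statements.S3381

set_option autoImplicit false
open Cfsg

namespace Cfsg.Agent.S3381

/-- Let G be a finite group acting faithfully and linearly on a non-trivial finite vector space V over the field with q elements (q prime) so that every non-zero vector has a stabilizer of order 2, and suppose G has a central involution. Then V has q^(2r) elements for some r and G contains exactly q^r + 1 non-central involutions. -/
theorem result
    (q : ℕ) [Fact q.Prime] {V : Type*} [AddCommGroup V] [Module (ZMod q) V] [Finite V] [Nontrivial V]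
    {G : Type*} [Group G] [Finite G] (ρ : G →* (V ≃ₗ[ZMod q] V)) (hρ : Function.Injective ρ)
    (hstab : ∀ v : V, v ≠ 0 → Nat.card {g : G // ρ g v = v} = 2)
    (z : G) (hz : orderOf z = 2) (hzc : z ∈ Subgroup.center G) :
    ∃ r : ℕ, Nat.card V = q ^ (2 * r) ∧
      Nat.card {g : G // orderOf g = 2 ∧ g ∉ Subgroup.center G} = q ^ r + 1 := by
  classical
  have hq : q.Prime := Fact.out
  have := Fintype.ofFinite V
  have := Fintype.ofFinite G
  have hmul : ∀ (g h : G) (v : V), ρ (g * h) v = ρ g (ρ h v) := by
    intro g h v; rw [map_mul]; rfl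
  have hone : ∀ v : V, ρ 1 v = v := by
    intro v; rw [map_one]; rfl
  have hinj1 : ∀ g : G, (∀ v, ρ g v = v) → g = 1 := by
    intro g h
    apply hρ
    rw [map_one]
    exact LinearEquiv.ext h
  -- stabilizer lemmas
  have Lstab : ∀ v : V, v ≠ 0 → ∀ a b : G, a ≠ 1 → b ≠ 1 → ρ a v = v → ρ b v = v → a = b := by
    intro v hv a b ha hb hav hbv
    obtain ⟨x, y, hxy, huniv⟩ := Nat.card_eq_two_iff.mp (hstab v hv)
    have mem : ∀ w : {g : G // ρ g v = v}, w = x ∨ w = y := by
      intro w
      have : w ∈ ({x, y} : Set {g : G // ρ g v = v}) := by rw [huniv]; trivial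
      simpa using this
    have h1 := mem ⟨1, hone v⟩
    have h2 := mem ⟨a, hav⟩
    have h3 := mem ⟨b, hbv⟩
    have ne1 : (⟨a, hav⟩ : {g : G // ρ g v = v}) ≠ ⟨1, hone v⟩ := fun e => ha (congrArg Subtype.val e)
    have ne2 : (⟨b, hbv⟩ : {g : G // ρ g v = v}) ≠ ⟨1, hone v⟩ := fun e => hb (congrArg Subtype.val e)
    have : (⟨a, hav⟩ : {g : G // ρ g v = v}) = ⟨b, hbv⟩ := by
      rcases h1 with h1 | h1 <;> rcases h2 with h2 | h2 <;> rcases h3 with h3 | h3
      · exact absurd (h2.trans h1.symm) ne1
      · exact absurd (h2.trans h1.symm) ne1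
      · exact absurd (h3.trans h1.symm) ne2
      · exact h2.trans h3.symm
      · exact h2.trans h3.symm
      · exact absurd (h3.trans h1.symm) ne2
      · exact absurd (h2.trans h1.symm) ne1
      · exact absurd (h2.trans h1.symm) ne1
    exact congrArg Subtype.val this
  have Lex : ∀ v : V, v ≠ 0 → ∃ t : G, t ≠ 1 ∧ ρ t v = v := by
    intro v hv
    obtain ⟨x, y, hxy, huniv⟩ := Nat.card_eq_two_iff.mp (hstab v hv)
    by_cases hx : (x : G) = 1
    · refine ⟨y, fun hy => hxy (Subtype.ext (hx.trans hy.symm)), y.2⟩
    · exact ⟨x, hx, x.2⟩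
  have Lsq : ∀ v : V, v ≠ 0 → ∀ t : G, t ≠ 1 → ρ t v = v → t * t = 1 := by
    intro v hv t ht htv
    by_contra hne
    have h2 : ρ (t * t) v = v := by rw [hmul, htv, htv]
    have := Lstab v hv (t * t) t hne ht h2 htv
    exact ht (by simpa using this)
  -- z facts
  have hz1 : z ≠ 1 := by
    intro e; rw [e, orderOf_one] at hz; omega
  have hzz : z * z = 1 := by
    have := pow_orderOf_eq_one z
    rw [hz, pow_two] at this; exact this
  -- q ≠ 2
  have hq2 : q ≠ 2 := by
    intro hq2
    have h2V : ∀ v : V, v + v = 0 := by
      intro v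
      have h20 : (2 : ZMod q) = 0 := by
        have : ((2 : ℕ) : ZMod q) = 0 := by rw [← hq2]; exact ZMod.natCast_self q
        exact_mod_cast this
      have : (2 : ZMod q) • v = 0 := by rw [h20, zero_smul]
      rwa [two_smul] at this
    obtain ⟨v, hv⟩ : ∃ v, ρ z v ≠ v := by
      by_contra hcon
      push Not at hcon
      exact hz1 (hinj1 z hcon)
    have hv0 : v ≠ 0 := by
      rintro rfl
      exact hv (map_zero _)
    set w := v + ρ z v with hw
    have hzw : ρ z w = w := by
      rw [hw, map_add, ← hmul, hzz, hone, add_comm]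
    have hw0 : w ≠ 0 := by
      intro e
      apply hv
      have h1 : v + ρ z v = 0 := e
      have h2 := h2V v
      have : ρ z v = v := by
        have h3 : v + ρ z v = v + v := by rw [h1, h2]
        exact add_left_cancel h3
      exact this
    obtain ⟨t, ht1, htv⟩ := Lex v hv0
    have htw : ρ t w = w := by
      rw [hw, map_add, htv, ← hmul, Subgroup.mem_center_iff.mp hzc t, hmul, htv]
    have := Lstab w hw0 t z ht1 hz1 htw hzw
    rw [this] at htv
    exact hv htv
  have h2ne : (2 : ZMod q) ≠ 0 := by
    intro h
    have : ((2 : ℕ) : ZMod q) = 0 := by exact_mod_cast h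
    rw [ZMod.natCast_eq_zero_iff] at this
    exact hq2 ((Nat.prime_dvd_prime_iff_eq hq Nat.prime_two).mp this)
  have two_cancel : ∀ a b : V, a + a = b + b → a = b := by
    intro a b h
    have h' : (2 : ZMod q) • a = (2 : ZMod q) • b := by rw [two_smul, two_smul, h]
    have := congrArg (fun x => (2 : ZMod q)⁻¹ • x) h'
    simpa [smul_smul, inv_mul_cancel₀ h2ne] using this
  have neg_ne : ∀ a : V, a ≠ 0 → a ≠ -a := by
    intro a ha h
    apply ha
    have : a + a = 0 + 0 := by
      nth_rewrite 2 [h]; simp
    exact two_cancel a 0 this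
  -- Step 1: central involutions act as -1
  have step1 : ∀ c : G, c ∈ Subgroup.center G → c ≠ 1 → c * c = 1 → ∀ v : V, ρ c v = -v := by
    intro c hc hc1 hcc
    by_contra hcon
    push Not at hcon
    obtain ⟨v, hv⟩ := hcon
    set vp := v + ρ c v with hvp
    have hvp0 : vp ≠ 0 := by
      intro e
      apply hv
      have : ρ c v = -v := by
        have h1 : v + ρ c v = 0 := e
        exact (neg_eq_of_add_eq_zero_right h1).symm
      exact this
    have hcvp : ρ c vp = vp := by
      rw [hvp, map_add, ← hmul, hcc, hone, add_comm]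
    obtain ⟨u, hu⟩ : ∃ u, ρ c u ≠ u := by
      by_contra hcon
      push Not at hcon
      exact hc1 (hinj1 c hcon)
    set um := u - ρ c u with hum
    have hum0 : um ≠ 0 := by
      intro e
      apply hu
      have h1 : u - ρ c u = 0 := e
      exact (sub_eq_zero.mp h1).symm
    have hcum : ρ c um = -um := by
      rw [hum, map_sub, ← hmul, hcc, hone]; abel
    set x := vp + um with hx
    have hcx : ρ c x = vp - um := by
      rw [hx, map_add, hcvp, hcum]; abel
    have hx0 : x ≠ 0 := by
      intro e
      have h1 : ρ c x = 0 := by rw [e, map_zero]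
      rw [hcx] at h1
      have h2 : vp = um := sub_eq_zero.mp h1
      have h3 : um + um = 0 + 0 := by
        have : vp + um = 0 := e
        rw [h2] at this
        rw [this]; simp
      exact hum0 (two_cancel um 0 h3)
    obtain ⟨t, ht1, htx⟩ := Lex x hx0
    have htcx : ρ t (ρ c x) = ρ c x := by
      rw [← hmul, Subgroup.mem_center_iff.mp hc t, hmul, htx]
    rw [hcx] at htcx
    have htvp : ρ t vp = vp := by
      apply two_cancel
      have h1 : ρ t (vp + um) + ρ t (vp - um) = (vp + um) + (vp - um) := by rw [htx, htcx]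
      rw [← map_add] at h1
      have e1 : vp + um + (vp - um) = vp + vp := by abel
      rw [e1, map_add] at h1
      exact h1
    have htum : ρ t um = um := by
      have h1 : ρ t (vp + um) = vp + um := htx
      rw [map_add, htvp] at h1
      exact add_left_cancel h1
    have htc := Lstab vp hvp0 t c ht1 hc1 htvp hcvp
    rw [htc, hcum] at htum
    exact neg_ne um hum0 htum.symm
  have hzneg : ∀ v : V, ρ z v = -v := step1 z hzc hz1 hzz
  -- the set I of non-central involutions
  let I : Finset G := Finset.univ.filter (fun g => orderOf g = 2 ∧ g ∉ Subgroup.center G)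
  have hI : ∀ t, t ∈ I ↔ orderOf t = 2 ∧ t ∉ Subgroup.center G := by
    intro t; simp [I]
  have hIsq : ∀ t ∈ I, t * t = 1 := by
    intro t ht
    have := pow_orderOf_eq_one t
    rw [((hI t).mp ht).1, pow_two] at this; exact this
  have hIne : ∀ t ∈ I, t ≠ 1 := by
    intro t ht e
    have := ((hI t).mp ht).1
    rw [e, orderOf_one] at this; omega
  let F : G → Finset V := fun t => Finset.univ.filter (fun v => ρ t v = v)
  have hF : ∀ t v, v ∈ F t ↔ ρ t v = v := by
    intro t v; simp [F]
  have hF0 : ∀ t, (0 : V) ∈ F t := fun t => (hF t 0).mpr (map_zero _)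
  -- (2a)
  have h2a : ∀ v : V, v ≠ 0 → ∃ t ∈ I, v ∈ F t := by
    intro v hv
    obtain ⟨t, ht1, htv⟩ := Lex v hv
    have htt := Lsq v hv t ht1 htv
    refine ⟨t, ?_, (hF t v).mpr htv⟩
    rw [hI]
    refine ⟨orderOf_eq_prime (by rw [pow_two]; exact htt) ht1, ?_⟩
    intro hc
    have := step1 t hc ht1 htt v
    rw [htv] at this
    exact neg_ne v hv this
  -- (2b)
  have h2b : ∀ t ∈ I, ∀ s ∈ I, ∀ v : V, v ≠ 0 → v ∈ F t → v ∈ F s → t = s := by
    intro t ht s hs v hv hvt hvs
    exact Lstab v hv t s (hIne t ht) (hIne s hs) ((hF t v).mp hvt) ((hF s v).mp hvs)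
  -- (2c)
  have h2c : ∀ t ∈ I, t * z ∈ I := by
    intro t ht
    have htt := hIsq t ht
    have hcomm : t * z = z * t := Subgroup.mem_center_iff.mp hzc t
    rw [hI]
    constructor
    · apply orderOf_eq_prime
      · rw [pow_two]
        calc t * z * (t * z) = t * (z * t) * z := by group
          _ = t * (t * z) * z := by rw [hcomm]
          _ = (t * t) * (z * z) := by group
          _ = 1 := by rw [htt, hzz, one_mul]
      · intro e
        apply ((hI t).mp ht).2
        have : t = z := by
          have h1 : t * z * z = z := by rw [e, one_mul]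
          rwa [mul_assoc, hzz, mul_one] at h1
        rw [this]; exact hzc
    · intro hc
      apply ((hI t).mp ht).2
      have : t = (t * z) * z := by rw [mul_assoc, hzz, mul_one]
      rw [this]
      exact Subgroup.mul_mem _ hc hzc
  have hFz : ∀ t v, v ∈ F (t * z) ↔ ρ t v = -v := by
    intro t v
    rw [hF, hmul, hzneg, map_neg]
    exact neg_eq_iff_eq_neg
  -- (2d)
  have h2d : ∀ t ∈ I, (F t).card * (F (t * z)).card = Fintype.card V := by
    intro t htI
    have htt := hIsq t htI
    rw [← Finset.card_product, ← Finset.card_univ]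
    apply Finset.card_bij (fun p _ => p.1 + p.2)
    · intro p _; exact Finset.mem_univ _
    · rintro ⟨a, b⟩ hab ⟨a', b'⟩ hab' h
      simp only [Finset.mem_product] at hab hab'
      have ha := (hF t a).mp hab.1
      have ha' := (hF t a').mp hab'.1
      have hb := (hFz t b).mp hab.2
      have hb' := (hFz t b').mp hab'.2
      have h0 : a + b = a' + b' := h
      have h1 : ρ t (a + b) = ρ t (a' + b') := by rw [h0]
      rw [map_add, map_add, ha, ha', hb, hb'] at h1
      have e1 : a = a' := by
        apply two_cancel
        have : (a + b) + (a + -b) = (a' + b') + (a' + -b') := by rw [h0, h1]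
        have l : (a + b) + (a + -b) = a + a := by abel
        have r : (a' + b') + (a' + -b') = a' + a' := by abel
        rw [l, r] at this; exact this
      have e2 : b = b' := by
        rw [e1] at h0; exact add_left_cancel h0
      rw [e1, e2]
    · intro v _
      refine ⟨((2 : ZMod q)⁻¹ • (v + ρ t v), (2 : ZMod q)⁻¹ • (v - ρ t v)), ?_, ?_⟩
      · simp only [Finset.mem_product]
        constructor
        · rw [hF, map_smul, map_add, ← hmul, htt, hone, add_comm]
        · rw [hFz, map_smul, map_sub, ← hmul, htt, hone, ← smul_neg, neg_sub]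
      · show (2 : ZMod q)⁻¹ • (v + ρ t v) + (2 : ZMod q)⁻¹ • (v - ρ t v) = v
        rw [← smul_add]
        have : v + ρ t v + (v - ρ t v) = (2 : ZMod q) • v := by rw [two_smul]; abel
        rw [this, smul_smul, inv_mul_cancel₀ h2ne, one_smul]
  -- (2e)
  have hFsub : ∀ t a b, a ∈ F t → b ∈ F t → a - b ∈ F t := by
    intro t a b ha hb
    rw [hF] at *
    rw [map_sub, ha, hb]
  have h2e : ∀ s ∈ I, ∀ t ∈ I, s ≠ t → (F s).card * (F t).card ≤ Fintype.card V := by
    intro s hs t ht hst
    rw [← Finset.card_product, ← Finset.card_univ]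
    apply Finset.card_le_card_of_injOn (fun p => p.1 + p.2)
    · intro p _; exact Finset.mem_univ _
    · rintro ⟨a, b⟩ hab ⟨a', b'⟩ hab' h
      simp only [Finset.coe_product, Set.mem_prod, Finset.mem_coe] at hab hab'
      have h0 : a + b = a' + b' := h
      have e : a - a' = b' - b := by
        rw [sub_eq_sub_iff_add_eq_add, h0, add_comm]
      have hd1 : a - a' ∈ F s := hFsub s a a' hab.1 hab'.1
      have hd2 : a - a' ∈ F t := by rw [e]; exact hFsub t b' b hab'.2 hab.2
      by_cases hd : a - a' = 0
      · have e1 : a = a' := sub_eq_zero.mp hd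
        have e2 : b = b' := by rw [e1] at h0; exact add_left_cancel h0
        rw [e1, e2]
      · exact absurd (h2b s hs t ht _ hd hd1 hd2) hst
  have hFpos : ∀ t, 0 < (F t).card := fun t => Finset.card_pos.mpr ⟨0, hF0 t⟩
  have hNpos : 1 < Fintype.card V := Fintype.one_lt_card
  have step3 : ∀ t ∈ I, (F t).card = (F (t * z)).card := by
    intro t ht
    have htz := h2c t ht
    have hab := h2d t ht
    have htne : t ≠ t * z := by
      intro e
      apply hz1
      have : t * 1 = t * z := by rw [mul_one]; exact e
      exact (mul_left_cancel this).symm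
    by_cases hex : ∃ s ∈ I, s ≠ t ∧ s ≠ t * z
    · obtain ⟨s, hs, hst, hstz⟩ := hex
      have hsz := h2c s hs
      have hcd := h2d s hs
      have hszt : s * z ≠ t := by
        intro e; apply hstz; rw [← e, mul_assoc, hzz, mul_one]
      have hsztz : s * z ≠ t * z := by
        intro e; exact hst (mul_right_cancel e)
      have i1 := h2e s hs t ht hst
      have i2 := h2e s hs (t * z) htz hstz
      have i3 := h2e (s * z) hsz t ht hszt
      have i4 := h2e (s * z) hsz (t * z) htz hsztz
      have pa := hFpos t
      have pb := hFpos (t * z)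
      have pc := hFpos s
      have pd := hFpos (s * z)
      have ad : (F t).card ≤ (F (s * z)).card := by
        rw [← hcd] at i1; exact Nat.le_of_mul_le_mul_left i1 pc
      have db : (F (s * z)).card ≤ (F (t * z)).card := by
        rw [← hab, mul_comm] at i3; exact Nat.le_of_mul_le_mul_left i3 pa
      have bd : (F (t * z)).card ≤ (F (s * z)).card := by
        rw [← hcd] at i2; exact Nat.le_of_mul_le_mul_left i2 pc
      have da : (F (s * z)).card ≤ (F t).card := by
        rw [← hab, mul_comm, mul_comm (F t).card] at i4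
        exact Nat.le_of_mul_le_mul_left i4 pb
      omega
    · push Not at hex
      have hcov : (Finset.univ : Finset V) = F t ∪ F (t * z) := by
        ext v
        simp only [Finset.mem_univ, Finset.mem_union, true_iff]
        by_cases hv : v = 0
        · left; rw [hv]; exact hF0 t
        · obtain ⟨s, hs, hvs⟩ := h2a v hv
          by_cases h1 : s = t
          · left; rw [← h1]; exact hvs
          · right; rw [← hex s hs h1]; exact hvs
      have hint : F t ∩ F (t * z) = {0} := by
        ext v
        simp only [Finset.mem_inter, Finset.mem_singleton]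
        constructor
        · rintro ⟨h1, h2⟩
          by_contra hv
          exact htne (h2b t ht (t * z) htz v hv h1 h2)
        · rintro rfl; exact ⟨hF0 t, hF0 _⟩
      have hcard : Fintype.card V + 1 = (F t).card + (F (t * z)).card := by
        rw [← Finset.card_univ, hcov, ← Finset.card_union_add_card_inter, hint, Finset.card_singleton]
      have hprod : ((F t).card - 1) * ((F (t * z)).card - 1) = 0 := by
        have pa := hFpos t
        have pb := hFpos (t * z)
        obtain ⟨a, ha⟩ : ∃ a, (F t).card = a + 1 := ⟨(F t).card - 1, by omega⟩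
        obtain ⟨b, hb⟩ : ∃ b, (F (t * z)).card = b + 1 := ⟨(F (t * z)).card - 1, by omega⟩
        rw [ha, hb] at hab hcard ⊢
        simp only [Nat.add_sub_cancel]
        nlinarith
      rcases Nat.mul_eq_zero.mp hprod with h | h
      · exfalso
        have ha : (F t).card = 1 := by have := hFpos t; omega
        have hb : (F (t * z)).card = Fintype.card V := by rw [← hab, ha, one_mul]
        have hall : F (t * z) = Finset.univ := (Finset.card_eq_iff_eq_univ _).mp hb
        apply hIne _ htz
        apply hinj1
        intro v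
        have : v ∈ F (t * z) := by rw [hall]; exact Finset.mem_univ _
        exact (hF _ v).mp this
      · exfalso
        have hb : (F (t * z)).card = 1 := by have := hFpos (t * z); omega
        have ha : (F t).card = Fintype.card V := by rw [← hab, hb, mul_one]
        have hall : F t = Finset.univ := (Finset.card_eq_iff_eq_univ _).mp ha
        apply hIne _ ht
        apply hinj1
        intro v
        have : v ∈ F t := by rw [hall]; exact Finset.mem_univ _
        exact (hF _ v).mp this
  have hsq : ∀ t ∈ I, (F t).card * (F t).card = Fintype.card V := by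
    intro t ht
    have := h2d t ht
    rw [← step3 t ht] at this; exact this
  obtain ⟨v0, hv0⟩ := exists_ne (0 : V)
  obtain ⟨t0, ht0, -⟩ := h2a v0 hv0
  obtain ⟨m, hm⟩ : ∃ m, m = (F t0).card := ⟨_, rfl⟩
  have hmm : m * m = Fintype.card V := by rw [hm]; exact hsq t0 ht0
  have hallm : ∀ t ∈ I, (F t).card = m := by
    intro t ht
    have := hsq t ht
    rw [← hmm] at this
    exact Nat.mul_self_inj.mp this
  have hm1 : 1 < m := by
    by_contra h
    have h1 : m ≤ 1 := by omega
    have : m * m ≤ 1 := by nlinarith
    omega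
  have hpart : (Finset.univ.erase (0 : V)) = I.biUnion (fun t => (F t).erase 0) := by
    ext v
    simp only [Finset.mem_erase, Finset.mem_univ, and_true, Finset.mem_biUnion]
    constructor
    · intro hv
      obtain ⟨t, ht, hvt⟩ := h2a v hv
      exact ⟨t, ht, hv, hvt⟩
    · rintro ⟨t, ht, hv, -⟩; exact hv
  have hcount : Fintype.card V - 1 = I.card * (m - 1) := by
    have h1 : (Finset.univ.erase (0 : V)).card = Fintype.card V - 1 := by
      rw [Finset.card_erase_of_mem (Finset.mem_univ _), Finset.card_univ]
    rw [← h1, hpart, Finset.card_biUnion]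
    · have hc : ∀ t ∈ I, ((F t).erase 0).card = m - 1 := by
        intro t ht
        rw [Finset.card_erase_of_mem (hF0 t), hallm t ht]
      rw [Finset.sum_congr rfl hc, Finset.sum_const, smul_eq_mul]
    · intro s hs t ht hst
      rw [Function.onFun, Finset.disjoint_left]
      intro v hvs hvt
      rw [Finset.mem_erase] at hvs hvt
      exact hst (h2b s hs t ht v hvs.1 hvs.2 hvt.2)
  have hIcard : I.card = m + 1 := by
    obtain ⟨k, hk⟩ : ∃ k, m = k + 2 := ⟨m - 2, by omega⟩
    rw [← hmm, hk] at hcount
    have h2 : (k + 2) * (k + 2) - 1 = (k + 3) * (k + 1) := by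
      have : (k + 2) * (k + 2) = (k + 3) * (k + 1) + 1 := by ring
      omega
    rw [h2] at hcount
    have h3 : k + 2 - 1 = k + 1 := by omega
    rw [h3] at hcount
    have := Nat.eq_of_mul_eq_mul_right (by omega : 0 < k + 1) hcount
    omega
  have hVq : Fintype.card V = q ^ Module.finrank (ZMod q) V := by
    have := Module.natCard_eq_pow_finrank (K := ZMod q) (V := V)
    rw [Nat.card_eq_fintype_card, Nat.card_eq_fintype_card, ZMod.card] at this
    exact this
  obtain ⟨r, hr, hmr⟩ := (Nat.dvd_prime_pow hq).mp
    (show m ∣ q ^ Module.finrank (ZMod q) V from ⟨m, by rw [← hVq, hmm]⟩)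
  refine ⟨r, ?_, ?_⟩
  · rw [Nat.card_eq_fintype_card, ← hmm, hmr, ← pow_add, two_mul]
  · rw [Nat.card_eq_fintype_card, Fintype.card_subtype, ← hmr, ← hIcard]

end Cfsg.Agent.S3381
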