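import Mathlib
import Cfsg.Statements.S3382

set_option autoImplicit false
open Cfsg

namespace Cfsg.Agent.S3382

section abstract
variable {T : Type*} [Group T]

theorem iter_eq (τ : MulAut T) (t n : T) (ht : τ t = t * n) (hn : τ n = n) (k : ℕ) :
    (τ ^ k) t = t * n ^ k := by
  induction k with
  | zero => simp
  | succ k ih =>
    rw [pow_succ', MulAut.mul_apply, ih, map_mul, map_pow, ht, hn, pow_succ', mul_assoc]

theorem fix_of_stab (τ : MulAut T) (M : ℕ) (hM : τ ^ M = 1) (hodd : Odd M) (t n : T)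
    (ht : τ t = t * n) (hn : τ n = n) (K : ℕ) (hn2 : n ^ (2 ^ K) = 1) : τ t = t := by
  have h1 := iter_eq τ t n ht hn M
  rw [hM, MulAut.one_apply] at h1
  have h2 : n ^ M = 1 := by
    have := h1.symm
    rwa [mul_eq_left] at this
  have h3 : n ^ (Nat.gcd M (2 ^ K)) = 1 := pow_gcd_eq_one.mpr ⟨h2, hn2⟩
  have h4 : Nat.gcd M (2 ^ K) = 1 := by
    apply Nat.Coprime.pow_right
    exact (Nat.coprime_two_right.mpr hodd)
  rw [h4, pow_one] at h3
  rw [ht, h3, mul_one]

theorem fix_of_sq (τ : MulAut T) (M : ℕ) (hM : τ ^ M = 1) (hodd : Odd M) (x : T)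
    (h2 : τ (τ x) = x) : τ x = x := by
  have h : ∀ j : ℕ, (τ ^ (2 * j)) x = x := by
    intro j
    induction j with
    | zero => simp
    | succ j ih =>
      have : 2 * (j + 1) = 2 * j + 1 + 1 := by ring
      rw [this, pow_succ, pow_succ, MulAut.mul_apply, MulAut.mul_apply, h2, ih]
  obtain ⟨j, rfl⟩ := hodd
  have h3 := congrArg (fun σ : MulAut T => σ x) hM
  simp only [MulAut.one_apply] at h3
  rw [pow_succ', MulAut.mul_apply, h j] at h3
  exact h3

theorem odd_pow_modEq (j M e : ℕ) (hodd : Odd M) (h : j ^ M ≡ 1 [MOD 2 ^ e]) :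
    j ≡ 1 [MOD 2 ^ e] := by
  rcases Nat.eq_zero_or_pos e with he | he
  · subst he
    rw [pow_zero]
    exact Nat.modEq_one
  have hM0 : M ≠ 0 := by
    rintro rfl
    exact (Nat.not_odd_iff_even.mpr (by decide : Even 0)) hodd
  have h1 : ((j : ZMod (2 ^ e))) ^ M = 1 := by
    have := (ZMod.natCast_eq_natCast_iff _ _ _).mpr h
    push_cast at this
    exact this
  have hu : IsUnit (j : ZMod (2 ^ e)) := IsUnit.of_pow_eq_one h1 hM0
  obtain ⟨u, hu⟩ := hu
  have h2 : u ^ M = 1 := by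
    apply Units.ext
    rw [Units.val_pow_eq_pow_val, hu, h1, Units.val_one]
  have h3 : u ^ Nat.totient (2 ^ e) = 1 := ZMod.pow_totient u
  rw [Nat.totient_prime_pow Nat.prime_two he] at h3
  have h4 : u ^ Nat.gcd M (2 ^ (e - 1) * (2 - 1)) = 1 := pow_gcd_eq_one.mpr ⟨h2, h3⟩
  have h5 : Nat.gcd M (2 ^ (e - 1) * (2 - 1)) = 1 := by
    rw [show (2 - 1 : ℕ) = 1 from rfl, mul_one]
    apply Nat.Coprime.pow_right
    exact (Nat.coprime_two_right.mpr hodd)
  rw [h5, pow_one] at h4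
  rw [h4, Units.val_one] at hu
  have h6 : ((j : ℕ) : ZMod (2 ^ e)) = ((1 : ℕ) : ZMod (2 ^ e)) := by
    rw [Nat.cast_one]; exact hu.symm
  exact (ZMod.natCast_eq_natCast_iff _ _ _).mp h6

theorem fix_cyclic (τ : MulAut T) (M : ℕ) (hM : τ ^ M = 1) (hodd : Odd M) (g : T) (K j : ℕ)
    (hg : g ^ (2 ^ K) = 1) (hτ : τ g = g ^ j) : τ g = g := by
  have hit : ∀ k : ℕ, (τ ^ k) g = g ^ (j ^ k) := by
    intro k
    induction k with
    | zero => simp
    | succ k ih =>
      rw [pow_succ', MulAut.mul_apply, ih, map_pow, hτ, ← pow_mul, pow_succ']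
  have h1 := hit M
  rw [hM, MulAut.one_apply] at h1
  obtain ⟨e, -, he⟩ := (Nat.dvd_prime_pow Nat.prime_two).mp (orderOf_dvd_of_pow_eq_one hg)
  have h2 : g ^ (j ^ M) = g ^ 1 := by rw [pow_one]; exact h1.symm
  rw [pow_eq_pow_iff_modEq, he] at h2
  have h3 := odd_pow_modEq j M e hodd h2
  have h4 : g ^ j = g ^ 1 := by
    rw [pow_eq_pow_iff_modEq, he]
    exact h3
  rw [hτ, h4, pow_one]

/-- the generic case -/
theorem generic (τ : MulAut T) (M : ℕ) (hM : τ ^ M = 1) (hodd : Odd M)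
    (A : Set T) (K : ℕ)
    (hAdiv : ∀ x ∈ A, ∀ y ∈ A, x⁻¹ * y ∈ A)
    (hAc : ∀ x ∈ A, ∀ y ∈ A, x * y = y * x)
    (hAchar : ∀ t : T, t ∈ A ↔ ∀ g : T, g ^ 4 ≠ 1 → t * g = g * t)
    (hidx : ∀ t t' : T, t ∉ A → t' ∉ A → t⁻¹ * t' ∈ A)
    (hK : ∀ x ∈ A, x ^ (2 ^ K) = 1)
    (g₀ : T) (hg₀A : g₀ ∈ A) (hg₀ : ∃ x ∈ A, x ^ 2 = g₀) (hsq : ∀ x ∈ A, ∃ j : ℕ, x ^ 2 = g₀ ^ j)
    (z h : T) (hz : ∃ x ∈ A, x ^ 2 = z) (hz2 : z ^ 2 = 1) (hh : h ∈ A) (hh2 : h ^ 2 = 1)
    (hh1 : h ≠ 1) (hhz : h ≠ z)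
    (hΩ : ∀ x ∈ A, x ^ 2 = 1 → x = 1 ∨ x = z ∨ x = h ∨ x = z * h) :
    τ = 1 := by
  -- automorphisms preserve A
  have hτA : ∀ σ : MulAut T, ∀ t ∈ A, σ t ∈ A := by
    intro σ t ht
    rw [hAchar]
    intro g hg
    have hg' : (σ⁻¹ g) ^ 4 ≠ 1 := by
      intro h1
      apply hg
      have h2 := congrArg σ h1
      rw [map_pow, map_one, MulAut.apply_inv_self] at h2
      exact h2
    have h3 := (hAchar t).mp ht _ hg'
    have h4 := congrArg σ h3
    rw [map_mul, map_mul, MulAut.apply_inv_self] at h4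
    exact h4
  -- τ fixes g₀
  have hτg₀ : τ g₀ = g₀ := by
    obtain ⟨x, hx, hxg⟩ := hg₀
    obtain ⟨j, hj⟩ := hsq (τ x) (hτA τ x hx)
    apply fix_cyclic τ M hM hodd g₀ K j (hK g₀ hg₀A)
    rw [← hxg, map_pow, hj, hxg]
  have hτpow : ∀ j : ℕ, τ (g₀ ^ j) = g₀ ^ j := by
    intro j
    rw [map_pow, hτg₀]
  have hτz : τ z = z := by
    obtain ⟨x, hx, hxz⟩ := hz
    obtain ⟨j, hj⟩ := hsq x hx
    rw [← hxz, hj]
    exact hτpow j
  have hzA : z ∈ A := by
    obtain ⟨x, hx, hxz⟩ := hz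
    have h1 := hAdiv x⁻¹ (by
      have := hAdiv x hx x hx
      have h2 := hAdiv x hx (x⁻¹ * x) this
      rw [inv_mul_cancel, mul_one] at h2
      exact h2) x hx
    rw [inv_inv] at h1
    rw [← hxz, pow_two]
    exact h1
  have hτh : τ h = h := by
    have h1 : τ h ∈ A := hτA τ h hh
    have h2 : (τ h) ^ 2 = 1 := by rw [← map_pow, hh2, map_one]
    rcases hΩ _ h1 h2 with h3 | h3 | h3 | h3
    · exfalso
      apply hh1
      exact τ.injective (by rw [h3, map_one])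
    · exfalso
      apply hhz
      rw [← hτz] at h3
      exact τ.injective h3
    · exact h3
    · apply fix_of_sq τ M hM hodd
      rw [h3, map_mul, hτz, h3, ← mul_assoc, ← pow_two, hz2, one_mul]
  have hone : (1 : T) ∈ A := by
    have := hAdiv h hh h hh
    rwa [inv_mul_cancel] at this
  have hinv : ∀ x ∈ A, x⁻¹ ∈ A := by
    intro x hx
    have := hAdiv x hx 1 hone
    rwa [mul_one] at this
  have hmul : ∀ x ∈ A, ∀ y ∈ A, x * y ∈ A := by
    intro x hx y hy
    have := hAdiv x⁻¹ (hinv x hx) y hy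
    rwa [inv_inv] at this
  -- τ fixes A pointwise
  have hτAfix : ∀ a ∈ A, τ a = a := by
    intro a ha
    have hτa : τ a ∈ A := hτA τ a ha
    have hn : a⁻¹ * τ a ∈ A := hAdiv a ha _ hτa
    have hn2 : (a⁻¹ * τ a) ^ 2 = 1 := by
      obtain ⟨j, hj⟩ := hsq a ha
      have h1 : (τ a) ^ 2 = a ^ 2 := by
        rw [← map_pow, hj]
        exact hτpow j
      have h2 : a⁻¹ * τ a = τ a * a⁻¹ := hAc _ (hinv a ha) _ hτa
      calc (a⁻¹ * τ a) ^ 2 = (a⁻¹ * τ a) * (τ a * a⁻¹) := by rw [pow_two, ← h2]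
        _ = a⁻¹ * (τ a) ^ 2 * a⁻¹ := by rw [pow_two]; group
        _ = 1 := by rw [h1]; group
    have hτn : τ (a⁻¹ * τ a) = a⁻¹ * τ a := by
      rcases hΩ _ hn hn2 with h3 | h3 | h3 | h3
      · rw [h3, map_one]
      · rw [h3, hτz]
      · rw [h3, hτh]
      · rw [h3, map_mul, hτz, hτh]
    apply fix_of_stab τ M hM hodd a (a⁻¹ * τ a) (by group) hτn 1
    rw [pow_one]
    exact hn2
  -- τ fixes everything
  apply MulEquiv.ext
  intro t
  rw [MulAut.one_apply]
  by_cases ht : t ∈ A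
  · exact hτAfix t ht
  · have hτt : τ t ∉ A := by
      intro h1
      apply ht
      have := hτA τ⁻¹ _ h1
      rwa [MulAut.inv_apply_self] at this
    have hn : t⁻¹ * τ t ∈ A := hidx t _ ht hτt
    exact fix_of_stab τ M hM hodd t (t⁻¹ * τ t) (by group) (hτAfix _ hn) K (hK _ hn)

/-- the dihedral case -/
theorem small (τ : MulAut T) (M : ℕ) (hM : τ ^ M = 1) (hodd : Odd M) (c : T) (hc4 : c ^ 4 = 1)
    (hc : ∀ x : T, x ^ 2 ≠ 1 → x = c ∨ x = c⁻¹) (hc2 : c ^ 2 ≠ 1)
    (C : Set T) (hC : ∀ x ∈ C, ∃ k : ℕ, x = c ^ k) (hcC : ∀ k : ℕ, c ^ k ∈ C)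
    (hidx : ∀ t t' : T, t ∉ C → t' ∉ C → t⁻¹ * t' ∈ C) : τ = 1 := by
  have hτc : τ c = c := by
    have h1 : (τ c) ^ 2 ≠ 1 := by
      intro h
      apply hc2
      rw [← map_pow] at h
      exact τ.injective (by rw [h, map_one])
    rcases hc _ h1 with h2 | h2
    · exact h2
    · apply fix_of_sq τ M hM hodd
      rw [h2, map_inv, h2, inv_inv]
  have hτC : ∀ x ∈ C, τ x = x := by
    intro x hx
    obtain ⟨k, rfl⟩ := hC x hx
    rw [map_pow, hτc]
  apply MulEquiv.ext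
  intro t
  rw [MulAut.one_apply]
  by_cases ht : t ∈ C
  · exact hτC t ht
  · have hτt : τ t ∉ C := by
      intro h1
      apply ht
      obtain ⟨k, hk⟩ := hC _ h1
      have h2 : τ t = τ (c ^ k) := by rw [map_pow, hτc, hk]
      rw [τ.injective h2]
      exact hcC k
    have hn : t⁻¹ * τ t ∈ C := hidx t _ ht hτt
    apply fix_of_stab τ M hM hodd t (t⁻¹ * τ t) (by group) (hτC _ hn) 2
    obtain ⟨k, hk⟩ := hC _ hn
    rw [hk, ← pow_mul, mul_comm, pow_mul]
    norm_num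
    rw [hc4, one_pow]

/-- the tiny case -/
theorem tiny (τ : MulAut T) (h : ∀ x y : T, x ≠ 1 → y ≠ 1 → x = y) : τ = 1 := by
  apply MulEquiv.ext
  intro t
  rw [MulAut.one_apply]
  by_cases ht : t = 1
  · rw [ht, map_one]
  · apply h _ _ _ ht
    intro h1
    apply ht
    exact τ.injective (by rw [h1, map_one])

end abstract

section concrete
variable {q : ℕ} [Fact q.Prime]

/-- the ambient group of linear automorphisms -/
abbrev Gam (q : ℕ) := (Fin 2 → ZMod q) ≃ₗ[ZMod q] (Fin 2 → ZMod q)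

/-- diagonal type -/
def IsD (f : Gam q) (a b : ZMod q) : Prop := ∀ v, f v = ![a * v 0, b * v 1]
/-- anti-diagonal type -/
def IsA (f : Gam q) (a b : ZMod q) : Prop := ∀ v, f v = ![b * v 1, a * v 0]

theorem D_mul {f g : Gam q} {a b c d : ZMod q} (hf : IsD f a b) (hg : IsD g c d) :
    IsD (f * g) (a * c) (b * d) := by
  intro v
  rw [LinearEquiv.mul_apply, hg v, hf]
  simp [mul_assoc]

theorem A_mul_A {f g : Gam q} {a b c d : ZMod q} (hf : IsA f a b) (hg : IsA g c d) :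
    IsD (f * g) (b * c) (a * d) := by
  intro v
  rw [LinearEquiv.mul_apply, hg v, hf]
  simp [mul_assoc]

theorem D_mul_A {f g : Gam q} {a b c d : ZMod q} (hf : IsD f a b) (hg : IsA g c d) :
    IsA (f * g) (b * c) (a * d) := by
  intro v
  rw [LinearEquiv.mul_apply, hg v, hf]
  simp [mul_assoc]

theorem A_mul_D {f g : Gam q} {a b c d : ZMod q} (hf : IsA f a b) (hg : IsD g c d) :
    IsA (f * g) (a * c) (b * d) := by
  intro v
  rw [LinearEquiv.mul_apply, hg v, hf]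
  simp [mul_assoc]

theorem D_one : IsD (1 : Gam q) 1 1 := by
  intro v
  ext i
  fin_cases i <;> simp

theorem D_pow {f : Gam q} {a b : ZMod q} (hf : IsD f a b) (n : ℕ) : IsD (f ^ n) (a ^ n) (b ^ n) := by
  induction n with
  | zero => simpa using (D_one (q := q))
  | succ n ih =>
    rw [pow_succ, pow_succ, pow_succ]
    exact D_mul ih hf

theorem D_ext {f g : Gam q} {a b : ZMod q} (hf : IsD f a b) (hg : IsD g a b) : f = g := by
  apply LinearEquiv.ext
  intro v
  rw [hf v, hg v]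

theorem A_ext {f g : Gam q} {a b : ZMod q} (hf : IsA f a b) (hg : IsA g a b) : f = g := by
  apply LinearEquiv.ext
  intro v
  rw [hf v, hg v]

theorem D_inj {f : Gam q} {a b c d : ZMod q} (hf : IsD f a b) (hg : IsD f c d) : a = c ∧ b = d := by
  have h := (hf ![1, 1]).symm.trans (hg ![1, 1])
  have h0 := congrFun h 0
  have h1 := congrFun h 1
  simp at h0 h1
  exact ⟨h0, h1⟩

theorem A_inj {f : Gam q} {a b c d : ZMod q} (hf : IsA f a b) (hg : IsA f c d) : a = c ∧ b = d := by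
  have h := (hf ![1, 1]).symm.trans (hg ![1, 1])
  have h0 := congrFun h 0
  have h1 := congrFun h 1
  simp at h0 h1
  exact ⟨h1, h0⟩

theorem D_not_A {f : Gam q} {a b c d : ZMod q} (hf : IsD f a b) (hg : IsA f c d) : c = 0 := by
  have h := (hf ![1, 0]).symm.trans (hg ![1, 0])
  have h1 := congrFun h 1
  simp at h1
  exact h1.symm

/-- diagonal elements -/
def dEl (a b : ZMod q) (ha : a ≠ 0) (hb : b ≠ 0) : Gam q where
  toFun v := ![a * v 0, b * v 1]
  invFun v := ![a⁻¹ * v 0, b⁻¹ * v 1]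
  map_add' := by
    intro v w
    ext i
    fin_cases i <;> simp [mul_add]
  map_smul' := by
    intro c v
    ext i
    fin_cases i <;> simp <;> ring
  left_inv := by
    intro v
    ext i
    fin_cases i <;> simp [ha, hb]
  right_inv := by
    intro v
    ext i
    fin_cases i <;> simp [ha, hb]

theorem dEl_isD (a b : ZMod q) (ha : a ≠ 0) (hb : b ≠ 0) : IsD (dEl a b ha hb) a b := fun _ => rfl

/-- anti-diagonal elements -/
def aEl (a b : ZMod q) (ha : a ≠ 0) (hb : b ≠ 0) : Gam q where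
  toFun v := ![b * v 1, a * v 0]
  invFun v := ![a⁻¹ * v 1, b⁻¹ * v 0]
  map_add' := by
    intro v w
    ext i
    fin_cases i <;> simp [mul_add]
  map_smul' := by
    intro c v
    ext i
    fin_cases i <;> simp <;> ring
  left_inv := by
    intro v
    ext i
    fin_cases i <;> simp [ha, hb]
  right_inv := by
    intro v
    ext i
    fin_cases i <;> simp [ha, hb]

theorem aEl_isA (a b : ZMod q) (ha : a ≠ 0) (hb : b ≠ 0) : IsA (aEl a b ha hb) a b := fun _ => rfl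

theorem ne_zero_of_prod {a b : ZMod q} (h : a * b = 1 ∨ a * b = -1) : a ≠ 0 ∧ b ≠ 0 := by
  constructor
  · rintro rfl
    rw [zero_mul] at h
    rcases h with h | h
    · exact zero_ne_one h
    · exact one_ne_zero (neg_eq_zero.mp h.symm)
  · rintro rfl
    rw [mul_zero] at h
    rcases h with h | h
    · exact zero_ne_one h
    · exact one_ne_zero (neg_eq_zero.mp h.symm)

theorem D_not_A' {f : Gam q} {a b c d : ZMod q} (hf : IsD f a b) (hg : IsA f c d) : b = 0 := by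
  have h := (hf ![0, 1]).symm.trans (hg ![0, 1])
  have h1 := congrFun h 1
  simp at h1
  exact h1

variable (T : Subgroup (Gam q))
  (hT' : ∀ f, f ∈ T ↔ ∃ a b : ZMod q, (a * b = 1 ∨ a * b = -1) ∧ (IsD f a b ∨ IsA f a b))

include hT' in
theorem typ (x : T) :
    ∃ a b : ZMod q, (a * b = 1 ∨ a * b = -1) ∧ (IsD x.1 a b ∨ IsA x.1 a b) := (hT' x.1).mp x.2

include hT' in
theorem mkD (a b : ZMod q) (h : a * b = 1 ∨ a * b = -1) : ∃ x : T, IsD x.1 a b :=
  ⟨⟨dEl a b (ne_zero_of_prod h).1 (ne_zero_of_prod h).2,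
    (hT' _).mpr ⟨a, b, h, Or.inl (dEl_isD a b (ne_zero_of_prod h).1 (ne_zero_of_prod h).2)⟩⟩,
    dEl_isD a b (ne_zero_of_prod h).1 (ne_zero_of_prod h).2⟩

include hT' in
theorem mkA (a b : ZMod q) (h : a * b = 1 ∨ a * b = -1) : ∃ x : T, IsA x.1 a b :=
  ⟨⟨aEl a b (ne_zero_of_prod h).1 (ne_zero_of_prod h).2,
    (hT' _).mpr ⟨a, b, h, Or.inr (aEl_isA a b (ne_zero_of_prod h).1 (ne_zero_of_prod h).2)⟩⟩,
    aEl_isA a b (ne_zero_of_prod h).1 (ne_zero_of_prod h).2⟩

include hT' in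
theorem D_prod (x : T) (a b : ZMod q) (h : IsD x.1 a b) : a * b = 1 ∨ a * b = -1 := by
  obtain ⟨a', b', hab, h' | h'⟩ := typ T hT' x
  · obtain ⟨rfl, rfl⟩ := D_inj h h'
    exact hab
  · exfalso
    exact (ne_zero_of_prod hab).1 (D_not_A h h')

include hT' in
theorem A_prod (x : T) (a b : ZMod q) (h : IsA x.1 a b) : a * b = 1 ∨ a * b = -1 := by
  obtain ⟨a', b', hab, h' | h'⟩ := typ T hT' x
  · exfalso
    exact (ne_zero_of_prod hab).2 (D_not_A' h' h)
  · obtain ⟨rfl, rfl⟩ := A_inj h h'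
    exact hab

/-- the "determinant one" part -/
def InC (x : T) : Prop :=
  (∃ a b : ZMod q, a * b = 1 ∧ IsD x.1 a b) ∨ (∃ a b : ZMod q, a * b = -1 ∧ IsA x.1 a b)

include hT' in
theorem notC_mul (t u : T) (ht : ¬ InC T t) (hu : ¬ InC T u) : InC T (t * u) := by
  obtain ⟨a, b, hab, h | h⟩ := typ T hT' t
  · have hab' : a * b = -1 := by
      rcases hab with hab | hab
      · exact absurd (Or.inl ⟨a, b, hab, h⟩) ht
      · exact hab
    obtain ⟨e, f, hef, h' | h'⟩ := typ T hT' u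
    · have hef' : e * f = -1 := by
        rcases hef with hef | hef
        · exact absurd (Or.inl ⟨e, f, hef, h'⟩) hu
        · exact hef
      left
      refine ⟨a * e, b * f, ?_, D_mul h h'⟩
      calc a * e * (b * f) = (a * b) * (e * f) := by ring
        _ = 1 := by rw [hab', hef']; ring
    · have hef' : e * f = 1 := by
        rcases hef with hef | hef
        · exact hef
        · exact absurd (Or.inr ⟨e, f, hef, h'⟩) hu
      right
      refine ⟨b * e, a * f, ?_, D_mul_A h h'⟩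
      calc b * e * (a * f) = (a * b) * (e * f) := by ring
        _ = -1 := by rw [hab', hef']; ring
  · have hab' : a * b = 1 := by
      rcases hab with hab | hab
      · exact hab
      · exact absurd (Or.inr ⟨a, b, hab, h⟩) ht
    obtain ⟨e, f, hef, h' | h'⟩ := typ T hT' u
    · have hef' : e * f = -1 := by
        rcases hef with hef | hef
        · exact absurd (Or.inl ⟨e, f, hef, h'⟩) hu
        · exact hef
      right
      refine ⟨a * e, b * f, ?_, A_mul_D h h'⟩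
      calc a * e * (b * f) = (a * b) * (e * f) := by ring
        _ = -1 := by rw [hab', hef']; ring
    · have hef' : e * f = 1 := by
        rcases hef with hef | hef
        · exact hef
        · exact absurd (Or.inr ⟨e, f, hef, h'⟩) hu
      left
      refine ⟨b * e, a * f, ?_, A_mul_A h h'⟩
      calc b * e * (a * f) = (a * b) * (e * f) := by ring
        _ = 1 := by rw [hab', hef']; ring

theorem z2 : ∀ a b : ZMod 2, (a * b = 1 ∨ a * b = -1) → a = 1 ∧ b = 1 := by decide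
theorem z3a : ∀ a b : ZMod 3, a * b = 1 → (a = 1 ∧ b = 1) ∨ (a = -1 ∧ b = -1) := by decide
theorem z3b : ∀ a b : ZMod 3, a * b = -1 → (a = 1 ∧ b = -1) ∨ (a = -1 ∧ b = 1) := by decide
theorem z3c : (-1 : ZMod 3) ≠ 1 := by decide

end concrete

theorem case_tiny (T : Subgroup (Gam 2))
    (hT' : ∀ f, f ∈ T ↔ ∃ a b : ZMod 2, (a * b = 1 ∨ a * b = -1) ∧ (IsD f a b ∨ IsA f a b))
    (τ : MulAut T) : τ = 1 := by
  have hf : Fact (Nat.Prime 2) := ⟨Nat.prime_two⟩
  apply tiny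
  have key : ∀ x : T, x ≠ 1 → IsA x.1 1 1 := by
    intro x hx
    obtain ⟨a, b, hab, h | h⟩ := typ T hT' x
    · obtain ⟨rfl, rfl⟩ := z2 a b hab
      exact absurd (Subtype.ext (D_ext h D_one)) hx
    · obtain ⟨rfl, rfl⟩ := z2 a b hab
      exact h
  intro x y hx hy
  exact Subtype.ext (A_ext (key x hx) (key y hy))

theorem case_small [Fact (Nat.Prime 3)] (T : Subgroup (Gam 3))
    (hT' : ∀ f, f ∈ T ↔ ∃ a b : ZMod 3, (a * b = 1 ∨ a * b = -1) ∧ (IsD f a b ∨ IsA f a b))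
    (τ : MulAut T) (M : ℕ) (hM : τ ^ M = 1) (hodd : Odd M) : τ = 1 := by
  obtain ⟨c, hc⟩ := mkA T hT' 1 (-1) (Or.inr (by ring))
  have hcc : IsD (c * c).1 (-1) (-1) := by
    have h1 : IsD (c.1 * c.1) (-1 * 1) (1 * -1) := A_mul_A hc hc
    simpa using h1
  have hc2' : c ^ 2 = c * c := pow_two c
  have hc4 : c ^ 4 = 1 := by
    have h1 : c ^ 4 = (c * c) * (c * c) := by
      rw [show (4 : ℕ) = 2 + 2 from rfl, pow_add, pow_two]
    rw [h1]
    apply Subtype.ext
    have h2 : IsD ((c * c).1 * (c * c).1) (-1 * -1) (-1 * -1) := D_mul hcc hcc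
    have h3 : IsD ((c * c).1 * (c * c).1) 1 1 := by simpa using h2
    exact D_ext h3 D_one
  have hc2 : c ^ 2 ≠ 1 := by
    rw [hc2']
    intro h
    have h1 : IsD (c * c).1 1 1 := by rw [h]; exact D_one
    exact z3c (D_inj hcc h1).1
  refine small τ M hM hodd c hc4 ?_ hc2 {x : T | InC T x} ?_ ?_ ?_
  · intro x hx
    obtain ⟨a, b, hab, h | h⟩ := typ T hT' x
    · exfalso
      apply hx
      have h1 : IsD (x.1 * x.1) (a * a) (b * b) := D_mul h h
      have haa : a * a = 1 ∧ b * b = 1 := by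
        rcases hab with hab | hab
        · rcases z3a a b hab with ⟨rfl, rfl⟩ | ⟨rfl, rfl⟩ <;> constructor <;> ring
        · rcases z3b a b hab with ⟨rfl, rfl⟩ | ⟨rfl, rfl⟩ <;> constructor <;> ring
      rw [haa.1, haa.2] at h1
      rw [pow_two]
      exact Subtype.ext (D_ext h1 D_one)
    · rcases hab with hab | hab
      · exfalso
        apply hx
        have h1 : IsD (x.1 * x.1) (b * a) (a * b) := A_mul_A h h
        rw [mul_comm b a, hab] at h1
        rw [pow_two]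
        exact Subtype.ext (D_ext h1 D_one)
      · rcases z3b a b hab with ⟨rfl, rfl⟩ | ⟨rfl, rfl⟩
        · left
          exact Subtype.ext (A_ext h hc)
        · right
          apply eq_inv_of_mul_eq_one_right
          have h1 : IsD (c.1 * x.1) (-1 * -1) (1 * 1) := A_mul_A hc h
          have h2 : IsD (c.1 * x.1) 1 1 := by simpa using h1
          exact Subtype.ext (D_ext h2 D_one)
  · rintro x (⟨a, b, hab, h⟩ | ⟨a, b, hab, h⟩)
    · rcases z3a a b hab with ⟨rfl, rfl⟩ | ⟨rfl, rfl⟩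
      · exact ⟨0, by rw [pow_zero]; exact Subtype.ext (D_ext h D_one)⟩
      · exact ⟨2, by rw [hc2']; exact Subtype.ext (D_ext h hcc)⟩
    · rcases z3b a b hab with ⟨rfl, rfl⟩ | ⟨rfl, rfl⟩
      · exact ⟨1, by rw [pow_one]; exact Subtype.ext (A_ext h hc)⟩
      · refine ⟨3, ?_⟩
        have h1 : c ^ 3 = (c * c) * c := by
          rw [pow_succ, pow_two]
        rw [h1]
        have h2 : IsA ((c * c).1 * c.1) (-1 * 1) (-1 * -1) := D_mul_A hcc hc
        have h3 : IsA ((c * c).1 * c.1) (-1) 1 := by simpa using h2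
        exact Subtype.ext (A_ext h h3)
  · intro k
    induction k with
    | zero =>
      rw [pow_zero]
      exact Or.inl ⟨1, 1, by ring, D_one⟩
    | succ k ih =>
      rw [pow_succ]
      rcases ih with ⟨a, b, hab, h⟩ | ⟨a, b, hab, h⟩
      · right
        refine ⟨b * 1, a * -1, ?_, D_mul_A h hc⟩
        calc b * 1 * (a * -1) = -(a * b) := by ring
          _ = -1 := by rw [hab]
      · left
        refine ⟨b * 1, a * -1, ?_, A_mul_A h hc⟩
        calc b * 1 * (a * -1) = -(a * b) := by ring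
          _ = 1 := by rw [hab]; ring
  · intro t t' ht ht'
    by_contra hu
    have := notC_mul T hT' t (t⁻¹ * t') ht hu
    rw [mul_inv_cancel_left] at this
    exact ht' this

theorem case_generic {q : ℕ} [Fact q.Prime] (m : ℕ) (hq : q = 2 ^ m + 1) (hm : 3 ≤ m)
    (T : Subgroup (Gam q))
    (hT' : ∀ f, f ∈ T ↔ ∃ a b : ZMod q, (a * b = 1 ∨ a * b = -1) ∧ (IsD f a b ∨ IsA f a b))
    (τ : MulAut T) (M : ℕ) (hM : τ ^ M = 1) (hodd : Odd M) : τ = 1 := by
  have hp : q.Prime := Fact.out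
  have h8 : 8 ≤ 2 ^ m := by
    calc 8 = 2 ^ 3 := by norm_num
      _ ≤ 2 ^ m := Nat.pow_le_pow_right (by norm_num) hm
  have hq9 : 9 ≤ q := by omega
  have hne : (1 : ZMod q) ≠ -1 := by
    intro h
    have h2 : ((2 : ℕ) : ZMod q) = 0 := by
      push_cast
      linear_combination h
    rw [ZMod.natCast_eq_zero_iff] at h2
    have := Nat.le_of_dvd (by norm_num) h2
    omega
  have hne' : (-1 : ZMod q) ≠ 1 := fun h => hne h.symm
  -- a generator of the multiplicative group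
  obtain ⟨c₁, hc₁0, hc₁gen, hc₁4⟩ : ∃ c₁ : ZMod q, c₁ ≠ 0 ∧
      (∀ a : ZMod q, a ≠ 0 → ∃ i : ℕ, a = c₁ ^ i) ∧ c₁ ^ 4 ≠ 1 := by
    obtain ⟨g, hg⟩ := IsCyclic.exists_generator (α := (ZMod q)ˣ)
    refine ⟨(g : ZMod q), g.ne_zero, ?_, ?_⟩
    · intro a ha
      have h1 := hg (Units.mk0 a ha)
      rw [← mem_powers_iff_mem_zpowers] at h1
      obtain ⟨i, hi⟩ := h1
      refine ⟨i, ?_⟩
      have h2 := congrArg Units.val hi
      simp only [Units.val_pow_eq_pow_val, Units.val_mk0] at h2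
      exact h2.symm
    · intro h4
      have h5 : g ^ 4 = 1 := by
        apply Units.ext
        rw [Units.val_pow_eq_pow_val, h4, Units.val_one]
      have h6 := orderOf_dvd_of_pow_eq_one h5
      rw [orderOf_eq_card_of_forall_mem_zpowers hg, Nat.card_eq_fintype_card, ZMod.card_units] at h6
      have := Nat.le_of_dvd (by norm_num) h6
      omega
  obtain ⟨ι, hι⟩ : ∃ ι : ZMod q, ι * ι = -1 := by
    have h1 : q % 4 ≠ 3 := by
      obtain ⟨k, rfl⟩ : ∃ k, m = k + 2 := ⟨m - 2, by omega⟩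
      rw [hq, pow_add]
      omega
    obtain ⟨r, hr⟩ := ZMod.exists_sq_eq_neg_one_iff.mpr h1
    exact ⟨r, hr.symm⟩
  -- elements
  obtain ⟨x₀, hx₀⟩ := mkD T hT' c₁ c₁⁻¹ (Or.inl (mul_inv_cancel₀ hc₁0))
  have hg₀D : IsD (x₀ * x₀).1 (c₁ * c₁) (c₁⁻¹ * c₁⁻¹) := D_mul hx₀ hx₀
  obtain ⟨xι, hxι⟩ := mkD T hT' ι ι (Or.inr hι)
  obtain ⟨z, hz⟩ := mkD T hT' (-1) (-1) (Or.inl (by ring))
  obtain ⟨h, hh⟩ := mkD T hT' 1 (-1) (Or.inr (by ring))
  have hAmem : ∀ x : T, x ∈ {x : T | ∃ a b : ZMod q, IsD x.1 a b} ↔ ∃ a b : ZMod q, IsD x.1 a b :=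
    fun x => Iff.rfl
  have hAc : ∀ x ∈ {x : T | ∃ a b : ZMod q, IsD x.1 a b},
      ∀ y ∈ {x : T | ∃ a b : ZMod q, IsD x.1 a b}, x * y = y * x := by
    rintro x ⟨a, b, hx⟩ y ⟨c, d, hy⟩
    apply Subtype.ext
    have h1 : IsD (x.1 * y.1) (a * c) (b * d) := D_mul hx hy
    have h2 : IsD (y.1 * x.1) (c * a) (d * b) := D_mul hy hx
    rw [mul_comm c a, mul_comm d b] at h2
    exact D_ext h1 h2
  refine generic τ M hM hodd {x : T | ∃ a b : ZMod q, IsD x.1 a b} m ?_ hAc ?_ ?_ ?_ (x₀ * x₀)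
    ⟨_, _, hg₀D⟩ ⟨x₀, ⟨_, _, hx₀⟩, pow_two x₀⟩ ?_ z h ⟨xι, ⟨_, _, hxι⟩, ?_⟩ ?_ ⟨_, _, hh⟩ ?_ ?_ ?_ ?_
  · -- hAdiv
    rintro x ⟨a, b, hx⟩ y ⟨c, d, hy⟩
    obtain ⟨e, f, hef, hu | hu⟩ := typ T hT' (x⁻¹ * y)
    · exact ⟨e, f, hu⟩
    · exfalso
      have h1 : IsA (x.1 * (x⁻¹ * y).1) (b * e) (a * f) := D_mul_A hx hu
      have h2 : x.1 * (x⁻¹ * y).1 = y.1 := by
        have : x * (x⁻¹ * y) = y := mul_inv_cancel_left x y
        exact congrArg Subtype.val this
      rw [h2] at h1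
      have h3 := D_not_A hy h1
      have hb : b ≠ 0 := (ne_zero_of_prod (D_prod T hT' x a b hx)).2
      have he : e ≠ 0 := (ne_zero_of_prod hef).1
      exact mul_ne_zero hb he h3
  · -- hAchar
    intro t
    constructor
    · rintro ⟨a, b, ht⟩ g hg
      obtain ⟨c, d, hcd, hg' | hg'⟩ := typ T hT' g
      · exact hAc t ⟨a, b, ht⟩ g ⟨c, d, hg'⟩
      · exfalso
        apply hg
        have h1 : IsD (g.1 * g.1) (d * c) (c * d) := A_mul_A hg' hg'
        have h2 : IsD ((g.1 * g.1) * (g.1 * g.1)) (d * c * (d * c)) (c * d * (c * d)) := D_mul h1 h1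
        have h3 : c * d * (c * d) = 1 := by
          rcases hcd with hcd | hcd <;> rw [hcd] <;> ring
        have h4 : d * c * (d * c) = 1 := by rw [mul_comm d c]; exact h3
        rw [h3, h4] at h2
        have h5 : g ^ 4 = (g * g) * (g * g) := by
          rw [show (4 : ℕ) = 2 + 2 from rfl, pow_add, pow_two]
        rw [h5]
        exact Subtype.ext (D_ext h2 D_one)
    · intro hcomm
      obtain ⟨a, b, hab, ht | ht⟩ := typ T hT' t
      · exact ⟨a, b, ht⟩
      · exfalso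
        have hx4 : x₀ ^ 4 ≠ 1 := by
          intro h1
          have h2 : IsD (x₀ ^ 4).1 (c₁ ^ 4) (c₁⁻¹ ^ 4) := D_pow hx₀ 4
          rw [h1] at h2
          exact hc₁4 (D_inj h2 D_one).1
        have h1 := hcomm x₀ hx4
        have h2 : IsA (t.1 * x₀.1) (a * c₁) (b * c₁⁻¹) := A_mul_D ht hx₀
        have h3 : IsA (x₀.1 * t.1) (c₁⁻¹ * a) (c₁ * b) := D_mul_A hx₀ ht
        have h4 : t.1 * x₀.1 = x₀.1 * t.1 := congrArg Subtype.val h1
        rw [h4] at h2
        have h5 := (A_inj h2 h3).1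
        have ha : a ≠ 0 := (ne_zero_of_prod hab).1
        have h6 : c₁ = c₁⁻¹ := by
          have h7 : a * c₁ = a * c₁⁻¹ := by rw [h5, mul_comm]
          exact mul_left_cancel₀ ha h7
        apply hc₁4
        have h8 : c₁ * c₁ = 1 := by
          nth_rewrite 2 [h6]
          exact mul_inv_cancel₀ hc₁0
        calc c₁ ^ 4 = (c₁ * c₁) * (c₁ * c₁) := by ring
          _ = 1 := by rw [h8, one_mul]
  · -- hidx
    intro t t' ht ht'
    obtain ⟨e, f, hef, hu | hu⟩ := typ T hT' (t⁻¹ * t')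
    · exact ⟨e, f, hu⟩
    · exfalso
      obtain ⟨a, b, hab, h1 | h1⟩ := typ T hT' t
      · exact ht ⟨a, b, h1⟩
      · apply ht'
        have h2 : IsD (t.1 * (t⁻¹ * t').1) (b * e) (a * f) := A_mul_A h1 hu
        have h3 : t.1 * (t⁻¹ * t').1 = t'.1 := by
          have : t * (t⁻¹ * t') = t' := mul_inv_cancel_left t t'
          exact congrArg Subtype.val this
        rw [h3] at h2
        exact ⟨_, _, h2⟩
  · -- hK
    rintro x ⟨a, b, hx⟩
    have hab := ne_zero_of_prod (D_prod T hT' x a b hx)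
    have h1 : IsD (x ^ 2 ^ m).1 (a ^ 2 ^ m) (b ^ 2 ^ m) := D_pow hx _
    have h2 : 2 ^ m = q - 1 := by omega
    rw [h2, ZMod.pow_card_sub_one_eq_one hab.1, ZMod.pow_card_sub_one_eq_one hab.2] at h1
    rw [h2]
    exact Subtype.ext (D_ext h1 D_one)
  · -- hsq
    rintro x ⟨a, b, hx⟩
    have hab := D_prod T hT' x a b hx
    have hab0 := ne_zero_of_prod hab
    obtain ⟨i, hi⟩ := hc₁gen a hab0.1
    refine ⟨i, ?_⟩
    rw [pow_two]
    apply Subtype.ext
    have h1 : IsD (x.1 * x.1) (a * a) (b * b) := D_mul hx hx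
    have h2 : IsD ((x₀ * x₀) ^ i).1 ((c₁ * c₁) ^ i) ((c₁⁻¹ * c₁⁻¹) ^ i) := D_pow hg₀D i
    have h3 : a * a = (c₁ * c₁) ^ i := by rw [hi, mul_pow]
    have h4 : b * b = (c₁⁻¹ * c₁⁻¹) ^ i := by
      have h5 : (a * a) * (b * b) = 1 := by
        calc (a * a) * (b * b) = (a * b) * (a * b) := by ring
          _ = 1 := by rcases hab with hab | hab <;> rw [hab] <;> ring
      have h6 : b * b = (a * a)⁻¹ := eq_inv_of_mul_eq_one_right h5
      rw [h6, h3, ← mul_inv, inv_pow]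
    rw [h3, h4] at h1
    exact D_ext h1 h2
  · -- xι ^ 2 = z
    rw [pow_two]
    apply Subtype.ext
    have h1 : IsD (xι.1 * xι.1) (ι * ι) (ι * ι) := D_mul hxι hxι
    rw [hι] at h1
    exact D_ext h1 hz
  · -- z ^ 2 = 1
    rw [pow_two]
    apply Subtype.ext
    have h1 : IsD (z.1 * z.1) (-1 * -1) (-1 * -1) := D_mul hz hz
    have h2 : IsD (z.1 * z.1) 1 1 := by simpa using h1
    exact D_ext h2 D_one
  · -- h ^ 2 = 1
    rw [pow_two]
    apply Subtype.ext
    have h1 : IsD (h.1 * h.1) (1 * 1) (-1 * -1) := D_mul hh hh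
    have h2 : IsD (h.1 * h.1) 1 1 := by simpa using h1
    exact D_ext h2 D_one
  · -- h ≠ 1
    intro h1
    have h2 : IsD h.1 1 1 := by rw [h1]; exact D_one
    exact hne' (D_inj hh h2).2
  · -- h ≠ z
    intro h1
    have h2 : IsD h.1 (-1) (-1) := by rw [h1]; exact hz
    exact hne (D_inj hh h2).1
  · -- Ω₁
    rintro x ⟨a, b, hx⟩ hx2
    rw [pow_two] at hx2
    have h1 : IsD (x.1 * x.1) (a * a) (b * b) := D_mul hx hx
    have h2 : IsD (x.1 * x.1) 1 1 := by
      have : x.1 * x.1 = 1 := congrArg Subtype.val hx2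
      rw [this]; exact D_one
    obtain ⟨haa, hbb⟩ := D_inj h1 h2
    rcases mul_self_eq_one_iff.mp haa with rfl | rfl <;> rcases mul_self_eq_one_iff.mp hbb with rfl | rfl
    · left
      exact Subtype.ext (D_ext hx D_one)
    · right; right; left
      exact Subtype.ext (D_ext hx hh)
    · right; right; right
      have h3 : IsD (z.1 * h.1) (-1 * 1) (-1 * -1) := D_mul hz hh
      have h4 : IsD (z.1 * h.1) (-1) 1 := by simpa using h3
      exact Subtype.ext (D_ext hx h4)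
    · right; left
      exact Subtype.ext (D_ext hx hz)

/-- Let q = 2^m + 1 be a prime other than 5. Then the automorphism group of the group of linear maps of F_q² of the forms (x, y) ↦ (a x, ± a⁻¹ y) and (x, y) ↦ (± a⁻¹ y, a x) with a ≠ 0 is itself a 2-group. -/
theorem result (q m : ℕ) [Fact q.Prime] (hq : q = 2 ^ m + 1) (hq5 : q ≠ 5)
    (T : Subgroup ((Fin 2 → ZMod q) ≃ₗ[ZMod q] (Fin 2 → ZMod q)))
    (hT : ∀ f, f ∈ T ↔ ∃ a s : ZMod q, a ≠ 0 ∧ (s = 1 ∨ s = -1) ∧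
      ((∀ v, f v = ![a * v 0, s * a⁻¹ * v 1]) ∨ (∀ v, f v = ![s * a⁻¹ * v 1, a * v 0]))) :
    IsPGroup 2 (MulAut T) := by
  have hT' : ∀ f : Gam q, f ∈ T ↔
      ∃ a b : ZMod q, (a * b = 1 ∨ a * b = -1) ∧ (IsD f a b ∨ IsA f a b) := by
    intro f
    rw [hT]
    constructor
    · rintro ⟨a, s, ha, hs, h⟩
      refine ⟨a, s * a⁻¹, ?_, h⟩
      have h1 : a * (s * a⁻¹) = s := by field_simp
      rw [h1]
      exact hs
    · rintro ⟨a, b, hab, h⟩
      have ha := (ne_zero_of_prod hab).1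
      refine ⟨a, a * b, ha, hab, ?_⟩
      have hb : a * b * a⁻¹ = b := by field_simp
      rw [hb]
      exact h
  have hfinΓ : Finite (Gam q) :=
    Finite.of_injective (fun f : Gam q => (f : (Fin 2 → ZMod q) → (Fin 2 → ZMod q)))
      DFunLike.coe_injective
  have hfinAut : Finite (MulAut T) :=
    Finite.of_injective (fun f : MulAut T => (f : T → T)) DFunLike.coe_injective
  intro σ
  obtain ⟨k, M, hodd, hkM⟩ := Nat.exists_eq_two_pow_mul_odd (orderOf_pos σ).ne'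
  refine ⟨k, ?_⟩
  have hM : (σ ^ 2 ^ k) ^ M = 1 := by rw [← pow_mul, ← hkM, pow_orderOf_eq_one]
  rcases Nat.lt_or_ge m 3 with hm | hm
  · interval_cases m
    · norm_num at hq
      subst hq
      exact case_tiny T hT' _
    · norm_num at hq
      subst hq
      exact case_small T hT' _ M hM hodd
    · exfalso
      apply hq5
      rw [hq]
      norm_num
  · exact case_generic m hq hm T hT' _ M hM hodd

end Cfsg.Agent.S3382
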