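import Mathlib
import Cfsg.Statements.S3383

set_option autoImplicit false
open Cfsg
open scoped Pointwise

namespace Cfsg.Agent.S3383

/-- Let H be a Frobenius complement in a finite group L and K the Frobenius kernel (as a subgroup). Then K is characteristic in L, and every normal subgroup of L either contains K or is contained in K. -/
theorem result {L : Type*} [Group L] [Finite L]
    (H : Subgroup L) (hH : Cfsg.IsFrobeniusComplement H)
    (K : Subgroup L) (hK : (K : Set L) = Cfsg.frobeniusKernel H) :
    K.Characteristic ∧ ∀ N : Subgroup L, N.Normal → K ≤ N ∨ N ≤ K := by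
  classical
  obtain ⟨hHbot, hHtop, hfrob⟩ := hH
  have hconj : ∀ (g x : L), x ∈ MulAut.conj g • H ↔ g⁻¹ * x * g ∈ H := by
    intro g x
    rw [Subgroup.mem_pointwise_smul_iff_inv_smul_mem]
    simp [MulAut.smul_def]
  have hKmem : ∀ x : L, x ∈ K ↔ x = 1 ∨ ∀ g : L, g⁻¹ * x * g ∉ H := by
    intro x
    have : x ∈ (K : Set L) ↔ x ∈ Cfsg.frobeniusKernel H := by rw [hK]
    rw [SetLike.mem_coe] at this
    rw [this]
    simp only [Cfsg.frobeniusKernel, Set.mem_ofPred_eq, hconj]
  have hKn : K.Normal := by
    refine ⟨fun x hx a => ?_⟩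
    rw [hKmem] at hx ⊢
    rcases hx with rfl | hx
    · left; simp
    · right
      intro g
      have := hx (a⁻¹ * g)
      intro hc
      apply this
      have e : (a⁻¹ * g)⁻¹ * x * (a⁻¹ * g) = g⁻¹ * (a * x * a⁻¹) * g := by group
      rw [e]; exact hc
  -- free action
  have hfree : ∀ h ∈ H, h ≠ 1 → ∀ c ∈ K, c * h * c⁻¹ = h → c = 1 := by
    intro h hh hh1 c hc hch
    by_contra hc1
    have hcH : c ∉ H := by
      rcases (hKmem c).mp hc with h1 | h1
      · exact absurd h1 hc1
      · have := h1 1; simpa using this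
    have h2 := hfrob c hcH
    have h3 : h ∈ H ⊓ (MulAut.conj c • H) := by
      refine ⟨hh, (hconj c h).mpr ?_⟩
      have : c⁻¹ * h * c = h := by
        calc c⁻¹ * h * c = c⁻¹ * (c * h * c⁻¹) * c := by rw [hch]
          _ = h := by group
      rw [this]; exact hh
    rw [h2, Subgroup.mem_bot] at h3
    exact hh1 h3
  -- key
  have hkey : ∀ x : L, x ^ Nat.card K = 1 → x ∈ K := by
    intro x hx
    by_contra hxK
    rw [hKmem] at hxK
    push Not at hxK
    obtain ⟨hx1, g, hg⟩ := hxK
    set h := g⁻¹ * x * g with hdef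
    have hh1 : h ≠ 1 := by
      intro e
      apply hx1
      have : x = g * h * g⁻¹ := by rw [hdef]; group
      rw [this, e]; group
    have hhpow : h ^ Nat.card K = 1 := by
      have : h = MulAut.conj g⁻¹ x := by rw [hdef]; simp
      rw [this, ← map_pow, hx, map_one]
    have hord1 : orderOf h ≠ 1 := fun e => hh1 (orderOf_eq_one_iff.mp e)
    have hord0 : orderOf h ≠ 0 := (orderOf_pos h).ne'
    set p := (orderOf h).minFac with hp
    have hpp : p.Prime := Nat.minFac_prime hord1
    have hpF : Fact p.Prime := ⟨hpp⟩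
    have hpdvd : p ∣ orderOf h := Nat.minFac_dvd _
    have hpK : p ∣ Nat.card K := hpdvd.trans (orderOf_dvd_of_pow_eq_one hhpow)
    set h' := h ^ (orderOf h / p) with hh'
    have hh'ord : orderOf h' = p := orderOf_pow_orderOf_div hord0 hpdvd
    have hh'H : h' ∈ H := H.pow_mem hg _
    have hh'1 : h' ≠ 1 := by
      intro e
      rw [e, orderOf_one] at hh'ord
      exact hpp.one_lt.ne hh'ord
    let P : Subgroup (ConjAct L) := Subgroup.zpowers (ConjAct.toConjAct h')
    have hP : IsPGroup p P := by
      apply IsPGroup.of_card (n := 1)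
      rw [Nat.card_zpowers, pow_one, ← hh'ord]
      exact MulEquiv.orderOf_eq (ConjAct.toConjAct (G := L)) h'
    have hmod := hP.card_modEq_card_fixedPoints (α := K)
    have hfp : MulAction.fixedPoints P K = {1} := by
      ext k
      simp only [MulAction.mem_fixedPoints, Set.mem_singleton_iff]
      constructor
      · intro hk
        have h1 := hk ⟨ConjAct.toConjAct h', Subgroup.mem_zpowers _⟩
        have h2 : ((ConjAct.toConjAct h' • k : K) : L) = k := congrArg Subtype.val h1
        rw [ConjAct.Subgroup.val_conj_smul, ConjAct.toConjAct_smul] at h2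
        -- h2 : h' * k * h'⁻¹ = k
        have h3 : (k : L) * h' * (k : L)⁻¹ = h' := by
          calc (k : L) * h' * (k : L)⁻¹ = (h' * k * h'⁻¹) * h' * (k : L)⁻¹ := by rw [h2]
            _ = h' := by group
        exact Subtype.ext (hfree h' hh'H hh'1 k k.2 h3)
      · rintro rfl g
        exact smul_one g
    rw [hfp] at hmod
    have hc1 : Nat.card (({1} : Set K)) = 1 := by simp
    rw [hc1] at hmod
    have : (0 : ℕ) ≡ 1 [MOD p] := ((Nat.modEq_zero_iff_dvd.mpr hpK).symm).trans hmod
    have h01 : p ∣ 1 := (Nat.modEq_zero_iff_dvd.mp this.symm)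
    exact hpp.one_lt.ne' (Nat.dvd_one.mp h01)
  constructor
  · rw [Subgroup.characteristic_iff_map_le]
    intro φ y hy
    obtain ⟨x, hx, rfl⟩ := Subgroup.mem_map.mp hy
    apply hkey
    show (φ x) ^ Nat.card K = 1
    rw [← map_pow]
    have : x ^ Nat.card K = 1 := by
      have := pow_card_eq_one' (G := K) (x := ⟨x, hx⟩)
      exact congrArg Subtype.val this
    rw [this, map_one]
  · intro N hN
    by_cases hNK : N ≤ K
    · right; exact hNK
    · left
      obtain ⟨x, hxN, hxK⟩ := SetLike.not_le_iff_exists.mp hNK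
      rw [hKmem] at hxK
      push Not at hxK
      obtain ⟨hx1, g, hg⟩ := hxK
      set h := g⁻¹ * x * g with hdef
      have hh1 : h ≠ 1 := by
        intro e
        apply hx1
        have : x = g * h * g⁻¹ := by rw [hdef]; group
        rw [this, e]; group
      have hhN : h ∈ N := by
        have := hN.conj_mem x hxN g⁻¹
        simpa [hdef] using this
      let ψ : K → (K ⊓ N : Subgroup L) := fun k => ⟨(k : L) * h * (k : L)⁻¹ * h⁻¹, by
        constructor
        · have h1 := hKn.conj_mem _ (K.inv_mem k.2) h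
          have := K.mul_mem k.2 h1
          simpa [mul_assoc] using this
        · have h1 := hN.conj_mem h hhN k
          exact N.mul_mem h1 (N.inv_mem hhN)⟩
      have hψ : Function.Injective ψ := by
        intro a b hab
        have h1 : (a : L) * h * (a : L)⁻¹ * h⁻¹ = (b : L) * h * (b : L)⁻¹ * h⁻¹ := congrArg Subtype.val hab
        have h2 : (a : L) * h * (a : L)⁻¹ = (b : L) * h * (b : L)⁻¹ := mul_right_cancel h1
        have h3 : ((b : L)⁻¹ * a) * h * ((b : L)⁻¹ * a)⁻¹ = h := by
          calc ((b : L)⁻¹ * a) * h * ((b : L)⁻¹ * a)⁻¹ = (b : L)⁻¹ * ((a : L) * h * (a : L)⁻¹) * b := by group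
            _ = (b : L)⁻¹ * ((b : L) * h * (b : L)⁻¹) * b := by rw [h2]
            _ = h := by group
        have h4 := hfree h hg hh1 _ (K.mul_mem (K.inv_mem b.2) a.2) h3
        exact Subtype.ext (inv_mul_eq_one.mp h4).symm
      have hcard : Nat.card K ≤ Nat.card (K ⊓ N : Subgroup L) := Nat.card_le_card_of_injective ψ hψ
      have := Subgroup.eq_of_le_of_card_ge (inf_le_left : K ⊓ N ≤ K) hcard
      rw [← this]
      exact inf_le_right

end Cfsg.Agent.S3383
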