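import Cfsg.Statements.S3704
import Cfsg.Agent.Lib.helper24.CharTwoTrans
import Mathlib


set_option autoImplicit false
open Cfsg

namespace Cfsg.Agent.S3704

universe u v

section Aux
open Cfsg.Agent.Lib.helper24
open scoped ComplexConjugate

theorem aux {G : Type u} {Ω : Type v} [Group G] [Finite G] [MulAction G Ω] [Finite Ω]
    (h2 : MulAction.IsMultiplyPretransitive G Ω 2) (H : Subgroup G)
    (hidx : H.index = Nat.card Ω) (hnt : ¬ MulAction.IsPretransitive H Ω) :
    Nat.card (MulAction.orbitRel.Quotient H Ω) = 2 := by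
  classical
  have := Fintype.ofFinite G
  have := Fintype.ofFinite H
  have hne : Nonempty Ω := by
    by_contra hemp
    rw [not_nonempty_iff] at hemp
    have h0 : Nat.card Ω = 0 := Nat.card_of_isEmpty
    rw [h0] at hidx
    exact Subgroup.index_ne_zero_of_finite hidx
  have hn2 : 2 ≤ Nat.card Ω := by
    by_contra hlt
    push Not at hlt
    have hpos : 0 < Nat.card Ω := Nat.card_pos
    have h1 : Nat.card Ω = 1 := by omega
    have hsub : Subsingleton Ω := (Nat.card_eq_one_iff_unique.mp h1).1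
    exact hnt ⟨fun x y => ⟨1, Subsingleton.elim _ _⟩⟩
  have htr : MulAction.IsPretransitive G Ω := MulAction.isPretransitive_of_is_two_pretransitive
  set π : G → ℂ := fun g => (Nat.card (MulAction.fixedBy Ω g) : ℂ) with hπdef
  have hπ : IsCharacter G π := permChar_isCharacter Ω
  have hχirr : IsIrrCharacter G (fun g => π g - 1) := (perm_sub_one_irr_iff Ω hn2).mpr h2
  set χ : IrrCharacter G := ⟨fun g => π g - 1, hχirr⟩ with hχdef
  set ψ : G → ℂ := indFun H (fun _ => (1:ℂ)) with hψdef
  have hψ : IsCharacter G ψ := isCharacter_indFun H isCharacter_trivial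
  have hψ1 : ψ 1 = (Nat.card Ω : ℂ) := by rw [hψdef, indFun_one, hidx, mul_one]
  set r := Nat.card (MulAction.orbitRel.Quotient H Ω) with hr
  have hG : (Nat.card G : ℂ) ≠ 0 := NeZero.ne _
  have hH : (Nat.card H : ℂ) ≠ 0 := NeZero.ne _
  have i1 : classInner ψ (trivIrr G).1 = 1 := by
    rw [hψdef, frobenius_reciprocity H _ (isClassFunction_irr _)]
    exact irr_inner_self (trivIrr H)
  have i2 : classInner ψ π = (r : ℂ) := by
    rw [hψdef, frobenius_reciprocity H _ (isCharacter_conj_class hπ)]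
    unfold classInner
    have hs : ∑ h : H, (1 : ℂ) * conj (π (h : G)) = (r : ℂ) * (Nat.card H : ℂ) := by
      rw [← sum_card_fixedBy (G := H) Ω]
      apply Finset.sum_congr rfl
      intro h _
      rw [one_mul, hπdef]
      simp only [Complex.conj_natCast]
      rfl
    rw [hs]
    field_simp
  have i3 : classInner π (trivIrr G).1 = 1 := by
    rw [classInner_trivIrr, sum_card_fixedBy, card_orbits_of_pretransitive Ω]
    simp
  have hχeq : χ.1 = π - (trivIrr G).1 := by funext g; rfl
  have hχ1 : classInner χ.1 (trivIrr G).1 = 0 := by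
    rw [hχeq, classInner_sub_left, i3, irr_inner_self, sub_self]
  have hχne : χ ≠ trivIrr G := by
    intro h
    rw [h, irr_inner_self] at hχ1
    exact one_ne_zero hχ1
  have i4 : classInner ψ χ.1 = (r : ℂ) - 1 := by
    rw [hχeq, classInner_sub_right, i2, i1]
  set φ : G → ℂ := ψ - (trivIrr G).1 - ((r : ℂ) - 1) • χ.1 with hφdef
  have hφ : IsCharacter G φ := by
    apply isCharacter_of_nat_inner
    · exact isClassFunction_sub (isClassFunction_sub (isCharacter_conj_class hψ)
        (isClassFunction_irr _)) (isClassFunction_smul _ (isClassFunction_irr _))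
    · intro ξ
      rw [hφdef, classInner_sub_left, classInner_sub_left, classInner_smul_left]
      by_cases h1 : ξ = trivIrr G
      · rw [h1, i1, irr_inner_self, hχ1]
        exact ⟨0, by simp⟩
      · by_cases h2 : ξ = χ
        · rw [h2, i4, irr_inner_self, irr_inner_ne (Ne.symm hχne)]
          exact ⟨0, by simp⟩
        · obtain ⟨m, hm⟩ := isCharacter_inner_irr_nat hψ ξ
          rw [hm, irr_inner_ne (Ne.symm h1), irr_inner_ne (Ne.symm h2)]
          exact ⟨m, by simp⟩
  obtain ⟨k, hk⟩ := isCharacter_one hφ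
  have hχ1' : χ.1 1 = (Nat.card Ω : ℂ) - 1 := by
    show π 1 - 1 = _
    rw [hπdef]
    have hfix1 : MulAction.fixedBy Ω (1 : G) = Set.univ := by
      ext x
      simp [MulAction.mem_fixedBy]
    show ((Nat.card (MulAction.fixedBy Ω (1 : G)) : ℕ) : ℂ) - 1 = _
    rw [hfix1, Nat.card_coe_set_eq, Set.ncard_univ]
  have hφ1 : φ 1 = (Nat.card Ω : ℂ) - 1 - ((r : ℂ) - 1) * ((Nat.card Ω : ℂ) - 1) := by
    rw [hφdef]
    simp only [Pi.sub_apply, Pi.smul_apply, smul_eq_mul]
    rw [hψ1, trivIrr_apply, hχ1']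
  rw [hφ1] at hk
  have hk' : ((Nat.card Ω : ℤ) - 1) - ((r : ℤ) - 1) * ((Nat.card Ω : ℤ) - 1) = (k : ℤ) := by
    exact_mod_cast hk
  have hr0 : r ≠ 0 := by
    rw [hr]
    have hq : Nonempty (MulAction.orbitRel.Quotient H Ω) := ⟨Quotient.mk'' hne.some⟩
    exact Nat.card_ne_zero.mpr ⟨hq, inferInstance⟩
  have hr1 : r ≠ 1 := fun h => hnt ((pretransitive_iff_card_orbits (G := H) Ω).mpr h)
  by_contra hr2
  have hr3 : 3 ≤ r := by omega
  have ha : (0 : ℤ) < (Nat.card Ω : ℤ) - 1 := by
    have : (2 : ℤ) ≤ (Nat.card Ω : ℤ) := by exact_mod_cast hn2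
    linarith
  have hb : (0 : ℤ) < (r : ℤ) - 2 := by
    have : (3 : ℤ) ≤ (r : ℤ) := by exact_mod_cast hr3
    linarith
  have hk0 : (0 : ℤ) ≤ (k : ℤ) := Int.natCast_nonneg k
  nlinarith [mul_pos ha hb]

end Aux


/-- Let G be a finite group acting faithfully and 2-transitively on a finite set Ω of size n, and let H be a subgroup of index n in G which is not transitive on Ω and fixes no point of Ω. Then H has exactly two orbits on Ω. -/
theorem result {G Ω : Type*} [Group G] [Finite G] [MulAction G Ω] [FaithfulSMul G Ω] [Finite Ω] (h2 : MulAction.IsMultiplyPretransitive G Ω 2) (H : Subgroup G) (hidx : H.index = Nat.card Ω) (hnt : ¬ MulAction.IsPretransitive H Ω) (hfix : ∀ a : Ω, ∃ h : H, h • a ≠ a) : Nat.card (MulAction.orbitRel.Quotient H Ω) = 2 := by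
  exact aux h2 H hidx hnt

end Cfsg.Agent.S3704
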