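import Cfsg.Statements.S3707
import Mathlib


set_option autoImplicit false
open Cfsg

namespace Cfsg.Agent.S3707

section Aux
open scoped Pointwise
open MulAction

variable {G : Type*} {Ω : Type*} [Group G] [MulAction G Ω]

/-- `S` is a Jordan set: the pointwise stabilizer of the complement is transitive on `S`. -/
def Jor (G : Type*) {Ω : Type*} [Group G] [MulAction G Ω] (S : Set Ω) : Prop :=
  ∀ x ∈ S, ∀ y ∈ S, ∃ g : G, (∀ z ∉ S, g • z = z) ∧ g • x = y

theorem jor_smul {S : Set Ω} (hS : Jor G S) (g : G) : Jor G (g • S) := by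
  rintro _ ⟨x, hx, rfl⟩ _ ⟨y, hy, rfl⟩
  obtain ⟨k, hk1, hk2⟩ := hS x hx y hy
  refine ⟨g * k * g⁻¹, ?_, ?_⟩
  · intro z hz
    have hz' : g⁻¹ • z ∉ S := by
      intro h
      apply hz
      have := Set.smul_mem_smul_set (a := g) h
      rwa [smul_inv_smul] at this
    rw [mul_smul, mul_smul, hk1 _ hz', smul_inv_smul]
  · rw [mul_smul, mul_smul, inv_smul_smul, hk2]

theorem jor_union {S T : Set Ω} (hS : Jor G S) (hT : Jor G T) (h : (S ∩ T).Nonempty) :
    Jor G (S ∪ T) := by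
  obtain ⟨w, hwS, hwT⟩ := h
  have key : ∀ x ∈ S ∪ T, ∃ g : G, (∀ z ∉ S ∪ T, g • z = z) ∧ g • x = w := by
    rintro x (hx | hx)
    · obtain ⟨k, hk1, hk2⟩ := hS x hx w hwS
      exact ⟨k, fun z hz => hk1 z (fun h => hz (Or.inl h)), hk2⟩
    · obtain ⟨k, hk1, hk2⟩ := hT x hx w hwT
      exact ⟨k, fun z hz => hk1 z (fun h => hz (Or.inr h)), hk2⟩
  intro x hx y hy
  obtain ⟨k₁, hk₁, hk₁'⟩ := key x hx
  obtain ⟨k₂, hk₂, hk₂'⟩ := key y hy
  refine ⟨k₂⁻¹ * k₁, ?_, ?_⟩
  · intro z hz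
    rw [mul_smul, hk₁ z hz, inv_smul_eq_iff, hk₂ z hz]
  · rw [mul_smul, hk₁', inv_smul_eq_iff, hk₂']

theorem three_trans (h2t : IsMultiplyPretransitive G Ω 2) {S : Set Ω} (hS : Jor G S)
    (hc : Sᶜ.ncard = 2) : IsMultiplyPretransitive G Ω 3 := by
  obtain ⟨a, b, hab, hSc⟩ := Set.ncard_eq_two.mp hc
  rw [is_two_pretransitive_iff] at h2t
  rw [isMultiplyPretransitive_iff]
  have key : ∀ x : Fin 3 ↪ Ω, ∃ g : G, g • x 0 = a ∧ g • x 1 = b ∧ g • x 2 ∈ S := by
    intro x
    have h01 : x 0 ≠ x 1 := fun h => by simpa using x.injective h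
    obtain ⟨g, hg0, hg1⟩ := h2t h01 hab
    refine ⟨g, hg0, hg1, ?_⟩
    by_contra hn
    have hmem : g • x 2 ∈ Sᶜ := hn
    rw [hSc] at hmem
    rcases hmem with h | h
    · rw [← hg0] at h
      have := x.injective (smul_left_cancel g h)
      simp at this
    · have h' : g • x 2 = b := h
      rw [← hg1] at h'
      have := x.injective (smul_left_cancel g h')
      simp at this
  intro x y
  obtain ⟨g₁, h10, h11, h12⟩ := key x
  obtain ⟨g₂, h20, h21, h22⟩ := key y
  obtain ⟨k, hk1, hk2⟩ := hS _ h12 _ h22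
  have haS : a ∉ S := by
    have : a ∈ Sᶜ := by rw [hSc]; simp
    exact this
  have hbS : b ∉ S := by
    have : b ∈ Sᶜ := by rw [hSc]; simp
    exact this
  have ha : k • a = a := hk1 a haS
  have hb : k • b = b := hk1 b hbS
  refine ⟨g₂⁻¹ * k * g₁, ?_⟩
  ext i
  rw [Function.Embedding.smul_apply]
  fin_cases i
  · show (g₂⁻¹ * k * g₁) • x 0 = y 0
    rw [mul_smul, mul_smul, h10, ha, inv_smul_eq_iff, h20]
  · show (g₂⁻¹ * k * g₁) • x 1 = y 1
    rw [mul_smul, mul_smul, h11, hb, inv_smul_eq_iff, h21]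
  · show (g₂⁻¹ * k * g₁) • x 2 = y 2
    rw [mul_smul, mul_smul, hk2, inv_smul_eq_iff]

theorem aux [Finite Ω] (hprim : IsPreprimitive G Ω) (Γ : Set Ω) (h1 : 1 < Γ.ncard)
    (h2 : 2 * Γ.ncard ≤ Nat.card Ω) (htr : Jor G Γ) : IsMultiplyPretransitive G Ω 3 := by
  classical
  have hN : ∀ S : Set Ω, S.ncard + Sᶜ.ncard = Nat.card Ω := fun S => Set.ncard_add_ncard_compl S
  have h2t : IsMultiplyPretransitive G Ω 2 := by
    have hJ : IsPretransitive (fixingSubgroup G Γᶜ) (SubMulAction.ofFixingSubgroup G Γᶜ) := by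
      constructor
      rintro ⟨x, hx⟩ ⟨y, hy⟩
      rw [SubMulAction.mem_ofFixingSubgroup_iff] at hx hy
      have hx' : x ∈ Γ := by simpa using hx
      have hy' : y ∈ Γ := by simpa using hy
      obtain ⟨g, hg1, hg2⟩ := htr x hx' y hy'
      refine ⟨⟨g, ?_⟩, ?_⟩
      · rw [mem_fixingSubgroup_iff]
        intro z hz
        exact hg1 z hz
      · apply Subtype.ext
        exact hg2
    have := hN Γ
    exact hprim.is_two_pretransitive (s := Γᶜ) (n := Γᶜ.ncard - 1) (by omega) (by omega) hJ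
  have h2t' : ∀ a b c d : Ω, a ≠ b → c ≠ d → ∃ g : G, g • a = c ∧ g • b = d :=
    fun a b c d hab hcd => is_two_pretransitive_iff.mp h2t hab hcd
  let P : Set Ω → Prop := fun S => Jor G S ∧ 2 ≤ S.ncard ∧ 2 ≤ Sᶜ.ncard
  have hPΓ : P Γ := ⟨htr, h1, by have := hN Γ; omega⟩
  have hne : Nonempty {S : Set Ω // P S} := ⟨⟨Γ, hPΓ⟩⟩
  obtain ⟨⟨S, hPS⟩, hmax⟩ := Finite.exists_max (fun S : {S : Set Ω // P S} => S.1.ncard)
  have hmax' : ∀ T : Set Ω, P T → T.ncard ≤ S.ncard := fun T hT => hmax ⟨T, hT⟩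
  obtain ⟨hJS, hS2, hT2⟩ := hPS
  by_cases hT2' : Sᶜ.ncard = 2
  · exact three_trans h2t hJS hT2'
  have hT3 : 3 ≤ Sᶜ.ncard := by omega
  have hsm : ∀ g : G, (g • S).ncard = S.ncard := fun g => Set.ncard_smul_set g S
  have key : ∀ g : G, g • S = S ∨ Disjoint S (g • S) ∨
      ((S ∩ g • S).Nonempty ∧ (S ∪ g • S)ᶜ.ncard ≤ 1) := by
    intro g
    by_cases hg1 : g • S = S
    · exact Or.inl hg1
    by_cases hg2 : (S ∩ g • S).Nonempty
    · refine Or.inr (Or.inr ⟨hg2, ?_⟩)
      by_contra hcon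
      push Not at hcon
      have hJU : Jor G (S ∪ g • S) := jor_union hJS (jor_smul hJS g) hg2
      have hlt : S.ncard < (S ∪ g • S).ncard := by
        apply Set.ncard_lt_ncard _ (Set.toFinite _)
        rw [Set.ssubset_iff_subset_ne]
        refine ⟨Set.subset_union_left, ?_⟩
        intro heq
        apply hg1
        have hsub : g • S ⊆ S := fun z hz => by rw [heq]; exact Or.inr hz
        exact Set.eq_of_subset_of_ncard_le hsub (hsm g).ge (Set.toFinite _)
      have hPU : P (S ∪ g • S) := ⟨hJU, by omega, by omega⟩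
      have := hmax' _ hPU
      omega
    · refine Or.inr (Or.inl ?_)
      rw [Set.disjoint_iff_inter_eq_empty]
      exact Set.not_nonempty_iff_eq_empty.mp hg2
  rcases Nat.lt_or_ge (Nat.card Ω) (2 * S.ncard) with hA | hB
  · -- case A : lines are the translates of the complement
    set T : Set Ω := Sᶜ with hT
    have hTsm : ∀ g : G, (g • T).ncard = T.ncard := fun g => Set.ncard_smul_set g T
    have hcompl : ∀ g : G, (g • S)ᶜ = g • T := fun g => by rw [hT, Set.smul_set_compl]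
    have keyA : ∀ g : G, g • T = T ∨ (T ∩ g • T).ncard ≤ 1 := by
      intro g
      rcases key g with h | h | ⟨hne, hc⟩
      · left
        rw [← hcompl, h]
      · exfalso
        have e1 := Set.ncard_union_eq h (Set.toFinite _) (Set.toFinite _)
        have e2 := hN (S ∪ g • S)
        rw [hsm] at e1
        omega
      · right
        have : T ∩ g • T = (S ∪ g • S)ᶜ := by rw [Set.compl_union, hcompl]
        rw [this]
        exact hc
    have keyA' : ∀ g h : G, g • T = h • T ∨ (g • T ∩ h • T).ncard ≤ 1 := by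
      intro g h
      rcases keyA (g⁻¹ * h) with e | e
      · left
        rw [mul_smul, inv_smul_eq_iff] at e
        exact e.symm
      · right
        have : g • T ∩ h • T = g • (T ∩ (g⁻¹ * h) • T) := by
          rw [Set.smul_set_inter, mul_smul, smul_inv_smul]
        rw [this, Set.ncard_smul_set]
        exact e
    obtain ⟨u, v, hu, hv, huv⟩ := (Set.one_lt_ncard_iff).mp (hT2 : 1 < T.ncard)
    have hline : ∀ p q : Ω, p ≠ q → ∃ g : G, p ∈ g • T ∧ q ∈ g • T := by
      intro p q hpq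
      obtain ⟨g, hg1, hg2⟩ := h2t' _ _ _ _ huv hpq
      exact ⟨g, ⟨u, hu, hg1⟩, ⟨v, hv, hg2⟩⟩
    have huniq : ∀ g h : G, ∀ p q : Ω, p ≠ q → p ∈ g • T → q ∈ g • T → p ∈ h • T →
        q ∈ h • T → g • T = h • T := by
      intro g h p q hpq hp1 hq1 hp2 hq2
      rcases keyA' g h with e | e
      · exact e
      · exact absurd ((Set.ncard_le_one_iff (Set.toFinite _)).mp e ⟨hp1, hp2⟩ ⟨hq1, hq2⟩) hpq
    have hK : ∀ g : G, ∀ d₁ ∈ g • T, ∀ d₂ ∈ g • T, d₁ ≠ d₂ → d₁ ∉ Γ → d₂ ∉ Γ →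
        (∃ γ, γ ∈ Γ ∧ γ ∈ g • T) → Γ ⊆ g • T := by
      intro g d₁ hd₁ d₂ hd₂ hd hd₁Γ hd₂Γ ⟨γ, hγ, hγL⟩ γ' hγ'
      obtain ⟨k, hk1, hk2⟩ := htr γ hγ γ' hγ'
      have e : (k * g) • T = g • T := by
        apply huniq (k * g) g d₁ d₂ hd
        · rw [mul_smul]
          have := Set.smul_mem_smul_set (a := k) hd₁
          rwa [hk1 d₁ hd₁Γ] at this
        · rw [mul_smul]
          have := Set.smul_mem_smul_set (a := k) hd₂
          rwa [hk1 d₂ hd₂Γ] at this
        · exact hd₁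
        · exact hd₂
      rw [← e, mul_smul, ← hk2]
      exact Set.smul_mem_smul_set hγL
    obtain ⟨γ, γ', hγ, hγ', hγγ'⟩ := (Set.one_lt_ncard_iff).mp h1
    obtain ⟨g₀, hg₀1, hg₀2⟩ := hline γ γ' hγγ'
    have hthird : ∀ g : G, ∀ p q : Ω, ∃ r ∈ g • T, r ≠ p ∧ r ≠ q := by
      intro g p q
      by_contra hcon
      push Not at hcon
      have hsub : g • T ⊆ {p, q} := by
        intro r hr
        by_cases hrp : r = p
        · left; exact hrp
        · right; exact hcon r hr hrp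
      have c1 := Set.ncard_le_ncard hsub (Set.toFinite _)
      have c2 : ({p, q} : Set Ω).ncard ≤ 2 := by
        have := Set.ncard_insert_le p ({q} : Set Ω)
        rw [Set.ncard_singleton] at this
        exact this
      have c3 := hTsm g
      omega
    have hL0 : ∀ g : G, γ ∈ g • T → Γ ⊆ g • T → g • T = g₀ • T := by
      intro g hγg hΓg
      exact huniq g g₀ γ γ' hγγ' hγg (hΓg hγ') hg₀1 hg₀2
    by_cases hcase : ∃ d₁ d₂, d₁ ∈ g₀ • T ∧ d₂ ∈ g₀ • T ∧ d₁ ≠ d₂ ∧ d₁ ∉ Γ ∧ d₂ ∉ Γ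
    · obtain ⟨d₁, d₂, hd₁, hd₂, hd, hd₁Γ, hd₂Γ⟩ := hcase
      have hΓ0 : Γ ⊆ g₀ • T := hK g₀ d₁ hd₁ d₂ hd₂ hd hd₁Γ hd₂Γ ⟨γ, hγ, hg₀1⟩
      have huniv : g₀ • T = Set.univ := by
        apply Set.eq_univ_of_forall
        intro δ
        by_cases hδ : δ ∈ Γ
        · exact hΓ0 hδ
        · have hδγ : γ ≠ δ := fun h => hδ (h ▸ hγ)
          obtain ⟨g, hg1, hg2⟩ := hline γ δ hδγ
          obtain ⟨r, hr, hrγ, hrδ⟩ := hthird g γ δ
          have e : g • T = g₀ • T := by
            by_cases hrΓ : r ∈ Γ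
            · exact huniq g g₀ γ r (Ne.symm hrγ) hg1 hr hg₀1 (hΓ0 hrΓ)
            · exact hL0 g hg1 (hK g δ hg2 r hr (Ne.symm hrδ) hδ hrΓ ⟨γ, hγ, hg1⟩)
          rw [← e]
          exact hg2
      have c1 := hTsm g₀
      rw [huniv, Set.ncard_univ] at c1
      have c2 : S.ncard + T.ncard = Nat.card Ω := hN S
      omega
    · push Not at hcase
      have hc1 : (Γᶜ ∩ g₀ • T).ncard ≤ 1 := by
        rw [Set.ncard_le_one_iff (Set.toFinite _)]
        rintro d₁ d₂ ⟨h1Γ, h1L⟩ ⟨h2Γ, h2L⟩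
        by_contra hne
        exact h2Γ (hcase d₁ d₂ h1L h2L hne h1Γ)
      have hex : ∀ δ ∈ Γᶜ \ g₀ • T, ∃ r, r ∈ Γ \ {γ, γ'} ∧
          ∃ g : G, γ ∈ g • T ∧ δ ∈ g • T ∧ r ∈ g • T := by
        rintro δ ⟨hδΓ, hδL⟩
        have hδγ : γ ≠ δ := fun h => hδΓ (h ▸ hγ)
        obtain ⟨g, hg1, hg2⟩ := hline γ δ hδγ
        obtain ⟨r, hr, hrγ, hrδ⟩ := hthird g γ δ
        have hne0 : g • T ≠ g₀ • T := fun e => hδL (e ▸ hg2)
        have hrΓ : r ∈ Γ := by
          by_contra hrΓ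
          exact hne0 (hL0 g hg1 (hK g δ hg2 r hr (Ne.symm hrδ) hδΓ hrΓ ⟨γ, hγ, hg1⟩))
        refine ⟨r, ⟨hrΓ, ?_⟩, g, hg1, hg2, hr⟩
        rintro (h | h)
        · exact hrγ h
        · have h' : r = γ' := h
          exact hne0 (huniq g g₀ γ γ' hγγ' hg1 (h' ▸ hr) hg₀1 hg₀2)
      choose! f hf1 hf2 using hex
      have hinj : Set.InjOn f (Γᶜ \ g₀ • T) := by
        intro δ hδ δ' hδ' hff
        obtain ⟨g, hg1, hg2, hg3⟩ := hf2 δ hδ
        obtain ⟨g', hg1', hg2', hg3'⟩ := hf2 δ' hδ'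
        by_contra hne
        have hfγ : f δ ≠ γ := fun h => (hf1 δ hδ).2 (Or.inl h)
        have e : g • T = g' • T :=
          huniq g g' γ (f δ) (Ne.symm hfγ) hg1 hg3 hg1' (hff ▸ hg3')
        have hg2'' : δ' ∈ g • T := e ▸ hg2'
        exact hδ.2 (hL0 g hg1 (hK g δ hg2 δ' hg2'' hne hδ.1 hδ'.1 ⟨γ, hγ, hg1⟩) ▸ hg2)
      have hc2 : (Γᶜ \ g₀ • T).ncard ≤ (Γ \ {γ, γ'}).ncard :=
        Set.ncard_le_ncard_of_injOn f (fun δ hδ => hf1 δ hδ) hinj (Set.toFinite _)
      have hc3 : (Γ \ {γ, γ'}).ncard = Γ.ncard - 2 := by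
        have hsub : ({γ, γ'} : Set Ω) ⊆ Γ := by
          intro z hz
          rcases hz with rfl | hz
          · exact hγ
          · have hz' : z = γ' := hz
            rw [hz']
            exact hγ'
        rw [Set.ncard_sdiff hsub (Set.toFinite _), Set.ncard_pair hγγ']
      have hc4 := Set.ncard_inter_add_ncard_sdiff_eq_ncard Γᶜ (g₀ • T) (Set.toFinite _)
      have hc5 := hN Γ
      omega
  · -- case B
    have keyB : ∀ g : G, g • S = S ∨ (S ∩ g • S).ncard ≤ 1 := by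
      intro g
      rcases key g with h | h | ⟨hne, hc⟩
      · exact Or.inl h
      · right
        rw [Set.disjoint_iff_inter_eq_empty.mp h]
        simp
      · right
        have e1 := Set.ncard_union_add_ncard_inter S (g • S)
        have e2 := hN (S ∪ g • S)
        rw [hsm] at e1
        omega
    by_cases hlt : 2 * S.ncard < Nat.card Ω
    · have hblock : IsBlock G S := by
        rw [isBlock_iff_smul_eq_or_disjoint]
        intro g
        rcases key g with h | h | ⟨hne, hc⟩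
        · exact Or.inl h
        · exact Or.inr h.symm
        · exfalso
          have e1 := Set.ncard_union_add_ncard_inter S (g • S)
          have e2 := hN (S ∪ g • S)
          rw [hsm] at e1
          have e3 : 0 < (S ∩ g • S).ncard := (Set.ncard_pos (Set.toFinite _)).mpr hne
          omega
      rcases hprim.isTrivialBlock_of_isBlock hblock with h | h
      · have := (Set.ncard_le_one_iff (Set.toFinite S)).mpr (fun ha hb => h ha hb)
        omega
      · rw [h] at hT2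
        simp at hT2
    · have hs : 2 * S.ncard = Nat.card Ω := by omega
      have hTs : Sᶜ.ncard = S.ncard := by
        have := hN S
        omega
      obtain ⟨u, v, hu, hv, huv⟩ := (Set.one_lt_ncard_iff).mp (hS2 : 1 < S.ncard)
      have hline : ∀ θ ∈ Sᶜ, ∃ g : G, u ∈ g • S ∧ θ ∈ g • S := by
        intro θ hθ
        have hxθ : u ≠ θ := fun h => hθ (h ▸ hu)
        obtain ⟨g, hg1, hg2⟩ := h2t' _ _ _ _ huv hxθ
        exact ⟨g, ⟨u, hu, hg1⟩, ⟨v, hv, hg2⟩⟩
      have keyB' : ∀ g h : G, g • S = h • S ∨ (g • S ∩ h • S).ncard ≤ 1 := by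
        intro g h
        rcases keyB (g⁻¹ * h) with e | e
        · left
          rw [mul_smul, inv_smul_eq_iff] at e
          exact e.symm
        · right
          have : g • S ∩ h • S = g • (S ∩ (g⁻¹ * h) • S) := by
            rw [Set.smul_set_inter, mul_smul, smul_inv_smul]
          rw [this, Set.ncard_smul_set]
          exact e
      choose! gl hgl1 hgl2 using hline
      obtain ⟨θ₀, hθ₀⟩ : (Sᶜ).Nonempty := by
        rw [← Set.ncard_pos (Set.toFinite _)]
        omega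
      have hL : ∀ g : G, u ∈ g • S → g • S ≠ S → g • S ⊆ insert u Sᶜ := by
        intro g hxg hne z hz
        by_cases hzS : z ∈ S
        · left
          rcases keyB g with e | e
          · exact absurd e hne
          · exact (Set.ncard_le_one_iff (Set.toFinite _)).mp e ⟨hzS, hz⟩ ⟨hu, hxg⟩
        · right
          exact hzS
      have hall : ∀ θ ∈ Sᶜ, gl θ • S = gl θ₀ • S := by
        intro θ hθ
        rcases keyB' (gl θ) (gl θ₀) with e | e
        · exact e
        · exfalso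
          have hne1 : gl θ • S ≠ S := fun h => hθ (h ▸ hgl2 θ hθ)
          have hne2 : gl θ₀ • S ≠ S := fun h => hθ₀ (h ▸ hgl2 θ₀ hθ₀)
          have hU : gl θ • S ∪ gl θ₀ • S ⊆ insert u Sᶜ :=
            Set.union_subset (hL _ (hgl1 θ hθ) hne1) (hL _ (hgl1 θ₀ hθ₀) hne2)
          have c1 := Set.ncard_le_ncard hU (Set.toFinite _)
          have c2 := Set.ncard_union_add_ncard_inter (gl θ • S) (gl θ₀ • S)
          rw [Set.ncard_insert_of_notMem (show u ∉ Sᶜ from fun h => h hu) (Set.toFinite _)] at c1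
          rw [hsm, hsm] at c2
          omega
      have hsub : insert u Sᶜ ⊆ gl θ₀ • S := by
        intro z hz
        rcases hz with rfl | hz
        · exact hgl1 θ₀ hθ₀
        · rw [← hall z hz]
          exact hgl2 z hz
      have hcard := Set.ncard_le_ncard hsub (Set.toFinite _)
      rw [Set.ncard_insert_of_notMem (show u ∉ Sᶜ from fun h => h hu) (Set.toFinite _), hsm] at hcard
      omega

end Aux


/-- Let G be a finite primitive permutation group on Ω of degree n and Γ ⊂ Ω a subset with 1 < #Γ ≤ n/2 such that the pointwise stabilizer of Ω ∖ Γ is transitive on Γ. Then G is 3-transitive on Ω. -/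
theorem result {G Ω : Type*} [Group G] [Finite G] [MulAction G Ω] [FaithfulSMul G Ω] [Finite Ω] (hprim : MulAction.IsPreprimitive G Ω) (Γ : Set Ω) (h1 : 1 < Γ.ncard) (h2 : 2 * Γ.ncard ≤ Nat.card Ω) (htr : ∀ x ∈ Γ, ∀ y ∈ Γ, ∃ g : G, (∀ z ∉ Γ, g • z = z) ∧ g • x = y) : MulAction.IsMultiplyPretransitive G Ω 3 := by
  exact aux hprim Γ h1 h2 htr

end Cfsg.Agent.S3707
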