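import Cfsg.Statements.S3733
import Mathlib

set_option autoImplicit false
open Cfsg

namespace Cfsg.Agent.S3733

open scoped IsMulCommutative in
/-- Let A and V be subgroups of a finite group with V abelian and nontrivial and A normalizing V. Suppose a nonempty finite family of proper subgroups of A partitions A: every non-identity element of A lies in exactly one member. If the number of members minus one is coprime to the order of V, then some member B of the family has a non-identity fixed point on V, that is V ∩ C(B) ≠ 1. -/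
theorem result {G : Type*} [Group G] [Finite G] (A V : Subgroup G) (hVab : IsMulCommutative V) (hV : V ≠ ⊥) (hAV : A ≤ Subgroup.normalizer (V : Set G)) (𝒜 : Finset (Subgroup G)) (hne : 𝒜.Nonempty) (hprop : ∀ B ∈ 𝒜, B < A) (hpart : ∀ a ∈ A, a ≠ 1 → ∃! B, B ∈ 𝒜 ∧ a ∈ B) (hk : (𝒜.card - 1).Coprime (Nat.card V)) : ∃ B ∈ 𝒜, V ⊓ Subgroup.centralizer (B : Set G) ≠ ⊥ := by
  classical
  by_contra hcon
  push Not at hcon
  have : Fintype G := Fintype.ofFinite G
  have hmem : ∀ (a : A) (v : V), (a : G) * v * (a : G)⁻¹ ∈ V := fun a v =>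
    (Subgroup.mem_normalizer_iff.mp (hAV a.2) v).mp v.2
  let cj : A → V → V := fun a v => ⟨(a : G) * v * (a : G)⁻¹, hmem a v⟩
  have cj_mul : ∀ a b v, cj a (cj b v) = cj (a * b) v := by
    intro a b v; ext; simp [cj, mul_assoc]
  have cj_one : ∀ v, cj 1 v = v := by intro v; ext; simp [cj]
  have cj_map_mul : ∀ a v w, cj a (v * w) = cj a v * cj a w := by
    intro a v w; ext; simp [cj, mul_assoc]
  let cjh : A → (V →* V) := fun a =>
    { toFun := cj a, map_one' := by ext; simp [cj], map_mul' := cj_map_mul a }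
  let T : Subgroup G → V → V := fun B v =>
    ∏ a ∈ (Finset.univ.filter (fun a : A => (a : G) ∈ B)), cj a v
  have hTfix : ∀ (B : Subgroup G) (v : V) (b : A), (b : G) ∈ B → cj b (T B v) = T B v := by
    intro B v b hb
    show cjh b (T B v) = T B v
    simp only [T]
    rw [map_prod]
    apply Finset.prod_bij (fun a _ => b * a)
    · intro a ha
      simp only [Finset.mem_filter, Finset.mem_univ, true_and] at ha ⊢
      exact B.mul_mem hb ha
    · intro a1 _ a2 _ h; exact mul_left_cancel h
    · intro a ha
      simp only [Finset.mem_filter, Finset.mem_univ, true_and] at ha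
      refine ⟨b⁻¹ * a, ?_, by simp⟩
      simp only [Finset.mem_filter, Finset.mem_univ, true_and]
      exact B.mul_mem (B.inv_mem hb) ha
    · intro a ha; exact cj_mul b a v
  have hTmem : ∀ (B : Subgroup G), B ≤ A → ∀ v : V,
      (T B v : G) ∈ V ⊓ Subgroup.centralizer (B : Set G) := by
    intro B hBA v
    refine ⟨(T B v).2, ?_⟩
    show (T B v : G) ∈ Subgroup.centralizer (B : Set G)
    rw [Subgroup.mem_centralizer_iff]
    intro b hb
    have h1 := hTfix B v ⟨b, hBA hb⟩ hb
    have h2 : b * (T B v : G) * b⁻¹ = (T B v : G) := congrArg Subtype.val h1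
    calc b * (T B v : G) = (b * (T B v : G) * b⁻¹) * b := by group
      _ = (T B v : G) * b := by rw [h2]
  have hT1 : ∀ B ∈ 𝒜, ∀ v, T B v = 1 := by
    intro B hB v
    have h1 := hTmem B (hprop B hB).le v
    rw [hcon B hB, Subgroup.mem_bot] at h1
    exact Subtype.ext h1
  obtain ⟨B₀, hB₀⟩ := hne
  have hTA : ∀ v, T A v = 1 := by
    intro v
    have h1 := hTmem A le_rfl v
    have h2 : (T A v : G) ∈ V ⊓ Subgroup.centralizer (B₀ : Set G) :=
      ⟨h1.1, Subgroup.centralizer_le (hprop B₀ hB₀).le h1.2⟩
    rw [hcon B₀ hB₀, Subgroup.mem_bot] at h2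
    exact Subtype.ext h2
  have hcount : ∀ v : V, ∏ B ∈ 𝒜, T B v = T A v * v ^ (𝒜.card - 1) := by
    intro v
    simp only [T]
    have hA_all : (Finset.univ.filter (fun a : A => (a : G) ∈ A)) = Finset.univ := by
      ext a; simp
    rw [hA_all]
    calc ∏ B ∈ 𝒜, ∏ a ∈ Finset.univ.filter (fun a : A => (a : G) ∈ B), cj a v
        = ∏ B ∈ 𝒜, ∏ a : A, (if (a : G) ∈ B then cj a v else 1) := by
          apply Finset.prod_congr rfl; intro B _; rw [Finset.prod_filter]
      _ = ∏ a : A, ∏ B ∈ 𝒜, (if (a : G) ∈ B then cj a v else 1) := Finset.prod_comm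
      _ = ∏ a : A, (cj a v * (if a = 1 then v ^ (𝒜.card - 1) else 1)) := by
          apply Finset.prod_congr rfl
          intro a _
          rw [← Finset.prod_filter, Finset.prod_const]
          by_cases ha : a = 1
          · subst ha
            have h1 : 𝒜.filter (fun B => ((1 : A) : G) ∈ B) = 𝒜 := by
              apply Finset.filter_true_of_mem; intro B _; simp
            rw [h1, if_pos rfl, cj_one, ← pow_succ']
            congr 1
            have := Finset.card_pos.mpr ⟨B₀, hB₀⟩
            omega
          · rw [if_neg ha, mul_one]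
            have hcard1 : (𝒜.filter (fun B => (a : G) ∈ B)).card = 1 := by
              rw [Finset.card_eq_one]
              obtain ⟨B, hB, huniq⟩ := hpart a a.2 (by intro h; exact ha (Subtype.ext h))
              refine ⟨B, ?_⟩
              ext B'
              simp only [Finset.mem_filter, Finset.mem_singleton]
              exact ⟨fun h => huniq B' h, fun h => h ▸ hB⟩
            rw [hcard1, pow_one]
      _ = (∏ a : A, cj a v) * v ^ (𝒜.card - 1) := by
          rw [Finset.prod_mul_distrib, Finset.prod_ite_eq']; simp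
  have hall : ∀ v : V, v ^ (𝒜.card - 1) = 1 := by
    intro v
    have h1 := hcount v
    rw [hTA v, one_mul, Finset.prod_eq_one (fun B hB => hT1 B hB v)] at h1
    exact h1.symm
  apply hV
  rw [Subgroup.eq_bot_iff_forall]
  intro x hx
  have h1 := hall ⟨x, hx⟩
  have h2 : orderOf (⟨x, hx⟩ : V) ∣ 𝒜.card - 1 := orderOf_dvd_of_pow_eq_one h1
  have h3 : orderOf (⟨x, hx⟩ : V) ∣ Nat.card V := orderOf_dvd_natCard _
  have h4 : orderOf (⟨x, hx⟩ : V) = 1 := Nat.eq_one_of_dvd_coprimes hk h2 h3
  rw [orderOf_eq_one_iff] at h4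
  exact congrArg Subtype.val h4

end Cfsg.Agent.S3733
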