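import Cfsg.Statements.S3734
import Cfsg.Agent.Lib.helper9.Generation

set_option autoImplicit false
open Cfsg

namespace Cfsg.Agent.S3734

open Cfsg.Agent.Lib.helper9 Cfsg.Agent.Lib.helper8
open scoped commutatorElement

theorem le_normalizer_iSup₂ {X : Type*} [Group X] {ι : Type*} (p : ι → Prop)
    (S : ι → Subgroup X) (C : Subgroup X)
    (h : ∀ i, p i → C ≤ Subgroup.normalizer (S i : Set X)) :
    C ≤ Subgroup.normalizer ((⨆ i, ⨆ (_ : p i), S i : Subgroup X) : Set X) := by
  apply le_normalizer_of_conj_mem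
  intro c hc x hx
  have h1 : (⨆ i, ⨆ (_ : p i), S i) ≤
      (⨆ i, ⨆ (_ : p i), S i).comap (MulAut.conj c).toMonoidHom := by
    apply iSup₂_le
    intro i hi y hy
    rw [Subgroup.mem_comap]
    exact (le_iSup₂ (f := fun i (_ : p i) => S i) i hi)
      (conj_mem_of_mem_normalizer (h i hi hc) hy)
  exact h1 hx

theorem le_normalizer_inf_centralizer {X : Type*} [Group X] (C G B : Subgroup X)
    (hCG : C ≤ Subgroup.normalizer (G : Set X)) (hCB : C ≤ Subgroup.centralizer (B : Set X)) :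
    C ≤ Subgroup.normalizer ((G ⊓ Subgroup.centralizer (B : Set X) : Subgroup X) : Set X) := by
  apply le_normalizer_of_conj_mem
  intro c hc w hw
  obtain ⟨hw1, hw2⟩ := Subgroup.mem_inf.mp hw
  refine Subgroup.mem_inf.mpr ⟨conj_mem_of_mem_normalizer (hCG hc) hw1, ?_⟩
  rw [Subgroup.mem_centralizer_iff]
  intro d hd
  have h1 : d * w = w * d := Subgroup.mem_centralizer_iff.mp hw2 d hd
  have h2 : d * c = c * d := Subgroup.mem_centralizer_iff.mp (hCB hc) d hd
  have h3 : d * c⁻¹ = c⁻¹ * d := by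
    calc d * c⁻¹ = c⁻¹ * (c * d) * c⁻¹ := by group
      _ = c⁻¹ * (d * c) * c⁻¹ := by rw [h2]
      _ = c⁻¹ * d := by group
  calc d * (c * w * c⁻¹) = (d * c) * w * c⁻¹ := by group
    _ = (c * d) * w * c⁻¹ := by rw [h2]
    _ = c * (d * w) * c⁻¹ := by group
    _ = c * (w * d) * c⁻¹ := by rw [h1]
    _ = c * w * (d * c⁻¹) := by group
    _ = c * w * (c⁻¹ * d) := by rw [h3]
    _ = c * w * c⁻¹ * d := by group

/-- Let A and G be subgroups of a finite group with A abelian, A normalizing G and the orders of A and G coprime. Then G is generated by the fixed-point subgroups C_G(B) of those subgroups B of A for which A/B is cyclic (that is, A = ⟨B, a⟩ for some a), and [G, A] is generated by the commutator subgroups [C_G(B), A] over the same subgroups B. -/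
theorem result {X : Type*} [Group X] [Finite X] (A G : Subgroup X) (hAab : IsMulCommutative A) (hAG : A ≤ Subgroup.normalizer (G : Set X)) (hcop : (Nat.card A).Coprime (Nat.card G)) : (⨆ B ∈ {B : Subgroup X | B ≤ A ∧ ∃ a ∈ A, B ⊔ Subgroup.zpowers a = A}, G ⊓ Subgroup.centralizer (B : Set X)) = G ∧ (⨆ B ∈ {B : Subgroup X | B ≤ A ∧ ∃ a ∈ A, B ⊔ Subgroup.zpowers a = A}, ⁅G ⊓ Subgroup.centralizer (B : Set X), A⁆) = ⁅G, A⁆ := by
  haveI := hAab
  have hsolvA : Group.IsSolvable A := isSolvable_of_isMulCommutative A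
  constructor
  · apply le_antisymm (iSup₂_le fun B _ => inf_le_left)
    apply gen_main A G hAG hcop
    intro B hB hc
    exact le_iSup₂ (f := fun (B : Subgroup X)
      (_ : B ∈ {B : Subgroup X | B ≤ A ∧ ∃ a ∈ A, B ⊔ Subgroup.zpowers a = A}) =>
      G ⊓ Subgroup.centralizer (B : Set X)) B ⟨hB, hc⟩
  · apply le_antisymm (iSup₂_le fun B _ => Subgroup.commutator_mono inf_le_left le_rfl)
    have hAcent : ∀ B : Subgroup X, B ≤ A → A ≤ Subgroup.centralizer (B : Set X) := by
      intro B hB a ha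
      rw [Subgroup.mem_centralizer_iff]
      intro b hb
      exact setLike_mul_comm (hB hb) ha
    have hGB : ∀ B : Subgroup X, B ≤ A →
        A ≤ Subgroup.normalizer ((G ⊓ Subgroup.centralizer (B : Set X) : Subgroup X) : Set X) :=
      fun B hB => le_normalizer_inf_centralizer A G B hAG (hAcent B hB)
    have hCcent : ∀ B : Subgroup X, B ≤ A →
        G ⊓ Subgroup.centralizer (A : Set X) ≤ Subgroup.centralizer (B : Set X) :=
      fun B hB => inf_le_right.trans (Subgroup.centralizer_le hB)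
    have hCGB : ∀ B : Subgroup X, B ≤ A → G ⊓ Subgroup.centralizer (A : Set X) ≤
        Subgroup.normalizer ((G ⊓ Subgroup.centralizer (B : Set X) : Subgroup X) : Set X) :=
      fun B hB => le_normalizer_inf_centralizer _ G B
        (inf_le_left.trans Subgroup.le_normalizer) (hCcent B hB)
    have hCA : G ⊓ Subgroup.centralizer (A : Set X) ≤ Subgroup.normalizer (A : Set X) := by
      apply le_normalizer_of_conj_mem
      intro c hc a ha
      have h1 : a * c = c * a := Subgroup.mem_centralizer_iff.mp (Subgroup.mem_inf.mp hc).2 a ha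
      have e : c * a * c⁻¹ = a := by rw [← h1]; group
      rw [e]; exact ha
    have hAH : A ≤ Subgroup.normalizer ((⨆ B ∈ {B : Subgroup X | B ≤ A ∧ ∃ a ∈ A,
        B ⊔ Subgroup.zpowers a = A}, ⁅G ⊓ Subgroup.centralizer (B : Set X), A⁆ : Subgroup X) : Set X) :=
      le_normalizer_iSup₂ _ _ A
        (fun B hB => le_normalizer_commutator (hGB B hB.1) Subgroup.le_normalizer)
    have hCH : G ⊓ Subgroup.centralizer (A : Set X) ≤ Subgroup.normalizer ((⨆ B ∈ {B : Subgroup X |
        B ≤ A ∧ ∃ a ∈ A, B ⊔ Subgroup.zpowers a = A},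
        ⁅G ⊓ Subgroup.centralizer (B : Set X), A⁆ : Subgroup X) : Set X) :=
      le_normalizer_iSup₂ _ _ _ (fun B hB => le_normalizer_commutator (hCGB B hB.1) hCA)
    have hG : G ≤ (⨆ B ∈ {B : Subgroup X | B ≤ A ∧ ∃ a ∈ A, B ⊔ Subgroup.zpowers a = A},
        ⁅G ⊓ Subgroup.centralizer (B : Set X), A⁆) ⊔ (G ⊓ Subgroup.centralizer (A : Set X)) := by
      apply gen_main A G hAG hcop
      intro B hB hc
      have h1 := commutator_sup_fixed A (G ⊓ Subgroup.centralizer (B : Set X)) (hGB B hB)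
        (Nat.Coprime.coprime_dvd_right (Subgroup.card_dvd_of_le inf_le_left) hcop) (Or.inl hsolvA)
      refine le_trans h1.symm.le (sup_le_sup ?_ (inf_le_inf_right _ inf_le_left))
      exact le_iSup₂ (f := fun (B : Subgroup X)
        (_ : B ∈ {B : Subgroup X | B ≤ A ∧ ∃ a ∈ A, B ⊔ Subgroup.zpowers a = A}) =>
        ⁅G ⊓ Subgroup.centralizer (B : Set X), A⁆) B ⟨hB, hc⟩
    rw [Subgroup.commutator_le]
    intro g hg a ha
    obtain ⟨h, hh, c, hc, rfl⟩ := (mem_sup_iff_of_le_normalizer hCH g).mp (hG hg)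
    have hca : a * c = c * a := Subgroup.mem_centralizer_iff.mp (Subgroup.mem_inf.mp hc).2 a ha
    have e : ⁅h * c, a⁆ = h * (a * h⁻¹ * a⁻¹) := by
      rw [commutatorElement_def]
      calc h * c * a * (h * c)⁻¹ * a⁻¹ = h * (c * a) * c⁻¹ * h⁻¹ * a⁻¹ := by group
        _ = h * (a * c) * c⁻¹ * h⁻¹ * a⁻¹ := by rw [hca]
        _ = h * (a * h⁻¹ * a⁻¹) := by group
    rw [e]
    exact Subgroup.mul_mem _ hh (conj_mem_of_mem_normalizer (hAH ha) (Subgroup.inv_mem _ hh))

end Cfsg.Agent.S3734
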