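import Cfsg.Statements.S3735
import Mathlib

set_option autoImplicit false
open Cfsg

namespace Cfsg.Agent.S3735

/-- `K` normalizes `U`, in one-sided elementwise form. -/
def NI {G : Type*} [Group G] (K U : Subgroup G) : Prop := ∀ k ∈ K, ∀ u ∈ U, k * u * k⁻¹ ∈ U

theorem ni_iff {G : Type*} [Group G] [Finite G] (K U : Subgroup G) :
    K ≤ Subgroup.normalizer (U : Set G) ↔ NI K U := by
  constructor
  · intro h k hk u hu; exact (Subgroup.mem_normalizer_iff.mp (h hk) u).mp hu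
  · intro h k hk; exact Subgroup.mem_normalizer_fintype (fun u hu => h k hk u hu)

theorem ni_inf {G : Type*} [Group G] (K U W : Subgroup G) (hU : NI K U) (hW : NI K W) : NI K (U ⊓ W) :=
  fun k hk u hu => ⟨hU k hk u hu.1, hW k hk u hu.2⟩

theorem ni_sup {G : Type*} [Group G] (K U W : Subgroup G) (hU : NI K U) (hW : NI K W) : NI K (U ⊔ W) := by
  intro k hk
  have h1 : U ⊔ W ≤ (U ⊔ W).comap (MulAut.conj k).toMonoidHom := by
    apply sup_le
    · intro u hu; exact (le_sup_left : U ≤ U ⊔ W) (hU k hk u hu)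
    · intro w hw; exact (le_sup_right : W ≤ U ⊔ W) (hW k hk w hw)
  intro x hx; exact h1 hx

/-- minimal nontrivial `A`-invariant subgroups of `V`. -/
def IsAt {G : Type*} [Group G] (A V S : Subgroup G) : Prop :=
  S ≤ V ∧ S ≠ ⊥ ∧ NI A S ∧ ∀ S' : Subgroup G, S' ≤ S → S' ≠ ⊥ → NI A S' → S' = S

theorem exists_atom_le {G : Type*} [Group G] [Finite G] (A V W : Subgroup G) (hWV : W ≤ V) (hW : W ≠ ⊥)
    (hni : NI A W) : ∃ S, IsAt A V S ∧ S ≤ W := by
  have hfin : {S : Subgroup G | S ≤ W ∧ S ≠ ⊥ ∧ NI A S}.Finite := Set.toFinite _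
  obtain ⟨S, hSW, hmin⟩ := hfin.exists_le_minimal (a := W) ⟨le_rfl, hW, hni⟩
  obtain ⟨⟨h1, h2, h3⟩, h4⟩ := hmin
  refine ⟨S, ⟨h1.trans hWV, h2, h3, ?_⟩, h1⟩
  intro S' hS' hne hni'
  exact le_antisymm hS' (h4 ⟨hS'.trans h1, hne, hni'⟩ hS')

theorem ni_conj {G : Type*} [Group G] (A S : Subgroup G) (h : G) (hA : ∀ a ∈ A, h⁻¹ * a * h ∈ A)
    (hS : NI A S) : NI A (S.map (MulAut.conj h).toMonoidHom) := by
  rintro a ha _ ⟨s, hs, rfl⟩
  refine ⟨(h⁻¹ * a * h) * s * (h⁻¹ * a * h)⁻¹, hS _ (hA a ha) s hs, ?_⟩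
  simp only [MulEquiv.toMonoidHom_eq_coe, MonoidHom.coe_coe, MulAut.conj_apply]
  group

theorem isAt_conj {G : Type*} [Group G] (A V S : Subgroup G) (h : G) (hA : ∀ a ∈ A, h⁻¹ * a * h ∈ A)
    (hA' : ∀ a ∈ A, h * a * h⁻¹ ∈ A) (hV : ∀ v ∈ V, h * v * h⁻¹ ∈ V) (hS : IsAt A V S) :
    IsAt A V (S.map (MulAut.conj h).toMonoidHom) := by
  obtain ⟨h1, h2, h3, h4⟩ := hS
  refine ⟨?_, ?_, ni_conj A S h hA h3, ?_⟩
  · rintro _ ⟨s, hs, rfl⟩; exact hV s (h1 hs)
  · intro h0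
    exact h2 ((Subgroup.map_eq_bot_iff_of_injective S (MulEquiv.injective _)).mp h0)
  · intro S' hS' hne hni'
    have hA2 : ∀ a ∈ A, h⁻¹⁻¹ * a * h⁻¹ ∈ A := by
      intro a ha; rw [inv_inv]; exact hA' a ha
    have hni2 := ni_conj A S' h⁻¹ hA2 hni'
    have hle2 : S'.map (MulAut.conj h⁻¹).toMonoidHom ≤ S := by
      rintro _ ⟨x, hx, rfl⟩
      obtain ⟨s, hs, rfl⟩ := hS' hx
      simp only [MulEquiv.toMonoidHom_eq_coe, MonoidHom.coe_coe, MulAut.conj_apply, inv_inv]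
      have h5 : h⁻¹ * (h * s * h⁻¹) * h = s := by group
      rw [h5]; exact hs
    have hne2 : S'.map (MulAut.conj h⁻¹).toMonoidHom ≠ ⊥ := by
      intro h0
      exact hne ((Subgroup.map_eq_bot_iff_of_injective S' (MulEquiv.injective _)).mp h0)
    have heq := h4 _ hle2 hne2 hni2
    apply le_antisymm hS'
    rintro _ ⟨s, hs, rfl⟩
    rw [← heq] at hs
    obtain ⟨x, hx, rfl⟩ := hs
    simp only [MulEquiv.toMonoidHom_eq_coe, MonoidHom.coe_coe, MulAut.conj_apply, inv_inv]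
    have h5 : h * (h⁻¹ * x * h) * h⁻¹ = x := by group
    rw [h5]; exact hx

open Pointwise in
/-- Clifford's Theorem for actions on finite abelian groups, first part. Let H and V be subgroups of a finite group with V abelian and H normalizing V, and let A be a normal subgroup of H. If every H-invariant subgroup of V has an H-invariant complement in V, then every A-invariant subgroup of V has an A-invariant complement in V. -/
theorem result {G : Type*} [Group G] [Finite G] (H A V : Subgroup G) (hVab : IsMulCommutative V) (hHV : H ≤ Subgroup.normalizer (V : Set G)) (hAH : A ≤ H) (hAn : H ≤ Subgroup.normalizer (A : Set G)) (hss : ∀ U : Subgroup G, U ≤ V → H ≤ Subgroup.normalizer (U : Set G) → ∃ W : Subgroup G, W ≤ V ∧ H ≤ Subgroup.normalizer (W : Set G) ∧ U ⊓ W = ⊥ ∧ U ⊔ W = V) (U : Subgroup G) (hUV : U ≤ V) (hAU : A ≤ Subgroup.normalizer (U : Set G)) : ∃ W : Subgroup G, W ≤ V ∧ A ≤ Subgroup.normalizer (W : Set G) ∧ U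 ⊓ W = ⊥ ∧ U ⊔ W = V := by
  classical
  have hc : ∀ a ∈ V, ∀ b ∈ V, a * b = b * a := by
    intro a ha b hb
    have := hVab.is_comm.comm (⟨a, ha⟩ : V) ⟨b, hb⟩
    exact congrArg Subtype.val this
  have hHVni := (ni_iff H V).mp hHV
  have hHAni := (ni_iff H A).mp hAn
  have hUni := (ni_iff A U).mp hAU
  set T : Subgroup G := sSup {S : Subgroup G | IsAt A V S} with hT
  have hTV : T ≤ V := sSup_le (fun S hS => hS.1)
  have hTH : NI H T := by
    intro h hh
    have h1 : T ≤ T.comap (MulAut.conj h).toMonoidHom := by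
      apply sSup_le
      intro S hS s hs
      have hconj : IsAt A V (S.map (MulAut.conj h).toMonoidHom) := by
        apply isAt_conj A V S h _ (hHAni h hh) (hHVni h hh) hS
        intro a ha
        have := hHAni h⁻¹ (H.inv_mem hh) a ha
        rwa [inv_inv] at this
      exact (le_sSup hconj : S.map (MulAut.conj h).toMonoidHom ≤ T) ⟨s, hs, rfl⟩
    intro x hx; exact h1 hx
  have hTtop : T = V := by
    obtain ⟨W, hWV, hWH, hdisj, hsup⟩ := hss T hTV ((ni_iff H T).mpr hTH)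
    have hWni : NI A W := fun a ha => (ni_iff H W).mp hWH a (hAH ha)
    have hW0 : W = ⊥ := by
      by_contra hne
      obtain ⟨S, hS, hSW⟩ := exists_atom_le A V W hWV hne hWni
      have h1 : S ≤ T ⊓ W := le_inf (le_sSup hS) hSW
      rw [hdisj, le_bot_iff] at h1
      exact hS.2.1 h1
    rw [hW0, sup_bot_eq] at hsup
    exact hsup
  have hfin : {W : Subgroup G | W ≤ V ∧ NI A W ∧ U ⊓ W = ⊥}.Finite := Set.toFinite _
  obtain ⟨W, -, ⟨hWV, hWni, hdisj⟩, hmax⟩ := hfin.exists_le_maximal (a := ⊥)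
    ⟨bot_le, fun k _ u hu => by rw [Subgroup.mem_bot] at hu ⊢; rw [hu]; group, inf_bot_eq _⟩
  refine ⟨W, hWV, (ni_iff A W).mpr hWni, hdisj, ?_⟩
  by_contra hne
  have hle : U ⊔ W ≤ V := sup_le hUV hWV
  obtain ⟨S, hS, hSn⟩ : ∃ S, IsAt A V S ∧ ¬ S ≤ U ⊔ W := by
    by_contra hcon
    push Not at hcon
    apply hne
    apply le_antisymm hle
    rw [← hTtop]
    exact sSup_le (fun S hS => hcon S hS)
  have hSinf : S ⊓ (U ⊔ W) = ⊥ := by
    by_contra hne0
    have h1 := hS.2.2.2 (S ⊓ (U ⊔ W)) inf_le_left hne0 (ni_inf _ _ _ hS.2.2.1 (ni_sup _ _ _ hUni hWni))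
    apply hSn
    rw [← h1]
    exact inf_le_right
  have hWS : W ≤ Subgroup.normalizer (S : Set G) := by
    intro w hw
    apply Subgroup.mem_normalizer_fintype
    intro n hn
    have h1 : w * n * w⁻¹ = n := by
      rw [hc w (hWV hw) n (hS.1 hn)]; group
    rw [h1]; exact hn
  have hmem : W ⊔ S ∈ {W : Subgroup G | W ≤ V ∧ NI A W ∧ U ⊓ W = ⊥} := by
    refine ⟨sup_le hWV hS.1, ni_sup _ _ _ hWni hS.2.2.1, ?_⟩
    rw [eq_bot_iff]
    rintro x ⟨hxU, hxWS⟩
    have h1 : x ∈ ((W ⊔ S : Subgroup G) : Set G) := hxWS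
    rw [Subgroup.coe_mul_of_left_le_normalizer_right W S hWS] at h1
    obtain ⟨w, hw, s, hs, rfl⟩ := Set.mem_mul.mp h1
    have h2 : s ∈ S ⊓ (U ⊔ W) := by
      refine ⟨hs, ?_⟩
      have h3 : s = w⁻¹ * (w * s) := by group
      rw [h3]
      exact Subgroup.mul_mem _ ((le_sup_right : W ≤ U ⊔ W) (W.inv_mem hw)) ((le_sup_left : U ≤ U ⊔ W) hxU)
    rw [hSinf, Subgroup.mem_bot] at h2
    subst h2
    rw [mul_one] at hxU ⊢
    have h4 : w ∈ U ⊓ W := ⟨hxU, hw⟩
    rw [hdisj] at h4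
    exact h4
  have h5 := hmax hmem le_sup_left
  exact hSn ((le_sup_right.trans h5).trans le_sup_right)

end Cfsg.Agent.S3735
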