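import Cfsg.Statements.S3738
import Mathlib
import Cfsg.Agent.S3773

set_option autoImplicit false
open Cfsg

namespace Cfsg.Agent.S3738

open scoped commutatorElement

theorem nine {α : Type*} [Fintype α] [DecidableEq α] (σ : Equiv.Perm α) (h : σ ^ 9 = 1) :
    9 ∣ (σ ^ 3).support.card := by
  revert h
  refine Equiv.Perm.cycle_induction_on (fun σ => σ ^ 9 = 1 → 9 ∣ (σ ^ 3).support.card) σ ?_ ?_ ?_
  · intro _; simp
  · intro σ hσ h9
    have ho : orderOf σ ∣ 9 := orderOf_dvd_of_pow_eq_one h9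
    have hne : orderOf σ ≠ 1 := fun h1 => hσ.ne_one (orderOf_eq_one_iff.mp h1)
    have hle : orderOf σ ≤ 9 := Nat.le_of_dvd (by norm_num) ho
    have hcases : orderOf σ = 3 ∨ orderOf σ = 9 := by
      interval_cases (orderOf σ) <;> simp_all
    rcases hcases with h3 | h9'
    · have : σ ^ 3 = 1 := by rw [← h3]; exact pow_orderOf_eq_one σ
      rw [this]; simp
    · have hs : (σ ^ 3).support = σ.support :=
        hσ.support_pow_of_pos_of_lt_orderOf (by norm_num) (by rw [h9']; norm_num)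
      rw [hs, ← hσ.orderOf, h9']
  · intro σ τ hd hσ ihσ ihτ h9
    have hc := hd.commute
    have h9' : σ ^ 9 * τ ^ 9 = 1 := by rw [← hc.mul_pow]; exact h9
    have h1 := (hd.pow_disjoint_pow 9 9).mul_eq_one_iff.mp h9'
    rw [hc.mul_pow, (hd.pow_disjoint_pow 3 3).card_support_mul]
    exact dvd_add (ihσ h1.1) (ihτ h1.2)

theorem norm_closure {X : Type*} [Group X] (s : Set X) (d : X)
    (h : ∀ x ∈ s, d * x * d⁻¹ ∈ s) (h' : ∀ x ∈ s, d⁻¹ * x * d ∈ s) :
    d ∈ Subgroup.normalizer (Subgroup.closure s : Set X) := by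
  have key : ∀ (e : X), (∀ x ∈ s, e * x * e⁻¹ ∈ s) → ∀ g ∈ Subgroup.closure s,
      e * g * e⁻¹ ∈ Subgroup.closure s := by
    intro e he g hg
    induction hg using Subgroup.closure_induction with
    | mem x hx => exact Subgroup.subset_closure (he x hx)
    | one => simp
    | mul x y _ _ hx hy =>
      have : e * (x * y) * e⁻¹ = (e * x * e⁻¹) * (e * y * e⁻¹) := by group
      rw [this]; exact mul_mem hx hy
    | inv x _ hx =>
      have : e * x⁻¹ * e⁻¹ = (e * x * e⁻¹)⁻¹ := by group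
      rw [this]; exact inv_mem hx
  rw [Subgroup.mem_normalizer_iff]
  intro g
  constructor
  · exact key d h g
  · intro hg
    have := key d⁻¹ (by simpa using h') _ hg
    have e : d⁻¹ * (d * g * d⁻¹) * d⁻¹⁻¹ = g := by group
    rwa [e] at this

theorem c3 {X : Type*} [Group X] (e y c : X) (h13 : e ^ 3 = 1)
    (hc : e * y * e⁻¹ = y * c) (hcc : e * c * e⁻¹ = c) : c ^ 3 = 1 := by
  have h1 : e * (y * c) * e⁻¹ = y * c * c := by
    calc e * (y * c) * e⁻¹ = (e * y * e⁻¹) * (e * c * e⁻¹) := by group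
      _ = y * c * c := by rw [hc, hcc]
  have h2 : e * (y * c * c) * e⁻¹ = y * c * c * c := by
    calc e * (y * c * c) * e⁻¹ = (e * (y * c) * e⁻¹) * (e * c * e⁻¹) := by group
      _ = y * c * c * c := by rw [h1, hcc]
  have h3 : e ^ 3 * y * (e ^ 3)⁻¹ = y * c * c * c := by
    have e3 : e ^ 3 = e * e * e := by rw [pow_succ, pow_two]
    calc e ^ 3 * y * (e ^ 3)⁻¹ = e * (e * (e * y * e⁻¹) * e⁻¹) * e⁻¹ := by rw [e3]; group
      _ = y * c * c * c := by rw [hc, h1, h2]
  rw [h13] at h3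
  have h4 : y * 1 = y * (c * c * c) := by simpa [mul_assoc] using h3
  have h5 := mul_left_cancel h4
  rw [pow_succ, pow_two]; exact h5.symm

theorem two_three {X : Type*} [Group X] (P : Subgroup X) (hP : IsPGroup 2 P) (c : X)
    (hc : c ∈ P) (h3 : c ^ 3 = 1) : c = 1 := by
  obtain ⟨k, hk⟩ := hP ⟨c, hc⟩
  have hk' : c ^ 2 ^ k = 1 := by
    have := congrArg Subtype.val hk
    simpa using this
  have h1 : orderOf c ∣ 2 ^ k := orderOf_dvd_of_pow_eq_one hk'
  have h2 : orderOf c ∣ 3 := orderOf_dvd_of_pow_eq_one h3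
  have h3' : Nat.Coprime (2 ^ k) 3 := Nat.Coprime.pow_left k (by norm_num)
  have := Nat.eq_one_of_dvd_coprimes h3' h1 h2
  exact orderOf_eq_one_iff.mp this

theorem elem_closure {X : Type*} [Group X] (S : Set X) (hc : ∀ a ∈ S, ∀ b ∈ S, a * b = b * a)
    (h2 : ∀ a ∈ S, a ^ 2 = 1) :
    (∀ a ∈ Subgroup.closure S, ∀ b ∈ Subgroup.closure S, a * b = b * a) ∧
    (∀ a ∈ Subgroup.closure S, a ^ 2 = 1) := by
  have h1 : Subgroup.closure S ≤ Subgroup.centralizer S := by
    rw [Subgroup.closure_le]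
    intro a ha
    rw [SetLike.mem_coe, Subgroup.mem_centralizer_iff]
    intro b hb
    exact hc b hb a ha
  have h3 : Subgroup.closure S ≤ Subgroup.centralizer (Subgroup.closure S : Set X) := by
    rw [Subgroup.closure_le]
    intro a ha
    rw [SetLike.mem_coe, Subgroup.mem_centralizer_iff]
    intro b hb
    have := h1 hb
    rw [Subgroup.mem_centralizer_iff] at this
    exact (this a ha).symm
  have hcomm : ∀ a ∈ Subgroup.closure S, ∀ b ∈ Subgroup.closure S, a * b = b * a := by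
    intro a ha b hb
    have := h3 hb
    rw [Subgroup.mem_centralizer_iff] at this
    exact this a ha
  refine ⟨hcomm, ?_⟩
  intro a ha
  induction ha using Subgroup.closure_induction with
  | mem x hx => exact h2 x hx
  | one => simp
  | mul x y hx hy ihx ihy =>
    have : x * y = y * x := hcomm x hx y hy
    rw [pow_two] at *
    calc x * y * (x * y) = x * (y * x) * y := by group
      _ = x * (x * y) * y := by rw [this]
      _ = (x * x) * (y * y) := by group
      _ = 1 := by rw [ihx, ihy, one_mul]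
  | inv x _ ihx => rw [inv_pow, ihx, inv_one]

theorem nine' {X : Type*} [Group X] [Finite X] (P : Subgroup X) (e : X)
    (he : e ∈ Subgroup.normalizer (P : Set X)) (h9 : e ^ 9 = 1) :
    ∃ m, Nat.card P = Nat.card ↥(P ⊓ Subgroup.centralizer {e ^ 3}) + 9 * m := by
  classical
  have : Fintype P := Fintype.ofFinite P
  have hmem : ∀ x ∈ P, e * x * e⁻¹ ∈ P := fun x hx =>
    (Subgroup.mem_normalizer_iff.mp he x).mp hx
  have hmem' : ∀ x ∈ P, e⁻¹ * x * e ∈ P := fun x hx => by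
    have := (Subgroup.mem_normalizer_iff.mp (inv_mem he) x).mp hx
    simpa using this
  let σ : Equiv.Perm P :=
    { toFun := fun x => ⟨e * x * e⁻¹, hmem x x.2⟩
      invFun := fun x => ⟨e⁻¹ * x * e, hmem' x x.2⟩
      left_inv := fun x => Subtype.ext (by simp [mul_assoc])
      right_inv := fun x => Subtype.ext (by simp [mul_assoc]) }
  have hpow : ∀ (k : ℕ) (x : P), ((σ ^ k) x : X) = e ^ k * x * (e ^ k)⁻¹ := by
    intro k
    induction k with
    | zero => intro x; simp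
    | succ k ih =>
      intro x
      rw [pow_succ', Equiv.Perm.mul_apply]
      show e * ((σ ^ k) x : X) * e⁻¹ = _
      rw [ih, pow_succ']; group
  have h9' : σ ^ 9 = 1 := by
    ext x; rw [hpow, h9]; simp
  obtain ⟨m, hm⟩ := nine σ h9'
  refine ⟨m, ?_⟩
  have hsupp : (σ ^ 3).support =
      Finset.univ.filter (fun x : P => ¬ (e ^ 3 * (x : X) * (e ^ 3)⁻¹ = x)) := by
    ext x
    simp only [Equiv.Perm.mem_support, Finset.mem_filter, Finset.mem_univ, true_and, ne_eq,
      Subtype.ext_iff, hpow]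
  have hfix : Nat.card ↥(P ⊓ Subgroup.centralizer {e ^ 3}) =
      (Finset.univ.filter (fun x : P => e ^ 3 * (x : X) * (e ^ 3)⁻¹ = x)).card := by
    rw [← Fintype.card_subtype, ← Nat.card_eq_fintype_card]
    apply Nat.card_congr
    exact
      { toFun := fun x => ⟨⟨x.1, x.2.1⟩, by
          have := Subgroup.mem_centralizer_singleton_iff.mp x.2.2
          show e ^ 3 * (x : X) * (e ^ 3)⁻¹ = x
          rw [← this]; simp⟩
        invFun := fun x => ⟨x.1.1, ⟨x.1.2, by
          refine Subgroup.mem_centralizer_singleton_iff.mpr ?_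
          have := x.2
          calc (x.1 : X) * e ^ 3 = (e ^ 3 * (x.1 : X) * (e ^ 3)⁻¹) * e ^ 3 := by rw [this]
            _ = e ^ 3 * (x.1 : X) := by group⟩⟩
        left_inv := fun x => rfl
        right_inv := fun x => rfl }
  rw [Nat.card_eq_fintype_card, ← Finset.card_univ,
    ← Finset.card_filter_add_card_filter_not (fun x : P => e ^ 3 * (x : X) * (e ^ 3)⁻¹ = x),
    hfix, ← hsupp, hm]

theorem lemQ2 {K : Type*} [Group K] [Finite K] (h2 : IsPGroup 2 K) (W : Subgroup K)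
    (hWc : ∀ w ∈ W, ∀ x : K, w * x = x * w) (hsq : ∀ x : K, x ^ 2 ∈ W)
    (hcm : ∀ x y : K, ⁅x, y⁆ ∈ W) (hI : ∀ x : K, x ^ 2 = 1 → x ∈ W)
    (hΩ : ∀ V : Subgroup K, V ≤ W → (∀ a ∈ V, a ^ 2 = 1) → Nat.card V ≤ 4) :
    Nat.card K ≤ 16 * Nat.card W := by
  let _ : CommGroup W := { (inferInstance : Group W) with
    mul_comm := fun a b => Subtype.ext (hWc a.1 a.2 b.1) }
  let R : Subgroup W := (powMonoidHom 2 : W →* W).range
  obtain ⟨hb1, hb2, hsqm⟩ := Cfsg.Agent.S3773.class2_ids (K := K) (fun x y g => hWc _ (hcm x y) g)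
  have hmk : ∀ w : W, (QuotientGroup.mk w : W ⧸ R) * QuotientGroup.mk w = 1 := by
    intro w
    rw [← QuotientGroup.mk_mul, QuotientGroup.eq_one_iff]
    exact ⟨w, by simp [pow_two]⟩
  have key := Cfsg.Agent.S3773.lemQA (K := K) (A := Additive (W ⧸ R))
    (fun a => by
      apply Additive.toMul.injective
      show a.toMul * a.toMul = 1
      obtain ⟨w, hw⟩ := QuotientGroup.mk_surjective a.toMul
      rw [← hw]; exact hmk w)
    (fun x => Additive.ofMul (QuotientGroup.mk (⟨x ^ 2, hsq x⟩ : W) : W ⧸ R))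
    (fun x y => Additive.ofMul (QuotientGroup.mk (⟨⁅x, y⁆, hcm x y⟩ : W) : W ⧸ R))
    (fun x x' y => congrArg (fun w : W => Additive.ofMul (QuotientGroup.mk w : W ⧸ R))
      (Subtype.ext (hb1 x x' y) :
      (⟨⁅x * x', y⁆, hcm _ _⟩ : W) = ⟨⁅x, y⁆, hcm _ _⟩ * ⟨⁅x', y⁆, hcm _ _⟩))
    (fun x y y' => congrArg (fun w : W => Additive.ofMul (QuotientGroup.mk w : W ⧸ R))
      (Subtype.ext (hb2 x y y') :
      (⟨⁅x, y * y'⁆, hcm _ _⟩ : W) = ⟨⁅x, y⁆, hcm _ _⟩ * ⟨⁅x, y'⁆, hcm _ _⟩))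
    (fun x y => congrArg (fun w : W => Additive.ofMul (QuotientGroup.mk w : W ⧸ R))
      (Subtype.ext (hsqm x y) :
      (⟨(x * y) ^ 2, hsq _⟩ : W) = ⟨x ^ 2, hsq _⟩ * ⟨y ^ 2, hsq _⟩ * ⟨⁅y, x⁆, hcm _ _⟩))
    (fun x => congrArg (fun w : W => Additive.ofMul (QuotientGroup.mk w : W ⧸ R))
      (Subtype.ext (by simp [commutatorElement_def]) :
      (⟨⁅x⁻¹, x⁆, hcm _ _⟩ : W) = 1))
    W
    (fun c hc x => congrArg (fun w : W => Additive.ofMul (QuotientGroup.mk w : W ⧸ R))
      (Subtype.ext (commutatorElement_eq_one_iff_mul_comm.mpr (hWc c hc x)) :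
      (⟨⁅c, x⁆, hcm _ _⟩ : W) = 1))
    h2
  have hN : Nat.card {x : K // Additive.ofMul (QuotientGroup.mk (⟨x ^ 2, hsq x⟩ : W) : W ⧸ R) = 0}
      ≤ Nat.card W := by
    apply Nat.card_mono (Set.toFinite (W : Set K))
    intro x hx
    have hx1 : (QuotientGroup.mk (⟨x ^ 2, hsq x⟩ : W) : W ⧸ R) = 1 := Additive.ofMul.injective hx
    rw [QuotientGroup.eq_one_iff] at hx1
    obtain ⟨w, hw⟩ := hx1
    have hw' : (w : K) ^ 2 = x ^ 2 := by
      have := congrArg Subtype.val hw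
      simpa using this
    have hc := hWc _ (inv_mem w.2) x
    have h1 : (x * (w : K)⁻¹) ^ 2 = 1 := by
      rw [pow_two]
      calc x * (w : K)⁻¹ * (x * (w : K)⁻¹) = x * ((w : K)⁻¹ * x) * (w : K)⁻¹ := by group
        _ = x * (x * (w : K)⁻¹) * (w : K)⁻¹ := by rw [hc]
        _ = x ^ 2 * ((w : K) ^ 2)⁻¹ := by rw [pow_two, pow_two]; group
        _ = 1 := by rw [hw', mul_inv_cancel]
    have h2' := hI _ h1
    have : x = x * (w : K)⁻¹ * w := by group
    rw [this]; exact mul_mem h2' w.2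
  have hT : Nat.card (Additive (W ⧸ R)) ≤ 4 := by
    have e1 : Nat.card (Additive (W ⧸ R)) = R.index := rfl
    have e2 := Subgroup.card_mul_index R
    have e3 := Subgroup.card_mul_index (powMonoidHom 2 : W →* W).ker
    rw [Subgroup.index_ker] at e3
    have e4 : Nat.card R * R.index = Nat.card R * Nat.card (powMonoidHom 2 : W →* W).ker := by
      rw [e2, mul_comm]; exact e3.symm
    have e5 : R.index = Nat.card (powMonoidHom 2 : W →* W).ker :=
      Nat.eq_of_mul_eq_mul_left Nat.card_pos e4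
    rw [e1, e5, ← Subgroup.card_map_of_injective (Subgroup.subtype_injective W)]
    apply hΩ _ (Subgroup.map_subtype_le _)
    rintro a ⟨w, hw, rfl⟩
    have : w ^ 2 = 1 := hw
    have := congrArg Subtype.val this
    simpa using this
  have hW : 0 < Nat.card W := Nat.card_pos
  have h3 : Nat.card K * Nat.card W ≤ (16 * Nat.card W) * Nat.card W := by
    calc Nat.card K * Nat.card W ≤ _ := key
      _ ≤ Nat.card W ^ 2 * 4 ^ 2 := Nat.mul_le_mul (Nat.pow_le_pow_left hN 2) (Nat.pow_le_pow_left hT 2)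
      _ = (16 * Nat.card W) * Nat.card W := by ring
  exact Nat.le_of_mul_le_mul_right h3 hW

theorem five_le {X : Type*} [Group X] [Finite X] (E A : Subgroup X) (s t t' : X) (hs : s ∈ E)
    (ht : t ∈ E) (ht' : t' ∈ E) (hsA : s ∉ A) (htA : t ∈ A) (ht'A : t' ∈ A) (ht1 : t ≠ 1)
    (ht'1 : t' ≠ 1) (htt' : t' ≠ t) : 5 ≤ Nat.card E := by
  classical
  have hstA : s * t ∉ A := fun h => hsA (by
    have := mul_mem h (inv_mem htA); simpa using this)
  have h1A : (1 : X) ∈ A := one_mem A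
  have hsub : (({1, t, t', s, s * t} : Finset X) : Set X) ⊆ (E : Set X) := by
    intro x hx
    simp only [Finset.coe_insert, Finset.coe_singleton, Set.mem_insert_iff,
      Set.mem_singleton_iff] at hx
    rcases hx with rfl | rfl | rfl | rfl | rfl
    exacts [one_mem E, ht, ht', hs, mul_mem hs ht]
  have h5 : ({1, t, t', s, s * t} : Finset X).card = 5 := by
    rw [Finset.card_insert_of_notMem, Finset.card_insert_of_notMem, Finset.card_insert_of_notMem,
      Finset.card_insert_of_notMem, Finset.card_singleton]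
    · simp only [Finset.mem_singleton]
      intro h
      apply ht1
      have : s * 1 = s * t := by rw [mul_one]; exact h
      exact (mul_left_cancel this).symm
    · simp only [Finset.mem_insert, Finset.mem_singleton]
      rintro (h | h)
      · rw [h] at ht'A; exact hsA ht'A
      · rw [h] at ht'A; exact hstA ht'A
    · simp only [Finset.mem_insert, Finset.mem_singleton]
      rintro (h | h | h)
      · exact htt' h.symm
      · rw [h] at htA; exact hsA htA
      · rw [h] at htA; exact hstA htA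
    · simp only [Finset.mem_insert, Finset.mem_singleton]
      rintro (h | h | h | h)
      · exact ht1 h.symm
      · exact ht'1 h.symm
      · rw [h] at h1A; exact hsA h1A
      · rw [h] at h1A; exact hstA h1A
  have := Set.ncard_le_ncard hsub (Set.toFinite _)
  rw [Set.ncard_coe_finset, h5, ← Nat.card_coe_set_eq] at this
  exact this

theorem core {X : Type*} [Group X] [Finite X] (d e₁ e₂ : X) (he₂ : e₂ ∈ Subgroup.zpowers d)
    (h21 : e₂ ^ 3 = e₁) (h13 : e₁ ^ 3 = 1) (P : Subgroup X) (hP : IsPGroup 2 P)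
    (hdP : d ∈ Subgroup.normalizer (P : Set X)) (hfpf : P ⊓ Subgroup.centralizer {d} = ⊥)
    (hE : ∀ V : Subgroup X, V ≤ P → (∀ a ∈ V, ∀ b ∈ V, a * b = b * a) → (∀ a ∈ V, a ^ 2 = 1) →
      Nat.card V ≤ 4)
    (hmin : ∀ Q : Subgroup X, Q ≤ P → Q ≠ P → d ∈ Subgroup.normalizer (Q : Set X) →
      e₁ ∈ Subgroup.centralizer (Q : Set X)) :
    e₁ ∈ Subgroup.centralizer (P : Set X) := by
  by_contra hnc
  have he₁ : e₁ ∈ Subgroup.zpowers d := h21 ▸ pow_mem he₂ 3
  have hde : e₁ * d = d * e₁ := by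
    obtain ⟨k, rfl⟩ := Subgroup.mem_zpowers_iff.mp he₁
    exact (Commute.zpow_self d k).eq
  have hde' : d⁻¹ * e₁ = e₁ * d⁻¹ := by
    calc d⁻¹ * e₁ = d⁻¹ * (e₁ * d) * d⁻¹ := by group
      _ = d⁻¹ * (d * e₁) * d⁻¹ := by rw [hde]
      _ = e₁ * d⁻¹ := by group
  have hnorm : ∀ g ∈ Subgroup.zpowers d, g ∈ Subgroup.normalizer (P : Set X) :=
    fun g hg => (Subgroup.zpowers_le.mpr hdP) hg
  have he₁N := hnorm e₁ he₁
  have he₂N := hnorm e₂ he₂
  have hconj : ∀ g ∈ Subgroup.normalizer (P : Set X), ∀ x ∈ P, g * x * g⁻¹ ∈ P :=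
    fun g hg x hx => (Subgroup.mem_normalizer_iff.mp hg x).mp hx
  have hconj' : ∀ g ∈ Subgroup.normalizer (P : Set X), ∀ x ∈ P, g⁻¹ * x * g ∈ P := by
    intro g hg x hx
    have := hconj g⁻¹ (inv_mem hg) x hx
    simpa using this
  -- Step A
  have hPne : P ≠ ⊥ := by
    rintro rfl
    apply hnc
    rw [Subgroup.mem_centralizer_iff]
    intro h hh
    rw [SetLike.mem_coe, Subgroup.mem_bot] at hh
    rw [hh]; simp
  obtain ⟨a, ha⟩ := (IsPGroup.iff_card).mp hP
  have ha0 : a ≠ 0 := by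
    rintro rfl
    exact hPne (Subgroup.card_eq_one.mp (by simpa using ha))
  obtain ⟨k, rfl⟩ : ∃ k, a = k + 1 := ⟨a - 1, by omega⟩
  have : Fact (Nat.Prime 2) := ⟨Nat.prime_two⟩
  obtain ⟨K, hK⟩ := Sylow.exists_subgroup_card_pow_prime (G := P) 2 (n := k)
    (by rw [ha]; exact pow_dvd_pow 2 (Nat.le_succ k))
  have hKi : K.index = 2 := by
    have := Subgroup.card_mul_index K
    rw [hK, ha, pow_succ] at this
    exact Nat.eq_of_mul_eq_mul_left (by positivity) this
  have hsqK : ∀ x : P, x ^ 2 ∈ K := Subgroup.sq_mem_of_index_two hKi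
  obtain ⟨S, hS⟩ : ∃ S, S = Subgroup.closure {y : X | ∃ x ∈ P, y = x ^ 2} := ⟨_, rfl⟩
  have hSP : S ≤ P := by
    rw [hS, Subgroup.closure_le]
    rintro y ⟨x, hx, rfl⟩
    exact pow_mem hx 2
  have hSK : ∀ y ∈ S, ∀ hy : y ∈ P, (⟨y, hy⟩ : P) ∈ K := by
    have : S ≤ K.map P.subtype := by
      rw [hS, Subgroup.closure_le]
      rintro y ⟨x, hx, rfl⟩
      exact ⟨⟨x, hx⟩ ^ 2, hsqK ⟨x, hx⟩, rfl⟩
    intro y hy hyP
    obtain ⟨z, hz, hzy⟩ := this hy
    have : z = ⟨y, hyP⟩ := Subtype.ext hzy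
    rwa [← this]
  have hSne : S ≠ P := by
    intro h
    have : K = ⊤ := by
      rw [eq_top_iff]
      intro x _
      exact hSK x.1 (h ▸ x.2) x.2
    rw [this, Subgroup.index_top] at hKi
    omega
  have hdS : d ∈ Subgroup.normalizer (S : Set X) := by
    rw [hS]
    apply norm_closure
    · rintro y ⟨x, hx, rfl⟩
      exact ⟨d * x * d⁻¹, hconj d hdP x hx, by rw [conj_pow]⟩
    · rintro y ⟨x, hx, rfl⟩
      refine ⟨d⁻¹ * x * d, hconj' d hdP x hx, ?_⟩
      have := conj_pow (a := d⁻¹) (b := x) (i := 2)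
      simpa using this.symm
  have hSc := hmin S hSP hSne hdS
  obtain ⟨A, hA⟩ : ∃ A, A = P ⊓ Subgroup.centralizer {e₁} := ⟨_, rfl⟩
  have hAmem : ∀ x, x ∈ A ↔ x ∈ P ∧ x * e₁ = e₁ * x := by
    intro x
    rw [hA, Subgroup.mem_inf, Subgroup.mem_centralizer_singleton_iff]
  have hSA : S ≤ A := fun y hy =>
    (hAmem y).mpr ⟨hSP hy, (Subgroup.mem_centralizer_iff.mp hSc y hy)⟩
  have hsqA : ∀ x ∈ P, x ^ 2 ∈ A := fun x hx =>
    hSA (hS ▸ Subgroup.subset_closure ⟨x, hx, rfl⟩)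
  have hcmA : ∀ x ∈ P, ∀ y ∈ P, x * y * x⁻¹ * y⁻¹ ∈ A := by
    intro x hx y hy
    have : x * y * x⁻¹ * y⁻¹ = x ^ 2 * (x⁻¹ * y) ^ 2 * (y⁻¹) ^ 2 := by
      simp only [pow_two]; group
    rw [this]
    exact mul_mem (mul_mem (hsqA x hx) (hsqA _ (mul_mem (inv_mem hx) hy))) (hsqA _ (inv_mem hy))
  have hAP : A ≤ P := fun x hx => ((hAmem x).mp hx).1
  -- Step B
  obtain ⟨Q, hQ⟩ : ∃ Q, Q = Subgroup.closure {c : X | ∃ y ∈ P, c = y⁻¹ * (e₁ * y * e₁⁻¹)} :=
    ⟨_, rfl⟩
  have hQP : Q ≤ P := by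
    rw [hQ, Subgroup.closure_le]
    rintro c ⟨y, hy, rfl⟩
    exact mul_mem (inv_mem hy) (hconj e₁ he₁N y hy)
  have hdQ : d ∈ Subgroup.normalizer (Q : Set X) := by
    rw [hQ]
    apply norm_closure
    · rintro c ⟨y, hy, rfl⟩
      refine ⟨d * y * d⁻¹, hconj d hdP y hy, ?_⟩
      have h2 : e₁⁻¹ * d⁻¹ = d⁻¹ * e₁⁻¹ := by rw [← mul_inv_rev, ← mul_inv_rev, hde]
      calc d * (y⁻¹ * (e₁ * y * e₁⁻¹)) * d⁻¹
          = d * y⁻¹ * d⁻¹ * (d * e₁) * y * (e₁⁻¹ * d⁻¹) := by group
        _ = d * y⁻¹ * d⁻¹ * (e₁ * d) * y * (d⁻¹ * e₁⁻¹) := by rw [hde, h2]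
        _ = (d * y * d⁻¹)⁻¹ * (e₁ * (d * y * d⁻¹) * e₁⁻¹) := by group
    · rintro c ⟨y, hy, rfl⟩
      refine ⟨d⁻¹ * y * d, hconj' d hdP y hy, ?_⟩
      have h2 : e₁⁻¹ * d = d * e₁⁻¹ := by
        calc e₁⁻¹ * d = e₁⁻¹ * (d * e₁) * e₁⁻¹ := by group
          _ = e₁⁻¹ * (e₁ * d) * e₁⁻¹ := by rw [hde]
          _ = d * e₁⁻¹ := by group
      calc d⁻¹ * (y⁻¹ * (e₁ * y * e₁⁻¹)) * d
          = d⁻¹ * y⁻¹ * d * (d⁻¹ * e₁) * y * (e₁⁻¹ * d) := by group
        _ = d⁻¹ * y⁻¹ * d * (e₁ * d⁻¹) * y * (d * e₁⁻¹) := by rw [hde', h2]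
        _ = (d⁻¹ * y * d)⁻¹ * (e₁ * (d⁻¹ * y * d) * e₁⁻¹) := by group
  have hQeq : Q = P := by
    by_contra hne
    have hQc := hmin Q hQP hne hdQ
    apply hnc
    rw [Subgroup.mem_centralizer_iff]
    intro y hy
    have hcQ : y⁻¹ * (e₁ * y * e₁⁻¹) ∈ Q := hQ ▸ Subgroup.subset_closure ⟨y, hy, rfl⟩
    have hcc : (y⁻¹ * (e₁ * y * e₁⁻¹)) * e₁ = e₁ * (y⁻¹ * (e₁ * y * e₁⁻¹)) :=
      Subgroup.mem_centralizer_iff.mp hQc _ hcQ
    have h3 := c3 e₁ y (y⁻¹ * (e₁ * y * e₁⁻¹)) h13 (by group) (by rw [← hcc]; group)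
    have h1 := two_three P hP _ (hQP hcQ) h3
    have h4 : e₁ * y * e₁⁻¹ = y := by
      have := congrArg (y * ·) h1
      simpa [mul_assoc] using this
    calc y * e₁ = (e₁ * y * e₁⁻¹) * e₁ := by rw [h4]
      _ = e₁ * y := by group
  -- Step C
  have hAc : ∀ a ∈ A, ∀ g ∈ P, g * a = a * g := by
    intro a ha g hg
    rw [← hQeq, hQ] at hg
    induction hg using Subgroup.closure_induction with
    | mem c hc =>
      obtain ⟨y, hy, rfl⟩ := hc
      have haP := hAP ha
      have hae := ((hAmem a).mp ha).2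
      have h1 : y * a * y⁻¹ ∈ A := by
        have : y * a * y⁻¹ = (y * a * y⁻¹ * a⁻¹) * a := by group
        rw [this]; exact mul_mem (hcmA y hy a haP) ha
      have h2 := ((hAmem _).mp h1).2
      have hae' : e₁⁻¹ * a = a * e₁⁻¹ := by
        calc e₁⁻¹ * a = e₁⁻¹ * (a * e₁) * e₁⁻¹ := by group
          _ = e₁⁻¹ * (e₁ * a) * e₁⁻¹ := by rw [hae]
          _ = a * e₁⁻¹ := by group
      calc y⁻¹ * (e₁ * y * e₁⁻¹) * a = y⁻¹ * e₁ * y * (e₁⁻¹ * a) := by group
        _ = y⁻¹ * e₁ * y * (a * e₁⁻¹) := by rw [hae']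
        _ = y⁻¹ * (e₁ * (y * a * y⁻¹)) * y * e₁⁻¹ := by group
        _ = y⁻¹ * (y * a * y⁻¹ * e₁) * y * e₁⁻¹ := by rw [h2]
        _ = a * (y⁻¹ * (e₁ * y * e₁⁻¹)) := by group
    | one => simp
    | mul x y _ _ hx hy => rw [mul_assoc, hy, ← mul_assoc, hx, mul_assoc]
    | inv x _ hx =>
      calc x⁻¹ * a = x⁻¹ * (a * x) * x⁻¹ := by group
        _ = x⁻¹ * (x * a) * x⁻¹ := by rw [hx]
        _ = a * x⁻¹ := by group
  -- Step D
  have he₂9 : e₂ ^ 9 = 1 := by rw [show 9 = 3 * 3 from rfl, pow_mul, h21, h13]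
  obtain ⟨m, hm⟩ := nine' P e₂ he₂N he₂9
  rw [h21, ← hA] at hm
  have hAne : A ≠ P := by
    intro h
    apply hnc
    rw [Subgroup.mem_centralizer_iff]
    intro y hy
    exact ((hAmem y).mp (h ▸ hy)).2
  have hdA : ∀ t ∈ A, d * t * d⁻¹ ∈ A := by
    intro t ht
    have h1 := (hAmem t).mp ht
    rw [hAmem]
    refine ⟨hconj d hdP t h1.1, ?_⟩
    calc d * t * d⁻¹ * e₁ = d * t * (d⁻¹ * e₁) := by group
      _ = d * t * (e₁ * d⁻¹) := by rw [hde']
      _ = d * (t * e₁) * d⁻¹ := by group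
      _ = d * (e₁ * t) * d⁻¹ := by rw [h1.2]
      _ = (d * e₁) * t * d⁻¹ := by group
      _ = (e₁ * d) * t * d⁻¹ := by rw [hde]
      _ = e₁ * (d * t * d⁻¹) := by group
  have hfix : ∀ t ∈ P, d * t * d⁻¹ = t → t = 1 := by
    intro t ht h
    have : t ∈ P ⊓ Subgroup.centralizer {d} :=
      ⟨ht, Subgroup.mem_centralizer_singleton_iff.mpr (by
        calc t * d = (d * t * d⁻¹) * d := by rw [h]
          _ = d * t := by group)⟩
    rw [hfpf] at this
    exact Subgroup.mem_bot.mp this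
  -- Step E
  have hI : ∀ s ∈ P, s ^ 2 = 1 → s ∈ A := by
    intro s hs hs2
    by_contra hsA
    have hE1 : ∀ t ∈ A, t ^ 2 = 1 → t = 1 := by
      intro t ht ht2
      by_contra ht1
      have htP := hAP ht
      have ht' := hdA t ht
      have ht'2 : (d * t * d⁻¹) ^ 2 = 1 := by rw [conj_pow, ht2]; simp
      have hne : d * t * d⁻¹ ≠ t := fun h => ht1 (hfix t htP h)
      have hne1 : d * t * d⁻¹ ≠ 1 := by
        intro h
        apply ht1
        have : t = d⁻¹ * (d * t * d⁻¹) * d := by group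
        rw [this, h]; group
      have hcs : ∀ a ∈ A, a * s = s * a := fun a ha => (hAc a ha s hs).symm
      obtain ⟨hc, h2⟩ := elem_closure ({s, t, d * t * d⁻¹} : Set X) (by
          intro a ha b hb
          simp only [Set.mem_insert_iff, Set.mem_singleton_iff] at ha hb
          rcases ha with rfl | rfl | rfl <;> rcases hb with rfl | rfl | rfl
          · rfl
          · exact hAc _ ht _ hs
          · exact hAc _ ht' _ hs
          · exact (hAc _ ht _ hs).symm
          · rfl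
          · exact hAc _ ht' _ htP
          · exact (hAc _ ht' _ hs).symm
          · exact (hAc _ ht' _ htP).symm
          · rfl) (by
          intro a ha
          simp only [Set.mem_insert_iff, Set.mem_singleton_iff] at ha
          rcases ha with rfl | rfl | rfl
          · exact hs2
          · exact ht2
          · exact ht'2)
      have hle : Subgroup.closure ({s, t, d * t * d⁻¹} : Set X) ≤ P := by
        rw [Subgroup.closure_le]
        intro a ha
        simp only [Set.mem_insert_iff, Set.mem_singleton_iff] at ha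
        rcases ha with rfl | rfl | rfl
        exacts [hs, htP, hAP ht']
      have hcard := hE _ hle hc h2
      have h5 := five_le (Subgroup.closure ({s, t, d * t * d⁻¹} : Set X)) A s t (d * t * d⁻¹)
        (Subgroup.subset_closure (by simp)) (Subgroup.subset_closure (by simp))
        (Subgroup.subset_closure (by simp)) hsA ht ht' ht1 hne1 hne
      omega
    have hE2 : ∀ k : ℕ, ∀ a ∈ A, a ^ (2 ^ k) = 1 → a = 1 := by
      intro k
      induction k with
      | zero => intro a _ h; simpa using h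
      | succ k ih =>
        intro a ha h
        have : (a ^ 2) ^ (2 ^ k) = 1 := by rw [← pow_mul, ← pow_succ']; exact h
        exact hE1 a ha (ih (a ^ 2) (pow_mem ha 2) this)
    have hA1 : ∀ a ∈ A, a = 1 := by
      intro a ha
      obtain ⟨k, hk⟩ := hP ⟨a, hAP ha⟩
      have hk' : a ^ (2 ^ k) = 1 := by
        have := congrArg Subtype.val hk
        simpa using this
      exact hE2 k a ha hk'
    have hP2 : ∀ x ∈ P, x ^ 2 = 1 := fun x hx => hA1 _ (hsqA x hx)
    have hPc : ∀ x ∈ P, ∀ y ∈ P, x * y = y * x := by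
      intro x hx y hy
      have := hA1 _ (hcmA x hx y hy)
      calc x * y = (x * y * x⁻¹ * y⁻¹) * (y * x) := by group
        _ = y * x := by rw [this, one_mul]
    have hP4 := hE P le_rfl hPc hP2
    have hAcard : Nat.card A = 1 := by
      rw [Subgroup.card_eq_one]; exact (Subgroup.eq_bot_iff_forall A).mpr hA1
    rw [hAcard] at hm
    have hP1 : Nat.card P = 1 := by omega
    have hPb := Subgroup.card_eq_one.mp hP1
    rw [hPb] at hs
    rw [Subgroup.mem_bot.mp hs] at hsA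
    exact hsA (one_mem A)
  -- Step F
  have key := lemQ2 (K := P) hP (A.subgroupOf P)
    (by
      intro w hw x
      apply Subtype.ext
      exact (hAc w.1 (Subgroup.mem_subgroupOf.mp hw) x.1 x.2).symm)
    (by
      intro x
      rw [Subgroup.mem_subgroupOf]
      exact hsqA x.1 x.2)
    (by
      intro x y
      rw [Subgroup.mem_subgroupOf]
      exact hcmA x.1 x.2 y.1 y.2)
    (by
      intro x hx
      rw [Subgroup.mem_subgroupOf]
      apply hI x.1 x.2
      have := congrArg Subtype.val hx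
      simpa using this)
    (by
      intro V hV h2
      rw [← Subgroup.card_map_of_injective (Subgroup.subtype_injective P)]
      apply hE _ (Subgroup.map_subtype_le _)
      · rintro a ⟨a', ha', rfl⟩ b ⟨b', hb', rfl⟩
        exact (hAc a'.1 (Subgroup.mem_subgroupOf.mp (hV ha')) b'.1 b'.2).symm
      · rintro a ⟨a', ha', rfl⟩
        have := congrArg Subtype.val (h2 a' ha')
        simpa using this)
  have hcardW : Nat.card (A.subgroupOf P) = Nat.card A :=
    Nat.card_congr (Subgroup.subgroupOfEquivOfLe hAP).toEquiv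
  rw [hcardW] at key
  obtain ⟨b, hb⟩ := (IsPGroup.iff_card).mp (hP.to_le hAP)
  have hlt : Nat.card A < Nat.card P := by
    by_contra h
    push Not at h
    exact hAne (Subgroup.eq_of_le_of_card_ge hAP h)
  rw [ha, hb] at hlt key hm
  have hbk : b < k + 1 := (Nat.pow_lt_pow_iff_right (by norm_num : 1 < 2)).mp hlt
  obtain ⟨j, hj⟩ : ∃ j, k + 1 = b + j := ⟨k + 1 - b, by omega⟩
  have hj1 : 1 ≤ j := by omega
  rw [hj, pow_add] at key hm
  have h16 : 2 ^ j ≤ 16 := by
    have : 2 ^ b * 2 ^ j ≤ 2 ^ b * 16 := by rw [mul_comm (2 ^ b) 16]; exact key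
    exact Nat.le_of_mul_le_mul_left this (by positivity)
  have hj4 : j ≤ 4 := by
    by_contra h
    push Not at h
    have : 2 ^ 5 ≤ 2 ^ j := Nat.pow_le_pow_right (by norm_num) h
    omega
  have h9 : 9 ∣ 2 ^ b * (2 ^ j - 1) := ⟨m, by
    have : 1 ≤ 2 ^ j := Nat.one_le_two_pow
    rw [Nat.mul_sub, mul_one]; omega⟩
  have hcop : Nat.Coprime 9 (2 ^ b) := Nat.Coprime.pow_right b (by norm_num)
  have h9' : 9 ∣ 2 ^ j - 1 := hcop.dvd_of_dvd_mul_left h9
  interval_cases j <;> revert h9' <;> decide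

/-- Let d be a non-identity 3-element of a finite group and P a 2-subgroup normalized by d on which ⟨d⟩ acts faithfully (no non-identity power of d centralizes P) and without non-identity fixed points (C_P(d) = 1). If every abelian subgroup of P has 2-rank at most 2, then d has order 3. -/
theorem result {X : Type*} [Group X] [Finite X] (d : X) (n : ℕ) (hn : 1 ≤ n) (hd : orderOf d = 3 ^ n) (P : Subgroup X) (hP : IsPGroup 2 P) (hdP : d ∈ Subgroup.normalizer (P : Set X)) (hfaith : Subgroup.zpowers d ⊓ Subgroup.centralizer (P : Set X) = ⊥) (hfpf : P ⊓ Subgroup.centralizer {d} = ⊥) (hrank : ∀ V : Subgroup X, V ≤ P → IsMulCommutative V → Cfsg.PRankLE 2 2 V) : orderOf d = 3 := by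
  by_contra hne
  have hn2 : 2 ≤ n := by
    by_contra h
    push Not at h
    have : n = 1 := by omega
    rw [this] at hd
    exact hne (by simpa using hd)
  obtain ⟨m, rfl⟩ : ∃ m, n = m + 2 := ⟨n - 2, by omega⟩
  have h21 : (d ^ (3 ^ m)) ^ 3 = d ^ (3 ^ (m + 1)) := by rw [← pow_mul, ← pow_succ]
  have h13 : (d ^ (3 ^ (m + 1))) ^ 3 = 1 := by
    rw [← pow_mul, ← pow_succ, ← hd]; exact pow_orderOf_eq_one d
  have he1 : d ^ (3 ^ (m + 1)) ≠ 1 := by
    intro h
    have h1 := orderOf_dvd_of_pow_eq_one h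
    rw [hd] at h1
    have h2 := Nat.le_of_dvd (by positivity) h1
    have h3 : 3 ^ (m + 1) < 3 ^ (m + 2) := Nat.pow_lt_pow_right (by norm_num) (by omega)
    omega
  have hE : ∀ V : Subgroup X, V ≤ P → (∀ a ∈ V, ∀ b ∈ V, a * b = b * a) → (∀ a ∈ V, a ^ 2 = 1) →
      Nat.card V ≤ 4 := by
    intro V hV hc h2
    have := hrank V hV ⟨⟨fun a b => Subtype.ext (hc a.1 a.2 b.1 b.2)⟩⟩ ⊤
      ⟨⟨fun a b => Subtype.ext (Subtype.ext (hc a.1.1 a.1.2 b.1.1 b.1.2))⟩⟩
      (fun a _ => Subtype.ext (h2 a.1 a.2))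
    rw [Subgroup.card_top] at this
    simpa using this
  have main : ∀ (k : ℕ) (Q : Subgroup X), Q ≤ P → Nat.card Q ≤ k →
      d ∈ Subgroup.normalizer (Q : Set X) → d ^ (3 ^ (m + 1)) ∈ Subgroup.centralizer (Q : Set X) := by
    intro k
    induction k with
    | zero =>
      intro Q _ hc _
      have := Nat.card_pos (α := Q)
      omega
    | succ k ih =>
      intro Q hQP hc hdQ
      apply core d (d ^ (3 ^ (m + 1))) (d ^ (3 ^ m)) (Subgroup.pow_mem _ (Subgroup.mem_zpowers d) _)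
        h21 h13 Q (hP.to_le hQP) hdQ
      · rw [eq_bot_iff, ← hfpf]; exact inf_le_inf_right _ hQP
      · intro V hV; exact hE V (hV.trans hQP)
      · intro Q' hQ' hne' hdQ'
        apply ih Q' (hQ'.trans hQP) _ hdQ'
        have : Nat.card Q' < Nat.card Q := by
          by_contra h
          push Not at h
          exact hne' (Subgroup.eq_of_le_of_card_ge hQ' h)
        omega
  have hc := main (Nat.card P) P le_rfl le_rfl hdP
  have hmem : d ^ (3 ^ (m + 1)) ∈ Subgroup.zpowers d ⊓ Subgroup.centralizer (P : Set X) :=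
    ⟨Subgroup.pow_mem _ (Subgroup.mem_zpowers d) _, hc⟩
  rw [hfaith] at hmem
  exact he1 (Subgroup.mem_bot.mp hmem)

end Cfsg.Agent.S3738
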