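import Cfsg.Statements.S3739
import Mathlib
import Cfsg.Agent.Lib.helper1.Fitting
import Cfsg.Agent.Lib.helper20.Ito
import Cfsg.Agent.S3738
import Cfsg.Agent.Lib.helper10.ConjBasic

set_option autoImplicit false
open Cfsg

namespace Cfsg.Agent.S3739

theorem exists_pow_prime {X : Type*} [Group X] (p : ℕ) : ∀ (k : ℕ) (x : X), x ≠ 1 →
    x ^ (p ^ k) = 1 → ∃ m : ℕ, x ^ m ≠ 1 ∧ (x ^ m) ^ p = 1 := by
  intro k
  induction k with
  | zero =>
    intro x hx h
    rw [pow_zero, pow_one] at h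
    exact absurd h hx
  | succ k ih =>
    intro x hx h
    by_cases h1 : x ^ p = 1
    · exact ⟨1, by rwa [pow_one], by rwa [pow_one]⟩
    · obtain ⟨m, hm1, hm2⟩ := ih (x ^ p) h1 (by rw [← pow_mul, ← pow_succ']; exact h)
      exact ⟨p * m, by rwa [pow_mul], by rwa [pow_mul]⟩

theorem cent_iff {X : Type*} [Group X] (a x : X) :
    x ∈ Subgroup.centralizer ({a} : Set X) ↔ a * x = x * a := by
  rw [Subgroup.mem_centralizer_iff]
  constructor
  · intro h; exact h a rfl
  · intro h b hb; rw [Set.mem_singleton_iff] at hb; rw [hb]; exact h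

theorem s1 {Q : Type*} [Group Q] [Finite Q] (σ : Q →* Q) (hσ : ∀ y, σ y = y → y = 1) (z : Q) :
    ∃ y, y⁻¹ * σ y = z := by
  have hinj : Function.Injective (fun y : Q => y⁻¹ * σ y) := by
    intro y y' h
    have h' : y⁻¹ * σ y = y'⁻¹ * σ y' := h
    have h1 : σ (y' * y⁻¹) = y' * y⁻¹ := by
      rw [map_mul, map_inv]
      have e : σ y' = y' * (y⁻¹ * σ y) := by rw [h']; group
      rw [e]; group
    have h2 := hσ _ h1
    exact (mul_inv_eq_one.mp h2).symm
  exact (Finite.injective_iff_surjective.mp hinj) z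

theorem s2 {Q : Type*} [Group Q] [Finite Q] (σ : Q →* Q) (hσ : ∀ y, σ y = y → y = 1)
    (h3 : ∀ y, σ (σ (σ y)) = y) (y : Q) : y * σ y * σ (σ y) = 1 := by
  obtain ⟨x, rfl⟩ := s1 σ hσ y
  simp only [map_mul, map_inv, h3]
  group

theorem s3 {Q : Type*} [Group Q] [Finite Q] (σ : Q →* Q) (hσ : ∀ y, σ y = y → y = 1)
    (f q : Q) (h : f = q * σ f * q⁻¹) : f = 1 := by
  obtain ⟨y, hy⟩ := s1 σ hσ q
  have hy' : σ y = y * q := by rw [← hy]; group
  have hf : σ f = q⁻¹ * f * q := by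
    have e : q⁻¹ * f * q = q⁻¹ * (q * σ f * q⁻¹) * q := by rw [← h]
    rw [e]; group
  have h1 : σ (y * f * y⁻¹) = y * f * y⁻¹ := by
    rw [map_mul, map_mul, map_inv, hy', hf]; group
  have h2 := hσ _ h1
  calc f = y⁻¹ * (y * f * y⁻¹) * y := by group
    _ = 1 := by rw [h2]; group

theorem al {Q : Type*} [Group Q] [Finite Q] (α β : Q →* Q)
    (hαβ : ∀ y, α (β y) = β (α y)) (hα3 : ∀ y, α (α (α y)) = y) (hβ3 : ∀ y, β (β (β y)) = y)
    (h1 : ∀ y, α y = y → y = 1) (h2 : ∀ y, α (β y) = y → y = 1)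
    (h3 : ∀ y, α (β (β y)) = y → y = 1) (z : Q) : β z = z := by
  have e1 := s2 α h1 hα3 (α (α z))
  simp only [hα3] at e1
  have e2 := s2 (α.comp β) (fun y hy => h2 y (by simpa using hy)) (fun y => by
    simp only [MonoidHom.comp_apply, hαβ, hα3, hβ3]) (α (α z))
  simp only [MonoidHom.comp_apply, hαβ, hα3] at e2
  have e3 : z * α z = β z * β (β (α z)) := by
    have a1 : z * α z = (α (α z))⁻¹ :=
      eq_inv_of_mul_eq_one_right (by rw [← mul_assoc]; exact e1)
    have a2 : β z * β (β (α z)) = (α (α z))⁻¹ :=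
      eq_inv_of_mul_eq_one_right (by rw [← mul_assoc]; exact e2)
    rw [a1, a2]
  have e4 : (β z)⁻¹ * z = α z * (α.comp (β.comp β)) ((β z)⁻¹ * z) * (α z)⁻¹ := by
    simp only [MonoidHom.comp_apply, map_mul, map_inv, hαβ, hβ3]
    have e : β (β (α z)) = (β z)⁻¹ * (z * α z) := by rw [e3]; group
    rw [e]; group
  have e5 := s3 (α.comp (β.comp β)) (fun y hy => h3 y (by simpa using hy)) _ _ e4
  exact inv_mul_eq_one.mp e5

theorem enlarge {X : Type*} [Group X] [Finite X]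
    (hsmall : ∀ E : Subgroup X, (∀ a ∈ E, ∀ b ∈ E, a * b = b * a) → (∀ a ∈ E, a ^ 2 = 1) →
      Nat.card E ≤ 4)
    (A : Subgroup X) (hAc : ∀ a ∈ A, ∀ b ∈ A, a * b = b * a) (hA2 : ∀ a ∈ A, a ^ 2 = 1)
    (hA4 : Nat.card A = 4) (z : X) (hz2 : z ^ 2 = 1) (hzA : ∀ a ∈ A, z * a = a * z) :
    z ∈ A := by
  have hE := Cfsg.Agent.S3738.elem_closure ((A : Set X) ∪ {z}) (by
    rintro a (ha | ha) b (hb | hb)
    · exact hAc a ha b hb
    · rw [Set.mem_singleton_iff] at hb; rw [hb]; exact (hzA a ha).symm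
    · rw [Set.mem_singleton_iff] at ha; rw [ha]; exact hzA b hb
    · rw [Set.mem_singleton_iff] at ha hb; rw [ha, hb]) (by
    rintro a (ha | ha)
    · exact hA2 a ha
    · rw [Set.mem_singleton_iff] at ha; rw [ha]; exact hz2)
  have hle : A ≤ Subgroup.closure ((A : Set X) ∪ {z}) := fun a ha =>
    Subgroup.subset_closure (Or.inl ha)
  have hzE : z ∈ Subgroup.closure ((A : Set X) ∪ {z}) := Subgroup.subset_closure (Or.inr rfl)
  have hc := hsmall _ hE.1 hE.2
  have heq := Subgroup.eq_of_le_of_card_ge hle (by rw [hA4]; exact hc)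
  rw [heq]; exact hzE

theorem four_set {X : Type*} [Group X] [Finite X] (W : Subgroup X) (h4 : Nat.card W = 4)
    (x y z : X) (hx : x ∈ W) (hy : y ∈ W) (hz : z ∈ W) (hx1 : x ≠ 1) (hy1 : y ≠ 1) (hz1 : z ≠ 1)
    (hxy : x ≠ y) (hxz : x ≠ z) (hyz : y ≠ z) (w : X) (hw : w ∈ W) :
    w = 1 ∨ w = x ∨ w = y ∨ w = z := by
  classical
  have hc : ({1, x, y, z} : Finset X).card = 4 := by
    have h1 : (1 : X) ∉ ({x, y, z} : Finset X) := by
      simp only [Finset.mem_insert, Finset.mem_singleton, not_or]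
      exact ⟨hx1.symm, hy1.symm, hz1.symm⟩
    have h2 : x ∉ ({y, z} : Finset X) := by
      simp only [Finset.mem_insert, Finset.mem_singleton, not_or]
      exact ⟨hxy, hxz⟩
    have e := Finset.card_insert_of_notMem h1
    rw [Finset.card_insert_of_notMem h2, Finset.card_pair hyz] at e
    exact e
  have hsub : ((({1, x, y, z} : Finset X)) : Set X) ⊆ (W : Set X) := by
    intro a ha
    rw [Finset.mem_coe] at ha
    simp only [Finset.mem_insert, Finset.mem_singleton] at ha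
    rcases ha with rfl | rfl | rfl | rfl
    · exact one_mem W
    · exact hx
    · exact hy
    · exact hz
  have hW : (W : Set X).ncard = 4 := by
    rw [← Nat.card_coe_set_eq]; exact h4
  have heq := Set.eq_of_subset_of_ncard_le hsub
    (le_of_eq (by rw [hW, Set.ncard_coe_finset, hc]))
  have hw' : w ∈ ((({1, x, y, z} : Finset X)) : Set X) := by rw [heq]; exact hw
  rw [Finset.mem_coe] at hw'
  simpa only [Finset.mem_insert, Finset.mem_singleton] using hw'

theorem conj3 {X : Type*} [Group X] (a y : X) (h : a * a * a = 1) :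
    a * (a * (a * y * a⁻¹) * a⁻¹) * a⁻¹ = y := by
  have h' : a⁻¹ * a⁻¹ * a⁻¹ = 1 := by
    rw [← mul_inv_rev, ← mul_inv_rev, ← mul_assoc, h, inv_one]
  calc a * (a * (a * y * a⁻¹) * a⁻¹) * a⁻¹ = (a * a * a) * y * (a⁻¹ * a⁻¹ * a⁻¹) := by
        simp only [mul_assoc]
    _ = y := by rw [h, h', one_mul, mul_one]

theorem exists_conjHom {X : Type*} [Group X] (Q : Subgroup X) (hQ : Q.Normal) (a : X) :
    ∃ α : ↥Q →* ↥Q, ∀ x : ↥Q, ((α x : ↥Q) : X) = a * x * a⁻¹ :=
  ⟨{ toFun := fun x => ⟨a * x * a⁻¹, hQ.conj_mem x x.2 a⟩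
     map_one' := Subtype.ext (by simp)
     map_mul' := fun x y => Subtype.ext (by simp [mul_assoc]) }, fun x => rfl⟩

theorem main {G : Type*} [Group G] [Finite G]
    (hchar : Subgroup.centralizer (Cfsg.pCore 2 G : Set G) ≤ Cfsg.pCore 2 G)
    (hsix : ∃ g : G, orderOf g = 6) (d : G) (hd1 : d ≠ 1)
    (hd : IsPGroup 3 ↥(Subgroup.zpowers d)) (W : Subgroup G)
    (hWc : ∀ a ∈ W, ∀ b ∈ W, a * b = b * a) (hW2 : ∀ a ∈ W, a ^ 2 = 1) (hW1 : W ≠ ⊥)
    (hdW : ∀ w ∈ W, d * w * d⁻¹ ∈ W)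
    (hfpf : ∀ w ∈ W, d * w = w * d → w = 1)
    (hsmall : ∀ E : Subgroup G, (∀ a ∈ E, ∀ b ∈ E, a * b = b * a) → (∀ a ∈ E, a ^ 2 = 1) →
      Nat.card E ≤ 4) : False := by
  classical
  have hWp : IsPGroup 2 W := fun g => ⟨1, by
    apply Subtype.ext
    simpa using hW2 g g.2⟩
  have pg2 : ∀ V : Subgroup G, (∀ a ∈ V, a ^ 2 = 1) → ∃ k, Nat.card V = 2 ^ k := fun V hV =>
    IsPGroup.iff_card.mp (fun g => ⟨1, by
      apply Subtype.ext
      simpa using hV g g.2⟩)
  have L1 : ∀ V : Subgroup G, V ≤ W → (∀ v ∈ V, d * v * d⁻¹ ∈ V) → Nat.card V ≠ 2 := by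
    intro V hVW hdV hV2
    obtain ⟨y, hy1, hyu⟩ := (Nat.card_eq_two_iff' (1 : V)).mp hV2
    have h1 : (⟨d * y * d⁻¹, hdV y y.2⟩ : V) ≠ 1 := by
      intro h
      have h' : d * (y : G) * d⁻¹ = 1 := congrArg Subtype.val h
      have e : (y : G) = 1 := by
        calc (y : G) = d⁻¹ * (d * y * d⁻¹) * d := by group
          _ = 1 := by rw [h']; group
      exact hy1 (Subtype.ext e)
    have h2 := hyu _ h1
    have h3 : d * (y : G) * d⁻¹ = y := congrArg Subtype.val h2
    have h4 : d * (y : G) = y * d := by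
      calc d * (y : G) = (d * y * d⁻¹) * d := by group
        _ = y * d := by rw [h3]
    exact hy1 (Subtype.ext (hfpf y (hVW y.2) h4))
  have cases4 : ∀ V : Subgroup G, V ≤ W → (∀ v ∈ V, d * v * d⁻¹ ∈ V) →
      Nat.card V = 1 ∨ Nat.card V = 4 := by
    intro V hVW hdV
    obtain ⟨k, hk⟩ := pg2 V (fun a ha => hW2 a (hVW ha))
    have h4 := hsmall V (fun a ha b hb => hWc a (hVW ha) b (hVW hb)) (fun a ha => hW2 a (hVW ha))
    have h2 := L1 V hVW hdV
    rcases k with _ | _ | _ | k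
    · left; rw [hk]; norm_num
    · exact absurd (by rw [hk]; norm_num) h2
    · right; rw [hk]; norm_num
    · exfalso
      have h8 : 8 ≤ Nat.card V := by
        rw [hk]
        exact (Nat.pow_le_pow_right (by norm_num) (by omega) : 2 ^ 3 ≤ 2 ^ (k + 1 + 1 + 1))
      omega
  have hW4 : Nat.card W = 4 := by
    rcases cases4 W le_rfl hdW with h | h
    · exact absurd (Subgroup.card_eq_one.mp h) hW1
    · exact h
  have dich : ∀ V : Subgroup G, V ≤ W → (∀ v ∈ V, d * v * d⁻¹ ∈ V) → V = ⊥ ∨ V = W := by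
    intro V hVW hdV
    rcases cases4 V hVW hdV with h | h
    · left; exact Subgroup.card_eq_one.mp h
    · right; exact Subgroup.eq_of_le_of_card_ge hVW (by rw [h, hW4])
  have F4 : ∀ s : G, s ^ 2 = 1 → (∀ w ∈ W, s * w = w * s) → s ∈ W :=
    fun s hs2 hsc => enlarge hsmall W hWc hW2 hW4 s hs2 hsc
  obtain ⟨Q, hQdef⟩ : ∃ Q : Subgroup G, Q = Cfsg.pCore 2 G := ⟨_, rfl⟩
  rw [← hQdef] at hchar
  have hQn : Q.Normal := by rw [hQdef]; exact Cfsg.Agent.Lib.helper1.pCore_normal 2 G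
  have hQp : IsPGroup 2 Q := by rw [hQdef]; exact Cfsg.Agent.Lib.helper1.pCore_isPGroup 2 G
  have hQne : Q ≠ ⊥ := by
    intro h
    have hdQ : d ∈ Q := hchar (by
      rw [Subgroup.mem_centralizer_iff]
      intro x hx
      have hx' : x ∈ Q := hx
      rw [h, Subgroup.mem_bot] at hx'
      rw [hx', one_mul, mul_one])
    rw [h, Subgroup.mem_bot] at hdQ
    exact hd1 hdQ
  have invQ : ∀ x ∈ Q, x ≠ 1 → ∃ m : ℕ, x ^ m ≠ 1 ∧ (x ^ m) ^ 2 = 1 := by
    intro x hx hx1
    obtain ⟨k, hk⟩ := hQp ⟨x, hx⟩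
    have hk' : x ^ 2 ^ k = 1 := by simpa using congrArg Subtype.val hk
    exact exists_pow_prime 2 k x hx1 hk'
  have hWQ : W ≤ Q := by
    rcases dich (W ⊓ Q) inf_le_left
      (fun v hv => ⟨hdW v hv.1, hQn.conj_mem v hv.2 d⟩) with hV | hV
    · exfalso
      have hP : IsPGroup 2 (W ⊔ Q : Subgroup G) := by
        haveI := hQn
        exact IsPGroup.to_sup_of_normal_right hWp hQp
      obtain ⟨z, hzQ, hz1, hzc⟩ := Cfsg.Agent.Lib.helper20.Ito.nz_lemma (p := 2) (W ⊔ Q) Q hP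
        le_sup_right hQne (fun g _ x hx => hQn.conj_mem x hx g)
      obtain ⟨m, hm1, hm2⟩ := invQ z hzQ hz1
      have hmW : z ^ m ∈ W := F4 (z ^ m) hm2 (fun a ha => by
        have h := hzc a (Subgroup.mem_sup_left ha)
        exact ((Commute.pow_right (show Commute a z from h) m).eq).symm)
      have hmem : z ^ m ∈ W ⊓ Q := ⟨hmW, pow_mem hzQ m⟩
      rw [hV, Subgroup.mem_bot] at hmem
      exact hm1 hmem
    · intro w hw
      rw [← hV] at hw
      exact hw.2
  obtain ⟨Z₁, hZ₁⟩ : ∃ Z₁ : Subgroup G, ∀ x, x ∈ Z₁ ↔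
      (x ∈ Q ∧ (∀ y ∈ Q, x * y = y * x) ∧ x ^ 2 = 1) :=
    ⟨{ carrier := {x | x ∈ Q ∧ (∀ y ∈ Q, x * y = y * x) ∧ x ^ 2 = 1}
       mul_mem' := by
         rintro a b ⟨ha, hac, ha2⟩ ⟨hb, hbc, hb2⟩
         refine ⟨mul_mem ha hb, fun y hy => ?_, ?_⟩
         · rw [mul_assoc, hbc y hy, ← mul_assoc, hac y hy, mul_assoc]
         · rw [(show Commute a b from hac b hb).mul_pow, ha2, hb2, one_mul]
       one_mem' := ⟨one_mem _, fun y _ => by rw [one_mul, mul_one], one_pow 2⟩
       inv_mem' := by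
         rintro a ⟨ha, hac, ha2⟩
         refine ⟨inv_mem ha, fun y hy => ?_, by rw [inv_pow, ha2, inv_one]⟩
         have h := hac y hy
         calc a⁻¹ * y = a⁻¹ * (y * a) * a⁻¹ := by group
           _ = a⁻¹ * (a * y) * a⁻¹ := by rw [h]
           _ = y * a⁻¹ := by group }, fun x => Iff.rfl⟩
  have hZne : Z₁ ≠ ⊥ := by
    obtain ⟨z, hzQ, hz1, hzc⟩ := Cfsg.Agent.Lib.helper20.Ito.nz_lemma (p := 2) Q Q hQp
      le_rfl hQne (fun g _ x hx => hQn.conj_mem x hx g)
    obtain ⟨m, hm1, hm2⟩ := invQ z hzQ hz1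
    intro h
    have hmem : z ^ m ∈ Z₁ := (hZ₁ _).mpr ⟨pow_mem hzQ m, fun y hy =>
      ((Commute.pow_right (show Commute y z from hzc y hy) m).eq).symm, hm2⟩
    rw [h, Subgroup.mem_bot] at hmem
    exact hm1 hmem
  have hZW : Z₁ ≤ W := by
    intro x hx
    obtain ⟨hxQ, hxc, hx2⟩ := (hZ₁ x).mp hx
    exact F4 x hx2 (fun w hw => hxc w (hWQ hw))
  have hZn : ∀ (g x : G), x ∈ Z₁ → g * x * g⁻¹ ∈ Z₁ := by
    intro g x hx
    obtain ⟨hxQ, hxc, hx2⟩ := (hZ₁ x).mp hx
    refine (hZ₁ _).mpr ⟨hQn.conj_mem x hxQ g, fun y hy => ?_, by rw [conj_pow, hx2]; group⟩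
    have hy' : g⁻¹ * y * g ∈ Q := by simpa using hQn.conj_mem y hy g⁻¹
    have h := hxc _ hy'
    calc g * x * g⁻¹ * y = g * (x * (g⁻¹ * y * g)) * g⁻¹ := by group
      _ = g * ((g⁻¹ * y * g) * x) * g⁻¹ := by rw [h]
      _ = y * (g * x * g⁻¹) := by group
  have hZeq : Z₁ = W := by
    rcases dich Z₁ hZW (fun v hv => hZn d v hv) with h | h
    · exact absurd h hZne
    · exact h
  have hWcQ : ∀ w ∈ W, ∀ y ∈ Q, w * y = y * w := by
    intro w hw
    rw [← hZeq] at hw
    exact ((hZ₁ w).mp hw).2.1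
  have hWn : ∀ (g w : G), w ∈ W → g * w * g⁻¹ ∈ W := by
    intro g w hw
    rw [← hZeq] at hw ⊢
    exact hZn g w hw
  have F4Q : ∀ s ∈ Q, s ^ 2 = 1 → s ∈ W := fun s hs hs2 =>
    F4 s hs2 (fun w hw => (hWcQ w hw s hs).symm)
  have fpfQ : ∀ a : G, (∀ w ∈ W, a * w = w * a → w = 1) →
      ∀ x ∈ Q, a * x = x * a → x = 1 := by
    intro a ha x hx hax
    by_contra hx1
    obtain ⟨m, hm1, hm2⟩ := invQ x hx hx1
    exact hm1 (ha _ (F4Q _ (pow_mem hx m) hm2)
      (Commute.pow_right (show Commute a x from hax) m).eq)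
  -- the element of order six
  obtain ⟨g, hg⟩ := hsix
  have hg6 : g ^ 6 = 1 := by rw [← hg]; exact pow_orderOf_eq_one g
  obtain ⟨t, htdef⟩ : ∃ t, t = g ^ 3 := ⟨_, rfl⟩
  obtain ⟨u, hudef⟩ : ∃ u, u = g ^ 2 := ⟨_, rfl⟩
  have ht2 : t * t = 1 := by rw [htdef, ← pow_add]; exact hg6
  have ht1 : t ≠ 1 := by
    intro h
    rw [htdef] at h
    have h' := orderOf_dvd_of_pow_eq_one h
    rw [hg] at h'
    omega
  have hu3 : u ^ 3 = 1 := by rw [hudef, ← pow_mul]; exact hg6
  have hu1 : u ≠ 1 := by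
    intro h
    rw [hudef] at h
    have h' := orderOf_dvd_of_pow_eq_one h
    rw [hg] at h'
    omega
  have htu : t * u = u * t := by
    rw [htdef, hudef]; exact (Commute.pow_pow (Commute.refl g) 3 2).eq
  have huinv : u * u = u⁻¹ := by
    have h : u * u * u = 1 := by rw [← pow_three']; exact hu3
    exact eq_inv_of_mul_eq_one_left h
  have hB : ∀ w₀ ∈ W, w₀ ≠ 1 → u * w₀ = w₀ * u → ∀ w ∈ W, u * w = w * u := by
    intro w₀ hw₀ hw₀1 hw₀u w hw
    by_contra hne
    have hw1 : w ≠ 1 := by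
      intro h; apply hne; rw [h, mul_one, one_mul]
    have hww₀ : w ≠ w₀ := by
      intro h; apply hne; rw [h]; exact hw₀u
    have hw' : u * w * u⁻¹ ∈ W := hWn u w hw
    have hw'' : u * (u * w * u⁻¹) * u⁻¹ ∈ W := hWn u _ hw'
    have hw'1 : u * w * u⁻¹ ≠ 1 := by
      intro h; apply hw1
      calc w = u⁻¹ * (u * w * u⁻¹) * u := by group
        _ = 1 := by rw [h]; group
    have hw'w : u * w * u⁻¹ ≠ w := by
      intro h; apply hne
      calc u * w = (u * w * u⁻¹) * u := by group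
        _ = w * u := by rw [h]
    have hw'w₀ : u * w * u⁻¹ ≠ w₀ := by
      intro h; apply hww₀
      calc w = u⁻¹ * (u * w * u⁻¹) * u := by group
        _ = u⁻¹ * w₀ * u := by rw [h]
        _ = u⁻¹ * (w₀ * u) := by group
        _ = u⁻¹ * (u * w₀) := by rw [hw₀u]
        _ = w₀ := by group
    have h4 := four_set W hW4 w₀ w (u * w * u⁻¹) hw₀ hw hw' hw₀1 hw1 hw'1 (Ne.symm hww₀)
      (Ne.symm hw'w₀) (Ne.symm hw'w) (u * (u * w * u⁻¹) * u⁻¹) hw''
    rcases h4 with h | h | h | h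
    · apply hw'1
      calc u * w * u⁻¹ = u⁻¹ * (u * (u * w * u⁻¹) * u⁻¹) * u := by group
        _ = 1 := by rw [h]; group
    · apply hw'w₀
      calc u * w * u⁻¹ = u⁻¹ * (u * (u * w * u⁻¹) * u⁻¹) * u := by group
        _ = u⁻¹ * w₀ * u := by rw [h]
        _ = u⁻¹ * (w₀ * u) := by group
        _ = u⁻¹ * (u * w₀) := by rw [hw₀u]
        _ = w₀ := by group
    · apply hne
      have h1 : u⁻¹ * w = w * u⁻¹ := by
        calc u⁻¹ * w = (u * u) * w := by rw [huinv]
          _ = (u * (u * w * u⁻¹) * u⁻¹) * (u * u) := by group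
          _ = w * (u * u) := by rw [h]
          _ = w * u⁻¹ := by rw [huinv]
      calc u * w = u * (w * u⁻¹) * u := by group
        _ = u * (u⁻¹ * w) * u := by rw [h1]
        _ = w * u := by group
    · apply hw'w
      calc u * w * u⁻¹ = u⁻¹ * (u * (u * w * u⁻¹) * u⁻¹) * u := by group
        _ = u⁻¹ * (u * w * u⁻¹) * u := by rw [h]
        _ = w := by group
  have hA : ∃ w₀ ∈ W, w₀ ≠ 1 ∧ u * w₀ = w₀ * u := by
    by_cases htW : t ∈ W
    · exact ⟨t, htW, ht1, htu.symm⟩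
    · have ht2' : t ^ 2 = 1 := by rw [pow_two]; exact ht2
      have hti : t⁻¹ = t := inv_eq_of_mul_eq_one_left ht2
      have hnc : ¬ ∀ w ∈ W, t * w = w * t := fun h => htW (F4 t ht2' h)
      push Not at hnc
      obtain ⟨w₁, hw₁, hne⟩ := hnc
      have hw₂ : t * w₁ * t ∈ W := by
        have h := hWn t w₁ hw₁
        rwa [hti] at h
      have hcomm := hWc w₁ hw₁ (t * w₁ * t) hw₂
      obtain ⟨c, hcdef⟩ : ∃ c, c = w₁ * (t * w₁ * t) := ⟨_, rfl⟩
      have hcW : c ∈ W := by rw [hcdef]; exact mul_mem hw₁ hw₂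
      have hc1 : c ≠ 1 := by
        intro h
        rw [hcdef] at h
        have h1 : t * w₁ * t = w₁ := by
          calc t * w₁ * t = w₁⁻¹ * (w₁ * (t * w₁ * t)) := by group
            _ = w₁⁻¹ := by rw [h, mul_one]
            _ = w₁ := inv_eq_of_mul_eq_one_left (by rw [← pow_two]; exact hW2 w₁ hw₁)
        apply hne
        calc t * w₁ = t * w₁ * (t * t) := by rw [ht2, mul_one]
          _ = (t * w₁ * t) * t := by simp only [mul_assoc]
          _ = w₁ * t := by rw [h1]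
      have hct : t * c = c * t := by
        rw [hcdef]
        calc t * (w₁ * (t * w₁ * t)) = (t * w₁ * t) * w₁ * t := by simp only [mul_assoc]
          _ = w₁ * (t * w₁ * t) * t := by rw [hcomm]
      have huniq : ∀ x ∈ W, t * x = x * t → x = 1 ∨ x = c := by
        intro x hx hxt
        by_contra hcon
        push Not at hcon
        have h5 := Cfsg.Agent.S3738.five_le W (Subgroup.centralizer {t}) w₁ c x hw₁ hcW hx
          (fun h => hne ((cent_iff t w₁).mp h)) ((cent_iff t c).mpr hct)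
          ((cent_iff t x).mpr hxt) hc1 hcon.1 hcon.2
        omega
      have hutinv : t * u⁻¹ = u⁻¹ * t := by
        calc t * u⁻¹ = u⁻¹ * (u * t) * u⁻¹ := by group
          _ = u⁻¹ * (t * u) * u⁻¹ := by rw [htu]
          _ = u⁻¹ * t := by group
      have hconj : t * (u * c * u⁻¹) = u * c * u⁻¹ * t := by
        calc t * (u * c * u⁻¹) = (t * u) * c * u⁻¹ := by simp only [mul_assoc]
          _ = u * (t * c) * u⁻¹ := by rw [htu]; simp only [mul_assoc]
          _ = u * (c * t) * u⁻¹ := by rw [hct]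
          _ = u * c * (t * u⁻¹) := by simp only [mul_assoc]
          _ = u * c * (u⁻¹ * t) := by rw [hutinv]
          _ = u * c * u⁻¹ * t := by simp only [mul_assoc]
      rcases huniq _ (hWn u c hcW) hconj with h | h
      · exfalso; apply hc1
        calc c = u⁻¹ * (u * c * u⁻¹) * u := by group
          _ = 1 := by rw [h]; group
      · refine ⟨c, hcW, hc1, ?_⟩
        calc u * c = (u * c * u⁻¹) * u := by group
          _ = c * u := by rw [h]
  obtain ⟨w₀, hw₀, hw₀1, hw₀u⟩ := hA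
  have huW : ∀ w ∈ W, u * w = w * u := hB w₀ hw₀ hw₀1 hw₀u
  -- a central element of order three
  obtain ⟨R, hR⟩ := hd.exists_le_sylow
  have hdR : d ∈ (R : Subgroup G) := hR (Subgroup.mem_zpowers d)
  have hup : IsPGroup 3 (Subgroup.zpowers u) := IsPGroup.of_card (n := 1) (by
    rw [Nat.card_zpowers, orderOf_eq_prime hu3 hu1, pow_one])
  obtain ⟨g₁, hg₁⟩ := Cfsg.Agent.Lib.helper10.exists_conj_le_sylow R (Subgroup.zpowers u) hup
  have hu₁R : g₁ * u * g₁⁻¹ ∈ (R : Subgroup G) := hg₁ u (Subgroup.mem_zpowers u)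
  have hCn : ∀ (g x : G), (∀ w ∈ W, x * w = w * x) →
      ∀ w ∈ W, (g * x * g⁻¹) * w = w * (g * x * g⁻¹) := by
    intro g x hx w hw
    have hw' : g⁻¹ * w * g ∈ W := by simpa using hWn g⁻¹ w hw
    have h := hx _ hw'
    calc g * x * g⁻¹ * w = g * (x * (g⁻¹ * w * g)) * g⁻¹ := by group
      _ = g * ((g⁻¹ * w * g) * x) * g⁻¹ := by rw [h]
      _ = w * (g * x * g⁻¹) := by group
  obtain ⟨N, hN⟩ : ∃ N : Subgroup G,
      N = (R : Subgroup G) ⊓ Subgroup.centralizer (W : Set G) := ⟨_, rfl⟩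
  have hmemN : ∀ x, x ∈ N ↔ (x ∈ (R : Subgroup G) ∧ ∀ w ∈ W, x * w = w * x) := by
    intro x
    rw [hN, Subgroup.mem_inf, Subgroup.mem_centralizer_iff]
    constructor
    · rintro ⟨h1, h2⟩
      exact ⟨h1, fun w hw => (h2 w hw).symm⟩
    · rintro ⟨h1, h2⟩
      exact ⟨h1, fun w hw => (h2 w hw).symm⟩
  have hNne : N ≠ ⊥ := by
    intro h
    have hmem : g₁ * u * g₁⁻¹ ∈ N := (hmemN _).mpr ⟨hu₁R, hCn g₁ u huW⟩
    rw [h, Subgroup.mem_bot] at hmem
    apply hu1
    calc u = g₁⁻¹ * (g₁ * u * g₁⁻¹) * g₁ := by group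
      _ = 1 := by rw [hmem]; group
  obtain ⟨z, hzN, hz1, hzc⟩ := Cfsg.Agent.Lib.helper20.Ito.nz_lemma (p := 3) (R : Subgroup G) N
    R.isPGroup' (by rw [hN]; exact inf_le_left) hNne (fun g hg x hx => by
      obtain ⟨hxR, hxW⟩ := (hmemN x).mp hx
      exact (hmemN _).mpr ⟨mul_mem (mul_mem hg hxR) (inv_mem hg), hCn g x hxW⟩)
  obtain ⟨hzR, hzW⟩ := (hmemN z).mp hzN
  obtain ⟨k, hk⟩ := R.isPGroup' ⟨z, hzR⟩
  have hk' : z ^ 3 ^ k = 1 := by simpa using congrArg Subtype.val hk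
  obtain ⟨m, hm1, hm3⟩ := exists_pow_prime 3 k z hz1 hk'
  obtain ⟨u', hu'def⟩ : ∃ u', u' = z ^ m := ⟨_, rfl⟩
  rw [← hu'def] at hm1 hm3
  have hdu' : d * u' = u' * d := by
    rw [hu'def]
    exact (Commute.pow_right (show Commute d z from hzc d hdR) m).eq
  have hu'W : ∀ w ∈ W, u' * w = w * u' := by
    intro w hw
    rw [hu'def]
    exact (Commute.pow_left (show Commute z w from hzW w hw) m).eq
  -- the order of d is three
  obtain ⟨n, hn⟩ : ∃ n, orderOf d = 3 ^ n := by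
    obtain ⟨n, hn⟩ := IsPGroup.iff_card.mp hd
    exact ⟨n, by rw [← hn, Nat.card_zpowers]⟩
  have hn1 : 1 ≤ n := by
    by_contra h
    have h0 : n = 0 := by omega
    rw [h0, pow_zero] at hn
    exact hd1 (orderOf_eq_one_iff.mp hn)
  have hfpfQd : ∀ x ∈ Q, d * x = x * d → x = 1 := fpfQ d hfpf
  have hord : orderOf d = 3 := Cfsg.Agent.S3738.result d n hn1 hn Q hQp
    (Subgroup.mem_normalizer_iff.mpr (fun h => ⟨fun hh => hQn.conj_mem h hh d, fun hh => by
      have h1 := hQn.conj_mem _ hh d⁻¹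
      have e : d⁻¹ * (d * h * d⁻¹) * d⁻¹⁻¹ = h := by group
      rwa [e] at h1⟩))
    (by
      rw [eq_bot_iff]
      intro x hx
      have hmem : x ∈ Subgroup.zpowers d ⊓ Q := ⟨hx.1, hchar hx.2⟩
      exact (IsPGroup.disjoint_of_ne 3 2 (by norm_num) (Subgroup.zpowers d) Q hd hQp).le_bot hmem)
    (by
      rw [eq_bot_iff]
      intro x hx
      rw [Subgroup.mem_bot]
      exact hfpfQd x hx.1 ((cent_iff d x).mp hx.2))
    (fun V _ _ A hAc hA2 => by
      have h := hsmall (A.map V.subtype) (by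
        rintro _ ⟨a, ha, rfl⟩ _ ⟨b, hb, rfl⟩
        have h1 : a * b = b * a := setLike_mul_comm ha hb
        have h2 := congrArg Subtype.val h1
        simpa using h2) (by
        rintro _ ⟨a, ha, rfl⟩
        have h2 := congrArg Subtype.val (hA2 a ha)
        simpa using h2)
      rw [Subgroup.card_map_of_injective V.subtype_injective] at h
      exact h)
  have hd3 : d * d * d = 1 := by
    rw [← pow_three', ← hord]; exact pow_orderOf_eq_one d
  have hu'3 : u' * u' * u' = 1 := by rw [← pow_three']; exact hm3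
  -- the final contradiction
  obtain ⟨α, hα⟩ := exists_conjHom Q hQn d
  obtain ⟨β, hβ⟩ := exists_conjHom Q hQn u'
  have hu'inv : u'⁻¹ * d⁻¹ = d⁻¹ * u'⁻¹ := by
    rw [← mul_inv_rev, ← mul_inv_rev, hdu']
  have hfW2 : ∀ w ∈ W, (d * u') * w = w * (d * u') → w = 1 := by
    intro w hw h
    apply hfpf w hw
    have h1 : d * w * u' = w * d * u' := by
      calc d * w * u' = d * (w * u') := by simp only [mul_assoc]
        _ = d * (u' * w) := by rw [hu'W w hw]
        _ = d * u' * w := by simp only [mul_assoc]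
        _ = w * (d * u') := h
        _ = w * d * u' := by simp only [mul_assoc]
    exact mul_right_cancel h1
  have hfW3 : ∀ w ∈ W, (d * u' * u') * w = w * (d * u' * u') → w = 1 := by
    intro w hw h
    apply hfpf w hw
    have h1 : d * w * (u' * u') = w * d * (u' * u') := by
      calc d * w * (u' * u') = d * ((w * u') * u') := by simp only [mul_assoc]
        _ = d * ((u' * w) * u') := by rw [hu'W w hw]
        _ = d * (u' * (w * u')) := by simp only [mul_assoc]
        _ = d * (u' * (u' * w)) := by rw [hu'W w hw]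
        _ = d * u' * u' * w := by simp only [mul_assoc]
        _ = w * (d * u' * u') := h
        _ = w * d * (u' * u') := by simp only [mul_assoc]
    exact mul_right_cancel h1
  have key := al α β
    (fun y => Subtype.ext (by
      simp only [hα, hβ]
      calc d * (u' * (y : G) * u'⁻¹) * d⁻¹ = (d * u') * y * (u'⁻¹ * d⁻¹) := by
            simp only [mul_assoc]
        _ = (u' * d) * y * (d⁻¹ * u'⁻¹) := by rw [hdu', hu'inv]
        _ = u' * (d * y * d⁻¹) * u'⁻¹ := by simp only [mul_assoc]))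
    (fun y => Subtype.ext (by simp only [hα]; exact conj3 d y hd3))
    (fun y => Subtype.ext (by simp only [hβ]; exact conj3 u' y hu'3))
    (fun y hy => by
      have h := congrArg Subtype.val hy
      simp only [hα] at h
      have h' : d * (y : G) = y * d := by
        calc d * (y : G) = (d * y * d⁻¹) * d := by group
          _ = y * d := by rw [h]
      exact Subtype.ext (hfpfQd y y.2 h'))
    (fun y hy => by
      have h := congrArg Subtype.val hy
      simp only [hα, hβ] at h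
      have h' : (d * u') * (y : G) = y * (d * u') := by
        calc (d * u') * (y : G) = (d * (u' * y * u'⁻¹) * d⁻¹) * (d * u') := by group
          _ = y * (d * u') := by rw [h]
      exact Subtype.ext (fpfQ (d * u') hfW2 y y.2 h'))
    (fun y hy => by
      have h := congrArg Subtype.val hy
      simp only [hα, hβ] at h
      have h' : (d * u' * u') * (y : G) = y * (d * u' * u') := by
        calc (d * u' * u') * (y : G)
            = (d * (u' * (u' * y * u'⁻¹) * u'⁻¹) * d⁻¹) * (d * u' * u') := by group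
          _ = y * (d * u' * u') := by rw [h]
      exact Subtype.ext (fpfQ (d * u' * u') hfW3 y y.2 h'))
  have hu'Q : u' ∈ Q := hchar (by
    rw [Subgroup.mem_centralizer_iff]
    intro x hx
    have h := congrArg Subtype.val (key ⟨x, hx⟩)
    rw [hβ] at h
    have h' : u' * x * u'⁻¹ = x := h
    calc x * u' = (u' * x * u'⁻¹) * u' := by rw [h']
      _ = u' * x := by group)
  exact hm1 (Cfsg.Agent.S3738.two_three Q hQp u' hu'Q hm3)


/-- Let G be a finite group with C_G(O₂(G)) ≤ O₂(G) containing an element of order 6, and let d be a non-identity 3-element of G normalizing a nontrivial elementary abelian 2-subgroup W with C_W(d) = 1. Then G has an elementary abelian subgroup of order 8. -/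
theorem result {G : Type*} [Group G] [Finite G] (hchar : Subgroup.centralizer (Cfsg.pCore 2 G : Set G) ≤ Cfsg.pCore 2 G) (hsix : ∃ g : G, orderOf g = 6) (d : G) (hd1 : d ≠ 1) (hd : IsPGroup 3 ↥(Subgroup.zpowers d)) (W : Subgroup G) (hW : Cfsg.IsElementaryAbelian 2 W) (hW1 : W ≠ ⊥) (hdW : d ∈ Subgroup.normalizer (W : Set G)) (hfpf : W ⊓ Subgroup.centralizer {d} = ⊥) : ∃ E : Subgroup G, Cfsg.IsElementaryAbelian 2 E ∧ Nat.card E = 8 := by
  by_contra hno
  push Not at hno
  have hWc : ∀ a ∈ W, ∀ b ∈ W, a * b = b * a := fun a ha b hb => by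
    haveI := hW.1
    exact setLike_mul_comm ha hb
  have hsmall : ∀ E : Subgroup G, (∀ a ∈ E, ∀ b ∈ E, a * b = b * a) → (∀ a ∈ E, a ^ 2 = 1) →
      Nat.card E ≤ 4 := by
    intro E hEc hE2
    by_contra hlt
    push Not at hlt
    have hEp : IsPGroup 2 E := fun g => ⟨1, by
      apply Subtype.ext
      simpa using hE2 g g.2⟩
    obtain ⟨k, hk⟩ := IsPGroup.iff_card.mp hEp
    have hk3 : 3 ≤ k := by
      by_contra hk3
      have h2 : k ≤ 2 := by omega
      have h3 : 2 ^ k ≤ 2 ^ 2 := Nat.pow_le_pow_right (by norm_num) h2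
      rw [← hk] at h3
      omega
    obtain ⟨K, hK⟩ := Sylow.exists_subgroup_card_pow_prime (G := E) 2 (n := 3)
      (by rw [hk]; exact pow_dvd_pow 2 hk3)
    have hKE : K.map E.subtype ≤ E := Subgroup.map_subtype_le K
    refine hno (K.map E.subtype) ⟨⟨⟨fun a b => Subtype.ext (hEc a (hKE a.2) b (hKE b.2))⟩⟩,
      fun a ha => hE2 a (hKE ha)⟩ ?_
    rw [Subgroup.card_map_of_injective E.subtype_injective, hK]
    norm_num
  exact main hchar hsix d hd1 hd W hWc hW.2 hW1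
    (fun w hw => (Subgroup.mem_normalizer_iff.mp hdW w).mp hw)
    (fun w hw h => by
      have hmem : w ∈ W ⊓ Subgroup.centralizer {d} := ⟨hw, (cent_iff d w).mpr h⟩
      rw [hfpf, Subgroup.mem_bot] at hmem
      exact hmem) hsmall

end Cfsg.Agent.S3739
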