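import Cfsg.Statements.S3741
import Mathlib

set_option autoImplicit false
open Cfsg

namespace Cfsg.Agent.S3741

open Finset in
open Classical in
theorem key {G : Type*} [Group G] [Fintype G] {p : ℕ} [Fact p.Prime] (hG : IsPGroup p G)
    (A B : Subgroup G) (hcard : Nat.card ↥⁅A, B⁆ ≤ p) (a : G) (ha : a ∈ A) :
    (a ∈ Subgroup.centralizer (B : Set G) ∧ #{b : G | b ∈ B ∧ a * b = b * a} = Nat.card B) ∨
    (a ∉ Subgroup.centralizer (B : Set G) ∧ p * #{b : G | b ∈ B ∧ a * b = b * a} = Nat.card B) := by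
  have hp : p.Prime := Fact.out
  set C : Subgroup G := B ⊓ Subgroup.centralizer {a} with hC
  have hmemC : ∀ b : G, b ∈ C ↔ b ∈ B ∧ a * b = b * a := by
    intro b
    rw [hC, Subgroup.mem_inf, Subgroup.mem_centralizer_iff]
    constructor
    · rintro ⟨h1, h2⟩; exact ⟨h1, h2 a rfl⟩
    · rintro ⟨h1, h2⟩; refine ⟨h1, ?_⟩
      intro x hx; rw [Set.mem_singleton_iff] at hx; subst hx; exact h2
  have hCcard : #{b : G | b ∈ B ∧ a * b = b * a} = Nat.card C := by
    rw [Nat.card_eq_fintype_card, Fintype.card_subtype]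
    congr 1; ext b; simp [hmemC]
  have hmul : Nat.card C * C.relIndex B = Nat.card B := by
    have h1 := Subgroup.relIndex_mul_relIndex ⊥ C B bot_le inf_le_left
    rwa [Subgroup.relIndex_bot_left, Subgroup.relIndex_bot_left] at h1
  obtain ⟨j, hj⟩ : ∃ j, C.relIndex B = p ^ j := (hG.to_subgroup B).index (C.subgroupOf B)
  have hCpos : 0 < Nat.card C := Nat.card_pos
  have hle : C.relIndex B ≤ p := by
    have h1 : #{b : G | b ∈ B} ≤ #{b : G | b ∈ B ∧ a * b = b * a} * #(image (fun b : G => b * a * b⁻¹) {b : G | b ∈ B}) := by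
      apply Finset.card_le_mul_card_image
      intro y hy
      obtain ⟨b₀, hb₀, rfl⟩ := Finset.mem_image.mp hy
      simp only [Finset.mem_filter, Finset.mem_univ, true_and] at hb₀
      apply Finset.card_le_card_of_injOn (fun b => b₀⁻¹ * b)
      · intro b hb
        simp only [Finset.coe_filter, Finset.mem_filter, Finset.mem_univ, true_and, Set.mem_ofPred_eq] at hb ⊢
        refine ⟨B.mul_mem (B.inv_mem hb₀) hb.1, ?_⟩
        have h2 := hb.2
        have h3 : a = b₀⁻¹ * (b * a * b⁻¹) * b₀ := by rw [h2]; group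
        calc a * (b₀⁻¹ * b) = (b₀⁻¹ * (b * a * b⁻¹) * b₀) * (b₀⁻¹ * b) := by rw [← h3]
          _ = b₀⁻¹ * b * a := by group
      · intro x _ y _ hxy
        exact mul_left_cancel hxy
    have h2 : #(image (fun b : G => b * a * b⁻¹) {b : G | b ∈ B}) ≤ #(image (fun z : G => z * a) {z : G | z ∈ ⁅A, B⁆}) := by
      apply Finset.card_le_card
      intro y hy
      obtain ⟨b, hb, rfl⟩ := Finset.mem_image.mp hy
      simp only [Finset.mem_filter, Finset.mem_univ, true_and] at hb
      rw [Finset.mem_image]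
      refine ⟨b * a * b⁻¹ * a⁻¹, ?_, by group⟩
      simp only [Finset.mem_filter, Finset.mem_univ, true_and]
      rw [Subgroup.commutator_comm]
      exact Subgroup.commutator_mem_commutator hb ha
    have h3 : #(image (fun z : G => z * a) {z : G | z ∈ ⁅A, B⁆}) ≤ p := by
      refine (Finset.card_image_le).trans ?_
      have h4 : #{z : G | z ∈ ⁅A, B⁆} = Nat.card ↥⁅A, B⁆ := by
        rw [Nat.card_eq_fintype_card, Fintype.card_subtype]
      rw [h4]; exact hcard
    have h5 : #{b : G | b ∈ B} = Nat.card B := by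
      rw [Nat.card_eq_fintype_card, Fintype.card_subtype]
    rw [h5, hCcard, ← hmul] at h1
    have h6 : Nat.card C * C.relIndex B ≤ Nat.card C * p := h1.trans (Nat.mul_le_mul_left _ (h2.trans h3))
    exact Nat.le_of_mul_le_mul_left h6 hCpos
  rcases Nat.eq_zero_or_pos j with h0 | hpos
  · left
    rw [h0, pow_zero, Subgroup.relIndex_eq_one] at hj
    refine ⟨?_, ?_⟩
    · rw [Subgroup.mem_centralizer_iff]
      intro b hb
      exact (((hmemC b).mp (hj hb)).2).symm
    · rw [hCcard]
      exact le_antisymm (Subgroup.card_le_of_le inf_le_left) (Subgroup.card_le_of_le hj)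
  · right
    have hj1 : j = 1 := by
      by_contra hne
      have h2 : 2 ≤ j := by omega
      have h3 : p ^ 2 ≤ p ^ j := Nat.pow_le_pow_right hp.pos h2
      rw [← hj] at h3
      have := hp.two_le
      nlinarith
    rw [hj1, pow_one] at hj
    refine ⟨?_, ?_⟩
    · intro hcen
      have hBC : B ≤ C := by
        intro b hb
        rw [hmemC]
        exact ⟨hb, ((Subgroup.mem_centralizer_iff.mp hcen) b hb).symm⟩
      have h1 := Subgroup.relIndex_eq_one.mpr hBC
      rw [hj] at h1
      exact hp.one_lt.ne' h1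
    · rw [hCcard, ← hmul, hj, mul_comm]

open Finset in
theorem dc {G : Type*} [Fintype G] (P : G → Prop) (Q : G → G → Prop) [DecidablePred P]
    [∀ a, DecidablePred (Q a)] [∀ a b, Decidable (P a ∧ Q a b)] :
    ∑ a ∈ ({a : G | P a} : Finset G), #{b : G | Q a b} = ∑ a : G, ∑ b : G, if P a ∧ Q a b then 1 else 0 := by
  rw [Finset.sum_filter]
  apply Finset.sum_congr rfl
  intro a _
  by_cases h : P a
  · rw [if_pos h, Finset.card_filter]
    apply Finset.sum_congr rfl
    intro b _
    simp [h]
  · rw [if_neg h]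
    symm
    apply Finset.sum_eq_zero
    intro b _
    simp [h]

open Finset in
open Classical in
theorem sum_formula {G : Type*} [Group G] [Fintype G] {p : ℕ} [Fact p.Prime] (hG : IsPGroup p G)
    (A B : Subgroup G) (hcard : Nat.card ↥⁅A, B⁆ ≤ p) :
    ∑ a ∈ ({a : G | a ∈ A} : Finset G), p * #{b : G | b ∈ B ∧ a * b = b * a} =
      Nat.card ↥(A ⊓ Subgroup.centralizer (B : Set G)) * (p * Nat.card B) +
        #{a : G | a ∈ A ∧ a ∉ Subgroup.centralizer (B : Set G)} * Nat.card B := by
  have h1 : ∀ a ∈ ({a : G | a ∈ A} : Finset G), p * #{b : G | b ∈ B ∧ a * b = b * a} =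
      if a ∈ Subgroup.centralizer (B : Set G) then p * Nat.card B else Nat.card B := by
    intro a ha
    simp only [Finset.mem_filter, Finset.mem_univ, true_and] at ha
    rcases key hG A B hcard a ha with ⟨h2, h3⟩ | ⟨h2, h3⟩
    · rw [if_pos h2, h3]
    · rw [if_neg h2, h3]
  rw [Finset.sum_congr rfl h1, Finset.sum_ite, Finset.sum_const, Finset.sum_const, smul_eq_mul, smul_eq_mul,
    Finset.filter_filter, Finset.filter_filter]
  congr 2
  rw [Nat.card_eq_fintype_card, Fintype.card_subtype]
  congr 1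
  ext a; simp [Subgroup.mem_inf]

open Finset in
open Classical in
theorem main {G : Type*} [Group G] [Fintype G] {p : ℕ} [Fact p.Prime] (hG : IsPGroup p G) (A B : Subgroup G)
    (hcard : Nat.card ↥⁅A, B⁆ ≤ p) :
    (A ⊓ Subgroup.centralizer (B : Set G)).relIndex A = (B ⊓ Subgroup.centralizer (A : Set G)).relIndex B := by
  have hp : p.Prime := Fact.out
  have hcard' : Nat.card ↥⁅B, A⁆ ≤ p := by rw [Subgroup.commutator_comm]; exact hcard
  have h1 := sum_formula hG A B hcard
  have h2 := sum_formula hG B A hcard'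
  have hdc : ∑ a ∈ (Finset.univ.filter (fun a : G => a ∈ A)), p * (Finset.univ.filter (fun b : G => b ∈ B ∧ a * b = b * a)).card
      = ∑ b ∈ (Finset.univ.filter (fun b : G => b ∈ B)), p * (Finset.univ.filter (fun a : G => a ∈ A ∧ b * a = a * b)).card := by
    rw [← Finset.mul_sum, ← Finset.mul_sum]
    congr 1
    rw [@dc _ _ (fun a => a ∈ A) (fun a b => b ∈ B ∧ a * b = b * a) _ _ _,
      @dc _ _ (fun b => b ∈ B) (fun b a => a ∈ A ∧ b * a = a * b) _ _ _, Finset.sum_comm]
    apply Finset.sum_congr rfl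
    intro b _
    apply Finset.sum_congr rfl
    intro a _
    apply if_congr _ rfl rfl
    constructor
    · rintro ⟨h3, h4, h5⟩; exact ⟨h4, h3, h5.symm⟩
    · rintro ⟨h3, h4, h5⟩; exact ⟨h4, h3, h5.symm⟩
  rw [h1, h2] at hdc
  set x := Nat.card ↥(A ⊓ Subgroup.centralizer (B : Set G)) with hx
  set y := Nat.card ↥(B ⊓ Subgroup.centralizer (A : Set G)) with hy
  set x' := (Finset.univ.filter (fun a : G => a ∈ A ∧ a ∉ Subgroup.centralizer (B : Set G))).card with hx'
  set y' := (Finset.univ.filter (fun b : G => b ∈ B ∧ b ∉ Subgroup.centralizer (A : Set G))).card with hy'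
  have hxa : x + x' = Nat.card A := by
    rw [hx, hx', Nat.card_eq_fintype_card, Fintype.card_subtype, Nat.card_eq_fintype_card, Fintype.card_subtype]
    have h3 := Finset.card_filter_add_card_filter_not (s := Finset.univ.filter (fun a : G => a ∈ A))
      (p := fun a : G => a ∈ Subgroup.centralizer (B : Set G))
    rw [Finset.filter_filter, Finset.filter_filter] at h3
    rw [← h3]
    congr 2
    ext a; simp [Subgroup.mem_inf]
  have hyb : y + y' = Nat.card B := by
    rw [hy, hy', Nat.card_eq_fintype_card, Fintype.card_subtype, Nat.card_eq_fintype_card, Fintype.card_subtype]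
    have h3 := Finset.card_filter_add_card_filter_not (s := Finset.univ.filter (fun a : G => a ∈ B))
      (p := fun a : G => a ∈ Subgroup.centralizer (A : Set G))
    rw [Finset.filter_filter, Finset.filter_filter] at h3
    rw [← h3]
    congr 2
    ext a; simp [Subgroup.mem_inf]
  have hxy : x * Nat.card B = y * Nat.card A := by
    rw [← hxa, ← hyb] at hdc ⊢
    obtain ⟨q, rfl⟩ : ∃ q, p = q + 1 := ⟨p - 1, by have := hp.pos; omega⟩
    have hq : 0 < q := by have := hp.two_le; omega
    have h3 : q * (x * y') = q * (y * x') := by nlinarith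
    have h4 := Nat.eq_of_mul_eq_mul_left hq h3
    nlinarith
  have hiA : x * (A ⊓ Subgroup.centralizer (B : Set G)).relIndex A = Nat.card A := by
    have h3 := Subgroup.relIndex_mul_relIndex ⊥ (A ⊓ Subgroup.centralizer (B : Set G)) A bot_le inf_le_left
    rwa [Subgroup.relIndex_bot_left, Subgroup.relIndex_bot_left] at h3
  have hiB : y * (B ⊓ Subgroup.centralizer (A : Set G)).relIndex B = Nat.card B := by
    have h3 := Subgroup.relIndex_mul_relIndex ⊥ (B ⊓ Subgroup.centralizer (A : Set G)) B bot_le inf_le_left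
    rwa [Subgroup.relIndex_bot_left, Subgroup.relIndex_bot_left] at h3
  have hxpos : 0 < x := Nat.card_pos
  have hypos : 0 < y := Nat.card_pos
  rw [← hiA, ← hiB] at hxy
  have h5 : (x * y) * (B ⊓ Subgroup.centralizer (A : Set G)).relIndex B = (x * y) * (A ⊓ Subgroup.centralizer (B : Set G)).relIndex A := by
    nlinarith
  exact (Nat.eq_of_mul_eq_mul_left (Nat.mul_pos hxpos hypos) h5).symm

/-- Let A and B be subgroups of a finite p-group with [A, B] ≤ A ∩ B and [A, B] of order at most p. Then |A : C_A(B)| = |B : C_B(A)|. -/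
theorem result {G : Type*} [Group G] [Finite G] {p : ℕ} [Fact p.Prime] (hG : IsPGroup p G) (A B : Subgroup G) (hAB : ⁅A, B⁆ ≤ A ⊓ B) (hcard : Nat.card ↥⁅A, B⁆ ≤ p) : (A ⊓ Subgroup.centralizer (B : Set G)).relIndex A = (B ⊓ Subgroup.centralizer (A : Set G)).relIndex B := by
  classical
  have : Fintype G := Fintype.ofFinite G
  exact main hG A B hcard

end Cfsg.Agent.S3741
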