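import Cfsg.Statements.S3742
import Mathlib
import Cfsg.Agent.Lib.helper19.S4Rec

set_option autoImplicit false
open Cfsg

namespace Cfsg.Agent.S3742

open QuaternionGroup

def th : QuaternionGroup 2 → QuaternionGroup 2
  | a i => match i.val with | 0 => a 0 | 1 => xa 0 | 2 => a 2 | _ => xa 2
  | xa i => match i.val with | 0 => xa 3 | 1 => a 3 | 2 => xa 1 | _ => a 1

def ps : QuaternionGroup 2 → QuaternionGroup 2
  | a i => match i.val with | 0 => a 0 | 1 => xa 0 | 2 => a 2 | _ => xa 2
  | xa i => match i.val with | 0 => a 1 | 1 => xa 3 | 2 => a 3 | _ => xa 1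

theorem th_mul : ∀ x y : QuaternionGroup 2, th (x * y) = th x * th y := by decide
theorem th_inj : ∀ x y : QuaternionGroup 2, th x = th y → x = y := by decide
theorem th_cube : ∀ x : QuaternionGroup 2, th (th (th x)) = x := by decide
theorem ps_mul : ∀ x y : QuaternionGroup 2, ps (x * y) = ps x * ps y := by decide
theorem ps_inj : ∀ x y : QuaternionGroup 2, ps x = ps y → x = y := by decide
theorem ps_sq : ∀ x : QuaternionGroup 2, ps (ps x) = x := by decide
theorem q8_gen : ∀ x : QuaternionGroup 2, ∃ i, i < 2 ∧ ∃ j, j < 4 ∧ x = (xa 0) ^ i * (a 1) ^ j := by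
  decide
theorem q8_sq_central : ∀ g h : QuaternionGroup 2, g ^ 2 * h * (g ^ 2)⁻¹ = h := by decide
theorem q8_center : ∀ g : QuaternionGroup 2, (∀ h, g * h * g⁻¹ = h) ↔ (g = 1 ∨ g = a 2) := by
  decide
theorem q8_a2_central : ∀ x : QuaternionGroup 2, a 2 * x = x * a 2 := by decide
theorem q8_inner_choice : ∀ p q : QuaternionGroup 2, (p = a 1 ∨ p = a 1 * a 2) →
    (q = xa 0 ∨ q = xa 0 * a 2) → ∃ v : QuaternionGroup 2, v * a 1 * v⁻¹ = p ∧ v * xa 0 * v⁻¹ = q := by
  decide
theorem q8_not_conj : ∀ w : QuaternionGroup 2, w * a 1 * w⁻¹ ≠ xa 0 := by decide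

noncomputable def thAut : MulAut (QuaternionGroup 2) :=
  MulEquiv.ofBijective (MonoidHom.mk' th th_mul)
    ((Finite.injective_iff_bijective).mp (fun x y h => th_inj x y h))

noncomputable def psAut : MulAut (QuaternionGroup 2) :=
  MulEquiv.ofBijective (MonoidHom.mk' ps ps_mul)
    ((Finite.injective_iff_bijective).mp (fun x y h => ps_inj x y h))

theorem thAut_apply (x : QuaternionGroup 2) : thAut x = th x := rfl
theorem psAut_apply (x : QuaternionGroup 2) : psAut x = ps x := rfl

theorem aut_ext (φ φ' : MulAut (QuaternionGroup 2)) (h1 : φ (a 1) = φ' (a 1))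
    (h2 : φ (xa 0) = φ' (xa 0)) : φ = φ' := by
  ext x
  obtain ⟨i, -, j, -, rfl⟩ := q8_gen x
  rw [map_mul, map_mul, map_pow, map_pow, map_pow, map_pow, h1, h2]



/-- The automorphism group of the quaternion group of order 8 is isomorphic to the symmetric group of degree 4. -/
theorem result : Nonempty (MulAut (QuaternionGroup 2) ≃* Equiv.Perm (Fin 4)) := by
  classical
  obtain ⟨U, hUdef⟩ : ∃ U : Subgroup (MulAut (QuaternionGroup 2)),
      U = (MulAut.conj : QuaternionGroup 2 →* MulAut (QuaternionGroup 2)).range := ⟨_, rfl⟩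
  have hmem : ∀ φ : MulAut (QuaternionGroup 2), φ ∈ U ↔ ∃ w, MulAut.conj w = φ := by
    intro φ; rw [hUdef]; exact MonoidHom.mem_range
  haveI hUn : U.Normal := by
    constructor
    intro φ hφ ψ
    obtain ⟨w, rfl⟩ := (hmem φ).mp hφ
    refine (hmem _).mpr ⟨ψ w, ?_⟩
    ext x
    simp [MulAut.conj_apply, MulAut.mul_apply]
  have hker : (MulAut.conj : QuaternionGroup 2 →* MulAut (QuaternionGroup 2)).ker =
      Subgroup.zpowers (a 2) := by
    ext g
    rw [MonoidHom.mem_ker]
    constructor
    · intro h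
      have h1 : ∀ x, g * x * g⁻¹ = x := fun x => by
        have := congrArg (fun φ : MulAut (QuaternionGroup 2) => φ x) h
        simpa [MulAut.conj_apply] using this
      rcases (q8_center g).mp h1 with h2 | h2
      · rw [h2]; exact one_mem _
      · rw [h2]; exact Subgroup.mem_zpowers _
    · intro h
      obtain ⟨k, rfl⟩ := Subgroup.mem_zpowers_iff.mp h
      ext x
      have hc : Commute (a 2 : QuaternionGroup 2) x := q8_a2_central x
      have h1 := (hc.zpow_left k).eq
      simp only [MulAut.conj_apply, MulAut.one_apply]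
      rw [h1, mul_assoc, mul_inv_cancel, mul_one]
  have hU : Nat.card U = 4 := by
    have h1 := Subgroup.card_mul_index
      (MulAut.conj : QuaternionGroup 2 →* MulAut (QuaternionGroup 2)).ker
    rw [Subgroup.index_ker, hker, Nat.card_zpowers, ← hUdef] at h1
    have h2 : orderOf (a 2 : QuaternionGroup 2) = 2 := orderOf_eq_prime (by decide) (by decide)
    have h3 : Nat.card (QuaternionGroup 2) = 8 := by
      rw [Nat.card_eq_fintype_card, QuaternionGroup.card]
    rw [h2, h3] at h1
    omega
  have hUexp : ∀ u ∈ U, u ^ 2 = 1 := by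
    intro u hu
    obtain ⟨w, rfl⟩ := (hmem u).mp hu
    rw [← map_pow]
    ext x
    simp only [MulAut.conj_apply, MulAut.one_apply]
    exact q8_sq_central w x
  have hC : ∀ c : MulAut (QuaternionGroup 2), (∀ u ∈ U, c * u = u * c) → c ∈ U := by
    intro c hc
    have key : ∀ w : QuaternionGroup 2, c w = w ∨ c w = w * a 2 := by
      intro w
      have h1 := hc (MulAut.conj w) ((hmem _).mpr ⟨w, rfl⟩)
      have h2 : ∀ y : QuaternionGroup 2, (w⁻¹ * c w) * y * (w⁻¹ * c w)⁻¹ = y := by
        intro y
        have h3 := congrArg (fun φ : MulAut (QuaternionGroup 2) => φ (c⁻¹ y)) h1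
        simp only [MulAut.mul_apply, MulAut.conj_apply, MulAut.apply_inv_self, map_mul,
          map_inv] at h3
        calc (w⁻¹ * c w) * y * (w⁻¹ * c w)⁻¹ = w⁻¹ * (c w * y * (c w)⁻¹) * w := by group
          _ = w⁻¹ * (w * y * w⁻¹) * w := by rw [h3]
          _ = y := by group
      rcases (q8_center _).mp h2 with h3 | h3
      · left
        have : c w = w * (w⁻¹ * c w) := by group
        rw [this, h3, mul_one]
      · right
        have : c w = w * (w⁻¹ * c w) := by group
        rw [this, h3]
    obtain ⟨v, hv1, hv2⟩ := q8_inner_choice (c (a 1)) (c (xa 0)) (key _) (key _)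
    refine (hmem c).mpr ⟨v, ?_⟩
    apply aut_ext
    · rw [MulAut.conj_apply]; exact hv1
    · rw [MulAut.conj_apply]; exact hv2
  have h2 : ¬ IsPGroup 2 (MulAut (QuaternionGroup 2)) := by
    intro h
    have h3 : thAut ^ 3 = 1 := by
      ext x
      simp only [pow_succ, pow_zero, one_mul, MulAut.mul_apply, MulAut.one_apply, thAut_apply]
      exact th_cube x
    have hne : thAut ≠ 1 := by
      intro h'
      have := congrArg (fun φ : MulAut (QuaternionGroup 2) => φ (a 1)) h'
      simp only [thAut_apply, MulAut.one_apply] at this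
      exact absurd this (by decide)
    haveI : Fact (Nat.Prime 3) := ⟨Nat.prime_three⟩
    have ho : orderOf thAut = 3 := orderOf_eq_prime h3 hne
    obtain ⟨k, hk⟩ := h thAut
    have hd := orderOf_dvd_of_pow_eq_one hk
    rw [ho] at hd
    have := Nat.Prime.dvd_of_dvd_pow Nat.prime_three hd
    omega
  have hg : psAut ∉ U := by
    intro h
    obtain ⟨w, hw⟩ := (hmem _).mp h
    have := congrArg (fun φ : MulAut (QuaternionGroup 2) => φ (a 1)) hw
    simp only [MulAut.conj_apply, psAut_apply] at this
    exact q8_not_conj w this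
  have hg2 : psAut ^ 2 ∈ U := by
    have : psAut ^ 2 = 1 := by
      ext x
      simp only [pow_succ, pow_zero, one_mul, MulAut.mul_apply, MulAut.one_apply, psAut_apply]
      exact ps_sq x
    rw [this]
    exact one_mem _
  exact Cfsg.Agent.Lib.helper19.s4_of_klein U hU hUexp hC h2 psAut hg hg2

end Cfsg.Agent.S3742
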