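import Cfsg.Statements.S3743
import Mathlib
import Cfsg.Agent.Lib.helper7.FStar

set_option autoImplicit false
open Cfsg

namespace Cfsg.Agent.S3743

open Cfsg.Agent.Lib.helper7 in
theorem radHyp_pi.{u} (π : Set ℕ) :
    RadHyp (fun (X : Type u) (_ : Group X) => ∀ p : ℕ, p.Prime → p ∣ Nat.card X → p ∈ π) := by
  refine ⟨?_, ?_, ?_⟩
  · intro X Y _ _ e h
    rwa [← Nat.card_congr e.toEquiv]
  · intro X _ _ H K hH hK hHp hKp p hp hdvd
    have h1 := hdvd.trans (card_sup_dvd_of_normal H K)
    rcases (Nat.Prime.dvd_mul hp).mp h1 with h | h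
    · exact hHp p hp h
    · exact hKp p hp h
  · intro X _ p hp hdvd
    simp at hdvd
    exact absurd hdvd hp.ne_one

/-- In a finite group G, every subnormal nilpotent subgroup lies in the Fitting subgroup F(G), and, for a set of primes π, every subnormal subgroup all of whose prime divisors lie in π lies in O_π(G). -/
theorem result {G : Type*} [Group G] [Finite G] (A : Subgroup G) (hA : A.IsSubnormal) : (Group.IsNilpotent A → A ≤ Cfsg.fittingSubgroup G) ∧ ∀ π : Set ℕ, (∀ p : ℕ, p.Prime → p ∣ Nat.card A → p ∈ π) → A ≤ Cfsg.piCore π G := by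
  refine ⟨fun hn => Cfsg.Agent.Lib.helper7.subnormal_nilpotent_le_fitting hA hn, ?_⟩
  intro π hπ
  exact Cfsg.Agent.Lib.helper7.subnormal_le_rad (radHyp_pi π) hA hπ

end Cfsg.Agent.S3743
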