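import Cfsg.Statements.S3745
import Mathlib
import Cfsg.Agent.Lib.helper1.Hall
import Cfsg.Agent.Lib.helper1.Factor
import Cfsg.Agent.Lib.helper8.CoprimeAction

set_option autoImplicit false
open Cfsg

open Pointwise
open scoped commutatorElement

namespace Cfsg.Agent.S3745

universe u

theorem conj_smul_le {Y : Type u} [Group Y] {G H : Subgroup Y} {g : Y}
    (hg : g ∈ Subgroup.normalizer (G : Set Y)) (hH : H ≤ G) : MulAut.conj g • H ≤ G := by
  intro x hx
  rw [Cfsg.Agent.Lib.helper1.mem_conj_smul] at hx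
  have h1 := Cfsg.Agent.Lib.helper8.conj_mem_of_mem_normalizer hg (hH hx)
  have e : g * (g⁻¹ * x * g) * g⁻¹ = x := by group
  rwa [e] at h1

theorem hall_cj_order {Y : Type u} [Group Y] [Finite Y] (G : Subgroup Y)
    (hsolv : Group.IsSolvable G) (m n : ℕ) (hG : Nat.card G = m * n) (hmn : m.Coprime n)
    (H₁ H₂ : Subgroup Y) (h1 : H₁ ≤ G) (h2 : H₂ ≤ G) (c1 : Nat.card H₁ = m)
    (c2 : Nat.card H₂ = m) : ∃ g ∈ G, MulAut.conj g • H₁ = H₂ := by
  have := hsolv
  obtain ⟨g, hg⟩ := Cfsg.Agent.Lib.helper1.hall_conj (G := G) m n hG hmn (H₁.subgroupOf G)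
    (H₂.subgroupOf G) (by rw [Nat.card_congr (Subgroup.subgroupOfEquivOfLe h1).toEquiv, c1])
    (by rw [Nat.card_congr (Subgroup.subgroupOfEquivOfLe h2).toEquiv, c2])
  exact ⟨g.1, g.2, Cfsg.Agent.Lib.helper1.conj_of_conj_subgroupOf G H₁ H₂ h1 h2 g hg⟩

theorem hallA {Y : Type u} [Group Y] [Finite Y] (A G : Subgroup Y)
    (hAG : A ≤ Subgroup.normalizer (G : Set Y)) (hcop : (Nat.card A).Coprime (Nat.card G))
    (hsolv : Group.IsSolvable G) (m n : ℕ) (hG : Nat.card G = m * n) (hmn : m.Coprime n) :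
    ∃ H : Subgroup Y, H ≤ G ∧ Nat.card H = m ∧ A ≤ Subgroup.normalizer (H : Set Y) := by
  have := hsolv
  obtain ⟨H₀', hH₀'⟩ := Cfsg.Agent.Lib.helper1.hall_exists (G := G) m n hG hmn
  set H₀ := H₀'.map G.subtype with hH₀
  have hH₀G : H₀ ≤ G := Subgroup.map_subtype_le H₀'
  have hH₀c : Nat.card H₀ = m := by
    rw [hH₀, Subgroup.card_map_of_injective G.subtype_injective]; exact hH₀'
  letI : MulAction Y (Subgroup Y) := MulAction.compHom (Subgroup Y) (MulAut.conj (G := Y))
  have hsm : ∀ (g : Y) (H : Subgroup Y), g • H = MulAut.conj g • H := fun _ _ => rfl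
  obtain ⟨k, hk, hk2⟩ := Cfsg.Agent.Lib.helper8.fix_internal (X := Subgroup Y) A G hAG hcop
    (Or.inr hsolv) H₀ (by
      intro a ha
      obtain ⟨g, hg, hg2⟩ := hall_cj_order G hsolv m n hG hmn H₀ (MulAut.conj a • H₀) hH₀G
        (conj_smul_le (hAG ha) hH₀G) hH₀c
        (by rw [Cfsg.Agent.Lib.helper1.card_conj_smul, hH₀c])
      exact ⟨g, hg, by rw [hsm, hsm, hg2]⟩)
  refine ⟨MulAut.conj k • H₀, conj_smul_le (Subgroup.le_normalizer hk) hH₀G, ?_, ?_⟩
  · rw [Cfsg.Agent.Lib.helper1.card_conj_smul, hH₀c]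
  · intro a ha
    rw [Cfsg.Agent.Lib.helper1.mem_normalizer_iff_conj_smul]
    have := hk2 a ha
    rw [hsm, hsm] at this
    exact this

theorem hallB {Y : Type u} [Group Y] [Finite Y] (A G : Subgroup Y)
    (hAG : A ≤ Subgroup.normalizer (G : Set Y)) (hcop : (Nat.card A).Coprime (Nat.card G))
    (hsolv : Group.IsSolvable G) (m n : ℕ) (hG : Nat.card G = m * n) (hmn : m.Coprime n)
    (H₁ H₂ : Subgroup Y) (h1 : H₁ ≤ G) (h2 : H₂ ≤ G) (c1 : Nat.card H₁ = m)
    (c2 : Nat.card H₂ = m) (n1 : A ≤ Subgroup.normalizer (H₁ : Set Y))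
    (n2 : A ≤ Subgroup.normalizer (H₂ : Set Y)) :
    ∃ c ∈ G ⊓ Subgroup.centralizer (A : Set Y), MulAut.conj c • H₁ = H₂ := by
  obtain ⟨g, hg, hg2⟩ := hall_cj_order G hsolv m n hG hmn H₁ H₂ h1 h2 c1 c2
  set D := G ⊓ Subgroup.normalizer (H₁ : Set Y) with hD
  have hAD : A ≤ Subgroup.normalizer (D : Set Y) := by
    apply Cfsg.Agent.Lib.helper8.le_normalizer_of_conj_mem
    intro a ha x hx
    refine ⟨Cfsg.Agent.Lib.helper8.conj_mem_of_mem_normalizer (hAG ha) hx.1, ?_⟩
    exact Subgroup.mul_mem _ (Subgroup.mul_mem _ (n1 ha) hx.2) (Subgroup.inv_mem _ (n1 ha))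
  have hcopD : (Nat.card A).Coprime (Nat.card D) :=
    Nat.Coprime.coprime_dvd_right (Subgroup.card_dvd_of_le inf_le_left) hcop
  have hsolvD : Group.IsSolvable D :=
    Cfsg.Agent.Lib.helper1.isSolvable_of_le_solvable D G inf_le_left hsolv
  obtain ⟨d, hd, hd2⟩ := Cfsg.Agent.Lib.helper8.coset_fix A D hAD hcopD (Or.inr hsolvD) g (by
    intro a ha
    refine ⟨?_, ?_⟩
    · have e : g⁻¹ * a * g * a⁻¹ = g⁻¹ * (a * g * a⁻¹) := by group
      rw [e]
      exact G.mul_mem (G.inv_mem hg)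
        (Cfsg.Agent.Lib.helper8.conj_mem_of_mem_normalizer (hAG ha) hg)
    · show g⁻¹ * a * g * a⁻¹ ∈ Subgroup.normalizer (H₁ : Set Y)
      rw [Cfsg.Agent.Lib.helper1.mem_normalizer_iff_conj_smul]
      have ea : MulAut.conj a⁻¹ • H₁ = H₁ :=
        (Cfsg.Agent.Lib.helper1.mem_normalizer_iff_conj_smul _ _).mp (Subgroup.inv_mem _ (n1 ha))
      have ea2 : MulAut.conj a • H₂ = H₂ :=
        (Cfsg.Agent.Lib.helper1.mem_normalizer_iff_conj_smul _ _).mp (n2 ha)
      rw [Cfsg.Agent.Lib.helper1.conj_mul_smul, ea, Cfsg.Agent.Lib.helper1.conj_mul_smul, hg2,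
        Cfsg.Agent.Lib.helper1.conj_mul_smul, ea2, ← hg2, ← Cfsg.Agent.Lib.helper1.conj_mul_smul,
        inv_mul_cancel, map_one, one_smul])
  refine ⟨g * d, ⟨G.mul_mem hg hd.1, ?_⟩, ?_⟩
  · show g * d ∈ Subgroup.centralizer (A : Set Y)
    rw [Subgroup.mem_centralizer_iff]
    intro a ha
    exact hd2 a ha
  · rw [Cfsg.Agent.Lib.helper1.conj_mul_smul,
      (Cfsg.Agent.Lib.helper1.mem_normalizer_iff_conj_smul _ _).mp hd.2, hg2]

theorem card_mul_relIndex' {Y : Type u} [Group Y] {H G : Subgroup Y} (h : H ≤ G) :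
    Nat.card H * H.relIndex G = Nat.card G := by
  rw [← Subgroup.relIndex_bot_left, Subgroup.relIndex_mul_relIndex _ _ _ bot_le h,
    Subgroup.relIndex_bot_left]

theorem exists_normal_pgroup {Y : Type u} [Group Y] [Finite Y] (G : Subgroup Y) [G.Normal]
    (hsolv : Group.IsSolvable G) (hne : G ≠ ⊥) :
    ∃ (M : Subgroup Y) (p : ℕ), M.Normal ∧ M ≤ G ∧ M ≠ ⊥ ∧ p.Prime ∧ IsPGroup p M := by
  classical
  let S : Set (Subgroup Y) := {M | M.Normal ∧ M ≤ G ∧ M ≠ ⊥}
  have hS : S.Finite := Set.toFinite S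
  obtain ⟨M, -, hMmin⟩ := hS.exists_le_minimal (a := G) ⟨inferInstance, le_rfl, hne⟩
  obtain ⟨⟨hMn, hMG, hMne⟩, hmin⟩ := hMmin
  have hsolvM : Group.IsSolvable M :=
    Cfsg.Agent.Lib.helper1.isSolvable_of_le_solvable M G hMG hsolv
  have hab : ⁅M, M⁆ = ⊥ := by
    by_contra hc
    have h1 : ⁅M, M⁆ ∈ S := ⟨inferInstance, (Subgroup.commutator_le_left M M).trans hMG, hc⟩
    have h2 : M ≤ ⁅M, M⁆ := hmin h1 (Subgroup.commutator_le_left M M)
    have h3 : commutator M = ⊤ := by
      rw [eq_top_iff]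
      intro x _
      have h4 := h2 x.2
      rw [← Subgroup.map_subtype_commutator] at h4
      obtain ⟨y, hy, hyx⟩ := h4
      have : y = x := Subtype.ext hyx
      rwa [this] at hy
    have : Nontrivial M := (Subgroup.nontrivial_iff_ne_bot M).mpr hMne
    exact (Group.IsSolvable.commutator_lt_top_of_nontrivial M).ne h3
  have hcard : Nat.card M ≠ 1 := by rwa [Ne, Subgroup.card_eq_one]
  obtain ⟨p, hp, hpd⟩ := Nat.exists_prime_and_dvd hcard
  have hcomm : ∀ a ∈ M, ∀ b ∈ M, a * b = b * a := by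
    intro a ha b hb
    have : ⁅a, b⁆ ∈ ⁅M, M⁆ := Subgroup.commutator_mem_commutator ha hb
    rw [hab, Subgroup.mem_bot, commutatorElement_eq_one_iff_mul_comm] at this
    exact this
  let T : Subgroup Y :=
    { carrier := {x | x ∈ M ∧ x ^ p = 1}
      mul_mem' := by
        intro a b ha hb
        refine ⟨M.mul_mem ha.1 hb.1, ?_⟩
        rw [(show Commute a b from hcomm a ha.1 b hb.1).mul_pow, ha.2, hb.2, one_mul]
      one_mem' := ⟨M.one_mem, one_pow p⟩
      inv_mem' := by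
        intro a ha
        exact ⟨M.inv_mem ha.1, by rw [inv_pow, ha.2, inv_one]⟩ }
  have hTn : T.Normal := ⟨fun x hx g => ⟨hMn.conj_mem x hx.1 g, by
    rw [conj_pow, hx.2, mul_one, mul_inv_cancel]⟩⟩
  have hTM : T ≤ M := fun x hx => hx.1
  have hTne : T ≠ ⊥ := by
    have : Fact p.Prime := ⟨hp⟩
    obtain ⟨x, hx⟩ := exists_prime_orderOf_dvd_card' (G := M) p hpd
    intro h
    have hxT : (x : Y) ∈ T := ⟨x.2, by
      rw [← hx, ← Subgroup.orderOf_coe]; exact pow_orderOf_eq_one _⟩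
    rw [h, Subgroup.mem_bot] at hxT
    have : x = 1 := Subtype.ext hxT
    rw [this, orderOf_one] at hx
    exact hp.one_lt.ne hx
  have hMT : M ≤ T := hmin ⟨hTn, hTM.trans hMG, hTne⟩ hTM
  refine ⟨M, p, hMn, hMG, hMne, hp, ?_⟩
  intro x
  exact ⟨1, by rw [pow_one]; exact Subtype.ext (hMT x.2).2⟩

theorem partC (k : ℕ) : ∀ (Y : Type u) [Group Y] [Finite Y] (A G : Subgroup Y) [G.Normal]
    (m n : ℕ), Nat.card G ≤ k → Nat.card G = m * n → m.Coprime n →
    (Nat.card A).Coprime (Nat.card G) → Group.IsSolvable G → ∀ U : Subgroup Y, U ≤ G →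
    A ≤ Subgroup.normalizer (U : Set Y) → (Nat.card U).Coprime n →
    ∃ H : Subgroup Y, H ≤ G ∧ Nat.card H = m ∧ A ≤ Subgroup.normalizer (H : Set Y) ∧ U ≤ H := by
  induction k with
  | zero =>
    intro Y _ _ A G _ m n hk
    exact absurd hk (by have := Nat.card_pos (α := G); omega)
  | succ k ih =>
    intro Y _ _ A G _ m n hk hG hmn hcop hsolv U hUG hAU hUn
    by_cases hbot : G = ⊥
    · subst hbot
      refine ⟨⊥, le_rfl, ?_, ?_, hUG⟩
      · rw [Subgroup.card_bot] at hG ⊢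
        exact (Nat.eq_one_of_mul_eq_one_right hG.symm).symm
      · rw [Subgroup.normalizer_eq_top]; exact le_top
    obtain ⟨M, p, hMn, hMG, hMne, hp, hMp⟩ := exists_normal_pgroup G hsolv hbot
    have : Fact p.Prime := ⟨hp⟩
    obtain ⟨e, he⟩ := hMp.exists_card_eq
    have hpe2 : 2 ≤ p ^ e := by
      rw [← he]
      have h1 : Nat.card M ≠ 1 := by rwa [Ne, Subgroup.card_eq_one]
      have h2 := Nat.card_pos (α := M)
      omega
    set f := QuotientGroup.mk' M with hf
    have hGb : Nat.card (G.map f) * Nat.card M = Nat.card G :=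
      Cfsg.Agent.Lib.helper1.card_map_mk_mul_card_of_le M G hMG
    have hGbk : Nat.card (G.map f) ≤ k := by
      rw [he] at hGb
      have := Nat.card_pos (α := G.map f)
      nlinarith
    have hGbn : (G.map f).Normal :=
      Subgroup.Normal.map inferInstance f (QuotientGroup.mk'_surjective M)
    have hcopb : (Nat.card (A.map f)).Coprime (Nat.card (G.map f)) :=
      Nat.Coprime.coprime_dvd_left (Subgroup.card_map_dvd A f)
        (Nat.Coprime.coprime_dvd_right (Dvd.intro _ hGb) hcop)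
    have hsolvb : Group.IsSolvable (G.map f) := Cfsg.Agent.Lib.helper1.isSolvable_map f G hsolv
    have hAUb : A.map f ≤ Subgroup.normalizer ((U.map f : Subgroup (Y ⧸ M)) : Set (Y ⧸ M)) :=
      (Subgroup.map_mono hAU).trans (Subgroup.le_normalizer_map f)
    have lift : ∀ m' n' : ℕ, Nat.card (G.map f) = m' * n' → m'.Coprime n' →
        (Nat.card U).Coprime n' → ∃ L : Subgroup Y, L ≤ G ∧ Nat.card L = m' * Nat.card M ∧
          A ≤ Subgroup.normalizer (L : Set Y) ∧ U ≤ L ∧ M ≤ L := by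
      intro m' n' h1 h2 h3
      obtain ⟨Hb, hHbG, hHbc, hHbA, hHbU⟩ := ih (Y ⧸ M) (A.map f) (G.map f) m' n' hGbk h1 h2
        hcopb hsolvb (U.map f) (Subgroup.map_mono hUG) hAUb
        (Nat.Coprime.coprime_dvd_left (Subgroup.card_map_dvd U f) h3)
      refine ⟨Hb.comap f, ?_, ?_, ?_, ?_, ?_⟩
      · have := Subgroup.comap_mono (f := f) hHbG
        rwa [Subgroup.comap_map_eq, QuotientGroup.ker_mk', sup_eq_left.mpr hMG] at this
      · rw [Cfsg.Agent.Lib.helper1.card_comap_mk, hHbc]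
      · exact ((Subgroup.le_comap_map f A).trans (Subgroup.comap_mono hHbA)).trans
          (Subgroup.le_normalizer_comap f)
      · exact (Subgroup.le_comap_map f U).trans (Subgroup.comap_mono hHbU)
      · intro x hx
        rw [Subgroup.mem_comap]
        have : f x = 1 := (QuotientGroup.eq_one_iff x).mpr hx
        rw [this]; exact Hb.one_mem
    have hpd : p ^ e ∣ m * n := by rw [← hG, ← he]; exact Subgroup.card_dvd_of_le hMG
    have hpe0 : 0 < p ^ e := by omega
    by_cases hpm : p ∣ m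
    · have hpn : (p ^ e).Coprime n := Nat.Coprime.pow_left e (Nat.Coprime.coprime_dvd_left hpm hmn)
      have hpem : p ^ e ∣ m := hpn.dvd_of_dvd_mul_right hpd
      obtain ⟨m', rfl⟩ := hpem
      have h1 : Nat.card (G.map f) = m' * n := by
        have : Nat.card (G.map f) * p ^ e = (m' * n) * p ^ e := by rw [← he, hGb, hG, he]; ring
        exact Nat.eq_of_mul_eq_mul_right hpe0 this
      obtain ⟨L, hLG, hLc, hLA, hUL, -⟩ := lift m' n h1
        (Nat.Coprime.coprime_dvd_left (Dvd.intro_left _ rfl) hmn) hUn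
      exact ⟨L, hLG, by rw [hLc, he]; ring, hLA, hUL⟩
    · have hpm' : (p ^ e).Coprime m :=
        Nat.Coprime.pow_left e ((Nat.Prime.coprime_iff_not_dvd hp).mpr hpm)
      have hpen : p ^ e ∣ n := hpm'.dvd_of_dvd_mul_left hpd
      obtain ⟨n', rfl⟩ := hpen
      have h1 : Nat.card (G.map f) = m * n' := by
        have : Nat.card (G.map f) * p ^ e = (m * n') * p ^ e := by rw [← he, hGb, hG, he]; ring
        exact Nat.eq_of_mul_eq_mul_right hpe0 this
      have hUpe : (Nat.card U).Coprime (p ^ e) :=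
        Nat.Coprime.coprime_dvd_right (Dvd.intro _ rfl) hUn
      obtain ⟨L, hLG, hLc, hLA, hUL, hML⟩ := lift m n' h1
        (Nat.Coprime.coprime_dvd_right (Dvd.intro_left _ rfl) hmn)
        (Nat.Coprime.coprime_dvd_right (Dvd.intro_left _ rfl) hUn)
      have hsolvL := Cfsg.Agent.Lib.helper1.isSolvable_of_le_solvable L G hLG hsolv
      have hcopL : (Nat.card A).Coprime (Nat.card L) :=
        Nat.Coprime.coprime_dvd_right (Subgroup.card_dvd_of_le hLG) hcop
      obtain ⟨K, hKL, hKc, hKA⟩ := hallA A L hLA hcopL hsolvL m (p ^ e) (by rw [hLc, he])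
        hpm'.symm
      set T := U ⊔ M with hT
      have hdUM : Disjoint U M := Subgroup.disjoint_of_coprime_natCard (by rw [he]; exact hUpe)
      have hTc : Nat.card T = Nat.card U * p ^ e := by
        rw [hT, Cfsg.Agent.Lib.helper1.card_sup_of_disjoint_normal U M hdUM, he, mul_comm]
      have hdKM : Disjoint K M := Subgroup.disjoint_of_coprime_natCard (by
        rw [he, hKc]; exact hpm'.symm)
      have hLsup : K ⊔ M = L := by
        apply Subgroup.eq_of_le_of_card_ge (sup_le hKL hML)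
        rw [Cfsg.Agent.Lib.helper1.card_sup_of_disjoint_normal K M hdKM, hLc, hKc, mul_comm]
      set B := K ⊓ T with hB
      have hBM : B ⊔ M = T := by
        apply le_antisymm (sup_le inf_le_right le_sup_right)
        apply sup_le _ le_sup_right
        intro u hu
        have huL : u ∈ K ⊔ M := by rw [hLsup]; exact hUL hu
        rw [← SetLike.mem_coe, Subgroup.mul_normal] at huL
        obtain ⟨k', hk', x, hx, rfl⟩ := huL
        have hk'T : k' ∈ T := by
          have : k' = (k' * x) * x⁻¹ := by group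
          rw [this]
          exact T.mul_mem (Subgroup.mem_sup_left hu) (Subgroup.mem_sup_right (M.inv_mem hx))
        exact Subgroup.mul_mem _ (Subgroup.mem_sup_left ⟨hk', hk'T⟩) (Subgroup.mem_sup_right hx)
      have hBcop : (Nat.card B).Coprime (p ^ e) :=
        Nat.Coprime.coprime_dvd_left (Subgroup.card_dvd_of_le inf_le_left) (by
          rw [hKc]; exact hpm'.symm)
      have hdBM : Disjoint B M := Subgroup.disjoint_of_coprime_natCard (by rw [he]; exact hBcop)
      have hBc : Nat.card B = Nat.card U := by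
        have h2 := Cfsg.Agent.Lib.helper1.card_sup_of_disjoint_normal B M hdBM
        rw [hBM, hTc, he, mul_comm] at h2
        exact (Nat.eq_of_mul_eq_mul_left hpe0 h2).symm
      have hAM : A ≤ Subgroup.normalizer (M : Set Y) := by
        rw [Subgroup.normalizer_eq_top]; exact le_top
      have hAT : A ≤ Subgroup.normalizer (T : Set Y) := by
        intro a ha
        rw [Cfsg.Agent.Lib.helper1.mem_normalizer_iff_conj_smul, hT, Subgroup.smul_sup,
          (Cfsg.Agent.Lib.helper1.mem_normalizer_iff_conj_smul _ _).mp (hAU ha),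
          (Cfsg.Agent.Lib.helper1.mem_normalizer_iff_conj_smul _ _).mp (hAM ha)]
      have hAB : A ≤ Subgroup.normalizer (B : Set Y) := by
        intro a ha
        rw [Cfsg.Agent.Lib.helper1.mem_normalizer_iff_conj_smul, hB, Subgroup.smul_inf,
          (Cfsg.Agent.Lib.helper1.mem_normalizer_iff_conj_smul _ _).mp (hKA ha),
          (Cfsg.Agent.Lib.helper1.mem_normalizer_iff_conj_smul _ _).mp (hAT ha)]
      have hTG : T ≤ G := sup_le hUG hMG
      have hsolvT := Cfsg.Agent.Lib.helper1.isSolvable_of_le_solvable T G hTG hsolv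
      have hcopT : (Nat.card A).Coprime (Nat.card T) :=
        Nat.Coprime.coprime_dvd_right (Subgroup.card_dvd_of_le hTG) hcop
      obtain ⟨c, hc, hc2⟩ := hallB A T hAT hcopT hsolvT (Nat.card U) (p ^ e) hTc hUpe B U
        inf_le_right le_sup_left hBc rfl hAB hAU
      have hcG : c ∈ Subgroup.normalizer (G : Set Y) := by
        rw [Subgroup.normalizer_eq_top]; exact Subgroup.mem_top c
      refine ⟨MulAut.conj c • K, conj_smul_le hcG (hKL.trans hLG), ?_, ?_, ?_⟩
      · rw [Cfsg.Agent.Lib.helper1.card_conj_smul, hKc]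
      · intro a ha
        have hca : a * c = c * a := (Subgroup.mem_centralizer_iff.mp hc.2) a ha
        rw [Cfsg.Agent.Lib.helper1.mem_normalizer_iff_conj_smul,
          ← Cfsg.Agent.Lib.helper1.conj_mul_smul, hca, Cfsg.Agent.Lib.helper1.conj_mul_smul,
          (Cfsg.Agent.Lib.helper1.mem_normalizer_iff_conj_smul _ _).mp (hKA ha)]
      · rw [← hc2]
        exact Subgroup.pointwise_smul_le_pointwise_smul_iff.mpr inf_le_left

theorem partC' {Y : Type u} [Group Y] [Finite Y] (A G : Subgroup Y)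
    (hAG : A ≤ Subgroup.normalizer (G : Set Y)) (m n : ℕ) (hG : Nat.card G = m * n)
    (hmn : m.Coprime n) (hcop : (Nat.card A).Coprime (Nat.card G)) (hsolv : Group.IsSolvable G)
    (U : Subgroup Y) (hUG : U ≤ G) (hAU : A ≤ Subgroup.normalizer (U : Set Y))
    (hUn : (Nat.card U).Coprime n) :
    ∃ H : Subgroup Y, H ≤ G ∧ Nat.card H = m ∧ A ≤ Subgroup.normalizer (H : Set Y) ∧ U ≤ H := by
  set N := Subgroup.normalizer (G : Set Y) with hN
  have hGN : G ≤ N := Subgroup.le_normalizer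
  have hcG : Nat.card (G.subgroupOf N) = Nat.card G :=
    Nat.card_congr (Subgroup.subgroupOfEquivOfLe hGN).toEquiv
  have hcA : Nat.card (A.subgroupOf N) = Nat.card A :=
    Nat.card_congr (Subgroup.subgroupOfEquivOfLe hAG).toEquiv
  have hcU : Nat.card (U.subgroupOf N) = Nat.card U :=
    Nat.card_congr (Subgroup.subgroupOfEquivOfLe (hUG.trans hGN)).toEquiv
  have hsolv' : Group.IsSolvable (G.subgroupOf N) :=
    Group.isSolvable_of_isSolvable_injective (f := (Subgroup.subgroupOfEquivOfLe hGN).toMonoidHom)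
      (Subgroup.subgroupOfEquivOfLe hGN).injective
  have hGn : (G.subgroupOf N).Normal := Subgroup.normal_in_normalizer
  obtain ⟨H', hH'G, hH'c, hH'A, hH'U⟩ := partC (Nat.card (G.subgroupOf N)) N (A.subgroupOf N)
    (G.subgroupOf N) m n le_rfl (by rw [hcG, hG]) hmn (by rw [hcA, hcG]; exact hcop) hsolv'
    (U.subgroupOf N) (fun x hx => hUG hx) (by
      apply Cfsg.Agent.Lib.helper8.le_normalizer_of_conj_mem
      intro a ha x hx
      exact Cfsg.Agent.Lib.helper8.conj_mem_of_mem_normalizer (hAU ha) hx) (by rw [hcU]; exact hUn)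
  refine ⟨H'.map N.subtype, ?_, ?_, ?_, ?_⟩
  · rintro _ ⟨y, hy, rfl⟩
    exact hH'G hy
  · rw [Subgroup.card_map_of_injective N.subtype_injective, hH'c]
  · apply Cfsg.Agent.Lib.helper8.le_normalizer_of_conj_mem
    rintro a ha _ ⟨y, hy, rfl⟩
    have h1 : (⟨a, hAG ha⟩ : N) ∈ A.subgroupOf N := ha
    exact ⟨_, Cfsg.Agent.Lib.helper8.conj_mem_of_mem_normalizer (hH'A h1) hy, rfl⟩
  · intro u hu
    have h1 : (⟨u, hGN (hUG hu)⟩ : N) ∈ U.subgroupOf N := hu
    exact ⟨_, hH'U h1, rfl⟩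

theorem decomp (π : Set ℕ) (N : ℕ) : 0 < N → ∃ m n : ℕ, N = m * n ∧ m.Coprime n ∧
    (∀ p : ℕ, p.Prime → p ∣ m → p ∈ π) ∧ (∀ p : ℕ, p.Prime → p ∣ n → p ∉ π) := by
  induction N using Nat.recOnPosPrimePosCoprime with
  | prime_pow p k hp hk =>
    intro _
    by_cases hpπ : p ∈ π
    · refine ⟨p ^ k, 1, (mul_one _).symm, Nat.coprime_one_right _, ?_, ?_⟩
      · intro q hq hqd
        have := (Nat.prime_dvd_prime_iff_eq hq hp).mp (hq.dvd_of_dvd_pow hqd)
        rwa [this]
      · intro q hq hqd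
        exact absurd (Nat.dvd_one.mp hqd) hq.ne_one
    · refine ⟨1, p ^ k, (one_mul _).symm, Nat.coprime_one_left _, ?_, ?_⟩
      · intro q hq hqd
        exact absurd (Nat.dvd_one.mp hqd) hq.ne_one
      · intro q hq hqd
        have := (Nat.prime_dvd_prime_iff_eq hq hp).mp (hq.dvd_of_dvd_pow hqd)
        rwa [this]
  | zero => intro h; exact absurd h (lt_irrefl 0)
  | one =>
    intro _
    refine ⟨1, 1, rfl, Nat.coprime_one_left _, ?_, ?_⟩ <;>
    · intro q hq hqd
      exact absurd (Nat.dvd_one.mp hqd) hq.ne_one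
  | coprime a b ha hb hab iha ihb =>
    intro _
    obtain ⟨ma, na, rfl, hca, ha1, ha2⟩ := iha (by omega)
    obtain ⟨mb, nb, rfl, hcb, hb1, hb2⟩ := ihb (by omega)
    refine ⟨ma * mb, na * nb, by ring, ?_, ?_, ?_⟩
    · apply Nat.Coprime.mul_left
      · exact Nat.Coprime.mul_right hca
          (Nat.Coprime.coprime_dvd_left (Dvd.intro _ rfl)
            (Nat.Coprime.coprime_dvd_right (Dvd.intro_left _ rfl) hab))
      · exact Nat.Coprime.mul_right
          ((Nat.Coprime.coprime_dvd_left (Dvd.intro_left _ rfl)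
            (Nat.Coprime.coprime_dvd_right (Dvd.intro _ rfl) hab)).symm) hcb
    · intro q hq hqd
      rcases (Nat.Prime.dvd_mul hq).mp hqd with h | h
      · exact ha1 q hq h
      · exact hb1 q hq h
    · intro q hq hqd
      rcases (Nat.Prime.dvd_mul hq).mp hqd with h | h
      · exact ha2 q hq h
      · exact hb2 q hq h

theorem hallOf_iff {Y : Type u} [Group Y] [Finite Y] (π : Set ℕ) (G H : Subgroup Y) (m n : ℕ)
    (hG : Nat.card G = m * n) (hmn : m.Coprime n) (hm : ∀ p : ℕ, p.Prime → p ∣ m → p ∈ π)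
    (hn : ∀ p : ℕ, p.Prime → p ∣ n → p ∉ π) :
    Cfsg.IsPiHallOf π H G ↔ H ≤ G ∧ Nat.card H = m := by
  have hmpos : 0 < m := by
    rcases Nat.eq_zero_or_pos m with h | h
    · rw [h, zero_mul] at hG
      exact absurd hG Nat.card_pos.ne'
    · exact h
  constructor
  · rintro ⟨hle, h1, h2⟩
    refine ⟨hle, ?_⟩
    have e := card_mul_relIndex' hle
    rw [hG] at e
    have c1 : (Nat.card H).Coprime n := Nat.coprime_of_dvd (fun q hq hq1 hq2 => hn q hq hq2 (h1 q hq hq1))
    have c2 : (H.relIndex G).Coprime m :=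
      Nat.coprime_of_dvd (fun q hq hq1 hq2 => h2 q hq (hm q hq hq2) hq1)
    have d1 : Nat.card H ∣ m := c1.dvd_of_dvd_mul_right (Dvd.intro _ e)
    have d2 : H.relIndex G ∣ n := c2.dvd_of_dvd_mul_left (Dvd.intro_left _ e)
    obtain ⟨a, ha⟩ := d1
    obtain ⟨b, hb⟩ := d2
    have hH0 : 0 < Nat.card H := Nat.card_pos
    have hr0 : 0 < H.relIndex G := by
      rcases Nat.eq_zero_or_pos (H.relIndex G) with h | h
      · rw [h, mul_zero] at e
        have : 0 < m * n := by rw [← hG]; exact Nat.card_pos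
        omega
      · exact h
    have e2 : Nat.card H * H.relIndex G * 1 = Nat.card H * H.relIndex G * (a * b) := by
      rw [mul_one]
      conv_lhs => rw [e, ha, hb]
      ring
    have hab : a * b = 1 := (Nat.eq_of_mul_eq_mul_left (Nat.mul_pos hH0 hr0) e2).symm
    rw [ha, Nat.eq_one_of_mul_eq_one_right hab, mul_one]
  · rintro ⟨hle, hc⟩
    have e := card_mul_relIndex' hle
    rw [hG, hc] at e
    have hr : H.relIndex G = n := Nat.eq_of_mul_eq_mul_left hmpos e
    refine ⟨hle, ?_, ?_⟩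
    · intro q hq hqd
      rw [hc] at hqd
      exact hm q hq hqd
    · intro q hq hqπ hqd
      rw [hr] at hqd
      exact hn q hq hqd hqπ


/-- Coprime action on a solvable group and Hall subgroups. Let A and G be subgroups of a finite group with A normalizing G, the orders of A and G coprime, and G solvable, and let π be a set of primes. Then (a) G has an A-invariant Hall π-subgroup; (b) any two A-invariant Hall π-subgroups of G are conjugate by an element of C_G(A); (c) every A-invariant π-subgroup of G lies in an A-invariant Hall π-subgroup of G. -/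
theorem result {X : Type*} [Group X] [Finite X] (A G : Subgroup X) (hAG : A ≤ Subgroup.normalizer (G : Set X)) (hcop : (Nat.card A).Coprime (Nat.card G)) (hsolv : Group.IsSolvable G) (π : Set ℕ) : (∃ H : Subgroup X, Cfsg.IsPiHallOf π H G ∧ A ≤ Subgroup.normalizer (H : Set X)) ∧ (∀ H₁ H₂ : Subgroup X, Cfsg.IsPiHallOf π H₁ G → A ≤ Subgroup.normalizer (H₁ : Set X) → Cfsg.IsPiHallOf π H₂ G → A ≤ Subgroup.normalizer (H₂ : Set X) → ∃ c ∈ G ⊓ Subgroup.centralizer (A : Set X), H₂ = H₁.map (MulAut.conj c).toMonoidHom) ∧ (∀ U : Subgroup X, U ≤ G → A ≤ Subgroup.normalizer (U : Set X) → (∀ p : ℕ, p.Prime → p ∣ Nat.card U → p ∈ π) → ∃ H : Subgroup X, Cfsg.IsPiHallOf π H G ∧ A ≤ Subgroup.normalizer (H : Set X) ∧ U ≤ H) := by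
  obtain ⟨m, n, hG, hmn, hm, hn⟩ := decomp π (Nat.card G) Nat.card_pos
  refine ⟨?_, ?_, ?_⟩
  · obtain ⟨H, hHG, hHc, hHA⟩ := hallA A G hAG hcop hsolv m n hG hmn
    exact ⟨H, (hallOf_iff π G H m n hG hmn hm hn).mpr ⟨hHG, hHc⟩, hHA⟩
  · intro H₁ H₂ h1 n1 h2 n2
    obtain ⟨l1, c1⟩ := (hallOf_iff π G H₁ m n hG hmn hm hn).mp h1
    obtain ⟨l2, c2⟩ := (hallOf_iff π G H₂ m n hG hmn hm hn).mp h2
    obtain ⟨c, hc, hc2⟩ := hallB A G hAG hcop hsolv m n hG hmn H₁ H₂ l1 l2 c1 c2 n1 n2
    exact ⟨c, hc, hc2.symm⟩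
  · intro U hUG hAU hU
    have hUn : (Nat.card U).Coprime n :=
      Nat.coprime_of_dvd (fun q hq hq1 hq2 => hn q hq hq2 (hU q hq hq1))
    obtain ⟨H, hHG, hHc, hHA, hUH⟩ := partC' A G hAG m n hG hmn hcop hsolv U hUG hAU hUn
    exact ⟨H, (hallOf_iff π G H m n hG hmn hm hn).mpr ⟨hHG, hHc⟩, hHA, hUH⟩

end Cfsg.Agent.S3745
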