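import Cfsg.Statements.S3746
import Mathlib
import Cfsg.Agent.Lib.helper7.Layer

set_option autoImplicit false
open Cfsg

namespace Cfsg.Agent.S3746

open scoped commutatorElement in
theorem qs_comm_of_surj {X Q : Type*} [Group X] [Group Q] (f : X →* Q) (hf : Function.Surjective f)
    (hker : f.ker ≤ Subgroup.center X) (hQ : Cfsg.IsQuasisimple Q) :
    Cfsg.IsQuasisimple ↥(commutator X) := by
  obtain ⟨hQp, hQnt, hQN⟩ := Cfsg.Agent.Lib.helper7.qs_iff.mp hQ
  have hmapD : (commutator X).map f = ⊤ := by
    rw [commutator_def, Subgroup.map_commutator, ← MonoidHom.range_eq_map,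
      MonoidHom.range_eq_top.mpr hf, ← commutator_def, hQp]
  have decomp : ∀ N : Subgroup X, N.map f = ⊤ → ∀ x : X,
      ∃ a ∈ Subgroup.center X, ∃ n ∈ N, x = a * n := by
    intro N hN x
    have : f x ∈ N.map f := by rw [hN]; trivial
    obtain ⟨n, hn, hnx⟩ := this
    refine ⟨x * n⁻¹, hker ?_, n, hn, by group⟩
    rw [MonoidHom.mem_ker, map_mul, map_inv, hnx, mul_inv_cancel]
  have comm_le : ∀ N : Subgroup X, N.map f = ⊤ → commutator X ≤ ⁅N, N⁆ := by
    intro N hN
    rw [commutator_def, Subgroup.commutator_le]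
    intro x _ y _
    obtain ⟨a, ha, n, hn, rfl⟩ := decomp N hN x
    obtain ⟨b, hb, m, hm, rfl⟩ := decomp N hN y
    rw [Cfsg.Agent.Lib.helper7.commElem_center_mul ha hb]
    exact Subgroup.commutator_mem_commutator hn hm
  have hperf : ⁅commutator X, commutator X⁆ = commutator X :=
    le_antisymm (Subgroup.commutator_le_self _) (comm_le _ hmapD)
  have hne : commutator X ≠ ⊥ := by
    intro hbot
    rw [hbot, Subgroup.map_bot] at hmapD
    exact bot_ne_top hmapD
  rw [Cfsg.Agent.Lib.helper7.qs_iff]
  refine ⟨(Subgroup.isPerfect_iff.mpr hperf).commutator_eq_top,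
    (Subgroup.nontrivial_iff_ne_bot _).mpr hne, ?_⟩
  intro N hN
  set N' : Subgroup X := N.map (commutator X).subtype with hN'
  have hN'n : N'.Normal := by
    constructor
    intro n hn g
    obtain ⟨a, ha, d, hd, rfl⟩ := decomp (commutator X) hmapD g
    obtain ⟨m, hm, rfl⟩ := hn
    refine ⟨⟨d, hd⟩ * m * ⟨d, hd⟩⁻¹, hN.conj_mem m hm _, ?_⟩
    rw [Subgroup.mem_center_iff] at ha
    simp only [Subgroup.coe_subtype, Subgroup.coe_mul, Subgroup.coe_inv]
    calc d * (m : X) * d⁻¹ = (d * (m : X) * d⁻¹ * a) * a⁻¹ := by group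
      _ = (a * (d * (m : X) * d⁻¹)) * a⁻¹ := by rw [ha]
      _ = a * d * (m : X) * (a * d)⁻¹ := by group
  have hmapn : (N'.map f).Normal := hN'n.map _ hf
  rcases hQN _ hmapn with ht | hc
  · left
    have h2 : commutator X ≤ N' := (comm_le N' ht).trans (Subgroup.commutator_le_self _)
    rw [eq_top_iff]
    intro d _
    obtain ⟨m, hm, hmd⟩ := h2 d.2
    have : m = d := Subtype.ext hmd
    rwa [this] at hm
  · right
    intro n hn
    rw [Subgroup.mem_center_iff]
    intro g
    have hn' : (n : X) ∈ N' := ⟨n, hn, rfl⟩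
    have hcen : ∀ x : X, ⁅(n : X), x⁆ ∈ Subgroup.center X := by
      intro x
      apply hker
      rw [MonoidHom.mem_ker, map_commutatorElement]
      have h1 : f n ∈ Subgroup.center Q := hc ⟨n, hn', rfl⟩
      rw [Subgroup.mem_center_iff] at h1
      rw [commutatorElement_def, ← h1 (f x)]
      group
    have hcomm : commutator X ≤ Subgroup.centralizer {(n : X)} := by
      have hcd : commutator X = ⁅(⊤ : Subgroup X), (⊤ : Subgroup X)⁆ := commutator_def X
      refine hcd.le.trans ?_
      rw [Subgroup.commutator_le]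
      intro x _ y _
      rw [Subgroup.mem_centralizer_iff]
      intro h hh
      rw [Set.mem_singleton_iff] at hh
      subst hh
      have e1 : (n : X) * x * (n : X)⁻¹ = ⁅(n : X), x⁆ * x := by
        rw [commutatorElement_def]; group
      have e2 : (n : X) * y * (n : X)⁻¹ = ⁅(n : X), y⁆ * y := by
        rw [commutatorElement_def]; group
      have e3 : (n : X) * ⁅x, y⁆ * (n : X)⁻¹ =
          ⁅(n : X) * x * (n : X)⁻¹, (n : X) * y * (n : X)⁻¹⁆ := by
        simp only [commutatorElement_def]; group
      rw [e1, e2, Cfsg.Agent.Lib.helper7.commElem_center_mul (hcen x) (hcen y)] at e3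
      calc (n : X) * ⁅x, y⁆ = ((n : X) * ⁅x, y⁆ * (n : X)⁻¹) * n := by group
        _ = ⁅x, y⁆ * n := by rw [e3]
    have := hcomm g.2
    rw [Subgroup.mem_centralizer_iff] at this
    exact Subtype.ext (this _ rfl).symm


/-- Let Z ≤ Z(G) be a central subgroup of a finite group G and E a subgroup of G containing Z whose image E/Z is a component of G/Z (subnormal and quasisimple). Then the derived subgroup [E, E] is a component of G. -/
theorem result {G : Type*} [Group G] [Finite G] (Z : Subgroup G) (hZ : Z ≤ Subgroup.center G) [Z.Normal] (E : Subgroup G) (hZE : Z ≤ E) (hE : Cfsg.IsComponent (E.map (QuotientGroup.mk' Z))) : Cfsg.IsComponent ⁅E, E⁆ := by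
  classical
  obtain ⟨hsn, hqs⟩ := hE
  have hEsn : E.IsSubnormal := by
    have h1 := hsn.comap (QuotientGroup.mk' Z)
    rwa [Subgroup.comap_map_eq_self (by rw [QuotientGroup.ker_mk']; exact hZE)] at h1
  let f : E →* E.map (QuotientGroup.mk' Z) := (QuotientGroup.mk' Z).subgroupMap E
  have hf : Function.Surjective f := MonoidHom.subgroupMap_surjective _ _
  have hker : f.ker ≤ Subgroup.center E := by
    intro x hx
    rw [MonoidHom.mem_ker] at hx
    have h1 : (QuotientGroup.mk' Z) (x : G) = 1 := congrArg Subtype.val hx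
    rw [QuotientGroup.mk'_apply, QuotientGroup.eq_one_iff] at h1
    have h2 := hZ h1
    rw [Subgroup.mem_center_iff] at h2 ⊢
    intro g
    exact Subtype.ext (h2 g)
  have hq := qs_comm_of_surj f hf hker hqs
  have hcomp : Cfsg.IsComponent (commutator E) := ⟨Subgroup.Normal.isSubnormal inferInstance, hq⟩
  have := Cfsg.Agent.Lib.helper7.comp_map_subtype hEsn hcomp
  have e : (commutator E).map E.subtype = ⁅E, E⁆ := by
    rw [commutator_def, Subgroup.map_commutator, ← MonoidHom.range_eq_map, Subgroup.range_subtype]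
  rwa [e] at this

end Cfsg.Agent.S3746
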