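import Cfsg.Statements.S3747
import Mathlib
import Cfsg.Agent.Lib.helper7.Subn
import Cfsg.Agent.Lib.helper7.Central
import Cfsg.Agent.Lib.helper7.Layer2
import Cfsg.Agent.Lib.helper7.FStar

set_option autoImplicit false
open Cfsg

namespace Cfsg.Agent.S3747

open Pointwise in
theorem parta {G : Type*} [Group G] [Finite G] (K : Subgroup G) (hK : Cfsg.IsComponent K)
    (hZ : Subgroup.center ↥K = ⊥) :
    Subgroup.normalClosure (K : Set G) ≠ ⊥ ∧ ∀ N : Subgroup G, N.Normal →
      N ≤ Subgroup.normalClosure (K : Set G) → N = ⊥ ∨ N = Subgroup.normalClosure (K : Set G) := by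
  classical
  have hKZ : K ⊓ Subgroup.centralizer (K : Set G) = ⊥ := by
    rw [← Cfsg.Agent.Lib.helper7.map_center_subtype, hZ, Subgroup.map_bot]
  haveI : Fintype G := Fintype.ofFinite G
  let s : Finset (Subgroup G) := Finset.univ.image (fun g : G => MulAut.conj g • K)
  have hs : ∀ L ∈ s, ∃ g : G, L = MulAut.conj g • K := by
    intro L hL
    obtain ⟨g, _, rfl⟩ := Finset.mem_image.mp hL
    exact ⟨g, rfl⟩
  have hcomp : ∀ L ∈ s, Cfsg.IsComponent L := by
    intro L hL
    obtain ⟨g, rfl⟩ := hs L hL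
    exact Cfsg.Agent.Lib.helper7.comp_map_equiv (MulAut.conj g) hK
  have hcomm : ∀ A ∈ s, ∀ B ∈ s, A ≠ B → ∀ a ∈ A, ∀ b ∈ B, a * b = b * a := by
    intro A hA B hB hne a ha b hb
    have h := Cfsg.Agent.Lib.helper7.comp_comm_of_ne (hcomp A hA) (hcomp B hB) hne
    rw [Subgroup.commutator_eq_bot_iff_le_centralizer] at h
    exact (Subgroup.mem_centralizer_iff.mp (h ha) b hb).symm
  have hcen : ∀ L ∈ s, L ⊓ Subgroup.centralizer (L : Set G) = ⊥ := by
    intro L hL
    obtain ⟨g, rfl⟩ := hs L hL
    rw [eq_bot_iff]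
    intro x hx
    obtain ⟨hx1, hx2⟩ := Subgroup.mem_inf.mp hx
    have h1 : g⁻¹ * x * g ∈ K := by
      rw [Subgroup.mem_pointwise_smul_iff_inv_smul_mem] at hx1
      simpa [MulAut.smul_def] using hx1
    have h2 : g⁻¹ * x * g ∈ Subgroup.centralizer (K : Set G) := by
      rw [Subgroup.mem_centralizer_iff]
      intro k hk
      have hk' : g * k * g⁻¹ ∈ MulAut.conj g • K := ⟨k, hk, rfl⟩
      have := Subgroup.mem_centralizer_iff.mp hx2 _ hk'
      calc k * (g⁻¹ * x * g) = g⁻¹ * ((g * k * g⁻¹) * x) * g := by group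
        _ = g⁻¹ * (x * (g * k * g⁻¹)) * g := by rw [this]
        _ = g⁻¹ * x * g * k := by group
    have h3 : g⁻¹ * x * g ∈ K ⊓ Subgroup.centralizer (K : Set G) := Subgroup.mem_inf.mpr ⟨h1, h2⟩
    rw [hKZ, Subgroup.mem_bot] at h3
    rw [Subgroup.mem_bot]
    calc x = g * (g⁻¹ * x * g) * g⁻¹ := by group
      _ = 1 := by rw [h3]; group
  set T : Subgroup G := s.sup id with hT
  have hle : Subgroup.normalClosure (K : Set G) ≤ T := by
    unfold Subgroup.normalClosure
    rw [Subgroup.closure_le]
    intro x hx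
    obtain ⟨k, hk, hc⟩ := Group.mem_conjugatesOfSet_iff.mp hx
    obtain ⟨c, rfl⟩ := isConj_iff.mp hc
    have : MulAut.conj c • K ∈ s := Finset.mem_image.mpr ⟨c, Finset.mem_univ _, rfl⟩
    exact Finset.le_sup (f := id) this ⟨k, hk, rfl⟩
  refine ⟨?_, ?_⟩
  · intro hbot
    have hKle : K ≤ Subgroup.normalClosure (K : Set G) := Subgroup.le_normalClosure
    rw [hbot] at hKle
    have := Cfsg.Agent.Lib.helper7.qs_nontrivial hK.2
    exact (Subgroup.nontrivial_iff_ne_bot K).mp this (eq_bot_iff.mpr hKle)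
  · intro N hN hNle
    rcases Cfsg.Agent.Lib.helper7.comp_le_or_comm K N hK hN.isSubnormal with h | h
    · right
      exact le_antisymm hNle (Subgroup.normalClosure_le_normal h)
    · left
      rw [Subgroup.commutator_eq_bot_iff_le_centralizer] at h
      have hTc : T ≤ Subgroup.centralizer (N : Set G) := by
        apply Finset.sup_le
        intro L hL
        obtain ⟨g, rfl⟩ := hs L hL
        rintro x ⟨k, hk, rfl⟩
        rw [Subgroup.mem_centralizer_iff]
        intro n hn
        have hn' : g⁻¹ * n * g ∈ N := by simpa using hN.conj_mem n hn g⁻¹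
        have := Subgroup.mem_centralizer_iff.mp (h hk) _ hn'
        show n * (g * k * g⁻¹) = g * k * g⁻¹ * n
        calc n * (g * k * g⁻¹) = g * ((g⁻¹ * n * g) * k) * g⁻¹ := by group
          _ = g * (k * (g⁻¹ * n * g)) * g⁻¹ := by rw [this]
          _ = g * k * g⁻¹ * n := by group
      have hNT : N ≤ T := hNle.trans hle
      have h1 : N ≤ T ⊓ Subgroup.centralizer (T : Set G) :=
        le_inf hNT (by rw [Subgroup.le_centralizer_iff]; exact hTc)
      have h2 := Cfsg.Agent.Lib.helper7.center_finset_sup_le s hcomm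
      have h3 : s.sup (fun L => L ⊓ Subgroup.centralizer (L : Set G)) = ⊥ := by
        rw [eq_bot_iff]
        apply Finset.sup_le
        intro L hL
        rw [hcen L hL]
      rw [h3] at h2
      exact eq_bot_iff.mpr (h1.trans h2)


/-- Let G be a finite group. (a) If K is a component of G with trivial centre, then the normal closure of K in G is a minimal normal subgroup of G. (b) If the Fitting subgroup of G is trivial, then the layer E(G) is generated by the minimal normal subgroups of G. -/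
theorem result {G : Type*} [Group G] [Finite G] : (∀ K : Subgroup G, Cfsg.IsComponent K → Subgroup.center ↥K = ⊥ → (Subgroup.normalClosure (K : Set G) ≠ ⊥ ∧ ∀ N : Subgroup G, N.Normal → N ≤ Subgroup.normalClosure (K : Set G) → N = ⊥ ∨ N = Subgroup.normalClosure (K : Set G))) ∧ (Cfsg.fittingSubgroup G = ⊥ → sSup {N : Subgroup G | N ≠ ⊥ ∧ N.Normal ∧ ∀ N' : Subgroup G, N'.Normal → N' ≤ N → N' = ⊥ ∨ N' = N} = Cfsg.layer G) := by
  classical
  refine ⟨fun K hK hZ => parta K hK hZ, ?_⟩
  intro hfit
  apply le_antisymm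
  · apply sSup_le
    rintro N ⟨hNne, hNn, hNmin⟩
    haveI := hNn
    have hgl : Cfsg.generalizedFittingSubgroup G = Cfsg.layer G := by
      unfold Cfsg.generalizedFittingSubgroup
      rw [hfit, sup_bot_eq]
    have hln : (Cfsg.layer G).Normal := inferInstance
    rcases hNmin (N ⊓ Cfsg.layer G) inferInstance inf_le_left with h | h
    · exfalso
      apply hNne
      have h1 : N ≤ Subgroup.centralizer (Cfsg.layer G : Set G) := by
        rw [← Subgroup.commutator_eq_bot_iff_le_centralizer, eq_bot_iff, ← h]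
        exact Subgroup.commutator_le_inf N _
      have h2 := Cfsg.Agent.Lib.helper7.centralizer_genFitting_le G
      rw [hgl] at h2
      have h3 : N ≤ N ⊓ Cfsg.layer G := le_inf le_rfl (h1.trans h2)
      rw [h] at h3
      exact eq_bot_iff.mpr h3
    · exact inf_eq_left.mp h
  · have hl : Cfsg.layer G = sSup {K : Subgroup G | Cfsg.IsComponent K} := rfl
    rw [hl]
    apply sSup_le
    intro K hK
    have hKZ : Subgroup.center ↥K = ⊥ := by
      have h1 := Cfsg.Agent.Lib.helper7.comp_center_le_center_layer hK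
      have h2 := Cfsg.Agent.Lib.helper7.center_layer_eq G
      rw [hfit, bot_inf_eq, Cfsg.Agent.Lib.helper7.map_center_subtype] at h2
      rw [h2] at h1
      rw [← Cfsg.Agent.Lib.helper7.map_center_subtype] at h1
      rw [eq_bot_iff]
      intro z hz
      have : (z : G) ∈ (⊥ : Subgroup G) := h1 ⟨z, hz, rfl⟩
      exact Subgroup.mem_bot.mpr (Subtype.ext (Subgroup.mem_bot.mp this))
    obtain ⟨hne, hmin⟩ := parta K hK hKZ
    exact Subgroup.le_normalClosure.trans (le_sSup ⟨hne, Subgroup.normalClosure_normal, hmin⟩)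

end Cfsg.Agent.S3747
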