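import Cfsg.Statements.S3749
import Mathlib
import Cfsg.Agent.Lib.helper8.CoprimeAction
import Cfsg.Agent.Lib.helper1.Fitting
import Cfsg.Agent.Lib.helper1.SZ

set_option autoImplicit false
open Cfsg

namespace Cfsg.Agent.S3749

universe u

open Pointwise
open Cfsg.Agent.Lib.helper8 Cfsg.Agent.Lib.helper1

/-- a `p`-group acting on a normal subgroup of order divisible by `p` has a nontrivial fixed point -/
theorem exists_fixed {G : Type u} [Group G] [Finite G] {p : ℕ} [Fact p.Prime]
    (P N : Subgroup G) [N.Normal] (hP : IsPGroup p P) (hpN : p ∣ Nat.card N) :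
    ∃ n ∈ N, n ≠ 1 ∧ n ∈ Subgroup.centralizer (P : Set G) := by
  let φ : ↥P →* MulAut ↥N := (MulAut.conjNormal (H := N)).comp P.subtype
  letI : MulAction ↥P ↥N := MulAction.compHom ↥N φ
  have hsm : ∀ (g : P) (n : N), g • n = φ g n := fun g n => rfl
  have hfix1 : (1 : N) ∈ MulAction.fixedPoints ↥P ↥N := by
    intro g
    rw [hsm, map_one]
  obtain ⟨n, hn, hn1⟩ := hP.exists_fixed_point_of_prime_dvd_card_of_fixed_point ↥N hpN hfix1
  refine ⟨n.1, n.2, ?_, ?_⟩
  · intro h
    exact hn1 (Subtype.ext h.symm)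
  · rw [Subgroup.mem_centralizer_iff]
    intro g hg
    have h1 := hn ⟨g, hg⟩
    rw [hsm] at h1
    have h2 := congrArg Subtype.val h1
    have h3 : ((φ ⟨g, hg⟩ n : N) : G) = g * n.1 * g⁻¹ := MulAut.conjNormal_apply g n
    rw [h3] at h2
    exact (mul_inv_eq_iff_eq_mul.mp h2)

/-- Call a proper subgroup M of G primitive when M = N_G(N) for every non-trivial normal subgroup N of M. Let M be a primitive subgroup of the finite group G, p a prime with O_p(M) ≠ 1, and N a normal subgroup of G with M ∩ N = 1. Then p does not divide the order of N; for every prime q there is exactly one Sylow q-subgroup of N normalized by M; and if the order of N has at least two prime divisors then M is not a maximal subgroup of G. -/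
theorem result {G : Type*} [Group G] [Finite G] (M : Subgroup G) (hM : M ≠ ⊤) (hprim : ∀ N : Subgroup G, N ≤ M → M ≤ Subgroup.normalizer (N : Set G) → N ≠ ⊥ → Subgroup.normalizer (N : Set G) = M) {p : ℕ} [Fact p.Prime] (hOp : Cfsg.pCore p ↥M ≠ ⊥) (N : Subgroup G) [N.Normal] (hMN : M ⊓ N = ⊥) : ¬ p ∣ Nat.card N ∧ (∀ q : ℕ, [Fact q.Prime] → ∃! Q : Sylow q ↥N, M ≤ Subgroup.normalizer ((Q : Subgroup ↥N).map N.subtype : Set G)) ∧ ((∃ q r : ℕ, q.Prime ∧ r.Prime ∧ q ≠ r ∧ q ∣ Nat.card N ∧ r ∣ Nat.card N) → ¬ IsCoatom M) := by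
  classical
  have hp : p.Prime := Fact.out
  set P : Subgroup G := (Cfsg.pCore p ↥M).map M.subtype with hPdef
  have hP1 : P ≠ ⊥ := by
    intro h
    exact hOp ((Subgroup.map_eq_bot_iff_of_injective _ M.subtype_injective).mp h)
  have hPM : P ≤ M := Subgroup.map_subtype_le _
  have hPp : IsPGroup p P := (pCore_isPGroup p ↥M).map _
  have hMP : M ≤ Subgroup.normalizer (P : Set G) := by
    apply le_normalizer_of_conj_mem
    intro m hm x hx
    obtain ⟨x', hx', rfl⟩ := Subgroup.mem_map.mp hx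
    refine Subgroup.mem_map.mpr ⟨⟨m, hm⟩ * x' * ⟨m, hm⟩⁻¹, ?_, rfl⟩
    exact (pCore_normal p ↥M).conj_mem x' hx' ⟨m, hm⟩
  have hNP : Subgroup.normalizer (P : Set G) = M := hprim P hPM hMP hP1
  have hCN : ∀ c ∈ N, c ∈ Subgroup.centralizer (P : Set G) → c = 1 := by
    intro c hcN hcC
    have h1 : c ∈ M := hNP ▸ (Subgroup.centralizer_le_normalizer (P : Set G) hcC)
    have h2 : c ∈ M ⊓ N := ⟨h1, hcN⟩
    rw [hMN] at h2
    exact h2
  have hpN : ¬ p ∣ Nat.card N := by
    intro hdvd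
    obtain ⟨n, hn, hn1, hnC⟩ := exists_fixed P N hPp hdvd
    exact hn1 (hCN n hn hnC)
  have hcop : (Nat.card P).Coprime (Nat.card N) := by
    obtain ⟨k, hk⟩ := IsPGroup.iff_card.mp hPp
    rw [hk]
    exact Nat.Coprime.pow_left k ((Nat.Prime.coprime_iff_not_dvd hp).mpr hpN)
  have hsolv : Group.IsSolvable P := by
    haveI := hPp.isNilpotent
    infer_instance
  have hPnN : P ≤ Subgroup.normalizer (N : Set G) := by
    rw [Subgroup.normalizer_eq_top_iff.mpr inferInstance]; exact le_top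
  -- uniqueness of P-invariant Sylow subgroups
  have huniq : ∀ (q : ℕ) [Fact q.Prime] (Q₁ Q₂ : Sylow q ↥N),
      P ≤ Subgroup.normalizer ((Q₁ : Subgroup ↥N).map N.subtype : Set G) →
      P ≤ Subgroup.normalizer ((Q₂ : Subgroup ↥N).map N.subtype : Set G) → Q₂ = Q₁ := by
    intro q _ Q₁ Q₂ h1 h2
    obtain ⟨c, hc, hcx⟩ := invariant_sylow_conj P N hPnN hcop (Or.inl hsolv) Q₁ Q₂ h1 h2
    have hc1 : c = 1 := hCN c hc.1 hc.2
    subst hc1
    have h3 : (Q₂ : Subgroup ↥N).map N.subtype = (Q₁ : Subgroup ↥N).map N.subtype := by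
      ext x
      rw [hcx x]
      simp
    exact Sylow.ext (Subgroup.map_injective N.subtype_injective h3)
  -- existence of an M-invariant one
  have hex : ∀ (q : ℕ) [Fact q.Prime], ∃ Q₀ : Sylow q ↥N,
      M ≤ Subgroup.normalizer ((Q₀ : Subgroup ↥N).map N.subtype : Set G) := by
    intro q _
    obtain ⟨Q₀, hQ₀⟩ := exists_invariant_sylow (p := q) P N hPnN hcop (Or.inl hsolv)
    refine ⟨Q₀, ?_⟩
    set R : Subgroup G := (Q₀ : Subgroup ↥N).map N.subtype with hRdef
    have hRN : R ≤ N := Subgroup.map_subtype_le _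
    intro m hm
    rw [mem_normalizer_iff_conj_smul]
    have hcard : Nat.card (MulAut.conj m • R : Subgroup G) = q ^ (Nat.card N).factorization q := by
      rw [card_conj_smul, hRdef, card_sylow_map]
    have hle : MulAut.conj m • R ≤ N := by
      intro x hx
      rw [mem_conj_smul] at hx
      have h1 := hRN hx
      have h2 := (inferInstance : N.Normal).conj_mem _ h1 m
      have e : m * (m⁻¹ * x * m) * m⁻¹ = x := by group
      rwa [e] at h2
    obtain ⟨Q', hQ'⟩ := exists_sylow_map_eq (p := q) hle hcard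
    have hQ'P : P ≤ Subgroup.normalizer ((Q' : Subgroup ↥N).map N.subtype : Set G) := by
      rw [hQ']
      apply le_normalizer_of_conj_mem
      intro g hg x hx
      rw [mem_conj_smul] at hx ⊢
      have hg' : m⁻¹ * g * m ∈ P := conj_mem_of_mem_normalizer' (hMP hm) hg
      have h1 := conj_mem_of_mem_normalizer (hQ₀ hg') hx
      have e : m⁻¹ * g * m * (m⁻¹ * x * m) * (m⁻¹ * g * m)⁻¹ = m⁻¹ * (g * x * g⁻¹) * m := by group
      rwa [e] at h1
    have h3 := huniq q Q₀ Q' hQ₀ hQ'P
    rw [← hQ', h3]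
  refine ⟨hpN, ?_, ?_⟩
  · intro q _
    obtain ⟨Q₀, hQ₀⟩ := hex q
    exact ⟨Q₀, hQ₀, fun Q hQ => huniq q Q₀ Q (hPM.trans hQ₀) (hPM.trans hQ)⟩
  · rintro ⟨q, r, hq, hr, hqr, hqN, hrN⟩ hcoatom
    haveI : Fact q.Prime := ⟨hq⟩
    obtain ⟨Q₀, hQ₀⟩ := hex q
    set R : Subgroup G := (Q₀ : Subgroup ↥N).map N.subtype with hRdef
    have hRN : R ≤ N := Subgroup.map_subtype_le _
    have hRcard : Nat.card R = q ^ (Nat.card N).factorization q := card_sylow_map N Q₀
    have hfac : (Nat.card N).factorization q ≠ 0 := by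
      have hpos : Nat.card N ≠ 0 := Nat.card_pos.ne'
      have := (hq.factorization_pos_of_dvd hpos hqN)
      omega
    have hR1 : R ≠ ⊥ := by
      intro h
      rw [h, Subgroup.card_bot] at hRcard
      have : 1 < q ^ (Nat.card N).factorization q := Nat.one_lt_pow hfac hq.one_lt
      omega
    have hRneN : R ≠ N := by
      intro h
      rw [h] at hRcard
      rw [hRcard] at hrN
      exact hqr ((Nat.prime_dvd_prime_iff_eq hr hq).mp (hr.dvd_of_dvd_pow hrN)).symm
    have hlt : M < M ⊔ R := by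
      refine lt_of_le_of_ne le_sup_left ?_
      intro h
      have h1 : R ≤ M := by rw [h]; exact le_sup_right
      have h2 : R ≤ M ⊓ N := le_inf h1 hRN
      rw [hMN] at h2
      exact hR1 (le_bot_iff.mp h2)
    have htop := hcoatom.2 _ hlt
    apply hRneN
    apply le_antisymm hRN
    intro n hn
    have h1 : n ∈ R ⊔ M := by rw [sup_comm, htop]; exact Subgroup.mem_top n
    obtain ⟨x, hx, m, hm, rfl⟩ := (mem_sup_iff_of_le_normalizer hQ₀ n).mp h1
    have h2 : m ∈ N := by
      have := N.mul_mem (N.inv_mem (hRN hx)) hn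
      simpa using this
    have h3 : m ∈ M ⊓ N := ⟨hm, h2⟩
    rw [hMN, Subgroup.mem_bot] at h3
    rw [h3, mul_one]; exact hx

end Cfsg.Agent.S3749
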