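import Cfsg.Statements.S3750
import Mathlib
import Cfsg.Agent.Lib.helper7.Subn
import Cfsg.Agent.Lib.helper8.CoprimeAction

set_option autoImplicit false
open Cfsg

namespace Cfsg.Agent.S3750

/-- Call a proper subgroup M of G primitive when M = N_G(N) for every non-trivial normal subgroup N of M. Let M be a primitive subgroup of the finite group G and N a normal subgroup of G with M ∩ F*(N) ≠ 1. Then F(G) = 1 and F*(N) = F*(G) = E(G); in particular every minimal normal subgroup of G is contained in N. -/
theorem result {G : Type*} [Group G] [Finite G] (M : Subgroup G) (hM : M ≠ ⊤) (hprim : ∀ N : Subgroup G, N ≤ M → M ≤ Subgroup.normalizer (N : Set G) → N ≠ ⊥ → Subgroup.normalizer (N : Set G) = M) (N : Subgroup G) [N.Normal] (hMF : M ⊓ (Cfsg.generalizedFittingSubgroup ↥N).map N.subtype ≠ ⊥) : Cfsg.fittingSubgroup G = ⊥ ∧ (Cfsg.generalizedFittingSubgroup ↥N).map N.subtype = Cfsg.generalizedFittingSubgroup G ∧ Cfsg.generalizedFittingSubgroup G = Cfsg.layer G ∧ ∀ K : Subgroup G, K.Normal → K ≠ ⊥ → (∀ K' : Subgroup G, K'.Normal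 → K' ≤ K → K' = ⊥ ∨ K' = K) → K ≤ N := by
  classical
  set F : Subgroup G := (Cfsg.generalizedFittingSubgroup ↥N).map N.subtype with hF
  have hNsn : N.IsSubnormal := Subgroup.Normal.isSubnormal inferInstance
  have hFeq : F = Cfsg.generalizedFittingSubgroup G ⊓ N :=
    Cfsg.Agent.Lib.helper7.genFitting_subnormal_eq hNsn
  have hFn : F.Normal := by rw [hFeq]; infer_instance
  set X : Subgroup G := M ⊓ F with hX
  have hXM : X ≤ M := inf_le_left
  have hXF : X ≤ F := inf_le_right
  have hXN : X ≤ N := hXF.trans (hFeq.le.trans inf_le_right)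
  have hXnorm : M ≤ Subgroup.normalizer (X : Set G) := by
    apply Cfsg.Agent.Lib.helper8.le_normalizer_of_conj_mem
    intro a ha x hx
    exact Subgroup.mem_inf.mpr ⟨M.mul_mem (M.mul_mem ha (Subgroup.mem_inf.mp hx).1) (M.inv_mem ha),
      hFn.conj_mem x (Subgroup.mem_inf.mp hx).2 a⟩
  have hNX : Subgroup.normalizer (X : Set G) = M := hprim X hXM hXnorm hMF
  have key : ∀ Y : Subgroup G, Y.Normal → Y ≤ Subgroup.centralizer (X : Set G) → Y = ⊥ := by
    intro Y hY hYX
    by_contra hne
    have hYM : Y ≤ M := by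
      rw [← hNX]; exact hYX.trans (Subgroup.centralizer_le_normalizer _)
    have h1 := hprim Y hYM (by rw [Subgroup.normalizer_eq_top]; exact le_top) hne
    rw [Subgroup.normalizer_eq_top] at h1
    exact hM h1.symm
  -- the centralizer of N is trivial
  have hCN : Subgroup.centralizer (N : Set G) = ⊥ :=
    key _ inferInstance (Subgroup.centralizer_le hXN)
  -- F(G) = 1
  have hfit : Cfsg.fittingSubgroup G = ⊥ := by
    set Z : Subgroup G := Cfsg.fittingSubgroup G ⊓ Subgroup.centralizer (Cfsg.fittingSubgroup G : Set G) with hZ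
    have hZn : Z.Normal := by rw [hZ]; infer_instance
    have h1 : Cfsg.layer G ≤ Subgroup.centralizer (Z : Set G) := by
      have h2 := Cfsg.Agent.Lib.helper7.layer_comm_fitting G
      rw [Subgroup.commutator_eq_bot_iff_le_centralizer] at h2
      exact h2.trans (Subgroup.centralizer_le (inf_le_left : Z ≤ Cfsg.fittingSubgroup G))
    have h2 : Cfsg.fittingSubgroup G ≤ Subgroup.centralizer (Z : Set G) := by
      rw [Subgroup.le_centralizer_iff]
      exact inf_le_right
    have h3 : X ≤ Subgroup.centralizer (Z : Set G) := by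
      refine hXF.trans (hFeq.le.trans (inf_le_left.trans ?_))
      unfold Cfsg.generalizedFittingSubgroup
      exact sup_le h1 h2
    have hZbot : Z = ⊥ := key Z hZn (by rw [Subgroup.le_centralizer_iff]; exact h3)
    by_contra hne
    haveI : Nontrivial (Cfsg.fittingSubgroup G) := (Subgroup.nontrivial_iff_ne_bot _).mpr hne
    haveI : Group.IsNilpotent (Cfsg.fittingSubgroup G) := Cfsg.Agent.Lib.helper7.fitting_nilpotent G
    apply Group.IsNilpotent.center_ne_bot (G := Cfsg.fittingSubgroup G)
    rw [eq_bot_iff]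
    intro z hz
    rw [Subgroup.mem_center_iff] at hz
    have hzZ : (z : G) ∈ Z := by
      refine Subgroup.mem_inf.mpr ⟨z.2, ?_⟩
      rw [Subgroup.mem_centralizer_iff]
      intro y hy
      have := congrArg Subtype.val (hz ⟨y, hy⟩)
      exact this
    rw [hZbot, Subgroup.mem_bot] at hzZ
    exact Subgroup.mem_bot.mpr (Subtype.ext hzZ)
  have hgl : Cfsg.generalizedFittingSubgroup G = Cfsg.layer G := by
    unfold Cfsg.generalizedFittingSubgroup
    rw [hfit, sup_bot_eq]
  have hlayer : Cfsg.layer G ≤ N := by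
    unfold Cfsg.layer
    apply sSup_le
    intro K hK
    rcases Cfsg.Agent.Lib.helper7.comp_le_or_comm K N hK hNsn with h | h
    · exact h
    · rw [Subgroup.commutator_eq_bot_iff_le_centralizer, hCN] at h
      exact h.trans bot_le
  refine ⟨hfit, ?_, hgl, ?_⟩
  · rw [hFeq, hgl]
    exact inf_eq_left.mpr hlayer
  · intro K hKn hKne hKmin
    haveI := hKn
    have hKNn : (K ⊓ N).Normal := inferInstance
    rcases hKmin (K ⊓ N) hKNn inf_le_left with h | h
    · exfalso
      apply hKne
      have h1 : K ≤ Subgroup.centralizer (N : Set G) := by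
        rw [← Subgroup.commutator_eq_bot_iff_le_centralizer, eq_bot_iff, ← h]
        exact Subgroup.commutator_le_inf K N
      rw [hCN] at h1
      exact eq_bot_iff.mpr h1
    · exact inf_eq_left.mp h

end Cfsg.Agent.S3750
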