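import Cfsg.Statements.S3751
import Mathlib
import Cfsg.Agent.Lib.helper1.Fitting
import Cfsg.Agent.Lib.lead.Frobenius

set_option autoImplicit false
open Cfsg

namespace Cfsg.Agent.S3751

open Cfsg.Agent.Lib.helper1 (pCore_normal pCore_isPGroup le_pCore)
open Cfsg.Agent.Lib.lead (normalizer_grows card_lt_of_lt)

/-- conjugate subgroup -/
def cj {G : Type*} [Group G] (x : G) (H : Subgroup G) : Subgroup G :=
  H.map (MulAut.conj x).toMonoidHom

theorem mem_cj {G : Type*} [Group G] (x : G) (H : Subgroup G) (y : G) :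
    y ∈ cj x H ↔ x⁻¹ * y * x ∈ H := by
  unfold cj
  rw [Subgroup.mem_map]
  constructor
  · rintro ⟨z, hz, rfl⟩
    have e : x⁻¹ * ((MulAut.conj x).toMonoidHom z) * x = z := by
      show x⁻¹ * (x * z * x⁻¹) * x = z
      group
    rw [e]; exact hz
  · intro h
    refine ⟨x⁻¹ * y * x, h, ?_⟩
    show x * (x⁻¹ * y * x) * x⁻¹ = y
    group

theorem conj_mem_cj {G : Type*} [Group G] (x : G) (H : Subgroup G) (y : G) (hy : y ∈ H) :
    x * y * x⁻¹ ∈ cj x H := by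
  rw [mem_cj]
  have e : x⁻¹ * (x * y * x⁻¹) * x = y := by group
  rw [e]; exact hy

theorem cj_isPGroup {G : Type*} [Group G] {p : ℕ} (x : G) {H : Subgroup G} (h : IsPGroup p H) :
    IsPGroup p (cj x H) := h.map _

theorem card_cj {G : Type*} [Group G] (x : G) (H : Subgroup G) : Nat.card (cj x H) = Nat.card H :=
  Subgroup.card_map_of_injective (MulAut.conj x).injective

theorem cj_mono {G : Type*} [Group G] (x : G) {H K : Subgroup G} (h : H ≤ K) : cj x H ≤ cj x K :=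
  Subgroup.map_mono h

theorem cj_normalizer {G : Type*} [Group G] (x : G) (T : Subgroup G) :
    cj x (Subgroup.normalizer (T : Set G)) = Subgroup.normalizer ((cj x T : Subgroup G) : Set G) :=
  Subgroup.map_equiv_normalizer_eq T (MulAut.conj x)

theorem cj_inv_cj {G : Type*} [Group G] (x : G) (H : Subgroup G) : cj x⁻¹ (cj x H) = H := by
  ext y
  rw [mem_cj, mem_cj]
  have e : x⁻¹ * (x⁻¹⁻¹ * y * x⁻¹) * x = y := by group
  rw [e]

theorem cj_cj_inv {G : Type*} [Group G] (x : G) (H : Subgroup G) : cj x (cj x⁻¹ H) = H := by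
  have := cj_inv_cj x⁻¹ H
  rwa [inv_inv] at this

theorem le_normalizer_of {G : Type*} [Group G] (M A : Subgroup G)
    (h : ∀ m ∈ M, ∀ x ∈ A, m * x * m⁻¹ ∈ A) : M ≤ Subgroup.normalizer (A : Set G) := by
  intro m hm
  rw [Subgroup.mem_normalizer_iff]
  intro x
  constructor
  · exact h m hm x
  · intro hx
    have := h m⁻¹ (M.inv_mem hm) _ hx
    have e : m⁻¹ * (m * x * m⁻¹) * m⁻¹⁻¹ = x := by group
    rwa [e] at this

theorem mem_normalizer_of_cj_le {G : Type*} [Group G] [Finite G] (x : G) (H : Subgroup G)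
    (h : cj x H ≤ H) : x ∈ Subgroup.normalizer (H : Set G) := by
  have heq : cj x H = H := Subgroup.eq_of_le_of_card_ge h (by rw [card_cj])
  rw [Subgroup.mem_normalizer_iff]
  intro y
  constructor
  · intro hy
    rw [← heq]; exact conj_mem_cj x H y hy
  · intro hy
    rw [← heq, mem_cj] at hy
    have e : x⁻¹ * (x * y * x⁻¹) * x = y := by group
    rwa [e] at hy

/-- `O_p(M)` as a subgroup of the ambient group. -/
def Qp {G : Type*} [Group G] (p : ℕ) (M : Subgroup G) : Subgroup G :=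
  (Cfsg.pCore p ↥M).map M.subtype

theorem Qp_le {G : Type*} [Group G] (p : ℕ) (M : Subgroup G) : Qp p M ≤ M :=
  Subgroup.map_subtype_le _

theorem Qp_isPGroup {G : Type*} [Group G] (p : ℕ) (M : Subgroup G) : IsPGroup p (Qp p M) :=
  (pCore_isPGroup p ↥M).map M.subtype

theorem mem_Qp {G : Type*} [Group G] (p : ℕ) (M : Subgroup G) (y : G) :
    y ∈ Qp p M ↔ ∃ h : y ∈ M, (⟨y, h⟩ : M) ∈ Cfsg.pCore p ↥M := by
  unfold Qp
  rw [Subgroup.mem_map]
  constructor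
  · rintro ⟨z, hz, rfl⟩
    exact ⟨z.2, hz⟩
  · rintro ⟨h, hz⟩
    exact ⟨⟨y, h⟩, hz, rfl⟩

theorem le_normalizer_Qp {G : Type*} [Group G] (p : ℕ) (M : Subgroup G) :
    M ≤ Subgroup.normalizer ((Qp p M : Subgroup G) : Set G) := by
  apply le_normalizer_of
  intro m hm y hy
  obtain ⟨hyM, hy'⟩ := (mem_Qp p M y).mp hy
  rw [mem_Qp]
  refine ⟨M.mul_mem (M.mul_mem hm hyM) (M.inv_mem hm), ?_⟩
  have := (pCore_normal p ↥M).conj_mem _ hy' ⟨m, hm⟩
  exact this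

theorem le_Qp {G : Type*} [Group G] {p : ℕ} {M A : Subgroup G} (hAM : A ≤ M) (hA : IsPGroup p A)
    (hn : M ≤ Subgroup.normalizer (A : Set G)) : A ≤ Qp p M := by
  have hnorm : (A.subgroupOf M).Normal := by
    constructor
    intro n hn' g
    rw [Subgroup.mem_subgroupOf] at hn' ⊢
    exact (Subgroup.mem_normalizer_iff.mp (hn g.2) n).mp hn'
  have hle := le_pCore hnorm (hA.comap_subtype (K := M))
  intro a ha
  rw [mem_Qp]
  exact ⟨hAM ha, hle (Subgroup.mem_subgroupOf.mpr ha)⟩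

/-- `p`-local subgroups -/
def IsLocal {G : Type*} [Group G] (p : ℕ) (M : Subgroup G) : Prop :=
  ∃ T : Subgroup G, IsPGroup p T ∧ T ≠ ⊥ ∧ M = Subgroup.normalizer (T : Set G)

def IsMaxLocal {G : Type*} [Group G] (p : ℕ) (M : Subgroup G) : Prop :=
  IsLocal p M ∧ ∀ L : Subgroup G, IsLocal p L → M ≤ L → L = M

theorem Qp_ne_bot {G : Type*} [Group G] {p : ℕ} {M : Subgroup G} (h : IsLocal p M) : Qp p M ≠ ⊥ := by
  obtain ⟨T, hT, hTne, rfl⟩ := h
  intro hbot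
  apply hTne
  have := le_Qp (p := p) (M := Subgroup.normalizer (T : Set G)) Subgroup.le_normalizer hT le_rfl
  rw [hbot] at this
  exact le_bot_iff.mp this

theorem normalizer_eq_of_max {G : Type*} [Group G] {p : ℕ} {M : Subgroup G} (h : IsMaxLocal p M)
    (A : Subgroup G) (hA : IsPGroup p A) (hAne : A ≠ ⊥)
    (hn : M ≤ Subgroup.normalizer (A : Set G)) : Subgroup.normalizer (A : Set G) = M :=
  h.2 _ ⟨A, hA, hAne, rfl⟩ hn

theorem normalizer_Qp {G : Type*} [Group G] {p : ℕ} {M : Subgroup G} (h : IsMaxLocal p M) :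
    Subgroup.normalizer ((Qp p M : Subgroup G) : Set G) = M :=
  normalizer_eq_of_max h _ (Qp_isPGroup p M) (Qp_ne_bot h.1) (le_normalizer_Qp p M)

theorem exists_max_ge {G : Type*} [Group G] [Finite G] {p : ℕ} {L : Subgroup G} (h : IsLocal p L) :
    ∃ M : Subgroup G, IsMaxLocal p M ∧ L ≤ M := by
  obtain ⟨M, hLM, hM⟩ := Finite.exists_le_maximal (p := IsLocal p) h
  refine ⟨M, ⟨hM.1, fun L' hL' hML' => ?_⟩, hLM⟩
  exact le_antisymm (hM.2 hL' hML') hML'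

theorem isLocal_cj {G : Type*} [Group G] {p : ℕ} (x : G) {M : Subgroup G} (h : IsLocal p M) :
    IsLocal p (cj x M) := by
  obtain ⟨T, hT, hTne, rfl⟩ := h
  refine ⟨cj x T, cj_isPGroup x hT, ?_, cj_normalizer x T⟩
  intro hbot
  apply hTne
  exact (Subgroup.map_eq_bot_iff_of_injective T (MulAut.conj x).injective).mp hbot

theorem isMaxLocal_cj {G : Type*} [Group G] {p : ℕ} (x : G) {M : Subgroup G} (h : IsMaxLocal p M) :
    IsMaxLocal p (cj x M) := by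
  refine ⟨isLocal_cj x h.1, fun L hL hML => ?_⟩
  have h1 : M ≤ cj x⁻¹ L := by
    have := cj_mono x⁻¹ hML
    rwa [cj_inv_cj] at this
  have h2 := h.2 _ (isLocal_cj x⁻¹ hL) h1
  rw [← h2, cj_cj_inv]

theorem mem_of_cj_eq {G : Type*} [Group G] [Finite G] {p : ℕ} {M : Subgroup G} (h : IsMaxLocal p M)
    (x : G) (hx : cj x M = M) : x ∈ M := by
  have h1 : cj x (Qp p M) ≤ Qp p M := by
    apply le_Qp
    · have := cj_mono x (Qp_le p M)
      rwa [hx] at this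
    · exact cj_isPGroup x (Qp_isPGroup p M)
    · apply le_normalizer_of
      intro m hm y hy
      rw [mem_cj] at hy ⊢
      have hm' : x⁻¹ * m * x ∈ M := by
        have : m ∈ cj x M := by rw [hx]; exact hm
        exact (mem_cj x M m).mp this
      have h2 := (Subgroup.mem_normalizer_iff.mp (le_normalizer_Qp p M hm') _).mp hy
      have e : x⁻¹ * (m * y * m⁻¹) * x = x⁻¹ * m * x * (x⁻¹ * y * x) * (x⁻¹ * m * x)⁻¹ := by group
      rw [e]; exact h2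
  have h3 := mem_normalizer_of_cj_le x _ h1
  rw [normalizer_Qp h] at h3
  exact h3

/-- Half of the primitivity property. -/
theorem prim_half {G : Type*} [Group G] [Finite G] {p : ℕ} [Fact p.Prime] {M : Subgroup G}
    (hM : IsMaxLocal p M)
    (hchar : Subgroup.centralizer (Cfsg.pCore p ↥M : Set ↥M) ≤ Cfsg.pCore p ↥M)
    (A : Subgroup G) (hAne : A ≠ ⊥) (hAM : A ≤ M) (hn : M ≤ Subgroup.normalizer (A : Set G)) :
    Subgroup.normalizer (A : Set G) ≤ M := by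
  classical
  -- (1) A ⊓ O_p(M) ≠ ⊥
  have h1 : A ⊓ Qp p M ≠ ⊥ := by
    intro hbot
    apply hAne
    rw [eq_bot_iff]
    intro a ha
    have haM : a ∈ M := hAM ha
    have hcen : (⟨a, haM⟩ : M) ∈ Subgroup.centralizer (Cfsg.pCore p ↥M : Set ↥M) := by
      rw [Subgroup.mem_centralizer_iff]
      intro q hq
      have hqQ : (q : G) ∈ Qp p M := (mem_Qp p M _).mpr ⟨q.2, hq⟩
      have hc : a * (q : G) * a⁻¹ * (q : G)⁻¹ ∈ A ⊓ Qp p M := by
        refine Subgroup.mem_inf.mpr ⟨?_, ?_⟩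
        · have h2 : (q : G) * a⁻¹ * (q : G)⁻¹ ∈ A :=
            (Subgroup.mem_normalizer_iff.mp (hn q.2) _).mp (A.inv_mem ha)
          have e : a * (q : G) * a⁻¹ * (q : G)⁻¹ = a * ((q : G) * a⁻¹ * (q : G)⁻¹) := by group
          rw [e]; exact A.mul_mem ha h2
        · have h2 : a * (q : G) * a⁻¹ ∈ Qp p M :=
            (Subgroup.mem_normalizer_iff.mp (le_normalizer_Qp p M haM) _).mp hqQ
          exact Subgroup.mul_mem _ h2 (Subgroup.inv_mem _ hqQ)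
      rw [hbot, Subgroup.mem_bot] at hc
      apply Subtype.ext
      show (q : G) * a = a * (q : G)
      calc (q : G) * a = (a * (q : G) * a⁻¹ * (q : G)⁻¹)⁻¹ * (a * (q : G)) := by group
        _ = a * (q : G) := by rw [hc]; group
    have h2 := hchar hcen
    have h3 : a ∈ A ⊓ Qp p M := Subgroup.mem_inf.mpr ⟨ha, (mem_Qp p M a).mpr ⟨haM, h2⟩⟩
    rw [hbot] at h3
    exact h3
  -- (2) the largest normal p-subgroup of A
  let 𝒩 : Set (Subgroup G) := {B | B ≤ A ∧ IsPGroup p B ∧ A ≤ Subgroup.normalizer (B : Set G)}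
  have hB1 : A ⊓ Qp p M ∈ 𝒩 := by
    refine ⟨inf_le_left, (Qp_isPGroup p M).to_le inf_le_right, ?_⟩
    apply le_normalizer_of
    intro a ha y hy
    obtain ⟨hy1, hy2⟩ := Subgroup.mem_inf.mp hy
    exact Subgroup.mem_inf.mpr ⟨A.mul_mem (A.mul_mem ha hy1) (A.inv_mem ha),
      (Subgroup.mem_normalizer_iff.mp (le_normalizer_Qp p M (hAM ha)) _).mp hy2⟩
  obtain ⟨B₀, hB₀, hmax⟩ := Set.exists_max_image 𝒩 (fun B => Nat.card B) (Set.toFinite _) ⟨_, hB1⟩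
  have hle : ∀ B ∈ 𝒩, B ≤ B₀ := by
    intro B hB
    have hsup : B ⊔ B₀ ∈ 𝒩 := by
      refine ⟨sup_le hB.1 hB₀.1, IsPGroup.to_sup_of_normal_right' hB.2.1 hB₀.2.1 (hB.1.trans hB₀.2.2), ?_⟩
      intro a ha
      apply mem_normalizer_of_cj_le
      unfold cj
      rw [Subgroup.map_sup]
      apply sup_le_sup
      · intro y hy
        have hy' := (mem_cj a B y).mp hy
        have h2 := (Subgroup.mem_normalizer_iff.mp (hB.2.2 ha) _).mp hy'
        have e : a * (a⁻¹ * y * a) * a⁻¹ = y := by group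
        rwa [e] at h2
      · intro y hy
        have hy' := (mem_cj a B₀ y).mp hy
        have h2 := (Subgroup.mem_normalizer_iff.mp (hB₀.2.2 ha) _).mp hy'
        have e : a * (a⁻¹ * y * a) * a⁻¹ = y := by group
        rwa [e] at h2
    have h2 : B ⊔ B₀ = B₀ := (Subgroup.eq_of_le_of_card_ge le_sup_right (hmax _ hsup)).symm
    rw [← h2]; exact le_sup_left
  have hB₀ne : B₀ ≠ ⊥ := by
    intro hbot
    apply h1
    have := hle _ hB1
    rw [hbot] at this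
    exact le_bot_iff.mp this
  have hNA : Subgroup.normalizer (A : Set G) ≤ Subgroup.normalizer (B₀ : Set G) := by
    intro x hx
    apply mem_normalizer_of_cj_le
    apply hle
    refine ⟨?_, cj_isPGroup x hB₀.2.1, ?_⟩
    · intro y hy
      have hy' := hB₀.1 ((mem_cj x B₀ y).mp hy)
      have h2 := (Subgroup.mem_normalizer_iff.mp hx _).mp hy'
      have e : x * (x⁻¹ * y * x) * x⁻¹ = y := by group
      rwa [e] at h2
    · apply le_normalizer_of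
      intro a ha y hy
      rw [mem_cj] at hy ⊢
      have ha' : x⁻¹ * a * x ∈ A := by
        have h2 := (Subgroup.mem_normalizer_iff.mp (Subgroup.inv_mem _ hx) _).mp ha
        simpa using h2
      have h2 := (Subgroup.mem_normalizer_iff.mp (hB₀.2.2 ha') _).mp hy
      have e : x⁻¹ * (a * y * a⁻¹) * x = x⁻¹ * a * x * (x⁻¹ * y * x) * (x⁻¹ * a * x)⁻¹ := by group
      rw [e]; exact h2
  have hfin := normalizer_eq_of_max hM B₀ hB₀.2.1 hB₀ne (hn.trans hNA)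
  rw [← hfin]
  exact hNA

theorem char_of_local {G : Type*} [Group G] {p : ℕ} (hloc : Cfsg.IsOfLocalCharacteristic p G)
    {M : Subgroup G} (hM : IsLocal p M) :
    Subgroup.centralizer (Cfsg.pCore p ↥M : Set ↥M) ≤ Cfsg.pCore p ↥M := by
  obtain ⟨T, hT, hTne, rfl⟩ := hM
  exact hloc.2 T hT hTne

theorem prim_of_pair {G : Type*} [Group G] [Finite G] {p : ℕ} [Fact p.Prime]
    (hloc : Cfsg.IsOfLocalCharacteristic p G) {M₁ M₂ : Subgroup G} (h₁ : IsMaxLocal p M₁)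
    (h₂ : IsMaxLocal p M₂) (hne : M₁ ≠ M₂) (hQ : Qp p M₁ ⊔ Qp p M₂ ≤ M₁ ⊓ M₂) :
    ∃ M₁ M₂ : Subgroup G, M₁ ≠ M₂ ∧ (∀ A : Subgroup G, A ≠ ⊥ → A ≤ M₁ ⊓ M₂ → (M₁ ≤ Subgroup.normalizer (A : Set G) → M₂ ⊓ Subgroup.normalizer (A : Set G) = M₁ ⊓ M₂) ∧ (M₂ ≤ Subgroup.normalizer (A : Set G) → M₁ ⊓ Subgroup.normalizer (A : Set G) = M₁ ⊓ M₂)) ∧ Subgroup.centralizer (Cfsg.pCore p ↥M₁ : Set ↥M₁) ≤ Cfsg.pCore p ↥M₁ ∧ Subgroup.centralizer (Cfsg.pCore p ↥M₂ : Set ↥M₂) ≤ Cfsg.pCore p ↥M₂ ∧ (Cfsg.pCore p ↥M₁).map M₁.subtype ⊔ (Cfsg.pCore p ↥M₂).map M₂.subtype ≤ M₁ ⊓ M₂ := by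
  refine ⟨M₁, M₂, hne, ?_, char_of_local hloc h₁.1, char_of_local hloc h₂.1, hQ⟩
  intro A hAne hA
  constructor
  · intro hn
    have h := prim_half h₁ (char_of_local hloc h₁.1) A hAne (hA.trans inf_le_left) hn
    have heq : Subgroup.normalizer (A : Set G) = M₁ := le_antisymm h hn
    rw [heq, inf_comm]
  · intro hn
    have h := prim_half h₂ (char_of_local hloc h₂.1) A hAne (hA.trans inf_le_right) hn
    have heq : Subgroup.normalizer (A : Set G) = M₂ := le_antisymm h hn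
    rw [heq]

theorem caseB {G : Type*} [Group G] [Finite G] {p : ℕ} [Fact p.Prime] {M₁ M₂ : Subgroup G}
    (h₁ : IsMaxLocal p M₁) (h₂ : IsMaxLocal p M₂)
    (T : Subgroup G) (hT : IsPGroup p T) (hTne : T ≠ ⊥) (hTM : T ≤ M₁ ⊓ M₂)
    (v : ℕ) (hTcard : Nat.card T = p ^ v)
    (hTmax : ∀ T' : Subgroup G, IsPGroup p T' → T' ≤ M₁ ⊓ M₂ → Nat.card T' ≤ p ^ v)
    (hmax : ∀ M₃ : Subgroup G, IsMaxLocal p M₃ → M₃ ≠ M₁ → ∀ T' : Subgroup G, IsPGroup p T' →
      T' ≤ M₁ ⊓ M₃ → Nat.card T' ≤ p ^ v)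
    (hQ : ¬ Qp p M₁ ≤ T) :
    ∃ x : G, x ∈ Subgroup.normalizer (T : Set G) ∧ x ∉ M₂ ∧ Qp p M₂ ≤ T := by
  classical
  have hp : p.Prime := Fact.out
  have hTM₁ : T ≤ M₁ := hTM.trans inf_le_left
  set U := Qp p M₁ ⊔ T with hU
  have hUp : IsPGroup p U :=
    IsPGroup.to_sup_of_normal_left' (Qp_isPGroup p M₁) hT (hTM₁.trans (le_normalizer_Qp p M₁))
  have hTU : T < U := lt_of_le_of_ne le_sup_right (fun h => hQ (by rw [h]; exact le_sup_left))
  have hgrow := normalizer_grows U T hUp hTU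
  set T₁ := U ⊓ Subgroup.normalizer (T : Set G) with hT₁
  have hT₁p : IsPGroup p T₁ := hUp.to_le inf_le_left
  have hT₁M₁ : T₁ ≤ M₁ := inf_le_left.trans (sup_le (Qp_le p M₁) hTM₁)
  obtain ⟨M₃, hM₃, hNM₃⟩ := exists_max_ge (p := p) (L := Subgroup.normalizer (T : Set G))
    ⟨T, hT, hTne, rfl⟩
  have hM₃eq : M₃ = M₁ := by
    by_contra hne
    have h1 := hmax M₃ hM₃ hne T₁ hT₁p (le_inf hT₁M₁ (inf_le_right.trans hNM₃))
    have h2 := card_lt_of_lt hgrow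
    rw [hTcard] at h2
    omega
  have hNM₁ : Subgroup.normalizer (T : Set G) ≤ M₁ := by rw [← hM₃eq]; exact hNM₃
  have hQ₂ : Qp p M₂ ≤ T := by
    by_contra hQ₂
    have hTM₂ : T ≤ M₂ := hTM.trans inf_le_right
    set U₂ := Qp p M₂ ⊔ T with hU₂
    have hU₂p : IsPGroup p U₂ :=
      IsPGroup.to_sup_of_normal_left' (Qp_isPGroup p M₂) hT (hTM₂.trans (le_normalizer_Qp p M₂))
    have hTU₂ : T < U₂ := lt_of_le_of_ne le_sup_right (fun h => hQ₂ (by rw [h]; exact le_sup_left))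
    have hgrow₂ := normalizer_grows U₂ T hU₂p hTU₂
    have h1 := hTmax (U₂ ⊓ Subgroup.normalizer (T : Set G)) (hU₂p.to_le inf_le_left)
      (le_inf (inf_le_right.trans hNM₁) (inf_le_left.trans (sup_le (Qp_le p M₂) hTM₂)))
    have h2 := card_lt_of_lt hgrow₂
    rw [hTcard] at h2
    omega
  obtain ⟨x, hxT₁, hxT⟩ := SetLike.exists_of_lt hgrow
  refine ⟨x, (Subgroup.mem_inf.mp hxT₁).2, ?_, hQ₂⟩
  intro hxM₂
  set T' := T ⊔ Subgroup.zpowers x with hT'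
  have hT'le : T' ≤ T₁ := sup_le hgrow.le (by rw [Subgroup.zpowers_le]; exact hxT₁)
  have hT'p : IsPGroup p T' := hT₁p.to_le hT'le
  have hT'M : T' ≤ M₁ ⊓ M₂ := sup_le hTM
    (by rw [Subgroup.zpowers_le]; exact Subgroup.mem_inf.mpr ⟨hT₁M₁ hxT₁, hxM₂⟩)
  have hlt : T < T' := lt_of_le_of_ne le_sup_left
    (fun h => hxT (by rw [h]; exact (le_sup_right : Subgroup.zpowers x ≤ T') (Subgroup.mem_zpowers x)))
  have h1 := hTmax T' hT'p hT'M
  have h2 := card_lt_of_lt hlt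
  rw [hTcard] at h2
  omega

theorem finalPair {G : Type*} [Group G] [Finite G] {p : ℕ} [Fact p.Prime]
    (hloc : Cfsg.IsOfLocalCharacteristic p G) {M₂ : Subgroup G} (h₂ : IsMaxLocal p M₂)
    (T : Subgroup G) (hTM : T ≤ M₂) (hQ₂ : Qp p M₂ ≤ T) (x : G)
    (hxT : x ∈ Subgroup.normalizer (T : Set G)) (hxM : x ∉ M₂) :
    ∃ M₁ M₂ : Subgroup G, M₁ ≠ M₂ ∧ (∀ A : Subgroup G, A ≠ ⊥ → A ≤ M₁ ⊓ M₂ → (M₁ ≤ Subgroup.normalizer (A : Set G) → M₂ ⊓ Subgroup.normalizer (A : Set G) = M₁ ⊓ M₂) ∧ (M₂ ≤ Subgroup.normalizer (A : Set G) → M₁ ⊓ Subgroup.normalizer (A : Set G) = M₁ ⊓ M₂)) ∧ Subgroup.centralizer (Cfsg.pCore p ↥M₁ : Set ↥M₁) ≤ Cfsg.pCore p ↥M₁ ∧ Subgroup.centralizer (Cfsg.pCore p ↥M₂ : Set ↥M₂) ≤ Cfsg.pCore p ↥M₂ ∧ (Cfsg.pCore p ↥M₁).map M₁.subtype ⊔ (Cfsg.pCore p ↥M₂).map M₂.subtype ≤ M₁ ⊓ M₂ := by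
  have h₂' := isMaxLocal_cj x h₂
  have hne : M₂ ≠ cj x M₂ := fun h => hxM (mem_of_cj_eq h₂ x h.symm)
  have hTcj : T ≤ cj x M₂ := by
    intro t ht
    rw [mem_cj]
    have h1 := (Subgroup.mem_normalizer_iff.mp (Subgroup.inv_mem _ hxT) t).mp ht
    have h' : x⁻¹ * t * x ∈ T := by simpa using h1
    exact hTM h'
  have hQ' : Qp p (cj x M₂) ≤ T := by
    have hW : cj x⁻¹ (Qp p (cj x M₂)) ≤ Qp p M₂ := by
      apply le_Qp
      · have h1 := cj_mono x⁻¹ (Qp_le p (cj x M₂))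
        rwa [cj_inv_cj] at h1
      · exact cj_isPGroup _ (Qp_isPGroup p _)
      · apply le_normalizer_of
        intro m hm y hy
        rw [mem_cj] at hy ⊢
        rw [inv_inv] at hy ⊢
        have hm' : x * m * x⁻¹ ∈ cj x M₂ := conj_mem_cj x M₂ m hm
        have h2 := (Subgroup.mem_normalizer_iff.mp (le_normalizer_Qp p (cj x M₂) hm') _).mp hy
        have e : x * (m * y * m⁻¹) * x⁻¹ = x * m * x⁻¹ * (x * y * x⁻¹) * (x * m * x⁻¹)⁻¹ := by group
        rw [e]; exact h2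
    intro y hy
    have h1 : x⁻¹ * y * x ∈ cj x⁻¹ (Qp p (cj x M₂)) := by
      have h0 := conj_mem_cj x⁻¹ _ y hy
      simpa using h0
    have h2 := hQ₂ (hW h1)
    have h3 := (Subgroup.mem_normalizer_iff.mp hxT _).mp h2
    have e : x * (x⁻¹ * y * x) * x⁻¹ = y := by group
    rwa [e] at h3
  exact prim_of_pair hloc h₂ h₂' hne
    (sup_le (hQ₂.trans (le_inf hTM hTcj)) (hQ'.trans (le_inf hTM hTcj)))

/-- Two distinct subgroups M₁, M₂ of G form a primitive pair when, for {i, j} = {1, 2}, every non-trivial normal subgroup A of M_i contained in M₁ ∩ M₂ satisfies N_{M_j}(A) = M₁ ∩ M₂; the pair has characteristic p when moreover C_{M_i}(O_p(M_i)) ≤ O_p(M_i) for both i and O_p(M₁)O_p(M₂) ≤ M₁ ∩ M₂. Let G be a finite group, p a prime dividing its order, with O_p(G) = 1 and every p-local subgroup of characteristic p. Then either G has a primitive pair of characteristic p, or every maximal p-local subgroup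 M of G is strongly p-embedded in G: M is a proper subgroup, p divides its order, and for every g ∉ M the order of M ∩ gMg⁻¹ is prime to p. -/
theorem result {G : Type*} [Group G] [Finite G] {p : ℕ} [Fact p.Prime] (hloc : Cfsg.IsOfLocalCharacteristic p G) (hOp : Cfsg.pCore p G = ⊥) : (∃ M₁ M₂ : Subgroup G, M₁ ≠ M₂ ∧ (∀ A : Subgroup G, A ≠ ⊥ → A ≤ M₁ ⊓ M₂ → (M₁ ≤ Subgroup.normalizer (A : Set G) → M₂ ⊓ Subgroup.normalizer (A : Set G) = M₁ ⊓ M₂) ∧ (M₂ ≤ Subgroup.normalizer (A : Set G) → M₁ ⊓ Subgroup.normalizer (A : Set G) = M₁ ⊓ M₂)) ∧ Subgroup.centralizer (Cfsg.pCore p ↥M₁ : Set ↥M₁) ≤ Cfsg.pCore p ↥M₁ ∧ Subgroup.centralizer (Cfsg.pCore p ↥M₂ : Set ↥M₂) ≤ Cfsg.pCore p ↥M₂ ∧ (Cfsg.pCore p ↥M₁).map M₁.subtype ⊔ (Cfsg.pCore p ↥M₂).map M₂.subtype ≤ M₁ ⊓ M₂) ∨ (∀ M : Subgroup G, (∃ T : Subgroup G, IsPGroup p T ∧ T ≠ ⊥ ∧ M = Subgroup.normalizer (T : Set G)) → (∀ L : Subgroup G, (∃ T : Subgroup G, IsPGroup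 p T ∧ T ≠ ⊥ ∧ L = Subgroup.normalizer (T : Set G)) → M ≤ L → L = M) → M ≠ ⊤ ∧ p ∣ Nat.card M ∧ ∀ g : G, g ∉ M → ¬ p ∣ Nat.card ↥(M ⊓ M.map (MulAut.conj g).toMonoidHom)) := by
  classical
  have hp : p.Prime := Fact.out
  rw [or_iff_not_imp_right]
  intro hnot
  push Not at hnot
  obtain ⟨M, hMloc, hMmax, hbad⟩ := hnot
  have hM : IsMaxLocal p M := ⟨hMloc, hMmax⟩
  obtain ⟨T₀, hT₀, hT₀ne, hMeq⟩ := hMloc
  have hMtop : M ≠ ⊤ := by
    intro htop
    apply hT₀ne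
    rw [hMeq] at htop
    have hn : T₀.Normal := Subgroup.normalizer_eq_top_iff.mp htop
    have h1 := le_pCore hn hT₀
    rw [hOp] at h1
    exact le_bot_iff.mp h1
  have hpdvd : ∀ (N T' : Subgroup G), IsPGroup p T' → T' ≤ N → T' ≠ ⊥ → p ∣ Nat.card N := by
    intro N T' hT' hle hne'
    obtain ⟨e, he⟩ := IsPGroup.iff_card.mp hT'
    have he0 : e ≠ 0 := by
      rintro rfl
      rw [pow_zero] at he
      exact hne' (Subgroup.card_eq_one.mp he)
    have h1 : p ∣ Nat.card T' := by rw [he]; exact dvd_pow_self p he0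
    exact h1.trans (Subgroup.card_dvd_of_le hle)
  have hpM : p ∣ Nat.card M :=
    hpdvd M T₀ hT₀ (by rw [hMeq]; exact Subgroup.le_normalizer) hT₀ne
  obtain ⟨g, hgM, hgp⟩ := hbad hMtop hpM
  let PP : Set (Subgroup G × Subgroup G) :=
    {q | IsMaxLocal p q.1 ∧ IsMaxLocal p q.2 ∧ q.1 ≠ q.2 ∧ p ∣ Nat.card ↥(q.1 ⊓ q.2)}
  have h0 : (M, cj g M) ∈ PP :=
    ⟨hM, isMaxLocal_cj g hM, fun h => hgM (mem_of_cj_eq hM g h.symm), hgp⟩
  obtain ⟨⟨M₁, M₂⟩, ⟨h₁, h₂, hne, hdvd⟩, hmax⟩ := Set.exists_max_image PP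
    (fun q => (Nat.card ↥(q.1 ⊓ q.2)).factorization p) (Set.toFinite _) ⟨_, h0⟩
  simp only at h₁ h₂ hne hdvd hmax
  set v := (Nat.card ↥(M₁ ⊓ M₂)).factorization p with hv
  have hn0 : Nat.card ↥(M₁ ⊓ M₂) ≠ 0 := Nat.card_pos.ne'
  obtain ⟨S⟩ : Nonempty (Sylow p ↥(M₁ ⊓ M₂)) := inferInstance
  set T : Subgroup G := (S : Subgroup ↥(M₁ ⊓ M₂)).map (M₁ ⊓ M₂).subtype with hT
  have hTp : IsPGroup p T := S.2.map _
  have hTM : T ≤ M₁ ⊓ M₂ := Subgroup.map_subtype_le _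
  have hTcard : Nat.card T = p ^ v := by
    rw [hT, Subgroup.card_map_of_injective (M₁ ⊓ M₂).subtype_injective, Sylow.card_eq_multiplicity]
  have hv1 : 0 < v := hp.factorization_pos_of_dvd hn0 hdvd
  have hTne : T ≠ ⊥ := by
    intro h
    rw [h, Subgroup.card_bot] at hTcard
    have h1 : 1 < p ^ v := Nat.one_lt_pow hv1.ne' hp.one_lt
    omega
  have hcardle : ∀ (N : Subgroup G) (T' : Subgroup G), IsPGroup p T' → T' ≤ N →
      (T' ≠ ⊥ → (Nat.card N).factorization p ≤ v) → Nat.card T' ≤ p ^ v := by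
    intro N T' hT' hle hfac
    obtain ⟨e, he⟩ := IsPGroup.iff_card.mp hT'
    by_cases hbot : T' = ⊥
    · rw [hbot, Subgroup.card_bot]; exact Nat.one_le_pow _ _ hp.pos
    · have h1 : p ^ e ∣ Nat.card N := by rw [← he]; exact Subgroup.card_dvd_of_le hle
      have h2 := (hp.pow_dvd_iff_le_factorization Nat.card_pos.ne').mp h1
      rw [he]
      exact Nat.pow_le_pow_right hp.pos (h2.trans (hfac hbot))
  have hTmax : ∀ T' : Subgroup G, IsPGroup p T' → T' ≤ M₁ ⊓ M₂ → Nat.card T' ≤ p ^ v :=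
    fun T' hT' hle => hcardle _ T' hT' hle (fun _ => le_rfl)
  have hmax₁ : ∀ M₃ : Subgroup G, IsMaxLocal p M₃ → M₃ ≠ M₁ → ∀ T' : Subgroup G, IsPGroup p T' →
      T' ≤ M₁ ⊓ M₃ → Nat.card T' ≤ p ^ v := by
    intro M₃ hM₃ hne₃ T' hT' hle
    apply hcardle _ T' hT' hle
    intro hne'
    exact hmax (M₁, M₃) ⟨h₁, hM₃, fun h => hne₃ h.symm, hpdvd _ T' hT' hle hne'⟩
  have hmax₂ : ∀ M₃ : Subgroup G, IsMaxLocal p M₃ → M₃ ≠ M₂ → ∀ T' : Subgroup G, IsPGroup p T' →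
      T' ≤ M₂ ⊓ M₃ → Nat.card T' ≤ p ^ v := by
    intro M₃ hM₃ hne₃ T' hT' hle
    apply hcardle _ T' hT' hle
    intro hne'
    exact hmax (M₂, M₃) ⟨h₂, hM₃, fun h => hne₃ h.symm, hpdvd _ T' hT' hle hne'⟩
  by_cases hQ₁ : Qp p M₁ ≤ T
  · by_cases hQ₂ : Qp p M₂ ≤ T
    · exact prim_of_pair hloc h₁ h₂ hne (sup_le (hQ₁.trans hTM) (hQ₂.trans hTM))
    · obtain ⟨x, hxT, hxM, hQ⟩ := caseB h₂ h₁ T hTp hTne (by rw [inf_comm]; exact hTM) v hTcard
        (fun T' hT' hle => hTmax T' hT' (by rw [inf_comm]; exact hle)) hmax₂ hQ₂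
      exact finalPair hloc h₁ T (hTM.trans inf_le_left) hQ x hxT hxM
  · obtain ⟨x, hxT, hxM, hQ⟩ := caseB h₁ h₂ T hTp hTne hTM v hTcard hTmax hmax₁ hQ₁
    exact finalPair hloc h₂ T (hTM.trans inf_le_right) hQ x hxT hxM

end Cfsg.Agent.S3751
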