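import Cfsg.Statements.S3755
import Cfsg.Agent.Lib.helper14.S3Sec

set_option autoImplicit false
open Cfsg
open Cfsg.Agent.Lib.helper14

namespace Cfsg.Agent.S3755

/-- Let M and V be subgroups of a finite group with V an elementary abelian 2-group, M normalizing V and acting faithfully on it (M ∩ C(V) = 1), and C_M(O_{2'}(M)) ≤ O_{2'}(M). If some elementary abelian 2-subgroup A of M satisfies |V : C_V(A)| < |A|², then M has a section isomorphic to the symmetric group of degree 3. -/
theorem result {X : Type*} [Group X] [Finite X] (M V : Subgroup X) (hV : Cfsg.IsElementaryAbelian 2 V) (hMV : M ≤ Subgroup.normalizer (V : Set X)) (hfaith : M ⊓ Subgroup.centralizer (V : Set X) = ⊥) (hcon : Subgroup.centralizer (Cfsg.pPrimeCore 2 ↥M : Set ↥M) ≤ Cfsg.pPrimeCore 2 ↥M) (A : Subgroup X) (hAM : A ≤ M) (hA : Cfsg.IsElementaryAbelian 2 A) (hsmall : (V ⊓ Subgroup.centralizer (A : Set X)).relIndex V < Nat.card A ^ 2) : Cfsg.Involves (Equiv.Perm (Fin 3)) ↥M := by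
  by_contra hno
  have h := s3_offender_bound M V hV hMV hfaith hcon hno _ A rfl hAM hA
  have e := Cfsg.Agent.Lib.helper3.card_mul_relIndex_of_le
    (inf_le_left : V ⊓ Subgroup.centralizer (A : Set X) ≤ V)
  have hpos : 0 < Nat.card ↥(V ⊓ Subgroup.centralizer (A : Set X)) := Nat.card_pos
  rw [← e] at h
  have h2 : Nat.card ↥(V ⊓ Subgroup.centralizer (A : Set X)) *
      (V ⊓ Subgroup.centralizer (A : Set X)).relIndex V <
      Nat.card ↥(V ⊓ Subgroup.centralizer (A : Set X)) * Nat.card A ^ 2 :=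
    Nat.mul_lt_mul_of_pos_left hsmall hpos
  rw [mul_comm] at h
  exact absurd h (not_le.mpr h2)

end Cfsg.Agent.S3755
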