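import Cfsg.Statements.S3760
import Mathlib

set_option autoImplicit false
open Cfsg

namespace Cfsg.Agent.S3760

theorem mem_conj_map {G : Type*} [Group G] (K : Subgroup G) (g y : G) :
    y ∈ K.map (MulAut.conj g).toMonoidHom ↔ g⁻¹ * y * g ∈ K := by
  constructor
  · rintro ⟨k, hk, rfl⟩
    simpa [MulAut.conj_apply, mul_assoc] using hk
  · intro h
    refine ⟨g⁻¹ * y * g, h, ?_⟩
    simp [MulAut.conj_apply, mul_assoc]


/-- Let the group G act transitively on a set X, let x ∈ X with stabilizer H = G_x, and let K ≤ H. Then N_G(K) acts transitively on the set of fixed points of K if and only if every G-conjugate of K contained in H is already an H-conjugate of K. -/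
theorem result {G : Type*} [Group G] {X : Type*} [MulAction G X] (htrans : ∀ a b : X, ∃ g : G, g • a = b) (x : X) (K : Subgroup G) (hK : K ≤ MulAction.stabilizer G x) : (∀ a b : X, (∀ k ∈ K, k • a = a) → (∀ k ∈ K, k • b = b) → ∃ g ∈ Subgroup.normalizer (K : Set G), g • a = b) ↔ ∀ g : G, K.map (MulAut.conj g).toMonoidHom ≤ MulAction.stabilizer G x → ∃ h ∈ MulAction.stabilizer G x, K.map (MulAut.conj g).toMonoidHom = K.map (MulAut.conj h).toMonoidHom := by
  constructor
  · intro hN g hg
    have hfix1 : ∀ k ∈ K, k • (g⁻¹ • x) = g⁻¹ • x := by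
      intro k hk
      have h1 : g * k * g⁻¹ ∈ K.map (MulAut.conj g).toMonoidHom := by
        rw [mem_conj_map]; simpa [mul_assoc] using hk
      have h2 := hg h1
      rw [MulAction.mem_stabilizer_iff] at h2
      calc k • (g⁻¹ • x) = g⁻¹ • ((g * k * g⁻¹) • x) := by simp [mul_smul]
        _ = g⁻¹ • x := by rw [h2]
    have hfix2 : ∀ k ∈ K, k • x = x := fun k hk => MulAction.mem_stabilizer_iff.1 (hK hk)
    obtain ⟨n, hn, hnx⟩ := hN (g⁻¹ • x) x hfix1 hfix2
    refine ⟨g * n⁻¹, ?_, ?_⟩
    · rw [MulAction.mem_stabilizer_iff, mul_smul]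
      have : n⁻¹ • x = g⁻¹ • x := by
        rw [inv_smul_eq_iff, hnx]
      rw [this]; simp
    · ext y
      rw [mem_conj_map, mem_conj_map]
      have hn' := (Subgroup.mem_normalizer_iff.1 hn) (g⁻¹ * y * g)
      rw [hn']
      have : (g * n⁻¹)⁻¹ * y * (g * n⁻¹) = n * (g⁻¹ * y * g) * n⁻¹ := by group
      rw [this]
  · intro hF
    have key : ∀ a : X, (∀ k ∈ K, k • a = a) → ∃ n ∈ Subgroup.normalizer (K : Set G), n • a = x := by
      intro a ha
      obtain ⟨g, hg⟩ := htrans a x
      have hle : K.map (MulAut.conj g).toMonoidHom ≤ MulAction.stabilizer G x := by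
        intro y hy
        rw [mem_conj_map] at hy
        rw [MulAction.mem_stabilizer_iff]
        have h1 := ha _ hy
        have h2 : y = g * (g⁻¹ * y * g) * g⁻¹ := by group
        rw [h2, mul_smul, mul_smul]
        have h3 : g⁻¹ • x = a := by rw [← hg]; simp
        rw [h3, h1, hg]
      obtain ⟨h, hh, heq⟩ := hF g hle
      refine ⟨h⁻¹ * g, ?_, ?_⟩
      · rw [Subgroup.mem_normalizer_iff]
        intro k
        have h1 : g * k * g⁻¹ ∈ K.map (MulAut.conj g).toMonoidHom ↔ k ∈ K := by
          rw [mem_conj_map]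
          have : g⁻¹ * (g * k * g⁻¹) * g = k := by group
          rw [this]
        rw [heq, mem_conj_map] at h1
        rw [← h1]
        have : h⁻¹ * g * k * (h⁻¹ * g)⁻¹ = h⁻¹ * (g * k * g⁻¹) * h := by group
        rw [this]
      · rw [mul_smul, hg]
        rw [MulAction.mem_stabilizer_iff] at hh
        rw [inv_smul_eq_iff, hh]
    intro a b ha hb
    obtain ⟨n, hn, hna⟩ := key a ha
    obtain ⟨m, hm, hmb⟩ := key b hb
    refine ⟨m⁻¹ * n, Subgroup.mul_mem _ (Subgroup.inv_mem _ hm) hn, ?_⟩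
    rw [mul_smul, hna, inv_smul_eq_iff, hmb]

end Cfsg.Agent.S3760
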