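import Cfsg.Statements.S3781
import Mathlib

set_option autoImplicit false
open Cfsg

namespace Cfsg.Agent.S3781

universe u

section
variable {G : Type u} [Group G]

/-- three subgroups lemma modulo a normal subgroup -/
theorem three_sub (N : Subgroup G) [N.Normal] (A B C : Subgroup G)
    (h1 : ⁅⁅B, C⁆, A⁆ ≤ N) (h2 : ⁅⁅C, A⁆, B⁆ ≤ N) : ⁅⁅A, B⁆, C⁆ ≤ N := by
  have k1 : ⁅⁅B.map (QuotientGroup.mk' N), C.map (QuotientGroup.mk' N)⁆, A.map (QuotientGroup.mk' N)⁆ = ⊥ := by
    rw [← Subgroup.map_commutator, ← Subgroup.map_commutator, Subgroup.map_eq_bot_iff,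
      QuotientGroup.ker_mk']
    exact h1
  have k2 : ⁅⁅C.map (QuotientGroup.mk' N), A.map (QuotientGroup.mk' N)⁆, B.map (QuotientGroup.mk' N)⁆ = ⊥ := by
    rw [← Subgroup.map_commutator, ← Subgroup.map_commutator, Subgroup.map_eq_bot_iff,
      QuotientGroup.ker_mk']
    exact h2
  have k3 := Subgroup.commutator_commutator_eq_bot_of_rotate k1 k2
  rw [← Subgroup.map_commutator, ← Subgroup.map_commutator, Subgroup.map_eq_bot_iff,
    QuotientGroup.ker_mk'] at k3
  exact k3

/-- iterated commutator with the whole group -/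
def itc (H : Subgroup G) : ℕ → Subgroup G
  | 0 => H
  | j + 1 => ⁅itc H j, ⊤⁆

theorem itc_normal (H : Subgroup G) [hH : H.Normal] : ∀ j, (itc H j).Normal
  | 0 => hH
  | j + 1 => by
    haveI := itc_normal H j
    show (⁅itc H j, ⊤⁆ : Subgroup G).Normal
    infer_instance

theorem itc_shift (H : Subgroup G) : ∀ j, itc ⁅H, ⊤⁆ j = itc H (j + 1)
  | 0 => rfl
  | j + 1 => by
    show ⁅itc ⁅H, ⊤⁆ j, ⊤⁆ = ⁅itc H (j + 1), ⊤⁆
    rw [itc_shift H j]

theorem itc_mono {H K : Subgroup G} (h : H ≤ K) : ∀ j, itc H j ≤ itc K j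
  | 0 => h
  | j + 1 => Subgroup.commutator_mono (itc_mono h j) le_rfl

theorem comm_lcs_le : ∀ (k : ℕ) (H : Subgroup G) [H.Normal],
    ⁅H, (⊤ : Subgroup G).lowerCentralSeries k⁆ ≤ itc H (k + 1) := by
  intro k
  induction k with
  | zero => intro H _; exact le_rfl
  | succ k ih =>
    intro H hH
    rw [Subgroup.lowerCentralSeries_succ, Subgroup.commutator_comm]
    haveI := itc_normal H (k + 2)
    apply three_sub
    · -- ⁅⁅⊤, H⁆, γ_k⁆ ≤ itc H (k+2)
      rw [Subgroup.commutator_comm ⊤ H]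
      have h1 := ih ⁅H, ⊤⁆
      rwa [itc_shift] at h1
    · -- ⁅⁅H, γ_k⁆, ⊤⁆ ≤ itc H (k+2)
      exact Subgroup.commutator_mono (ih H) le_rfl

theorem nilp_bot [Group.IsNilpotent G] (H : Subgroup G) (h : H ≤ ⁅H, ⊤⁆) : H = ⊥ := by
  have key : ∀ t, H ≤ (⊤ : Subgroup G).lowerCentralSeries t := by
    intro t
    induction t with
    | zero => exact le_top
    | succ t ih =>
      rw [Subgroup.lowerCentralSeries_succ]
      exact h.trans (Subgroup.commutator_mono ih le_rfl)
  obtain ⟨n, hn⟩ := Subgroup.nilpotent_iff_lowerCentralSeries.mp (inferInstance : Group.IsNilpotent G)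
  exact le_bot_iff.mp (hn ▸ key n)

theorem lcs_normal (N : Subgroup G) [hN : N.Normal] : ∀ j, (N.lowerCentralSeries j).Normal
  | 0 => hN
  | j + 1 => by
    haveI := lcs_normal N j
    rw [Subgroup.lowerCentralSeries_succ]
    infer_instance

end

section
variable {G : Type u} [Group G] [Finite G] {p : ℕ} [Fact p.Prime]

theorem shrink (hG : IsPGroup p G) (H K : Subgroup G) [H.Normal] [K.Normal] (hKH : K ≤ H)
    (h : H ≤ ⁅H, ⊤⁆ ⊔ K) : H ≤ K := by
  haveI : Group.IsNilpotent (G ⧸ K) := (hG.to_quotient K).isNilpotent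
  have h1 : H.map (QuotientGroup.mk' K) ≤ ⁅H.map (QuotientGroup.mk' K), ⊤⁆ := by
    have h2 := Subgroup.map_mono (f := QuotientGroup.mk' K) h
    rw [Subgroup.map_sup, Subgroup.map_commutator,
      Subgroup.map_top_of_surjective _ (QuotientGroup.mk'_surjective K)] at h2
    have h3 : K.map (QuotientGroup.mk' K) = ⊥ := by
      rw [Subgroup.map_eq_bot_iff, QuotientGroup.ker_mk']
    rwa [h3, sup_bot_eq] at h2
  have h4 := nilp_bot _ h1
  rw [Subgroup.map_eq_bot_iff, QuotientGroup.ker_mk'] at h4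
  exact h4

theorem card_lt_p (hG : IsPGroup p G) (A B : Subgroup G) (hAB : A < B) :
    p * Nat.card A ≤ Nat.card B := by
  have hp : p.Prime := Fact.out
  obtain ⟨b, hb⟩ := IsPGroup.iff_card.mp (hG.to_subgroup B)
  have h1 : Nat.card A ∣ Nat.card B := Subgroup.card_dvd_of_le hAB.le
  rw [hb] at h1
  obtain ⟨a, ha, hac⟩ := (Nat.dvd_prime_pow hp).mp h1
  have hlt : a < b := by
    rcases Nat.lt_or_ge a b with h | h
    · exact h
    · exfalso
      have : a = b := le_antisymm ha h
      have h2 : Nat.card B ≤ Nat.card A := by rw [hb, hac, this]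
      exact hAB.ne (Subgroup.eq_of_le_of_card_ge hAB.le h2)
  rw [hb, hac, ← pow_succ']
  exact Nat.pow_le_pow_right hp.pos hlt

/-- the descending chain `M_0 = M`, `M_{j+1} = [M_j, G] K` -/
def chain (M K : Subgroup G) : ℕ → Subgroup G
  | 0 => M
  | j + 1 => ⁅chain M K j, ⊤⁆ ⊔ K

theorem chain_normal (M K : Subgroup G) [hM : M.Normal] [hK : K.Normal] : ∀ j, (chain M K j).Normal
  | 0 => hM
  | j + 1 => by
    haveI := chain_normal M K j
    show (⁅chain M K j, ⊤⁆ ⊔ K : Subgroup G).Normal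
    infer_instance

theorem le_chain (M K : Subgroup G) (hKM : K ≤ M) : ∀ j, K ≤ chain M K j
  | 0 => hKM
  | _ + 1 => le_sup_right

theorem chain_succ_le (M K : Subgroup G) [M.Normal] [K.Normal] (hKM : K ≤ M) (j : ℕ) :
    chain M K (j + 1) ≤ chain M K j := by
  haveI := chain_normal M K j
  exact sup_le (Subgroup.commutator_le_left _ _) (le_chain M K hKM j)

theorem itc_le_chain (M K : Subgroup G) : ∀ j, itc M j ≤ chain M K j
  | 0 => le_rfl
  | j + 1 => (Subgroup.commutator_mono (itc_le_chain M K j) le_rfl).trans le_sup_left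

theorem chain_inv (hG : IsPGroup p G) (M K : Subgroup G) [M.Normal] [K.Normal] (hKM : K ≤ M) :
    ∀ t, chain M K t = K ∨ p ^ t * Nat.card (chain M K t) ≤ Nat.card M := by
  intro t
  induction t with
  | zero => right; simp [chain]
  | succ t ih =>
    rcases ih with h | h
    · left
      show ⁅chain M K t, ⊤⁆ ⊔ K = K
      rw [h]
      exact sup_eq_right.mpr (Subgroup.commutator_le_left _ _)
    · by_cases heq : chain M K (t + 1) = chain M K t
      · left
        haveI := chain_normal M K t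
        have h1 : chain M K t ≤ K := by
          apply shrink hG _ K (le_chain M K hKM t)
          have h0 : chain M K t = ⁅chain M K t, ⊤⁆ ⊔ K := heq.symm
          exact h0.le
        rw [heq]
        exact le_antisymm h1 (le_chain M K hKM t)
      · right
        have hlt : chain M K (t + 1) < chain M K t :=
          lt_of_le_of_ne (chain_succ_le M K hKM t) heq
        have h2 := card_lt_p hG _ _ hlt
        calc p ^ (t + 1) * Nat.card (chain M K (t + 1))
            = p ^ t * (p * Nat.card (chain M K (t + 1))) := by ring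
          _ ≤ p ^ t * Nat.card (chain M K t) := Nat.mul_le_mul_left _ h2
          _ ≤ Nat.card M := h

end

/-- Let G be a finite p-group and n ≥ 1, and write γ_1(G) = G, γ_{k+1}(G) = [γ_k(G), G], and likewise γ_k(N) for a subgroup N. Let N be a normal subgroup of G contained in γ_n(G). If i > 1 and γ_{i+1}(N) ≠ 1, then |γ_i(N) : γ_{i+1}(N)| ≥ p^n. -/
theorem result {G : Type*} [Group G] [Finite G] {p : ℕ} [Fact p.Prime] (hG : IsPGroup p G) (n : ℕ) (hn : 1 ≤ n) (N : Subgroup G) [N.Normal] (hN : N ≤ (⊤ : Subgroup G).lowerCentralSeries (n - 1)) (i : ℕ) (hi : 1 < i) (hne : N.lowerCentralSeries i ≠ ⊥) : p ^ n ≤ (N.lowerCentralSeries i).relIndex (N.lowerCentralSeries (i - 1)) := by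
  have hp : p.Prime := Fact.out
  haveI : Group.IsNilpotent G := hG.isNilpotent
  obtain ⟨i', rfl⟩ : ∃ i', i = i' + 1 := ⟨i - 1, by omega⟩
  obtain ⟨n', rfl⟩ : ∃ n', n = n' + 1 := ⟨n - 1, by omega⟩
  simp only [Nat.add_sub_cancel] at hN ⊢
  set M := N.lowerCentralSeries i' with hMdef
  set K := N.lowerCentralSeries (i' + 1) with hKdef
  haveI hMn : M.Normal := lcs_normal N i'
  haveI hKn : K.Normal := lcs_normal N (i' + 1)
  have hKM : K ≤ M := (Subgroup.lowerCentralSeries_antitone N) (Nat.le_succ i')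
  have hKeq : K = ⁅M, N⁆ := rfl
  by_contra hlt
  push Not at hlt
  have hcard := Subgroup.relIndex_mul_relIndex ⊥ K M bot_le hKM
  rw [Subgroup.relIndex_bot_left, Subgroup.relIndex_bot_left] at hcard
  -- chain reaches K after n' steps
  have hch : chain M K n' = K := by
    rcases chain_inv hG M K hKM n' with h | h
    · exact h
    · by_contra hne'
      have hlt' : K < chain M K n' := lt_of_le_of_ne (le_chain M K hKM n') (Ne.symm hne')
      have h2 := card_lt_p hG _ _ hlt'
      have h3 : p ^ (n' + 1) * Nat.card K ≤ Nat.card M := by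
        calc p ^ (n' + 1) * Nat.card K = p ^ n' * (p * Nat.card K) := by ring
          _ ≤ p ^ n' * Nat.card (chain M K n') := Nat.mul_le_mul_left _ h2
          _ ≤ Nat.card M := h
      rw [← hcard] at h3
      have hKpos : 0 < Nat.card K := Nat.card_pos
      have h4 : p ^ (n' + 1) ≤ K.relIndex M := by
        rw [mul_comm] at h3
        exact Nat.le_of_mul_le_mul_left h3 hKpos
      omega
  have h5 : K ≤ ⁅K, ⊤⁆ := by
    calc K = ⁅M, N⁆ := hKeq
      _ ≤ ⁅M, (⊤ : Subgroup G).lowerCentralSeries n'⁆ := Subgroup.commutator_mono le_rfl hN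
      _ ≤ itc M (n' + 1) := comm_lcs_le n' M
      _ = ⁅itc M n', ⊤⁆ := rfl
      _ ≤ ⁅chain M K n', ⊤⁆ := Subgroup.commutator_mono (itc_le_chain M K n') le_rfl
      _ = ⁅K, ⊤⁆ := by rw [hch]
  exact hne (nilp_bot K h5)

end Cfsg.Agent.S3781
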