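import Cfsg.Statements.S3766
import Mathlib
import Cfsg.Agent.S3781
import Cfsg.Agent.Lib.helper7.Subn
import Cfsg.Agent.Lib.helper7.Layer2

set_option autoImplicit false
open Cfsg
open scoped commutatorElement

namespace Cfsg.Agent.S3766

universe u

section
variable {G : Type u} [Group G]

/-- iterated commutator with `C` -/
def ic (C H : Subgroup G) : ℕ → Subgroup G
  | 0 => H
  | j + 1 => ⁅ic C H j, C⁆

theorem ic_normal (C H : Subgroup G) [hC : C.Normal] [hH : H.Normal] : ∀ j, (ic C H j).Normal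
  | 0 => hH
  | j + 1 => by
    haveI := ic_normal C H j
    show (⁅ic C H j, C⁆ : Subgroup G).Normal
    infer_instance

theorem ic_shift (C H : Subgroup G) : ∀ j, ic C ⁅H, C⁆ j = ic C H (j + 1)
  | 0 => rfl
  | j + 1 => by
    show ⁅ic C ⁅H, C⁆ j, C⁆ = ⁅ic C H (j + 1), C⁆
    rw [ic_shift C H j]

theorem ic_mono (C : Subgroup G) {H K : Subgroup G} (h : H ≤ K) : ∀ j, ic C H j ≤ ic C K j
  | 0 => h
  | j + 1 => Subgroup.commutator_mono (ic_mono C h j) le_rfl

theorem comm_lcs (C : Subgroup G) [C.Normal] : ∀ (k : ℕ) (H : Subgroup G) [H.Normal],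
    ⁅H, C.lowerCentralSeries k⁆ ≤ ic C H (k + 1) := by
  intro k
  induction k with
  | zero => intro H _; exact le_rfl
  | succ k ih =>
    intro H hH
    rw [Subgroup.lowerCentralSeries_succ, Subgroup.commutator_comm]
    haveI := ic_normal C H (k + 2)
    apply Cfsg.Agent.S3781.three_sub
    · rw [Subgroup.commutator_comm C H]
      have h1 := ih ⁅H, C⁆
      rwa [ic_shift] at h1
    · exact Subgroup.commutator_mono (ih H) le_rfl

/-- the elements centralizing `U` modulo `V` form a normal subgroup -/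
theorem cent_mod (U V : Subgroup G) [hU : U.Normal] [hV : V.Normal] :
    ∃ D : Subgroup G, D.Normal ∧ ∀ g, g ∈ D ↔ ∀ u ∈ U, u * g * u⁻¹ * g⁻¹ ∈ V := by
  haveI : (U.map (QuotientGroup.mk' V)).Normal := hU.map _ (QuotientGroup.mk'_surjective V)
  refine ⟨(Subgroup.centralizer (U.map (QuotientGroup.mk' V) : Set (G ⧸ V))).comap
    (QuotientGroup.mk' V), inferInstance, ?_⟩
  intro g
  rw [Subgroup.mem_comap, Subgroup.mem_centralizer_iff]
  constructor
  · intro h u hu
    have h1 := h _ ⟨u, hu, rfl⟩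
    have : (QuotientGroup.mk' V) (u * g * u⁻¹ * g⁻¹) = 1 := by
      rw [map_mul, map_mul, map_mul, map_inv, map_inv, h1]; group
    exact (QuotientGroup.eq_one_iff _).mp this
  · rintro h _ ⟨u, hu, rfl⟩
    have h1 := h u hu
    have : (QuotientGroup.mk' V) (u * g * u⁻¹ * g⁻¹) = 1 := (QuotientGroup.eq_one_iff _).mpr h1
    rw [map_mul, map_mul, map_mul, map_inv, map_inv] at this
    calc (QuotientGroup.mk' V) u * (QuotientGroup.mk' V) g
        = ((QuotientGroup.mk' V) u * (QuotientGroup.mk' V) g * ((QuotientGroup.mk' V) u)⁻¹ *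
            ((QuotientGroup.mk' V) g)⁻¹) * ((QuotientGroup.mk' V) g * (QuotientGroup.mk' V) u) := by
          group
      _ = (QuotientGroup.mk' V) g * (QuotientGroup.mk' V) u := by rw [this, one_mul]

open scoped commutatorElement in
theorem comm_sup_le (A V F : Subgroup G) [hV : V.Normal] : ⁅A ⊔ V, F⁆ ≤ ⁅A, F⁆ ⊔ V := by
  rw [Subgroup.commutator_le]
  intro x hx f hf
  rw [← SetLike.mem_coe, Subgroup.mul_normal] at hx
  obtain ⟨a, ha, v, hv, rfl⟩ := Set.mem_mul.mp hx
  have e : ⁅a * v, f⁆ = (a * (v * (f * v⁻¹ * f⁻¹)) * a⁻¹) * ⁅a, f⁆ := by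
    simp only [commutatorElement_def]; group
  rw [e]
  exact Subgroup.mul_mem _ (Subgroup.mem_sup_right
      (hV.conj_mem _ (V.mul_mem hv (hV.conj_mem _ (V.inv_mem hv) f)) a))
    (Subgroup.mem_sup_left (Subgroup.commutator_mem_commutator ha hf))

def Chief (U V : Subgroup G) : Prop :=
  U.Normal ∧ V.Normal ∧ V < U ∧ ∀ W : Subgroup G, W.Normal → V ≤ W → W ≤ U → W = V ∨ W = U

end


/-- Let G be a finite solvable group and N a normal subgroup of G. Call a pair V < U of normal subgroups of G a chief factor of G when no normal subgroup of G lies strictly between them; an element g centralizes the chief factor U/V when u g u⁻¹ g⁻¹ ∈ V for all u ∈ U. Then an element of G lies in the Fitting subgroup F(N) if and only if it lies in N and centralizes every chief factor of G; and also if and only if it lies in N and centralizes every chief factor U/V of G with U ≤ F(N). -/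
theorem result {G : Type*} [Group G] [Finite G] (hG : Group.IsSolvable G) (N : Subgroup G) [N.Normal] (g : G) : (g ∈ (Cfsg.fittingSubgroup ↥N).map N.subtype ↔ g ∈ N ∧ ∀ U V : Subgroup G, (U.Normal ∧ V.Normal ∧ V < U ∧ ∀ W : Subgroup G, W.Normal → V ≤ W → W ≤ U → W = V ∨ W = U) → ∀ u ∈ U, u * g * u⁻¹ * g⁻¹ ∈ V) ∧ (g ∈ (Cfsg.fittingSubgroup ↥N).map N.subtype ↔ g ∈ N ∧ ∀ U V : Subgroup G, (U.Normal ∧ V.Normal ∧ V < U ∧ ∀ W : Subgroup G, W.Normal → V ≤ W → W ≤ U → W = V ∨ W = U) → U ≤ (Cfsg.fittingSubgroup ↥N).map N.subtype → ∀ u ∈ U, u * g * u⁻¹ * g⁻¹ ∈ V) := by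
  classical
  set F : Subgroup G := (Cfsg.fittingSubgroup ↥N).map N.subtype with hF
  have hNsn : N.IsSubnormal := Subgroup.Normal.isSubnormal inferInstance
  have hFeq : F = Cfsg.fittingSubgroup G ⊓ N := Cfsg.Agent.Lib.helper7.fitting_subnormal_eq hNsn
  have hFn : F.Normal := by rw [hFeq]; infer_instance
  have hFN : F ≤ N := by rw [hFeq]; exact inf_le_right
  have hFnil : Group.IsNilpotent ↥F := by
    haveI := Cfsg.Agent.Lib.helper7.fitting_nilpotent ↥N
    exact Group.nilpotent_of_mulEquiv
      ((Cfsg.fittingSubgroup ↥N).equivMapOfInjective _ (Subgroup.subtype_injective _))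
  obtain ⟨c, hc⟩ := (Subgroup.isNilpotent_iff_lowerCentralSeries F).mp hFnil
  have hA : g ∈ F → ∀ U V : Subgroup G, Chief U V → ∀ u ∈ U, u * g * u⁻¹ * g⁻¹ ∈ V := by
    intro hg U V ⟨hU, hV, hVU, hmin⟩ u hu
    haveI := hU; haveI := hV
    have hW : (⁅U, F⁆ ⊔ V).Normal := inferInstance
    rcases hmin (⁅U, F⁆ ⊔ V) hW le_sup_right
      (sup_le (Subgroup.commutator_le_left U F) hVU.le) with h | h
    · have h1 : ⁅u, g⁆ ∈ V := by
        have : ⁅u, g⁆ ∈ ⁅U, F⁆ ⊔ V :=
          Subgroup.mem_sup_left (Subgroup.commutator_mem_commutator hu hg)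
        rwa [h] at this
      rwa [commutatorElement_def] at h1
    · exfalso
      have key : ∀ i, U ≤ F.lowerCentralSeries i ⊔ V := by
        intro i
        induction i with
        | zero => exact h.ge.trans (sup_le_sup_right (Subgroup.commutator_le_right U F) V)
        | succ i ih =>
          have h1 : ⁅U, F⁆ ≤ ⁅F.lowerCentralSeries i ⊔ V, F⁆ := Subgroup.commutator_mono ih le_rfl
          have h2 := comm_sup_le (F.lowerCentralSeries i) V F
          rw [Subgroup.lowerCentralSeries_succ]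
          exact h.ge.trans (sup_le (h1.trans h2) le_sup_right)
      have := key c
      rw [hc, bot_sup_eq] at this
      exact hVU.ne (le_antisymm hVU.le this)
  have hB : g ∈ N → (∀ U V : Subgroup G, Chief U V → U ≤ F → ∀ u ∈ U, u * g * u⁻¹ * g⁻¹ ∈ V) →
      g ∈ F := by
    intro hgN hcent
    set C : Subgroup G := Subgroup.normalClosure {g} with hC
    have hCn : C.Normal := Subgroup.normalClosure_normal
    have hCN : C ≤ N := Subgroup.normalClosure_le_normal (by simpa using hgN)
    have hgC : g ∈ C := Subgroup.subset_normalClosure (Set.mem_singleton g)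
    have hUV : ∀ U V : Subgroup G, Chief U V → U ≤ F → ⁅U, C⁆ ≤ V := by
      intro U V hch hUF
      obtain ⟨hU, hV, hVU, hmin⟩ := hch
      haveI := hU; haveI := hV
      obtain ⟨D, hDn, hD⟩ := cent_mod U V
      have hCD : C ≤ D := Subgroup.normalClosure_le_normal (by
        rw [Set.singleton_subset_iff]
        exact (hD g).mpr (hcent U V ⟨hU, hV, hVU, hmin⟩ hUF))
      rw [Subgroup.commutator_le]
      intro u hu x hx
      rw [commutatorElement_def]
      exact (hD x).mp (hCD hx) u hu
    have step1 : ∀ n : ℕ, ∀ W : Subgroup G, W.Normal → W ≤ F → Nat.card W = n →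
        ∃ j, ic C W j = ⊥ := by
      intro n
      induction n using Nat.strong_induction_on with
      | _ n ih =>
        intro W hW hWF hn
        by_cases hWbot : W = ⊥
        · exact ⟨0, hWbot⟩
        · obtain ⟨V, -, hVmax⟩ := Finite.exists_le_maximal
            (p := fun V : Subgroup G => V.Normal ∧ V < W) (a := ⊥)
            ⟨Subgroup.normal_bot, bot_lt_iff_ne_bot.mpr hWbot⟩
          obtain ⟨⟨hVn, hVW⟩, hVm⟩ := hVmax
          have hch : Chief W V := ⟨hW, hVn, hVW, fun X hX hVX hXW => by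
            by_cases hXeq : X = W
            · exact Or.inr hXeq
            · left
              exact le_antisymm (hVm ⟨hX, lt_of_le_of_ne hXW hXeq⟩ hVX) hVX⟩
          have h1 := hUV W V hch hWF
          have hlt : Nat.card V < Nat.card W := by
            have h1 : Nat.card V ≤ Nat.card W := Subgroup.card_le_of_le hVW.le
            rcases h1.lt_or_eq with h | h
            · exact h
            · exact absurd (Subgroup.eq_of_le_of_card_ge hVW.le h.ge) hVW.ne
          obtain ⟨j, hj⟩ := ih (Nat.card V) (hn ▸ hlt) V hVn (hVW.le.trans hWF) rfl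
          refine ⟨j + 1, ?_⟩
          rw [← ic_shift, eq_bot_iff, ← hj]
          exact ic_mono C h1 j
    obtain ⟨r, hr⟩ := step1 _ F hFn le_rfl rfl
    have h2 : ⁅F, C.lowerCentralSeries r⁆ = ⊥ := by
      rw [eq_bot_iff]
      refine (comm_lcs C r F).trans ?_
      show ⁅ic C F r, C⁆ ≤ ⊥
      rw [hr]
      exact (Subgroup.commutator_bot_left C).le
    haveI := hG
    have hsolvN : Group.IsSolvable ↥N := inferInstance
    have h3 : C.lowerCentralSeries r ≤ F := by
      intro x hx
      have hxC : x ∈ C := Subgroup.lowerCentralSeries_le_self C r hx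
      have hxN : x ∈ N := hCN hxC
      have hcF : x ∈ Subgroup.centralizer (F : Set G) := by
        have := (Subgroup.commutator_eq_bot_iff_le_centralizer).mp h2
        exact (Subgroup.le_centralizer_iff.mp this) hx
      have h4 := Cfsg.Agent.Lib.helper7.centralizer_fitting_le_of_solvable ↥N hsolvN
      have h5 : (⟨x, hxN⟩ : ↥N) ∈ Subgroup.centralizer (Cfsg.fittingSubgroup ↥N : Set ↥N) := by
        rw [Subgroup.mem_centralizer_iff]
        intro y hy
        have hyF : (y : G) ∈ F := ⟨y, hy, rfl⟩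
        have := Subgroup.mem_centralizer_iff.mp hcF _ hyF
        exact Subtype.ext this
      exact ⟨⟨x, hxN⟩, h4 h5, rfl⟩
    have h6 : ∀ j, C.lowerCentralSeries (r + j) ≤ ic C F j := by
      intro j
      induction j with
      | zero => exact h3
      | succ j ih =>
        show ⁅C.lowerCentralSeries (r + j), C⁆ ≤ ⁅ic C F j, C⁆
        exact Subgroup.commutator_mono ih le_rfl
    have h7 : C.lowerCentralSeries (r + r) = ⊥ := by
      rw [eq_bot_iff, ← hr]; exact h6 r
    have hCnil : Group.IsNilpotent ↥C := (Subgroup.isNilpotent_iff_lowerCentralSeries C).mpr ⟨_, h7⟩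
    rw [hFeq]
    exact Subgroup.mem_inf.mpr ⟨Cfsg.Agent.Lib.helper7.le_fitting hCn hCnil hgC, hgN⟩
  exact ⟨⟨fun hg => ⟨hFN hg, hA hg⟩, fun ⟨hgN, h⟩ => hB hgN (fun U V hch _ => h U V hch)⟩,
    ⟨fun hg => ⟨hFN hg, fun U V hch _ => hA hg U V hch⟩, fun ⟨hgN, h⟩ => hB hgN h⟩⟩

end Cfsg.Agent.S3766
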