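import Cfsg.Statements.S3768
import Mathlib
import Cfsg.Agent.Lib.helper1.FrobConj

set_option autoImplicit false
open Cfsg

namespace Cfsg.Agent.S3768

open Pointwise

/-- Let G be a finite Frobenius group with Frobenius complement R and Frobenius kernel K (the identity together with the elements in no conjugate of R), and let N be a normal subgroup of G not containing K. Then G/N is a Frobenius group with Frobenius complement RN/N whose Frobenius kernel is the image of K. -/
theorem result {G : Type*} [Group G] [Finite G] (R : Subgroup G) (hR : Cfsg.IsFrobeniusComplement R) (N : Subgroup G) [N.Normal] (hKN : ¬ Cfsg.frobeniusKernel R ⊆ N) : Cfsg.IsFrobeniusComplement (R.map (QuotientGroup.mk' N)) ∧ Cfsg.frobeniusKernel (R.map (QuotientGroup.mk' N)) = QuotientGroup.mk' N '' Cfsg.frobeniusKernel R := by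
  classical
  obtain ⟨K, hset, hKn, hc, hKne, hfpf⟩ := Cfsg.Agent.Lib.helper1.frob_pair R hR
  haveI := hKn
  have hNn : N.Normal := inferInstance
  have hNK : N ≤ K := by
    rcases Cfsg.Agent.Lib.helper1.frob_kernel_comparable R K hset hfpf N with h | h
    · exact h
    · exfalso; apply hKN; rw [← hset]; exact h
  have hKR : ∀ x, x ∈ K → x ∈ R → x = 1 := by
    intro x hxK hxR
    exact Subgroup.disjoint_def.mp hc.disjoint hxK hxR
  have hdec : ∀ g : G, ∃ k ∈ K, ∃ r ∈ R, g = k * r := by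
    intro g
    obtain ⟨⟨k, r⟩, hkr⟩ := hc.2 g
    exact ⟨k.1, k.2, r.1, r.2, hkr.symm⟩
  have hinj : ∀ r ∈ R, r ≠ 1 → ∀ a ∈ K, ∀ b ∈ K,
      r⁻¹ * a * r * a⁻¹ = r⁻¹ * b * r * b⁻¹ → a = b := by
    intro r hr hr1 a ha b hb h
    have h1 : b⁻¹ * a ∈ K ⊓ Subgroup.centralizer {r} := by
      refine Subgroup.mem_inf.mpr ⟨K.mul_mem (K.inv_mem hb) ha, ?_⟩
      rw [Subgroup.mem_centralizer_iff]
      intro x hx
      rw [Set.mem_singleton_iff] at hx
      subst hx
      have h2 : a * x * a⁻¹ = b * x * b⁻¹ := by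
        have := congrArg (fun t => x * t) h
        simpa [mul_assoc] using this
      calc x * (b⁻¹ * a) = b⁻¹ * (b * x * b⁻¹) * a := by group
        _ = b⁻¹ * (a * x * a⁻¹) * a := by rw [h2]
        _ = b⁻¹ * a * x := by group
    rw [hfpf r hr hr1, Subgroup.mem_bot] at h1
    exact (inv_mul_eq_one.mp h1).symm
  have hL : ∀ r ∈ R, r ≠ 1 → ∀ k ∈ K, r⁻¹ * k * r * k⁻¹ ∈ N → k ∈ N := by
    intro r hr hr1 k hk hkN
    let φ : N → N := fun n => ⟨r⁻¹ * n.1 * r * n.1⁻¹,
      N.mul_mem (by simpa using hNn.conj_mem n.1 n.2 r⁻¹) (N.inv_mem n.2)⟩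
    have hφ : Function.Injective φ := by
      intro a b hab
      have := congrArg Subtype.val hab
      exact Subtype.ext (hinj r hr hr1 a.1 (hNK a.2) b.1 (hNK b.2) this)
    obtain ⟨n, hn⟩ := (Finite.injective_iff_surjective.mp hφ) ⟨_, hkN⟩
    have := congrArg Subtype.val hn
    have h2 := hinj r hr hr1 n.1 (hNK n.2) k hk this
    rw [← h2]; exact n.2
  set π := QuotientGroup.mk' N with hπ
  have hπ1 : ∀ x : G, π x = 1 ↔ x ∈ N := fun x => QuotientGroup.eq_one_iff x
  have hπeq : ∀ x y : G, π x = π y ↔ x⁻¹ * y ∈ N := fun x y => QuotientGroup.eq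
  refine ⟨⟨?_, ?_, ?_⟩, ?_⟩
  · intro hbot
    apply hR.1
    rw [eq_bot_iff]
    intro r hr
    have h1 : π r ∈ R.map π := ⟨r, hr, rfl⟩
    rw [hbot, Subgroup.mem_bot, hπ1] at h1
    exact Subgroup.mem_bot.mpr (hKR r (hNK h1) hr)
  · intro htop
    apply hKN
    rw [← hset]
    intro k hk
    have h1 : π k ∈ R.map π := by rw [htop]; trivial
    obtain ⟨r, hr, hrk⟩ := h1
    rw [hπeq] at hrk
    have h2 : r ∈ K := by
      have : r⁻¹ ∈ K := by
        have h3 := K.mul_mem (hNK hrk) (K.inv_mem hk)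
        simpa using h3
      simpa using K.inv_mem this
    have h3 := hKR r h2 hr
    rw [h3] at hrk
    simpa using hrk
  · intro gbar hg
    obtain ⟨g, rfl⟩ := QuotientGroup.mk'_surjective N gbar
    obtain ⟨k, hk, r, hr, rfl⟩ := hdec g
    have hkN : k ∉ N := by
      intro hkN
      apply hg
      refine ⟨r, hr, ?_⟩
      rw [hπeq]
      simpa [mul_assoc] using hNn.conj_mem k hkN r⁻¹
    rw [eq_bot_iff]
    intro x hx
    obtain ⟨hx1, hx2⟩ := Subgroup.mem_inf.mp hx
    obtain ⟨r₁, hr₁, rfl⟩ := hx1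
    rw [Subgroup.mem_pointwise_smul_iff_inv_smul_mem] at hx2
    obtain ⟨r₂, hr₂, h2⟩ := hx2
    have h3 : π r₁ = π (k * r) * π r₂ * (π (k * r))⁻¹ := by
      rw [h2]
      show π r₁ = π (k * r) * ((π (k * r))⁻¹ * π r₁ * π (k * r)) * (π (k * r))⁻¹
      group
    rw [← map_inv, ← map_mul, ← map_mul, hπeq] at h3
    set r₃ := r * r₂ * r⁻¹ with hr₃
    have hr₃R : r₃ ∈ R := R.mul_mem (R.mul_mem hr hr₂) (R.inv_mem hr)
    have h4 : r₁⁻¹ * (k * r * r₂ * (k * r)⁻¹) = (r₁⁻¹ * r₃) * (r₃⁻¹ * k * r₃ * k⁻¹) := by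
      rw [hr₃]; group
    have h5 : r₃⁻¹ * k * r₃ * k⁻¹ ∈ K :=
      K.mul_mem (by simpa using hKn.conj_mem k hk r₃⁻¹) (K.inv_mem hk)
    have h6 : r₁⁻¹ * r₃ ∈ K := by
      have h7 := K.mul_mem (hNK h3) (K.inv_mem h5)
      rw [h4, mul_inv_cancel_right] at h7
      exact h7
    have h8 : r₁⁻¹ * r₃ = 1 := hKR _ h6 (R.mul_mem (R.inv_mem hr₁) hr₃R)
    have h9 : r₁ = r₃ := inv_mul_eq_one.mp h8
    rw [h4, h8, one_mul, ← h9] at h3
    by_cases h1 : r₁ = 1
    · rw [h1, map_one]; exact Subgroup.mem_bot.mpr rfl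
    · exact absurd (hL r₁ hr₁ h1 k hk h3) hkN
  · ext xbar
    constructor
    · intro hx
      obtain ⟨x, rfl⟩ := QuotientGroup.mk'_surjective N xbar
      by_cases hxK : x ∈ Cfsg.frobeniusKernel R
      · exact ⟨x, hxK, rfl⟩
      · have hxK' : ¬ (x = 1 ∨ ∀ g : G, x ∉ MulAut.conj g • R) := hxK
        push Not at hxK'
        obtain ⟨_, g, hg⟩ := hxK'
        have hx' : π x = 1 ∨ ∀ g : G ⧸ N, π x ∉ MulAut.conj g • R.map π := hx
        rcases hx' with h | h
        · refine ⟨1, Or.inl rfl, ?_⟩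
          rw [map_one]; exact h.symm
        · exfalso
          apply h (π g)
          obtain ⟨r, hr, hrx⟩ := hg
          refine ⟨π r, ⟨r, hr, rfl⟩, ?_⟩
          rw [← hrx]
          show π g * π r * (π g)⁻¹ = π (g * r * g⁻¹)
          simp
    · rintro ⟨k, hk, rfl⟩
      have hkK : k ∈ K := by rw [← SetLike.mem_coe, hset]; exact hk
      by_cases h1 : π k = 1
      · exact Or.inl h1
      · right
        intro gbar hmem
        obtain ⟨g, rfl⟩ := QuotientGroup.mk'_surjective N gbar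
        obtain ⟨y, ⟨r, hr, rfl⟩, hy⟩ := hmem
        have h2 : π k = π (g * r * g⁻¹) := by
          rw [← hy]
          show π g * π r * (π g)⁻¹ = π (g * r * g⁻¹)
          simp
        rw [hπeq] at h2
        have h3 : g * r * g⁻¹ ∈ K := by
          have := K.mul_mem hkK (hNK h2)
          simpa using this
        have h4 : r ∈ K := by
          have := hKn.conj_mem _ h3 g⁻¹
          simpa [mul_assoc] using this
        have h5 := hKR r h4 hr
        apply h1
        rw [← hy, h5]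
        show π g * π 1 * (π g)⁻¹ = 1
        simp

end Cfsg.Agent.S3768
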