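import Cfsg.Statements.S3772
import Mathlib
import Cfsg.Agent.S3737
import Cfsg.Agent.Lib.helper1.PGroup

set_option autoImplicit false
open Cfsg
open scoped commutatorElement

namespace Cfsg.Agent.S3772

universe u

/-- the sign function: `1` at the identity, `-1` elsewhere -/
noncomputable def sgn {G : Type u} [Group G] (u : G) : ℤ := by
  classical
  exact if u = 1 then 1 else -1

theorem sgn_one {G : Type u} [Group G] : sgn (1 : G) = 1 := by simp [sgn]

theorem sgn_of_ne {G : Type u} [Group G] {u : G} (h : u ≠ 1) : sgn u = -1 := by simp [sgn, h]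

theorem sgn_sq {G : Type u} [Group G] (u : G) : sgn u * sgn u = 1 := by
  by_cases h : u = 1
  · rw [h, sgn_one]; norm_num
  · rw [sgn_of_ne h]; norm_num

theorem sgn_cases {G : Type u} [Group G] (u : G) : sgn u = 1 ∨ sgn u = -1 := by
  by_cases h : u = 1
  · left; rw [h, sgn_one]
  · right; exact sgn_of_ne h

theorem sgn_eq_one_iff {G : Type u} [Group G] (u : G) : sgn u = 1 ↔ u = 1 := by
  constructor
  · intro h
    by_contra hne
    rw [sgn_of_ne hne] at h
    norm_num at h
  · intro h; rw [h, sgn_one]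

/-- sum of a function which changes sign under a translation is zero -/
theorem sum_zero_of_neg {G : Type u} [Group G] [Fintype G] (f : G → ℤ) (x₀ : G)
    (h : ∀ x, f (x₀ * x) = - f x) : ∑ x, f x = 0 := by
  have h1 : ∑ x, f (x₀ * x) = ∑ x, f x := Equiv.sum_comp (Equiv.mulLeft x₀) f
  have h2 : ∑ x, f (x₀ * x) = - ∑ x, f x := by
    rw [← Finset.sum_neg_distrib]
    exact Finset.sum_congr rfl (fun x _ => h x)
  omega

/-- the main computation -/
theorem main {G : Type u} [Group G] [Finite G] [Fintype G] (hG : IsPGroup 2 G)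
    (hΦ : Nat.card (frattini G) = 2) :
    let j := Nat.card {x : G // x ^ 2 = 1}
    let S : ℤ := 2 * (j : ℤ) - (Nat.card G : ℤ)
    frattini G ≤ Subgroup.center G ∧ (∀ a b : G, ⁅a, b⁆ ∈ frattini G) ∧
    (S = 0 ∨ (S * S = (Nat.card G : ℤ) * (Nat.card (Subgroup.center G) : ℤ) ∧
      ∀ w ∈ Subgroup.center G, w ^ 2 = 1)) := by
  classical
  intro j S
  haveI : Fact (Nat.Prime 2) := ⟨Nat.prime_two⟩
  set Φ := frattini G with hΦdef
  have hΦn : Φ.Normal := inferInstance
  obtain ⟨z', hz'1, hz'u⟩ := (Nat.card_eq_two_iff' (1 : Φ)).mp hΦ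
  have hzΦ : (z' : G) ∈ Φ := z'.2
  have hz1 : (z' : G) ≠ 1 := fun h => hz'1 (Subtype.ext h)
  have hΦcases : ∀ u ∈ Φ, u = 1 ∨ u = (z' : G) := by
    intro u hu
    by_cases h : u = 1
    · exact Or.inl h
    · right
      have := hz'u ⟨u, hu⟩ (fun h' => h (congrArg Subtype.val h'))
      exact congrArg Subtype.val this
  set z : G := (z' : G) with hzdef
  have hzz : z * z = 1 := by
    rcases hΦcases (z * z) (Φ.mul_mem hzΦ hzΦ) with h | h
    · exact h
    · exfalso; apply hz1
      have : z * z = z * 1 := by rw [h, mul_one]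
      exact mul_left_cancel this
  have hzc : ∀ g : G, g * z = z * g := by
    intro g
    rcases hΦcases (g * z * g⁻¹) (hΦn.conj_mem z hzΦ g) with h | h
    · exfalso; apply hz1
      have : z = g⁻¹ * (g * z * g⁻¹) * g := by group
      rw [this, h]; group
    · calc g * z = (g * z * g⁻¹) * g := by group
        _ = z * g := by rw [h]
  have hΦZ : Φ ≤ Subgroup.center G := by
    intro u hu
    rw [Subgroup.mem_center_iff]
    intro g
    rcases hΦcases u hu with h | h
    · rw [h]; simp
    · rw [h]; exact hzc g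
  have hsq : ∀ x : G, x ^ 2 ∈ Φ := fun x => Cfsg.Agent.Lib.helper1.pow_mem_frattini 2 hG x
  have hcomm : ∀ a b : G, ⁅a, b⁆ ∈ Φ := fun a b =>
    Cfsg.Agent.Lib.helper1.commutator_le_frattini 2 hG
      (Subgroup.commutator_mem_commutator (Subgroup.mem_top a) (Subgroup.mem_top b))
  have hc : ∀ a b : G, ⁅a, b⁆ ∈ Subgroup.center G := fun a b => hΦZ (hcomm a b)
  refine ⟨hΦZ, hcomm, ?_⟩
  -- multiplicativity of sgn on Φ
  have hs_mul : ∀ u ∈ Φ, ∀ v ∈ Φ, sgn (u * v) = sgn u * sgn v := by
    intro u hu v hv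
    rcases hΦcases u hu with h | h <;> rcases hΦcases v hv with h' | h'
    · rw [h, h', mul_one, sgn_one]; norm_num
    · rw [h, h', one_mul, sgn_one]; norm_num
    · rw [h, h', mul_one, sgn_one]; norm_num
    · rw [h, h', hzz, sgn_one, sgn_of_ne hz1]; norm_num
  let χ : G → ℤ := fun x => sgn (x ^ 2)
  have hχmul : ∀ x y : G, χ (x * y) = χ x * χ y * sgn ⁅y, x⁆ := by
    intro x y
    have h1 : (x * y) ^ 2 = ⁅y, x⁆ * x ^ 2 * y ^ 2 := by
      have h2 : x * ⁅y, x⁆ = ⁅y, x⁆ * x := (Subgroup.mem_center_iff.mp (hc y x)) x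
      have h3 : (x * y) ^ 2 = x * ⁅y, x⁆ * x * y ^ 2 := by
        simp only [commutatorElement_def, pow_two]; group
      rw [h3, h2, pow_two x]; group
    show sgn ((x * y) ^ 2) = sgn (x ^ 2) * sgn (y ^ 2) * sgn ⁅y, x⁆
    rw [h1, hs_mul _ (Φ.mul_mem (hcomm y x) (hsq x)) _ (hsq y), hs_mul _ (hcomm y x) _ (hsq x)]
    ring
  have hχsq : ∀ x : G, χ x * χ x = 1 := fun x => sgn_sq _
  -- the sum of χ
  have hS : S = ∑ x : G, χ x := by
    have h1 : ∀ x : G, χ x = 2 * (if x ^ 2 = 1 then (1 : ℤ) else 0) - 1 := by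
      intro x
      by_cases h : x ^ 2 = 1
      · simp [χ, h, sgn_one]
      · simp [χ, h, sgn_of_ne h]
    have h2 : ∑ x : G, χ x = 2 * ∑ x : G, (if x ^ 2 = 1 then (1 : ℤ) else 0) - ∑ x : G, (1 : ℤ) := by
      rw [Finset.mul_sum, ← Finset.sum_sub_distrib]
      exact Finset.sum_congr rfl (fun x _ => h1 x)
    rw [h2, Finset.sum_boole, Finset.sum_const, Finset.card_univ]
    have h3 : j = (Finset.univ.filter (fun x : G => x ^ 2 = 1)).card := by
      show Nat.card {x : G // x ^ 2 = 1} = _
      rw [Nat.card_eq_fintype_card, Fintype.card_subtype]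
    have h4 : Nat.card G = Fintype.card G := Nat.card_eq_fintype_card
    show 2 * (j : ℤ) - (Nat.card G : ℤ) = _
    rw [h3, h4]; simp
  -- inner sums
  have hT : ∀ w : G, ∑ x : G, sgn ⁅w, x⁆ = if w ∈ Subgroup.center G then (Nat.card G : ℤ) else 0 := by
    intro w
    by_cases hw : w ∈ Subgroup.center G
    · rw [if_pos hw]
      have : ∀ x : G, sgn ⁅w, x⁆ = 1 := by
        intro x
        rw [sgn_eq_one_iff, commutatorElement_eq_one_iff_commute]
        exact ((Subgroup.mem_center_iff.mp hw) x).symm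
      rw [Finset.sum_congr rfl (fun x _ => this x), Finset.sum_const, Finset.card_univ,
        Nat.card_eq_fintype_card]; simp
    · rw [if_neg hw]
      have : ∃ x₀ : G, ⁅w, x₀⁆ ≠ 1 := by
        by_contra hall
        push Not at hall
        apply hw
        rw [Subgroup.mem_center_iff]
        intro g
        exact ((commutatorElement_eq_one_iff_commute.mp (hall g))).eq.symm
      obtain ⟨x₀, hx₀⟩ := this
      apply sum_zero_of_neg _ x₀
      intro x
      rw [Cfsg.Agent.S3737.comm_mul_right hc, hs_mul _ (hcomm w x₀) _ (hcomm w x), sgn_of_ne hx₀]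
      ring
  have hSS : S * S = (Nat.card G : ℤ) * ∑ w : G, (if w ∈ Subgroup.center G then χ w else 0) := by
    rw [hS, Finset.sum_mul_sum]
    have h1 : ∀ x : G, ∑ y : G, χ x * χ y = ∑ w : G, χ w * sgn ⁅w, x⁆ := by
      intro x
      rw [← Equiv.sum_comp (Equiv.mulLeft x) (fun y => χ x * χ y)]
      apply Finset.sum_congr rfl
      intro w _
      show χ x * χ (x * w) = χ w * sgn ⁅w, x⁆
      rw [hχmul x w]
      calc χ x * (χ x * χ w * sgn ⁅w, x⁆) = (χ x * χ x) * (χ w * sgn ⁅w, x⁆) := by ring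
        _ = χ w * sgn ⁅w, x⁆ := by rw [hχsq, one_mul]
    rw [Finset.sum_congr rfl (fun x _ => h1 x), Finset.sum_comm, Finset.mul_sum]
    apply Finset.sum_congr rfl
    intro w _
    rw [← Finset.mul_sum, hT w]
    by_cases hw : w ∈ Subgroup.center G
    · rw [if_pos hw, if_pos hw]; ring
    · rw [if_neg hw, if_neg hw]; ring
  by_cases hex : ∃ w₀ ∈ Subgroup.center G, w₀ ^ 2 ≠ 1
  · left
    obtain ⟨w₀, hw₀, hw₀2⟩ := hex
    have h0 : ∑ w : G, (if w ∈ Subgroup.center G then χ w else 0) = 0 := by
      apply sum_zero_of_neg _ w₀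
      intro w
      by_cases hw : w ∈ Subgroup.center G
      · rw [if_pos hw, if_pos (Subgroup.mul_mem _ hw₀ hw), hχmul]
        have h1 : ⁅w, w₀⁆ = 1 := by
          rw [commutatorElement_eq_one_iff_commute]
          exact ((Subgroup.mem_center_iff.mp hw) w₀).symm
        rw [h1, sgn_one]
        show sgn (w₀ ^ 2) * χ w * 1 = - χ w
        rw [sgn_of_ne hw₀2]; ring
      · have hw' : w₀ * w ∉ Subgroup.center G := by
          intro h
          apply hw
          have := Subgroup.mul_mem _ (Subgroup.inv_mem _ hw₀) h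
          simpa using this
        rw [if_neg hw, if_neg hw']; ring
    rw [h0, mul_zero] at hSS
    exact mul_self_eq_zero.mp hSS
  · right
    push Not at hex
    refine ⟨?_, hex⟩
    rw [hSS]
    congr 1
    have h1 : ∀ w : G, (if w ∈ Subgroup.center G then χ w else 0) =
        (if w ∈ Subgroup.center G then (1 : ℤ) else 0) := by
      intro w
      by_cases hw : w ∈ Subgroup.center G
      · rw [if_pos hw, if_pos hw]
        show sgn (w ^ 2) = 1
        rw [hex w hw, sgn_one]
      · rw [if_neg hw, if_neg hw]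
    rw [Finset.sum_congr rfl (fun w _ => h1 w), Finset.sum_boole, Nat.card_eq_fintype_card,
      Fintype.card_subtype]

/-- Let G be a finite 2-group whose Frattini subgroup Φ(G) has order 2, with |G : Φ(G)| = 2^d, and let j be the number of elements x of G with x² = 1. Then j = 2^d, or j = 2^d + 2^(d−r) or j = 2^d − 2^(d−r) for some positive integer r with 2r ≤ d. Moreover if d = 2r and j is 2^d + 2^r or 2^d − 2^r, then G is extraspecial. -/
theorem result {G : Type*} [Group G] [Finite G] (hG : IsPGroup 2 G) (hΦ : Nat.card (frattini G) = 2) (d : ℕ) (hd : (frattini G).index = 2 ^ d) : (Nat.card {x : G // x ^ 2 = 1} = 2 ^ d ∨ ∃ r : ℕ, 1 ≤ r ∧ 2 * r ≤ d ∧ (Nat.card {x : G // x ^ 2 = 1} = 2 ^ d + 2 ^ (d - r) ∨ Nat.card {x : G // x ^ 2 = 1} + 2 ^ (d - r) = 2 ^ d)) ∧ (∀ r : ℕ, d = 2 * r → (Nat.card {x : G // x ^ 2 = 1} = 2 ^ d + 2 ^ r ∨ Nat.card {x : G // x ^ 2 = 1} + 2 ^ r = 2 ^ d) → Cfsg.IsExtraspecial 2 G) := by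
  classical
  haveI : Fact (Nat.Prime 2) := ⟨Nat.prime_two⟩
  haveI : Fintype G := Fintype.ofFinite G
  obtain ⟨hΦZ, hcomm, hmain⟩ := main hG hΦ
  set j := Nat.card {x : G // x ^ 2 = 1} with hj
  set a := 2 ^ d with ha
  have hapos : 0 < a := pow_pos (by norm_num) d
  have hcardG : Nat.card G = 2 * a := by
    rw [← Subgroup.card_mul_index (frattini G), hΦ, hd]
  obtain ⟨c, hc⟩ := IsPGroup.iff_card.mp (hG.to_subgroup (Subgroup.center G))
  have hc1 : 1 ≤ c := by
    have h1 := Subgroup.card_dvd_of_le hΦZ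
    rw [hΦ, hc] at h1
    by_contra h
    have h2 : c = 0 := by omega
    subst h2
    simp at h1
  have hfr_ne_top : frattini G ≠ ⊤ := by
    intro h
    have hnt : (⊥ : Subgroup G) ≠ ⊤ := by
      intro hbt
      have h1 : Nat.card (⊤ : Subgroup G) = 1 := by rw [← hbt]; exact Subgroup.card_bot
      rw [Subgroup.card_top, hcardG] at h1
      omega
    obtain ⟨M, hM, _⟩ := (eq_top_or_exists_le_coatom (⊥ : Subgroup G)).resolve_left hnt
    have h2 := frattini_le_coatom hM
    rw [h] at h2
    exact hM.1 (top_le_iff.mp h2)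
  have hcd1 : c ≤ d + 1 := by
    have h1 := Subgroup.card_dvd_of_le (le_top : Subgroup.center G ≤ ⊤)
    rw [Subgroup.card_top, hcardG, hc, ha, ← pow_succ'] at h1
    exact (Nat.pow_dvd_pow_iff_le_right (by norm_num)).mp h1
  -- analysis of the nonzero case
  have key : (2 * (j : ℤ) - (Nat.card G : ℤ)) * (2 * (j : ℤ) - (Nat.card G : ℤ)) =
        (Nat.card G : ℤ) * (Nat.card (Subgroup.center G) : ℤ) →
      (∀ w ∈ Subgroup.center G, w ^ 2 = 1) →
      ∃ m : ℕ, 2 * m = d + 1 + c ∧ c ≤ d ∧
        ((2 * (j : ℤ) - (Nat.card G : ℤ)) = ((2 ^ m : ℕ) : ℤ) ∨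
         (2 * (j : ℤ) - (Nat.card G : ℤ)) = -((2 ^ m : ℕ) : ℤ)) := by
    intro hSS hZ2
    set S : ℤ := 2 * (j : ℤ) - (Nat.card G : ℤ) with hSdef
    have h1 : S.natAbs * S.natAbs = 2 ^ (d + 1 + c) := by
      have h2 : ((S.natAbs * S.natAbs : ℕ) : ℤ) = ((2 ^ (d + 1 + c) : ℕ) : ℤ) := by
        rw [Nat.cast_mul, Int.natAbs_mul_self', hSS, hcardG, hc, ha]
        push_cast
        ring
      exact_mod_cast h2
    have h3 : S.natAbs ∣ 2 ^ (d + 1 + c) := ⟨S.natAbs, h1.symm⟩
    obtain ⟨m, _, hm⟩ := (Nat.dvd_prime_pow Nat.prime_two).mp h3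
    rw [hm, ← pow_add] at h1
    have h4 : m + m = d + 1 + c := Nat.pow_right_injective (le_refl 2) h1
    have hcd : c ≠ d + 1 := by
      intro hcd
      have htop : Subgroup.center G = ⊤ := by
        apply Subgroup.eq_top_of_card_eq
        rw [hc, hcd, hcardG, ha, pow_succ']
      have hbot : frattini G ≤ ⊥ := by
        apply Cfsg.Agent.Lib.helper1.frattini_le_of_elementary_quotient 2 ⊥
        · rw [commutator_def, Subgroup.commutator_le]
          intro x _ y _
          rw [Subgroup.mem_bot, commutatorElement_eq_one_iff_commute]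
          have hx : x ∈ Subgroup.center G := by rw [htop]; exact Subgroup.mem_top x
          exact ((Subgroup.mem_center_iff.mp hx) y).symm
        · intro x
          rw [Subgroup.mem_bot]
          exact hZ2 x (by rw [htop]; exact Subgroup.mem_top x)
      have h5 : Nat.card (frattini G) = 1 := by
        rw [le_bot_iff.mp hbot]; exact Subgroup.card_bot
      omega
    refine ⟨m, by omega, by omega, ?_⟩
    rw [← hm]
    exact Int.natAbs_eq S
  constructor
  · rcases hmain with h0 | ⟨hSS, hZ2⟩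
    · left
      rw [hcardG] at h0
      push_cast at h0
      omega
    · right
      obtain ⟨m, hm2, hcd, hS⟩ := key hSS hZ2
      refine ⟨d + 1 - m, by omega, by omega, ?_⟩
      have hm1 : 1 ≤ m := by omega
      have e1 : d - (d + 1 - m) = m - 1 := by omega
      rw [e1]
      set b := 2 ^ (m - 1) with hb
      have hmb : 2 ^ m = 2 * b := by
        rw [hb, ← pow_succ']; congr 1; omega
      rw [hcardG, hmb] at hS
      push_cast at hS
      rcases hS with h | h
      · left; omega
      · right; omega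
  · intro r hdr hj'
    set b := 2 ^ r with hb
    have hbpos : 0 < b := pow_pos (by norm_num) r
    have hab : a = b * b := by rw [ha, hb, hdr, ← pow_add]; congr 1; omega
    have hSne : (2 * (j : ℤ) - (Nat.card G : ℤ)) ≠ 0 := by
      rw [hcardG]; push_cast
      rcases hj' with h | h <;> omega
    rcases hmain with h0 | ⟨hSS, hZ2⟩
    · exact absurd h0 hSne
    · have hZcard : Nat.card (Subgroup.center G) = 2 := by
        have h1 : ((2 * (j : ℤ) - (Nat.card G : ℤ)) * (2 * (j : ℤ) - (Nat.card G : ℤ))) = 4 * ((a : ℕ) : ℤ) := by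
          rw [hcardG, hab]; push_cast
          rcases hj' with h | h
          · have : (j : ℤ) = (a : ℤ) + b := by exact_mod_cast h
            rw [this, hab]; push_cast; ring
          · have : (j : ℤ) = (a : ℤ) - b := by
              have : ((j + b : ℕ) : ℤ) = (a : ℤ) := by exact_mod_cast h
              push_cast at this; linarith
            rw [this, hab]; push_cast; ring
        rw [hSS, hcardG] at h1
        have h2 : ((2 * a * Nat.card (Subgroup.center G) : ℕ) : ℤ) = ((4 * a : ℕ) : ℤ) := by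
          push_cast; push_cast at h1; linarith
        have h3 : 2 * a * Nat.card (Subgroup.center G) = 4 * a := by exact_mod_cast h2
        have h4 : 2 * a * Nat.card (Subgroup.center G) = 2 * a * 2 := by rw [h3]; ring
        exact Nat.eq_of_mul_eq_mul_left (by omega) h4
      have hfc : frattini G = Subgroup.center G :=
        Subgroup.eq_of_le_of_card_ge hΦZ (by rw [hΦ, hZcard])
      have hcle : commutator G ≤ Subgroup.center G := by
        rw [commutator_def, Subgroup.commutator_le]
        intro x _ y _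
        exact hΦZ (hcomm x y)
      have hcne : commutator G ≠ ⊥ := by
        intro h
        rw [commutator_eq_bot_iff_center_eq_top] at h
        rw [h] at hfc
        exact hfr_ne_top hfc
      have hcc : commutator G = Subgroup.center G := by
        apply Subgroup.eq_of_le_of_card_ge hcle
        rw [hZcard]
        have := (Subgroup.one_lt_card_iff_ne_bot (commutator G)).mpr hcne
        omega
      exact ⟨⟨hG, hfc, hcc⟩, hZcard⟩

end Cfsg.Agent.S3772
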