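import Cfsg.Statements.S3774
import Mathlib

set_option autoImplicit false
open Cfsg

namespace Cfsg.Agent.S3774

open Classical in
theorem fiber_count {G : Type*} [Group G] [Fintype G]
    (htrans : ∀ x y : G, x ≠ 1 → x ^ 2 = 1 → y ≠ 1 → y ^ 2 = 1 → ∃ a : MulAut G, a x = y)
    (hord : ∀ x : G, x ≠ 1 → (x ^ (orderOf x / 2)) ≠ 1 ∧ (x ^ (orderOf x / 2)) ^ 2 = 1) :
    (Finset.univ.filter (fun z : G => z ≠ 1 ∧ z ^ 2 = 1)).card ∣
      (Finset.univ.filter (fun x : G => x ≠ 1)).card := by
  set s := Finset.univ.filter (fun x : G => x ≠ 1) with hs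
  set t := Finset.univ.filter (fun z : G => z ≠ 1 ∧ z ^ 2 = 1) with ht
  set f : G → G := fun x => x ^ (orderOf x / 2) with hf
  have hmaps : Set.MapsTo f ↑s ↑t := by
    intro x hx
    have hx1 : x ≠ 1 := by simpa [hs] using hx
    simpa [ht, hf] using hord x hx1
  have h1 := Finset.card_eq_sum_card_fiberwise hmaps
  have hle : ∀ b ∈ t, ∀ b' ∈ t, (s.filter (fun a => f a = b)).card ≤ (s.filter (fun a => f a = b')).card := by
    intro b hb b' hb'
    have hb0 : b ≠ 1 ∧ b ^ 2 = 1 := by simpa [ht] using hb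
    have hb0' : b' ≠ 1 ∧ b' ^ 2 = 1 := by simpa [ht] using hb'
    obtain ⟨a, ha⟩ := htrans b b' hb0.1 hb0.2 hb0'.1 hb0'.2
    apply Finset.card_le_card_of_injOn (fun x => a x)
    · intro x hx
      have hx' : x ≠ 1 ∧ f x = b := by simpa [hs] using hx
      have h3 : f (a x) = b' := by
        show (a x) ^ (orderOf (a x) / 2) = b'
        rw [MulEquiv.orderOf_eq a x, ← map_pow, ← ha]
        congr 1
        exact hx'.2
      simpa [hs] using ⟨hx'.1, h3⟩
    · intro x _ y _ hxy
      exact a.injective hxy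
  by_cases hne : t.Nonempty
  · obtain ⟨b₀, hb₀⟩ := hne
    have h2 : ∀ b ∈ t, (s.filter (fun a => f a = b)).card = (s.filter (fun a => f a = b₀)).card :=
      fun b hb => le_antisymm (hle b hb b₀ hb₀) (hle b₀ hb₀ b hb)
    rw [h1, Finset.sum_congr rfl h2, Finset.sum_const, smul_eq_mul]
    exact dvd_mul_right _ _
  · rw [Finset.not_nonempty_iff_eq_empty] at hne
    rw [h1, hne]
    simp

/-- Let G be a nontrivial finite 2-group whose automorphism group permutes the involutions of G transitively. Then every involution of G is central, so that the involutions together with 1 form the subgroup Ω₁(Z(G)), and if this subgroup has order q then |G| is a power of q. -/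
theorem result {G : Type*} [Group G] [Finite G] [Nontrivial G] (hG : IsPGroup 2 G) (htrans : ∀ x y : G, x ≠ 1 → x ^ 2 = 1 → y ≠ 1 → y ^ 2 = 1 → ∃ a : MulAut G, a x = y) : (∀ x : G, x ^ 2 = 1 → x ∈ Subgroup.center G) ∧ ∃ m : ℕ, Nat.card G = Nat.card {z : G // z ^ 2 = 1} ^ m := by
  classical
  have hp2 : Nat.Prime 2 := Nat.prime_two
  have : Fact (Nat.Prime 2) := ⟨hp2⟩
  -- Part 1
  have hcen : ∀ x : G, x ^ 2 = 1 → x ∈ Subgroup.center G := by
    intro x hx
    by_cases hx1 : x = 1
    · rw [hx1]; exact Subgroup.one_mem _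
    have hnt : Nontrivial (Subgroup.center G) := hG.center_nontrivial
    obtain ⟨k, hk⟩ := (hG.to_subgroup (Subgroup.center G)).exists_card_eq
    have hk0 : k ≠ 0 := by
      rintro rfl
      rw [pow_zero] at hk
      have := (Nat.card_eq_one_iff_unique.mp hk).1
      exact not_subsingleton (Subgroup.center G) this
    have hdvd : 2 ∣ Nat.card (Subgroup.center G) := by
      rw [hk]; exact dvd_pow_self 2 hk0
    obtain ⟨z, hz⟩ := exists_prime_orderOf_dvd_card' (G := Subgroup.center G) 2 hdvd
    have hz1 : (z : G) ≠ 1 := by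
      intro h
      have : z = 1 := Subtype.ext h
      rw [this, orderOf_one] at hz
      omega
    have hz2 : (z : G) ^ 2 = 1 := by
      have := pow_orderOf_eq_one z
      rw [hz] at this
      exact congrArg Subtype.val this
    obtain ⟨a, ha⟩ := htrans (z : G) x hz1 hz2 hx1 hx
    rw [← ha, Subgroup.mem_center_iff]
    intro g
    have hzc := Subgroup.mem_center_iff.mp z.2 (a.symm g)
    have := congrArg a hzc
    simpa using this
  refine ⟨hcen, ?_⟩
  -- the subgroup of involutions
  let Ω : Subgroup G :=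
    { carrier := {z | z ^ 2 = 1}
      mul_mem' := by
        intro a b ha hb
        have hc : a * b = b * a := (Subgroup.mem_center_iff.mp (hcen a ha) b).symm
        show (a * b) ^ 2 = 1
        rw [(show Commute a b from hc).mul_pow, show a ^ 2 = 1 from ha, show b ^ 2 = 1 from hb, one_mul]
      one_mem' := one_pow 2
      inv_mem' := by
        intro a ha
        show a⁻¹ ^ 2 = 1
        rw [inv_pow, show a ^ 2 = 1 from ha, inv_one] }
  have hΩcard : Nat.card {z : G // z ^ 2 = 1} = Nat.card Ω := rfl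
  obtain ⟨k, hk⟩ := (hG.to_subgroup Ω).exists_card_eq
  obtain ⟨n, hn⟩ := hG.exists_card_eq
  have hord : ∀ x : G, x ≠ 1 → (x ^ (orderOf x / 2)) ≠ 1 ∧ (x ^ (orderOf x / 2)) ^ 2 = 1 := by
    intro x hx
    obtain ⟨j, hj⟩ := hG x
    obtain ⟨i, -, hi⟩ := (Nat.dvd_prime_pow hp2).mp (orderOf_dvd_of_pow_eq_one hj)
    have hi0 : i ≠ 0 := by
      rintro rfl
      rw [pow_zero, orderOf_eq_one_iff] at hi
      exact hx hi
    obtain ⟨i', rfl⟩ := Nat.exists_eq_succ_of_ne_zero hi0
    have e : orderOf x / 2 = 2 ^ i' := by rw [hi, pow_succ]; simp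
    rw [e]
    constructor
    · intro h
      have := orderOf_dvd_of_pow_eq_one h
      rw [hi] at this
      have h2 := Nat.le_of_dvd (by positivity) this
      rw [pow_succ] at h2
      have : 0 < 2 ^ i' := by positivity
      omega
    · rw [← pow_mul, ← pow_succ, ← hi]
      exact pow_orderOf_eq_one x
  have : Fintype G := Fintype.ofFinite G
  have hdvd := fiber_count htrans hord
  have hs : (Finset.univ.filter (fun x : G => x ≠ 1)).card = 2 ^ n - 1 := by
    rw [Finset.filter_ne' Finset.univ (1 : G), Finset.card_erase_of_mem (Finset.mem_univ _),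
      Finset.card_univ, ← Nat.card_eq_fintype_card, hn]
  have ht : (Finset.univ.filter (fun z : G => z ≠ 1 ∧ z ^ 2 = 1)).card = 2 ^ k - 1 := by
    have e1 : (Finset.univ.filter (fun z : G => z ≠ 1 ∧ z ^ 2 = 1)) =
        (Finset.univ.filter (fun z : G => z ^ 2 = 1)).erase 1 := by
      ext z
      simp [and_comm]
    rw [e1, Finset.card_erase_of_mem (by simp)]
    congr 1
    rw [← hk, ← hΩcard, Nat.card_eq_fintype_card, Fintype.card_subtype]
  rw [hs, ht] at hdvd
  have hg := Nat.pow_sub_one_gcd_pow_sub_one 2 k n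
  rw [Nat.gcd_eq_left hdvd] at hg
  have hk0 : k ≠ 0 := by
    rintro rfl
    -- Ω trivial contradicts the existence of a central involution
    rw [pow_zero] at hk
    have hΩ : Ω = ⊥ := Subgroup.card_eq_one.mp hk
    obtain ⟨x, hx⟩ := exists_ne (1 : G)
    have h1 := (hord x hx)
    have : x ^ (orderOf x / 2) ∈ Ω := h1.2
    rw [hΩ, Subgroup.mem_bot] at this
    exact h1.1 this
  have hpow : 2 ^ k = 2 ^ (Nat.gcd k n) := by
    have h1 : 1 ≤ 2 ^ k := Nat.one_le_two_pow
    have h2 : 1 ≤ 2 ^ (Nat.gcd k n) := Nat.one_le_two_pow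
    omega
  have hkg : k = Nat.gcd k n := Nat.pow_right_injective (le_refl 2) hpow
  have hkn : k ∣ n := by rw [hkg]; exact Nat.gcd_dvd_right k n
  obtain ⟨m, rfl⟩ := hkn
  exact ⟨m, by rw [hΩcard, hk, hn, pow_mul]⟩

end Cfsg.Agent.S3774
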