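import Cfsg.Statements.S3775
import Mathlib

set_option autoImplicit false
open Cfsg

namespace Cfsg.Agent.S3775

universe u

theorem mem_of_pow_coprime {A : Type*} [Group A] (H : Subgroup A) (s : A) (m q : ℕ)
    (h : Nat.Coprime m q) (h1 : s ^ m ∈ H) (h2 : s ^ q ∈ H) : s ∈ H := by
  have h3 := Nat.gcd_eq_gcd_ab m q
  rw [h] at h3
  have h4 : s = (s ^ m) ^ (Nat.gcdA m q) * (s ^ q) ^ (Nat.gcdB m q) := by
    rw [← zpow_natCast s m, ← zpow_natCast s q, ← zpow_mul, ← zpow_mul, ← zpow_add, ← h3]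
    simp
  rw [h4]
  exact H.mul_mem (H.zpow_mem h1 _) (H.zpow_mem h2 _)

theorem inv_of_mem {A : Type*} [Group A] (X : Subgroup (MulAut A)) (B : Subgroup A)
    (h : ∀ x ∈ X, ∀ a ∈ B, x a ∈ B) : ∀ x ∈ X, B.map x.toMonoidHom = B := by
  intro x hx
  apply le_antisymm
  · rintro _ ⟨a, ha, rfl⟩
    exact h x hx a ha
  · intro a ha
    exact ⟨x⁻¹ a, h x⁻¹ (X.inv_mem hx) a ha, MulAut.apply_inv_self A x a⟩

theorem mem_of_inv {A : Type*} [Group A] (X : Subgroup (MulAut A)) (B : Subgroup A)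
    (h : ∀ x ∈ X, B.map x.toMonoidHom = B) : ∀ x ∈ X, ∀ a ∈ B, x a ∈ B := by
  intro x hx a ha
  have h1 : x a ∈ B.map x.toMonoidHom := ⟨a, ha, rfl⟩
  rw [h x hx] at h1
  exact h1

/-- the averaged product -/
noncomputable def Av {A : Type*} [CommGroup A] (X : Subgroup (MulAut A)) [Fintype ↥X]
    (f : ↥X → A) : A := ∏ x : ↥X, (x : MulAut A) (f x)

theorem Av_mul {A : Type*} [CommGroup A] (X : Subgroup (MulAut A)) [Fintype ↥X]
    (f g : ↥X → A) : Av X (fun x => f x * g x) = Av X f * Av X g := by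
  unfold Av
  rw [← Finset.prod_mul_distrib]
  apply Finset.prod_congr rfl
  intro x _
  rw [map_mul]

theorem Av_inv {A : Type*} [CommGroup A] (X : Subgroup (MulAut A)) [Fintype ↥X]
    (f : ↥X → A) : Av X (fun x => (f x)⁻¹) = (Av X f)⁻¹ := by
  unfold Av
  rw [← Finset.prod_inv_distrib]
  apply Finset.prod_congr rfl
  intro x _
  rw [map_inv]

theorem Av_mem {A : Type*} [CommGroup A] (X : Subgroup (MulAut A)) [Fintype ↥X]
    (N : Subgroup A) (hN : ∀ x ∈ X, ∀ a ∈ N, x a ∈ N) (f : ↥X → A) (hf : ∀ x, f x ∈ N) :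
    Av X f ∈ N := by
  unfold Av
  apply Subgroup.prod_mem
  intro x _
  exact hN x x.2 _ (hf x)

theorem Av_shift {A : Type*} [CommGroup A] (X : Subgroup (MulAut A)) [Fintype ↥X]
    (f : ↥X → A) (y : ↥X) : Av X (fun x => f (y⁻¹ * x)) = (y : MulAut A) (Av X f) := by
  unfold Av
  rw [map_prod]
  apply Fintype.prod_equiv (Equiv.mulLeft y⁻¹)
  intro x
  show (x : MulAut A) (f (y⁻¹ * x)) = (y : MulAut A) (((y⁻¹ * x : ↥X) : MulAut A) (f (y⁻¹ * x)))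
  rw [← MulAut.mul_apply, ← Subgroup.coe_mul, mul_inv_cancel_left]

theorem Av_const {A : Type*} [CommGroup A] (X : Subgroup (MulAut A)) [Fintype ↥X]
    (c : A) : Av X (fun x => (x : MulAut A)⁻¹ c) = c ^ Fintype.card ↥X := by
  unfold Av
  have h : ∀ x : ↥X, (x : MulAut A) ((x : MulAut A)⁻¹ c) = c := fun x =>
    MulAut.apply_inv_self A (x : MulAut A) c
  simp only [h]
  rw [Finset.prod_const, Finset.card_univ]

/-- Relative invariant complements by averaging. -/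
theorem avg {A : Type*} [CommGroup A] [Finite A] (X : Subgroup (MulAut A)) (q : ℕ)
    (hq : (Nat.card X).Coprime q)
    (N U S T₁ : Subgroup A)
    (hNinv : ∀ x ∈ X, ∀ a ∈ N, x a ∈ N) (hUinv : ∀ x ∈ X, ∀ a ∈ U, x a ∈ U)
    (hSinv : ∀ x ∈ X, ∀ a ∈ S, x a ∈ S)
    (hNU : N ≤ U) (hUS : U ≤ S) (hpow : ∀ s ∈ S, s ^ q ∈ N)
    (hNT : N ≤ T₁) (hTU : ∀ a, a ∈ T₁ → a ∈ U → a ∈ N)
    (hsup : ∀ s ∈ S, ∃ u ∈ U, s * u⁻¹ ∈ T₁) :
    ∃ T : Subgroup A, (∀ x ∈ X, ∀ a ∈ T, x a ∈ T) ∧ N ≤ T ∧ T ≤ S ∧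
      (∀ a, a ∈ T → a ∈ U → a ∈ N) ∧ (∀ s ∈ S, ∃ u ∈ U, s * u⁻¹ ∈ T) := by
  classical
  haveI : Fintype ↥X := Fintype.ofFinite _
  have hm : Fintype.card ↥X = Nat.card X := (Nat.card_eq_fintype_card).symm
  -- validity of a choice of components
  obtain ⟨Valid, hValid⟩ : ∃ Valid : A → (↥X → A) → Prop, ∀ s f, Valid s f ↔
      ∀ x : ↥X, f x ∈ U ∧ ((x : MulAut A)⁻¹ s) * (f x)⁻¹ ∈ T₁ :=
    ⟨fun s f => ∀ x : ↥X, f x ∈ U ∧ ((x : MulAut A)⁻¹ s) * (f x)⁻¹ ∈ T₁, fun s f => Iff.rfl⟩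
  have hindep : ∀ s f g, Valid s f → Valid s g → Av X f ∈ N → Av X g ∈ N := by
    intro s f g hf hg hfN
    rw [hValid] at hf hg
    have h1 : Av X (fun x => g x * (f x)⁻¹) ∈ N := by
      apply Av_mem X N hNinv
      intro x
      apply hTU
      · have e : g x * (f x)⁻¹ =
            ((x : MulAut A)⁻¹ s * (f x)⁻¹) * ((x : MulAut A)⁻¹ s * (g x)⁻¹)⁻¹ := by
          rw [mul_inv, inv_inv, mul_mul_mul_comm, mul_inv_cancel, one_mul, mul_comm]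
        rw [e]
        exact T₁.mul_mem (hf x).2 (T₁.inv_mem (hg x).2)
      · exact U.mul_mem (hg x).1 (U.inv_mem (hf x).1)
    rw [Av_mul, Av_inv] at h1
    have e : Av X g = (Av X g * (Av X f)⁻¹) * Av X f := by rw [inv_mul_cancel_right]
    rw [e]
    exact N.mul_mem h1 hfN
  obtain ⟨T, hT⟩ : ∃ T : Subgroup A, ∀ s, s ∈ T ↔ s ∈ S ∧ ∃ f, Valid s f ∧ Av X f ∈ N := by
    refine ⟨{ carrier := {s | s ∈ S ∧ ∃ f, Valid s f ∧ Av X f ∈ N}
              mul_mem' := ?_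
              one_mem' := ?_
              inv_mem' := ?_ }, fun s => Iff.rfl⟩
    · rintro a b ⟨haS, f, hf, hfN⟩ ⟨hbS, g, hg, hgN⟩
      refine ⟨S.mul_mem haS hbS, fun x => f x * g x, ?_, ?_⟩
      · rw [hValid] at hf hg ⊢
        intro x
        refine ⟨U.mul_mem (hf x).1 (hg x).1, ?_⟩
        have e : (x : MulAut A)⁻¹ (a * b) * (f x * g x)⁻¹ =
            ((x : MulAut A)⁻¹ a * (f x)⁻¹) * ((x : MulAut A)⁻¹ b * (g x)⁻¹) := by
          rw [map_mul, mul_inv]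
          exact mul_mul_mul_comm _ _ _ _
        rw [e]
        exact T₁.mul_mem (hf x).2 (hg x).2
      · rw [Av_mul]; exact N.mul_mem hfN hgN
    · refine ⟨S.one_mem, fun _ => 1, ?_, ?_⟩
      · rw [hValid]
        intro x
        refine ⟨U.one_mem, ?_⟩
        rw [map_one, inv_one, mul_one]
        exact T₁.one_mem
      · apply Av_mem X N hNinv
        intro x; exact N.one_mem
    · rintro a ⟨haS, f, hf, hfN⟩
      refine ⟨S.inv_mem haS, fun x => (f x)⁻¹, ?_, ?_⟩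
      · rw [hValid] at hf ⊢
        intro x
        refine ⟨U.inv_mem (hf x).1, ?_⟩
        have e : (x : MulAut A)⁻¹ a⁻¹ * ((f x)⁻¹)⁻¹ = ((x : MulAut A)⁻¹ a * (f x)⁻¹)⁻¹ := by
          rw [map_inv, mul_inv]
        rw [e]
        exact T₁.inv_mem (hf x).2
      · rw [Av_inv]; exact N.inv_mem hfN
  refine ⟨T, ?_, ?_, ?_, ?_, ?_⟩
  · -- invariance
    intro y hy s hs
    obtain ⟨hsS, f, hf, hfN⟩ := (hT s).mp hs
    refine (hT _).mpr ⟨hSinv y hy s hsS, fun x => f ((⟨y, hy⟩ : ↥X)⁻¹ * x), ?_, ?_⟩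
    · rw [hValid] at hf ⊢
      intro x
      refine ⟨(hf _).1, ?_⟩
      have h1 := (hf ((⟨y, hy⟩ : ↥X)⁻¹ * x)).2
      have e : (((⟨y, hy⟩ : ↥X)⁻¹ * x : ↥X) : MulAut A)⁻¹ s = (x : MulAut A)⁻¹ (y s) := by
        rw [Subgroup.coe_mul, Subgroup.coe_inv, mul_inv_rev, inv_inv, MulAut.mul_apply]
      rw [e] at h1
      exact h1
    · rw [Av_shift X f ⟨y, hy⟩]
      exact hNinv y hy _ hfN
  · -- N ≤ T
    intro s hs
    refine (hT s).mpr ⟨hUS (hNU hs), fun _ => 1, ?_, ?_⟩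
    · rw [hValid]
      intro x
      refine ⟨U.one_mem, ?_⟩
      rw [inv_one, mul_one]
      exact hNT (hNinv _ (X.inv_mem x.2) s hs)
    · apply Av_mem X N hNinv
      intro x; exact N.one_mem
  · intro s hs
    exact ((hT s).mp hs).1
  · -- T ∩ U ≤ N
    intro s hsT hsU
    obtain ⟨hsS, f, hf, hfN⟩ := (hT s).mp hsT
    have hg : Valid s (fun x => (x : MulAut A)⁻¹ s) := by
      rw [hValid]
      intro x
      refine ⟨hUinv _ (X.inv_mem x.2) s hsU, ?_⟩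
      rw [mul_inv_cancel]
      exact T₁.one_mem
    have h1 := hindep s f _ hf hg hfN
    rw [Av_const, hm] at h1
    exact mem_of_pow_coprime N s _ q hq h1 (hpow s hsS)
  · -- S ≤ T U
    intro s hs
    have hex : ∀ x : ↥X, ∃ u ∈ U, (x : MulAut A)⁻¹ s * u⁻¹ ∈ T₁ := fun x =>
      hsup _ (hSinv _ (X.inv_mem x.2) s hs)
    choose g hgU hgT using hex
    obtain ⟨v, hv⟩ : ∃ v : A, v = Av X g := ⟨_, rfl⟩
    have hvU : v ∈ U := by rw [hv]; exact Av_mem X U hUinv g hgU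
    have h3 := Nat.gcd_eq_gcd_ab (Nat.card X) q
    rw [hq] at h3
    obtain ⟨w, hw⟩ : ∃ w : A, w = v ^ (Nat.gcdA (Nat.card X) q) := ⟨_, rfl⟩
    have hwU : w ∈ U := by rw [hw]; exact U.zpow_mem hvU _
    refine ⟨w, hwU, (hT _).mpr ⟨S.mul_mem hs (S.inv_mem (hUS hwU)),
      fun x => g x * ((x : MulAut A)⁻¹ w)⁻¹, ?_, ?_⟩⟩
    · rw [hValid]
      intro x
      refine ⟨U.mul_mem (hgU x) (U.inv_mem (hUinv _ (X.inv_mem x.2) w hwU)), ?_⟩
      have e : (x : MulAut A)⁻¹ (s * w⁻¹) * (g x * ((x : MulAut A)⁻¹ w)⁻¹)⁻¹ =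
          (x : MulAut A)⁻¹ s * (g x)⁻¹ := by
        rw [map_mul, map_inv, mul_inv, inv_inv]
        rw [mul_mul_mul_comm, inv_mul_cancel, mul_one]
      rw [e]
      exact hgT x
    · rw [Av_mul, Av_inv, Av_const, ← hv, hm]
      have e : v * (w ^ Nat.card X)⁻¹ = (v ^ q) ^ (Nat.gcdB (Nat.card X) q) := by
        rw [hw, ← zpow_natCast (v ^ Nat.gcdA (Nat.card ↥X) q) (Nat.card X), ← zpow_mul,
          ← zpow_natCast v q, ← zpow_mul, ← zpow_neg]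
        nth_rewrite 1 [← zpow_one v]
        rw [← zpow_add]
        congr 1
        push_cast at h3
        linear_combination h3
      rw [e]
      exact N.zpow_mem (hpow v (hUS hvU)) _

theorem sup_decomp {A : Type*} [CommGroup A] (T U : Subgroup A) (s : A) :
    s ∈ T ⊔ U ↔ ∃ u ∈ U, s * u⁻¹ ∈ T := by
  rw [Subgroup.mem_sup]
  constructor
  · rintro ⟨t, ht, u, hu, rfl⟩
    exact ⟨u, hu, by rw [mul_inv_cancel_right]; exact ht⟩
  · rintro ⟨u, hu, h⟩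
    exact ⟨s * u⁻¹, h, u, hu, by rw [inv_mul_cancel_right]⟩

theorem mem_sup_zpowers {A : Type*} [CommGroup A] [Finite A] (T : Subgroup A) (s a : A)
    (h : a ∈ T ⊔ Subgroup.zpowers s) : ∃ t ∈ T, ∃ k : ℕ, a = t * s ^ k := by
  obtain ⟨t, ht, z, hz, rfl⟩ := Subgroup.mem_sup.mp h
  rw [← mem_powers_iff_mem_zpowers] at hz
  obtain ⟨k, rfl⟩ := hz
  exact ⟨t, ht, k, rfl⟩

/-- complements in sections of exponent `p` -/
theorem exists_rel_compl {A : Type*} [CommGroup A] [Finite A] (p : ℕ) [Fact p.Prime]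
    (N U S : Subgroup A) (hNU : N ≤ U) (hUS : U ≤ S) (hpow : ∀ s ∈ S, s ^ p ∈ N) :
    ∃ T₁ : Subgroup A, N ≤ T₁ ∧ (∀ a, a ∈ T₁ → a ∈ U → a ∈ N) ∧
      (∀ s ∈ S, ∃ u ∈ U, s * u⁻¹ ∈ T₁) := by
  classical
  have hp : p.Prime := Fact.out
  haveI : Nonempty {T : Subgroup A // N ≤ T ∧ T ≤ S ∧ ∀ a, a ∈ T → a ∈ U → a ∈ N} :=
    ⟨⟨N, le_refl N, le_trans hNU hUS, fun a ha _ => ha⟩⟩
  obtain ⟨⟨T₁, hNT, hTS, hTU⟩, hmax⟩ := Finite.exists_max
    (fun T : {T : Subgroup A // N ≤ T ∧ T ≤ S ∧ ∀ a, a ∈ T → a ∈ U → a ∈ N} => Nat.card T.1)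
  refine ⟨T₁, hNT, hTU, ?_⟩
  intro s hs
  rw [← sup_decomp]
  by_contra hcon
  have hP : N ≤ T₁ ⊔ Subgroup.zpowers s ∧ T₁ ⊔ Subgroup.zpowers s ≤ S ∧
      ∀ a, a ∈ T₁ ⊔ Subgroup.zpowers s → a ∈ U → a ∈ N := by
    refine ⟨le_trans hNT le_sup_left, sup_le hTS (by rw [Subgroup.zpowers_le]; exact hs), ?_⟩
    intro a ha haU
    obtain ⟨t, ht, k, rfl⟩ := mem_sup_zpowers T₁ s a ha
    have h1 : s ^ k ∈ T₁ ⊔ U := by
      have e : s ^ k = t⁻¹ * (t * s ^ k) := by rw [inv_mul_cancel_left]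
      rw [e]
      exact Subgroup.mul_mem_sup (T₁.inv_mem ht) haU
    have h2 : s ^ p ∈ T₁ ⊔ U := (le_sup_left : T₁ ≤ T₁ ⊔ U) (hNT (hpow s hs))
    by_cases hk : p ∣ k
    · obtain ⟨j, rfl⟩ := hk
      have h3 : s ^ (p * j) ∈ N := by rw [pow_mul]; exact N.pow_mem (hpow s hs) j
      exact hTU _ (T₁.mul_mem ht (hNT h3)) haU
    · exfalso
      apply hcon
      have hcop : Nat.Coprime k p :=
        (Nat.Coprime.symm ((Nat.Prime.coprime_iff_not_dvd hp).mpr hk))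
      exact mem_of_pow_coprime (T₁ ⊔ U) s k p hcop h1 h2
  have h5 := hmax ⟨T₁ ⊔ Subgroup.zpowers s, hP⟩
  have h6 : T₁ = T₁ ⊔ Subgroup.zpowers s := Subgroup.eq_of_le_of_card_ge le_sup_left h5
  apply hcon
  apply (le_sup_left : T₁ ≤ T₁ ⊔ U)
  rw [h6]
  exact (le_sup_right : Subgroup.zpowers s ≤ T₁ ⊔ Subgroup.zpowers s) (Subgroup.mem_zpowers s)

/-- a pure subgroup of top exponent is a direct factor -/
theorem exists_compl_pure {A : Type*} [CommGroup A] [Finite A] (p : ℕ) [Fact p.Prime] (n : ℕ)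
    (hn : 1 ≤ n) (hexp : ∀ a : A, a ^ (p ^ n) = 1) (S : Subgroup A)
    (hpure : ∀ s ∈ S, s ^ (p ^ (n - 1)) = 1 → ∃ t ∈ S, s = t ^ p) :
    ∃ C : Subgroup A, (∀ a, a ∈ C → a ∈ S → a = 1) ∧ (∀ a : A, ∃ u ∈ S, a * u⁻¹ ∈ C) := by
  classical
  have hp : p.Prime := Fact.out
  haveI : Nonempty {C : Subgroup A // ∀ a, a ∈ C → a ∈ S → a = 1} :=
    ⟨⟨⊥, fun a ha _ => Subgroup.mem_bot.mp ha⟩⟩
  obtain ⟨⟨C, hCS⟩, hmax⟩ := Finite.exists_max
    (fun C : {C : Subgroup A // ∀ a, a ∈ C → a ∈ S → a = 1} => Nat.card C.1)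
  refine ⟨C, hCS, ?_⟩
  intro a₀
  rw [← sup_decomp]
  by_contra hcon
  have hex : ∃ j, a₀ ^ (p ^ j) ∈ C ⊔ S := ⟨n, by rw [hexp]; exact Subgroup.one_mem _⟩
  obtain ⟨j, hj, hjmin⟩ : ∃ j, a₀ ^ (p ^ j) ∈ C ⊔ S ∧ ∀ i < j, a₀ ^ (p ^ i) ∉ C ⊔ S :=
    ⟨Nat.find hex, Nat.find_spec hex, fun i hi => Nat.find_min hex hi⟩
  have hj0 : j ≠ 0 := by
    rintro rfl
    rw [pow_zero, pow_one] at hj
    exact hcon hj
  obtain ⟨a, hadef⟩ : ∃ a : A, a = a₀ ^ (p ^ (j - 1)) := ⟨_, rfl⟩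
  have haH : a ∉ C ⊔ S := by rw [hadef]; exact hjmin (j - 1) (by omega)
  have hap : a ^ p ∈ C ⊔ S := by
    rw [hadef, ← pow_mul, ← pow_succ]
    have e : j - 1 + 1 = j := by omega
    rw [e]; exact hj
  obtain ⟨c, hc, s, hs, hcs⟩ := Subgroup.mem_sup.mp hap
  have hs1 : s ^ (p ^ (n - 1)) = 1 := by
    apply hCS
    · have e : s ^ (p ^ (n - 1)) = (c ^ (p ^ (n - 1)))⁻¹ := by
        have h1 : (c * s) ^ (p ^ (n - 1)) = 1 := by
          rw [hcs, ← pow_mul, ← pow_succ']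
          have e : n - 1 + 1 = n := by omega
          rw [e]; exact hexp a
        rw [mul_pow] at h1
        exact eq_inv_of_mul_eq_one_right h1
      rw [e]; exact C.inv_mem (C.pow_mem hc _)
    · exact S.pow_mem hs _
  obtain ⟨t, ht, hst⟩ := hpure s hs hs1
  obtain ⟨a', ha'def⟩ : ∃ a' : A, a' = a * t⁻¹ := ⟨_, rfl⟩
  have ha'H : a' ∉ C ⊔ S := by
    intro h
    apply haH
    have e : a = a' * t := by rw [ha'def, inv_mul_cancel_right]
    rw [e]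
    exact Subgroup.mul_mem _ h ((le_sup_right : S ≤ C ⊔ S) ht)
  have ha'p : a' ^ p = c := by
    rw [ha'def, mul_pow, inv_pow, ← hst, ← hcs, mul_inv_cancel_right]
  have hP : ∀ b, b ∈ C ⊔ Subgroup.zpowers a' → b ∈ S → b = 1 := by
    intro b hb hbS
    obtain ⟨c₁, hc₁, k, rfl⟩ := mem_sup_zpowers C a' b hb
    by_cases hk : p ∣ k
    · obtain ⟨i, rfl⟩ := hk
      apply hCS _ _ hbS
      rw [pow_mul, ha'p]
      exact C.mul_mem hc₁ (C.pow_mem hc i)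
    · exfalso
      apply ha'H
      have hcop : Nat.Coprime k p :=
        (Nat.Coprime.symm ((Nat.Prime.coprime_iff_not_dvd hp).mpr hk))
      have h1 : a' ^ k ∈ C ⊔ S := by
        have e : a' ^ k = c₁⁻¹ * (c₁ * a' ^ k) := by rw [inv_mul_cancel_left]
        rw [e]
        exact Subgroup.mul_mem_sup (C.inv_mem hc₁) hbS
      have h2 : a' ^ p ∈ C ⊔ S := by rw [ha'p]; exact (le_sup_left : C ≤ C ⊔ S) hc
      exact mem_of_pow_coprime (C ⊔ S) a' k p hcop h1 h2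
  have h5 := hmax ⟨C ⊔ Subgroup.zpowers a', hP⟩
  have h6 : C = C ⊔ Subgroup.zpowers a' := Subgroup.eq_of_le_of_card_ge le_sup_left h5
  apply ha'H
  apply (le_sup_left : C ≤ C ⊔ S)
  rw [h6]
  exact (le_sup_right : Subgroup.zpowers a' ≤ C ⊔ Subgroup.zpowers a') (Subgroup.mem_zpowers a')

theorem hard {A : Type*} [CommGroup A] [Finite A] {p : ℕ} [Fact p.Prime] (hA : IsPGroup p A)
    (X : Subgroup (MulAut A)) (hX : (Nat.card X).Coprime p)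
    (hind : ¬ ∃ B C : Subgroup A, B ≠ ⊥ ∧ C ≠ ⊥ ∧ (∀ x ∈ X, B.map x.toMonoidHom = B) ∧
      (∀ x ∈ X, C.map x.toMonoidHom = C) ∧ B ⊓ C = ⊥ ∧ B ⊔ C = ⊤) :
    ∀ V : Subgroup A, (∀ x ∈ X, V.map x.toMonoidHom = V) → (∀ b ∈ V, b ^ p = 1) →
      V = ⊥ ∨ ∀ a : A, a ∈ V ↔ a ^ p = 1 := by
  classical
  have hp : p.Prime := Fact.out
  intro V hVinv hVexp
  by_cases hV : V = ⊥
  · exact Or.inl hV
  right
  have hVmem := mem_of_inv X V hVinv
  obtain ⟨k, hk⟩ := IsPGroup.iff_card.mp hA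
  have hex : ∃ n, ∀ a : A, a ^ (p ^ n) = 1 :=
    ⟨k, fun a => by rw [← hk]; exact pow_card_eq_one'⟩
  obtain ⟨n, hn, hnmin⟩ : ∃ n, (∀ a : A, a ^ (p ^ n) = 1) ∧
      ∀ m < n, ¬ ∀ a : A, a ^ (p ^ m) = 1 :=
    ⟨Nat.find hex, Nat.find_spec hex, fun m hm => Nat.find_min hex hm⟩
  have hn1 : 1 ≤ n := by
    by_contra hcon
    have h0 : n = 0 := by omega
    subst h0
    apply hV
    rw [eq_bot_iff]
    intro b _
    have h1 := hn b
    rw [pow_zero, pow_one] at h1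
    exact Subgroup.mem_bot.mpr h1
  obtain ⟨a₀, ha₀⟩ : ∃ a₀ : A, a₀ ^ (p ^ (n - 1)) ≠ 1 := by
    have h1 := hnmin (n - 1) (by omega)
    push_neg at h1
    exact h1
  obtain ⟨φ, hφ⟩ : ∃ φ : A →* A, ∀ a, φ a = a ^ (p ^ (n - 1)) :=
    ⟨powMonoidHom (p ^ (n - 1)), fun a => rfl⟩
  have hφx : ∀ (x : MulAut A) (a : A), φ (x a) = x (φ a) := by
    intro x a; rw [hφ, hφ, map_pow]
  have hφp : ∀ a : A, φ (a ^ p) = 1 := by
    intro a
    rw [hφ, ← pow_mul, ← pow_succ']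
    have e : n - 1 + 1 = n := by omega
    rw [e]; exact hn a
  haveI : Nonempty {W : Subgroup A // W ≠ ⊥ ∧ W ≤ φ.range ∧ ∀ x ∈ X, ∀ a ∈ W, x a ∈ W} := by
    refine ⟨⟨φ.range, ?_, le_refl _, ?_⟩⟩
    · intro h
      apply ha₀
      have h1 : φ a₀ ∈ φ.range := MonoidHom.mem_range.mpr ⟨a₀, rfl⟩
      rw [h, Subgroup.mem_bot, hφ] at h1
      exact h1
    · rintro x _ _ ⟨a, rfl⟩
      exact MonoidHom.mem_range.mpr ⟨x a, hφx x a⟩
  obtain ⟨⟨W, hW0, hWQ, hWinv⟩, hWmin⟩ := Finite.exists_min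
    (fun W : {W : Subgroup A // W ≠ ⊥ ∧ W ≤ φ.range ∧ ∀ x ∈ X, ∀ a ∈ W, x a ∈ W} =>
      Nat.card W.1)
  haveI : Nonempty {S : Subgroup A // (∀ x ∈ X, ∀ a ∈ S, x a ∈ S) ∧ S.map φ = W} := by
    refine ⟨⟨W.comap φ, ?_, ?_⟩⟩
    · intro x hx a ha
      rw [Subgroup.mem_comap] at ha ⊢
      rw [hφx]
      exact hWinv x hx _ ha
    · rw [Subgroup.map_comap_eq]
      exact inf_eq_right.mpr hWQ
  obtain ⟨⟨S, hSinv, hSW⟩, hSmin⟩ := Finite.exists_min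
    (fun S : {S : Subgroup A // (∀ x ∈ X, ∀ a ∈ S, x a ∈ S) ∧ S.map φ = W} => Nat.card S.1)
  have hpure : ∀ s ∈ S, s ^ (p ^ (n - 1)) = 1 → ∃ t ∈ S, s = t ^ p := by
    obtain ⟨N, hN⟩ : ∃ N : Subgroup A, ∀ a, a ∈ N ↔ ∃ t ∈ S, t ^ p = a :=
      ⟨S.map (powMonoidHom p), fun a => Subgroup.mem_map⟩
    obtain ⟨U, hU⟩ : ∃ U : Subgroup A, ∀ a, a ∈ U ↔ a ∈ S ∧ φ a = 1 :=
      ⟨S ⊓ φ.ker, fun a => by rw [Subgroup.mem_inf, MonoidHom.mem_ker]⟩
    have hNU : N ≤ U := by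
      intro a ha
      obtain ⟨t, ht, rfl⟩ := (hN a).mp ha
      exact (hU _).mpr ⟨S.pow_mem ht p, hφp t⟩
    have hUS : U ≤ S := fun a ha => ((hU a).mp ha).1
    have hNinv : ∀ x ∈ X, ∀ a ∈ N, x a ∈ N := by
      intro x hx a ha
      obtain ⟨t, ht, rfl⟩ := (hN a).mp ha
      exact (hN _).mpr ⟨x t, hSinv x hx t ht, (map_pow x t p).symm⟩
    have hUinv : ∀ x ∈ X, ∀ a ∈ U, x a ∈ U := by
      intro x hx a ha
      obtain ⟨h1, h2⟩ := (hU a).mp ha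
      exact (hU _).mpr ⟨hSinv x hx a h1, by rw [hφx, h2, map_one]⟩
    have hpow : ∀ s ∈ S, s ^ p ∈ N := fun s hs => (hN _).mpr ⟨s, hs, rfl⟩
    obtain ⟨T₁, hNT₁, hT₁U, hT₁sup⟩ := exists_rel_compl p N U S hNU hUS hpow
    obtain ⟨T, hTinv, hNT, hTS, hTU, hTsup⟩ :=
      avg X p hX N U S T₁ hNinv hUinv hSinv hNU hUS hpow hNT₁ hT₁U hT₁sup
    have hTW : T.map φ = W := by
      apply le_antisymm
      · rw [← hSW]; exact Subgroup.map_mono hTS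
      · intro w hw
        rw [← hSW] at hw
        obtain ⟨s, hs, rfl⟩ := Subgroup.mem_map.mp hw
        obtain ⟨u, hu, hsu⟩ := hTsup s hs
        refine Subgroup.mem_map.mpr ⟨s * u⁻¹, hsu, ?_⟩
        rw [map_mul, map_inv, ((hU u).mp hu).2, inv_one, mul_one]
    have hTeq : T = S := Subgroup.eq_of_le_of_card_ge hTS (hSmin ⟨T, hTinv, hTW⟩)
    intro s hs hs1
    have h1 : s ∈ N := by
      apply hTU
      · rw [hTeq]; exact hs
      · exact (hU s).mpr ⟨hs, by rw [hφ]; exact hs1⟩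
    obtain ⟨t, ht, hts⟩ := (hN s).mp h1
    exact ⟨t, ht, hts.symm⟩
  obtain ⟨C, hCS, hCsup⟩ := exists_compl_pure p n hn1 hn S hpure
  have hXq : (Nat.card X).Coprime (p ^ n) := Nat.Coprime.pow_right n hX
  obtain ⟨C', hC'inv, -, -, hC'S, hC'sup⟩ := avg X (p ^ n) hXq ⊥ S ⊤ C
    (fun x _ a ha => by rw [Subgroup.mem_bot] at ha ⊢; rw [ha, map_one])
    hSinv (fun x _ a _ => Subgroup.mem_top _) bot_le le_top
    (fun s _ => by rw [Subgroup.mem_bot]; exact hn s) bot_le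
    (fun a haC haS => Subgroup.mem_bot.mpr (hCS a haC haS))
    (fun s _ => hCsup s)
  have hS0 : S ≠ ⊥ := by
    intro h
    apply hW0
    rw [← hSW, h, Subgroup.map_bot]
  have hC'bot : C' = ⊥ := by
    by_contra hne
    apply hind
    refine ⟨S, C', hS0, hne, inv_of_mem X S hSinv, inv_of_mem X C' hC'inv, ?_, ?_⟩
    · rw [eq_bot_iff]
      intro a ha
      exact hC'S a ha.2 ha.1
    · rw [eq_top_iff]
      intro a _
      obtain ⟨u, hu, h1⟩ := hC'sup a (Subgroup.mem_top _)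
      have e : a = u * (a * u⁻¹) := by rw [mul_comm, inv_mul_cancel_right]
      rw [e]
      exact Subgroup.mul_mem_sup hu h1
  have hStop : ∀ a : A, a ∈ S := by
    intro a
    obtain ⟨u, hu, h1⟩ := hC'sup a (Subgroup.mem_top _)
    rw [hC'bot, Subgroup.mem_bot] at h1
    have e : a = u := mul_inv_eq_one.mp h1
    rw [e]; exact hu
  have hpure' : ∀ s : A, s ^ (p ^ (n - 1)) = 1 → ∃ t : A, s = t ^ p := by
    intro s hs
    obtain ⟨t, _, ht⟩ := hpure s (hStop s) hs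
    exact ⟨t, ht⟩
  have hroot : ∀ j, j ≤ n - 1 → ∀ a : A, a ^ (p ^ (n - j)) = 1 → ∃ t : A, a = t ^ (p ^ j) := by
    intro j
    induction j with
    | zero => intro _ a _; exact ⟨a, by rw [pow_zero, pow_one]⟩
    | succ j ih =>
      intro hj a ha
      have h1 : a ^ (p ^ (n - j)) = 1 := by
        have e : n - j = (n - (j + 1)) + 1 := by omega
        rw [e, pow_succ, pow_mul, ha, one_pow]
      obtain ⟨t, rfl⟩ := ih (by omega) a h1
      have h2 : t ^ (p ^ (n - 1)) = 1 := by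
        have e : n - 1 = j + (n - (j + 1)) := by omega
        rw [e, pow_add, pow_mul]; exact ha
      obtain ⟨t', rfl⟩ := hpure' t h2
      exact ⟨t', by rw [← pow_mul, ← pow_succ']⟩
  have hΩW : ∀ a : A, a ^ p = 1 → a ∈ W := by
    intro a ha
    obtain ⟨t, rfl⟩ := hroot (n - 1) le_rfl a (by
      have e : n - (n - 1) = 1 := by omega
      rw [e, pow_one]; exact ha)
    rw [← hSW]
    exact Subgroup.mem_map.mpr ⟨t, hStop t, hφ t⟩
  have hVW : V ≤ W := fun b hb => hΩW b (hVexp b hb)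
  have hVeq : V = W := by
    apply Subgroup.eq_of_le_of_card_ge hVW
    exact hWmin ⟨V, hV, le_trans hVW hWQ, hVmem⟩
  intro a
  constructor
  · exact hVexp a
  · intro ha
    rw [hVeq]; exact hΩW a ha

theorem step_iii_ii {A : Type*} [CommGroup A] [Finite A] {p : ℕ} [Fact p.Prime]
    (hA : IsPGroup p A) (X : Subgroup (MulAut A))
    (h3 : ∀ B : Subgroup A, (∀ x ∈ X, B.map x.toMonoidHom = B) → (∀ b ∈ B, b ^ p = 1) →
      B = ⊥ ∨ ∀ a : A, a ∈ B ↔ a ^ p = 1) :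
    ∀ B : Subgroup A, (∀ x ∈ X, B.map x.toMonoidHom = B) →
      ∃ i : ℕ, ∀ a : A, a ∈ B ↔ a ^ p ^ i = 1 := by
  classical
  have hp : p.Prime := Fact.out
  have key : ∀ i : ℕ, ∀ B : Subgroup A, (∀ x ∈ X, ∀ a ∈ B, x a ∈ B) →
      (∀ b ∈ B, b ^ (p ^ (i + 1)) = 1) → (∃ b ∈ B, b ^ (p ^ i) ≠ 1) →
      ∀ a : A, a ^ (p ^ (i + 1)) = 1 → a ∈ B := by
    intro i
    induction i with
    | zero =>
      intro B hBinv hB1 hB2 a ha
      rw [zero_add, pow_one] at ha hB1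
      obtain ⟨b, hb, hb1⟩ := hB2
      rw [pow_zero, pow_one] at hb1
      rcases h3 B (inv_of_mem X B hBinv) hB1 with h | h
      · exfalso; apply hb1; rw [h] at hb; exact Subgroup.mem_bot.mp hb
      · exact (h a).mpr ha
    | succ i ih =>
      intro B hBinv hB1 hB2 a ha
      obtain ⟨b₀, hb₀, hb₀1⟩ := hB2
      obtain ⟨B₁, hB₁⟩ : ∃ B₁ : Subgroup A, ∀ c, c ∈ B₁ ↔ ∃ b ∈ B, b ^ (p ^ (i + 1)) = c :=
        ⟨B.map (powMonoidHom (p ^ (i + 1))), fun c => Subgroup.mem_map⟩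
      have hB₁inv : ∀ x ∈ X, ∀ c ∈ B₁, x c ∈ B₁ := by
        intro x hx c hc
        obtain ⟨b, hb, rfl⟩ := (hB₁ c).mp hc
        exact (hB₁ _).mpr ⟨x b, hBinv x hx b hb, (map_pow x b _).symm⟩
      have hB₁exp : ∀ c ∈ B₁, c ^ p = 1 := by
        intro c hc
        obtain ⟨b, hb, rfl⟩ := (hB₁ c).mp hc
        rw [← pow_mul, ← pow_succ]; exact hB1 b hb
      have hB₁Ω : ∀ c : A, c ∈ B₁ ↔ c ^ p = 1 := by
        rcases h3 B₁ (inv_of_mem X B₁ hB₁inv) hB₁exp with h | h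
        · exfalso
          apply hb₀1
          have h1 : b₀ ^ (p ^ (i + 1)) ∈ B₁ := (hB₁ _).mpr ⟨b₀, hb₀, rfl⟩
          rw [h] at h1
          exact Subgroup.mem_bot.mp h1
        · exact h
      obtain ⟨B', hB'⟩ : ∃ B' : Subgroup A, ∀ c, c ∈ B' ↔ ∃ b ∈ B, b ^ p = c :=
        ⟨B.map (powMonoidHom p), fun c => Subgroup.mem_map⟩
      have hB'inv : ∀ x ∈ X, ∀ c ∈ B', x c ∈ B' := by
        intro x hx c hc
        obtain ⟨b, hb, rfl⟩ := (hB' c).mp hc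
        exact (hB' _).mpr ⟨x b, hBinv x hx b hb, (map_pow x b _).symm⟩
      have hB'B : B' ≤ B := by
        intro c hc
        obtain ⟨b, hb, rfl⟩ := (hB' c).mp hc
        exact B.pow_mem hb p
      have hB'1 : ∀ c ∈ B', c ^ (p ^ (i + 1)) = 1 := by
        intro c hc
        obtain ⟨b, hb, rfl⟩ := (hB' c).mp hc
        rw [← pow_mul, ← pow_succ']; exact hB1 b hb
      have hB'2 : ∃ c ∈ B', c ^ (p ^ i) ≠ 1 := by
        refine ⟨b₀ ^ p, (hB' _).mpr ⟨b₀, hb₀, rfl⟩, ?_⟩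
        rw [← pow_mul, ← pow_succ']; exact hb₀1
      have hΩ := ih B' hB'inv hB'1 hB'2
      have h1 : (a ^ (p ^ (i + 1))) ^ p = 1 := by rw [← pow_mul, ← pow_succ]; exact ha
      obtain ⟨b, hb, hbc⟩ := (hB₁ _).mp ((hB₁Ω _).mpr h1)
      have h2 : (a * b⁻¹) ^ (p ^ (i + 1)) = 1 := by
        rw [mul_pow, inv_pow, hbc, mul_inv_cancel]
      have h4 : a * b⁻¹ ∈ B := hB'B (hΩ _ h2)
      have e : a = a * b⁻¹ * b := by rw [inv_mul_cancel_right]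
      rw [e]; exact B.mul_mem h4 hb
  intro B hBinv
  by_cases hB : B = ⊥
  · refine ⟨0, fun a => ?_⟩
    rw [hB, Subgroup.mem_bot, pow_zero, pow_one]
  obtain ⟨k, hk⟩ := IsPGroup.iff_card.mp hA
  have hex : ∃ m, ∀ b ∈ B, b ^ (p ^ m) = 1 :=
    ⟨k, fun b _ => by rw [← hk]; exact pow_card_eq_one'⟩
  obtain ⟨m, hm, hmmin⟩ : ∃ m, (∀ b ∈ B, b ^ (p ^ m) = 1) ∧
      ∀ j < m, ¬ ∀ b ∈ B, b ^ (p ^ j) = 1 :=
    ⟨Nat.find hex, Nat.find_spec hex, fun j hj => Nat.find_min hex hj⟩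
  have hm0 : m ≠ 0 := by
    rintro rfl
    apply hB
    rw [eq_bot_iff]
    intro b hb
    have h1 := hm b hb
    rw [pow_zero, pow_one] at h1
    exact Subgroup.mem_bot.mpr h1
  obtain ⟨i, rfl⟩ : ∃ i, m = i + 1 := ⟨m - 1, by omega⟩
  have h2 := hmmin i (by omega)
  push_neg at h2
  refine ⟨i + 1, fun a => ⟨fun ha => hm a ha, fun ha => ?_⟩⟩
  exact key i B (mem_of_inv X B hBinv) hm h2 a ha


/-- Let A be a finite abelian p-group and X a group of automorphisms of A of order prime to p. Call a subgroup of A invariant when every element of X maps it onto itself. Then the following are equivalent: (i) A is not the direct product of two nontrivial invariant subgroups; (ii) every invariant subgroup of A is one of the subgroups Ω_i(A) = {a : a^(p^i) = 1}; (iii) the subgroup Ω₁(A) of elements of order dividing p has no invariant subgroups other than 1 and itself. -/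
theorem result {A : Type*} [CommGroup A] [Finite A] {p : ℕ} [Fact p.Prime] (hA : IsPGroup p A) (X : Subgroup (MulAut A)) (hX : (Nat.card X).Coprime p) : ((¬ ∃ B C : Subgroup A, B ≠ ⊥ ∧ C ≠ ⊥ ∧ (∀ x ∈ X, B.map x.toMonoidHom = B) ∧ (∀ x ∈ X, C.map x.toMonoidHom = C) ∧ B ⊓ C = ⊥ ∧ B ⊔ C = ⊤) ↔ (∀ B : Subgroup A, (∀ x ∈ X, B.map x.toMonoidHom = B) → ∃ i : ℕ, ∀ a : A, a ∈ B ↔ a ^ p ^ i = 1)) ∧ ((∀ B : Subgroup A, (∀ x ∈ X, B.map x.toMonoidHom = B) → ∃ i : ℕ, ∀ a : A, a ∈ B ↔ a ^ p ^ i = 1) ↔ (∀ B : Subgroup A, (∀ x ∈ X, B.map x.toMonoidHom = B) → (∀ b ∈ B, b ^ p = 1) → B = ⊥ ∨ ∀ a : A, a ∈ B ↔ a ^ p = 1)) := by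
  have hpp : p.Prime := Fact.out
  have h32 := step_iii_ii hA X
  have h23 : (∀ B : Subgroup A, (∀ x ∈ X, B.map x.toMonoidHom = B) →
      ∃ i : ℕ, ∀ a : A, a ∈ B ↔ a ^ p ^ i = 1) →
      (∀ B : Subgroup A, (∀ x ∈ X, B.map x.toMonoidHom = B) → (∀ b ∈ B, b ^ p = 1) →
        B = ⊥ ∨ ∀ a : A, a ∈ B ↔ a ^ p = 1) := by
    intro h2 B hBinv hBexp
    obtain ⟨i, hi⟩ := h2 B hBinv
    rcases Nat.eq_zero_or_pos i with h0 | h0
    · left
      rw [eq_bot_iff]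
      intro a ha
      have h1 := (hi a).mp ha
      rw [h0, pow_zero, pow_one] at h1
      exact Subgroup.mem_bot.mpr h1
    · right
      intro a
      refine ⟨hBexp a, fun ha => (hi a).mpr ?_⟩
      obtain ⟨j, rfl⟩ : ∃ j, i = j + 1 := ⟨i - 1, by omega⟩
      rw [pow_succ', pow_mul, ha, one_pow]
  refine ⟨⟨fun h1 => h32 (hard hA X hX h1), ?_⟩, ⟨h23, h32⟩⟩
  intro h2
  rintro ⟨B, C, hB0, hC0, hBinv, hCinv, hBC, -⟩
  obtain ⟨i, hi⟩ := h2 B hBinv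
  obtain ⟨j, hj⟩ := h2 C hCinv
  have hnt : ∃ b ∈ B, b ≠ 1 := by
    by_contra hcon
    push_neg at hcon
    apply hB0
    rw [eq_bot_iff]
    intro b hb
    exact Subgroup.mem_bot.mpr (hcon b hb)
  obtain ⟨b, hb, hb1⟩ := hnt
  have hdvd : p ∣ Nat.card A := by
    obtain ⟨k, hk⟩ := IsPGroup.iff_card.mp hA
    rw [hk]
    rcases Nat.eq_zero_or_pos k with h0 | h0
    · exfalso
      rw [h0, pow_zero] at hk
      haveI := (Nat.card_eq_one_iff_unique.mp hk).1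
      exact hb1 (Subsingleton.elim b 1)
    · exact dvd_pow_self p (by omega)
  obtain ⟨z, hz⟩ := exists_prime_orderOf_dvd_card' p hdvd
  have hzp : z ^ p = 1 := by rw [← hz]; exact pow_orderOf_eq_one z
  have hz1 : z ≠ 1 := by
    intro h
    rw [h, orderOf_one] at hz
    exact hpp.one_lt.ne hz
  have hi0 : i ≠ 0 := by
    rintro rfl
    apply hb1
    have h1 := (hi b).mp hb
    rwa [pow_zero, pow_one] at h1
  have hj0 : j ≠ 0 := by
    rintro rfl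
    obtain ⟨c, hc, hc1⟩ : ∃ c ∈ C, c ≠ 1 := by
      by_contra hcon
      push_neg at hcon
      apply hC0
      rw [eq_bot_iff]
      intro c hc
      exact Subgroup.mem_bot.mpr (hcon c hc)
    apply hc1
    have h1 := (hj c).mp hc
    rwa [pow_zero, pow_one] at h1
  have hzB : z ∈ B := by
    apply (hi z).mpr
    obtain ⟨i', rfl⟩ : ∃ i', i = i' + 1 := ⟨i - 1, by omega⟩
    rw [pow_succ', pow_mul, hzp, one_pow]
  have hzC : z ∈ C := by
    apply (hj z).mpr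
    obtain ⟨j', rfl⟩ : ∃ j', j = j' + 1 := ⟨j - 1, by omega⟩
    rw [pow_succ', pow_mul, hzp, one_pow]
  have hzBC : z ∈ B ⊓ C := ⟨hzB, hzC⟩
  rw [hBC] at hzBC
  exact hz1 (Subgroup.mem_bot.mp hzBC)

end Cfsg.Agent.S3775
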