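import Cfsg.Statements.S3780
import Mathlib
import Cfsg.Agent.S3781
import Cfsg.Agent.Lib.helper1.PGroup

set_option autoImplicit false
open Cfsg

namespace Cfsg.Agent.S3780

universe u

/-- the endomorphism ring of a nontrivial elementary abelian `p`-group has characteristic `p` -/
theorem charP_end {A : Type u} [AddCommGroup A] [Nontrivial A] (p : ℕ) [Fact p.Prime]
    (h : ∀ x : A, p • x = 0) : CharP (AddMonoid.End A) p := by
  have hp : p.Prime := Fact.out
  constructor
  intro x
  constructor
  · intro hx
    obtain ⟨w, hw⟩ := exists_ne (0 : A)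
    have h1 : x • w = 0 := by
      have h2 := congrArg (fun f : AddMonoid.End A => f w) hx
      simpa using h2
    have h2 : addOrderOf w = p := addOrderOf_eq_prime (h w) hw
    rw [← h2]; exact addOrderOf_dvd_of_nsmul_eq_zero h1
  · rintro ⟨c, rfl⟩
    apply AddMonoidHom.ext
    intro w
    show (p * c) • w = 0
    rw [mul_comm, mul_nsmul, h]

theorem card_le_ker_mul_map {A : Type u} [AddCommGroup A] [Finite A] (g : A →+ A)
    (U : AddSubgroup A) : Nat.card U ≤ Nat.card g.ker * Nat.card (U.map g) := by
  let ψ : U →+ A := g.comp U.subtype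
  have h1 : Nat.card U = Nat.card ψ.ker * Nat.card ψ.range := by
    rw [← AddSubgroup.index_ker ψ, AddSubgroup.card_mul_index]
  have h2 : ψ.range = U.map g := by
    show (g.comp U.subtype).range = U.map g
    rw [← AddMonoidHom.map_range, AddSubgroup.range_subtype]
  have h3 : Nat.card ψ.ker ≤ Nat.card g.ker := by
    refine Nat.card_le_card_of_injective (fun x => ⟨x.1.1, x.2⟩) ?_
    intro x y hxy
    have := congrArg Subtype.val hxy
    exact Subtype.ext (Subtype.ext this)
  rw [h1, h2]
  exact Nat.mul_le_mul_right _ h3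

theorem chain_bound {A : Type u} [AddCommGroup A] [Finite A] (g : AddMonoid.End A) :
    ∀ i : ℕ, Nat.card A ≤
      (Nat.card (AddMonoidHom.ker (g : A →+ A))) ^ i * Nat.card (AddMonoidHom.range ((g ^ i : AddMonoid.End A) : A →+ A)) := by
  intro i
  induction i with
  | zero =>
    have h1 : AddMonoidHom.range ((g ^ 0 : AddMonoid.End A) : A →+ A) = ⊤ := by
      rw [pow_zero]
      exact AddMonoidHom.range_eq_top_of_surjective _ (fun x => ⟨x, rfl⟩)
    rw [h1, pow_zero, one_mul, AddSubgroup.card_top]
  | succ i ih =>
    have h1 : AddMonoidHom.range ((g ^ (i + 1) : AddMonoid.End A) : A →+ A) =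
        (AddMonoidHom.range ((g ^ i : AddMonoid.End A) : A →+ A)).map (g : A →+ A) := by
      rw [pow_succ']
      ext x
      constructor
      · rintro ⟨y, rfl⟩
        exact ⟨(g ^ i) y, ⟨y, rfl⟩, rfl⟩
      · rintro ⟨z, ⟨y, rfl⟩, rfl⟩
        exact ⟨y, rfl⟩
    have h2 := card_le_ker_mul_map (g : A →+ A) (AddMonoidHom.range ((g ^ i : AddMonoid.End A) : A →+ A))
    rw [h1]
    calc Nat.card A ≤ (Nat.card (AddMonoidHom.ker (g : A →+ A))) ^ i *
          Nat.card (AddMonoidHom.range ((g ^ i : AddMonoid.End A) : A →+ A)) := ih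
      _ ≤ (Nat.card (AddMonoidHom.ker (g : A →+ A))) ^ i * (Nat.card (AddMonoidHom.ker (g : A →+ A)) *
          Nat.card ((AddMonoidHom.range ((g ^ i : AddMonoid.End A) : A →+ A)).map (g : A →+ A))) :=
        Nat.mul_le_mul_left _ h2
      _ = _ := by ring

theorem greedy {V : Type u} [Group V] [Finite V] {p : ℕ} [Fact p.Prime] (hV : IsPGroup p V)
    (B : Subgroup V) : ∀ i : ℕ, ∃ S : Finset V, S.card ≤ i ∧
      (Subgroup.closure (S : Set V) ⊔ B = ⊤ ∨
        p ^ i * Nat.card B ≤ Nat.card (Subgroup.closure (S : Set V) ⊔ B : Subgroup V)) := by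
  classical
  intro i
  induction i with
  | zero => exact ⟨∅, le_rfl, Or.inr (by simp)⟩
  | succ i ih =>
    obtain ⟨S, hS, h⟩ := ih
    rcases h with h | h
    · exact ⟨S, by omega, Or.inl h⟩
    · by_cases htop : Subgroup.closure (S : Set V) ⊔ B = ⊤
      · exact ⟨S, by omega, Or.inl htop⟩
      · obtain ⟨x, hx⟩ : ∃ x, x ∉ Subgroup.closure (S : Set V) ⊔ B := by
          by_contra hall
          push Not at hall
          exact htop (eq_top_iff.mpr (fun x _ => hall x))
        refine ⟨insert x S, (Finset.card_insert_le x S).trans (by omega), Or.inr ?_⟩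
        have hsub : (S : Set V) ⊆ ((insert x S : Finset V) : Set V) := by
          rw [Finset.coe_insert]; exact Set.subset_insert x _
        have hlt : Subgroup.closure (S : Set V) ⊔ B <
            Subgroup.closure ((insert x S : Finset V) : Set V) ⊔ B := by
          refine lt_of_le_of_ne (sup_le_sup_right (Subgroup.closure_mono hsub) B) ?_
          intro heq
          apply hx
          rw [heq]
          exact Subgroup.mem_sup_left (Subgroup.subset_closure (by simp))
        have h2 := Cfsg.Agent.S3781.card_lt_p hV _ _ hlt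
        calc p ^ (i + 1) * Nat.card B = p * (p ^ i * Nat.card B) := by ring
          _ ≤ p * Nat.card (Subgroup.closure (S : Set V) ⊔ B : Subgroup V) := Nat.mul_le_mul_left _ h
          _ ≤ _ := h2

/-- Let V be a finite abelian p-group and α an automorphism of V of order p whose fixed-point subgroup has order p^n. Then V can be generated by pn elements: some subset of V with at most pn elements generates V. -/
theorem result {V : Type*} [CommGroup V] [Finite V] {p : ℕ} [Fact p.Prime] (hV : IsPGroup p V) (α : MulAut V) (hα : orderOf α = p) (n : ℕ) (hfix : Nat.card {v : V // α v = v} = p ^ n) : ∃ S : Finset V, S.card ≤ p * n ∧ Subgroup.closure (S : Set V) = ⊤ := by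
  classical
  have hp : p.Prime := Fact.out
  let pw : V →* V := powMonoidHom p
  set W : Subgroup V := pw.ker with hW
  set B : Subgroup V := pw.range with hB
  have hWB : Nat.card W * Nat.card B = Nat.card V := by
    rw [hB, ← Subgroup.index_ker, Subgroup.card_mul_index]
  have hWmem : ∀ v : V, v ∈ W ↔ v ^ p = 1 := fun v => Iff.rfl
  have hαW : ∀ w ∈ W, α w ∈ W := by
    intro w hw
    rw [hWmem] at hw ⊢
    rw [← map_pow, hw, map_one]
  let a : AddMonoid.End (Additive W) :=
    MonoidHom.toAdditive ((α.toMonoidHom.comp W.subtype).codRestrict W (fun w => hαW w.1 w.2))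
  have ha_apply : ∀ w : Additive W, ((a w).toMul : W).1 = α (w.toMul : W).1 := fun w => rfl
  have ha_pow : ∀ (k : ℕ) (w : Additive W), (((a ^ k) w).toMul : W).1 = (α ^ k) (w.toMul : W).1 := by
    intro k
    induction k with
    | zero => intro w; rfl
    | succ k ih =>
      intro w
      rw [pow_succ', pow_succ']
      show ((a ((a ^ k) w)).toMul : W).1 = α ((α ^ k) (w.toMul : W).1)
      rw [ha_apply, ih]
  have hap : a ^ p = 1 := by
    have h2 : α ^ p = 1 := by
      have := pow_orderOf_eq_one α
      rwa [hα] at this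
    apply AddMonoidHom.ext
    intro w
    have h1 := ha_pow p w
    rw [h2] at h1
    have h3 : (((a ^ p) w).toMul : W) = (w.toMul : W) := Subtype.ext h1
    exact congrArg Additive.ofMul h3
  have hpA : ∀ x : Additive W, p • x = 0 := by
    intro x
    have h1 : (x.toMul : W) ^ p = 1 := Subtype.ext (by
      rw [Subgroup.coe_pow]; exact (hWmem _).mp (x.toMul : W).2)
    exact congrArg Additive.ofMul h1
  have hfp : (a - 1) ^ p = 0 := by
    rcases subsingleton_or_nontrivial (Additive W) with hsub | hnt
    · apply AddMonoidHom.ext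
      intro w
      exact Subsingleton.elim _ _
    · haveI := charP_end p hpA
      rw [sub_pow_char_of_commute p (Commute.one_right a), hap, one_pow, sub_self]
  have hker : Nat.card (AddMonoidHom.ker ((a - 1 : AddMonoid.End (Additive W)) : Additive W →+ Additive W)) ≤ p ^ n := by
    rw [← hfix]
    refine Nat.card_le_card_of_injective (fun x => ⟨((x.1).toMul : W).1, ?_⟩) ?_
    · have h1 : (a - 1 : AddMonoid.End (Additive W)) x.1 = 0 := x.2
      have h2 : a x.1 = x.1 := by
        have h3 : a x.1 - x.1 = 0 := h1
        exact sub_eq_zero.mp h3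
      have h4 := ha_apply x.1
      rw [h2] at h4
      exact h4.symm
    · intro x y hxy
      have h1 : ((x.1).toMul : W).1 = ((y.1).toMul : W).1 := by
        have := congrArg Subtype.val hxy
        exact this
      exact Subtype.ext (congrArg Additive.ofMul (Subtype.ext h1))
  have hchain := chain_bound (a - 1 : AddMonoid.End (Additive W)) p
  rw [hfp] at hchain
  have hrange0 : Nat.card (AddMonoidHom.range ((0 : AddMonoid.End (Additive W)) : Additive W →+ Additive W)) = 1 := by
    have : AddMonoidHom.range ((0 : AddMonoid.End (Additive W)) : Additive W →+ Additive W) = ⊥ := by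
      rw [eq_bot_iff]
      rintro x ⟨y, rfl⟩
      exact AddSubgroup.mem_bot.mpr rfl
    rw [this, AddSubgroup.card_bot]
  rw [hrange0, mul_one] at hchain
  have hAW : Nat.card (Additive W) = Nat.card W := Nat.card_congr Additive.toMul
  have hWle : Nat.card W ≤ p ^ (p * n) := by
    rw [← hAW]
    calc Nat.card (Additive W) ≤ _ := hchain
      _ ≤ (p ^ n) ^ p := Nat.pow_le_pow_left hker p
      _ = p ^ (p * n) := by rw [← pow_mul, mul_comm]
  obtain ⟨S, hS, h⟩ := greedy hV B (p * n)
  refine ⟨S, hS, ?_⟩
  have htop : Subgroup.closure (S : Set V) ⊔ B = ⊤ := by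
    rcases h with h | h
    · exact h
    · apply Subgroup.eq_top_of_le_card
      calc Nat.card V = Nat.card W * Nat.card B := hWB.symm
        _ ≤ p ^ (p * n) * Nat.card B := Nat.mul_le_mul_right _ hWle
        _ ≤ _ := h
  have hBΦ : B ≤ frattini V := by
    rintro b ⟨y, rfl⟩
    exact Cfsg.Agent.Lib.helper1.pow_mem_frattini p hV y
  apply frattini_nongenerating
  rw [eq_top_iff, ← htop]
  exact sup_le_sup_left hBΦ _

end Cfsg.Agent.S3780
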