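import Cfsg.Statements.S3783
import Mathlib
import Cfsg.Agent.Lib.helper19.PLen
import Cfsg.Agent.S3788
import Cfsg.Agent.Lib.helper3.PSolvPair
import Cfsg.Agent.Lib.helper1.PGroup
import Cfsg.Agent.Lib.helper16.PSolv
import Cfsg.Agent.Lib.helper9.PPrimeCore
import Cfsg.Agent.Lib.helper15.PCore

set_option autoImplicit false
open Cfsg

namespace Cfsg.Agent.S3783

universe u
open scoped Pointwise

theorem normLemma {Γ : Type*} [Group Γ] [Finite Γ] (p : ℕ) [Fact p.Prime] (V Q : Subgroup Γ)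
    [hVn : V.Normal]
    (hVab : ∀ u ∈ V, ∀ v ∈ V, u * v = v * u) (hVp : IsPGroup p V)
    (x : Γ) (m : ℕ) (hxQ : ∀ a ∈ Q, x * a * x⁻¹ ∈ Q)
    (hxk : x ^ (p ^ m) = 1)
    (hfree : ∀ a ∈ Q, a ≠ 1 → ∀ i : ℕ, 0 < i → i < p ^ m → x ^ i * a * (x ^ i)⁻¹ ≠ a)
    (hnorm : ∀ v ∈ V, (v * x) ^ (p ^ m) = 1) :
    ∀ b ∈ Q, ∀ v ∈ V, b * v = v * b := by
  classical
  have hp : p.Prime := Fact.out
  letI : CommGroup ↥V :=
    { (inferInstance : Group ↥V) with mul_comm := fun a b => Subtype.ext (hVab a a.2 b b.2) }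
  haveI : Fintype ↥Q := Fintype.ofFinite _
  obtain ⟨k, hkdef⟩ : ∃ k, k = p ^ m := ⟨_, rfl⟩
  have hk0 : 0 < k := by rw [hkdef]; exact pow_pos hp.pos m
  rw [← hkdef] at hxk hfree hnorm
  obtain ⟨ρ, hρ⟩ : ∃ ρ : Γ → ↥V → ↥V, ∀ g v, ((ρ g v : ↥V) : Γ) = g * v * g⁻¹ :=
    ⟨fun g v => ⟨g * v * g⁻¹, hVn.conj_mem v v.2 g⟩, fun g v => rfl⟩
  have hcoe_mul : ∀ u v : ↥V, ((u * v : ↥V) : Γ) = (u : Γ) * (v : Γ) := fun u v => rfl
  have hcoe_one : ((1 : ↥V) : Γ) = 1 := rfl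
  have hρmul : ∀ g (u v : ↥V), ρ g (u * v) = ρ g u * ρ g v := by
    intro g u v
    apply Subtype.ext
    rw [hρ, hcoe_mul, hcoe_mul, hρ, hρ]; group
  have hρone : ∀ g, ρ g 1 = 1 := by
    intro g; apply Subtype.ext; rw [hρ, hcoe_one]; group
  have hρcomp : ∀ g h (v : ↥V), ρ g (ρ h v) = ρ (g * h) v := by
    intro g h v; apply Subtype.ext; rw [hρ, hρ, hρ]; group
  have hρ1 : ∀ v : ↥V, ρ 1 v = v := by
    intro v; apply Subtype.ext; rw [hρ]; group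
  have hρprod : ∀ g (s : Finset ↥Q) (f : ↥Q → ↥V),
      ρ g (∏ a ∈ s, f a) = ∏ a ∈ s, ρ g (f a) := by
    intro g s f
    induction s using Finset.induction_on with
    | empty => rw [Finset.prod_empty, Finset.prod_empty]; exact hρone g
    | insert a s ha ih => rw [Finset.prod_insert ha, Finset.prod_insert ha, hρmul, ih]
  obtain ⟨T, hT⟩ : ∃ T : ↥V → ↥V, ∀ w, T w = ∏ a : ↥Q, ρ (a : Γ) w := ⟨_, fun w => rfl⟩
  have hTmul : ∀ u v, T (u * v) = T u * T v := by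
    intro u v; rw [hT, hT, hT, ← Finset.prod_mul_distrib]
    exact Finset.prod_congr rfl (fun a _ => hρmul _ u v)
  have hTone : T 1 = 1 := by rw [hT]; exact Finset.prod_eq_one (fun a _ => hρone _)
  have hTb : ∀ (b : ↥Q) (v : ↥V), T (ρ (b : Γ) v) = T v := by
    intro b v
    rw [hT, hT]
    exact Fintype.prod_equiv (Equiv.mulRight b) _ _ (fun a => by rw [hρcomp]; rfl)
  obtain ⟨τ, hτ⟩ : ∃ τ : ↥Q → ↥Q, ∀ a, ((τ a : ↥Q) : Γ) = x * a * x⁻¹ :=
    ⟨fun a => ⟨x * a * x⁻¹, hxQ a a.2⟩, fun a => rfl⟩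
  have hτinj : Function.Injective τ := by
    intro a b hab
    have h7 := congrArg (fun t : ↥Q => (t : Γ)) hab
    simp only [hτ] at h7
    exact Subtype.ext (mul_left_cancel (mul_right_cancel h7))
  obtain ⟨τe, hτe⟩ : ∃ τe : ↥Q ≃ ↥Q, ∀ a, τe a = τ a :=
    ⟨Equiv.ofBijective τ (Finite.injective_iff_bijective.mp hτinj), fun a => rfl⟩
  have hTx : ∀ v : ↥V, T (ρ x v) = ρ x (T v) := by
    intro v
    rw [hT, hT, hρprod]
    refine (Fintype.prod_equiv τe (fun a => ρ x (ρ (a : Γ) v)) (fun a => ρ (a : Γ) (ρ x v))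
      (fun a => ?_)).symm
    rw [hτe, hρcomp, hρcomp, hτ]
    congr 1; group
  have hτpow : ∀ (i : ℕ) (a : ↥Q), ((τ^[i] a : ↥Q) : Γ) = x ^ i * a * (x ^ i)⁻¹ := by
    intro i
    induction i with
    | zero => intro a; simp
    | succ i ih =>
      intro a
      rw [Function.iterate_succ_apply', hτ, ih, pow_succ']; group
  have hN : ∀ (v : ↥V) (j : ℕ),
      ((v : Γ) * x) ^ j = ((∏ i ∈ Finset.range j, ρ (x ^ i) v : ↥V) : Γ) * x ^ j := by
    intro v j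
    induction j with
    | zero => rw [pow_zero, pow_zero, Finset.range_zero, Finset.prod_empty, hcoe_one, mul_one]
    | succ j ih =>
      rw [pow_succ, ih, Finset.prod_range_succ, hcoe_mul, hρ, pow_succ]; group
  have hNorm1 : ∀ v : ↥V, ∏ i ∈ Finset.range k, ρ (x ^ i) v = 1 := by
    intro v
    have h7 := hN v k
    rw [hnorm v v.2, hxk, mul_one] at h7
    exact Subtype.ext h7.symm
  have hτk : ∀ a : ↥Q, τ^[k] a = a := by
    intro a; apply Subtype.ext; rw [hτpow, hxk]; group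
  have hfree' : ∀ (a : ↥Q), a ≠ 1 → ∀ i j : ℕ, i < j → j < k → τ^[i] a ≠ τ^[j] a := by
    intro a ha i j hij hjk h
    have h7 := congrArg (fun t : ↥Q => (t : Γ)) h
    simp only [hτpow] at h7
    have e1 : x ^ j = x ^ i * x ^ (j - i) := by rw [← pow_add]; congr 1; omega
    rw [e1] at h7
    have e2 : x ^ (j - i) * (a : Γ) * (x ^ (j - i))⁻¹ = (a : Γ) := by
      have h8 : x ^ (j - i) * (a : Γ) * (x ^ (j - i))⁻¹ =
          (x ^ i)⁻¹ * (x ^ i * x ^ (j - i) * (a : Γ) * (x ^ i * x ^ (j - i))⁻¹) * x ^ i := by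
        group
      rw [h8, ← h7]; group
    have ha' : (a : Γ) ≠ 1 := fun h1 => ha (Subtype.ext h1)
    exact hfree a a.2 ha' (j - i) (by omega) (by omega) e2
  have hS : ∀ (n : ℕ) (S : Finset ↥Q), S.card = n → (∀ a ∈ S, τ a ∈ S) → (1 : ↥Q) ∉ S →
      ∀ w : ↥V, ρ x w = w → ∏ a ∈ S, ρ (a : Γ) w = 1 := by
    intro n
    induction n using Nat.strong_induction_on with
    | _ n ih =>
      intro S hcard hinv h1 w hw
      rcases S.eq_empty_or_nonempty with hS0 | ⟨a, ha⟩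
      · rw [hS0]; exact Finset.prod_empty
      have hiter : ∀ i : ℕ, τ^[i] a ∈ S := by
        intro i
        induction i with
        | zero => exact ha
        | succ i ihi => rw [Function.iterate_succ_apply']; exact hinv _ ihi
      have ha1 : a ≠ 1 := fun h => h1 (h ▸ ha)
      obtain ⟨O, hOdef⟩ : ∃ O : Finset ↥Q, O = (Finset.range k).image (fun i => τ^[i] a) :=
        ⟨_, rfl⟩
      have hinjO : Set.InjOn (fun i : ℕ => τ^[i] a) (Finset.range k : Set ℕ) := by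
        intro i hi j hj hij
        have hi' : i < k := Finset.mem_range.mp (Finset.mem_coe.mp hi)
        have hj' : j < k := Finset.mem_range.mp (Finset.mem_coe.mp hj)
        rcases lt_trichotomy i j with h | h | h
        · exact absurd hij (hfree' a ha1 i j h hj')
        · exact h
        · exact absurd hij.symm (hfree' a ha1 j i h hi')
      have hOS : O ⊆ S := by
        intro b hb
        rw [hOdef] at hb
        obtain ⟨i, -, rfl⟩ := Finset.mem_image.mp hb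
        exact hiter i
      have hOne : O.Nonempty :=
        ⟨a, by rw [hOdef]; exact Finset.mem_image.mpr ⟨0, Finset.mem_range.mpr hk0, rfl⟩⟩
      have hwc : ∀ i : ℕ, x ^ i * (w : Γ) = (w : Γ) * x ^ i := by
        have h7 := congrArg (fun t : ↥V => (t : Γ)) hw
        simp only [hρ] at h7
        have hc : Commute x (w : Γ) := by
          show x * (w : Γ) = (w : Γ) * x
          calc x * (w : Γ) = x * (w : Γ) * x⁻¹ * x := by group
            _ = (w : Γ) * x := by rw [h7]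
        intro i; exact (hc.pow_left i).eq
      have hprodO : ∏ b ∈ O, ρ (b : Γ) w = 1 := by
        rw [hOdef, Finset.prod_image hinjO]
        refine Eq.trans ?_ (hNorm1 (ρ (a : Γ) w))
        refine Finset.prod_congr rfl (fun i _ => ?_)
        apply Subtype.ext
        rw [hρ, hτpow, hρ, hρ]
        have e : x ^ i * (a : Γ) * (x ^ i)⁻¹ * (w : Γ) * (x ^ i * (a : Γ) * (x ^ i)⁻¹)⁻¹ =
            x ^ i * ((a : Γ) * ((x ^ i)⁻¹ * ((w : Γ) * x ^ i)) * (a : Γ)⁻¹) * (x ^ i)⁻¹ := by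
          group
        rw [e, ← hwc i]; group
      have hinv' : ∀ b ∈ S \ O, τ b ∈ S \ O := by
        intro b hb
        obtain ⟨hbS, hbO⟩ := Finset.mem_sdiff.mp hb
        refine Finset.mem_sdiff.mpr ⟨hinv b hbS, ?_⟩
        intro hτb
        rw [hOdef] at hτb
        obtain ⟨i, hi, hi2⟩ := Finset.mem_image.mp hτb
        have hi' := Finset.mem_range.mp hi
        apply hbO
        rw [hOdef]
        rcases Nat.eq_zero_or_pos i with h0 | h0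
        · refine Finset.mem_image.mpr ⟨k - 1, Finset.mem_range.mpr (by omega), ?_⟩
          apply hτinj
          show τ (τ^[k - 1] a) = τ b
          rw [← Function.iterate_succ_apply' τ (k - 1) a, ← hi2, h0]
          have e : (k - 1).succ = k := by omega
          rw [e, hτk]; rfl
        · refine Finset.mem_image.mpr ⟨i - 1, Finset.mem_range.mpr (by omega), ?_⟩
          apply hτinj
          show τ (τ^[i - 1] a) = τ b
          rw [← Function.iterate_succ_apply' τ (i - 1) a, ← hi2]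
          have e : (i - 1).succ = i := by omega
          rw [e]
      have hcard' : (S \ O).card < n := by
        rw [← hcard]; exact Finset.card_lt_card (Finset.sdiff_ssubset hOS hOne)
      have h1' : (1 : ↥Q) ∉ S \ O := fun h => h1 (Finset.mem_sdiff.mp h).1
      have hrest := ih _ hcard' (S \ O) rfl hinv' h1' w hw
      rw [← Finset.prod_sdiff hOS, hrest, hprodO, mul_one]
  have hfixT : ∀ w : ↥V, ρ x w = w → T w = w := by
    intro w hw
    have hinv0 : ∀ a ∈ (Finset.univ : Finset ↥Q).erase 1,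
        τ a ∈ (Finset.univ : Finset ↥Q).erase 1 := by
      intro a ha
      refine Finset.mem_erase.mpr ⟨?_, Finset.mem_univ _⟩
      intro h
      have h7 := congrArg (fun t : ↥Q => (t : Γ)) h
      simp only [hτ] at h7
      have ha1 : (a : Γ) = 1 := by
        have h8 : (a : Γ) = x⁻¹ * (x * (a : Γ) * x⁻¹) * x := by group
        rw [h8, h7]; show x⁻¹ * (1 : Γ) * x = 1; group
      exact (Finset.mem_erase.mp ha).1 (Subtype.ext ha1)
    have h9 := hS _ _ rfl hinv0 (Finset.notMem_erase 1 _) w hw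
    rw [hT, ← Finset.mul_prod_erase Finset.univ _ (Finset.mem_univ (1 : ↥Q)), h9, mul_one]
    exact hρ1 w
  have hTinj : ∀ w : ↥V, T w = 1 → w = 1 := by
    intro w0 hw0T
    by_contra hw0
    obtain ⟨K, hK⟩ : ∃ K : Subgroup Γ, ∀ g, g ∈ K ↔ ∃ h : g ∈ V, T ⟨g, h⟩ = 1 := by
      refine ⟨{ carrier := {g | ∃ h : g ∈ V, T ⟨g, h⟩ = 1}
                mul_mem' := ?_
                one_mem' := ?_
                inv_mem' := ?_ }, fun g => Iff.rfl⟩
      · rintro a b ⟨ha, haT⟩ ⟨hb, hbT⟩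
        refine ⟨V.mul_mem ha hb, ?_⟩
        have e : (⟨a * b, V.mul_mem ha hb⟩ : ↥V) = ⟨a, ha⟩ * ⟨b, hb⟩ := rfl
        rw [e, hTmul, haT, hbT, mul_one]
      · exact ⟨V.one_mem, hTone⟩
      · rintro a ⟨ha, haT⟩
        refine ⟨V.inv_mem ha, ?_⟩
        have e : (⟨a⁻¹, V.inv_mem ha⟩ : ↥V) * ⟨a, ha⟩ = 1 := Subtype.ext (inv_mul_cancel a)
        have h7 := hTmul ⟨a⁻¹, V.inv_mem ha⟩ ⟨a, ha⟩
        rw [e, hTone, haT, mul_one] at h7
        exact h7.symm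
    have hKV : K ≤ V := fun g hg => ((hK g).mp hg).1
    have hKp : IsPGroup p K := hVp.to_le hKV
    have hw0K : (w0 : Γ) ∈ K := (hK _).mpr ⟨w0.2, hw0T⟩
    have hxK : ∀ g ∈ K, x * g * x⁻¹ ∈ K := by
      intro g hg
      obtain ⟨hgV, hgT⟩ := (hK g).mp hg
      refine (hK _).mpr ⟨hVn.conj_mem g hgV x, ?_⟩
      have e : (⟨x * g * x⁻¹, hVn.conj_mem g hgV x⟩ : ↥V) = ρ x ⟨g, hgV⟩ :=
        Subtype.ext (hρ x ⟨g, hgV⟩).symm
      rw [e, hTx, hgT, hρone]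
    obtain ⟨f, hf⟩ : ∃ f : ↥K → ↥K, ∀ g : ↥K, ((f g : ↥K) : Γ) = x * g * x⁻¹ :=
      ⟨fun g => ⟨x * g * x⁻¹, hxK g g.2⟩, fun g => rfl⟩
    have hfinj : Function.Injective f := by
      intro a b hab
      have h7 := congrArg (fun t : ↥K => (t : Γ)) hab
      simp only [hf] at h7
      exact Subtype.ext (mul_left_cancel (mul_right_cancel h7))
    obtain ⟨σ, hσ⟩ : ∃ σ : Equiv.Perm ↥K, ∀ g, σ g = f g :=
      ⟨Equiv.ofBijective f (Finite.injective_iff_bijective.mp hfinj), fun g => rfl⟩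
    have hσpow : ∀ (i : ℕ) (g : ↥K), (((σ ^ i) g : ↥K) : Γ) = x ^ i * g * (x ^ i)⁻¹ := by
      intro i
      induction i with
      | zero => intro g; simp
      | succ i ih =>
        intro g
        rw [pow_succ', Equiv.Perm.mul_apply, hσ, hf, ih g, pow_succ']
        group
    have hσk : σ ^ p ^ m = 1 := by
      ext g
      rw [← hkdef, hσpow k g, hxk]
      simp
    haveI : Fintype ↥K := Fintype.ofFinite _
    have hpK : p ∣ Fintype.card ↥K := by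
      rw [← Nat.card_eq_fintype_card]
      obtain ⟨j, hj⟩ := (IsPGroup.iff_card).mp hKp
      rw [hj]
      rcases Nat.eq_zero_or_pos j with h0 | h0
      · exfalso
        rw [h0, pow_zero] at hj
        have hbot : K = ⊥ := Subgroup.card_eq_one.mp hj
        rw [hbot, Subgroup.mem_bot] at hw0K
        exact hw0 (Subtype.ext hw0K)
      · exact dvd_pow_self p (by omega)
    have hσ1 : σ 1 = 1 := by
      apply Subtype.ext; rw [hσ, hf]; show x * (1 : Γ) * x⁻¹ = 1; group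
    obtain ⟨g, hg, hg1⟩ := Equiv.Perm.exists_fixed_point_of_prime' hpK hσk hσ1
    obtain ⟨hgV, hgT⟩ := (hK _).mp g.2
    have hfix : ρ x ⟨(g : Γ), hgV⟩ = ⟨(g : Γ), hgV⟩ := by
      apply Subtype.ext
      rw [hρ]
      have h7 := congrArg (fun t : ↥K => (t : Γ)) hg
      simp only [hσ, hf] at h7
      exact h7
    have h8 := hfixT _ hfix
    rw [hgT] at h8
    apply hg1
    apply Subtype.ext
    have h9 := congrArg (fun t : ↥V => (t : Γ)) h8
    exact h9.symm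
  intro b hb v hv
  have hTb' : T (ρ b ⟨v, hv⟩) = T ⟨v, hv⟩ := hTb ⟨b, hb⟩ ⟨v, hv⟩
  have h8 := hTmul (ρ b ⟨v, hv⟩ * (⟨v, hv⟩ : ↥V)⁻¹) ⟨v, hv⟩
  rw [inv_mul_cancel_right, hTb'] at h8
  have h9 : T (ρ b ⟨v, hv⟩ * (⟨v, hv⟩ : ↥V)⁻¹) = 1 :=
    mul_right_cancel (b := T ⟨v, hv⟩) (by rw [one_mul]; exact h8.symm)
  have h10 := mul_inv_eq_one.mp (hTinj _ h9)
  have h11 := congrArg (fun t : ↥V => (t : Γ)) h10
  simp only [hρ] at h11
  calc b * v = b * v * b⁻¹ * b := by group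
    _ = v * b := by rw [h11]

theorem pow_reach (p : ℕ) [Fact p.Prime] {Γ : Type*} [Group Γ] (x : Γ) (m : ℕ)
    (hx : x ^ (p ^ (m + 1)) = 1) (i : ℕ) (hi0 : 0 < i) (hi : i < p ^ (m + 1)) :
    ∃ e : ℕ, (x ^ i) ^ e = x ^ (p ^ m) := by
  have hp : p.Prime := Fact.out
  obtain ⟨t, u, hu, hiu⟩ :=
    Nat.exists_eq_pow_mul_and_not_dvd (Nat.pos_iff_ne_zero.mp hi0) p hp.ne_one
  have htm : t ≤ m := by
    by_contra hcon
    have h1 : p ^ (m + 1) ∣ i := by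
      rw [hiu]; exact Dvd.dvd.mul_right (pow_dvd_pow p (by omega)) u
    have := Nat.le_of_dvd hi0 h1
    omega
  have hcop : Nat.Coprime u (p ^ (m + 1)) :=
    Nat.Coprime.pow_right _ ((Nat.Prime.coprime_iff_not_dvd hp).mpr hu).symm
  have h1lt : 1 < p ^ (m + 1) := Nat.one_lt_pow (by omega) hp.one_lt
  obtain ⟨j, -, hj⟩ := Nat.exists_mul_mod_eq_one_of_coprime hcop h1lt
  refine ⟨j * p ^ (m - t), ?_⟩
  have e1 : i * (j * p ^ (m - t)) = p ^ m * (u * j) := by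
    rw [hiu]
    have e0 : p ^ m = p ^ t * p ^ (m - t) := by rw [← pow_add]; congr 1; omega
    rw [e0]; ring
  have e2 : u * j = p ^ (m + 1) * (u * j / p ^ (m + 1)) + 1 := by
    have h3 := Nat.div_add_mod (u * j) (p ^ (m + 1))
    rw [hj] at h3; exact h3.symm
  rw [← pow_mul, e1, e2, mul_add, mul_one, pow_add, ← mul_assoc, mul_comm (p ^ m) (p ^ (m + 1)),
    mul_assoc, pow_mul, hx, one_pow, one_mul]

theorem fpf_sub {H : Type*} [Group H] [Finite H] (p q : ℕ) [Fact p.Prime] [Fact q.Prime]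
    (hqp : q ≠ p) (Q : Subgroup H) (hQ : IsPGroup q Q)
    (hQab : ∀ a ∈ Q, ∀ b ∈ Q, a * b = b * a)
    (x x₀ : H) (hxx₀ : x * x₀ = x₀ * x) (hx₀p : x₀ ^ p = 1)
    (hxQ : ∀ a ∈ Q, x * a * x⁻¹ ∈ Q) (hx₀Q : ∀ a ∈ Q, x₀ * a * x₀⁻¹ ∈ Q)
    (hnc : ¬ ∀ a ∈ Q, x₀ * a = a * x₀) :
    ∃ Q₁ : Subgroup H, Q₁ ≤ Q ∧ Q₁ ≠ ⊥ ∧ (∀ a ∈ Q₁, x * a * x⁻¹ ∈ Q₁) ∧
      (∀ c ∈ Q₁, x₀ * c * x₀⁻¹ = c → c = 1) := by
  classical
  have hp : p.Prime := Fact.out
  have hq : q.Prime := Fact.out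
  obtain ⟨Q₁, hQ₁⟩ : ∃ Q₁ : Subgroup H, ∀ c, c ∈ Q₁ ↔ ∃ a ∈ Q, c = a * (x₀ * a * x₀⁻¹)⁻¹ := by
    refine ⟨{ carrier := {c | ∃ a ∈ Q, c = a * (x₀ * a * x₀⁻¹)⁻¹}
              mul_mem' := ?_
              one_mem' := ?_
              inv_mem' := ?_ }, fun c => Iff.rfl⟩
    · rintro c d ⟨a, ha, rfl⟩ ⟨b, hb, rfl⟩
      refine ⟨a * b, Q.mul_mem ha hb, ?_⟩
      have hA := hx₀Q a ha
      have hB := hx₀Q b hb
      have e1 : (x₀ * a * x₀⁻¹)⁻¹ * b = b * (x₀ * a * x₀⁻¹)⁻¹ := hQab _ (Q.inv_mem hA) _ hb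
      have e2 : (x₀ * b * x₀⁻¹)⁻¹ * (x₀ * a * x₀⁻¹)⁻¹ =
          (x₀ * a * x₀⁻¹)⁻¹ * (x₀ * b * x₀⁻¹)⁻¹ := hQab _ (Q.inv_mem hB) _ (Q.inv_mem hA)
      calc a * (x₀ * a * x₀⁻¹)⁻¹ * (b * (x₀ * b * x₀⁻¹)⁻¹)
          = a * ((x₀ * a * x₀⁻¹)⁻¹ * b) * (x₀ * b * x₀⁻¹)⁻¹ := by group
        _ = a * b * ((x₀ * a * x₀⁻¹)⁻¹ * (x₀ * b * x₀⁻¹)⁻¹) := by rw [e1]; group
        _ = a * b * ((x₀ * b * x₀⁻¹)⁻¹ * (x₀ * a * x₀⁻¹)⁻¹) := by rw [e2]
        _ = a * b * (x₀ * (a * b) * x₀⁻¹)⁻¹ := by group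
    · exact ⟨1, Q.one_mem, by group⟩
    · rintro c ⟨a, ha, rfl⟩
      refine ⟨a⁻¹, Q.inv_mem ha, ?_⟩
      have hA := hx₀Q a ha
      have e1 : (x₀ * a * x₀⁻¹) * a⁻¹ = a⁻¹ * (x₀ * a * x₀⁻¹) := hQab _ hA _ (Q.inv_mem ha)
      calc (a * (x₀ * a * x₀⁻¹)⁻¹)⁻¹ = (x₀ * a * x₀⁻¹) * a⁻¹ := by group
        _ = a⁻¹ * (x₀ * a * x₀⁻¹) := e1
        _ = a⁻¹ * (x₀ * a⁻¹ * x₀⁻¹)⁻¹ := by group
  have hQ₁Q : Q₁ ≤ Q := by
    intro c hc
    obtain ⟨a, ha, rfl⟩ := (hQ₁ c).mp hc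
    exact Q.mul_mem ha (Q.inv_mem (hx₀Q a ha))
  refine ⟨Q₁, hQ₁Q, ?_, ?_, ?_⟩
  · intro hbot
    apply hnc
    intro a ha
    have h7 : a * (x₀ * a * x₀⁻¹)⁻¹ ∈ Q₁ := (hQ₁ _).mpr ⟨a, ha, rfl⟩
    rw [hbot, Subgroup.mem_bot] at h7
    have h8 : a = x₀ * a * x₀⁻¹ := mul_inv_eq_one.mp h7
    calc x₀ * a = x₀ * a * x₀⁻¹ * x₀ := by group
      _ = a * x₀ := by rw [← h8]
  · intro c hc
    obtain ⟨a, ha, rfl⟩ := (hQ₁ c).mp hc
    refine (hQ₁ _).mpr ⟨x * a * x⁻¹, hxQ a ha, ?_⟩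
    have e : x₀ * (x * a * x⁻¹) * x₀⁻¹ = x * (x₀ * a * x₀⁻¹) * x⁻¹ := by
      have h1 : x₀ * x = x * x₀ := hxx₀.symm
      have h2 : x⁻¹ * x₀⁻¹ = x₀⁻¹ * x⁻¹ := by rw [← mul_inv_rev, ← mul_inv_rev, hxx₀]
      calc x₀ * (x * a * x⁻¹) * x₀⁻¹ = (x₀ * x) * a * (x⁻¹ * x₀⁻¹) := by group
        _ = (x * x₀) * a * (x₀⁻¹ * x⁻¹) := by rw [h1, h2]
        _ = x * (x₀ * a * x₀⁻¹) * x⁻¹ := by group
    rw [e]; group
  · intro c hc hfix
    obtain ⟨a, ha, hca⟩ := (hQ₁ c).mp hc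
    have hcQ := hQ₁Q hc
    have hA1 : x₀ * a * x₀⁻¹ = a * c⁻¹ := by
      have e0 : x₀ * a * x₀⁻¹ = c⁻¹ * a := by rw [hca]; group
      rw [e0]; exact hQab _ (Q.inv_mem hcQ) _ ha
    have hfixinv : x₀ * c⁻¹ * x₀⁻¹ = c⁻¹ := by
      have e0 : x₀ * c⁻¹ * x₀⁻¹ = (x₀ * c * x₀⁻¹)⁻¹ := by group
      rw [e0, hfix]
    have hAi : ∀ i : ℕ, x₀ ^ i * a * (x₀ ^ i)⁻¹ = a * (c⁻¹) ^ i := by
      intro i
      induction i with
      | zero => simp
      | succ i ih =>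
        have e : x₀ ^ (i + 1) * a * (x₀ ^ (i + 1))⁻¹ =
            x₀ * (x₀ ^ i * a * (x₀ ^ i)⁻¹) * x₀⁻¹ := by
          rw [pow_succ']; group
        rw [e, ih]
        have e2 : x₀ * (a * c⁻¹ ^ i) * x₀⁻¹ = (x₀ * a * x₀⁻¹) * (x₀ * c⁻¹ * x₀⁻¹) ^ i := by
          rw [conj_pow]; group
        rw [e2, hA1, hfixinv, pow_succ', mul_assoc]
    have h7 := hAi p
    rw [hx₀p, one_mul, inv_one, mul_one] at h7
    have h8 : (c⁻¹) ^ p = 1 :=
      mul_left_cancel (a := a) (by rw [mul_one]; exact h7.symm)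
    have h9 : c ^ p = 1 := by rw [inv_pow, inv_eq_one] at h8; exact h8
    obtain ⟨j, hj⟩ := hQ ⟨c, hcQ⟩
    have hj' : c ^ q ^ j = 1 := congrArg Subtype.val hj
    have h10 : orderOf c ∣ p := orderOf_dvd_of_pow_eq_one h9
    have h11 : orderOf c ∣ q ^ j := orderOf_dvd_of_pow_eq_one hj'
    have h12 : orderOf c = 1 := by
      rcases (Nat.dvd_prime hp).mp h10 with h | h
      · exact h
      · exfalso
        rw [h] at h11
        exact hqp ((Nat.prime_dvd_prime_iff_eq hp hq).mp (hp.dvd_of_dvd_pow h11)).symm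
    exact orderOf_eq_one_iff.mp h12

theorem exists_inv_sylow {H : Type*} [Group H] [Finite H] (p : ℕ) [Fact p.Prime] (L : Subgroup H)
    [hLn : L.Normal] (hL : (Nat.card L).Coprime p) (x : H) (hx : ∃ j : ℕ, x ^ (p ^ j) = 1)
    (q : ℕ) [Fact q.Prime] :
    ∃ P : Sylow q ↥L, ∀ a : ↥L, a ∈ P → (⟨x * a * x⁻¹, hLn.conj_mem a a.2 x⟩ : ↥L) ∈ P := by
  classical
  obtain ⟨j, hj⟩ := hx
  obtain ⟨c, hcdef⟩ : ∃ c : MulAut ↥L, c = MulAut.conjNormal x := ⟨_, rfl⟩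
  have hc : c ^ (p ^ j) = 1 := by
    rw [hcdef, ← map_pow, hj, map_one]
  have hX : IsPGroup p (Subgroup.zpowers c) := by
    rintro ⟨w, hw⟩
    obtain ⟨k, rfl⟩ := Subgroup.mem_zpowers_iff.mp hw
    refine ⟨j, Subtype.ext ?_⟩
    show (c ^ k) ^ p ^ j = 1
    rw [← zpow_natCast, ← zpow_mul, mul_comm, zpow_mul, zpow_natCast, hc, one_zpow]
  have hcard : ¬ p ∣ Nat.card (Sylow q ↥L) := by
    intro hdvd
    obtain ⟨P0⟩ : Nonempty (Sylow q ↥L) := inferInstance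
    have h1 : Nat.card (Sylow q ↥L) ∣ Nat.card ↥L :=
      (Sylow.card_dvd_index P0).trans (Subgroup.index_dvd_card _)
    exact (Nat.Prime.coprime_iff_not_dvd Fact.out).mp hL.symm (hdvd.trans h1)
  obtain ⟨P, hP⟩ := hX.nonempty_fixed_point_of_prime_not_dvd_card (Sylow q ↥L) hcard
  refine ⟨P, ?_⟩
  intro a ha
  have h2 : c • P = P := hP ⟨c, Subgroup.mem_zpowers c⟩
  have h3 : c • a ∈ ((c • P : Sylow q ↥L) : Subgroup ↥L) := by
    rw [Sylow.pointwise_smul_def]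
    exact Subgroup.smul_mem_pointwise_smul a c _ ha
  rw [h2] at h3
  have e : (⟨x * a * x⁻¹, hLn.conj_mem a a.2 x⟩ : ↥L) = c • a := by
    apply Subtype.ext
    rw [hcdef, MulAut.smul_def, MulAut.conjNormal_apply]
  rw [e]; exact h3

theorem exists_noncentral_inv {H : Type*} [Group H] [Finite H] (p : ℕ) [Fact p.Prime]
    (L : Subgroup H) [hLn : L.Normal] (hL : (Nat.card L).Coprime p) (x : H)
    (hx : ∃ j : ℕ, x ^ (p ^ j) = 1) (x₀ : H) (hnc : ¬ ∀ l ∈ L, x₀ * l = l * x₀) :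
    ∃ (q : ℕ) (_ : Fact q.Prime) (Q : Subgroup H), Q ≤ L ∧ IsPGroup q Q ∧
      (∀ a ∈ Q, x * a * x⁻¹ ∈ Q) ∧ ¬ ∀ a ∈ Q, x₀ * a = a * x₀ := by
  classical
  by_contra hcon
  push_neg at hcon
  apply hnc
  obtain ⟨C, hC⟩ : ∃ C : Subgroup H, C = L ⊓ Subgroup.centralizer {x₀} := ⟨_, rfl⟩
  have hCL : C ≤ L := by rw [hC]; exact inf_le_left
  have hdvd : Nat.card L ∣ Nat.card C := by
    rw [Nat.dvd_iff_prime_pow_dvd_dvd]
    intro q k hq hqk
    haveI hqF : Fact q.Prime := ⟨hq⟩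
    obtain ⟨P, hP⟩ := exists_inv_sylow p L hL x hx q
    obtain ⟨Q, hQ⟩ : ∃ Q : Subgroup H, Q = (P : Subgroup ↥L).map L.subtype := ⟨_, rfl⟩
    have hQL : Q ≤ L := by rw [hQ]; exact Subgroup.map_subtype_le _
    have hQq : IsPGroup q Q := by rw [hQ]; exact P.isPGroup'.map _
    have hQx : ∀ a ∈ Q, x * a * x⁻¹ ∈ Q := by
      intro a ha
      rw [hQ] at ha ⊢
      obtain ⟨a', ha', rfl⟩ := Subgroup.mem_map.mp ha
      exact Subgroup.mem_map.mpr ⟨_, hP a' ha', rfl⟩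
    have hcent := hcon q hqF Q hQL hQq hQx
    have hQC : Q ≤ C := by
      intro a ha
      rw [hC]
      refine Subgroup.mem_inf.mpr ⟨hQL ha, ?_⟩
      rw [Subgroup.mem_centralizer_iff]
      intro s hs
      rw [Set.mem_singleton_iff.mp hs]
      exact hcent a ha
    have h1 : q ^ k ∣ Nat.card Q := by
      rw [hQ, Subgroup.card_subtype]
      exact P.pow_dvd_card_of_pow_dvd_card hqk
    exact h1.trans (Subgroup.card_dvd_of_le hQC)
  have hCeq : C = L := by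
    apply Subgroup.eq_of_le_of_card_ge hCL
    exact Nat.le_of_dvd Nat.card_pos hdvd
  intro l hl
  rw [← hCeq, hC] at hl
  have h7 := (Subgroup.mem_inf.mp hl).2
  rw [Subgroup.mem_centralizer_iff] at h7
  exact h7 x₀ rfl

theorem mem_smul_sylow {G : Type*} [Group G] {p : ℕ} (g : G) (Q : Sylow p G) (z : G) :
    z ∈ ((g • Q : Sylow p G) : Subgroup G) ↔ g⁻¹ * z * g ∈ (Q : Subgroup G) := by
  rw [Sylow.smul_def, Sylow.pointwise_smul_def]
  show z ∈ MulAut.conj g • (Q : Subgroup G) ↔ _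
  rw [Subgroup.mem_pointwise_smul_iff_inv_smul_mem, MulAut.smul_def, MulAut.conj_inv_apply]

/-- Sylow conjugacy inside a subgroup (after helper21's `sylRel` in `Cfsg.Agent.S4355`). -/
theorem sylRel {G : Type*} [Group G] [Finite G] (p : ℕ) [Fact p.Prime] (X A B : Subgroup G)
    (hAX : A ≤ X) (hA : IsPGroup p A)
    (hmax : ∀ B' : Subgroup G, IsPGroup p B' → A ≤ B' → B' ≤ X → B' = A)
    (hBX : B ≤ X) (hB : IsPGroup p B) :
    ∃ c ∈ X, ∀ b ∈ B, c * b * c⁻¹ ∈ A := by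
  have hA' : IsPGroup p (A.subgroupOf X) := by
    apply hA.comap_of_injective
    exact Subgroup.subtype_injective X
  have hSA : ∃ Q : Sylow p ↥X, (Q : Subgroup ↥X) = A.subgroupOf X := by
    refine ⟨⟨A.subgroupOf X, hA', ?_⟩, rfl⟩
    intro Q hQ hle
    have h1 : IsPGroup p (Q.map X.subtype) := hQ.map _
    have h2 : A ≤ Q.map X.subtype := by
      intro a ha
      exact ⟨⟨a, hAX ha⟩, hle (Subgroup.mem_subgroupOf.mpr ha), rfl⟩
    have h3 : Q.map X.subtype ≤ X := by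
      rintro _ ⟨y, _, rfl⟩; exact y.2
    have h4 := hmax _ h1 h2 h3
    ext y
    constructor
    · intro hy
      rw [Subgroup.mem_subgroupOf, ← h4]
      exact ⟨y, hy, rfl⟩
    · intro hy; exact hle hy
  obtain ⟨SA, hSA⟩ := hSA
  have hB' : IsPGroup p (B.subgroupOf X) := by
    apply hB.comap_of_injective
    exact Subgroup.subtype_injective X
  obtain ⟨Q, hQ⟩ := hB'.exists_le_sylow
  obtain ⟨g, hg⟩ := MulAction.exists_smul_eq (↥X) Q SA
  refine ⟨g, g.2, ?_⟩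
  intro b hb
  have h1 : (⟨b, hBX hb⟩ : ↥X) ∈ (Q : Subgroup ↥X) := hQ (Subgroup.mem_subgroupOf.mpr hb)
  have h2 : g * (⟨b, hBX hb⟩ : ↥X) * g⁻¹ ∈ ((g • Q : Sylow p ↥X) : Subgroup ↥X) := by
    rw [mem_smul_sylow]
    have e : g⁻¹ * (g * (⟨b, hBX hb⟩ : ↥X) * g⁻¹) * g = ⟨b, hBX hb⟩ := by group
    rw [e]; exact h1
  rw [hg, hSA, Subgroup.mem_subgroupOf] at h2
  exact h2

theorem zpowers_isPGroup {H : Type*} [Group H] (p : ℕ) (z : H) (j : ℕ) (hj : z ^ (p ^ j) = 1) :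
    IsPGroup p (Subgroup.zpowers z) := by
  rintro ⟨w, hw⟩
  obtain ⟨k, rfl⟩ := Subgroup.mem_zpowers_iff.mp hw
  refine ⟨j, Subtype.ext ?_⟩
  show (z ^ k) ^ p ^ j = 1
  rw [← zpow_natCast, ← zpow_mul, mul_comm, zpow_mul, zpow_natCast, hj, one_zpow]

theorem pelem_lift {G : Type*} [Group G] [Finite G] {H : Type*} [Group H] (p : ℕ) [Fact p.Prime]
    (f : G →* H) (hf : Function.Surjective f) (z : H) (hz : ∃ j : ℕ, z ^ (p ^ j) = 1) :
    ∃ y : G, f y = z ∧ ∃ j : ℕ, y ^ (p ^ j) = 1 := by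
  haveI : Finite H := Finite.of_surjective f hf
  obtain ⟨j, hj⟩ := hz
  have hX : IsPGroup p (Subgroup.zpowers z) := zpowers_isPGroup p z j hj
  obtain ⟨S, hS⟩ := hX.exists_le_sylow
  obtain ⟨S0, hS0⟩ := Sylow.mapSurjective_surjective hf p S
  have hz' : z ∈ (S0 : Subgroup G).map f := by
    have h1 : z ∈ ((S0.mapSurjective hf : Sylow p H) : Subgroup H) := by
      rw [hS0]; exact hS (Subgroup.mem_zpowers z)
    exact h1
  obtain ⟨y, hy, hyz⟩ := Subgroup.mem_map.mp hz'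
  obtain ⟨i, hi⟩ := S0.isPGroup' ⟨y, hy⟩
  exact ⟨y, hyz, i, congrArg Subtype.val hi⟩

theorem hexp_quot {G : Type*} [Group G] [Finite G] {H : Type*} [Group H] (p : ℕ) [Fact p.Prime]
    (f : G →* H) (hf : Function.Surjective f) (k : ℕ)
    (hexp : ∀ y : G, (∃ j : ℕ, y ^ (p ^ j) = 1) → y ^ (p ^ k) = 1) :
    ∀ z : H, (∃ j : ℕ, z ^ (p ^ j) = 1) → z ^ (p ^ k) = 1 := by
  intro z hz
  obtain ⟨y, rfl, hy⟩ := pelem_lift p f hf z hz
  rw [← map_pow, hexp y hy, map_one]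

theorem exp_elem {G : Type*} [Group G] [Finite G] (p : ℕ) [Fact p.Prime] (n : ℕ)
    (hexp : ∀ (P : Sylow p G), ∀ x ∈ (P : Subgroup G), x ^ p ^ n = 1) :
    ∀ y : G, (∃ j : ℕ, y ^ (p ^ j) = 1) → y ^ (p ^ n) = 1 := by
  rintro y ⟨j, hj⟩
  have hX : IsPGroup p (Subgroup.zpowers y) := zpowers_isPGroup p y j hj
  obtain ⟨S, hS⟩ := hX.exists_le_sylow
  exact hexp S y (hS (Subgroup.mem_zpowers y))

theorem hab_quot {G : Type*} [Group G] [Finite G] {H : Type*} [Group H] (p : ℕ)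
    (f : G →* H) (hf : Function.Surjective f)
    (hab : ∀ (q : ℕ) [Fact q.Prime], q ≠ p → ∀ Q : Sylow q G, ∀ a ∈ Q, ∀ b ∈ Q, a * b = b * a) :
    ∀ (q : ℕ) [Fact q.Prime], q ≠ p → ∀ Q : Sylow q H, ∀ a ∈ Q, ∀ b ∈ Q, a * b = b * a := by
  intro q _ hq Q a ha b hb
  haveI : Finite H := Finite.of_surjective f hf
  obtain ⟨S0, hS0⟩ := Sylow.mapSurjective_surjective hf q Q
  have ha' : a ∈ (S0 : Subgroup G).map f := by
    have h1 : a ∈ ((S0.mapSurjective hf : Sylow q H) : Subgroup H) := by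
      rw [hS0]; exact ha
    exact h1
  have hb' : b ∈ (S0 : Subgroup G).map f := by
    have h1 : b ∈ ((S0.mapSurjective hf : Sylow q H) : Subgroup H) := by
      rw [hS0]; exact hb
    exact h1
  obtain ⟨a0, ha0, rfl⟩ := Subgroup.mem_map.mp ha'
  obtain ⟨b0, hb0, rfl⟩ := Subgroup.mem_map.mp hb'
  rw [← map_mul, ← map_mul, hab q hq S0 a0 ha0 b0 hb0]

theorem pow_conj_mem {H : Type*} [Group H] (Q : Subgroup H) (x : H)
    (hx : ∀ a ∈ Q, x * a * x⁻¹ ∈ Q) (k : ℕ) : ∀ a ∈ Q, x ^ k * a * (x ^ k)⁻¹ ∈ Q := by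
  induction k with
  | zero => intro a ha; simpa using ha
  | succ k ih =>
    intro a ha
    have e : x ^ (k + 1) * a * (x ^ (k + 1))⁻¹ = x * (x ^ k * a * (x ^ k)⁻¹) * x⁻¹ := by
      rw [pow_succ']; group
    rw [e]; exact hx _ (ih a ha)

theorem cent_frat {G : Type u} [Group G] [Finite G] (p : ℕ) [Fact p.Prime]
    (hG : Cfsg.IsPSolvable p G) (hbot : Cfsg.pPrimeCore p G = ⊥)
    (R : Subgroup G) (hRdef : R = Cfsg.pCore p G)
    (Φ : Subgroup G) (hΦdef : Φ = (frattini ↥R).map R.subtype)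
    (c : G) (hc : ∀ r ∈ R, c * r * c⁻¹ * r⁻¹ ∈ Φ) : c ∈ R := by
  classical
  have hp : p.Prime := Fact.out
  haveI hRn : R.Normal := by rw [hRdef]; exact Cfsg.Agent.Lib.helper15.pCore_normal p G
  have hRp : IsPGroup p R := by rw [hRdef]; exact Cfsg.Agent.Lib.helper15.pCore_isPGroup p G
  have hCR : Subgroup.centralizer (R : Set G) ≤ R := by
    rw [hRdef]; exact Cfsg.Agent.Lib.helper16.centralizer_pCore_le_of_pSolvable hG hbot
  haveI hΦn : Φ.Normal := by rw [hΦdef]; infer_instance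
  obtain ⟨π, hπdef⟩ : ∃ π : G →* G ⧸ Φ, π = QuotientGroup.mk' Φ := ⟨_, rfl⟩
  have hπsurj : Function.Surjective π := by rw [hπdef]; exact QuotientGroup.mk'_surjective _
  have hπone : ∀ a : G, π a = 1 ↔ a ∈ Φ := by
    intro a
    rw [hπdef]
    exact QuotientGroup.eq_one_iff a
  obtain ⟨V, hVdef⟩ : ∃ V : Subgroup (G ⧸ Φ), V = R.map π := ⟨_, rfl⟩
  haveI hVn : V.Normal := by rw [hVdef]; exact Subgroup.Normal.map hRn π hπsurj
  have hVmem : ∀ v, v ∈ V ↔ ∃ r ∈ R, π r = v := by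
    intro v; rw [hVdef]; exact Subgroup.mem_map
  obtain ⟨C, hCdef⟩ : ∃ C : Subgroup G,
      C = (Subgroup.centralizer (V : Set (G ⧸ Φ))).comap π := ⟨_, rfl⟩
  haveI hCn : C.Normal := by rw [hCdef]; infer_instance
  have hCmem : ∀ c ∈ C, ∀ r ∈ R, c * r * c⁻¹ * r⁻¹ ∈ Φ := by
    intro c hc r hr
    rw [hCdef, Subgroup.mem_comap, Subgroup.mem_centralizer_iff] at hc
    have h7 := hc (π r) ((hVmem _).mpr ⟨r, hr, rfl⟩)
    rw [← hπone, map_mul, map_mul, map_mul, map_inv, map_inv, ← h7]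
    group
  have hCp : IsPGroup p C := by
    apply IsPGroup.of_card (n := (Nat.card C).primeFactorsList.length)
    apply Nat.eq_prime_pow_of_unique_prime_dvd Nat.card_pos.ne'
    intro q hq hqd
    by_contra hne
    haveI : Fact q.Prime := ⟨hq⟩
    obtain ⟨c, hc⟩ := exists_prime_orderOf_dvd_card' q hqd
    have hcq : (c : G) ^ q = 1 := by
      have h7 := pow_orderOf_eq_one c
      rw [hc] at h7
      exact congrArg Subtype.val h7
    have hcent := Cfsg.Agent.S3788.burnside_prime p R hRp Φ hΦdef (c : G) q hq hne hcq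
      (hCmem c c.2)
    have hcR : (c : G) ∈ R := by
      apply hCR
      rw [Subgroup.mem_centralizer_iff]
      intro r hr
      exact (hcent r hr).symm
    obtain ⟨j, hj⟩ := hRp ⟨c, hcR⟩
    have hj' : (c : G) ^ p ^ j = 1 := congrArg Subtype.val hj
    have h7 : orderOf (c : G) ∣ p ^ j := orderOf_dvd_of_pow_eq_one hj'
    rw [Subgroup.orderOf_coe, hc] at h7
    exact hne ((Nat.prime_dvd_prime_iff_eq hq hp).mp (hq.dvd_of_dvd_pow h7))
  have hCle : C ≤ R := by rw [hRdef]; exact Cfsg.Agent.Lib.helper15.le_pCore hCn hCp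
  apply hCle
  rw [hCdef, Subgroup.mem_comap, Subgroup.mem_centralizer_iff]
  intro v hv
  obtain ⟨r, hr, rfl⟩ := (hVmem v).mp hv
  have h7 := (hπone _).mpr (hc r hr)
  rw [map_mul, map_mul, map_mul, map_inv, map_inv] at h7
  exact (mul_inv_eq_iff_eq_mul.mp (mul_inv_eq_one.mp h7)).symm

open scoped commutatorElement in
theorem lemK {G : Type u} [Group G] [Finite G] (p : ℕ) [Fact p.Prime]
    (hG : Cfsg.IsPSolvable p G) (hbot : Cfsg.pPrimeCore p G = ⊥)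
    (hab : ∀ (q : ℕ) [Fact q.Prime], q ≠ p → ∀ Q : Sylow q G, ∀ a ∈ Q, ∀ b ∈ Q, a * b = b * a)
    (m : ℕ) (hexp : ∀ y : G, (∃ j : ℕ, y ^ (p ^ j) = 1) → y ^ (p ^ (m + 1)) = 1)
    (x : G) (hx : ∃ j : ℕ, x ^ (p ^ j) = 1) : x ^ (p ^ m) ∈ Cfsg.pCore p G := by
  classical
  have hp : p.Prime := Fact.out
  by_contra hcon
  obtain ⟨R, hRdef⟩ : ∃ R : Subgroup G, R = Cfsg.pCore p G := ⟨_, rfl⟩
  rw [← hRdef] at hcon
  haveI hRn : R.Normal := by rw [hRdef]; exact Cfsg.Agent.Lib.helper15.pCore_normal p G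
  have hRp : IsPGroup p R := by rw [hRdef]; exact Cfsg.Agent.Lib.helper15.pCore_isPGroup p G
  obtain ⟨π, hπdef⟩ : ∃ π : G →* G ⧸ R, π = QuotientGroup.mk' R := ⟨_, rfl⟩
  have hπsurj : Function.Surjective π := by rw [hπdef]; exact QuotientGroup.mk'_surjective _
  have hπone : ∀ a : G, π a = 1 ↔ a ∈ R := by
    intro a; rw [hπdef]; exact QuotientGroup.eq_one_iff a
  have hHbot : Cfsg.pCore p (G ⧸ R) = ⊥ := by
    subst hRdef
    exact Cfsg.Agent.Lib.helper3.pCore_quot_pCore_eq_bot p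
  have hHsol : Cfsg.IsPSolvable p (G ⧸ R) :=
    Cfsg.Agent.Lib.helper16.isPSolvable_of_surjective π hπsurj hG
  obtain ⟨L, hLdef⟩ : ∃ L : Subgroup (G ⧸ R), L = Cfsg.pPrimeCore p (G ⧸ R) := ⟨_, rfl⟩
  haveI hLn : L.Normal := by rw [hLdef]; exact Cfsg.Agent.Lib.helper9.ppc_normal p _
  have hLc : (Nat.card L).Coprime p := by
    rw [hLdef]; exact Cfsg.Agent.Lib.helper9.pPrimeCore_coprime p _
  have hCL : Subgroup.centralizer (L : Set (G ⧸ R)) ≤ L := by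
    rw [hLdef]
    exact Cfsg.Agent.Lib.helper3.centralizer_pPrimeCore_le_of_pSolvable hHsol hHbot
  obtain ⟨xb, hxbdef⟩ : ∃ xb : G ⧸ R, xb = π x := ⟨_, rfl⟩
  obtain ⟨xb0, hxb0def⟩ : ∃ xb0 : G ⧸ R, xb0 = xb ^ (p ^ m) := ⟨_, rfl⟩
  have hxb0ne : xb0 ≠ 1 := by
    rw [hxb0def, hxbdef, ← map_pow]
    intro h
    exact hcon ((hπone _).mp h)
  have hxbexp : xb ^ (p ^ (m + 1)) = 1 := by
    rw [hxbdef, ← map_pow, hexp x hx, map_one]
  have hxb0p : xb0 ^ p = 1 := by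
    rw [hxb0def, ← pow_mul, ← pow_succ]; exact hxbexp
  have hxbp : ∃ j : ℕ, xb ^ (p ^ j) = 1 := ⟨m + 1, hxbexp⟩
  have hcomm : xb * xb0 = xb0 * xb := by
    rw [hxb0def, ← pow_succ', ← pow_succ]
  have hnc : ¬ ∀ l ∈ L, xb0 * l = l * xb0 := by
    intro h
    have h1 : xb0 ∈ L := by
      apply hCL
      rw [Subgroup.mem_centralizer_iff]
      intro l hl
      exact (h l hl).symm
    have h2 : orderOf xb0 ∣ p := orderOf_dvd_of_pow_eq_one hxb0p
    have h3 : orderOf xb0 ∣ Nat.card L := by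
      have h := orderOf_dvd_natCard (⟨xb0, h1⟩ : ↥L)
      rw [← Subgroup.orderOf_coe] at h
      exact h
    have h5 : Nat.Coprime (orderOf xb0) p := Nat.Coprime.coprime_dvd_left h3 hLc
    have h6 : orderOf xb0 = 1 := Nat.Coprime.eq_one_of_dvd h5 h2
    exact hxb0ne (orderOf_eq_one_iff.mp h6)
  obtain ⟨q, hqF, Qb, hQbL, hQbq, hQbx, hQbnc⟩ :=
    exists_noncentral_inv p L hLc xb hxbp xb0 hnc
  haveI := hqF
  have hq : q.Prime := Fact.out
  have hqp : q ≠ p := by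
    intro hqp'
    rw [hqp'] at hQbq
    apply hQbnc
    intro a ha
    obtain ⟨j, hj⟩ := hQbq ⟨a, ha⟩
    have hj' : a ^ p ^ j = 1 := congrArg Subtype.val hj
    have h2 : orderOf a ∣ p ^ j := orderOf_dvd_of_pow_eq_one hj'
    have h3 : orderOf a ∣ Nat.card L := by
      have h := orderOf_dvd_natCard (⟨a, hQbL ha⟩ : ↥L)
      rw [← Subgroup.orderOf_coe] at h
      exact h
    have h5 : Nat.Coprime (orderOf a) (p ^ j) :=
      Nat.Coprime.pow_right j (Nat.Coprime.coprime_dvd_left h3 hLc)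
    have h6 : orderOf a = 1 := Nat.Coprime.eq_one_of_dvd h5 h2
    rw [orderOf_eq_one_iff.mp h6]; simp
  have hQbab : ∀ a ∈ Qb, ∀ b ∈ Qb, a * b = b * a := by
    obtain ⟨S, hS⟩ := hQbq.exists_le_sylow
    intro a ha b hb
    exact hab_quot p π hπsurj hab q hqp S a (hS ha) b (hS hb)
  have hxb0Q : ∀ a ∈ Qb, xb0 * a * xb0⁻¹ ∈ Qb := by
    intro a ha; rw [hxb0def]; exact pow_conj_mem Qb xb hQbx _ a ha
  obtain ⟨Q1, hQ1le, hQ1ne, hQ1x, hQ1free⟩ :=
    fpf_sub p q hqp Qb hQbq hQbab xb xb0 hcomm hxb0p hQbx hxb0Q hQbnc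
  have hfreeH : ∀ a ∈ Q1, a ≠ 1 → ∀ i : ℕ, 0 < i → i < p ^ (m + 1) →
      xb ^ i * a * (xb ^ i)⁻¹ ≠ a := by
    intro a ha hane i hi0 hi h
    obtain ⟨e, he⟩ := pow_reach p xb m hxbexp i hi0 hi
    have hc : Commute (xb ^ i) a := mul_inv_eq_iff_eq_mul.mp h
    have hc' : Commute ((xb ^ i) ^ e) a := hc.pow_left e
    rw [he, ← hxb0def] at hc'
    exact hane (hQ1free a ha (mul_inv_eq_iff_eq_mul.mpr hc'.eq))
  have hQ1q : IsPGroup q Q1 := hQbq.to_le hQ1le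
  obtain ⟨D, hDdef⟩ : ∃ D : Subgroup G, D = Q1.comap π := ⟨_, rfl⟩
  obtain ⟨Qs⟩ : Nonempty (Sylow q ↥D) := inferInstance
  obtain ⟨A, hAdef⟩ : ∃ A : Subgroup G, A = (Qs : Subgroup ↥D).map D.subtype := ⟨_, rfl⟩
  have hAD : A ≤ D := by rw [hAdef]; exact Subgroup.map_subtype_le _
  have hAq : IsPGroup q A := by rw [hAdef]; exact Qs.isPGroup'.map _
  have hAmax : ∀ B' : Subgroup G, IsPGroup q B' → A ≤ B' → B' ≤ D → B' = A := by
    intro B' hB' hAB' hB'D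
    have h1 : IsPGroup q (B'.subgroupOf D) := by
      apply hB'.comap_of_injective
      exact Subgroup.subtype_injective D
    have h2 : (Qs : Subgroup ↥D) ≤ B'.subgroupOf D := by
      intro z hz
      rw [Subgroup.mem_subgroupOf]
      apply hAB'
      rw [hAdef]
      exact Subgroup.mem_map.mpr ⟨z, hz, rfl⟩
    have h3 := Qs.is_maximal' h1 h2
    apply le_antisymm _ hAB'
    intro b hb
    have h4 : (⟨b, hB'D hb⟩ : ↥D) ∈ B'.subgroupOf D := by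
      rw [Subgroup.mem_subgroupOf]; exact hb
    rw [h3] at h4
    rw [hAdef]
    exact Subgroup.mem_map.mpr ⟨_, h4, rfl⟩
  have hπA : ∀ b ∈ Q1, ∃ a ∈ A, π a = b := by
    subst hDdef
    have hsurj' : Function.Surjective (π.subgroupComap Q1) :=
      π.subgroupComap_surjective_of_surjective Q1 hπsurj
    have h1 := (Qs.mapSurjective hsurj').is_maximal' (hQ1q.to_subgroup ⊤) le_top
    have h1' : (⊤ : Subgroup ↥Q1) = (Qs : Subgroup _).map (π.subgroupComap Q1) := h1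
    intro b hb
    have h2 : (⟨b, hb⟩ : ↥Q1) ∈ (Qs : Subgroup _).map (π.subgroupComap Q1) := by
      rw [← h1']; exact Subgroup.mem_top _
    obtain ⟨z, hz, hzb⟩ := Subgroup.mem_map.mp h2
    refine ⟨(z : G), ?_, ?_⟩
    · rw [hAdef]; exact Subgroup.mem_map.mpr ⟨z, hz, rfl⟩
    · exact congrArg Subtype.val hzb
  have hAR : ∀ a ∈ A, a ∈ R → a = 1 := by
    intro a ha haR
    have hdis := IsPGroup.disjoint_of_ne q p hqp A R hAq hRp
    exact Subgroup.disjoint_def.mp hdis ha haR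
  obtain ⟨B, hBdef⟩ : ∃ B : Subgroup G, B = A.map (MulAut.conj x).toMonoidHom := ⟨_, rfl⟩
  have hBmem : ∀ a ∈ A, x * a * x⁻¹ ∈ B := by
    intro a ha; rw [hBdef]; exact Subgroup.mem_map.mpr ⟨a, ha, rfl⟩
  have hAπ : ∀ a ∈ A, π a ∈ Q1 := by
    intro a ha
    have h1 := hAD ha
    rw [hDdef, Subgroup.mem_comap] at h1
    exact h1
  have hBD : B ≤ D := by
    rw [hBdef]
    rintro _ ⟨a, ha, rfl⟩
    rw [hDdef, Subgroup.mem_comap]
    show π (x * a * x⁻¹) ∈ Q1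
    rw [map_mul, map_mul, map_inv, ← hxbdef]
    exact hQ1x _ (hAπ a ha)
  have hBq : IsPGroup q B := by rw [hBdef]; exact hAq.map _
  obtain ⟨c, hcD, hc⟩ := sylRel q D A B hAD hAq hAmax hBD hBq
  have hπc : π c ∈ Q1 := by rw [hDdef, Subgroup.mem_comap] at hcD; exact hcD
  obtain ⟨a0, ha0, ha0c⟩ := hπA (π c) hπc
  obtain ⟨r, hrdef⟩ : ∃ r : G, r = a0⁻¹ * c := ⟨_, rfl⟩
  have hrR : r ∈ R := by
    rw [← hπone, hrdef, map_mul, map_inv, ha0c, inv_mul_cancel]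
  obtain ⟨x', hx'def⟩ : ∃ x' : G, x' = r * x := ⟨_, rfl⟩
  have hx'A : ∀ a ∈ A, x' * a * x'⁻¹ ∈ A := by
    intro a ha
    have e : x' * a * x'⁻¹ = a0⁻¹ * (c * (x * a * x⁻¹) * c⁻¹) * a0⁻¹⁻¹ := by
      rw [hx'def, hrdef]; group
    rw [e]
    exact A.mul_mem (A.mul_mem (A.inv_mem ha0) (hc _ (hBmem a ha))) (A.inv_mem (A.inv_mem ha0))
  have hπx' : π x' = xb := by
    rw [hx'def, map_mul, (hπone r).mpr hrR, one_mul, hxbdef]
  have hcoset : ∀ r' ∈ R, (r' * x') ^ (p ^ (m + 1)) = 1 := by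
    intro r' hr'
    apply hexp
    have h1 : (r' * x') ^ (p ^ (m + 1)) ∈ R := by
      rw [← hπone, map_pow, map_mul, (hπone r').mpr hr', one_mul, hπx', hxbexp]
    obtain ⟨j, hj⟩ := hRp ⟨_, h1⟩
    have hj' : ((r' * x') ^ (p ^ (m + 1))) ^ (p ^ j) = 1 := congrArg Subtype.val hj
    exact ⟨m + 1 + j, by rw [pow_add, pow_mul]; exact hj'⟩
  obtain ⟨Φ, hΦdef⟩ : ∃ Φ : Subgroup G, Φ = (frattini ↥R).map R.subtype := ⟨_, rfl⟩
  haveI hΦn : Φ.Normal := by rw [hΦdef]; infer_instance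
  have hΦR : Φ ≤ R := by rw [hΦdef]; exact Subgroup.map_subtype_le _
  have hcommΦ : ∀ r ∈ R, ∀ s ∈ R, r * s * r⁻¹ * s⁻¹ ∈ Φ := by
    intro r hr s hs
    rw [hΦdef]
    refine Subgroup.mem_map.mpr ⟨⁅(⟨r, hr⟩ : ↥R), ⟨s, hs⟩⁆, ?_, ?_⟩
    · apply Cfsg.Agent.Lib.helper1.commutator_le_frattini p hRp
      rw [commutator_def]
      exact Subgroup.commutator_mem_commutator (Subgroup.mem_top _) (Subgroup.mem_top _)
    · rw [commutatorElement_def]; rfl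
  obtain ⟨φ, hφdef⟩ : ∃ φ : G →* G ⧸ Φ, φ = QuotientGroup.mk' Φ := ⟨_, rfl⟩
  have hφsurj : Function.Surjective φ := by rw [hφdef]; exact QuotientGroup.mk'_surjective _
  have hφone : ∀ a : G, φ a = 1 ↔ a ∈ Φ := by
    intro a; rw [hφdef]; exact QuotientGroup.eq_one_iff a
  obtain ⟨V, hVdef⟩ : ∃ V : Subgroup (G ⧸ Φ), V = R.map φ := ⟨_, rfl⟩
  haveI hVn : V.Normal := by rw [hVdef]; exact Subgroup.Normal.map hRn φ hφsurj
  have hVmem : ∀ v, v ∈ V ↔ ∃ r ∈ R, φ r = v := by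
    intro v; rw [hVdef]; exact Subgroup.mem_map
  have hVab : ∀ u ∈ V, ∀ v ∈ V, u * v = v * u := by
    intro u hu v hv
    obtain ⟨r, hr, rfl⟩ := (hVmem u).mp hu
    obtain ⟨s, hs, rfl⟩ := (hVmem v).mp hv
    have h7 := (hφone _).mpr (hcommΦ r hr s hs)
    rw [map_mul, map_mul, map_mul, map_inv, map_inv] at h7
    have h8 := mul_inv_eq_one.mp h7
    exact mul_inv_eq_iff_eq_mul.mp h8
  have hVp : IsPGroup p V := by rw [hVdef]; exact hRp.map φ
  obtain ⟨Qh, hQhdef⟩ : ∃ Qh : Subgroup (G ⧸ Φ), Qh = A.map φ := ⟨_, rfl⟩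
  have hQhmem : ∀ v, v ∈ Qh ↔ ∃ a ∈ A, φ a = v := by
    intro v; rw [hQhdef]; exact Subgroup.mem_map
  have hxQ : ∀ b ∈ Qh, φ x' * b * (φ x')⁻¹ ∈ Qh := by
    intro b hb
    obtain ⟨a, ha, rfl⟩ := (hQhmem b).mp hb
    rw [← map_inv, ← map_mul, ← map_mul]
    exact (hQhmem _).mpr ⟨_, hx'A a ha, rfl⟩
  have hxk : (φ x') ^ (p ^ (m + 1)) = 1 := by
    have h1 := hcoset 1 R.one_mem
    rw [one_mul] at h1
    rw [← map_pow, h1, map_one]
  have hfree : ∀ b ∈ Qh, b ≠ 1 → ∀ i : ℕ, 0 < i → i < p ^ (m + 1) →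
      (φ x') ^ i * b * ((φ x') ^ i)⁻¹ ≠ b := by
    intro b hb hbne i hi0 hi h
    obtain ⟨a, ha, rfl⟩ := (hQhmem b).mp hb
    have h1 : x' ^ i * a * (x' ^ i)⁻¹ * a⁻¹ ∈ Φ := by
      rw [← hφone, map_mul, map_mul, map_mul, map_inv, map_inv, map_pow, h, mul_inv_cancel]
    have h2 := (hπone _).mpr (hΦR h1)
    rw [map_mul, map_mul, map_mul, map_inv, map_inv, map_pow, hπx'] at h2
    have h3 : xb ^ i * π a * (xb ^ i)⁻¹ = π a := mul_inv_eq_one.mp h2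
    have h4 : π a ≠ 1 := by
      intro h5
      have h6 : a = 1 := hAR a ha ((hπone a).mp h5)
      apply hbne
      rw [h6, map_one]
    exact hfreeH (π a) (hAπ a ha) h4 i hi0 hi h3
  have hnorm : ∀ v ∈ V, (v * φ x') ^ (p ^ (m + 1)) = 1 := by
    intro v hv
    obtain ⟨r', hr', rfl⟩ := (hVmem v).mp hv
    rw [← map_mul, ← map_pow, hcoset r' hr', map_one]
  have hN := normLemma p V Qh hVab hVp (φ x') (m + 1) hxQ hxk hfree hnorm
  have hAone : ∀ a ∈ A, a = 1 := by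
    intro a ha
    apply hAR a ha
    apply cent_frat p hG hbot R hRdef Φ hΦdef a
    intro r hr
    have h1 := hN (φ a) ((hQhmem _).mpr ⟨a, ha, rfl⟩) (φ r) ((hVmem _).mpr ⟨r, hr, rfl⟩)
    rw [← hφone, map_mul, map_mul, map_mul, map_inv, map_inv, h1]
    group
  apply hQ1ne
  rw [eq_bot_iff]
  intro b hb
  obtain ⟨a, ha, rfl⟩ := hπA b hb
  rw [hAone a ha, map_one]; exact Subgroup.mem_bot.mpr rfl

theorem main (p : ℕ) [Fact p.Prime] : ∀ (n : ℕ) (G : Type u) [Group G] [Finite G],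
    Cfsg.IsPSolvable p G →
    (∀ (q : ℕ) [Fact q.Prime], q ≠ p → ∀ Q : Sylow q G, ∀ a ∈ Q, ∀ b ∈ Q, a * b = b * a) →
    (∀ y : G, (∃ j : ℕ, y ^ (p ^ j) = 1) → y ^ (p ^ n) = 1) → Cfsg.PLengthLE p n G := by
  have hp : p.Prime := Fact.out
  intro n
  induction n with
  | zero =>
    intro G _ _ hG hab hexp
    have hc : (Nat.card (⊤ : Subgroup G)).Coprime p := by
      rw [Subgroup.card_top, Nat.coprime_comm, Nat.Prime.coprime_iff_not_dvd hp]
      intro hdvd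
      obtain ⟨y, hy⟩ := exists_prime_orderOf_dvd_card' p hdvd
      have h1 : y ^ (p ^ 0) = 1 :=
        hexp y ⟨1, by rw [pow_one, ← hy]; exact pow_orderOf_eq_one y⟩
      rw [pow_zero, pow_one] at h1
      rw [h1, orderOf_one] at hy
      exact hp.one_lt.ne hy
    have h1 := Cfsg.Agent.Lib.helper19.PLen.le_ups_one p (⊤ : Subgroup G) hc
    show (upperPSeries p G (2 * 0 + 1)).1 = ⊤
    exact top_le_iff.mp h1
  | succ n ih =>
    intro G _ _ hG hab hexp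
    obtain ⟨K, hKdef⟩ : ∃ K : Subgroup G, K = Cfsg.pPrimeCore p G := ⟨_, rfl⟩
    haveI hKn : K.Normal := by rw [hKdef]; exact Cfsg.Agent.Lib.helper9.ppc_normal p G
    have hKc : (Nat.card K).Coprime p := by
      rw [hKdef]; exact Cfsg.Agent.Lib.helper9.pPrimeCore_coprime p G
    have hbot1 : Cfsg.pPrimeCore p (G ⧸ K) = ⊥ := by
      subst hKdef
      exact Cfsg.Agent.Lib.helper9.pPrimeCore_quotient_eq_bot p G
    have hs1 : Function.Surjective (QuotientGroup.mk' K) := QuotientGroup.mk'_surjective K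
    have hsol1 : Cfsg.IsPSolvable p (G ⧸ K) :=
      Cfsg.Agent.Lib.helper16.isPSolvable_of_surjective _ hs1 hG
    have hab1 := hab_quot p (QuotientGroup.mk' K) hs1 hab
    have hexp1 := hexp_quot p (QuotientGroup.mk' K) hs1 (n + 1) hexp
    have hK1 := lemK p hsol1 hbot1 hab1 n hexp1
    obtain ⟨R1, hR1def⟩ : ∃ R1 : Subgroup (G ⧸ K), R1 = Cfsg.pCore p (G ⧸ K) := ⟨_, rfl⟩
    haveI hR1n : R1.Normal := by rw [hR1def]; exact Cfsg.Agent.Lib.helper15.pCore_normal p _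
    have hR1p : IsPGroup p R1 := by
      rw [hR1def]; exact Cfsg.Agent.Lib.helper15.pCore_isPGroup p _
    have hs2 : Function.Surjective (QuotientGroup.mk' R1) := QuotientGroup.mk'_surjective R1
    have hsol2 : Cfsg.IsPSolvable p ((G ⧸ K) ⧸ R1) :=
      Cfsg.Agent.Lib.helper16.isPSolvable_of_surjective _ hs2 hsol1
    have hab2 := hab_quot p (QuotientGroup.mk' R1) hs2 hab1
    have hexp2 : ∀ z : (G ⧸ K) ⧸ R1, (∃ j : ℕ, z ^ (p ^ j) = 1) → z ^ (p ^ n) = 1 := by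
      intro z hz
      obtain ⟨y, rfl, hy⟩ := pelem_lift p (QuotientGroup.mk' R1) hs2 z hz
      rw [← map_pow]
      apply (QuotientGroup.eq_one_iff _).mpr
      rw [hR1def]; exact hK1 y hy
    have h2 := ih ((G ⧸ K) ⧸ R1) hsol2 hab2 hexp2
    have h3 : (⊤ : Subgroup (G ⧸ K)) ≤ (upperPSeries p (G ⧸ K) (2 * (1 + n) + 1)).1 := by
      apply Cfsg.Agent.Lib.helper19.PLen.radd p R1 ⊤ 1 n
      · refine le_trans ?_ (Cfsg.Agent.Lib.helper19.PLen.ups_le_succ p _ 2)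
        apply Cfsg.Agent.Lib.helper19.PLen.le_ups_odd p 1 Nat.not_even_one R1
        exact IsPGroup.iff_card.mp (hR1p.map _)
      · have h2' : (upperPSeries p ((G ⧸ K) ⧸ R1) (2 * n + 1)).1 = ⊤ := h2
        rw [h2']; exact le_top
    have h4 : (⊤ : Subgroup G) ≤ (upperPSeries p G (2 * (0 + (n + 1)) + 1)).1 := by
      apply Cfsg.Agent.Lib.helper19.PLen.radd p K ⊤ 0 (n + 1)
      · exact Cfsg.Agent.Lib.helper19.PLen.le_ups_one p K hKc
      · have e : 2 * (1 + n) + 1 = 2 * (n + 1) + 1 := by omega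
        rw [← e]
        exact le_trans le_top h3
    show (upperPSeries p G (2 * (n + 1) + 1)).1 = ⊤
    have e : 2 * (0 + (n + 1)) + 1 = 2 * (n + 1) + 1 := by omega
    rw [← e]
    exact top_le_iff.mp h4


/-- Let G be a finite p-soluble group in which, for every prime q ≠ p, the Sylow q-subgroups are abelian. If the Sylow p-subgroups of G have exponent dividing p^n, then G has p-length at most n. -/
theorem result {G : Type*} [Group G] [Finite G] {p : ℕ} [Fact p.Prime] (hG : Cfsg.IsPSolvable p G) (hab : ∀ (q : ℕ) [Fact q.Prime], q ≠ p → ∀ Q : Sylow q G, IsMulCommutative (Q : Subgroup G)) (n : ℕ) (hexp : ∀ (P : Sylow p G), ∀ x ∈ (P : Subgroup G), x ^ p ^ n = 1) : Cfsg.PLengthLE p n G := by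
  refine main p n G hG ?_ (exp_elem p n hexp)
  intro q _ hq Q a ha b hb
  exact congrArg Subtype.val ((hab q hq Q).is_comm.comm ⟨a, ha⟩ ⟨b, hb⟩)

end Cfsg.Agent.S3783
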