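import Cfsg.Statements.S3784
import Mathlib

set_option autoImplicit false
open Cfsg

namespace Cfsg.Agent.S3784


theorem odd_cofactor (q : ℕ) (hq : Odd q) : ∀ k : ℕ, ∃ s : ℕ, Odd s ∧ q ^ (2 * k + 1) + 1 = (q + 1) * s := by
  intro k
  induction k with
  | zero => exact ⟨1, odd_one, by simp⟩
  | succ k ih =>
    obtain ⟨s, hs, he⟩ := ih
    have hs1 : 1 ≤ s := hs.pos
    have hq1 : 1 ≤ q := hq.pos
    have hle : q ≤ q * q * s + 1 := by nlinarith
    refine ⟨q * q * s + 1 - q, ?_, ?_⟩
    · have h1 : Even (q * q * s + 1) := by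
        have : Odd (q * q * s) := (hq.mul hq).mul hs
        exact this.add_one
      exact Nat.Even.sub_odd hle h1 hq
    · have h2 : (q + 1) * (q * q * s + 1 - q) + (q + 1) * q = (q + 1) * (q * q * s + 1) := by
        rw [← mul_add, Nat.sub_add_cancel hle]
      have h3 : q ^ (2 * (k + 1) + 1) = q * q * q ^ (2 * k + 1) := by ring
      have h4 : q ^ (2 * (k + 1) + 1) + 1 + (q + 1) * q = (q + 1) * (q * q * s + 1) := by
        rw [h3]
        have : q * q * (q ^ (2 * k + 1) + 1) = q * q * ((q + 1) * s) := by rw [he]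
        nlinarith
      omega

theorem geom_odd (p a : ℕ) (hp : Odd p) (ha : Odd a) : Odd (∑ i ∈ Finset.range a, p ^ i) := by
  have key : ∀ n : ℕ, (∑ i ∈ Finset.range n, p ^ i) % 2 = n % 2 := by
    intro n
    induction n with
    | zero => simp
    | succ n ih =>
      rw [Finset.sum_range_succ, Nat.add_mod, ih, Nat.pow_mod, Nat.odd_iff.mp hp, one_pow]
      omega
  rw [Nat.odd_iff, key, Nat.odd_iff.mp ha]

theorem odd_dvd_two_pow (s n : ℕ) (hs : Odd s) (h : s ∣ 2 ^ n) : s = 1 := by
  obtain ⟨j, -, rfl⟩ := (Nat.dvd_prime_pow Nat.prime_two).1 h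
  rcases Nat.eq_zero_or_pos j with rfl | hj
  · simp
  · exfalso
    have : Even (2 ^ j) := (Nat.even_pow' hj.ne').2 even_two
    exact (Nat.not_even_iff_odd.2 hs) this


/-- Let p, q be primes and a, b positive integers with p^a = q^b + 1. Then either p = 2, b = 1, a is prime and q = 2^a − 1; or q = 2, a = 1, b is a power of 2 and p = 2^b + 1; or p^a = 9 and q^b = 8. -/
theorem result (p q a b : ℕ) (hp : p.Prime) (hq : q.Prime) (ha : 1 ≤ a) (hb : 1 ≤ b) (h : p ^ a = q ^ b + 1) : (p = 2 ∧ b = 1 ∧ a.Prime ∧ q + 1 = 2 ^ a) ∨ (q = 2 ∧ a = 1 ∧ (∃ m : ℕ, b = 2 ^ m) ∧ p = 2 ^ b + 1) ∨ (p ^ a = 9 ∧ q ^ b = 8) := by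
  rcases hp.eq_two_or_odd' with rfl | hpodd
  · -- p = 2
    left
    have hqodd : Odd q := by
      rcases hq.eq_two_or_odd' with rfl | h'
      · exfalso
        have h1 : Even (2 ^ a) := (Nat.even_pow' (by omega)).2 even_two
        have h2 : Even (2 ^ b) := (Nat.even_pow' (by omega)).2 even_two
        rw [h] at h1
        exact (Nat.not_even_iff_odd.2 h2.add_one) h1
      · exact h'
    have hq3 : 3 ≤ q := by
      have := hq.two_le
      rcases hqodd with ⟨t, rfl⟩
      omega
    have hb1 : b = 1 := by
      rcases Nat.even_or_odd b with hbe | hbo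
      · exfalso
        obtain ⟨c, rfl⟩ := hbe
        have hc : 1 ≤ c := by omega
        have h4 : 4 ≤ 2 ^ a := by
          rw [h]
          have : 3 ≤ q ^ (c + c) := le_trans hq3 (Nat.le_self_pow (by omega) q)
          omega
        have ha2 : 2 ≤ a := by
          by_contra hlt
          have : a = 1 := by omega
          subst this
          omega
        have h5 : 2 ^ a % 4 = 0 := by
          obtain ⟨e, rfl⟩ := Nat.exists_eq_add_of_le ha2
          rw [pow_add]; omega
        have h6 : q ^ (c + c) = (q ^ c) * (q ^ c) := by ring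
        have h7 : (q ^ c * q ^ c) % 4 = 0 ∨ (q ^ c * q ^ c) % 4 = 1 := by
          rw [Nat.mul_mod]
          have : q ^ c % 4 < 4 := Nat.mod_lt _ (by norm_num)
          interval_cases (q ^ c % 4) <;> simp
        rw [h, h6] at h5
        omega
      · obtain ⟨k, rfl⟩ := hbo
        obtain ⟨s, hs, he⟩ := odd_cofactor q hqodd k
        have hs1 : s = 1 := odd_dvd_two_pow s a hs ⟨q + 1, by rw [h, he, mul_comm]⟩
        subst hs1
        have h8 : q ^ (2 * k + 1) = q := by omega
        have h9 : q ^ (2 * k + 1) = q ^ 1 := by rw [h8, pow_one]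
        exact Nat.pow_right_injective hq.two_le h9
    subst hb1
    rw [pow_one] at h
    refine ⟨rfl, rfl, ?_, h.symm⟩
    have hne : a ≠ 1 := by
      rintro rfl
      omega
    have hP : (2 ^ a - 1).Prime := by
      have : 2 ^ a - 1 = q := by omega
      rw [this]; exact hq
    exact (Nat.prime_of_pow_sub_one_prime hne hP).2
  · -- p odd
    right
    have hq2 : q = 2 := by
      rcases hq.eq_two_or_odd' with rfl | h'
      · rfl
      · exfalso
        have h1 : Odd (p ^ a) := hpodd.pow
        have h2 : Odd (q ^ b) := h'.pow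
        rw [h] at h1
        exact (Nat.not_even_iff_odd.2 h1) h2.add_one
    subst hq2
    rcases Nat.even_or_odd a with hae | hao
    · right
      obtain ⟨k, rfl⟩ := hae
      have hk : 1 ≤ k := by omega
      have hpk : 2 ≤ p ^ k := le_trans hp.two_le (Nat.le_self_pow (by omega) p)
      have hfac : (p ^ k - 1) * (p ^ k + 1) = 2 ^ b := by
        have : p ^ (k + k) = p ^ k * p ^ k := by ring
        rw [this] at h
        have h1 : (p ^ k - 1) * (p ^ k + 1) + 1 = p ^ k * p ^ k := by
          obtain ⟨t, ht⟩ := Nat.exists_eq_add_of_le hpk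
          rw [ht]
          have : 2 + t - 1 = t + 1 := by omega
          rw [this]; ring
        omega
      obtain ⟨i, -, hi⟩ := (Nat.dvd_prime_pow Nat.prime_two).1 (Dvd.intro _ hfac)
      obtain ⟨j, -, hj⟩ := (Nat.dvd_prime_pow Nat.prime_two).1 (Dvd.intro_left _ hfac)
      have hij : 2 ^ j = 2 ^ i + 2 := by omega
      have hi1 : i = 1 := by
        rcases Nat.lt_or_ge i 1 with hi0 | hi1
        · exfalso
          have : i = 0 := by omega
          subst this
          have h3 : 2 ^ j = 3 := by simpa using hij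
          have : j ≠ 0 := by rintro rfl; simp at h3
          have h4 : Even (2 ^ j) := (Nat.even_pow' this).2 even_two
          rw [h3] at h4
          exact absurd h4 (by decide)
        · rcases Nat.lt_or_ge i 2 with hi2 | hi2
          · omega
          · exfalso
            obtain ⟨e, rfl⟩ := Nat.exists_eq_add_of_le hi2
            have h5 : 2 ^ (2 + e) % 4 = 0 := by rw [pow_add]; omega
            have h6 : 2 ^ j % 4 = 2 := by omega
            have hj1 : j < 2 := by
              by_contra hge
              obtain ⟨f, rfl⟩ := Nat.exists_eq_add_of_le (not_lt.mp hge)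
              have : 2 ^ (2 + f) % 4 = 0 := by rw [pow_add]; omega
              omega
            have h7 : 4 ≤ 2 ^ (2 + e) := by
              rw [pow_add]
              have : 1 ≤ 2 ^ e := Nat.one_le_two_pow
              omega
            interval_cases j <;> omega
      subst hi1
      have hpk3 : p ^ k = 3 := by omega
      have h9 : p ^ (k + k) = 9 := by
        have : p ^ (k + k) = p ^ k * p ^ k := by ring
        rw [this, hpk3]
      exact ⟨h9, by omega⟩
    · left
      have hS := geom_sum_mul_add (p - 1) a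
      have hp1 : p - 1 + 1 = p := Nat.sub_add_cancel hp.one_lt.le
      rw [hp1] at hS
      have hSodd : Odd (∑ i ∈ Finset.range a, p ^ i) := geom_odd p a hpodd hao
      have hS1 : (∑ i ∈ Finset.range a, p ^ i) = 1 :=
        odd_dvd_two_pow _ b hSodd ⟨p - 1, by omega⟩
      rw [hS1] at hS
      have hpa : p ^ a = p := by omega
      have ha1 : a = 1 := by
        have : p ^ a = p ^ 1 := by rw [hpa, pow_one]
        exact Nat.pow_right_injective hp.two_le this
      subst ha1
      rw [pow_one] at h
      refine ⟨rfl, rfl, ?_, h⟩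
      have hP : (2 ^ b + 1).Prime := by rw [← h]; exact hp
      exact Nat.pow_of_pow_add_prime (by norm_num) (by omega) hP

end Cfsg.Agent.S3784
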