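import Cfsg.Statements.S3785
import Mathlib
import Cfsg.Agent.S3736
import Cfsg.Agent.Lib.helper1.Fitting
import Cfsg.Agent.Lib.helper1.Solv

set_option autoImplicit false
open Cfsg

namespace Cfsg.Agent.S3785

universe u

open Cfsg.Agent.Lib.helper1

/-- a coprime automorphism group of a `p`-group (`p` odd) centralizing all elements of
order `p` is trivial -/
theorem omega_cent {X : Type u} [Group X] [Finite X] {p : ℕ} [Fact p.Prime] (hp : p ≠ 2)
    (P A : Subgroup X) (hP : IsPGroup p P) (hAP : A ≤ Subgroup.normalizer (P : Set X))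
    (hcop : (Nat.card A).Coprime p)
    (hΩ : ∀ x ∈ P, orderOf x = p → ∀ a ∈ A, a * x = x * a) : ⁅P, A⁆ = ⊥ := by
  by_contra hne
  let T : Set (Subgroup X) := {U | U ≤ P ∧ A ≤ Subgroup.normalizer (U : Set X) ∧ ⁅U, A⁆ ≠ ⊥}
  have hTfin : T.Finite := Set.toFinite T
  have hTne : T.Nonempty := ⟨P, le_refl _, hAP, hne⟩
  obtain ⟨U, hUT, hUmin⟩ := Set.exists_min_image T (fun U : Subgroup X => Nat.card U) hTfin hTne
  obtain ⟨hUP, hAU, hUne⟩ := hUT
  have hmin : ∀ V : Subgroup X, V < U → A ≤ Subgroup.normalizer (V : Set X) → ⁅V, A⁆ = ⊥ := by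
    intro V hV hAV
    by_contra hVne
    have h1 := hUmin V ⟨hV.le.trans hUP, hAV, hVne⟩
    have h2 : Nat.card V < Nat.card U := by
      rcases Nat.lt_or_ge (Nat.card V) (Nat.card U) with h1 | h1
      · exact h1
      · exact absurd (Subgroup.eq_of_le_of_card_ge hV.le h1) hV.ne
    omega
  obtain ⟨_, _, _, hexp⟩ := Cfsg.Agent.S3736.result A A U (hP.to_le hUP) hAU le_rfl
    Subgroup.le_normalizer hcop hUne hmin
  apply hUne
  rw [Subgroup.commutator_eq_bot_iff_le_centralizer]
  intro u hu
  rw [Subgroup.mem_centralizer_iff]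
  intro a ha
  by_cases hu1 : u = 1
  · rw [hu1]; simp
  · have hp' : p.Prime := Fact.out
    exact hΩ u (hUP hu) (orderOf_eq_prime (hexp hp u hu) hu1) a ha

theorem primary {G : Type u} [Group G] [Finite G] (S : Subgroup G) :
    ∀ n : ℕ, ∀ g : G, orderOf g = n →
      (∀ (r : ℕ) (k : ℕ) (y : G), r.Prime → y ∈ Subgroup.zpowers g → orderOf y = r ^ k → y ∈ S) →
      g ∈ S := by
  intro n
  induction n using Nat.recOnPosPrimePosCoprime with
  | prime_pow p k hp hk => intro g hg h; exact h p k g hp (Subgroup.mem_zpowers g) hg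
  | zero => intro g hg; exact absurd hg (orderOf_pos g).ne'
  | one => intro g hg _; rw [orderOf_eq_one_iff] at hg; rw [hg]; exact one_mem _
  | coprime a b ha hb hab iha ihb =>
    intro g hg h
    have hoa : orderOf (g ^ a) = b := by
      rw [orderOf_pow_of_dvd (by omega) (hg ▸ Dvd.intro _ rfl), hg]
      exact Nat.mul_div_cancel_left b (by omega)
    have hob : orderOf (g ^ b) = a := by
      rw [orderOf_pow_of_dvd (by omega) (hg ▸ Dvd.intro_left _ rfl), hg]
      exact Nat.mul_div_cancel a (by omega)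
    have h1 : g ^ a ∈ S := ihb (g ^ a) hoa (fun r k y hr hy ho =>
      h r k y hr (Subgroup.zpowers_le.mpr (Subgroup.pow_mem _ (Subgroup.mem_zpowers g) a) hy) ho)
    have h2 : g ^ b ∈ S := iha (g ^ b) hob (fun r k y hr hy ho =>
      h r k y hr (Subgroup.zpowers_le.mpr (Subgroup.pow_mem _ (Subgroup.mem_zpowers g) b) hy) ho)
    have hbez := Nat.gcd_eq_gcd_ab a b
    rw [hab] at hbez
    have hg' : g = (g ^ a) ^ (Nat.gcdA a b) * (g ^ b) ^ (Nat.gcdB a b) := by
      rw [← zpow_natCast, ← zpow_natCast, ← zpow_mul, ← zpow_mul, ← zpow_add, ← hbez]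
      simp
    rw [hg']
    exact S.mul_mem (S.zpow_mem h1 _) (S.zpow_mem h2 _)

/-- an element of prime power order of the Fitting subgroup lies in the corresponding core -/
theorem fitting_primary {G : Type u} [Group G] [Finite G] (y : G) (r k : ℕ) [Fact r.Prime]
    (hy : y ∈ Cfsg.fittingSubgroup G) (ho : orderOf y = r ^ k) : y ∈ Cfsg.pCore r G := by
  haveI : Group.IsNilpotent (Cfsg.fittingSubgroup G) := fitting_isNilpotent G
  have hFn : (Cfsg.fittingSubgroup G).Normal := fitting_normal G
  let y' : Cfsg.fittingSubgroup G := ⟨y, hy⟩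
  have hy' : IsPGroup r (Subgroup.zpowers y') := by
    rw [IsPGroup.iff_card]
    refine ⟨k, ?_⟩
    rw [Nat.card_zpowers, ← ho]
    exact (Subgroup.orderOf_mk y hy)
  obtain ⟨R, hR⟩ := hy'.exists_le_sylow
  haveI : (R : Subgroup (Cfsg.fittingSubgroup G)).Normal := inferInstance
  have hchar : (R : Subgroup (Cfsg.fittingSubgroup G)).Characteristic := R.characteristic_of_normal inferInstance
  have h1 := Cfsg.Agent.S3736.char_inv (Cfsg.fittingSubgroup G) (R : Subgroup (Cfsg.fittingSubgroup G)) hchar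
  have h2 : ((R : Subgroup (Cfsg.fittingSubgroup G)).map (Cfsg.fittingSubgroup G).subtype).Normal := by
    rw [← Subgroup.normalizer_eq_top_iff]
    rw [Subgroup.normalizer_eq_top_iff.mpr hFn] at h1
    exact top_le_iff.mp h1
  have h3 : IsPGroup r ((R : Subgroup (Cfsg.fittingSubgroup G)).map (Cfsg.fittingSubgroup G).subtype) :=
    R.2.map _
  exact le_pCore h2 h3 (Subgroup.mem_map.mpr ⟨y', hR (Subgroup.mem_zpowers y'), rfl⟩)

/-- Let G be a finite solvable group whose Fitting subgroup F(G) has odd order. If an element g of G commutes with every element of prime order of F(G), then g ∈ F(G). -/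
theorem result {G : Type*} [Group G] [Finite G] (hG : Group.IsSolvable G) (hodd : Odd (Nat.card (Cfsg.fittingSubgroup G))) (g : G) (hg : ∀ x ∈ Cfsg.fittingSubgroup G, (orderOf x).Prime → g * x = x * g) : g ∈ Cfsg.fittingSubgroup G := by
  classical
  haveI := hG
  set F := Cfsg.fittingSubgroup G with hFdef
  have hFn : F.Normal := fitting_normal G
  let Ω : Set G := {x | x ∈ F ∧ (orderOf x).Prime}
  let C : Subgroup G := Subgroup.centralizer Ω
  have hgC : g ∈ C := by
    rw [Subgroup.mem_centralizer_iff]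
    intro x hx
    exact (hg x hx.1 hx.2).symm
  have hCn : C.Normal := by
    constructor
    intro n hn a
    rw [Subgroup.mem_centralizer_iff] at hn ⊢
    intro x hx
    have hx' : a⁻¹ * x * a ∈ Ω := by
      refine ⟨by have := hFn.conj_mem x hx.1 a⁻¹; simpa using this, ?_⟩
      have h1 := MulEquiv.orderOf_eq (MulAut.conj a⁻¹) x
      rw [MulAut.conj_apply, inv_inv] at h1
      show (orderOf (a⁻¹ * x * a)).Prime
      rw [h1]; exact hx.2
    have h2 := hn _ hx'
    calc x * (a * n * a⁻¹) = a * ((a⁻¹ * x * a) * n) * a⁻¹ := by group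
      _ = a * (n * (a⁻¹ * x * a)) * a⁻¹ := by rw [h2]
      _ = a * n * a⁻¹ * x := by group
  -- the 2-core is trivial
  have h2core : Cfsg.pCore 2 G = ⊥ := by
    haveI : Fact (Nat.Prime 2) := ⟨Nat.prime_two⟩
    have h1 : Nat.card (Cfsg.pCore 2 G) ∣ Nat.card F :=
      Subgroup.card_dvd_of_le (pCore_le_fitting 2 G)
    obtain ⟨k, hk⟩ := IsPGroup.iff_card.mp (pCore_isPGroup 2 G)
    rw [hk] at h1
    have h3 : k = 0 := by
      by_contra hk0
      have : 2 ∣ Nat.card F := (dvd_pow_self 2 hk0).trans h1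
      exact (Nat.not_even_iff_odd.mpr hodd) (even_iff_two_dvd.mpr this)
    rw [h3, pow_zero] at hk
    exact Subgroup.card_eq_one.mp hk
  -- Claim 1
  have claim1 : ∀ (c : G), c ∈ C → ∀ (r k : ℕ), r.Prime → orderOf c = r ^ k →
      ∀ p : ℕ, p.Prime → p ≠ r → ∀ x ∈ Cfsg.pCore p G, c * x = x * c := by
    intro c hc r k hr hoc p hp hpr x hx
    by_cases hp2 : p = 2
    · subst hp2
      rw [h2core, Subgroup.mem_bot] at hx
      rw [hx]; simp
    · haveI : Fact p.Prime := ⟨hp⟩
      have hcop : (Nat.card (Subgroup.zpowers c)).Coprime p := by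
        rw [Nat.card_zpowers, hoc]
        exact Nat.Coprime.pow_left k ((Nat.coprime_primes hr hp).mpr (Ne.symm hpr))
      have hΩ : ∀ x ∈ Cfsg.pCore p G, orderOf x = p → ∀ a ∈ Subgroup.zpowers c, a * x = x * a := by
        intro x hx hox a ha
        have hxΩ : x ∈ Ω := ⟨pCore_le_fitting p G hx, by rw [hox]; exact hp⟩
        have h1 : c * x = x * c := ((Subgroup.mem_centralizer_iff.mp hc) x hxΩ).symm
        obtain ⟨i, rfl⟩ := Subgroup.mem_zpowers_iff.mp ha
        exact ((Commute.zpow_left (show Commute c x from h1) i)).eq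
      have h1 := omega_cent hp2 (Cfsg.pCore p G) (Subgroup.zpowers c) (pCore_isPGroup p G)
        (by rw [Subgroup.normalizer_eq_top_iff.mpr (pCore_normal p G)]; exact le_top) hcop hΩ
      rw [Subgroup.commutator_eq_bot_iff_le_centralizer] at h1
      exact (Subgroup.mem_centralizer_iff.mp (h1 hx)) c (Subgroup.mem_zpowers c)
  -- K q and L q
  let K : ℕ → Subgroup G := fun q => sSup {N | ∃ p : ℕ, p.Prime ∧ p ≠ q ∧ N = Cfsg.pCore p G}
  have hKn : ∀ q, (K q).Normal := fun q =>
    Subgroup.sSup_normal _ (fun N hN => by obtain ⟨p, _, _, rfl⟩ := hN; exact pCore_normal p G)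
  have hFle : ∀ q : ℕ, q.Prime → F ≤ Cfsg.pCore q G ⊔ K q := by
    intro q hq
    rw [hFdef, fitting_eq_iSup_pCore]
    apply iSup_le
    intro p
    by_cases hpq : (p : ℕ) = q
    · rw [hpq]; exact le_sup_left
    · exact le_trans (le_sSup (show Cfsg.pCore (p : ℕ) G ∈ {N | ∃ p' : ℕ, p'.Prime ∧ p' ≠ q ∧ N = Cfsg.pCore p' G} from ⟨p, p.2, hpq, rfl⟩)) le_sup_right
  let L : ℕ → Subgroup G := fun q => C ⊓ Subgroup.centralizer (K q : Set G)
  have hLn : ∀ q, (L q).Normal := fun q => by
    haveI := hKn q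
    haveI := hCn
    exact inferInstance
  -- Claim 2
  have claim2 : ∀ (q : ℕ), q.Prime → ∀ y ∈ L q, ∀ (r k : ℕ), r.Prime → r ≠ q → orderOf y = r ^ k →
      y ∈ Subgroup.centralizer (L q : Set G) := by
    intro q hq y hy r k hr hrq hoy
    have hyC : y ∈ C := hy.1
    have hyK : y ∈ Subgroup.centralizer (K q : Set G) := hy.2
    have h1 : F ≤ Subgroup.centralizer ({y} : Set G) := by
      refine (hFle q hq).trans (sup_le ?_ ?_)
      · intro x hx
        rw [Subgroup.mem_centralizer_iff]
        intro z hz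
        rw [Set.mem_singleton_iff] at hz
        rw [hz]
        exact claim1 y hyC r k hr hoy q hq (Ne.symm hrq) x hx
      · intro x hx
        rw [Subgroup.mem_centralizer_iff]
        intro z hz
        rw [Set.mem_singleton_iff] at hz
        rw [hz]
        exact ((Subgroup.mem_centralizer_iff.mp hyK) x hx).symm
    have h2 : y ∈ Subgroup.centralizer (F : Set G) := by
      rw [Subgroup.mem_centralizer_iff]
      intro x hx
      exact ((Subgroup.mem_centralizer_iff.mp (h1 hx)) y rfl).symm
    have h3 : y ∈ F := centralizer_fitting_le G h2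
    haveI : Fact r.Prime := ⟨hr⟩
    have h4 : y ∈ Cfsg.pCore r G := fitting_primary y r k h3 hoy
    have h5 : y ∈ K q := (le_sSup (show Cfsg.pCore r G ∈ {N | ∃ p' : ℕ, p'.Prime ∧ p' ≠ q ∧ N = Cfsg.pCore p' G} from ⟨r, hr, hrq, rfl⟩)) h4
    rw [Subgroup.mem_centralizer_iff]
    intro l hl
    exact ((Subgroup.mem_centralizer_iff.mp hl.2) y h5).symm
  -- Claim 3
  have claim3 : ∀ (q : ℕ), q.Prime → L q ≤ F := by
    intro q hq
    haveI : Fact q.Prime := ⟨hq⟩
    have hpg : IsPGroup q (↥(L q) ⧸ Subgroup.center ↥(L q)) := by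
      intro x
      induction x using QuotientGroup.induction_on with
      | H x =>
      obtain ⟨k, m, hm, hkm⟩ := Nat.exists_eq_pow_mul_and_not_dvd (orderOf_pos x).ne' q hq.ne_one
      refine ⟨k, ?_⟩
      rw [← QuotientGroup.mk_pow, QuotientGroup.eq_one_iff]
      have hoz : orderOf ((x : G) ^ (q ^ k)) = m := by
        rw [orderOf_pow_of_dvd (pow_pos hq.pos k).ne' (by rw [Subgroup.orderOf_coe, hkm]; exact Dvd.intro _ rfl),
          Subgroup.orderOf_coe, hkm]
        exact Nat.mul_div_cancel_left m (pow_pos hq.pos k)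
      have hz : (x : G) ^ (q ^ k) ∈ Subgroup.centralizer (L q : Set G) := by
        refine primary _ m _ hoz ?_
        intro r j y hr hy hoy
        have hyL : y ∈ L q :=
          Subgroup.zpowers_le.mpr ((L q).pow_mem x.2 _) hy
        by_cases hrq : r = q
        · subst hrq
          have h1 : r ^ j ∣ m := by
            rw [← hoy, ← hoz]; exact orderOf_dvd_of_mem_zpowers hy
          have hj : j = 0 := by
            by_contra hj
            exact hm ((dvd_pow_self r hj).trans h1)
          rw [hj, pow_zero, orderOf_eq_one_iff] at hoy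
          rw [hoy]; exact one_mem _
        · exact claim2 q hq y hyL r j hr hrq hoy
      rw [Subgroup.mem_center_iff]
      intro l
      apply Subtype.ext
      have := (Subgroup.mem_centralizer_iff.mp hz) l.1 l.2
      simpa using this
    have hnil : Group.IsNilpotent (↥(L q) ⧸ Subgroup.center ↥(L q)) := hpg.isNilpotent
    have hnil2 : Group.IsNilpotent ↥(L q) := Group.of_quotient_center_nilpotent hnil
    exact le_fitting (hLn q) hnil2
  -- conclusion
  refine primary F (orderOf g) g rfl ?_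
  intro r k y hr hy hoy
  have hyC : y ∈ C := Subgroup.zpowers_le.mpr hgC hy
  apply claim3 r hr
  refine ⟨hyC, ?_⟩
  show y ∈ Subgroup.centralizer (K r : Set G)
  rw [Subgroup.mem_centralizer_iff]
  intro x hx
  have hle : K r ≤ Subgroup.centralizer ({y} : Set G) := by
    apply sSup_le
    rintro N ⟨p, hp, hpr, rfl⟩
    intro x hx
    rw [Subgroup.mem_centralizer_iff]
    intro z hz
    rw [Set.mem_singleton_iff] at hz
    rw [hz]
    exact claim1 y hyC r k hr hoy p hp hpr x hx
  exact ((Subgroup.mem_centralizer_iff.mp (hle hx)) y rfl).symm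

end Cfsg.Agent.S3785
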