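import Cfsg.Statements.S3790
import Mathlib
import Cfsg.Agent.Lib.helper19.PLen

set_option autoImplicit false
open Cfsg

namespace Cfsg.Agent.S3790

universe u
open Cfsg.Agent.Lib.helper19.PLen in
theorem thmR (p : ℕ) [Fact p.Prime] (s : Finset ℕ) :
    (∀ r ∈ s, r.Prime ∧ r ≠ p) → ∀ (G : Type u) [Group G] [Finite G] (N : Subgroup G) [N.Normal]
      (l : ℕ → ℕ),
      (∀ r : ℕ, r.Prime → r ∣ Nat.card N → r = p ∨ r ∈ s) →
      (∀ r ∈ s, N ≤ (upperPSeries r G (2 * l r + 1)).1) →
      N ≤ (upperPSeries p G (2 * (∏ r ∈ s, (1 + l r)) + 1)).1 := by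
  classical
  induction s using Finset.induction_on with
  | empty =>
    intro _ G _ _ N _ l hN _
    rw [Finset.prod_empty]
    have hp : ∃ m, Nat.card N = p ^ m := by
      refine ⟨_, Nat.eq_prime_pow_of_unique_prime_dvd (Nat.card_pos.ne') (fun {r} hr hd => ?_)⟩
      rcases hN r hr hd with h | h
      · exact h
      · simp at h
    have h2 : N ≤ (upperPSeries p G (1 + 1)).1 := by
      apply le_ups_odd p 1 (by decide)
      obtain ⟨m, hm⟩ := hp
      have hd : Nat.card (N.map (QuotientGroup.mk' (upperPSeries p G 1).1)) ∣ p ^ m := by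
        rw [← hm]
        exact Dvd.intro_left _ (card_inf_ker_mul_map _ N).symm
      obtain ⟨j, -, hj⟩ := (Nat.dvd_prime_pow (Fact.out : p.Prime)).mp hd
      exact ⟨j, hj⟩
    exact h2.trans (ups_le_succ p G 2)
  | insert q s' hq ih =>
    intro hs G _ _ N _ l hN hl
    have hqp : q.Prime ∧ q ≠ p := hs q (Finset.mem_insert_self q s')
    haveI : Fact q.Prime := ⟨hqp.1⟩
    have hs' : ∀ r ∈ s', r.Prime ∧ r ≠ p := fun r hr => hs r (Finset.mem_insert_of_mem hr)
    have ih' := ih hs'
    rw [Finset.prod_insert hq]
    obtain ⟨A', hA'⟩ : ∃ A' : ℕ, A' = ∏ r ∈ s', (1 + l r) := ⟨_, rfl⟩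
    rw [← hA']
    have key : ∀ i, N ⊓ (upperPSeries q G i).1 ≤
        (upperPSeries p G (2 * (((i + 1) / 2) * A') + 1)).1 := by
      intro i
      induction i with
      | zero => rw [ups_zero, inf_bot_eq]; exact bot_le
      | succ i ihi =>
        obtain ⟨Ni, hNi⟩ : ∃ Ni : Subgroup G, Ni = N ⊓ (upperPSeries q G i).1 := ⟨_, rfl⟩
        obtain ⟨Nj, hNj⟩ : ∃ Nj : Subgroup G, Nj = N ⊓ (upperPSeries q G (i + 1)).1 := ⟨_, rfl⟩
        rw [← hNi] at ihi
        rw [← hNj]
        haveI : Ni.Normal := by rw [hNi]; infer_instance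
        haveI : Nj.Normal := by rw [hNj]; infer_instance
        have hle : Ni ≤ Nj := by
          rw [hNi, hNj]; exact inf_le_inf_left N (ups_le_succ q G i)
        have hcard := card_map_mk Ni Nj hle
        by_cases he : Even i
        · obtain ⟨r, hr, hc⟩ := card_ups_even (G := G) q i he
          obtain ⟨t, ht, hc'⟩ := card_inf_ratio N _ _ (ups_le_succ q G i) r hc
          rw [← hNi, ← hNj] at hc'
          have ht' : Nat.card (Nj.map (QuotientGroup.mk' Ni)) = t :=
            Nat.eq_of_mul_eq_mul_left Nat.card_pos (by rw [← hcard]; exact hc')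
          have hsec := ih' (G ⧸ Ni) (Nj.map (QuotientGroup.mk' Ni)) l ?_ ?_
          · rw [← hA'] at hsec
            have h3 := radd p Ni Nj (((i + 1) / 2) * A') A' ihi hsec
            have e : ((i + 1 + 1) / 2) * A' = ((i + 1) / 2) * A' + A' := by
              obtain ⟨j, rfl⟩ := he
              have h1 : (j + j + 1 + 1) / 2 = j + 1 := by omega
              have h2 : (j + j + 1) / 2 = j := by omega
              rw [h1, h2]; ring
            rw [e]; exact h3
          · intro x hx hxd
            rw [ht'] at hxd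
            have hxN : x ∣ Nat.card N := by
              have h4 : t ∣ Nat.card Nj := Dvd.intro_left _ hc'.symm
              have h5 : Nat.card Nj ∣ Nat.card N := by
                rw [hNj]; exact Subgroup.card_dvd_of_le inf_le_left
              exact (hxd.trans h4).trans h5
            rcases hN x hx hxN with h | h
            · exact Or.inl h
            · rcases Finset.mem_insert.mp h with h | h
              · exfalso
                subst h
                have h6 : x ∣ r := hxd.trans ht
                exact (Nat.Prime.coprime_iff_not_dvd hx).mp hr.symm h6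
              · exact Or.inr h
          · intro x hx
            haveI : Fact x.Prime := ⟨(hs' x hx).1⟩
            have h1 : N ≤ (upperPSeries x G (2 * l x + 1)).1 := hl x (Finset.mem_insert_of_mem hx)
            have h2 : Nj ≤ N := by rw [hNj]; exact inf_le_left
            exact (Subgroup.map_mono (h2.trans h1)).trans
              (map_ups_le x _ (QuotientGroup.mk'_surjective Ni) _)
        · obtain ⟨m, hc⟩ := card_ups_odd (G := G) q i he
          obtain ⟨t, ht, hc'⟩ := card_inf_ratio N _ _ (ups_le_succ q G i) (q ^ m) hc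
          rw [← hNi, ← hNj] at hc'
          have ht' : Nat.card (Nj.map (QuotientGroup.mk' Ni)) = t :=
            Nat.eq_of_mul_eq_mul_left Nat.card_pos (by rw [← hcard]; exact hc')
          have hsec : Nj.map (QuotientGroup.mk' Ni) ≤ (upperPSeries p (G ⧸ Ni) (2 * 0 + 1)).1 := by
            haveI : (Nj.map (QuotientGroup.mk' Ni)).Normal :=
              Subgroup.Normal.map inferInstance _ (QuotientGroup.mk'_surjective Ni)
            apply le_ups_one
            rw [ht']
            obtain ⟨j, -, hj⟩ := (Nat.dvd_prime_pow hqp.1).mp ht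
            rw [hj]
            exact Nat.Coprime.pow_left _ ((Nat.coprime_primes hqp.1 (Fact.out : p.Prime)).mpr hqp.2)
          have h3 := radd p Ni Nj (((i + 1) / 2) * A') 0 ihi hsec
          have e : ((i + 1 + 1) / 2) * A' = ((i + 1) / 2) * A' + 0 := by
            have h1 : (i + 1 + 1) / 2 = (i + 1) / 2 := by
              rcases Nat.even_or_odd i with h | h
              · exact absurd h he
              · obtain ⟨j, rfl⟩ := h; omega
            rw [h1, add_zero]
          rw [e]; exact h3
    have hfin := key (2 * l q + 1)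
    rw [inf_eq_left.mpr (hl q (Finset.mem_insert_self q s'))] at hfin
    have e : (2 * l q + 1 + 1) / 2 * A' = (1 + l q) * A' := by
      have h1 : (2 * l q + 1 + 1) / 2 = 1 + l q := by omega
      rw [h1]
    rw [e] at hfin
    exact hfin



/-- Let G be a finite solvable group and p a prime. Suppose p₁, …, p_r are distinct primes, all different from p, that include every prime dividing the order of G other than p, and that G has p_i-length at most l_i for each i. Then G has p-length at most the product of the numbers 1 + l_i. -/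
theorem result {G : Type*} [Group G] [Finite G] (hG : Group.IsSolvable G) (p : ℕ) [Fact p.Prime] (r : ℕ) (q : Fin r → ℕ) (hq : ∀ i, (q i).Prime ∧ q i ≠ p) (hinj : Function.Injective q) (hcover : ∀ s : ℕ, s.Prime → s ∣ Nat.card G → s ≠ p → ∃ i, q i = s) (l : Fin r → ℕ) (hl : ∀ i, Cfsg.PLengthLE (q i) (l i) G) : Cfsg.PLengthLE p (Finset.univ.prod fun i => 1 + l i) G := by
  classical
  obtain ⟨l', hl'def⟩ : ∃ l' : ℕ → ℕ, l' = fun x : ℕ => if h : ∃ i, q i = x then l h.choose else 0 :=
    ⟨_, rfl⟩
  have hl' : ∀ i, l' (q i) = l i := by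
    intro i
    have h : ∃ j, q j = q i := ⟨i, rfl⟩
    rw [hl'def]
    simp only [dif_pos h]
    exact congrArg l (hinj h.choose_spec)
  have hs : ∀ r ∈ Finset.univ.image q, r.Prime ∧ r ≠ p := by
    intro r hr
    obtain ⟨i, -, rfl⟩ := Finset.mem_image.mp hr
    exact hq i
  have h := thmR p (Finset.univ.image q) hs G ⊤ l' ?_ ?_
  · have e : ∏ r ∈ Finset.univ.image q, (1 + l' r) = ∏ i, (1 + l i) := by
      rw [Finset.prod_image (fun a _ b _ hab => hinj hab)]
      exact Finset.prod_congr rfl (fun i _ => by rw [hl' i])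
    rw [e] at h
    exact eq_top_iff.mpr h
  · intro r hr hd
    rw [Subgroup.card_top] at hd
    by_cases hrp : r = p
    · exact Or.inl hrp
    · obtain ⟨i, hi⟩ := hcover r hr hd hrp
      exact Or.inr (Finset.mem_image.mpr ⟨i, Finset.mem_univ _, hi⟩)
  · intro r hr
    obtain ⟨i, -, rfl⟩ := Finset.mem_image.mp hr
    rw [hl' i]
    exact le_of_eq (hl i).symm

end Cfsg.Agent.S3790
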