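import Cfsg.Statements.S3794
import Mathlib
import Cfsg.Agent.Lib.helper1.Fitting
import Cfsg.Agent.Lib.helper7.Layer2

set_option autoImplicit false
open Cfsg
open scoped commutatorElement

namespace Cfsg.Agent.S3794

universe u

section Lin
variable {V : Type u} [CommGroup V] [Finite V]

instance instFiniteMulAutV : Finite (MulAut V) :=
  Finite.of_injective (fun e : MulAut V => (e : V → V)) DFunLike.coe_injective

/-- `K` is normalized by `s`. -/
def Inv (s : MulAut V) (K : Subgroup (MulAut V)) : Prop := ∀ h ∈ K, s * h * s⁻¹ ∈ K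

/-- conjugation by `s` has no nontrivial fixed point on `K`. -/
def Fpf (s : MulAut V) (K : Subgroup (MulAut V)) : Prop := ∀ h ∈ K, s * h * s⁻¹ = h → h = 1

lemma conj_app (s h : MulAut V) (x : V) : s (h x) = (s * h * s⁻¹) (s x) := by
  simp [MulAut.mul_apply]

lemma inv_sq {s : MulAut V} {K : Subgroup (MulAut V)} (hK : Inv s K) :
    ∀ h ∈ K, s ^ 2 * h * (s ^ 2)⁻¹ ∈ K := by
  intro h hh
  have h1 := hK _ (hK h hh)
  have e : s ^ 2 * h * (s ^ 2)⁻¹ = s * (s * h * s⁻¹) * s⁻¹ := by rw [pow_two]; group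
  rw [e]; exact h1

lemma inv_closure {s : MulAut V} (J : Set (MulAut V)) (hJs : ∀ x ∈ J, s * x * s⁻¹ ∈ J) :
    Inv s (Subgroup.closure J) := by
  intro x hx
  induction hx using Subgroup.closure_induction with
  | mem x hx => exact Subgroup.subset_closure (hJs x hx)
  | one => simp
  | mul x y _ _ hx hy =>
    have e : s * (x * y) * s⁻¹ = (s * x * s⁻¹) * (s * y * s⁻¹) := by group
    rw [e]; exact Subgroup.mul_mem _ hx hy
  | inv x _ hx =>
    have e : s * x⁻¹ * s⁻¹ = (s * x * s⁻¹)⁻¹ := by group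
    rw [e]; exact Subgroup.inv_mem _ hx

lemma exists_z {s : MulAut V} {K : Subgroup (MulAut V)} (hK : Inv s K) (hF : Fpf s K) :
    ∀ h ∈ K, ∃ z ∈ K, h = z⁻¹ * (s * z * s⁻¹) := by
  intro h hh
  let f : K → K := fun z => ⟨z.1⁻¹ * (s * z.1 * s⁻¹), K.mul_mem (K.inv_mem z.2) (hK _ z.2)⟩
  have hinj : Function.Injective f := by
    intro z w hzw
    have h1 : z.1⁻¹ * (s * z.1 * s⁻¹) = w.1⁻¹ * (s * w.1 * s⁻¹) := congrArg Subtype.val hzw
    have h2 : s * (w.1 * z.1⁻¹) * s⁻¹ = w.1 * z.1⁻¹ := by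
      have e : s * (w.1 * z.1⁻¹) * s⁻¹ = (s * w.1 * s⁻¹) * (s * z.1 * s⁻¹)⁻¹ := by group
      rw [e]
      have h3 : s * w.1 * s⁻¹ = w.1 * (z.1⁻¹ * (s * z.1 * s⁻¹)) := by rw [h1]; group
      rw [h3]; group
    have h4 := hF _ (K.mul_mem w.2 (K.inv_mem z.2)) h2
    apply Subtype.ext
    exact (mul_inv_eq_one.mp h4).symm
  obtain ⟨z, hz⟩ := (Finite.injective_iff_surjective.mp hinj) ⟨h, hh⟩
  exact ⟨z.1, z.2, (congrArg Subtype.val hz).symm⟩

lemma four_prod {s : MulAut V} (hs4 : s ^ 4 = 1) (hfix : ∀ v, s v = v → v = 1)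
    {K : Subgroup (MulAut V)} (hK : Inv s K) (hF : Fpf s K) (h : MulAut V) (hh : h ∈ K) (v : V) :
    v * (h * s) v * (h * s) ((h * s) v) * (h * s) ((h * s) ((h * s) v)) = 1 := by
  obtain ⟨z, hz, rfl⟩ := exists_z hK hF h hh
  obtain ⟨a, ha⟩ : ∃ a, a = z⁻¹ * (s * z * s⁻¹) * s := ⟨_, rfl⟩
  rw [← ha]
  have ha' : a = z⁻¹ * s * (z⁻¹)⁻¹ := by rw [ha]; group
  have ha4 : a ^ 4 = 1 := by rw [ha', conj_pow, hs4]; group
  have hafix : ∀ w, a w = w → w = 1 := by
    intro w hw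
    rw [ha'] at hw
    simp only [MulAut.mul_apply, inv_inv] at hw
    have h1 : s (z w) = z w := by
      have h2 := congrArg z hw
      simpa using h2
    have h3 := hfix _ h1
    exact (map_eq_one_iff z z.injective).mp h3
  apply hafix
  have h4 : a (a (a (a v))) = v := by
    have h5 : (a ^ 4) v = v := by rw [ha4]; rfl
    simpa [pow_succ, MulAut.mul_apply] using h5
  rw [map_mul, map_mul, map_mul, h4]
  ac_rfl

lemma inv_of_cent {s : MulAut V} {K : Subgroup (MulAut V)} (hK : Inv s K) (hF : Fpf s K)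
    (hc : ∀ h ∈ K, s ^ 2 * h * (s ^ 2)⁻¹ = h) : ∀ h ∈ K, s * h * s⁻¹ = h⁻¹ := by
  intro h hh
  obtain ⟨z, hz, rfl⟩ := exists_z hK hF h hh
  have e1 : s * (z⁻¹ * (s * z * s⁻¹)) * s⁻¹ = (s * z * s⁻¹)⁻¹ * (s ^ 2 * z * (s ^ 2)⁻¹) := by group
  rw [e1, hc z hz]; group

lemma comm_of_cent {s : MulAut V} {K : Subgroup (MulAut V)} (hK : Inv s K) (hF : Fpf s K)
    (hc : ∀ h ∈ K, s ^ 2 * h * (s ^ 2)⁻¹ = h) : ∀ a ∈ K, ∀ b ∈ K, a * b = b * a := by
  intro a ha b hb
  have h1 := inv_of_cent hK hF hc a ha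
  have h2 := inv_of_cent hK hF hc b hb
  have h3 := inv_of_cent hK hF hc (a * b) (K.mul_mem ha hb)
  have e : s * (a * b) * s⁻¹ = (s * a * s⁻¹) * (s * b * s⁻¹) := by group
  rw [e, h1, h2] at h3
  have h4 : (a⁻¹ * b⁻¹)⁻¹ = ((a * b)⁻¹)⁻¹ := congrArg _ h3
  rw [mul_inv_rev, inv_inv, inv_inv, inv_inv] at h4
  exact h4.symm

lemma pow_fix (a : MulAut V) (v : V) (h : a v = v) (n : ℕ) : (a ^ n) v = v := by
  induction n with
  | zero => simp
  | succ n ih => rw [pow_succ, MulAut.mul_apply, h, ih]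

lemma odd_fix (c : MulAut V) (hodd : Odd (orderOf c)) (v : V) (h : c (c v) = v) : c v = v := by
  obtain ⟨k, hk⟩ := hodd
  have h1 : (c * c) ^ (k + 1) = c := by
    rw [← pow_two, ← pow_mul]
    have e : 2 * (k + 1) = orderOf c + 1 := by omega
    rw [e, pow_succ, pow_orderOf_eq_one, one_mul]
  have h2 : ((c * c) ^ (k + 1)) v = v := pow_fix _ v (by simpa [MulAut.mul_apply] using h) _
  rw [h1] at h2; exact h2

lemma odd_order {K : Subgroup (MulAut V)} (hodd : Odd (Nat.card K)) {c : MulAut V} (hc : c ∈ K) :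
    Odd (orderOf c) := by
  have h1 : orderOf c ∣ Nat.card K := by
    have h2 := orderOf_dvd_natCard (⟨c, hc⟩ : K)
    rwa [Subgroup.orderOf_mk] at h2
  exact Odd.of_dvd_nat hodd h1

lemma eq_one_of_sq {K : Subgroup (MulAut V)} (hodd : Odd (Nat.card K)) {c : MulAut V} (hc : c ∈ K)
    (h : c * c = 1) : c = 1 := by
  ext v
  show c v = v
  apply odd_fix c (odd_order hodd hc) v
  have : (c * c) v = v := by rw [h]; rfl
  exact this

lemma step1 {s : MulAut V} (hs4 : s ^ 4 = 1) (hfix : ∀ v, s v = v → v = 1)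
    {K : Subgroup (MulAut V)} (hK : Inv s K) (hF : Fpf s K) (hodd : Odd (Nat.card K))
    (c : MulAut V) (hcK : c ∈ K) (hc : s ^ 2 * c * (s ^ 2)⁻¹ = c) (v : V) (hv : (s ^ 2) v = v) :
    c v = v := by
  obtain ⟨C, hC⟩ : ∃ C : Subgroup (MulAut V), C = K ⊓ Subgroup.centralizer {s ^ 2} := ⟨_, rfl⟩
  have hmemC : ∀ x, x ∈ C ↔ x ∈ K ∧ s ^ 2 * x * (s ^ 2)⁻¹ = x := by
    intro x
    rw [hC, Subgroup.mem_inf, Subgroup.mem_centralizer_singleton_iff]
    constructor
    · rintro ⟨h1, h2⟩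
      refine ⟨h1, ?_⟩
      rw [mul_inv_eq_iff_eq_mul]
      exact h2.symm
    · rintro ⟨h1, h2⟩
      exact ⟨h1, (mul_inv_eq_iff_eq_mul.mp h2).symm⟩
  have hCinv : Inv s C := by
    intro x hx
    obtain ⟨h1, h2⟩ := (hmemC x).mp hx
    refine (hmemC _).mpr ⟨hK x h1, ?_⟩
    have e : s ^ 2 * (s * x * s⁻¹) * (s ^ 2)⁻¹ = s * (s ^ 2 * x * (s ^ 2)⁻¹) * s⁻¹ := by group
    rw [e, h2]
  have hCF : Fpf s C := fun x hx => hF x ((hmemC x).mp hx).1
  have hCc : ∀ x ∈ C, s ^ 2 * x * (s ^ 2)⁻¹ = x := fun x hx => ((hmemC x).mp hx).2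
  have hsc := inv_of_cent hCinv hCF hCc c ((hmemC c).mpr ⟨hcK, hc⟩)
  have hsv : ∀ w, (s ^ 2) w = w → s w = w⁻¹ := by
    intro w hw
    have h1 : s (w * s w) = w * s w := by
      rw [map_mul]
      have h2 : s (s w) = w := by simpa [pow_two, MulAut.mul_apply] using hw
      rw [h2, mul_comm]
    exact eq_inv_of_mul_eq_one_right (hfix _ h1)
  have hw : (s ^ 2) (c v) = c v := by
    have h1 : (s ^ 2) (c v) = (s ^ 2 * c * (s ^ 2)⁻¹) ((s ^ 2) v) := conj_app (s ^ 2) c v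
    rw [h1, hc, hv]
  have e1 := hsv (c v) hw
  have e2 : s (c v) = (s * c * s⁻¹) (s v) := conj_app s c v
  rw [hsc, hsv v hv, map_inv] at e2
  have e3 : c v = c⁻¹ v := inv_injective (e1.symm.trans e2)
  apply odd_fix c (odd_order hodd hcK) v
  rw [e3]; simp

lemma sq_mul_sq {s : MulAut V} (hs4 : s ^ 4 = 1) : s ^ 2 * s ^ 2 = 1 := by
  rw [← pow_add]; exact hs4

lemma sq_inv {s : MulAut V} (hs4 : s ^ 4 = 1) : (s ^ 2)⁻¹ = s ^ 2 :=
  inv_eq_of_mul_eq_one_left (sq_mul_sq hs4)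

lemma lemmaD {s : MulAut V} (hs4 : s ^ 4 = 1) (hfix : ∀ v, s v = v → v = 1)
    (E : Subgroup (MulAut V)) (hE : Inv s E) (hF : Fpf s E)
    (hcomm : ∀ a ∈ E, ∀ b ∈ E, a * b = b * a) (hinv : ∀ a ∈ E, s ^ 2 * a * (s ^ 2)⁻¹ = a⁻¹)
    (hodd : Odd (Nat.card E)) (hcop : (Nat.card E).Coprime (Nat.card V)) : E = ⊥ := by
  classical
  haveI := Fintype.ofFinite E
  obtain ⟨S, hSdef⟩ : ∃ S : V → V, S = fun w => ∏ a : E, (a : MulAut V) w := ⟨_, rfl⟩
  have hS : ∀ b ∈ E, ∀ w, b (S w) = S w := by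
    intro b hb w
    rw [hSdef]
    show b (∏ a : E, (a : MulAut V) w) = ∏ a : E, (a : MulAut V) w
    rw [map_prod]
    exact Equiv.prod_comp (Equiv.mulLeft (⟨b, hb⟩ : E)) (fun a : E => (a : MulAut V) w)
  obtain ⟨f1, hf1def⟩ : ∃ f1 : E → E, f1 = fun a => ⟨s * a.1 * s⁻¹, hE _ a.2⟩ := ⟨_, rfl⟩
  have hf1 : Function.Bijective f1 := by
    refine Function.Injective.bijective_of_finite ?_
    intro a b hab
    rw [hf1def] at hab
    have h1 : s * a.1 * s⁻¹ = s * b.1 * s⁻¹ := congrArg Subtype.val hab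
    apply Subtype.ext
    simpa using h1
  obtain ⟨f2, hf2def⟩ : ∃ f2 : E → E,
      f2 = fun a => ⟨a.1 * (s * a.1 * s⁻¹), E.mul_mem a.2 (hE _ a.2)⟩ := ⟨_, rfl⟩
  have hf2 : Function.Bijective f2 := by
    refine Function.Injective.bijective_of_finite ?_
    intro a b hab
    rw [hf2def] at hab
    have h1 : a.1 * (s * a.1 * s⁻¹) = b.1 * (s * b.1 * s⁻¹) := congrArg Subtype.val hab
    have hc : a.1 * b.1⁻¹ ∈ E := E.mul_mem a.2 (E.inv_mem b.2)
    have h2 : s * (a.1 * b.1⁻¹) * s⁻¹ = (a.1 * b.1⁻¹)⁻¹ := by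
      have e : s * (a.1 * b.1⁻¹) * s⁻¹ = (s * a.1 * s⁻¹) * (s * b.1 * s⁻¹)⁻¹ := by group
      rw [e]
      have h3 : s * a.1 * s⁻¹ = a.1⁻¹ * (b.1 * (s * b.1 * s⁻¹)) := by rw [← h1]; group
      rw [h3]
      have e2 : a.1⁻¹ * (b.1 * (s * b.1 * s⁻¹)) * (s * b.1 * s⁻¹)⁻¹ = a.1⁻¹ * b.1 := by group
      rw [e2, mul_inv_rev, inv_inv]
      exact hcomm _ (E.inv_mem a.2) _ b.2
    have h4 : s ^ 2 * (a.1 * b.1⁻¹) * (s ^ 2)⁻¹ = a.1 * b.1⁻¹ := by
      have e : s ^ 2 * (a.1 * b.1⁻¹) * (s ^ 2)⁻¹ = s * (s * (a.1 * b.1⁻¹) * s⁻¹) * s⁻¹ := by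
        rw [pow_two]; group
      rw [e, h2]
      have e2 : s * (a.1 * b.1⁻¹)⁻¹ * s⁻¹ = (s * (a.1 * b.1⁻¹) * s⁻¹)⁻¹ := by group
      rw [e2, h2, inv_inv]
    have h5 := hinv _ hc
    rw [h4] at h5
    have h6 : (a.1 * b.1⁻¹) * (a.1 * b.1⁻¹) = 1 := mul_eq_one_iff_eq_inv.mpr h5
    have h7 := eq_one_of_sq hodd hc h6
    apply Subtype.ext
    exact mul_inv_eq_one.mp h7
  have key : ∀ (a : E) (v : V), v * (a : MulAut V) (s v) *
      ((a : MulAut V) * (s * a * s⁻¹)) (s (s v)) * (s * (a : MulAut V) * s⁻¹) (s (s (s v))) = 1 := by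
    intro a v
    have h := four_prod hs4 hfix hE hF a.1 a.2 v
    have e1 : (a.1 * s) v = a.1 (s v) := rfl
    have e2 : (a.1 * s) ((a.1 * s) v) = (a.1 * (s * a.1 * s⁻¹)) (s (s v)) := by
      simp only [MulAut.mul_apply]; simp
    have e3 : (a.1 * s) ((a.1 * s) ((a.1 * s) v)) = (s * a.1 * s⁻¹) (s (s (s v))) := by
      have h1 : (a.1 * s) ((a.1 * s) ((a.1 * s) v)) =
          (a.1 * (s * a.1 * s⁻¹) * (s ^ 2 * a.1 * (s ^ 2)⁻¹)) (s (s (s v))) := by
        simp only [MulAut.mul_apply, pow_two, mul_inv_rev]; simp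
      rw [h1, hinv a.1 a.2]
      have e4 : a.1 * (s * a.1 * s⁻¹) * a.1⁻¹ = s * a.1 * s⁻¹ := by
        rw [hcomm a.1 a.2 _ (hE _ a.2)]; group
      rw [e4]
    rw [e3, e2, e1] at h; exact h
  have hprod : ∀ v, v ^ Nat.card E * S (s v) * S (s (s v)) * S (s (s (s v))) = 1 := by
    intro v
    have h1 : ∏ a : E, (v * (a : MulAut V) (s v) *
        ((a : MulAut V) * (s * a * s⁻¹)) (s (s v)) * (s * (a : MulAut V) * s⁻¹) (s (s (s v)))) = 1 :=
      Finset.prod_eq_one (fun a _ => key a v)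
    rw [Finset.prod_mul_distrib, Finset.prod_mul_distrib, Finset.prod_mul_distrib,
      Finset.prod_const, Finset.card_univ] at h1
    have h2 : ∏ a : E, ((a : MulAut V) * (s * a * s⁻¹)) (s (s v)) = S (s (s v)) := by
      rw [hSdef]
      have := hf2.prod_comp (fun a : E => (a : MulAut V) (s (s v)))
      rw [hf2def] at this
      exact this
    have h3 : ∏ a : E, (s * (a : MulAut V) * s⁻¹) (s (s (s v))) = S (s (s (s v))) := by
      rw [hSdef]
      have := hf1.prod_comp (fun a : E => (a : MulAut V) (s (s (s v))))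
      rw [hf1def] at this
      exact this
    have h4 : ∏ a : E, (a : MulAut V) (s v) = S (s v) := by rw [hSdef]
    rw [h2, h3, h4, ← Nat.card_eq_fintype_card] at h1
    exact h1
  rw [Subgroup.eq_bot_iff_forall]
  intro b hb
  ext v
  show b v = v
  have h1 : b (v ^ Nat.card E) = v ^ Nat.card E := by
    have h := hprod v
    have h2 : v ^ Nat.card E = (S (s v) * S (s (s v)) * S (s (s (s v))))⁻¹ := by
      rw [eq_inv_iff_mul_eq_one, ← h]; simp only [mul_assoc]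
    rw [h2, map_inv, map_mul, map_mul, hS b hb, hS b hb, hS b hb]
  rw [map_pow] at h1
  have h2 : (b v * v⁻¹) ^ Nat.card E = 1 := by rw [mul_pow, h1, inv_pow, mul_inv_cancel]
  have h3 : orderOf (b v * v⁻¹) ∣ Nat.card E := orderOf_dvd_of_pow_eq_one h2
  have h4 : orderOf (b v * v⁻¹) ∣ Nat.card V := orderOf_dvd_natCard _
  have h5 : orderOf (b v * v⁻¹) = 1 := Nat.eq_one_of_dvd_coprimes hcop h3 h4
  rw [orderOf_eq_one_iff] at h5
  exact mul_inv_eq_one.mp h5

/-- the twisted element `x⁻¹ x^τ` is inverted by `τ`. -/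
lemma kI {s : MulAut V} (hs4 : s ^ 4 = 1) {Q : Subgroup (MulAut V)} (hQ : Inv s Q) :
    ∀ x ∈ Q, x⁻¹ * (s ^ 2 * x * (s ^ 2)⁻¹) ∈ Q ∧
      s ^ 2 * (x⁻¹ * (s ^ 2 * x * (s ^ 2)⁻¹)) * (s ^ 2)⁻¹ = (x⁻¹ * (s ^ 2 * x * (s ^ 2)⁻¹))⁻¹ := by
  intro x hx
  refine ⟨Q.mul_mem (Q.inv_mem hx) (inv_sq hQ x hx), ?_⟩
  obtain ⟨t, ht⟩ : ∃ t, t = s ^ 2 := ⟨_, rfl⟩
  rw [← ht]
  have htt : t * t = 1 := by rw [ht]; exact sq_mul_sq hs4
  have hti : t⁻¹ = t := inv_eq_of_mul_eq_one_left htt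
  rw [hti]
  have e1 : t * (x⁻¹ * (t * x * t)) * t = t * x⁻¹ * t * x * (t * t) := by simp only [mul_assoc]
  have e2 : (x⁻¹ * (t * x * t))⁻¹ = t⁻¹ * x⁻¹ * t⁻¹ * x := by group
  rw [e1, e2, htt, hti, mul_one]

lemma closure_bot {s : MulAut V} (hs4 : s ^ 4 = 1) (hfix : ∀ v, s v = v → v = 1)
    (Q : Subgroup (MulAut V)) (hF : Fpf s Q) (hodd : Odd (Nat.card Q))
    (hcop : (Nat.card Q).Coprime (Nat.card V)) (J : Set (MulAut V))
    (hJ : ∀ x ∈ J, x ∈ Q ∧ s ^ 2 * x * (s ^ 2)⁻¹ = x⁻¹) (hJs : ∀ x ∈ J, s * x * s⁻¹ ∈ J)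
    (hJc : ∀ a ∈ Subgroup.closure J, ∀ b ∈ Subgroup.closure J, a * b = b * a) :
    Subgroup.closure J = ⊥ := by
  have hle : Subgroup.closure J ≤ Q := (Subgroup.closure_le Q).mpr (fun x hx => (hJ x hx).1)
  have hd : Nat.card (Subgroup.closure J) ∣ Nat.card Q := Subgroup.card_dvd_of_le hle
  refine lemmaD hs4 hfix _ (inv_closure J hJs) (fun x hx => hF x (hle hx)) hJc ?_
    (Odd.of_dvd_nat hodd hd) (Nat.Coprime.coprime_dvd_left hd hcop)
  intro x hx
  induction hx using Subgroup.closure_induction with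
  | mem x hx => exact (hJ x hx).2
  | one => group
  | mul x y hx' hy' hx hy =>
    have e : s ^ 2 * (x * y) * (s ^ 2)⁻¹ = (s ^ 2 * x * (s ^ 2)⁻¹) * (s ^ 2 * y * (s ^ 2)⁻¹) := by
      group
    rw [e, hx, hy, mul_inv_rev]
    exact hJc _ (Subgroup.inv_mem _ hx') _ (Subgroup.inv_mem _ hy')
  | inv x _ hx =>
    have e : s ^ 2 * x⁻¹ * (s ^ 2)⁻¹ = (s ^ 2 * x * (s ^ 2)⁻¹)⁻¹ := by group
    rw [e, hx]

/-- a commutative invariant subgroup of odd order prime to `|V|` is centralized by `τ`. -/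
lemma cent_of_comm {s : MulAut V} (hs4 : s ^ 4 = 1) (hfix : ∀ v, s v = v → v = 1)
    (Q : Subgroup (MulAut V)) (hQ : Inv s Q) (hF : Fpf s Q) (hodd : Odd (Nat.card Q))
    (hcop : (Nat.card Q).Coprime (Nat.card V)) (hc : ∀ a ∈ Q, ∀ b ∈ Q, a * b = b * a) :
    ∀ x ∈ Q, s ^ 2 * x * (s ^ 2)⁻¹ = x := by
  obtain ⟨J, hJdef⟩ : ∃ J : Set (MulAut V), J = {x | x ∈ Q ∧ s ^ 2 * x * (s ^ 2)⁻¹ = x⁻¹} :=
    ⟨_, rfl⟩
  have hJ : ∀ x ∈ J, x ∈ Q ∧ s ^ 2 * x * (s ^ 2)⁻¹ = x⁻¹ := by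
    intro x hx; rw [hJdef] at hx; exact hx
  have hJs : ∀ x ∈ J, s * x * s⁻¹ ∈ J := by
    intro x hx
    obtain ⟨hx1, hx2⟩ := hJ x hx
    rw [hJdef]
    refine ⟨hQ x hx1, ?_⟩
    have e : s ^ 2 * (s * x * s⁻¹) * (s ^ 2)⁻¹ = s * (s ^ 2 * x * (s ^ 2)⁻¹) * s⁻¹ := by group
    rw [e, hx2]; group
  have hle : Subgroup.closure J ≤ Q := (Subgroup.closure_le Q).mpr (fun x hx => (hJ x hx).1)
  have hbot := closure_bot hs4 hfix Q hF hodd hcop J hJ hJs
    (fun a ha b hb => hc a (hle ha) b (hle hb))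
  intro x hx
  have h1 : x⁻¹ * (s ^ 2 * x * (s ^ 2)⁻¹) ∈ J := by
    rw [hJdef]; exact kI hs4 hQ x hx
  have h2 : x⁻¹ * (s ^ 2 * x * (s ^ 2)⁻¹) ∈ Subgroup.closure J := Subgroup.subset_closure h1
  rw [hbot, Subgroup.mem_bot] at h2
  exact (inv_mul_eq_one.mp h2).symm

lemma claimQ {s : MulAut V} (hs4 : s ^ 4 = 1) (hfix : ∀ v, s v = v → v = 1) (q : ℕ)
    [Fact q.Prime] (hq2 : q ≠ 2) (hqV : q.Coprime (Nat.card V)) :
    ∀ (n : ℕ) (Q : Subgroup (MulAut V)), Nat.card Q = n → Inv s Q → Fpf s Q → IsPGroup q Q →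
      ∀ a ∈ Q, ∀ b ∈ Q, a * b = b * a := by
  intro n
  induction n using Nat.strong_induction_on with
  | _ n ih =>
    intro Q hn hQ hF hq
    obtain ⟨k, hk⟩ := IsPGroup.iff_card.mp hq
    have hqodd : Odd q := (Fact.out : q.Prime).odd_of_ne_two hq2
    have hoddQ : Odd (Nat.card Q) := by rw [hk]; exact hqodd.pow
    have hcopQ : (Nat.card Q).Coprime (Nat.card V) := by rw [hk]; exact Nat.Coprime.pow_left k hqV
    have hsub : ∀ R : Subgroup (MulAut V), R ≤ Q → Odd (Nat.card R) ∧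
        (Nat.card R).Coprime (Nat.card V) ∧ IsPGroup q R ∧ Fpf s R := by
      intro R hR
      have hd : Nat.card R ∣ Nat.card Q := Subgroup.card_dvd_of_le hR
      exact ⟨Odd.of_dvd_nat hoddQ hd, Nat.Coprime.coprime_dvd_left hd hcopQ, hq.to_le hR,
        fun x hx => hF x (hR hx)⟩
    obtain ⟨I, hIdef⟩ : ∃ I : Set (MulAut V), I = {x | x ∈ Q ∧ s ^ 2 * x * (s ^ 2)⁻¹ = x⁻¹} :=
      ⟨_, rfl⟩
    have hI : ∀ x ∈ I, x ∈ Q ∧ s ^ 2 * x * (s ^ 2)⁻¹ = x⁻¹ := by
      intro x hx; rw [hIdef] at hx; exact hx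
    have hIs : ∀ x ∈ I, s * x * s⁻¹ ∈ I := by
      intro x hx
      obtain ⟨hx1, hx2⟩ := hI x hx
      rw [hIdef]
      refine ⟨hQ x hx1, ?_⟩
      have e : s ^ 2 * (s * x * s⁻¹) * (s ^ 2)⁻¹ = s * (s ^ 2 * x * (s ^ 2)⁻¹) * s⁻¹ := by group
      rw [e, hx2]; group
    have hkI : ∀ x ∈ Q, x⁻¹ * (s ^ 2 * x * (s ^ 2)⁻¹) ∈ I := by
      intro x hx; rw [hIdef]; exact kI hs4 hQ x hx
    have hle : Subgroup.closure I ≤ Q := (Subgroup.closure_le Q).mpr (fun x hx => (hI x hx).1)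
    by_cases hB : Subgroup.closure I = Q
    · -- the centre
      obtain ⟨Z, hZdef⟩ : ∃ Z : Subgroup (MulAut V),
          Z = Q ⊓ Subgroup.centralizer (Q : Set (MulAut V)) := ⟨_, rfl⟩
      have hZle : Z ≤ Q := by rw [hZdef]; exact inf_le_left
      have hZmem : ∀ z ∈ Z, ∀ x ∈ Q, x * z = z * x := by
        intro z hz x hx
        rw [hZdef] at hz
        exact Subgroup.mem_centralizer_iff.mp hz.2 x hx
      have hZc : ∀ a ∈ Z, ∀ b ∈ Z, a * b = b * a := fun a ha b hb => hZmem b hb a (hZle ha)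
      have hs3 : s ^ 3 = s⁻¹ := by
        rw [eq_inv_iff_mul_eq_one, ← pow_succ]; exact hs4
      have hZinv : Inv s Z := by
        intro z hz
        rw [hZdef]
        refine Subgroup.mem_inf.mpr ⟨hQ z (hZle hz), ?_⟩
        rw [Subgroup.mem_centralizer_iff]
        intro x hx
        have hy : s⁻¹ * x * s ∈ Q := by
          have h1 := hQ _ (hQ _ (hQ x hx))
          have e : s * (s * (s * x * s⁻¹) * s⁻¹) * s⁻¹ = s⁻¹ * x * s := by
            calc s * (s * (s * x * s⁻¹) * s⁻¹) * s⁻¹ = s ^ 3 * x * (s ^ 3)⁻¹ := by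
                  simp only [pow_succ, pow_zero, one_mul]; group
              _ = s⁻¹ * x * s := by rw [hs3, inv_inv]
          rwa [e] at h1
        have h2 := hZmem z hz _ hy
        calc x * (s * z * s⁻¹) = s * ((s⁻¹ * x * s) * z) * s⁻¹ := by group
          _ = s * (z * (s⁻¹ * x * s)) * s⁻¹ := by rw [h2]
          _ = s * z * s⁻¹ * x := by group
      obtain ⟨hZodd, hZcop, hZq, hZF⟩ := hsub Z hZle
      have hZt : ∀ z ∈ Z, s ^ 2 * z * (s ^ 2)⁻¹ = z :=
        cent_of_comm hs4 hfix Z hZinv hZF hZodd hZcop hZc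
      classical
      haveI := Fintype.ofFinite Z
      obtain ⟨e, hedef⟩ : ∃ e : V → V, e = fun v => ∏ z : Z, (z : MulAut V) v := ⟨_, rfl⟩
      have he_fix : ∀ z ∈ Z, ∀ v, z (e v) = e v := by
        intro b hb w
        rw [hedef]
        show b (∏ a : Z, (a : MulAut V) w) = ∏ a : Z, (a : MulAut V) w
        rw [map_prod]
        exact Equiv.prod_comp (Equiv.mulLeft (⟨b, hb⟩ : Z)) (fun a : Z => (a : MulAut V) w)
      have he_mul : ∀ v w, e (v * w) = e v * e w := by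
        intro v w
        rw [hedef]
        simp only [map_mul, Finset.prod_mul_distrib]
      have he_pow : ∀ (v : V) (m : ℕ), e (v ^ m) = e v ^ m := by
        intro v m
        rw [hedef]
        simp only [map_pow, Finset.prod_pow]
      have he_inv : ∀ v, e v⁻¹ = (e v)⁻¹ := by
        intro v
        rw [hedef]
        simp only [map_inv, Finset.prod_inv_distrib]
      have he_one : e 1 = 1 := by
        rw [hedef]
        simp
      have he_Q : ∀ x ∈ Q, ∀ v, x (e v) = e (x v) := by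
        intro x hx v
        rw [hedef]
        show x (∏ z : Z, (z : MulAut V) v) = ∏ z : Z, (z : MulAut V) (x v)
        rw [map_prod]
        refine Finset.prod_congr rfl (fun z _ => ?_)
        have h1 := hZmem z.1 z.2 x hx
        calc x (z.1 v) = (x * z.1) v := rfl
          _ = (z.1 * x) v := by rw [h1]
          _ = z.1 (x v) := rfl
      have he_t : ∀ v, (s ^ 2) (e v) = e ((s ^ 2) v) := by
        intro v
        rw [hedef]
        show (s ^ 2) (∏ z : Z, (z : MulAut V) v) = ∏ z : Z, (z : MulAut V) ((s ^ 2) v)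
        rw [map_prod]
        refine Finset.prod_congr rfl (fun z _ => ?_)
        rw [conj_app (s ^ 2) z.1 v, hZt z.1 z.2]
      have hcardZ : ∀ w, (∀ z ∈ Z, z w = w) → e w = w ^ Nat.card Z := by
        intro w hw
        rw [hedef]
        show ∏ z : Z, (z : MulAut V) w = _
        rw [Finset.prod_congr rfl (fun z _ => hw z.1 z.2), Finset.prod_const, Finset.card_univ,
          Nat.card_eq_fintype_card]
      have hcopfix : ∀ w : V, w ^ Nat.card Z = 1 → w = 1 := by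
        intro w hw
        have h3 := orderOf_dvd_of_pow_eq_one hw
        have h4 : orderOf w ∣ Nat.card V := orderOf_dvd_natCard _
        exact orderOf_eq_one_iff.mp (Nat.eq_one_of_dvd_coprimes hZcop h3 h4)
      have hs2s2 : ∀ w, (s ^ 2) ((s ^ 2) w) = w := by
        intro w
        have h1 : (s ^ 2 * s ^ 2) w = w := by rw [sq_mul_sq hs4]; rfl
        exact h1
      have hA : ∀ u, e u = 1 → (s ^ 2) u = u⁻¹ := by
        intro u hu
        have hw1 : (s ^ 2) (u * (s ^ 2) u) = u * (s ^ 2) u := by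
          rw [map_mul, hs2s2, mul_comm]
        have hw2 : e (u * (s ^ 2) u) = 1 := by
          rw [he_mul, hu, ← he_t, hu, map_one, one_mul]
        have hw3 : ∀ z ∈ Z, z (u * (s ^ 2) u) = u * (s ^ 2) u := fun z hz =>
          step1 hs4 hfix hQ hF hoddQ z (hZle hz) (hZt z hz) _ hw1
        have hw4 := hcardZ _ hw3
        rw [hw2] at hw4
        exact eq_inv_of_mul_eq_one_right (hcopfix _ hw4.symm)
      have hBfix : ∀ x ∈ I, ∀ u, e u = 1 → x u = u := by
        intro x hx u hu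
        obtain ⟨hxQ, hxi⟩ := hI x hx
        have h1 : e (x u) = 1 := by rw [← he_Q x hxQ, hu, map_one]
        have h2 := hA (x u) h1
        have h3 : (s ^ 2) (x u) = (s ^ 2 * x * (s ^ 2)⁻¹) ((s ^ 2) u) := conj_app (s ^ 2) x u
        rw [hxi, hA u hu, map_inv] at h3
        have h4 : x u = x⁻¹ u := inv_injective (h2.symm.trans h3)
        apply odd_fix x (odd_order hoddQ hxQ) u
        rw [h4]; simp
      have hCfix : ∀ x ∈ Q, ∀ u, e u = 1 → x u = u := by
        intro x hx u hu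
        rw [← hB] at hx
        induction hx using Subgroup.closure_induction with
        | mem x hx => exact hBfix x hx u hu
        | one => rfl
        | mul x y _ _ hx hy => rw [MulAut.mul_apply, hy, hx]
        | inv x _ hx =>
          apply x.injective
          rw [hx]; simp
      have hZbot : Z = ⊥ := by
        rw [Subgroup.eq_bot_iff_forall]
        intro z hz
        ext v
        show z v = v
        have hee : e (e v) = e v ^ Nat.card Z := hcardZ _ (fun z hz => he_fix z hz v)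
        have hu : e (v ^ Nat.card Z * (e v)⁻¹) = 1 := by
          rw [he_mul, he_pow, he_inv, hee, mul_inv_cancel]
        have h1 := hCfix z (hZle hz) _ hu
        rw [map_mul, map_pow, map_inv, he_fix z hz] at h1
        have h2 : (z v) ^ Nat.card Z = v ^ Nat.card Z := mul_right_cancel h1
        have h3 : (z v * v⁻¹) ^ Nat.card Z = 1 := by rw [mul_pow, h2, inv_pow, mul_inv_cancel]
        exact mul_inv_eq_one.mp (hcopfix _ h3)
      by_cases hQbot : Q = ⊥
      · intro a ha b hb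
        rw [hQbot, Subgroup.mem_bot] at ha hb
        rw [ha, hb]
      · exfalso
        haveI : Nontrivial Q := (Subgroup.nontrivial_iff_ne_bot Q).mpr hQbot
        haveI : Nontrivial (Subgroup.center Q) := hq.center_nontrivial
        obtain ⟨z, hz⟩ := exists_ne (1 : Subgroup.center Q)
        have hzZ : (z.1 : MulAut V) ∈ Z := by
          rw [hZdef]
          refine Subgroup.mem_inf.mpr ⟨z.1.2, ?_⟩
          rw [Subgroup.mem_centralizer_iff]
          intro x hx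
          have h1 := Subgroup.mem_center_iff.mp z.2 ⟨x, hx⟩
          exact congrArg Subtype.val h1
        rw [hZbot, Subgroup.mem_bot] at hzZ
        apply hz
        apply Subtype.ext
        apply Subtype.ext
        exact hzZ
    · have hcard : Nat.card (Subgroup.closure I) < n := by
        by_contra hcon
        push Not at hcon
        rw [← hn] at hcon
        exact hB (Subgroup.eq_of_le_of_card_ge hle hcon)
      obtain ⟨h1, h2, h3, h4⟩ := hsub _ hle
      have hBc := ih _ hcard (Subgroup.closure I) rfl (inv_closure I hIs) h4 h3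
      have hbot := closure_bot hs4 hfix Q hF hoddQ hcopQ I hI hIs hBc
      have hcent : ∀ x ∈ Q, s ^ 2 * x * (s ^ 2)⁻¹ = x := by
        intro x hx
        have h5 : x⁻¹ * (s ^ 2 * x * (s ^ 2)⁻¹) ∈ Subgroup.closure I :=
          Subgroup.subset_closure (hkI x hx)
        rw [hbot, Subgroup.mem_bot] at h5
        exact (inv_mul_eq_one.mp h5).symm
      exact comm_of_cent hQ hF hcent

omit [CommGroup V] [Finite V] in
lemma pCore_map_le (q : ℕ) {G : Type u} [Group G] (φ : G ≃* G) :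
    (Cfsg.pCore q G).map φ.toMonoidHom ≤ Cfsg.pCore q G := by
  haveI := Cfsg.Agent.Lib.helper1.pCore_normal q G
  refine Cfsg.Agent.Lib.helper1.le_pCore ?_ ?_
  · exact Subgroup.Normal.map inferInstance φ.toMonoidHom φ.surjective
  · exact (Cfsg.Agent.Lib.helper1.pCore_isPGroup q G).map φ.toMonoidHom

lemma inv_back {s : MulAut V} (hs4 : s ^ 4 = 1) {H : Subgroup (MulAut V)} (hH : Inv s H) :
    ∀ h ∈ H, s⁻¹ * h * s ∈ H := by
  have hs3 : s ^ 3 = s⁻¹ := by rw [eq_inv_iff_mul_eq_one, ← pow_succ]; exact hs4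
  intro x hx
  have h1 := hH _ (hH _ (hH x hx))
  have e : s * (s * (s * x * s⁻¹) * s⁻¹) * s⁻¹ = s⁻¹ * x * s := by
    calc s * (s * (s * x * s⁻¹) * s⁻¹) * s⁻¹ = s ^ 3 * x * (s ^ 3)⁻¹ := by
          simp only [pow_succ, pow_zero, one_mul]; group
      _ = s⁻¹ * x * s := by rw [hs3, inv_inv]
  rwa [e] at h1

/-- conjugation by `s` as an automorphism of `H`. -/
def conjS {s : MulAut V} (hs4 : s ^ 4 = 1) (H : Subgroup (MulAut V)) (hH : Inv s H) : H ≃* H where
  toFun := fun h => ⟨s * h.1 * s⁻¹, hH _ h.2⟩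
  invFun := fun h => ⟨s⁻¹ * h.1 * s, inv_back hs4 hH _ h.2⟩
  left_inv := fun h => Subtype.ext (by show s⁻¹ * (s * h.1 * s⁻¹) * s = h.1; group)
  right_inv := fun h => Subtype.ext (by show s * (s⁻¹ * h.1 * s) * s⁻¹ = h.1; group)
  map_mul' := fun a b => Subtype.ext (by
    show s * (a.1 * b.1) * s⁻¹ = (s * a.1 * s⁻¹) * (s * b.1 * s⁻¹); group)

lemma pCore_conj {s : MulAut V} (hs4 : s ^ 4 = 1) (q : ℕ) (H : Subgroup (MulAut V)) (hH : Inv s H)
    (x : H) (hx : x ∈ Cfsg.pCore q H) :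
    (⟨s * x.1 * s⁻¹, hH _ x.2⟩ : H) ∈ Cfsg.pCore q H ∧
      (⟨s⁻¹ * x.1 * s, inv_back hs4 hH _ x.2⟩ : H) ∈ Cfsg.pCore q H :=
  ⟨pCore_map_le q (conjS hs4 H hH) ⟨x, hx, rfl⟩, pCore_map_le q (conjS hs4 H hH).symm ⟨x, hx, rfl⟩⟩

lemma claimH {s : MulAut V} (hs4 : s ^ 4 = 1) (hfix : ∀ v, s v = v → v = 1) (p : ℕ)
    [Fact p.Prime] (hV : IsPGroup p V) (H : Subgroup (MulAut V)) (hH : Inv s H) (hF : Fpf s H)
    (hodd : Odd (Nat.card H)) (hsol : Group.IsSolvable H) (hcore : Cfsg.pCore p H = ⊥) :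
    ∀ a ∈ H, ∀ b ∈ H, a * b = b * a := by
  obtain ⟨m, hm⟩ := IsPGroup.iff_card.mp hV
  have hp := (Fact.out : p.Prime)
  have hcoreq : ∀ (q : ℕ) [Fact q.Prime], ∀ x : H, x ∈ Cfsg.pCore q H →
      s ^ 2 * (x : MulAut V) * (s ^ 2)⁻¹ = x := by
    intro q hqf x hx
    have hq := hqf.out
    by_cases hqp : q = p
    · subst hqp
      rw [hcore, Subgroup.mem_bot] at hx
      rw [hx]; simp
    · obtain ⟨Q, hQdef⟩ : ∃ Q : Subgroup (MulAut V), Q = (Cfsg.pCore q H).map H.subtype :=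
        ⟨_, rfl⟩
      have hQle : Q ≤ H := by
        rw [hQdef]; rintro _ ⟨y, _, rfl⟩; exact y.2
      have hxQ : (x : MulAut V) ∈ Q := by rw [hQdef]; exact ⟨x, hx, rfl⟩
      have hQq : IsPGroup q Q := by
        rw [hQdef]; exact (Cfsg.Agent.Lib.helper1.pCore_isPGroup q H).map H.subtype
      have hQinv : Inv s Q := by
        intro y hy
        rw [hQdef] at hy ⊢
        obtain ⟨y', hy', rfl⟩ := hy
        exact ⟨_, (pCore_conj hs4 q H hH y' hy').1, rfl⟩
      have hQF : Fpf s Q := fun y hy => hF y (hQle hy)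
      have hd : Nat.card Q ∣ Nat.card H := Subgroup.card_dvd_of_le hQle
      have hQodd : Odd (Nat.card Q) := Odd.of_dvd_nat hodd hd
      obtain ⟨k, hk⟩ := IsPGroup.iff_card.mp hQq
      by_cases hq2 : q = 2
      · have hk0 : k = 0 := by
          by_contra hk0
          rw [hk, hq2] at hQodd
          exact absurd hQodd (by
            rw [Nat.not_odd_iff_even]; exact (Nat.even_pow.mpr ⟨even_two, hk0⟩))
        rw [hk0, pow_zero] at hk
        have hQbot : Q = ⊥ := Subgroup.card_eq_one.mp hk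
        rw [hQbot, Subgroup.mem_bot] at hxQ
        rw [hxQ]; simp
      · have hqV : q.Coprime (Nat.card V) := by
          rw [hm]; exact Nat.Coprime.pow_right m ((Nat.coprime_primes hq hp).mpr hqp)
        have hQcop : (Nat.card Q).Coprime (Nat.card V) := by
          rw [hk]; exact Nat.Coprime.pow_left k hqV
        have hQc := claimQ hs4 hfix q hq2 hqV _ Q rfl hQinv hQF hQq
        exact cent_of_comm hs4 hfix Q hQinv hQF hQodd hQcop hQc _ hxQ
  have hFit : ∀ x : H, x ∈ Cfsg.fittingSubgroup H → s ^ 2 * (x : MulAut V) * (s ^ 2)⁻¹ = x := by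
    intro x hx
    rw [Cfsg.Agent.Lib.helper1.fitting_eq_iSup_pCore] at hx
    refine Subgroup.iSup_induction (C := fun x : H => s ^ 2 * (x : MulAut V) * (s ^ 2)⁻¹ = x)
      _ hx ?_ ?_ ?_
    · intro q y hy
      haveI : Fact (q : ℕ).Prime := ⟨q.2⟩
      exact hcoreq q y hy
    · simp
    · intro y z hy hz
      have e : s ^ 2 * ((y * z : H) : MulAut V) * (s ^ 2)⁻¹ =
          (s ^ 2 * (y : MulAut V) * (s ^ 2)⁻¹) * (s ^ 2 * (z : MulAut V) * (s ^ 2)⁻¹) := by
        rw [Subgroup.coe_mul]; group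
      rw [e, hy, hz]; rfl
  have hcent : ∀ h ∈ H, s ^ 2 * h * (s ^ 2)⁻¹ = h := by
    intro h hh
    obtain ⟨hk1, hk2⟩ := kI hs4 hH h hh
    obtain ⟨k, hkdef⟩ : ∃ k : MulAut V, k = h⁻¹ * (s ^ 2 * h * (s ^ 2)⁻¹) := ⟨_, rfl⟩
    rw [← hkdef] at hk1 hk2
    have hkc : (⟨k, hk1⟩ : H) ∈ Subgroup.centralizer (Cfsg.fittingSubgroup H : Set H) := by
      rw [Subgroup.mem_centralizer_iff]
      intro f hf
      apply Subtype.ext
      show (f : MulAut V) * k = k * f
      haveI := Cfsg.Agent.Lib.helper1.fitting_normal H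
      have hconj : (⟨h, hh⟩ : H) * f * (⟨h, hh⟩ : H)⁻¹ ∈ Cfsg.fittingSubgroup H :=
        Subgroup.Normal.conj_mem inferInstance f hf _
      have h1 := hFit _ hconj
      have h2 := hFit f hf
      have h1' : s ^ 2 * (h * (f : MulAut V) * h⁻¹) * (s ^ 2)⁻¹ = h * (f : MulAut V) * h⁻¹ := h1
      have e : s ^ 2 * (h * (f : MulAut V) * h⁻¹) * (s ^ 2)⁻¹ =
          (s ^ 2 * h * (s ^ 2)⁻¹) * (s ^ 2 * (f : MulAut V) * (s ^ 2)⁻¹) *
            (s ^ 2 * h * (s ^ 2)⁻¹)⁻¹ := by group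
      rw [e, h2] at h1'
      rw [hkdef]
      calc (f : MulAut V) * (h⁻¹ * (s ^ 2 * h * (s ^ 2)⁻¹))
          = h⁻¹ * (h * (f : MulAut V) * h⁻¹) * (s ^ 2 * h * (s ^ 2)⁻¹) := by group
        _ = h⁻¹ * ((s ^ 2 * h * (s ^ 2)⁻¹) * (f : MulAut V) * (s ^ 2 * h * (s ^ 2)⁻¹)⁻¹) *
              (s ^ 2 * h * (s ^ 2)⁻¹) := by rw [h1']
        _ = h⁻¹ * (s ^ 2 * h * (s ^ 2)⁻¹) * (f : MulAut V) := by group
    have hkF := Cfsg.Agent.Lib.helper7.centralizer_fitting_le_of_solvable H hsol hkc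
    have h3 : s ^ 2 * k * (s ^ 2)⁻¹ = k := hFit _ hkF
    rw [hk2] at h3
    have h4 : k * k = 1 := mul_eq_one_iff_eq_inv.mpr h3.symm
    have h5 := eq_one_of_sq hodd hk1 h4
    rw [hkdef] at h5
    exact (inv_mul_eq_one.mp h5).symm
  exact comm_of_cent hH hF hcent

end Lin

section Main

lemma exists_twist {G : Type u} [Group G] [Finite G] (σ : MulAut G)
    (hfpf : ∀ g : G, σ g = g → g = 1) (C : Subgroup G) (hC : ∀ x ∈ C, σ x ∈ C) :
    ∀ x ∈ C, ∃ c ∈ C, x = c⁻¹ * σ c := by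
  intro x hx
  let f : C → C := fun z => ⟨z.1⁻¹ * σ z.1, C.mul_mem (C.inv_mem z.2) (hC _ z.2)⟩
  have hinj : Function.Injective f := by
    intro z w hzw
    have h1 : z.1⁻¹ * σ z.1 = w.1⁻¹ * σ w.1 := congrArg Subtype.val hzw
    have h2 : σ (w.1 * z.1⁻¹) = w.1 * z.1⁻¹ := by
      rw [map_mul, map_inv]
      have h3 : σ w.1 = w.1 * (z.1⁻¹ * σ z.1) := by rw [h1]; group
      rw [h3]; group
    have h4 := hfpf _ h2
    apply Subtype.ext
    exact (mul_inv_eq_one.mp h4).symm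
  obtain ⟨z, hz⟩ := (Finite.injective_iff_surjective.mp hinj) ⟨x, hx⟩
  exact ⟨z.1, z.2, (congrArg Subtype.val hz).symm⟩

lemma mem_of_twist {G : Type u} [Group G] [Finite G] (σ : MulAut G)
    (hfpf : ∀ g : G, σ g = g → g = 1) (C : Subgroup G) (hC : ∀ x ∈ C, σ x ∈ C) (g : G)
    (hg : g⁻¹ * σ g ∈ C) : g ∈ C := by
  obtain ⟨c, hc, hgc⟩ := exists_twist σ hfpf C hC _ hg
  have h2 : σ (g * c⁻¹) = g * c⁻¹ := by
    rw [map_mul, map_inv]
    have h3 : σ g = g * (c⁻¹ * σ c) := by rw [← hgc]; group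
    rw [h3]; group
  have h5 : g = c := mul_inv_eq_one.mp (hfpf _ h2)
  rw [h5]; exact hc

lemma odd_card {G : Type u} [Group G] [Finite G] (σ : MulAut G) (hσ : σ ^ 4 = 1)
    (hfpf : ∀ g : G, σ g = g → g = 1) : Odd (Nat.card G) := by
  have hZ : IsPGroup 2 (Subgroup.zpowers σ) := by
    have h1 : orderOf σ ∣ 2 ^ 2 := orderOf_dvd_of_pow_eq_one (by norm_num; exact hσ)
    obtain ⟨j, -, hj⟩ := (Nat.dvd_prime_pow Nat.prime_two).mp h1
    exact IsPGroup.of_card (n := j) (by rw [Nat.card_zpowers, hj])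
  haveI : Fact (Nat.Prime 2) := ⟨Nat.prime_two⟩
  have h2 := hZ.card_modEq_card_fixedPoints G
  have h3 : MulAction.fixedPoints (Subgroup.zpowers σ) G = {1} := by
    ext g
    rw [MulAction.mem_fixedPoints, Set.mem_singleton_iff]
    constructor
    · intro h
      exact hfpf g (h ⟨σ, Subgroup.mem_zpowers σ⟩)
    · rintro rfl m
      exact map_one (m : MulAut G)
  rw [h3] at h2
  have h4 : Nat.card ({1} : Set G) = 1 := by simp
  rw [h4] at h2
  exact Nat.odd_iff.mpr h2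

lemma cent_V {G : Type u} [Group G] [Finite G] (hsol : Group.IsSolvable G) (σ : MulAut G)
    (hσ : σ ^ 4 = 1) (hfpf : ∀ g : G, σ g = g → g = 1) (hodd : Odd (Nat.card G))
    (V : Subgroup G) [hVn : V.Normal] (hVσ : ∀ x ∈ V, σ x ∈ V)
    (hVmin : ∀ W : Subgroup G, W.Normal → (∀ x ∈ W, σ x ∈ W) → W ≠ ⊥ → W ≤ V → W = V)
    (hVab : ∀ a ∈ V, ∀ b ∈ V, a * b = b * a) (p : ℕ) [Fact p.Prime] (hVp : IsPGroup p V)
    (hpV : p ∣ Nat.card V) :
    ∀ c ∈ commutator G, ∀ v ∈ V, c * v = v * c := by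
  letI : CommGroup V :=
    { (inferInstance : Group V) with mul_comm := fun a b => Subtype.ext (hVab a a.2 b b.2) }
  have hinjσ : Function.Injective (fun v : V => (⟨σ v.1, hVσ _ v.2⟩ : V)) := by
    intro a b hab
    exact Subtype.ext (σ.injective (congrArg Subtype.val hab))
  let s0 : V →* V :=
    { toFun := fun v => ⟨σ v.1, hVσ _ v.2⟩
      map_one' := Subtype.ext (map_one σ)
      map_mul' := fun a b => Subtype.ext (map_mul σ a.1 b.1) }
  let s : MulAut V := MulEquiv.ofBijective s0 ⟨hinjσ, Finite.injective_iff_surjective.mp hinjσ⟩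
  have hs_app : ∀ v : V, ((s v : V) : G) = σ v.1 := fun v => rfl
  have hs_pow : ∀ (n : ℕ) (v : V), (((s ^ n) v : V) : G) = (σ ^ n) v.1 := by
    intro n
    induction n with
    | zero => intro v; rfl
    | succ n ih =>
      intro v
      rw [pow_succ, pow_succ, MulAut.mul_apply, MulAut.mul_apply, ih, hs_app]
  have hs4 : s ^ 4 = 1 := by
    ext v
    rw [hs_pow, hσ]; rfl
  have hsfix : ∀ v : V, s v = v → v = 1 := by
    intro v hv
    have h1 := hfpf v.1 (by rw [← hs_app, hv])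
    exact Subtype.ext h1
  let ρ : G →* MulAut V := MulAut.conjNormal
  have hρ_app : ∀ (g : G) (v : V), ((ρ g v : V) : G) = g * v.1 * g⁻¹ := fun g v => rfl
  have hρσ : ∀ g : G, s * ρ g * s⁻¹ = ρ (σ g) := by
    intro g
    ext v
    show ((s (ρ g (s⁻¹ v)) : V) : G) = ((ρ (σ g) v : V) : G)
    rw [hs_app, hρ_app, hρ_app, map_mul, map_mul, map_inv, ← hs_app (s⁻¹ v)]
    simp
  obtain ⟨H, hHdef⟩ : ∃ H : Subgroup (MulAut V), H = ρ.range := ⟨_, rfl⟩
  have hρH : ∀ g : G, ρ g ∈ H := fun g => by rw [hHdef]; exact ⟨g, rfl⟩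
  have hHinv : Inv s H := by
    intro h hh
    rw [hHdef] at hh
    obtain ⟨g, rfl⟩ := hh
    rw [hρσ]; exact hρH _
  have hker_σ : ∀ x ∈ ρ.ker, σ x ∈ ρ.ker := by
    intro x hx
    rw [MonoidHom.mem_ker] at hx ⊢
    rw [← hρσ, hx]; group
  have hHF : Fpf s H := by
    intro h hh hfix'
    rw [hHdef] at hh
    obtain ⟨g, rfl⟩ := hh
    rw [hρσ] at hfix'
    have h1 : g⁻¹ * σ g ∈ ρ.ker := by
      rw [MonoidHom.mem_ker, map_mul, map_inv, hfix', inv_mul_cancel]
    exact MonoidHom.mem_ker.mp (mem_of_twist σ hfpf ρ.ker hker_σ g h1)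
  have hHodd : Odd (Nat.card H) := by
    rw [hHdef]
    exact Odd.of_dvd_nat hodd (Subgroup.card_range_dvd ρ)
  have hHsol : Group.IsSolvable H := by
    rw [hHdef]
    haveI := hsol
    exact Group.isSolvable_of_surjective ρ.rangeRestrict_surjective
  have hcore : Cfsg.pCore p H = ⊥ := by
    by_contra hPne
    haveI hPn := Cfsg.Agent.Lib.helper1.pCore_normal p H
    have hPp := Cfsg.Agent.Lib.helper1.pCore_isPGroup p H
    let W : Subgroup G :=
      { carrier := {g | ∃ hv : g ∈ V, ∀ x : H, x ∈ Cfsg.pCore p H →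
          (x : MulAut V) ⟨g, hv⟩ = ⟨g, hv⟩}
        mul_mem' := by
          rintro a b ⟨ha, ha'⟩ ⟨hb, hb'⟩
          refine ⟨V.mul_mem ha hb, fun x hx => ?_⟩
          have e : (⟨a * b, V.mul_mem ha hb⟩ : V) = ⟨a, ha⟩ * ⟨b, hb⟩ := rfl
          rw [e, map_mul, ha' x hx, hb' x hx]
        one_mem' := ⟨V.one_mem, fun x hx => map_one (x : MulAut V)⟩
        inv_mem' := by
          rintro a ⟨ha, ha'⟩
          refine ⟨V.inv_mem ha, fun x hx => ?_⟩
          have e : (⟨a⁻¹, V.inv_mem ha⟩ : V) = (⟨a, ha⟩ : V)⁻¹ := rfl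
          rw [e, map_inv, ha' x hx] }
    have hWle : W ≤ V := fun g hg => hg.1
    have hWn : W.Normal := ⟨by
      rintro a ⟨ha, ha'⟩ g
      refine ⟨hVn.conj_mem a ha g, fun x hx => ?_⟩
      have e : (⟨g * a * g⁻¹, hVn.conj_mem a ha g⟩ : V) = ρ g ⟨a, ha⟩ := rfl
      rw [e]
      have hconj : (⟨ρ g, hρH g⟩ : H)⁻¹ * x * ⟨ρ g, hρH g⟩ ∈ Cfsg.pCore p H := by
        have h0 := hPn.conj_mem x hx (⟨ρ g, hρH g⟩ : H)⁻¹
        simpa using h0
      have h1 : ((ρ g)⁻¹ * (x : MulAut V) * ρ g) ⟨a, ha⟩ = ⟨a, ha⟩ := ha' _ hconj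
      calc (x : MulAut V) (ρ g ⟨a, ha⟩)
          = ρ g (((ρ g)⁻¹ * (x : MulAut V) * ρ g) ⟨a, ha⟩) := by simp [MulAut.mul_apply]
        _ = ρ g ⟨a, ha⟩ := by rw [h1]⟩
    have hWσ : ∀ x ∈ W, σ x ∈ W := by
      rintro a ⟨ha, ha'⟩
      refine ⟨hVσ a ha, fun x hx => ?_⟩
      have e : (⟨σ a, hVσ a ha⟩ : V) = s ⟨a, ha⟩ := rfl
      rw [e]
      have h1 : (s⁻¹ * (x : MulAut V) * s) ⟨a, ha⟩ = ⟨a, ha⟩ :=
        ha' _ (pCore_conj hs4 p H hHinv x hx).2
      calc (x : MulAut V) (s ⟨a, ha⟩)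
          = s ((s⁻¹ * (x : MulAut V) * s) ⟨a, ha⟩) := by simp [MulAut.mul_apply]
        _ = s ⟨a, ha⟩ := by rw [h1]
    have hWne : W ≠ ⊥ := by
      have h1fix : (1 : V) ∈ MulAction.fixedPoints (Cfsg.pCore p H) V := by
        intro x
        exact map_one ((x : H) : MulAut V)
      obtain ⟨b, hb, hb1⟩ := hPp.exists_fixed_point_of_prime_dvd_card_of_fixed_point V hpV h1fix
      intro hbot
      have hbW : (b : G) ∈ W := ⟨b.2, fun x hx => hb ⟨x, hx⟩⟩
      rw [hbot, Subgroup.mem_bot] at hbW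
      exact hb1 (Subtype.ext hbW).symm
    have hWV := hVmin W hWn hWσ hWne hWle
    apply hPne
    rw [Subgroup.eq_bot_iff_forall]
    intro x hx
    apply Subtype.ext
    show (x : MulAut V) = 1
    apply MulEquiv.ext
    intro v
    have hvW : (v : G) ∈ W := by rw [hWV]; exact v.2
    obtain ⟨hv', hfixv⟩ := hvW
    exact hfixv x hx
  have hcomm := claimH hs4 hsfix p hVp H hHinv hHF hHodd hHsol hcore
  have hle : commutator G ≤ ρ.ker := by
    rw [commutator_def, Subgroup.commutator_le]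
    intro a _ b _
    rw [MonoidHom.mem_ker, map_commutatorElement, commutatorElement_eq_one_iff_commute]
    exact hcomm _ (hρH a) _ (hρH b)
  intro c hc v hv
  have h1 := MonoidHom.mem_ker.mp (hle hc)
  have h2 : ((ρ c ⟨v, hv⟩ : V) : G) = v := by rw [h1]; rfl
  rw [hρ_app] at h2
  exact mul_inv_eq_iff_eq_mul.mp h2

theorem main : ∀ (n : ℕ) (G : Type u) [Group G] [Finite G], Nat.card G = n → Group.IsSolvable G →
    ∀ σ : MulAut G, σ ^ 4 = 1 → (∀ g : G, σ g = g → g = 1) →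
      Group.IsNilpotent (commutator G) := by
  intro n
  induction n using Nat.strong_induction_on with
  | _ n ih =>
    intro G _ _ hn hsol σ hσ hfpf
    by_cases htriv : Subsingleton G
    · haveI := htriv
      haveI : Subsingleton (commutator G) := inferInstance
      exact Group.isNilpotent_of_subsingleton
    rw [not_subsingleton_iff_nontrivial] at htriv
    haveI := htriv
    haveI := hsol
    have hodd : Odd (Nat.card G) := odd_card σ hσ hfpf
    obtain ⟨V, -, ⟨hVn, hVσ, hVne⟩, hVm⟩ := Finite.exists_le_minimal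
      (p := fun N : Subgroup G => N.Normal ∧ (∀ x ∈ N, σ x ∈ N) ∧ N ≠ ⊥) (a := ⊤)
      ⟨inferInstance, fun x _ => Subgroup.mem_top _, top_ne_bot⟩
    haveI := hVn
    have hVmin : ∀ W : Subgroup G, W.Normal → (∀ x ∈ W, σ x ∈ W) → W ≠ ⊥ → W ≤ V → W = V :=
      fun W h1 h2 h3 h4 => le_antisymm h4 (hVm ⟨h1, h2, h3⟩ h4)
    have hVab : ∀ a ∈ V, ∀ b ∈ V, a * b = b * a := by
      by_contra hcon
      have hne : ⁅V, V⁆ ≠ ⊥ := by
        intro h
        apply hcon
        intro a ha b hb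
        have h1 : ⁅a, b⁆ ∈ ⁅V, V⁆ := Subgroup.commutator_mem_commutator ha hb
        rw [h, Subgroup.mem_bot] at h1
        exact (commutatorElement_eq_one_iff_commute.mp h1).eq
      have hlt : ⁅V, V⁆ < V := Group.IsSolvable.commutator_lt_of_ne_bot hVne
      have hσc : ∀ x ∈ ⁅V, V⁆, σ x ∈ ⁅V, V⁆ := by
        intro x hx
        have h1 : (⁅V, V⁆).map σ.toMonoidHom ≤ ⁅V, V⁆ := by
          rw [Subgroup.map_commutator]
          have h2 : V.map σ.toMonoidHom ≤ V := by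
            rintro _ ⟨y, hy, rfl⟩; exact hVσ y hy
          exact Subgroup.commutator_mono h2 h2
        exact h1 ⟨x, hx, rfl⟩
      exact hlt.ne (hVmin ⁅V, V⁆ inferInstance hσc hne hlt.le)
    have hVcard : Nat.card V ≠ 1 := fun h => hVne (Subgroup.card_eq_one.mp h)
    obtain ⟨p, hp, hpV⟩ := Nat.exists_prime_and_dvd hVcard
    haveI : Fact p.Prime := ⟨hp⟩
    let W : Subgroup G :=
      { carrier := {v | v ∈ V ∧ v ^ p = 1}
        mul_mem' := by
          rintro a b ⟨ha, ha'⟩ ⟨hb, hb'⟩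
          refine ⟨V.mul_mem ha hb, ?_⟩
          have hc : Commute a b := hVab a ha b hb
          rw [hc.mul_pow, ha', hb', one_mul]
        one_mem' := ⟨V.one_mem, one_pow p⟩
        inv_mem' := by
          rintro a ⟨ha, ha'⟩
          exact ⟨V.inv_mem ha, by rw [inv_pow, ha', inv_one]⟩ }
    have hWn : W.Normal := ⟨by
      rintro a ⟨ha, ha'⟩ g
      refine ⟨hVn.conj_mem a ha g, ?_⟩
      rw [conj_pow, ha']; group⟩
    have hWσ : ∀ x ∈ W, σ x ∈ W := by
      rintro x ⟨hx, hx'⟩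
      exact ⟨hVσ x hx, by rw [← map_pow, hx', map_one]⟩
    have hWne : W ≠ ⊥ := by
      obtain ⟨x, hx⟩ := exists_prime_orderOf_dvd_card' (G := V) p hpV
      intro h
      have hxW : (x : G) ∈ W := by
        refine ⟨x.2, ?_⟩
        rw [← Subgroup.coe_pow, ← hx, pow_orderOf_eq_one]; rfl
      rw [h, Subgroup.mem_bot] at hxW
      have h1 : x = 1 := Subtype.ext hxW
      rw [h1, orderOf_one] at hx
      exact hp.one_lt.ne hx
    have hWV := hVmin W hWn hWσ hWne (fun x hx => hx.1)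
    have hVexp : ∀ v ∈ V, v ^ p = 1 := by
      intro v hv
      have hvW : v ∈ W := by rw [hWV]; exact hv
      exact hvW.2
    have hVp : IsPGroup p V := by
      intro v
      exact ⟨1, by rw [pow_one]; exact Subtype.ext (by rw [Subgroup.coe_pow]; exact hVexp v v.2)⟩
    have hcent := cent_V hsol σ hσ hfpf hodd V hVσ hVmin hVab p hVp hpV
    have hmapV : V.map σ.toMonoidHom = V := by
      apply Subgroup.eq_of_le_of_card_ge
      · rintro _ ⟨y, hy, rfl⟩; exact hVσ y hy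
      · rw [Subgroup.card_map_of_injective σ.injective]
    let σ' : MulAut (G ⧸ V) := QuotientGroup.congr V V σ hmapV
    have hσ'_app : ∀ g : G, σ' (QuotientGroup.mk g) = QuotientGroup.mk (σ g) := fun g => rfl
    have hσ'_pow : ∀ (k : ℕ) (g : G),
        (σ' ^ k) (QuotientGroup.mk g) = QuotientGroup.mk ((σ ^ k) g) := by
      intro k
      induction k with
      | zero => intro g; rfl
      | succ k ihk =>
        intro g
        rw [pow_succ, pow_succ, MulAut.mul_apply, MulAut.mul_apply, hσ'_app, ihk]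
    have hσ'4 : σ' ^ 4 = 1 := by
      ext x
      induction x using QuotientGroup.induction_on with
      | H g => rw [hσ'_pow, hσ]; rfl
    have hσ'fpf : ∀ x : G ⧸ V, σ' x = x → x = 1 := by
      intro x
      induction x using QuotientGroup.induction_on with
      | H g =>
        intro hx
        rw [hσ'_app, eq_comm, QuotientGroup.eq] at hx
        exact (QuotientGroup.eq_one_iff g).mpr (mem_of_twist σ hfpf V hVσ g hx)
    have hcardq : Nat.card (G ⧸ V) < n := by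
      rw [← hn, ← Subgroup.index_eq_card, ← Subgroup.index_mul_card V]
      have h1 : 1 < Nat.card V := (Subgroup.one_lt_card_iff_ne_bot V).mpr hVne
      have h2 : 0 < V.index := Nat.pos_of_ne_zero (Subgroup.index_ne_zero_of_finite)
      nlinarith
    haveI hq := ih _ hcardq (G ⧸ V) rfl inferInstance σ' hσ'4 hσ'fpf
    have hmem : ∀ x : commutator G, (QuotientGroup.mk' V) x.1 ∈ commutator (G ⧸ V) := by
      intro x
      have h1 : (commutator G).map (QuotientGroup.mk' V) ≤ commutator (G ⧸ V) := by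
        rw [commutator_def, commutator_def, Subgroup.map_commutator]
        exact Subgroup.commutator_mono le_top le_top
      exact h1 ⟨x.1, x.2, rfl⟩
    let f : commutator G →* commutator (G ⧸ V) :=
      ((QuotientGroup.mk' V).comp (commutator G).subtype).codRestrict (commutator (G ⧸ V)) hmem
    refine Subgroup.isNilpotent_of_ker_le_center f ?_
    intro x hx
    rw [Subgroup.mem_center_iff]
    intro y
    apply Subtype.ext
    show y.1 * x.1 = x.1 * y.1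
    have hxV : x.1 ∈ V := by
      have h1 : f x = 1 := MonoidHom.mem_ker.mp hx
      have h2 : (QuotientGroup.mk' V) x.1 = 1 := congrArg Subtype.val h1
      exact (QuotientGroup.eq_one_iff x.1).mp h2
    exact hcent y.1 y.2 x.1 hxV

end Main


/-- Let G be a finite solvable group with an automorphism σ satisfying σ⁴ = 1 and fixing only the identity. Then the derived subgroup G' is nilpotent. -/
theorem result {G : Type*} [Group G] [Finite G] (hG : Group.IsSolvable G) (σ : MulAut G) (hσ : σ ^ 4 = 1) (hfpf : ∀ g : G, σ g = g → g = 1) : Group.IsNilpotent (commutator G) := by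
  exact main _ G rfl hG σ hσ hfpf

end Cfsg.Agent.S3794
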