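import Cfsg.Statements.S3799
import Mathlib
import Cfsg.Agent.Lib.helper20.Extraspecial

set_option autoImplicit false
open Cfsg

namespace Cfsg.Agent.S3799

open Matrix Cfsg.Agent.Lib.helper20.Extraspecial
open scoped commutatorElement

section
variable {n : ℕ} {F : Type*} [Field F]

/-- first basis vector -/
def e0 : Fin (n + 2) → F := Pi.single 0 1

/-- last basis vector -/
def eL : Fin (n + 2) → F := Pi.single (Fin.last (n + 1)) 1

theorem last_ne : (Fin.last (n + 1) : Fin (n + 2)) ≠ 0 := by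
  intro h
  have := congrArg Fin.val h
  simp at this

theorem eL_zero : (eL : Fin (n + 2) → F) 0 = 0 := by
  unfold eL
  rw [Pi.single_apply, if_neg (Ne.symm last_ne)]

theorem eL_last : (eL : Fin (n + 2) → F) (Fin.last (n + 1)) = 1 := by simp [eL]

theorem e0_zero : (e0 : Fin (n + 2) → F) 0 = 1 := by simp [e0]

theorem e0_ne (i : Fin (n + 2)) (hi : i ≠ 0) : (e0 : Fin (n + 2) → F) i = 0 := by
  unfold e0
  rw [Pi.single_apply, if_neg hi]

theorem dot_e0 (r : Fin (n + 2) → F) : r ⬝ᵥ e0 = r 0 := dotProduct_single_one r 0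

theorem eL_dot (r : Fin (n + 2) → F) : eL ⬝ᵥ r = r (Fin.last (n + 1)) :=
  single_one_dotProduct _ r

/-- the matrices of the Heisenberg group -/
def mat (r s : Fin (n + 2) → F) : Matrix (Fin (n + 2)) (Fin (n + 2)) F :=
  1 + vecMulVec e0 r + vecMulVec s eL

theorem expand {A : Type*} [Ring A] (a b a' b' : A) :
    (1 + a + b) * (1 + a' + b') = 1 + a + b + a' + b' + a * a' + a * b' + b * a' + b * b' := by
  noncomm_ring

theorem mat_mul (r s r' s' : Fin (n + 2) → F) (hr : r 0 = 0)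
    (hs' : s' (Fin.last (n + 1)) = 0) :
    mat r s * mat r' s' = mat (r + r' + (r ⬝ᵥ s') • eL) (s + s') := by
  unfold mat
  have h1 : vecMulVec (e0 : Fin (n + 2) → F) r * vecMulVec (e0 : Fin (n + 2) → F) r' = 0 := by
    rw [vecMulVec_mul_vecMulVec, dot_e0, hr, zero_smul, vecMulVec_zero]
  have h2 : vecMulVec (e0 : Fin (n + 2) → F) r * vecMulVec s' (eL : Fin (n + 2) → F) =
      (r ⬝ᵥ s') • vecMulVec (e0 : Fin (n + 2) → F) (eL : Fin (n + 2) → F) := by
    rw [vecMulVec_mul_vecMulVec, vecMulVec_smul]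
  have h3 : vecMulVec s (eL : Fin (n + 2) → F) * vecMulVec e0 r' = 0 := by
    rw [vecMulVec_mul_vecMulVec, eL_dot, e0_ne _ last_ne, zero_smul, vecMulVec_zero]
  have h4 : vecMulVec s (eL : Fin (n + 2) → F) * vecMulVec s' (eL : Fin (n + 2) → F) = 0 := by
    rw [vecMulVec_mul_vecMulVec, eL_dot, hs', zero_smul, vecMulVec_zero]
  rw [vecMulVec_add, vecMulVec_add, vecMulVec_smul, add_vecMulVec, expand, h1, h2, h3, h4]
  abel

theorem mat_zero_row (r s : Fin (n + 2) → F) (hs : s 0 = 0) (j : Fin (n + 2)) :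
    mat r s 0 j = (1 : Matrix (Fin (n + 2)) (Fin (n + 2)) F) 0 j + r j := by
  simp [mat, vecMulVec_apply, e0_zero, hs]

theorem mat_last_col (r s : Fin (n + 2) → F) (i : Fin (n + 2)) (hi : i ≠ 0) :
    mat r s i (Fin.last (n + 1)) =
      (1 : Matrix (Fin (n + 2)) (Fin (n + 2)) F) i (Fin.last (n + 1)) + s i := by
  simp [mat, vecMulVec_apply, e0_ne i hi, eL_last]

theorem mat_inj {r s r' s' : Fin (n + 2) → F} (hs : s 0 = 0) (hs' : s' 0 = 0)
    (h : mat r s = mat r' s') : r = r' ∧ s = s' := by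
  constructor
  · funext j
    have h1 := congrFun (congrFun h 0) j
    rw [mat_zero_row r s hs, mat_zero_row r' s' hs'] at h1
    exact add_left_cancel h1
  · funext i
    by_cases hi : i = 0
    · rw [hi, hs, hs']
    · have h1 := congrFun (congrFun h i) (Fin.last (n + 1))
      rw [mat_last_col r s i hi, mat_last_col r' s' i hi] at h1
      exact add_left_cancel h1

theorem mat_zero : mat (0 : Fin (n + 2) → F) 0 = 1 := by simp [mat]

theorem mat_inv_right (r s : Fin (n + 2) → F) (hr : r 0 = 0)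
    (hsL : s (Fin.last (n + 1)) = 0) :
    mat r s * mat (-r + (r ⬝ᵥ s) • eL) (-s) = 1 := by
  rw [mat_mul r s _ _ hr (by simp [hsL]), dotProduct_neg, ← mat_zero]
  congr 1
  · rw [neg_smul]; abel
  · abel

theorem mat_inv_left (r s : Fin (n + 2) → F) (hr : r 0 = 0)
    (hsL : s (Fin.last (n + 1)) = 0) :
    mat (-r + (r ⬝ᵥ s) • eL) (-s) * mat r s = 1 := by
  rw [mat_mul _ _ r s (by simp [hr, eL_zero]) hsL, ← mat_zero]
  congr 1
  · have h : (-r + (r ⬝ᵥ s) • eL) ⬝ᵥ s = -(r ⬝ᵥ s) := by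
      rw [add_dotProduct, neg_dotProduct, smul_dotProduct, eL_dot, hsL, smul_zero, add_zero]
    rw [h, neg_smul]; abel
  · abel

variable (n F) in
/-- the Heisenberg group -/
def E : Subgroup (GL (Fin (n + 2)) F) where
  carrier := {g | ∃ r s : Fin (n + 2) → F, r 0 = 0 ∧ s 0 = 0 ∧ s (Fin.last (n + 1)) = 0 ∧
    (g : Matrix (Fin (n + 2)) (Fin (n + 2)) F) = mat r s}
  mul_mem' := by
    rintro a b ⟨r, s, hr, hs0, hsL, ha⟩ ⟨r', s', hr', hs0', hsL', hb⟩
    refine ⟨r + r' + (r ⬝ᵥ s') • eL, s + s', ?_, ?_, ?_, ?_⟩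
    · simp [hr, hr', eL_zero]
    · simp [hs0, hs0']
    · simp [hsL, hsL']
    · rw [Units.val_mul, ha, hb, mat_mul r s r' s' hr hsL']
  one_mem' := ⟨0, 0, rfl, rfl, rfl, by rw [mat_zero]; rfl⟩
  inv_mem' := by
    rintro a ⟨r, s, hr, hs0, hsL, ha⟩
    refine ⟨-r + (r ⬝ᵥ s) • eL, -s, ?_, ?_, ?_, ?_⟩
    · simp [hr, eL_zero]
    · simp [hs0]
    · simp [hsL]
    · apply Units.inv_eq_of_mul_eq_one_right
      rw [ha]; exact mat_inv_right r s hr hsL

theorem exists_mem (r s : Fin (n + 2) → F) (hr : r 0 = 0) (hs0 : s 0 = 0)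
    (hsL : s (Fin.last (n + 1)) = 0) :
    ∃ g : ↥(E n F), ((g : GL (Fin (n + 2)) F) : Matrix (Fin (n + 2)) (Fin (n + 2)) F) = mat r s :=
  ⟨⟨⟨mat r s, mat (-r + (r ⬝ᵥ s) • eL) (-s), mat_inv_right r s hr hsL, mat_inv_left r s hr hsL⟩,
    ⟨r, s, hr, hs0, hsL, rfl⟩⟩, rfl⟩

theorem val_mul (x y : ↥(E n F)) {r s r' s' : Fin (n + 2) → F} (hr : r 0 = 0)
    (hsL' : s' (Fin.last (n + 1)) = 0)
    (hx : ((x : GL (Fin (n + 2)) F) : Matrix (Fin (n + 2)) (Fin (n + 2)) F) = mat r s)
    (hy : ((y : GL (Fin (n + 2)) F) : Matrix (Fin (n + 2)) (Fin (n + 2)) F) = mat r' s') :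
    (((x * y : ↥(E n F)) : GL (Fin (n + 2)) F) : Matrix (Fin (n + 2)) (Fin (n + 2)) F) =
      mat (r + r' + (r ⬝ᵥ s') • eL) (s + s') := by
  rw [Subgroup.coe_mul, Units.val_mul, hx, hy, mat_mul r s r' s' hr hsL']

theorem comm_iff {x y : ↥(E n F)} {r s r' s' : Fin (n + 2) → F} (hr : r 0 = 0) (hs0 : s 0 = 0)
    (hsL : s (Fin.last (n + 1)) = 0)
    (hx : ((x : GL (Fin (n + 2)) F) : Matrix (Fin (n + 2)) (Fin (n + 2)) F) = mat r s)
    (hr' : r' 0 = 0) (hs0' : s' 0 = 0) (hsL' : s' (Fin.last (n + 1)) = 0)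
    (hy : ((y : GL (Fin (n + 2)) F) : Matrix (Fin (n + 2)) (Fin (n + 2)) F) = mat r' s') :
    x * y = y * x ↔ r ⬝ᵥ s' = r' ⬝ᵥ s := by
  have hxy := val_mul x y hr hsL' hx hy
  have hyx := val_mul y x hr' hsL hy hx
  constructor
  · intro h
    have h1 : mat (r + r' + (r ⬝ᵥ s') • eL) (s + s') =
        mat (r' + r + (r' ⬝ᵥ s) • eL) (s' + s) := by rw [← hxy, ← hyx, h]
    obtain ⟨h2, -⟩ := mat_inj (by simp [hs0, hs0']) (by simp [hs0, hs0']) h1
    have h3 := congrFun h2 (Fin.last (n + 1))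
    simp only [Pi.add_apply, Pi.smul_apply, eL_last, smul_eq_mul, mul_one] at h3
    linear_combination h3
  · intro h
    apply Subtype.ext; apply Units.ext
    rw [hxy, hyx, h, add_comm r r', add_comm s s']

theorem mem_center_iff (z : ↥(E n F)) : z ∈ Subgroup.center ↥(E n F) ↔
    ∃ c : F, ((z : GL (Fin (n + 2)) F) : Matrix (Fin (n + 2)) (Fin (n + 2)) F) =
      mat (c • eL) 0 := by
  obtain ⟨r, s, hr, hs0, hsL, hz⟩ := z.2
  constructor
  · intro h
    rw [Subgroup.mem_center_iff] at h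
    have hs : s = 0 := by
      funext i
      by_cases hi : i = 0
      · rw [hi, hs0]; rfl
      · have hi0 : (Pi.single i 1 : Fin (n + 2) → F) 0 = 0 := by
          rw [Pi.single_apply, if_neg (Ne.symm hi)]
        obtain ⟨y, hy⟩ := exists_mem (Pi.single i 1) 0 hi0 rfl rfl
        have h1 := (comm_iff hr hs0 hsL hz hi0 rfl rfl hy).mp (h y).symm
        rw [dotProduct_zero, single_one_dotProduct] at h1
        exact h1.symm
    refine ⟨r (Fin.last (n + 1)), ?_⟩
    rw [hz, hs]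
    congr 1
    funext i
    by_cases hi : i = 0
    · rw [hi, hr]; simp [eL_zero]
    · by_cases hiL : i = Fin.last (n + 1)
      · rw [hiL]; simp [eL_last]
      · have hi0 : (Pi.single i 1 : Fin (n + 2) → F) 0 = 0 := by
          rw [Pi.single_apply, if_neg (Ne.symm hi)]
        have hiL' : (Pi.single i 1 : Fin (n + 2) → F) (Fin.last (n + 1)) = 0 := by
          rw [Pi.single_apply, if_neg (Ne.symm hiL)]
        obtain ⟨y, hy⟩ := exists_mem 0 (Pi.single i 1) rfl hi0 hiL'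
        have h1 := (comm_iff hr hs0 hsL hz rfl hi0 hiL' hy).mp (h y).symm
        rw [zero_dotProduct, dotProduct_single_one] at h1
        rw [h1]
        simp [eL, hiL]
  · rintro ⟨c, hc⟩
    rw [Subgroup.mem_center_iff]
    intro y
    obtain ⟨r', s', hr', hs0', hsL', hy⟩ := y.2
    symm
    apply (comm_iff (by simp [eL_zero]) rfl rfl hc hr' hs0' hsL' hy).mpr
    rw [smul_dotProduct, eL_dot, hsL', smul_zero, dotProduct_zero]

theorem comm_le : commutator ↥(E n F) ≤ Subgroup.center ↥(E n F) := by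
  rw [commutator_eq_closure, Subgroup.closure_le]
  rintro _ ⟨x, y, rfl⟩
  obtain ⟨r, s, hr, hs0, hsL, hx⟩ := x.2
  obtain ⟨r', s', hr', hs0', hsL', hy⟩ := y.2
  obtain ⟨z, hz⟩ := exists_mem (n := n) (F := F)
    ((r ⬝ᵥ s' - r' ⬝ᵥ s) • (eL : Fin (n + 2) → F)) 0 (by simp [eL_zero]) rfl rfl
  have hzc : z ∈ Subgroup.center ↥(E n F) := (mem_center_iff z).mpr ⟨_, hz⟩
  have hyx := val_mul y x hr' hsL hy hx
  have key : x * y = z * (y * x) := by
    apply Subtype.ext; apply Units.ext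
    rw [val_mul x y hr hsL' hx hy,
      val_mul z (y * x) (by simp [eL_zero]) (by simp [hsL, hsL']) hz hyx]
    congr 1
    · rw [smul_dotProduct, eL_dot]
      simp only [Pi.add_apply, hsL, hsL', add_zero, smul_zero, zero_smul]
      rw [sub_smul]; abel
    · simp [add_comm]
  have h1 : ⁅x, y⁆ = z := by
    rw [commutatorElement_def, key]; group
  rw [SetLike.mem_coe, h1]; exact hzc

theorem nonabelian (hn : 1 ≤ n) : ∃ a b : ↥(E n F), a * b ≠ b * a := by
  have h10 : (1 : Fin (n + 2)) ≠ 0 := by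
    intro h
    have := congrArg Fin.val h
    simp at this
  have h1L : (1 : Fin (n + 2)) ≠ Fin.last (n + 1) := by
    intro h
    have := congrArg Fin.val h
    simp at this
    omega
  have hi0 : (Pi.single 1 1 : Fin (n + 2) → F) 0 = 0 := by
    rw [Pi.single_apply, if_neg (Ne.symm h10)]
  have hiL : (Pi.single 1 1 : Fin (n + 2) → F) (Fin.last (n + 1)) = 0 := by
    rw [Pi.single_apply, if_neg (Ne.symm h1L)]
  obtain ⟨x, hx⟩ := exists_mem (F := F) (Pi.single (1 : Fin (n + 2)) 1) 0 hi0 rfl rfl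
  obtain ⟨y, hy⟩ := exists_mem (F := F) 0 (Pi.single (1 : Fin (n + 2)) 1) rfl hi0 hiL
  refine ⟨x, y, fun h => ?_⟩
  have h1 := (comm_iff hi0 rfl rfl hx rfl hi0 hiL hy).mp h
  rw [single_one_dotProduct, zero_dotProduct, Pi.single_eq_same] at h1
  exact one_ne_zero h1

theorem card_center [Fintype F] : Nat.card ↥(Subgroup.center ↥(E n F)) = Fintype.card F := by
  rw [← Nat.card_eq_fintype_card]
  have hinj : Function.Injective (fun z : ↥(Subgroup.center ↥(E n F)) =>
      (((z : ↥(E n F)) : GL (Fin (n + 2)) F) : Matrix (Fin (n + 2)) (Fin (n + 2)) F) 0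
        (Fin.last (n + 1))) := by
    intro z z' h
    obtain ⟨c, hc⟩ := (mem_center_iff z.1).mp z.2
    obtain ⟨c', hc'⟩ := (mem_center_iff z'.1).mp z'.2
    simp only at h
    rw [hc, hc', mat_zero_row _ _ rfl, mat_zero_row _ _ rfl] at h
    have h1 : c = c' := by
      have h2 := add_left_cancel h
      simpa [eL_last] using h2
    apply Subtype.ext; apply Subtype.ext; apply Units.ext
    rw [hc, hc', h1]
  have hsurj : Function.Surjective (fun z : ↥(Subgroup.center ↥(E n F)) =>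
      (((z : ↥(E n F)) : GL (Fin (n + 2)) F) : Matrix (Fin (n + 2)) (Fin (n + 2)) F) 0
        (Fin.last (n + 1))) := by
    intro c
    obtain ⟨z, hz⟩ := exists_mem (F := F) (n := n) (c • eL) 0 (by simp [eL_zero]) rfl rfl
    refine ⟨⟨z, (mem_center_iff z).mpr ⟨c, hz⟩⟩, ?_⟩
    simp only
    rw [hz, mat_zero_row _ _ rfl, Matrix.one_apply_ne (Ne.symm last_ne)]
    simp [eL_last]
  exact Nat.card_congr (Equiv.ofBijective _ ⟨hinj, hsurj⟩)

theorem card_E [Fintype F] : Nat.card ↥(E n F) = Fintype.card F ^ (1 + 2 * n) := by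
  have hinj : Function.Injective (fun z : ↥(E n F) =>
      ((fun j : Fin (n + 1) => ((z : GL (Fin (n + 2)) F) :
          Matrix (Fin (n + 2)) (Fin (n + 2)) F) 0 j.succ,
        fun i : Fin n => ((z : GL (Fin (n + 2)) F) :
          Matrix (Fin (n + 2)) (Fin (n + 2)) F) i.castSucc.succ (Fin.last (n + 1))) :
        (Fin (n + 1) → F) × (Fin n → F))) := by
    intro z z' h
    obtain ⟨r, s, hr, hs0, hsL, hz⟩ := z.2
    obtain ⟨r', s', hr', hs0', hsL', hz'⟩ := z'.2
    simp only [Prod.mk.injEq] at h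
    obtain ⟨h1, h2⟩ := h
    have hrr : r = r' := by
      funext j
      refine Fin.cases ?_ (fun j => ?_) j
      · rw [hr, hr']
      · have h3 : ((z : GL (Fin (n + 2)) F) : Matrix (Fin (n + 2)) (Fin (n + 2)) F) 0 j.succ =
            ((z' : GL (Fin (n + 2)) F) : Matrix (Fin (n + 2)) (Fin (n + 2)) F) 0 j.succ :=
          congrFun h1 j
        rw [hz, hz', mat_zero_row _ _ hs0, mat_zero_row _ _ hs0'] at h3
        exact add_left_cancel h3
    have hss : s = s' := by
      funext j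
      refine Fin.cases ?_ (fun j => ?_) j
      · rw [hs0, hs0']
      · refine Fin.lastCases ?_ (fun i => ?_) j
        · rw [Fin.succ_last, hsL, hsL']
        · have h3 : ((z : GL (Fin (n + 2)) F) : Matrix (Fin (n + 2)) (Fin (n + 2)) F)
              i.castSucc.succ (Fin.last (n + 1)) =
              ((z' : GL (Fin (n + 2)) F) : Matrix (Fin (n + 2)) (Fin (n + 2)) F)
                i.castSucc.succ (Fin.last (n + 1)) := congrFun h2 i
          rw [hz, hz', mat_last_col _ _ _ (Fin.succ_ne_zero _),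
            mat_last_col _ _ _ (Fin.succ_ne_zero _)] at h3
          exact add_left_cancel h3
    apply Subtype.ext; apply Units.ext
    rw [hz, hz', hrr, hss]
  have hsurj : Function.Surjective (fun z : ↥(E n F) =>
      ((fun j : Fin (n + 1) => ((z : GL (Fin (n + 2)) F) :
          Matrix (Fin (n + 2)) (Fin (n + 2)) F) 0 j.succ,
        fun i : Fin n => ((z : GL (Fin (n + 2)) F) :
          Matrix (Fin (n + 2)) (Fin (n + 2)) F) i.castSucc.succ (Fin.last (n + 1))) :
        (Fin (n + 1) → F) × (Fin n → F))) := by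
    rintro ⟨ρ, σ⟩
    have hsL : (Fin.cons 0 (Fin.snoc σ 0 : Fin (n + 1) → F) : Fin (n + 2) → F)
        (Fin.last (n + 1)) = 0 := by
      rw [← Fin.succ_last, Fin.cons_succ, Fin.snoc_last]
    obtain ⟨z, hz⟩ := exists_mem (F := F) (n := n) (Fin.cons 0 ρ)
      (Fin.cons 0 (Fin.snoc σ 0 : Fin (n + 1) → F)) (Fin.cons_zero _ _) (Fin.cons_zero _ _) hsL
    refine ⟨z, ?_⟩
    simp only [Prod.mk.injEq]
    constructor
    · funext j
      rw [hz, mat_zero_row _ _ (Fin.cons_zero _ _), Fin.cons_succ,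
        Matrix.one_apply_ne (Ne.symm (Fin.succ_ne_zero j)), zero_add]
    · funext i
      have hne : (i.castSucc.succ : Fin (n + 2)) ≠ Fin.last (n + 1) := by
        rw [← Fin.succ_last]
        intro h
        exact (Fin.castSucc_lt_last i).ne (Fin.succ_injective _ h)
      rw [hz, mat_last_col _ _ _ (Fin.succ_ne_zero _), Fin.cons_succ, Fin.snoc_castSucc,
        Matrix.one_apply_ne hne, zero_add]
  rw [Nat.card_congr (Equiv.ofBijective _ ⟨hinj, hsurj⟩), Nat.card_prod,
    Nat.card_eq_fintype_card, Nat.card_eq_fintype_card, Fintype.card_fun, Fintype.card_fun,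
    Fintype.card_fin, Fintype.card_fin, ← pow_add]
  congr 1
  ring

end

theorem pow_eq_one (p : ℕ) [Fact p.Prime] (hp : p ≠ 2) (n : ℕ) (x : ↥(E n (ZMod p))) :
    x ^ p = 1 := by
  obtain ⟨r, s, hr, hs0, hsL, hx⟩ := x.2
  apply Subtype.ext; apply Units.ext
  rw [Subgroup.coe_pow, Units.val_pow_eq_pow_val, hx]
  obtain ⟨N, hN⟩ : ∃ N : Matrix (Fin (n + 2)) (Fin (n + 2)) (ZMod p),
      N = vecMulVec e0 r + vecMulVec s eL := ⟨_, rfl⟩
  have h1 : mat r s = 1 + N := by rw [hN, mat, add_assoc]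
  have hC : (vecMulVec e0 r + vecMulVec s eL) *
      vecMulVec (e0 : Fin (n + 2) → ZMod p) (eL : Fin (n + 2) → ZMod p) = 0 := by
    rw [add_mul, vecMulVec_mul_vecMulVec, vecMulVec_mul_vecMulVec, dot_e0, hr, eL_dot,
      e0_ne _ last_ne]
    simp
  have hNN : N * N = (r ⬝ᵥ s) • vecMulVec (e0 : Fin (n + 2) → ZMod p) eL := by
    rw [hN, mul_add, add_mul, add_mul, vecMulVec_mul_vecMulVec, vecMulVec_mul_vecMulVec,
      vecMulVec_mul_vecMulVec, vecMulVec_mul_vecMulVec, dot_e0, hr, eL_dot, eL_dot,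
      e0_ne _ last_ne, hsL]
    simp
  have hN3 : N ^ 3 = 0 := by
    rw [pow_succ, pow_two, hNN, smul_mul_assoc]
    have h2 : vecMulVec (e0 : Fin (n + 2) → ZMod p) (eL : Fin (n + 2) → ZMod p) * N = 0 := by
      rw [hN, mul_add, vecMulVec_mul_vecMulVec, vecMulVec_mul_vecMulVec, eL_dot,
        e0_ne _ last_ne, eL_dot, hsL]
      simp
    rw [h2, smul_zero]
  have hp3 : 3 ≤ p := by
    have := (Fact.out : p.Prime).two_le
    omega
  have hNp : N ^ p = 0 := by
    have h3 : N ^ p = N ^ 3 * N ^ (p - 3) := by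
      rw [← pow_add]; congr 1; omega
    rw [h3, hN3, zero_mul]
  rw [h1, add_pow_char_of_commute p (Commute.one_left N), one_pow, hNp, add_zero]
  rfl

/-- For every odd prime p and every n ≥ 1 there is an extraspecial p-group of order p^(1+2n) and exponent p; concretely, the general linear group of degree n + 2 over the field with p elements contains such a subgroup. -/
theorem result (p : ℕ) [Fact p.Prime] (hp : p ≠ 2) (n : ℕ) (hn : 1 ≤ n) : ∃ E : Subgroup (Matrix.GeneralLinearGroup (Fin (n + 2)) (ZMod p)), Cfsg.IsExtraspecial p ↥E ∧ Nat.card E = p ^ (1 + 2 * n) ∧ ∀ x ∈ E, x ^ p = 1 := by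
  have hcard : Nat.card ↥(E n (ZMod p)) = p ^ (1 + 2 * n) := by
    rw [card_E, ZMod.card]
  have hX : IsPGroup p ↥(E n (ZMod p)) := IsPGroup.of_card hcard
  have hZ : Nat.card ↥(Subgroup.center ↥(E n (ZMod p))) = p := by
    rw [card_center, ZMod.card]
  refine ⟨E n (ZMod p), ?_, hcard, ?_⟩
  · exact extraspecial_of hX hZ comm_le (nonabelian hn)
      (fun x => by rw [pow_eq_one p hp n x]; exact Subgroup.one_mem _)
  · intro x hx
    have h := pow_eq_one p hp n ⟨x, hx⟩
    exact congrArg Subtype.val h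

end Cfsg.Agent.S3799
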