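import Cfsg.Statements.S3800
import Mathlib

set_option autoImplicit false
open Cfsg

namespace Cfsg.Agent.S3800

open Pointwise in
theorem mem_smul_sylow {G : Type*} [Group G] {p : ℕ} (g : G) (P : Sylow p G) (x : G) :
    x ∈ g • P ↔ g⁻¹ * x * g ∈ P := by
  change x ∈ ((g • P : Sylow p G) : Subgroup G) ↔ _
  rw [Sylow.coe_subgroup_smul, Subgroup.mem_pointwise_smul_iff_inv_smul_mem]
  simp only [MulAut.smul_def, MulAut.conj_inv_apply]
  exact Iff.rfl

theorem relIndex_sup_dvd {G : Type*} [Group G] [Finite G] (P N : Subgroup G) [N.Normal] :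
    P.relIndex (P ⊔ N) ∣ Nat.card N := by
  have h1 := Subgroup.relIndex_mul_relIndex ⊥ P (P ⊔ N) bot_le le_sup_left
  have h2 := Subgroup.relIndex_mul_relIndex ⊥ N (P ⊔ N) bot_le le_sup_right
  have h3 := Subgroup.relIndex_sup_right P N
  have h4 := Subgroup.relIndex_mul_relIndex ⊥ (N ⊓ P) P bot_le inf_le_right
  rw [Subgroup.relIndex_bot_left, Subgroup.relIndex_bot_left] at h1 h2 h4
  rw [Subgroup.inf_relIndex_right] at h4
  rw [h3] at h2
  have h5 : N.relIndex P ≠ 0 := by
    unfold Subgroup.relIndex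
    exact Subgroup.index_ne_zero_of_finite
  have h6 : Nat.card (N ⊓ P : Subgroup G) * P.relIndex (P ⊔ N) = Nat.card N := by
    apply Nat.eq_of_mul_eq_mul_right (Nat.pos_of_ne_zero h5)
    calc Nat.card (N ⊓ P : Subgroup G) * P.relIndex (P ⊔ N) * N.relIndex P
        = (Nat.card (N ⊓ P : Subgroup G) * N.relIndex P) * P.relIndex (P ⊔ N) := by ring
      _ = Nat.card N * N.relIndex P := by rw [h4, h1, h2]
  exact Dvd.intro_left _ h6

theorem normalizer_quot {G : Type*} [Group G] [Finite G] {p : ℕ} [Fact p.Prime] (N : Subgroup G) [N.Normal]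
    (hN : (Nat.card N).Coprime p) (P : Subgroup G) (hP : IsPGroup p P) :
    Subgroup.normalizer ((P.map (QuotientGroup.mk' N)) : Set (G ⧸ N)) = (Subgroup.normalizer (P : Set G)).map (QuotientGroup.mk' N) := by
  apply le_antisymm _ (Subgroup.le_normalizer_map _)
  intro y hy
  obtain ⟨g, rfl⟩ := QuotientGroup.mk'_surjective N y
  have hp : p.Prime := Fact.out
  set H := P ⊔ N with hH
  have hconj : ∀ x ∈ P, g * x * g⁻¹ ∈ H := by
    intro x hx
    have h1 := (Subgroup.mem_normalizer_iff.mp hy (QuotientGroup.mk' N x)).mp (Subgroup.mem_map_of_mem _ hx)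
    have h2 : g * x * g⁻¹ ∈ Subgroup.comap (QuotientGroup.mk' N) (Subgroup.map (QuotientGroup.mk' N) P) := by
      rw [Subgroup.mem_comap]
      simpa using h1
    rw [Subgroup.comap_map_eq, QuotientGroup.ker_mk'] at h2
    exact h2
  have hPH : IsPGroup p (P.subgroupOf H) := hP.comap_subtype
  have hidx : ¬ p ∣ (P.subgroupOf H).index := by
    intro hdvd
    have h1 : p ∣ Nat.card N := hdvd.trans (relIndex_sup_dvd P N)
    have := Nat.Coprime.eq_one_of_dvd hN.symm h1
    exact hp.one_lt.ne' this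
  set S : Sylow p H := hPH.toSylow hidx with hS
  -- conjugate of P as a subgroup of H
  set P' : Subgroup H := (P.map (MulAut.conj g).toMonoidHom).subgroupOf H with hP'
  have hP'p : IsPGroup p P' := by
    apply IsPGroup.comap_subtype
    exact hP.map _
  obtain ⟨Q, hQ⟩ := hP'p.exists_le_sylow
  obtain ⟨h, hh⟩ := MulAction.exists_smul_eq H S Q
  have hn : (h : G)⁻¹ * g ∈ Subgroup.normalizer (P : Set G) := by
    apply Subgroup.mem_normalizer_fintype
    intro x hx
    have h1 : (⟨g * x * g⁻¹, hconj x hx⟩ : H) ∈ P' := by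
      rw [hP', Subgroup.mem_subgroupOf]
      exact ⟨x, hx, by simp [MulAut.conj_apply]⟩
    have h2 := hQ h1
    rw [← hh] at h2
    have h3 := (mem_smul_sylow h S _).mp h2
    have h4 : h⁻¹ * (⟨g * x * g⁻¹, hconj x hx⟩ : H) * h ∈ P.subgroupOf H := h3
    rw [Subgroup.mem_subgroupOf] at h4
    have h5 : (h : G)⁻¹ * g * x * ((h : G)⁻¹ * g)⁻¹ = (h : G)⁻¹ * (g * x * g⁻¹) * h := by group
    rw [h5]
    exact h4
  have hmk : (QuotientGroup.mk' N (h : G)) ∈ Subgroup.map (QuotientGroup.mk' N) (Subgroup.normalizer (P : Set G)) := by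
    have h1 : (h : G) ∈ Subgroup.comap (QuotientGroup.mk' N) (Subgroup.map (QuotientGroup.mk' N) P) := by
      rw [Subgroup.comap_map_eq, QuotientGroup.ker_mk']
      exact h.2
    rw [Subgroup.mem_comap] at h1
    exact Subgroup.map_mono Subgroup.le_normalizer h1
  have h6 : QuotientGroup.mk' N g = QuotientGroup.mk' N (h : G) * QuotientGroup.mk' N ((h : G)⁻¹ * g) := by
    rw [← map_mul]; congr 1; group
  rw [h6]
  exact Subgroup.mul_mem _ hmk (Subgroup.mem_map_of_mem _ hn)

/-- Let G be a finite group, N a normal subgroup of G whose order is prime to p, and P a p-subgroup of G. Then in G/N the normalizer of the image of P is the image of N_G(P), and the centralizer of the image of P is the image of C_G(P). -/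
theorem result {G : Type*} [Group G] [Finite G] {p : ℕ} [Fact p.Prime] (N : Subgroup G) [N.Normal] (hN : (Nat.card N).Coprime p) (P : Subgroup G) (hP : IsPGroup p P) : Subgroup.normalizer ((P.map (QuotientGroup.mk' N)) : Set (G ⧸ N)) = (Subgroup.normalizer (P : Set G)).map (QuotientGroup.mk' N) ∧ Subgroup.centralizer ((P.map (QuotientGroup.mk' N)) : Set (G ⧸ N)) = (Subgroup.centralizer (P : Set G)).map (QuotientGroup.mk' N) := by
  have hp : p.Prime := Fact.out
  have hnorm := normalizer_quot N hN P hP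
  refine ⟨hnorm, ?_⟩
  apply le_antisymm
  · intro y hy
    have hyN : y ∈ Subgroup.normalizer ((P.map (QuotientGroup.mk' N)) : Set (G ⧸ N)) :=
      Subgroup.centralizer_le_normalizer _ hy
    rw [hnorm] at hyN
    obtain ⟨g, hg, rfl⟩ := hyN
    refine ⟨g, ?_, rfl⟩
    rw [SetLike.mem_coe, Subgroup.mem_centralizer_iff]
    intro x hx
    have h1 : g * x * g⁻¹ ∈ P := (Subgroup.mem_normalizer_iff.mp hg x).mp hx
    have h2 : g * x * g⁻¹ * x⁻¹ ∈ P := Subgroup.mul_mem _ h1 (Subgroup.inv_mem _ hx)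
    have h3 : g * x * g⁻¹ * x⁻¹ ∈ N := by
      rw [← QuotientGroup.ker_mk' N, MonoidHom.mem_ker]
      have h4 := Subgroup.mem_centralizer_iff.mp hy (QuotientGroup.mk' N x) (Subgroup.mem_map_of_mem _ hx)
      simp only [map_mul, map_inv]
      rw [← h4]
      group
    have hcop : (Nat.card P).Coprime (Nat.card N) := by
      obtain ⟨n, hn⟩ := IsPGroup.iff_card.mp hP
      rw [hn]
      exact Nat.Coprime.pow_left _ hN.symm
    have hdisj := Subgroup.disjoint_of_coprime_natCard hcop
    have h5 : g * x * g⁻¹ * x⁻¹ = 1 := by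
      have : g * x * g⁻¹ * x⁻¹ ∈ P ⊓ N := ⟨h2, h3⟩
      rw [hdisj.eq_bot] at this
      exact this
    have h6 : g * x = x * g := by
      have := congrArg (fun t => t * x * g) h5
      simpa [mul_assoc] using this
    exact h6.symm
  · rintro _ ⟨c, hc, rfl⟩
    rw [Subgroup.mem_centralizer_iff]
    rintro _ ⟨x, hx, rfl⟩
    have := Subgroup.mem_centralizer_iff.mp hc x hx
    rw [← map_mul, ← map_mul, this]

end Cfsg.Agent.S3800
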