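import Cfsg.Statements.S3979
import Mathlib

set_option autoImplicit false
open Cfsg

namespace Cfsg.Agent.S3979

/-- A finite cyclic group has trivial Schur multiplier: every finite stem extension of it is an isomorphism, said through `HasCyclicSchurMultiplier G 1`. -/
theorem result {G : Type*} [Group G] [Finite G] [IsCyclic G] : Cfsg.HasCyclicSchurMultiplier G 1 := by
  refine ⟨⟨G, inferInstance, inferInstance, MonoidHom.id G, ⟨Function.surjective_id, ?_, ?_⟩, ?_⟩, ?_⟩
  · simp
  · simp
  · have h : (MonoidHom.id G).ker = ⊥ := by simp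
    rw [h]
    exact ⟨MulEquiv.ofUnique⟩
  · intro Γ _ _ σ hσ
    obtain ⟨hsurj, hcen, hcomm⟩ := hσ
    have hab : ∀ a b : Γ, a * b = b * a := by
      have := MonoidHom.isMulCommutative_of_isCyclic_of_ker_le_center σ hcen
      exact fun a b => mul_comm' a b
    have hc : commutator Γ = ⊥ := by
      rw [commutator_def, Subgroup.commutator_eq_bot_iff_le_centralizer]
      intro x _ y _
      exact hab y x
    have hk : σ.ker = ⊥ := by
      rw [hc] at hcomm
      exact le_bot_iff.mp hcomm
    refine ⟨1, ?_⟩
    intro ⟨x, hx⟩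
    rw [hk] at hx
    refine ⟨1, ?_⟩
    ext
    simp [Subgroup.mem_bot.mp hx]

end Cfsg.Agent.S3979
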