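import Cfsg.Statements.S3950
import Cfsg.Agent.Lib.helper20.Schur
import Cfsg.Agent.Lib.helper20.CExt
import Cfsg.Agent.S3979

set_option autoImplicit false
open Cfsg

namespace Cfsg.Agent.S3950

open Cfsg.Agent.Lib.helper20

/-- product of two homomorphisms to `ZMod p` as a cocycle -/
def beta {G : Type*} [CommGroup G] (p : ℕ) (φ ψ : G →* Multiplicative (ZMod p)) :
    Bimul G (ZMod p) where
  toFun g h := Multiplicative.toAdd (φ g) * Multiplicative.toAdd (ψ h)
  map_mul_left g g' h := by simp only [map_mul, toAdd_mul, add_mul]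
  map_mul_right g h h' := by simp only [map_mul, toAdd_mul, mul_add]

theorem cyclic_pi {ι : Type} [Fintype ι] (n : ι → ℕ)
    (hcop : Pairwise (Function.onFun Nat.Coprime n)) :
    IsCyclic ((i : ι) → Multiplicative (ZMod (n i))) := by
  have e1 : ZMod (∏ i, n i) ≃+ ((i : ι) → ZMod (n i)) := (ZMod.prodEquivPi n hcop).toAddEquiv
  have e2 : Multiplicative (ZMod (∏ i, n i)) ≃* ((i : ι) → Multiplicative (ZMod (n i))) :=
    (AddEquiv.toMultiplicative e1).trans (MulEquiv.piMultiplicative _)
  exact isCyclic_of_surjective e2 e2.surjective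

/-- A finite abelian group has trivial Schur multiplier if and only if it is cyclic. -/
theorem result {G : Type*} [CommGroup G] [Finite G] : Cfsg.HasCyclicSchurMultiplier G 1 ↔ IsCyclic G := by
  constructor
  · intro h
    obtain ⟨ι, _, n, hn, ⟨e⟩⟩ := CommGroup.equiv_prod_multiplicative_zmod_of_finite G
    classical
    by_cases hcop : Pairwise (Function.onFun Nat.Coprime n)
    · have := cyclic_pi n hcop
      exact isCyclic_of_surjective e.symm e.symm.surjective
    · exfalso
      rw [Pairwise] at hcop
      simp only [not_forall] at hcop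
      obtain ⟨i, j, hij, hnc⟩ := hcop
      have hnc' : ¬ Nat.Coprime (n i) (n j) := hnc
      obtain ⟨p, hp, hpi, hpj⟩ := Nat.Prime.not_coprime_iff_dvd.mp hnc'
      have hpf : Fact p.Prime := ⟨hp⟩
      let φ : G →* Multiplicative (ZMod p) :=
        (AddMonoidHom.toMultiplicative (ZMod.castHom hpi (ZMod p)).toAddMonoidHom).comp
          ((Pi.evalMonoidHom _ i).comp e.toMonoidHom)
      let ψ : G →* Multiplicative (ZMod p) :=
        (AddMonoidHom.toMultiplicative (ZMod.castHom hpj (ZMod p)).toAddMonoidHom).comp
          ((Pi.evalMonoidHom _ j).comp e.toMonoidHom)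
      let g₀ : G := e.symm (Pi.mulSingle i (Multiplicative.ofAdd (1 : ZMod (n i))))
      let h₀ : G := e.symm (Pi.mulSingle j (Multiplicative.ofAdd (1 : ZMod (n j))))
      have hφg : Multiplicative.toAdd (φ g₀) = 1 := by
        show ZMod.castHom hpi (ZMod p) (Multiplicative.toAdd (e g₀ i)) = 1
        simp only [g₀, MulEquiv.apply_symm_apply, Pi.mulSingle_eq_same, toAdd_ofAdd, map_one]
      have hψg : Multiplicative.toAdd (ψ g₀) = 0 := by
        show ZMod.castHom hpj (ZMod p) (Multiplicative.toAdd (e g₀ j)) = 0
        simp only [g₀, MulEquiv.apply_symm_apply]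
        rw [Pi.mulSingle_eq_of_ne (Ne.symm hij), toAdd_one, map_zero]
      have hφh : Multiplicative.toAdd (φ h₀) = 0 := by
        show ZMod.castHom hpi (ZMod p) (Multiplicative.toAdd (e h₀ i)) = 0
        simp only [h₀, MulEquiv.apply_symm_apply]
        rw [Pi.mulSingle_eq_of_ne hij, toAdd_one, map_zero]
      have hψh : Multiplicative.toAdd (ψ h₀) = 1 := by
        show ZMod.castHom hpj (ZMod p) (Multiplicative.toAdd (e h₀ j)) = 1
        simp only [h₀, MulEquiv.apply_symm_apply, Pi.mulSingle_eq_same, toAdd_ofAdd, map_one]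
      have hstem : Cfsg.IsStemExtension (CExt.proj (beta p φ ψ)) := by
        apply CExt.isStem
        intro a
        have h1 := CExt.comm_mem (beta p φ ψ) g₀ h₀ (mul_comm _ _)
        have h2 : (beta p φ ψ).toFun g₀ h₀ - (beta p φ ψ).toFun h₀ g₀ = 1 := by
          show Multiplicative.toAdd (φ g₀) * Multiplicative.toAdd (ψ h₀) -
            Multiplicative.toAdd (φ h₀) * Multiplicative.toAdd (ψ g₀) = 1
          rw [hφg, hψg, hφh, hψh]; ring
        rw [h2] at h1
        have h3 : a = (Multiplicative.ofAdd (1 : ZMod p)) ^ (Multiplicative.toAdd a).val := by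
          rw [← ofAdd_nsmul]
          apply Multiplicative.toAdd.injective
          simp
        rw [h3, map_pow]
        exact Subgroup.pow_mem _ h1 _
      obtain ⟨π, hπ⟩ := h.2 (CExt (beta p φ ψ)) (CExt.proj (beta p φ ψ)) hstem
      have hsub : Subsingleton (Multiplicative (ZMod 1)) := by
        show Subsingleton (ZMod 1)
        infer_instance
      have hsub2 : Subsingleton (CExt.proj (beta p φ ψ)).ker := hπ.subsingleton
      have hsub3 : Subsingleton (Multiplicative (ZMod p)) :=
        (CExt.kerEquiv (beta p φ ψ)).symm.injective.subsingleton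
      have h01 : (Multiplicative.ofAdd (0 : ZMod p)) = Multiplicative.ofAdd (1 : ZMod p) :=
        Subsingleton.elim _ _
      have : (0 : ZMod p) = 1 := Multiplicative.ofAdd.injective h01
      exact zero_ne_one this
  · intro h
    exact Cfsg.Agent.S3979.result

end Cfsg.Agent.S3950
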