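import Cfsg.Statements.S3951
import Cfsg.Agent.Lib.helper20.Schur
import Cfsg.Agent.Lib.helper20.CExt

set_option autoImplicit false
open Cfsg

namespace Cfsg.Agent.S3951

open Cfsg.Agent.Lib.helper20

/-- The Heisenberg cocycle. -/
def beta (m n : ℕ) (hnm : n ∣ m) : Bimul (Multiplicative (ZMod m × ZMod n)) (ZMod n) where
  toFun g h := ZMod.castHom hnm (ZMod n) (Multiplicative.toAdd g).1 * (Multiplicative.toAdd h).2
  map_mul_left g g' h := by simp only [toAdd_mul, Prod.fst_add, map_add, add_mul]
  map_mul_right g h h' := by simp only [toAdd_mul, Prod.snd_add, mul_add]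

theorem gen (m n : ℕ) [NeZero m] [NeZero n] :
    Subgroup.closure ({Multiplicative.ofAdd ((1 : ZMod m), (0 : ZMod n)),
      Multiplicative.ofAdd ((0 : ZMod m), (1 : ZMod n))} : Set (Multiplicative (ZMod m × ZMod n))) = ⊤ := by
  rw [eq_top_iff]
  intro g _
  have hg : g = Multiplicative.ofAdd ((1 : ZMod m), (0 : ZMod n)) ^ (Multiplicative.toAdd g).1.val *
      Multiplicative.ofAdd ((0 : ZMod m), (1 : ZMod n)) ^ (Multiplicative.toAdd g).2.val := by
    rw [← ofAdd_nsmul, ← ofAdd_nsmul, ← ofAdd_add]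
    apply Multiplicative.toAdd.injective
    simp
  rw [hg]
  exact Subgroup.mul_mem _ (Subgroup.pow_mem _ (Subgroup.subset_closure (by simp)) _)
    (Subgroup.pow_mem _ (Subgroup.subset_closure (by simp)) _)

/-- For positive integers `m` and `n` with `n` dividing `m`, the Schur multiplier of the abelian group `ZMod m × ZMod n` (written multiplicatively) is cyclic of order `n`. In particular the elementary abelian group of order `p ^ 2` has multiplier of order `p`. -/
theorem result (m n : ℕ) [NeZero m] [NeZero n] (hnm : n ∣ m) : Cfsg.HasCyclicSchurMultiplier (Multiplicative (ZMod m × ZMod n)) n := by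
  refine ⟨⟨CExt (beta m n hnm), inferInstance, inferInstance, CExt.proj (beta m n hnm), ?_,
    ⟨CExt.kerEquiv (beta m n hnm)⟩⟩, ?_⟩
  · apply CExt.isStem
    intro a
    have h1 := CExt.comm_mem (beta m n hnm) (Multiplicative.ofAdd ((1 : ZMod m), (0 : ZMod n)))
      (Multiplicative.ofAdd ((0 : ZMod m), (1 : ZMod n))) (mul_comm _ _)
    have h2 : (beta m n hnm).toFun (Multiplicative.ofAdd ((1 : ZMod m), (0 : ZMod n)))
        (Multiplicative.ofAdd ((0 : ZMod m), (1 : ZMod n))) -
        (beta m n hnm).toFun (Multiplicative.ofAdd ((0 : ZMod m), (1 : ZMod n)))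
        (Multiplicative.ofAdd ((1 : ZMod m), (0 : ZMod n))) = 1 := by
      show ZMod.castHom hnm (ZMod n) 1 * 1 - ZMod.castHom hnm (ZMod n) 0 * 0 = 1
      rw [map_one, map_zero]; ring
    rw [h2] at h1
    have h3 : a = (Multiplicative.ofAdd (1 : ZMod n)) ^ (Multiplicative.toAdd a).val := by
      rw [← ofAdd_nsmul]
      apply Multiplicative.toAdd.injective
      simp
    rw [h3, map_pow]
    exact Subgroup.pow_mem _ h1 _
  · intro Γ _ _ σ hσ
    obtain ⟨x, hx⟩ := hσ.1 (Multiplicative.ofAdd ((1 : ZMod m), (0 : ZMod n)))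
    obtain ⟨y, hy⟩ := hσ.1 (Multiplicative.ofAdd ((0 : ZMod m), (1 : ZMod n)))
    have hgen : Subgroup.closure ({σ x, σ y} : Set (Multiplicative (ZMod m × ZMod n))) = ⊤ := by
      rw [hx, hy]; exact gen m n
    set z := y * x * y⁻¹ * x⁻¹ with hz
    have hzker : z ∈ σ.ker := by
      rw [MonoidHom.mem_ker, hz]
      simp only [map_mul, map_inv]
      rw [mul_comm (σ y) (σ x)]
      simp
    have hzc : ∀ g, g * z = z * g := Subgroup.mem_center_iff.mp (hσ.2.1 hzker)
    have hW : (Subgroup.zpowers z).Normal := by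
      constructor
      rintro _ ⟨k, rfl⟩ g
      refine ⟨k, ?_⟩
      show z ^ k = g * z ^ k * g⁻¹
      rw [← conj_zpow, hzc g]
      simp
    have hker : σ.ker ≤ Subgroup.zpowers z := ker_le_of_normal σ hσ x y hgen _ (Subgroup.mem_zpowers z)
    have hyn : y ^ n ∈ σ.ker := by
      rw [MonoidHom.mem_ker, map_pow, hy, ← ofAdd_nsmul]
      simp
    have hync : ∀ g, g * y ^ n = y ^ n * g := Subgroup.mem_center_iff.mp (hσ.2.1 hyn)
    have hpow : ∀ k : ℕ, y ^ k * x = z ^ k * x * y ^ k := by
      intro k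
      induction k with
      | zero => simp
      | succ k ih =>
        have e1 : y * x = z * x * y := by rw [hz]; group
        calc y ^ (k + 1) * x = y ^ k * (y * x) := by rw [pow_succ]; group
          _ = y ^ k * (z * x * y) := by rw [e1]
          _ = (y ^ k * z) * x * y := by group
          _ = (z * y ^ k) * x * y := by rw [hzc]
          _ = z * (y ^ k * x) * y := by group
          _ = z * (z ^ k * x * y ^ k) * y := by rw [ih]
          _ = z ^ (k + 1) * x * y ^ (k + 1) := by rw [pow_succ, pow_succ']; group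
    have hzn : z ^ n = 1 := by
      have h1 := hpow n
      rw [← hync x] at h1
      have h2 : x * y ^ n = z ^ n * (x * y ^ n) := by rw [mul_assoc] at h1; exact h1
      exact (mul_eq_right.mp h2.symm)
    apply exists_surj_zmod (K := σ.ker) n ⟨z, hzker⟩
    · apply Subtype.ext
      exact hzn
    · rintro ⟨w, hw⟩
      obtain ⟨k, rfl⟩ := hker hw
      refine ⟨k, ?_⟩
      apply Subtype.ext
      show ((⟨z, hzker⟩ : σ.ker) ^ k : σ.ker).1 = z ^ k
      rw [Subgroup.coe_zpow]

end Cfsg.Agent.S3951
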