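import Cfsg.Statements.S3952
import Mathlib
import Cfsg.Agent.Lib.helper24.CharCyclicExt
import Cfsg.Agent.Lib.helper24.CharComplete
import Cfsg.Agent.S3773

set_option autoImplicit false
open Cfsg

namespace Cfsg.Agent.S3952

open Cfsg.Agent.Lib.helper24
open scoped ComplexConjugate

universe u

theorem central_data {Γ : Type u} [Group Γ] [Finite Γ] (χ : IrrCharacter Γ) (Z : Subgroup Γ)
    (hZc : Z ≤ Subgroup.center Γ) (hZd : Z ≤ commutator Γ) :
    ∃ (n : ℕ) (c : Z → ℂ), 0 < n ∧ χ.1 1 = n ∧ (∀ z : Z, χ.1 z = n * c z) ∧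
      (∀ z w : Z, c (z * w) = c z * c w) ∧ (∀ z : Z, c z ^ n = 1) := by
  obtain ⟨k, ρ, hirr, hρ⟩ := χ.2
  have hk : 0 < Module.finrank ℂ (Fin k → ℂ) := finrank_pos_of_irreducible ρ
  have hk' : 0 < k := by simpa using hk
  have hnt : Nontrivial (Fin k → ℂ) := Module.finrank_pos_iff.mp hk
  have hsc : ∀ z : Z, ∃ c : ℂ, ρ z = c • LinearMap.id := by
    intro z
    apply schur_scalar ρ (ρ z)
    intro g
    have hcomm : (z : Γ) * g = g * z := by
      have := Subgroup.mem_center_iff.mp (hZc z.2) g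
      exact this.symm
    have h1 : ρ ((z : Γ) * g) = ρ (g * z) := by rw [hcomm]
    rw [map_mul, map_mul] at h1
    exact h1
  choose c hc using hsc
  have hid : (LinearMap.id : (Fin k → ℂ) →ₗ[ℂ] (Fin k → ℂ)) ≠ 0 := by
    intro h
    obtain ⟨v, hv⟩ := exists_ne (0 : Fin k → ℂ)
    have := congrArg (fun f : (Fin k → ℂ) →ₗ[ℂ] (Fin k → ℂ) => f v) h
    simp at this
    exact hv this
  refine ⟨k, c, hk', ?_, ?_, ?_, ?_⟩
  · rw [← hρ, Representation.char_one]; simp
  · intro z
    rw [← hρ]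
    show LinearMap.trace ℂ _ (ρ z) = _
    rw [hc z, map_smul, LinearMap.trace_id]
    simp [mul_comm]
  · intro z w
    have h1 : ρ ((z * w : Z) : Γ) = ρ z * ρ w := by
      rw [← map_mul]; rfl
    rw [hc z, hc w, hc (z * w)] at h1
    have h2 : (c (z * w)) • (LinearMap.id : (Fin k → ℂ) →ₗ[ℂ] (Fin k → ℂ))
        = (c z * c w) • LinearMap.id := by
      rw [h1]
      ext v
      simp [mul_smul]
      ring
    exact smul_left_injective ℂ hid h2
  · intro z
    let f : Γ →* ℂ := (LinearMap.det : ((Fin k → ℂ) →ₗ[ℂ] (Fin k → ℂ)) →* ℂ).comp ρ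
    have h1 : commutator Γ ≤ (f.toHomUnits).ker := Abelianization.commutator_subset_ker _
    have h2 := h1 (hZd z.2)
    rw [MonoidHom.mem_ker] at h2
    have h3 : f z = 1 := by
      have := congrArg Units.val h2
      simpa using this
    have h4 : f z = LinearMap.det (ρ z) := rfl
    rw [h4, hc z, LinearMap.det_smul, LinearMap.det_id] at h3
    simpa using h3

/-- If `A` is the Schur multiplier of the finite group `Q`, then the square of the exponent of `A` divides the order of `Q`. -/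
theorem result {Q : Type*} [Group Q] [Finite Q] {A : Type*} [CommGroup A] (hA : Cfsg.HasSchurMultiplier Q A) : Monoid.exponent A ^ 2 ∣ Nat.card Q := by
  classical
  obtain ⟨⟨Γ, _, _, σ, ⟨hsurj, hcen, hcomm⟩, ⟨e⟩⟩, _⟩ := hA
  obtain ⟨Z, hZ⟩ : ∃ Z, Z = σ.ker := ⟨_, rfl⟩
  rw [← hZ] at hcen hcomm
  have e' : Z ≃* A := by rw [hZ]; exact e
  rw [← Monoid.exponent_eq_of_mulEquiv e']
  have hcard : Nat.card Z * Nat.card Q = Nat.card Γ := by
    have h1 := Subgroup.card_mul_index σ.ker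
    rw [Subgroup.index_ker, ← hZ] at h1
    have h2 : Nat.card σ.range = Nat.card Q := by
      rw [MonoidHom.range_eq_top.mpr hsurj, Subgroup.card_top]
    rw [← h2]; exact h1
  let _ : CommGroup Z := { (inferInstance : Group Z) with
    mul_comm := fun a b => Subtype.ext ((Subgroup.mem_center_iff.mp (hcen b.2) a.1)) }
  have hm0 : Monoid.exponent Z ≠ 0 := Monoid.exponent_ne_zero_of_finite
  have : NeZero ((Monoid.exponent Z : ℕ) : ℂ) := ⟨Nat.cast_ne_zero.mpr hm0⟩
  obtain ⟨ε⟩ := CommGroup.monoidHom_mulEquiv_of_hasEnoughRootsOfUnity Z ℂ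
  obtain ⟨z₀, hz₀⟩ := Monoid.exists_orderOf_eq_exponent (G := Z) Monoid.ExponentExists.of_finite
  obtain ⟨lam, hlam⟩ : ∃ lam : Z →* ℂˣ, orderOf lam = Monoid.exponent Z :=
    ⟨ε.symm z₀, by rw [MulEquiv.orderOf_eq, hz₀]⟩
  have := Fintype.ofFinite Γ
  have := Fintype.ofFinite Z
  have := Fintype.ofFinite (IrrCharacter Γ)
  choose n c hn h1 hz hmul hpow using fun χ : IrrCharacter Γ => central_data χ Z hcen hcomm
  -- orthogonality
  have key : ∀ z : Z, ∑ χ : IrrCharacter Γ, χ.1 z * conj (χ.1 1) =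
      if z = 1 then (Nat.card Γ : ℂ) else 0 := by
    intro z
    by_cases hz1 : z = 1
    · rw [if_pos hz1, hz1]
      have := second_orth_of_isConj (G := Γ) (IsConj.refl (1 : Γ))
      rw [card_centralizer_one] at this
      exact this
    · rw [if_neg hz1]
      apply second_orth_of_not_isConj
      intro hc
      apply hz1
      have := isConj_one_left.mp hc
      exact Subtype.ext this
  have hS1 : ∑ z : Z, ((lam z : ℂˣ) : ℂ)⁻¹ * ∑ χ : IrrCharacter Γ, χ.1 z * conj (χ.1 1)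
      = (Nat.card Γ : ℂ) := by
    simp only [key]
    simp
  have hS2 : ∑ z : Z, ((lam z : ℂˣ) : ℂ)⁻¹ * ∑ χ : IrrCharacter Γ, χ.1 z * conj (χ.1 1)
      = ∑ χ : IrrCharacter Γ, (n χ : ℂ) ^ 2 * ∑ z : Z, ((lam z : ℂˣ) : ℂ)⁻¹ * c χ z := by
    simp only [Finset.mul_sum]
    rw [Finset.sum_comm]
    apply Finset.sum_congr rfl
    intro χ _
    apply Finset.sum_congr rfl
    intro z _
    rw [hz χ z, h1 χ]
    simp only [map_natCast]
    ring
  have hin : ∀ χ : IrrCharacter Γ, ∑ z : Z, ((lam z : ℂˣ) : ℂ)⁻¹ * c χ z =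
      if (∀ z : Z, c χ z = ((lam z : ℂˣ) : ℂ)) then (Nat.card Z : ℂ) else 0 := by
    intro χ
    rcases Cfsg.Agent.S3773.hom_sum (fun z : Z => ((lam z : ℂˣ) : ℂ)⁻¹ * c χ z) (by
      intro a b
      simp only [map_mul, Units.val_mul, hmul χ a b, mul_inv]
      ring) with ⟨h, h'⟩ | h
    · rw [if_pos, h, Nat.card_eq_fintype_card]
      intro z
      have := h' z
      have hne : ((lam z : ℂˣ) : ℂ) ≠ 0 := Units.ne_zero _
      field_simp at this
      exact this
    · rw [h]
      split_ifs with hh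
      · exfalso
        have : ∑ z : Z, ((lam z : ℂˣ) : ℂ)⁻¹ * c χ z = (Fintype.card Z : ℂ) := by
          have : ∀ z : Z, ((lam z : ℂˣ) : ℂ)⁻¹ * c χ z = 1 := by
            intro z
            rw [hh z]
            exact inv_mul_cancel₀ (Units.ne_zero _)
          simp [this]
        rw [h] at this
        have hpos : (0 : ℂ) ≠ (Fintype.card Z : ℂ) := by
          have : 0 < Fintype.card Z := Fintype.card_pos
          exact_mod_cast this.ne
        exact hpos this
      · rfl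
  have hnat : Nat.card Γ = Nat.card Z *
      ∑ χ ∈ Finset.univ.filter (fun χ : IrrCharacter Γ => ∀ z : Z, c χ z = ((lam z : ℂˣ) : ℂ)),
        n χ ^ 2 := by
    have : (Nat.card Γ : ℂ) = ((Nat.card Z *
      ∑ χ ∈ Finset.univ.filter (fun χ : IrrCharacter Γ => ∀ z : Z, c χ z = ((lam z : ℂˣ) : ℂ)),
        n χ ^ 2 : ℕ) : ℂ) := by
      rw [← hS1, hS2]
      simp only [hin]
      push_cast
      rw [Finset.mul_sum, Finset.sum_filter]
      apply Finset.sum_congr rfl
      intro χ _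
      split_ifs <;> ring
    exact_mod_cast this
  have hQ : Nat.card Q =
      ∑ χ ∈ Finset.univ.filter (fun χ : IrrCharacter Γ => ∀ z : Z, c χ z = ((lam z : ℂˣ) : ℂ)),
        n χ ^ 2 := by
    rw [← hcard] at hnat
    exact Nat.eq_of_mul_eq_mul_left Nat.card_pos hnat
  rw [hQ]
  apply Finset.dvd_sum
  intro χ hχ
  rw [Finset.mem_filter] at hχ
  apply pow_dvd_pow_of_dvd
  rw [← hlam]
  apply orderOf_dvd_of_pow_eq_one
  ext z
  have := hpow χ z
  rw [hχ.2 z] at this
  simpa using this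

end Cfsg.Agent.S3952
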