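import Cfsg.Statements.S3962
import Mathlib

set_option autoImplicit false
open Cfsg

namespace Cfsg.Agent.S3962

/-- Let `G` be a perfect group and `π : G →* Q` a surjective homomorphism whose kernel is central. Then `π` maps the centre of `G` onto the centre of `Q`. Taking `π` to be the map to `G ⧸ Z(G)` shows that the central quotient of a perfect group has trivial centre. -/
theorem result {G Q : Type*} [Group G] [Group Q] (hG : Group.IsPerfect G) (π : G →* Q) (hπ : Function.Surjective π) (hker : π.ker ≤ Subgroup.center G) : (Subgroup.center G).map π = Subgroup.center Q := by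
  apply le_antisymm
  · rintro _ ⟨g, hg, rfl⟩
    rw [Subgroup.mem_center_iff]
    intro q
    obtain ⟨h, rfl⟩ := hπ q
    rw [← map_mul, ← map_mul, (Subgroup.mem_center_iff.mp hg) h]
  · intro q hq
    obtain ⟨g, rfl⟩ := hπ q
    refine ⟨g, ?_, rfl⟩
    have key : ∀ a : G, g * a * g⁻¹ * a⁻¹ ∈ Subgroup.center G := by
      intro a
      apply hker
      rw [MonoidHom.mem_ker]
      have := (Subgroup.mem_center_iff.mp hq) (π a)
      simp only [map_mul, map_inv]
      rw [← this]
      simp
    let ψ : G →* Subgroup.center G := MonoidHom.mk' (fun a => ⟨g * a * g⁻¹ * a⁻¹, key a⟩) (by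
      intro a b
      apply Subtype.ext
      show g * (a * b) * g⁻¹ * (a * b)⁻¹ = (g * a * g⁻¹ * a⁻¹) * (g * b * g⁻¹ * b⁻¹)
      have hb := Subgroup.mem_center_iff.mp (key b) a⁻¹
      calc g * (a * b) * g⁻¹ * (a * b)⁻¹ = g * a * g⁻¹ * ((g * b * g⁻¹ * b⁻¹) * a⁻¹) := by group
        _ = g * a * g⁻¹ * (a⁻¹ * (g * b * g⁻¹ * b⁻¹)) := by rw [hb]
        _ = (g * a * g⁻¹ * a⁻¹) * (g * b * g⁻¹ * b⁻¹) := by group)
    have hψ : commutator G ≤ ψ.ker := by
      rw [commutator_eq_closure, Subgroup.closure_le]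
      rintro _ ⟨a, b, rfl⟩
      rw [SetLike.mem_coe, MonoidHom.mem_ker, map_commutatorElement, commutatorElement_eq_one_iff_mul_comm]
      apply Subtype.ext
      exact (Subgroup.mem_center_iff.mp (ψ a).2 (ψ b)).symm
    have htop : commutator G = ⊤ := hG.commutator_eq_top
    rw [htop] at hψ
    rw [SetLike.mem_coe, Subgroup.mem_center_iff]
    intro y
    have h1 : ψ y = 1 := MonoidHom.mem_ker.mp (hψ (Subgroup.mem_top y))
    have h2 : g * y * g⁻¹ * y⁻¹ = 1 := congrArg Subtype.val h1
    calc y * g = (g * y * g⁻¹ * y⁻¹)⁻¹ * (g * y) := by group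
      _ = g * y := by rw [h2]; group

end Cfsg.Agent.S3962
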