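import Cfsg.Statements.S3963
import Cfsg.Agent.Lib.helper20.Schur

set_option autoImplicit false
open Cfsg

namespace Cfsg.Agent.S3963

open Cfsg.Agent.Lib.helper20 in
/-- For every `n ≥ 1` the dicyclic (generalized quaternion) group of order `4 n` has trivial Schur multiplier. -/
theorem result (n : ℕ) [NeZero n] : Cfsg.HasCyclicSchurMultiplier (QuaternionGroup n) 1 := by
  have hnpos : 0 < n := Nat.pos_of_ne_zero (NeZero.ne n)
  apply trivial_of_ker_bot
  intro Γ _ _ σ hσ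
  obtain ⟨w, hwn, hσw, hker⟩ := quaternion_stem n σ hσ
  rw [eq_bot_iff]
  intro z hz
  obtain ⟨k, rfl⟩ := hker hz
  obtain ⟨j, hj, hjk⟩ := zpow_eq_pow_lt w n hnpos hwn k
  have h1 : σ (w ^ k) = 1 := hz
  rw [hjk, map_pow, hσw, quat_a_pow, QuaternionGroup.one_def] at h1
  have h2 : ((-2 : ZMod (2 * n)) * (j : ZMod (2 * n))) = 0 := QuaternionGroup.a.inj h1
  have h3 : (((2 * j : ℕ)) : ZMod (2 * n)) = 0 := by
    push_cast
    linear_combination -h2
  rw [ZMod.natCast_eq_zero_iff] at h3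
  have h4 : n ∣ j := Nat.dvd_of_mul_dvd_mul_left (by norm_num) h3
  have h5 : j = 0 := Nat.eq_zero_of_dvd_of_lt h4 hj
  rw [Subgroup.mem_bot]
  show w ^ k = 1
  rw [hjk, h5, pow_zero]

end Cfsg.Agent.S3963
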