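import Cfsg.Statements.S3964
import Cfsg.Agent.Lib.helper20.Schur

set_option autoImplicit false
open Cfsg

namespace Cfsg.Agent.S3964

open Cfsg.Agent.Lib.helper20 in
/-- For odd `n` the dihedral group of order `2 n` has trivial Schur multiplier. -/
theorem result (n : ℕ) (hn : Odd n) : Cfsg.HasCyclicSchurMultiplier (DihedralGroup n) 1 := by
  have hn0 : NeZero n := ⟨by rintro rfl; simp at hn⟩
  apply trivial_of_ker_bot
  intro Γ _ _ σ hσ
  obtain ⟨w, hwn, hσw, hker⟩ := dihedral_stem n σ hσ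
  rw [eq_bot_iff]
  intro z hz
  obtain ⟨k, rfl⟩ := hker hz
  have h1 : σ (w ^ k) = 1 := hz
  rw [map_zpow, hσw, DihedralGroup.r_zpow, DihedralGroup.one_def] at h1
  have h2 : ((-2 : ZMod n) * (k : ZMod n)) = 0 := DihedralGroup.r.inj h1
  have h3 : (n : ℤ) ∣ -2 * k := by
    rw [← ZMod.intCast_zmod_eq_zero_iff_dvd]
    push_cast
    exact h2
  have hcop : IsCoprime (n : ℤ) (-2 : ℤ) := by
    have : Nat.Coprime n 2 := (Nat.coprime_two_left.mpr hn).symm
    have h := Nat.isCoprime_iff_coprime.mpr this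
    exact h.neg_right
  have h4 : (n : ℤ) ∣ k := hcop.dvd_of_dvd_mul_left h3
  obtain ⟨l, rfl⟩ := h4
  rw [Subgroup.mem_bot]
  show w ^ ((n : ℤ) * l) = 1
  rw [zpow_mul, zpow_natCast, hwn, one_zpow]

end Cfsg.Agent.S3964
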