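import Cfsg.Statements.S3965
import Cfsg.Agent.Lib.helper20.Schur

set_option autoImplicit false
open Cfsg

namespace Cfsg.Agent.S3965

open Cfsg.Agent.Lib.helper20 in
/-- For even `n ≥ 2` the dihedral group of order `2 n` has Schur multiplier cyclic of order `2`. -/
theorem result (n : ℕ) [NeZero n] (hn : Even n) : Cfsg.HasCyclicSchurMultiplier (DihedralGroup n) 2 := by
  refine ⟨⟨QuaternionGroup n, inferInstance, inferInstance, quatToDihedral n,
    quatToDihedral_stem n hn, ?_⟩, ?_⟩
  · have h2 : Nat.card (Multiplicative (ZMod 2)) = 2 := by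
      rw [Nat.card_eq_fintype_card, Fintype.card_multiplicative, ZMod.card]
    exact ⟨mulEquivOfPrimeCardEq (p := 2) (quatToDihedral_card_ker n) h2⟩
  · intro Γ _ _ σ hσ
    obtain ⟨w, hwn, hσw, hker⟩ := dihedral_stem n σ hσ
    obtain ⟨m, hm⟩ := hn
    have hm0 : m ≠ 0 := by
      rintro rfl
      exact NeZero.ne n (by omega)
    have hu : w ^ m ∈ σ.ker := by
      rw [MonoidHom.mem_ker, map_pow, hσw, DihedralGroup.r_pow, DihedralGroup.one_def]
      congr 1
      have : ((m + m : ℕ) : ZMod n) = 0 := by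
        rw [← hm]; exact ZMod.natCast_self n
      push_cast at this
      linear_combination -this
    have hu2 : (w ^ m) ^ 2 = 1 := by
      rw [← pow_mul, mul_two, ← hm, hwn]
    apply exists_surj_zmod (K := σ.ker) 2 ⟨w ^ m, hu⟩
    · apply Subtype.ext
      exact hu2
    · rintro ⟨z, hz⟩
      obtain ⟨k, rfl⟩ := hker hz
      have h1 : σ (w ^ k) = 1 := hz
      rw [map_zpow, hσw, DihedralGroup.r_zpow, DihedralGroup.one_def] at h1
      have h2 : ((-2 : ZMod n) * (k : ZMod n)) = 0 := DihedralGroup.r.inj h1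
      have h3 : (n : ℤ) ∣ -2 * k := by
        rw [← ZMod.intCast_zmod_eq_zero_iff_dvd]
        push_cast
        exact h2
      have h4 : (m : ℤ) ∣ k := by
        rw [hm] at h3
        push_cast at h3
        have h5 : (2 : ℤ) * m ∣ 2 * k := by
          have : (m : ℤ) + m = 2 * m := by ring
          rw [this] at h3
          have h6 : (2 : ℤ) * m ∣ -(2 * k) := by
            have : -(2 * k) = -2 * k := by ring
            rw [this]; exact h3
          exact (Int.dvd_neg.mp h6)
        exact Int.dvd_of_mul_dvd_mul_left (by norm_num) h5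
      obtain ⟨l, rfl⟩ := h4
      refine ⟨l, ?_⟩
      apply Subtype.ext
      show ((⟨w ^ m, hu⟩ : σ.ker) ^ l : σ.ker).1 = w ^ ((m : ℤ) * l)
      rw [Subgroup.coe_zpow, zpow_mul, zpow_natCast]

end Cfsg.Agent.S3965
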