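import Cfsg.Statements.S3968
import Mathlib
import Cfsg.Agent.Lib.helper23.GenBurnside
import Cfsg.Agent.Lib.helper23.RepScalar
import Cfsg.Agent.Lib.helper24.CharBasic

set_option autoImplicit false
open Cfsg

namespace Cfsg.Agent.S3968

open scoped ComplexConjugate
open Cfsg.Agent.Lib.helper23

/-- Dimension of the commutant of `ρ|_H` as an average of `|χ|²` over `H`. -/
theorem finrank_comm {G : Type*} [Group G] [Fintype G] {V : Type*} [AddCommGroup V] [Module ℂ V]
    [FiniteDimensional ℂ V] (ρ : Representation ℂ G V) (H : Subgroup G) :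
    (Module.finrank ℂ (Representation.invariants
        (Representation.linHom (ρ.comp H.subtype) (ρ.comp H.subtype))) : ℂ)
      = (Nat.card H : ℂ)⁻¹ *
        ∑ g : G, (open Classical in if g ∈ H then ρ.character g * conj (ρ.character g) else 0) := by
  classical
  have : Invertible (Nat.card H : ℂ) := invertibleOfNonzero (by exact_mod_cast Nat.card_pos.ne')
  rw [← Representation.card_inv_mul_sum_char_eq_finrank]
  congr 1
  rw [← Finset.sum_filter]
  rw [Finset.sum_subtype (Finset.univ.filter (· ∈ H)) (p := (· ∈ H)) (by simp)]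
  apply Finset.sum_congr rfl
  intro h _
  rw [Representation.char_linHom]
  have e1 : Representation.character (ρ.comp H.subtype) h = ρ.character (h : G) := rfl
  have e2 : Representation.character (ρ.comp H.subtype) h⁻¹ = ρ.character (h : G)⁻¹ := rfl
  rw [e1, e2, Cfsg.Agent.Lib.helper24.char_inv_eq_conj, mul_comm]

theorem result {G : Type*} [Group G] [Finite G] (p : ℕ) (hp : p.Prime) (χ : Cfsg.IrrCharacter G) (hdeg : χ.1 1 = p) (hfaith : ∀ g : G, χ.1 g = χ.1 1 → g = 1) (hdiv : p ^ 2 ∣ Nat.card G) : Subgroup.center G ≠ ⊥ := by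
  classical
  intro hZG
  have : Fintype G := Fintype.ofFinite G
  have hfp : Fact p.Prime := ⟨hp⟩
  obtain ⟨n, ρ, hirr, hρ⟩ := χ.2
  have := hirr
  have h1 : χ.1 1 = (n : ℂ) := by rw [← hρ, rep_char_one]
  have hn : p = n := by exact_mod_cast hdeg.symm.trans h1
  subst hn
  -- injectivity
  have hinj : ∀ g h : G, ρ g = ρ h → g = h := by
    intro g h hgh
    have h3 : ρ (g * h⁻¹) = 1 := by rw [map_mul, hgh, ← map_mul, mul_inv_cancel, map_one]
    have h2 : χ.1 (g * h⁻¹) = χ.1 1 := by
      rw [← hρ]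
      show LinearMap.trace ℂ _ (ρ (g * h⁻¹)) = LinearMap.trace ℂ _ (ρ 1)
      rw [h3, map_one ρ]
    have := hfaith _ h2
    exact mul_inv_eq_one.mp this
  obtain ⟨P⟩ : Nonempty (Sylow p G) := inferInstance
  have hPcard : p ^ 2 ∣ Nat.card P := by
    rw [P.card_eq_multiplicity]
    exact pow_dvd_pow p ((hp.pow_dvd_iff_le_factorization Nat.card_pos.ne').mp hdiv)
  obtain ⟨Z, hZdef⟩ : ∃ Z : Subgroup G, Z = (Subgroup.center P).map (P : Subgroup G).subtype := ⟨_, rfl⟩
  have hZmem : ∀ x : G, x ∈ Z ↔ x ∈ (P : Subgroup G) ∧ ∀ y ∈ (P : Subgroup G), y * x = x * y := by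
    intro x
    rw [hZdef, Subgroup.mem_map]
    constructor
    · rintro ⟨z, hz, rfl⟩
      refine ⟨z.2, fun y hy => ?_⟩
      have := Subgroup.mem_center_iff.mp hz ⟨y, hy⟩
      exact congrArg Subtype.val this
    · rintro ⟨hx, hc⟩
      refine ⟨⟨x, hx⟩, ?_, rfl⟩
      rw [Subgroup.mem_center_iff]
      intro y
      exact Subtype.ext (hc y.1 y.2)
  -- χ vanishes on Z \ 1
  have hvan : ∀ x ∈ Z, x ≠ 1 → ρ.character x = 0 := by
    intro x hx hx1
    have hle : (P : Subgroup G) ≤ Subgroup.centralizer ({x} : Set G) := by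
      intro y hy
      rw [Subgroup.mem_centralizer_iff]
      intro z hz
      rw [Set.mem_singleton_iff] at hz
      subst hz
      exact (((hZmem z).mp hx).2 y hy).symm
    have hcop : Nat.Coprime (Module.finrank ℂ (Fin p → ℂ))
        (Subgroup.centralizer ({x} : Set G)).index := by
      rw [Module.finrank_fin_fun]
      have h2 := Subgroup.index_dvd_of_le hle
      have h3 : ¬ p ∣ (P : Subgroup G).index := P.not_dvd_index
      exact (Nat.Prime.coprime_iff_not_dvd hp).mpr (fun h => h3 (h.trans h2))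
    rcases genrep_coprime_zero_or_norm ρ x hcop with h0 | hnorm
    · exact h0
    · exfalso
      obtain ⟨ω, hω⟩ := genrep_scalar_of_norm_eq ρ x (isOfFinOrder_of_finite x) hnorm
      have hcen : x ∈ Subgroup.center G := by
        rw [Subgroup.mem_center_iff]
        intro h
        apply hinj
        rw [map_mul, map_mul, hω]
        ext v
        simp
      rw [hZG] at hcen
      exact hx1 (Subgroup.mem_bot.mp hcen)
  have hch1 : ρ.character 1 = (p : ℂ) := rep_char_one p ρ
  have hpC : (p : ℂ) ≠ 0 := by exact_mod_cast hp.ne_zero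
  -- dimension of the commutant
  obtain ⟨E, hEdef⟩ : ∃ E : Submodule ℂ ((Fin p → ℂ) →ₗ[ℂ] (Fin p → ℂ)),
      E = Representation.invariants
        (Representation.linHom (ρ.comp Z.subtype) (ρ.comp Z.subtype)) := ⟨_, rfl⟩
  have hEmem : ∀ T : (Fin p → ℂ) →ₗ[ℂ] (Fin p → ℂ), T ∈ E ↔ ∀ z ∈ Z, ρ z * T = T * ρ z := by
    intro T
    rw [hEdef, Representation.mem_invariants]
    constructor
    · intro h z hz
      have h2 := h ⟨z, hz⟩
      rw [Representation.linHom_apply] at h2
      have e1 : (ρ.comp Z.subtype) ⟨z, hz⟩ = ρ z := rfl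
      have e2 : (ρ.comp Z.subtype) (⟨z, hz⟩ : Z)⁻¹ = ρ z⁻¹ := rfl
      rw [e1, e2] at h2
      have h3 : ρ z * T * ρ z⁻¹ = T := h2
      calc ρ z * T = (ρ z * T * ρ z⁻¹) * ρ z := by
            rw [mul_assoc, ← map_mul, inv_mul_cancel, map_one, mul_one]
        _ = T * ρ z := by rw [h3]
    · intro h z
      rw [Representation.linHom_apply]
      have e1 : (ρ.comp Z.subtype) z = ρ z := rfl
      have e2 : (ρ.comp Z.subtype) z⁻¹ = ρ (z : G)⁻¹ := rfl
      rw [e1, e2]
      show ρ z * T * ρ (z : G)⁻¹ = T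
      rw [h z z.2, mul_assoc, ← map_mul, mul_inv_cancel, map_one, mul_one]
  have hEfin : Module.finrank ℂ E * Nat.card Z = p ^ 2 := by
    have h := finrank_comm ρ Z
    rw [← hEdef] at h
    have hsum : ∑ g : G, (if g ∈ Z then ρ.character g * conj (ρ.character g) else 0)
        = (p : ℂ) * p := by
      rw [Finset.sum_eq_single (1 : G)]
      · rw [if_pos Z.one_mem, hch1]
        simp
      · intro g _ hg
        by_cases hgZ : g ∈ Z
        · rw [if_pos hgZ, hvan g hgZ hg, zero_mul]
        · rw [if_neg hgZ]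
      · intro h
        exact absurd (Finset.mem_univ _) h
    rw [hsum] at h
    have hZ0 : (Nat.card Z : ℂ) ≠ 0 := by exact_mod_cast Nat.card_pos.ne'
    have h2 : (Module.finrank ℂ E : ℂ) * (Nat.card Z : ℂ) = (p : ℂ) ^ 2 := by
      rw [h]
      field_simp
    exact_mod_cast h2
  -- linear independence
  have hli : LinearIndependent ℂ (fun z : Z => ρ (z : G)) := by
    rw [Fintype.linearIndependent_iff]
    intro c hc w
    have h2 : LinearMap.trace ℂ (Fin p → ℂ) (ρ (w : G)⁻¹ * ∑ z : Z, c z • ρ (z : G)) = 0 := by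
      rw [hc, mul_zero, map_zero]
    rw [Finset.mul_sum, map_sum] at h2
    rw [Finset.sum_eq_single w] at h2
    · rw [mul_smul_comm, ← map_mul, inv_mul_cancel, map_smul] at h2
      have h3 : LinearMap.trace ℂ (Fin p → ℂ) (ρ 1) = (p : ℂ) := hch1
      rw [h3, smul_eq_mul] at h2
      exact (mul_eq_zero.mp h2).resolve_right hpC
    · intro z _ hz
      rw [mul_smul_comm, ← map_mul, map_smul]
      have h3 : LinearMap.trace ℂ (Fin p → ℂ) (ρ ((w : G)⁻¹ * z)) = 0 := by
        apply hvan _ (Z.mul_mem (Z.inv_mem w.2) z.2)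
        intro h4
        apply hz
        apply Subtype.ext
        exact (inv_mul_eq_one.mp h4).symm
      rw [h3, smul_zero]
    · intro h
      exact absurd (Finset.mem_univ _) h
  obtain ⟨A, hAdef⟩ : ∃ A : Submodule ℂ ((Fin p → ℂ) →ₗ[ℂ] (Fin p → ℂ)),
      A = Submodule.span ℂ (Set.range (fun z : Z => ρ (z : G))) := ⟨_, rfl⟩
  have hAfin : Module.finrank ℂ A = Nat.card Z := by
    rw [hAdef, finrank_span_eq_card hli, Nat.card_eq_fintype_card]
  have hAE : A ≤ E := by
    rw [hAdef, Submodule.span_le]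
    rintro _ ⟨z, rfl⟩
    show ρ (z : G) ∈ E
    rw [hEmem]
    intro w hw
    rw [← map_mul, ← map_mul]
    congr 1
    exact ((hZmem (z : G)).mp z.2).2 w ((hZmem w).mp hw).1
  have hle : Nat.card Z ≤ Module.finrank ℂ E := by
    rw [← hAfin]
    exact Submodule.finrank_mono hAE
  -- |Z| = p
  have hPnt : Nontrivial P := by
    rw [← Finite.one_lt_card_iff_nontrivial]
    have h2 : p ^ 2 ≤ Nat.card P := Nat.le_of_dvd Nat.card_pos hPcard
    have h3 : 1 < p ^ 2 := Nat.one_lt_pow (by norm_num) hp.one_lt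
    omega
  have hcen : Nontrivial (Subgroup.center P) := IsPGroup.center_nontrivial P.isPGroup'
  have hZcard : Nat.card Z = Nat.card (Subgroup.center P) := by
    rw [hZdef]
    exact Subgroup.card_map_of_injective (Subgroup.subtype_injective _)
  have hZp : p ∣ Nat.card Z := by
    rw [hZcard]
    have h2 : IsPGroup p (Subgroup.center P) := P.isPGroup'.to_subgroup _
    obtain ⟨k, hk⟩ := h2.exists_card_eq
    have h3 : 1 < Nat.card (Subgroup.center P) := Finite.one_lt_card_iff_nontrivial.mpr hcen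
    rw [hk] at h3 ⊢
    rcases Nat.eq_zero_or_pos k with h4 | h4
    · subst h4
      simp at h3
    · exact dvd_pow_self p h4.ne'
  have hZeq : Nat.card Z = p := by
    have h2 : Nat.card Z * Nat.card Z ≤ p ^ 2 := by
      rw [← hEfin]
      exact Nat.mul_le_mul_right _ hle
    have h3 : Nat.card Z ≤ p := by nlinarith
    exact le_antisymm h3 (Nat.le_of_dvd Nat.card_pos hZp)
  have hEp : Module.finrank ℂ E = p := by
    rw [hZeq] at hEfin
    have : Module.finrank ℂ E * p = p * p := by rw [hEfin]; ring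
    exact Nat.eq_of_mul_eq_mul_right hp.pos this
  have hAeq : A = E := Submodule.eq_of_le_of_finrank_eq hAE (by rw [hAfin, hZeq, hEp])
  -- P is abelian
  have hcomm : ∀ g ∈ (P : Subgroup G), ∀ h ∈ (P : Subgroup G), h * g = g * h := by
    intro g hg h hh
    have hgE : ρ g ∈ E := by
      rw [hEmem]
      intro z hz
      rw [← map_mul, ← map_mul]
      congr 1
      exact (((hZmem z).mp hz).2 g hg).symm
    rw [← hAeq, hAdef] at hgE
    have key : ∀ T ∈ Submodule.span ℂ (Set.range (fun z : Z => ρ (z : G))), ρ h * T = T * ρ h := by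
      intro T hT
      induction hT using Submodule.span_induction with
      | mem x hx =>
        obtain ⟨z, rfl⟩ := hx
        show ρ h * ρ (z : G) = ρ (z : G) * ρ h
        rw [← map_mul, ← map_mul]
        congr 1
        exact ((hZmem (z : G)).mp z.2).2 h hh
      | zero => simp
      | add x y _ _ hx hy => rw [mul_add, add_mul, hx, hy]
      | smul a x _ hx => rw [mul_smul_comm, smul_mul_assoc, hx]
    have h2 := key _ hgE
    apply hinj
    rw [map_mul, map_mul, h2]
  have hPZ : (P : Subgroup G) ≤ Z := by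
    intro g hg
    rw [hZmem]
    exact ⟨hg, fun y hy => (hcomm y hy g hg).symm⟩
  have h5 : Nat.card P ≤ Nat.card Z := Nat.le_of_dvd Nat.card_pos (Subgroup.card_dvd_of_le hPZ)
  have h6 : p ^ 2 ≤ Nat.card P := Nat.le_of_dvd Nat.card_pos hPcard
  have h7 : p < p ^ 2 := by
    have := hp.one_lt
    nlinarith
  omega

end Cfsg.Agent.S3968
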