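import Cfsg.Statements.S3970
import Cfsg.Agent.S3969
import Mathlib

set_option autoImplicit false
open Cfsg

namespace Cfsg.Agent.S3970

theorem sq_sub_one (p : ℕ) (hp : 1 ≤ p) : p ^ 2 - 1 = (p - 1) * (p + 1) := by
  obtain ⟨m, rfl⟩ : ∃ m, p = m + 1 := ⟨p - 1, by omega⟩
  rw [Nat.add_sub_cancel]
  exact Nat.sub_eq_of_eq_add (by ring)

theorem aux.{u} : ∀ (n : ℕ) (G : Type u) [Group G] [Finite G], Nat.card G = n →
    (∀ p : ℕ, p.Prime → p ∣ Nat.card G → (∃ q : ℕ, q.Prime ∧ q ∣ Nat.card G ∧ p < q) →
      ∀ P : Sylow p G, IsMulCommutative (P : Subgroup G) ∧ Group.rank (P : Subgroup G) ≤ 2) →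
    ¬ 12 ∣ Nat.card G → Group.IsSolvable G := by
  intro n
  induction n using Nat.strong_induction_on with
  | _ n ih =>
  intro G _ _ hn h h12
  by_cases h1 : Nat.card G = 1
  · haveI : Subsingleton G := (Nat.card_eq_one_iff_unique.mp h1).1
    exact Group.isSolvable_of_comm (fun a b => Subsingleton.elim _ _)
  obtain ⟨p, hpdef⟩ : ∃ p, p = (Nat.card G).minFac := ⟨_, rfl⟩
  have hp : p.Prime := by rw [hpdef]; exact Nat.minFac_prime h1
  haveI : Fact p.Prime := ⟨hp⟩
  have hpG : p ∣ Nat.card G := by rw [hpdef]; exact Nat.minFac_dvd _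
  have hpmin : ∀ q : ℕ, q.Prime → q ∣ Nat.card G → p ≤ q := by
    intro q hq hqG; rw [hpdef]; exact Nat.minFac_le_of_dvd hq.two_le hqG
  obtain ⟨P⟩ : Nonempty (Sylow p G) := inferInstance
  by_cases hbig : ∃ q : ℕ, q.Prime ∧ q ∣ Nat.card G ∧ p < q
  · obtain ⟨hPab, hPrank⟩ := h p hp hpG hbig P
    have hcop : Nat.Coprime (Nat.card G)
        (∏ i ∈ Finset.Icc 1 (Group.rank (P : Subgroup G)), (p ^ i - 1)) := by
      by_contra hnc
      obtain ⟨q, hq, hqG, hqprod⟩ := Nat.Prime.not_coprime_iff_dvd.mp hnc
      obtain ⟨i, hi, hqi⟩ := (Prime.dvd_finsetProd_iff (Nat.prime_iff.mp hq) _).mp hqprod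
      rw [Finset.mem_Icc] at hi
      have hpq : p ≤ q := hpmin q hq hqG
      have hcase1 : ¬ q ∣ p - 1 := by
        intro hd
        have : q ≤ p - 1 := Nat.le_of_dvd (by have := hp.two_le; omega) hd
        have := hp.two_le
        omega
      have hi2 : i = 1 ∨ i = 2 := by omega
      rcases hi2 with rfl | rfl
      · rw [pow_one] at hqi; exact hcase1 hqi
      · rw [sq_sub_one p hp.one_lt.le] at hqi
        rcases (Nat.Prime.dvd_mul hq).mp hqi with hd | hd
        · exact hcase1 hd
        · have hle : q ≤ p + 1 := Nat.le_of_dvd (by omega) hd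
          have hqp : q ≠ p := by
            intro he
            rw [he] at hd
            have : p ∣ 1 := (Nat.dvd_add_right (dvd_refl p)).mp hd
            exact hp.one_lt.ne' (Nat.dvd_one.mp this)
          have hq1 : q = p + 1 := by omega
          -- p = 2
          have hp2 : p = 2 := by
            rcases hp.eq_two_or_odd with h2 | hodd
            · exact h2
            · exfalso
              have heven : q % 2 = 0 := by omega
              have hq2 : q = 2 := by
                rcases hq.eq_two_or_odd with h2 | hodd'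
                · exact h2
                · omega
              have := hp.two_le
              omega
          have hq3 : q = 3 := by omega
          -- |P| ≥ 4
          obtain ⟨k, hk⟩ := IsPGroup.iff_card.mp P.isPGroup'
          have hk2 : 2 ≤ k := by
            by_contra hlt
            have hdvd : Nat.card (P : Subgroup G) ∣ p := by
              rw [hk]
              have : k ≤ 1 := by omega
              calc p ^ k ∣ p ^ 1 := pow_dvd_pow p this
                _ = p := pow_one p
            haveI : IsCyclic (P : Subgroup G) := isCyclic_of_card_dvd_prime hdvd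
            obtain ⟨g, hg⟩ := IsCyclic.exists_generator (α := (P : Subgroup G))
            have hcl : Subgroup.closure ((({g} : Finset (P : Subgroup G)) : Set (P : Subgroup G))) = ⊤ := by
              rw [Finset.coe_singleton, ← Subgroup.zpowers_eq_closure]
              exact (Subgroup.eq_top_iff' _).mpr hg
            have := Group.rank_le hcl
            rw [Finset.card_singleton] at this
            omega
          apply h12
          have h4 : 4 ∣ Nat.card G := by
            have h4P : 4 ∣ Nat.card (P : Subgroup G) := by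
              rw [hk, hp2]
              calc 4 = 2 ^ 2 := by norm_num
                _ ∣ 2 ^ k := pow_dvd_pow 2 hk2
            exact dvd_trans h4P (Subgroup.card_subgroup_dvd_card _)
          have h3 : 3 ∣ Nat.card G := by rw [← hq3]; exact hqG
          have : 4 * 3 ∣ Nat.card G := Nat.Coprime.mul_dvd_of_dvd_of_dvd (by norm_num) h4 h3
          simpa using this
    obtain ⟨P', N, hN, hc⟩ := Cfsg.Agent.S3969.result p P hPab hcop
    haveI := hN
    have hcard : Nat.card N * Nat.card (P' : Subgroup G) = Nat.card G := hc.card_mul_card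
    obtain ⟨k, hk⟩ := IsPGroup.iff_card.mp P'.isPGroup'
    have hNidx : N.index = p ^ k := by rw [← hk]; exact hc.symm.index_eq_card
    have hpN : ¬ p ∣ Nat.card N := by
      have h1 : (P' : Subgroup G).index = Nat.card N := hc.index_eq_card
      rw [← h1]; exact P'.not_dvd_index
    have hP'1 : 1 < Nat.card (P' : Subgroup G) := by
      by_contra hle
      have h1' : Nat.card (P' : Subgroup G) = 1 := by
        have : 0 < Nat.card (P' : Subgroup G) := Nat.card_pos
        omega
      rw [h1', mul_one] at hcard
      rw [hcard] at hpN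
      exact hpN hpG
    have hlt : Nat.card N < n := by
      rw [← hn, ← hcard]
      have : 0 < Nat.card N := Nat.card_pos
      calc Nat.card N = Nat.card N * 1 := (mul_one _).symm
        _ < Nat.card N * Nat.card (P' : Subgroup G) := Nat.mul_lt_mul_of_pos_left hP'1 this
    have hNsol : Group.IsSolvable N := by
      refine ih _ hlt N rfl ?_ (fun hd => h12 (dvd_trans hd (Subgroup.card_subgroup_dvd_card N)))
      intro r hr hrN hex R
      haveI : Fact r.Prime := ⟨hr⟩
      have hrG : r ∣ Nat.card G := dvd_trans hrN (Subgroup.card_subgroup_dvd_card N)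
      have hrp : r ≠ p := fun he => hpN (he ▸ hrN)
      have hexG : ∃ q : ℕ, q.Prime ∧ q ∣ Nat.card G ∧ r < q := by
        obtain ⟨q, hq, hqN, hrq⟩ := hex
        exact ⟨q, hq, dvd_trans hqN (Subgroup.card_subgroup_dvd_card N), hrq⟩
      have hfac : (Nat.card G).factorization r = (Nat.card N).factorization r := by
        rw [← hcard, hk, Nat.factorization_mul Nat.card_pos.ne' (pow_pos hp.pos k).ne',
          Nat.factorization_pow]
        simp [Nat.factorization_eq_zero_of_not_dvd
          (fun hd => hrp ((Nat.prime_dvd_prime_iff_eq hr hp).mp hd))]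
      have hcardR' : Nat.card ((R : Subgroup N).map N.subtype) = r ^ (Nat.card G).factorization r := by
        rw [Subgroup.card_map_of_injective N.subtype_injective, hfac]
        exact R.card_eq_multiplicity
      obtain ⟨hSab, hSrank⟩ := h r hr hrG hexG (Sylow.ofCard _ hcardR')
      have hS : ((Sylow.ofCard _ hcardR' : Sylow r G) : Subgroup G) = (R : Subgroup N).map N.subtype :=
        Sylow.coe_ofCard _ _
      have e : ↥(R : Subgroup N) ≃* ↥((R : Subgroup N).map N.subtype) :=
        Subgroup.equivMapOfInjective _ N.subtype N.subtype_injective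
      constructor
      · refine ⟨⟨fun a b => ?_⟩⟩
        apply e.injective
        rw [map_mul, map_mul]
        have ha : ((e a : ↥((R : Subgroup N).map N.subtype)) : G) ∈
            ((Sylow.ofCard _ hcardR' : Sylow r G) : Subgroup G) := by rw [hS]; exact (e a).2
        have hb : ((e b : ↥((R : Subgroup N).map N.subtype)) : G) ∈
            ((Sylow.ofCard _ hcardR' : Sylow r G) : Subgroup G) := by rw [hS]; exact (e b).2
        have := mul_comm' (⟨_, ha⟩ : ↥((Sylow.ofCard _ hcardR' : Sylow r G) : Subgroup G)) ⟨_, hb⟩
        apply Subtype.ext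
        exact congrArg Subtype.val this
      · rw [Group.rank_congr e, ← Subgroup.rank_congr hS]
        exact hSrank
    have hQsol : Group.IsSolvable (G ⧸ N) := by
      have hQ : IsPGroup p (G ⧸ N) := IsPGroup.of_card (n := k) (by rw [← hNidx]; rfl)
      haveI := hQ.isNilpotent
      exact IsNilpotent.to_isSolvable
    exact Group.isSolvable_of_ker_le_range N.subtype (QuotientGroup.mk' N) (by simp)
  · -- G is a p-group
    have hunique : ∀ {d : ℕ}, d.Prime → d ∣ Nat.card G → d = p := by
      intro d hd hdG
      have h1' := hpmin d hd hdG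
      by_contra hne
      exact hbig ⟨d, hd, hdG, by omega⟩
    have hG : IsPGroup p G := IsPGroup.of_card
      (Nat.eq_prime_pow_of_unique_prime_dvd Nat.card_pos.ne' hunique)
    haveI := hG.isNilpotent
    exact IsNilpotent.to_isSolvable

theorem result {G : Type*} [Group G] [Finite G] (h : ∀ p : ℕ, p.Prime → p ∣ Nat.card G → (∃ q : ℕ, q.Prime ∧ q ∣ Nat.card G ∧ p < q) → ∀ P : Sylow p G, IsMulCommutative (P : Subgroup G) ∧ Group.rank (P : Subgroup G) ≤ 2) (h12 : ¬ 12 ∣ Nat.card G) : Group.IsSolvable G :=
  aux _ G rfl h h12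

end Cfsg.Agent.S3970
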