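import Cfsg.Statements.S3971
import Cfsg.Agent.S0071
import Cfsg.Agent.S3969
import Cfsg.Agent.Lib.lead.Tate
import Mathlib

set_option autoImplicit false
open Cfsg

namespace Cfsg.Agent.S3971

open Cfsg.Agent.Lib.lead

/-- An automorphism of order prime to 6 of a 2-group with a cyclic subgroup of index at most 2
is trivial (stated for conjugation by an element of an ambient group). -/
theorem centralizes {G : Type*} [Group G] [Finite G] :
    ∀ (m : ℕ) (Q : Subgroup G), Nat.card Q = m → IsPGroup 2 Q →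
      (∃ c ∈ Q, Nat.card Q ≤ 2 * orderOf c) →
      ∀ g ∈ Subgroup.normalizer (Q : Set G), Nat.Coprime (orderOf g) 6 →
      ∀ x ∈ Q, g * x * g⁻¹ = x := by
  intro m
  induction m using Nat.strong_induction_on with
  | _ m ih =>
  intro Q hQm hQ2 ⟨c, hcQ, hcard⟩ g hgN hgcop x hxQ
  have hQpow : ∀ y ∈ Q, ∃ k : ℕ, orderOf y = 2 ^ k := by
    intro y hy
    obtain ⟨k, hk⟩ := hQ2 ⟨y, hy⟩
    have h1 : y ^ (2 ^ k) = 1 := by
      have := congrArg Subtype.val hk
      simpa using this
    obtain ⟨j, -, hj⟩ := (Nat.dvd_prime_pow Nat.prime_two).mp (orderOf_dvd_of_pow_eq_one h1)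
    exact ⟨j, hj⟩
  have hconjQ : ∀ (j : ℕ), ∀ y ∈ Q, g ^ j * y * (g ^ j)⁻¹ ∈ Q := by
    intro j y hy
    exact (Subgroup.mem_normalizer_iff.mp (Subgroup.pow_mem _ hgN j) y).mp hy
  by_cases hQbot : Q = ⊥
  · rw [hQbot, Subgroup.mem_bot] at hxQ
    rw [hxQ]; group
  -- the subgroup generated by squares
  obtain ⟨T, hT⟩ : ∃ T : Subgroup G, T = Subgroup.closure {y | ∃ z ∈ Q, y = z ^ 2} := ⟨_, rfl⟩
  have hTQ : T ≤ Q := by
    rw [hT, Subgroup.closure_le]
    rintro y ⟨z, hz, rfl⟩
    exact Q.pow_mem hz 2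
  have hsq : ∀ z ∈ Q, z ^ 2 ∈ T := by
    intro z hz; rw [hT]; exact Subgroup.subset_closure ⟨z, hz, rfl⟩
  have hTconj : ∀ h ∈ Subgroup.normalizer (Q : Set G), ∀ t ∈ T, h * t * h⁻¹ ∈ T := by
    intro h hh t ht
    rw [hT] at ht ⊢
    induction ht using Subgroup.closure_induction with
    | mem y hy =>
      obtain ⟨z, hz, rfl⟩ := hy
      refine Subgroup.subset_closure ⟨h * z * h⁻¹, (Subgroup.mem_normalizer_iff.mp hh z).mp hz, ?_⟩
      rw [conj_pow]
    | one => simp
    | mul a b _ _ iha ihb =>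
      have : h * (a * b) * h⁻¹ = (h * a * h⁻¹) * (h * b * h⁻¹) := by group
      rw [this]; exact Subgroup.mul_mem _ iha ihb
    | inv a _ iha =>
      have : h * a⁻¹ * h⁻¹ = (h * a * h⁻¹)⁻¹ := by group
      rw [this]; exact Subgroup.inv_mem _ iha
  have hgT : g ∈ Subgroup.normalizer (T : Set G) := by
    rw [Subgroup.mem_normalizer_iff]
    intro t
    constructor
    · exact hTconj g hgN t
    · intro ht
      have := hTconj g⁻¹ (Subgroup.inv_mem _ hgN) _ ht
      have e : g⁻¹ * (g * t * g⁻¹) * g⁻¹⁻¹ = t := by group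
      rwa [e] at this
  -- orders
  have hQcard_pos : 2 ≤ Nat.card Q := by
    have h1 : Nat.card Q ≠ 1 := fun h => hQbot (Subgroup.card_eq_one.mp h)
    have : 0 < Nat.card Q := Nat.card_pos
    omega
  obtain ⟨e, he⟩ := hQpow c hcQ
  have hcdvd : orderOf c ∣ Nat.card Q := Subgroup.orderOf_dvd_natCard Q hcQ
  -- order of c^2
  have hc2 : orderOf c ≤ 2 * orderOf (c ^ 2) := by
    have := orderOf_pow' c (show (2 : ℕ) ≠ 0 by norm_num)
    have hg2 : Nat.gcd (orderOf c) 2 ≤ 2 := Nat.le_of_dvd (by norm_num) (Nat.gcd_dvd_right _ _)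
    have hmul : orderOf (c ^ 2) * Nat.gcd (orderOf c) 2 = orderOf c := by
      rw [this]; exact Nat.div_mul_cancel (Nat.gcd_dvd_left _ _)
    calc orderOf c = orderOf (c ^ 2) * Nat.gcd (orderOf c) 2 := hmul.symm
      _ ≤ orderOf (c ^ 2) * 2 := Nat.mul_le_mul_left _ hg2
      _ = 2 * orderOf (c ^ 2) := mul_comm _ _
  have hzT : Subgroup.zpowers (c ^ 2) ≤ T := Subgroup.zpowers_le.mpr (hsq c hcQ)
  have hTlow : orderOf (c ^ 2) ≤ Nat.card T := by
    rw [← Nat.card_zpowers]; exact Subgroup.card_le_of_le hzT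
  -- T is small: 2 * |T| ≤ |Q|
  have hTup : 2 * Nat.card T ≤ Nat.card Q := by
    -- a subgroup M₀ of index 2 containing all squares
    have hM : ∃ M₀ : Subgroup G, M₀ ≤ Q ∧ Nat.card Q = 2 * Nat.card M₀ ∧ ∀ z ∈ Q, z ^ 2 ∈ M₀ := by
      by_cases hcase : Nat.card Q = 2 * orderOf c
      · refine ⟨Subgroup.zpowers c, Subgroup.zpowers_le.mpr hcQ, by rw [Nat.card_zpowers, hcase], ?_⟩
        intro z hz
        have hrel : (Subgroup.zpowers c).relIndex Q = 2 := by
          have h1 := card_eq_card_inf_mul_relIndex (Subgroup.zpowers c) Q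
          rw [inf_eq_left.mpr (Subgroup.zpowers_le.mpr hcQ), Nat.card_zpowers, hcase] at h1
          have hpos : 0 < orderOf c := orderOf_pos c
          have : orderOf c * 2 = orderOf c * (Subgroup.zpowers c).relIndex Q := by
            rw [← h1]; ring
          exact (Nat.eq_of_mul_eq_mul_left hpos this).symm
        have := Subgroup.sq_mem_of_index_two (H := (Subgroup.zpowers c).subgroupOf Q) hrel ⟨z, hz⟩
        rw [Subgroup.mem_subgroupOf] at this
        simpa using this
      · -- Q cyclic generated by c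
        have hle : orderOf c ≤ Nat.card Q := Nat.le_of_dvd Nat.card_pos hcdvd
        have heq : Nat.card Q = orderOf c := by
          obtain ⟨d, hd⟩ := hcdvd
          have hd1 : d = 1 := by
            have hpos : 0 < orderOf c := orderOf_pos c
            rcases Nat.lt_or_ge d 2 with h | h
            · have : d ≠ 0 := by
                rintro rfl
                rw [mul_zero] at hd; omega
              omega
            · exfalso
              have : orderOf c * 2 ≤ orderOf c * d := Nat.mul_le_mul_left _ h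
              have : Nat.card Q = 2 * orderOf c := by
                have := hcard
                rw [hd] at this ⊢
                omega
              exact hcase this
          rw [hd, hd1, mul_one]
        have hQc : Subgroup.zpowers c = Q :=
          Subgroup.eq_of_le_of_card_ge (Subgroup.zpowers_le.mpr hcQ)
            (by rw [Nat.card_zpowers, heq])
        have heven : 2 ∣ orderOf c := by
          rw [he]
          have : e ≠ 0 := by
            rintro rfl
            rw [pow_zero] at he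
            rw [heq, he] at hQcard_pos; omega
          exact dvd_pow_self 2 this
        refine ⟨Subgroup.zpowers (c ^ 2), Subgroup.zpowers_le.mpr (Q.pow_mem hcQ 2), ?_, ?_⟩
        · rw [Nat.card_zpowers, orderOf_pow_of_dvd (by norm_num) heven, heq]
          exact (Nat.mul_div_cancel' heven).symm
        · intro z hz
          rw [← hQc] at hz
          obtain ⟨j, rfl⟩ := Subgroup.mem_zpowers_iff.mp hz
          rw [Subgroup.mem_zpowers_iff]
          refine ⟨j, ?_⟩
          rw [← zpow_natCast, ← zpow_natCast, ← zpow_mul, ← zpow_mul, mul_comm]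
    obtain ⟨M₀, hM₀Q, hM₀card, hM₀sq⟩ := hM
    have hTM : T ≤ M₀ := by
      rw [hT, Subgroup.closure_le]
      rintro y ⟨z, hz, rfl⟩
      exact hM₀sq z hz
    have := Subgroup.card_le_of_le hTM
    omega
  -- g centralizes T
  have hTcent : ∀ t ∈ T, g * t * g⁻¹ = t := by
    refine ih (Nat.card T) (by omega) T rfl (hQ2.to_le hTQ) ⟨c ^ 2, hsq c hcQ, by omega⟩ g hgT
      hgcop
  have hTcentpow : ∀ (j : ℕ), ∀ t ∈ T, g ^ j * t * (g ^ j)⁻¹ = t := by
    intro j
    induction j with
    | zero => intro t _; simp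
    | succ j ihj =>
      intro t ht
      have : g ^ (j + 1) * t * (g ^ (j + 1))⁻¹ = g * (g ^ j * t * (g ^ j)⁻¹) * g⁻¹ := by
        rw [pow_succ']; group
      rw [this, ihj t ht, hTcent t ht]
  -- the index of T in Q is at most 4
  have hrel : T.relIndex Q ≤ 4 := by
    have h1 := card_eq_card_inf_mul_relIndex T Q
    rw [inf_eq_left.mpr hTQ] at h1
    by_contra hgt
    push_neg at hgt
    have : Nat.card T * 5 ≤ Nat.card T * T.relIndex Q := Nat.mul_le_mul_left _ hgt
    have hTpos : 0 < Nat.card T := Nat.card_pos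
    omega
  -- key: a coincidence of cosets gives the claim
  have key : ∀ i j : ℕ, i < j → j < 5 →
      (g ^ i * x * (g ^ i)⁻¹)⁻¹ * (g ^ j * x * (g ^ j)⁻¹) ∈ T → g * x * g⁻¹ = x := by
    intro i j hij hj5 hmem
    obtain ⟨d, hd⟩ : ∃ d, j = i + d := ⟨j - i, by omega⟩
    have hd1 : 1 ≤ d := by omega
    have hd4 : d ≤ 4 := by omega
    obtain ⟨w, hw⟩ : ∃ w, w = x⁻¹ * (g ^ d * x * (g ^ d)⁻¹) := ⟨_, rfl⟩
    have hwT : w ∈ T := by
      have h1 := hTconj ((g ^ i)⁻¹) (Subgroup.inv_mem _ (Subgroup.pow_mem _ hgN i)) _ hmem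
      have e1 : (g ^ i)⁻¹ * ((g ^ i * x * (g ^ i)⁻¹)⁻¹ * (g ^ j * x * (g ^ j)⁻¹)) * (g ^ i)⁻¹⁻¹ = w := by
        rw [hw, hd, pow_add]; group
      rwa [e1] at h1
    have hconj : g ^ d * x * (g ^ d)⁻¹ = x * w := by rw [hw]; group
    have hfixw : g ^ d * w * (g ^ d)⁻¹ = w := hTcentpow d w hwT
    have hiter := Cfsg.Agent.S3969.conj_iter (g ^ d) x w hconj hfixw (orderOf g)
    have hone : (g ^ d) ^ orderOf g = 1 := by
      rw [← pow_mul, mul_comm, pow_mul, pow_orderOf_eq_one, one_pow]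
    rw [hone] at hiter
    have hw1 : w ^ orderOf g = 1 := by
      have : x = x * w ^ orderOf g := by simpa using hiter
      exact mul_eq_left.mp this.symm
    obtain ⟨k, hk⟩ := hQpow w (hTQ hwT)
    have hdvd : orderOf w ∣ orderOf g := orderOf_dvd_of_pow_eq_one hw1
    have hcop2 : Nat.Coprime (orderOf g) 2 :=
      Nat.Coprime.coprime_dvd_right (by norm_num : 2 ∣ 6) hgcop
    have hc : Nat.Coprime (orderOf w) (orderOf g) := by
      rw [hk]; exact Nat.Coprime.pow_left _ hcop2.symm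
    have hw_one : w = 1 := orderOf_eq_one_iff.mp (Nat.Coprime.eq_one_of_dvd hc hdvd)
    rw [hw_one, mul_one] at hconj
    -- g is a power of g^d
    have hcopd : Nat.Coprime d (orderOf g) := by
      have h36 : Nat.Coprime (orderOf g) 36 := by
        have := Nat.Coprime.pow_right 2 hgcop
        norm_num at this
        exact this
      have hd36 : d ∣ 36 := by interval_cases d <;> norm_num
      exact (Nat.Coprime.coprime_dvd_right hd36 h36).symm
    obtain ⟨n, hn⟩ := exists_pow_eq_self_of_coprime hcopd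
    have hcomm : Commute (g ^ d) x := by
      have : g ^ d * x = x * g ^ d := by
        calc g ^ d * x = (g ^ d * x * (g ^ d)⁻¹) * g ^ d := by group
          _ = x * g ^ d := by rw [hconj]
      exact this
    have hcomm' : Commute g x := by
      rw [← hn]; exact hcomm.pow_left n
    calc g * x * g⁻¹ = x * g * g⁻¹ := by rw [hcomm'.eq]
      _ = x := by group
  -- pigeonhole
  have hninj : ¬ Function.Injective (fun i : Fin 5 =>
      (QuotientGroup.mk (⟨g ^ (i : ℕ) * x * (g ^ (i : ℕ))⁻¹, hconjQ i x hxQ⟩ : Q) :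
        ↥Q ⧸ T.subgroupOf Q)) := by
    intro hinj
    have h1 := Nat.card_le_card_of_injective _ hinj
    have h2 : Nat.card (↥Q ⧸ T.subgroupOf Q) = T.relIndex Q := rfl
    rw [h2, Nat.card_eq_fintype_card, Fintype.card_fin] at h1
    omega
  obtain ⟨i, j, hfij, hne⟩ := Function.not_injective_iff.mp hninj
  have hfij' := QuotientGroup.eq.mp hfij
  rw [Subgroup.mem_subgroupOf] at hfij'
  have hfij'' : (g ^ (i : ℕ) * x * (g ^ (i : ℕ))⁻¹)⁻¹ * (g ^ (j : ℕ) * x * (g ^ (j : ℕ))⁻¹) ∈ T := by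
    simpa using hfij'
  rcases lt_or_gt_of_ne (show (i : ℕ) ≠ (j : ℕ) from fun h => hne (Fin.ext h)) with hlt | hgt
  · exact key i j hlt j.2 hfij''
  · refine key j i hgt i.2 ?_
    have := T.inv_mem hfij''
    have e : ((g ^ (i : ℕ) * x * (g ^ (i : ℕ))⁻¹)⁻¹ * (g ^ (j : ℕ) * x * (g ^ (j : ℕ))⁻¹))⁻¹ =
        (g ^ (j : ℕ) * x * (g ^ (j : ℕ))⁻¹)⁻¹ * (g ^ (i : ℕ) * x * (g ^ (i : ℕ))⁻¹) := by group
    rwa [e] at this


theorem result {G : Type*} [Group G] [Finite G] (a n : ℕ) (hG : Nat.card G = 2 ^ a * n) (hn : Odd n) (h3 : ¬ 3 ∣ n) (hx : ∃ x : G, orderOf x = 2 ^ (a - 1)) : ∃ N : Subgroup G, N.Normal ∧ Nat.card N = n := by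
  haveI : Fact (Nat.Prime 2) := ⟨Nat.prime_two⟩
  obtain ⟨x, hx⟩ := hx
  have hxp : IsPGroup 2 (Subgroup.zpowers x) :=
    IsPGroup.of_card (n := a - 1) (by rw [Nat.card_zpowers, hx])
  obtain ⟨P, hxP⟩ := hxp.exists_le_sylow
  have hncop : Nat.Coprime 2 n :=
    (Nat.Prime.coprime_iff_not_dvd Nat.prime_two).mpr (fun h => by
      rcases hn with ⟨k, hk⟩
      omega)
  -- |P| = 2^a
  obtain ⟨k, hk⟩ := IsPGroup.iff_card.mp P.isPGroup'
  have hidx : Nat.card (P : Subgroup G) * (P : Subgroup G).index = 2 ^ a * n := by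
    rw [← hG]; exact Subgroup.card_mul_index _
  have hidxcop : Nat.Coprime 2 (P : Subgroup G).index :=
    (Nat.Prime.coprime_iff_not_dvd Nat.prime_two).mpr P.not_dvd_index
  have hka : k = a := by
    rw [hk] at hidx
    have h1 : 2 ^ k ∣ 2 ^ a := by
      have : 2 ^ k ∣ 2 ^ a * n := ⟨_, hidx.symm⟩
      exact (Nat.Coprime.pow_left k hncop).dvd_of_dvd_mul_right this
    have h2 : 2 ^ a ∣ 2 ^ k := by
      have : 2 ^ a ∣ 2 ^ k * (P : Subgroup G).index := ⟨_, hidx⟩
      exact (Nat.Coprime.pow_left a hidxcop).dvd_of_dvd_mul_right this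
    have h1' := (Nat.pow_dvd_pow_iff_le_right (by norm_num : 1 < 2)).mp h1
    have h2' := (Nat.pow_dvd_pow_iff_le_right (by norm_num : 1 < 2)).mp h2
    omega
  have hPcard : Nat.card (P : Subgroup G) = 2 ^ a := by rw [hk, hka]
  have h3G : ¬ 3 ∣ Nat.card G := by
    rw [hG]
    intro h
    rcases (Nat.Prime.dvd_mul Nat.prime_three).mp h with h' | h'
    · have := Nat.Prime.dvd_of_dvd_pow Nat.prime_three h'
      omega
    · exact h3 h'
  -- the index of ⟨x⟩ in P is at most 2
  have hrelP : (Subgroup.zpowers x).relIndex (P : Subgroup G) ≤ 2 := by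
    have h1 := Cfsg.Agent.Lib.lead.card_eq_card_inf_mul_relIndex (Subgroup.zpowers x) (P : Subgroup G)
    rw [inf_eq_left.mpr hxP, Nat.card_zpowers, hx, hPcard] at h1
    by_contra hgt
    push_neg at hgt
    have h2 : 2 ^ (a - 1) * 3 ≤ 2 ^ (a - 1) * (Subgroup.zpowers x).relIndex (P : Subgroup G) :=
      Nat.mul_le_mul_left _ hgt
    have h3' : 2 ^ a ≤ 2 * 2 ^ (a - 1) := by
      rcases Nat.eq_zero_or_pos a with h0 | h0
      · rw [h0]; norm_num
      · have : a = (a - 1) + 1 := by omega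
        conv_lhs => rw [this, pow_succ]
        omega
    have hpos : 0 < 2 ^ (a - 1) := by positivity
    omega
  have hfrob : ∀ Q : Subgroup G, Q ≤ (P : Subgroup G) → ∀ g ∈ Subgroup.normalizer (Q : Set G),
      Nat.Coprime (orderOf g) 2 → g ∈ Subgroup.centralizer (Q : Set G) := by
    intro Q hQP g hg hodd
    have hg3 : Nat.Coprime (orderOf g) 3 := by
      rw [Nat.coprime_comm, Nat.Prime.coprime_iff_not_dvd Nat.prime_three]
      exact fun h => h3G (dvd_trans h (orderOf_dvd_natCard g))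
    have hg6 : Nat.Coprime (orderOf g) 6 := by
      have := Nat.Coprime.mul_right hodd hg3
      norm_num at this
      exact this
    -- a generator of Q ⊓ ⟨x⟩
    haveI : IsCyclic (Subgroup.zpowers x ⊓ Q : Subgroup G) :=
      Subgroup.isCyclic_of_le (inf_le_left : Subgroup.zpowers x ⊓ Q ≤ Subgroup.zpowers x)
    obtain ⟨d, hd⟩ := IsCyclic.exists_generator (α := (Subgroup.zpowers x ⊓ Q : Subgroup G))
    have hdord : orderOf (d : G) = Nat.card (Subgroup.zpowers x ⊓ Q : Subgroup G) := by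
      rw [Subgroup.orderOf_coe]; exact orderOf_eq_card_of_forall_mem_zpowers hd
    have hrelQ : (Subgroup.zpowers x).relIndex Q ≤ 2 := by
      refine le_trans (Subgroup.relIndex_le_of_le_right hQP ?_) hrelP
      intro h0
      have h1 := Cfsg.Agent.Lib.lead.card_eq_card_inf_mul_relIndex (Subgroup.zpowers x) (P : Subgroup G)
      rw [h0, mul_zero] at h1
      exact Nat.card_pos.ne' h1
    have hQcard : Nat.card Q ≤ 2 * orderOf (d : G) := by
      have h1 := Cfsg.Agent.Lib.lead.card_eq_card_inf_mul_relIndex (Subgroup.zpowers x) Q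
      rw [h1, hdord, mul_comm]
      exact Nat.mul_le_mul_right _ hrelQ
    have hcent := centralizes (Nat.card Q) Q rfl (P.isPGroup'.to_le hQP) ⟨(d : G), d.2.2, hQcard⟩
      g hg hg6
    rw [Subgroup.mem_centralizer_iff]
    intro y hy
    have h1 := hcent y hy
    calc y * g = (g * y * g⁻¹) * g := by rw [h1]
      _ = g * y := by group
  obtain ⟨N, hN, hc⟩ := (Cfsg.Agent.S0071.result P).mpr hfrob
  refine ⟨N, hN, ?_⟩
  have h1 := hc.card_mul_card
  rw [hPcard, hG, mul_comm] at h1
  exact Nat.eq_of_mul_eq_mul_left (by positivity) h1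

end Cfsg.Agent.S3971
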