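import Cfsg.Statements.S3972
import Cfsg.Agent.Lib.helper23.SRingC

set_option autoImplicit false
open Cfsg

namespace Cfsg.Agent.S3972

/-- Let `p` be a prime, `m ≥ 2`, and `G` a transitive but not doubly transitive permutation group on `p ^ m` points containing a permutation of order `p ^ m` (necessarily a full cycle). Then `G` is imprimitive, and the normal closure in `G` of the `p ^ (m - 1)`-th power of that permutation is an intransitive normal subgroup. -/
theorem result {Ω : Type*} [Fintype Ω] [DecidableEq Ω] (p m : ℕ) (hp : p.Prime) (hm : 2 ≤ m) (hΩ : Fintype.card Ω = p ^ m) (G : Subgroup (Equiv.Perm Ω)) (htr : MulAction.IsPretransitive G Ω) (h2 : ¬ MulAction.IsMultiplyPretransitive G Ω 2) (g : G) (hg : orderOf g = p ^ m) : ¬ MulAction.IsPreprimitive G Ω ∧ ¬ MulAction.IsPretransitive (Subgroup.normalClosure ({g ^ (p ^ (m - 1))} : Set G)) Ω := by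
  classical
  haveI : Fact p.Prime := ⟨hp⟩
  haveI : NeZero (p ^ m) := ⟨pow_ne_zero _ hp.ne_zero⟩
  have hg' : orderOf (g : Equiv.Perm Ω) = p ^ m := by rw [Subgroup.orderOf_coe, hg]
  have hg'pow : (g : Equiv.Perm Ω) ^ (p ^ m) = 1 := by
    rw [← hg']; exact pow_orderOf_eq_one _
  have hlt : p ^ (m - 1) < p ^ m := Nat.pow_lt_pow_right hp.one_lt (by omega)
  have hg0' : (g : Equiv.Perm Ω) ^ (p ^ (m - 1)) ≠ 1 := by
    apply pow_ne_one_of_lt_orderOf (pow_ne_zero _ hp.ne_zero)
    rw [hg']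
    exact hlt
  obtain ⟨ω0, hω0⟩ : ∃ ω0 : Ω, ((g : Equiv.Perm Ω) ^ (p ^ (m - 1))) ω0 ≠ ω0 := by
    by_contra hcon
    apply hg0'
    ext ω
    by_contra h
    exact hcon ⟨ω, h⟩
  have hper : MulAction.period (g : Equiv.Perm Ω) ω0 = p ^ m := by
    have hdvd : MulAction.period (g : Equiv.Perm Ω) ω0 ∣ p ^ m := by
      rw [← hg']; exact MulAction.period_dvd_orderOf _ ω0
    obtain ⟨k, hk, hkeq⟩ := (Nat.dvd_prime_pow hp).1 hdvd
    rcases Nat.lt_or_ge k m with hlt' | hge
    · exfalso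
      apply hω0
      have h3 : MulAction.period (g : Equiv.Perm Ω) ω0 ∣ p ^ (m - 1) := by
        rw [hkeq]; exact pow_dvd_pow p (by omega)
      exact (MulAction.pow_smul_eq_iff_period_dvd).2 h3
    · rw [hkeq, le_antisymm hk hge]
  let ψ : Multiplicative (ZMod (p ^ m)) →* Equiv.Perm Ω :=
    { toFun := fun h => (g : Equiv.Perm Ω) ^ (Multiplicative.toAdd h).val
      map_one' := by
        show (g : Equiv.Perm Ω) ^ (Multiplicative.toAdd (1 : Multiplicative (ZMod (p ^ m)))).val = 1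
        rw [toAdd_one, ZMod.val_zero, pow_zero]
      map_mul' := by
        intro a b
        show (g : Equiv.Perm Ω) ^ (Multiplicative.toAdd (a * b)).val =
          (g : Equiv.Perm Ω) ^ (Multiplicative.toAdd a).val *
            (g : Equiv.Perm Ω) ^ (Multiplicative.toAdd b).val
        rw [toAdd_mul, ZMod.val_add, ← pow_add, ← pow_eq_pow_mod _ hg'pow] }
  have hψ : ∀ h : Multiplicative (ZMod (p ^ m)),
      ψ h = (g : Equiv.Perm Ω) ^ (Multiplicative.toAdd h).val := fun h => rfl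
  have hψG : ∀ h, ψ h ∈ G := by
    intro h
    rw [hψ]
    exact G.pow_mem g.2 _
  have hfix : ∀ c : Multiplicative (ZMod (p ^ m)), ψ c ω0 = ω0 → c = 1 := by
    intro c hc
    rw [hψ] at hc
    have h3 : MulAction.period (g : Equiv.Perm Ω) ω0 ∣ (Multiplicative.toAdd c).val :=
      (MulAction.pow_smul_eq_iff_period_dvd).1 hc
    rw [hper] at h3
    have hlt' : (Multiplicative.toAdd c).val < p ^ m := ZMod.val_lt _
    have h0 : (Multiplicative.toAdd c).val = 0 := Nat.eq_zero_of_dvd_of_lt h3 hlt'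
    have h00 : Multiplicative.toAdd c = 0 := (ZMod.val_eq_zero _).1 h0
    exact toAdd_eq_zero.1 h00
  have hcardH : Fintype.card (Multiplicative (ZMod (p ^ m))) = p ^ m := by
    rw [Fintype.card_multiplicative, ZMod.card]
  have hc0 : (Multiplicative.ofAdd ((p ^ (m - 1) : ℕ) : ZMod (p ^ m))) ^ p = 1 := by
    apply Multiplicative.toAdd.injective
    rw [toAdd_pow, toAdd_one, toAdd_ofAdd, nsmul_eq_mul, ← Nat.cast_mul, ← pow_succ',
      Nat.sub_add_cancel (by omega), ZMod.natCast_self]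
  have hgc0 : ((g ^ (p ^ (m - 1)) : G) : Equiv.Perm Ω) =
      ψ (Multiplicative.ofAdd ((p ^ (m - 1) : ℕ) : ZMod (p ^ m))) := by
    rw [hψ, toAdd_ofAdd, ZMod.val_natCast, Nat.mod_eq_of_lt hlt, Subgroup.coe_pow]
  exact Cfsg.Agent.Lib.helper23.sr_bridge hp hm hΩ G h2 hcardH ψ hψG ω0 hfix _ hc0
    (g ^ (p ^ (m - 1))) hgc0

end Cfsg.Agent.S3972
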