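import Cfsg.Statements.S3973
import Cfsg.Agent.Lib.helper20.HopfRank

set_option autoImplicit false
open Cfsg

namespace Cfsg.Agent.S3973

open Cfsg.Agent.Lib.helper20

theorem rank_hopfM_le (n : ℕ) (rels : Finset (FreeGroup (Fin n)))
    [Finite (PresentedGroup (rels : Set (FreeGroup (Fin n))))] :
    Group.rank (hopfM (PresentedGroup.mk (rels : Set (FreeGroup (Fin n))))) ≤ rels.card - n := by
  classical
  set φ : FreeGroup (Fin n) →* PresentedGroup (rels : Set (FreeGroup (Fin n))) :=
    PresentedGroup.mk (rels : Set (FreeGroup (Fin n))) with hφ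
  have hker : φ.ker = Subgroup.normalClosure (rels : Set (FreeGroup (Fin n))) := by
    rw [hφ]; exact QuotientGroup.ker_mk' _
  letI : CommGroup (barHom φ).ker :=
    { (inferInstance : Group (barHom φ).ker) with
      mul_comm := fun a b => Subtype.ext (by
        have := Subgroup.mem_center_iff.mp (ker_barHom_le_center φ a.2) (b : Fbar φ)
        exact this.symm) }
  have hrel : ∀ x ∈ rels, (QuotientGroup.mk x : Fbar φ) ∈ (barHom φ).ker := by
    intro x hx
    rw [MonoidHom.mem_ker, barHom_mk, ← MonoidHom.mem_ker, hker]
    exact Subgroup.subset_normalClosure hx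
  let s : Fin rels.card → (barHom φ).ker := fun i =>
    ⟨QuotientGroup.mk ((rels.equivFin.symm i : rels) : FreeGroup (Fin n)),
      hrel _ (rels.equivFin.symm i).2⟩
  -- the closure of the relators in F̄
  let C : Subgroup (Fbar φ) := Subgroup.closure (Set.range (fun i => (s i : Fbar φ)))
  have hC : C ≤ (barHom φ).ker := by
    rw [Subgroup.closure_le]
    rintro _ ⟨i, rfl⟩
    exact (s i).2
  haveI hCn : C.Normal := normal_of_le_ker hC
  have hRC : ∀ x : FreeGroup (Fin n), x ∈ φ.ker → (QuotientGroup.mk x : Fbar φ) ∈ C := by
    intro x hx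
    rw [hker] at hx
    have hle : Subgroup.normalClosure (rels : Set (FreeGroup (Fin n))) ≤
        C.comap (QuotientGroup.mk' (relComm φ)) := by
      apply Subgroup.normalClosure_le_normal
      intro y hy
      change (QuotientGroup.mk y : Fbar φ) ∈ C
      apply Subgroup.subset_closure
      refine ⟨rels.equivFin ⟨y, hy⟩, ?_⟩
      simp [s]
    exact hle hx
  have hs : Subgroup.closure (Set.range s) = ⊤ := by
    rw [eq_top_iff]
    intro x _
    obtain ⟨a, ha⟩ := QuotientGroup.mk_surjective (x : Fbar φ)
    have hak : a ∈ φ.ker := by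
      have := x.2
      rw [← ha, MonoidHom.mem_ker, barHom_mk] at this
      exact this
    have hxC : (x : Fbar φ) ∈ C := by rw [← ha]; exact hRC a hak
    have key : ∀ y : Fbar φ, y ∈ C → ∀ hy : y ∈ (barHom φ).ker,
        (⟨y, hy⟩ : (barHom φ).ker) ∈ Subgroup.closure (Set.range s) := by
      intro y hy
      induction hy using Subgroup.closure_induction with
      | mem z hz =>
        intro hz'
        obtain ⟨i, rfl⟩ := hz
        exact Subgroup.subset_closure ⟨i, rfl⟩
      | one => intro _; exact Subgroup.one_mem _
      | mul a b ha hb iha ihb =>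
        intro _
        exact Subgroup.mul_mem _ (iha (hC ha)) (ihb (hC hb))
      | inv a ha iha =>
        intro _
        exact Subgroup.inv_mem _ (iha (hC ha))
    exact key _ hxC x.2
  let f : (barHom φ).ker →* Abelianization (FreeGroup (Fin n)) :=
    (abHom φ).comp (barHom φ).ker.subtype
  have hf : ∀ y, y ^ (Nat.card (PresentedGroup (rels : Set (FreeGroup (Fin n))))) ∈ f.range := by
    intro y
    obtain ⟨x, rfl⟩ := QuotientGroup.mk_surjective y
    have hx : x ^ (Nat.card (PresentedGroup (rels : Set (FreeGroup (Fin n))))) ∈ φ.ker := by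
      rw [MonoidHom.mem_ker, map_pow, pow_card_eq_one']
    refine ⟨⟨QuotientGroup.mk (x ^ (Nat.card (PresentedGroup (rels : Set (FreeGroup (Fin n)))))),
      ?_⟩, ?_⟩
    · rw [MonoidHom.mem_ker, barHom_mk]; exact hx
    · rfl
  obtain ⟨T, hT1, hT2⟩ := exists_finset_closure_ker s hs f
    (Nat.card (PresentedGroup (rels : Set (FreeGroup (Fin n))))) Nat.card_pos.ne' hf
  have hT3 : Subgroup.closure ((T.image Subtype.val : Finset (Fbar φ)) : Set (Fbar φ)) =
      hopfM φ := by
    rw [Finset.coe_image]
    have : (Subtype.val '' (T : Set (barHom φ).ker) : Set (Fbar φ)) =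
        (barHom φ).ker.subtype '' (T : Set (barHom φ).ker) := rfl
    rw [this, ← MonoidHom.map_closure, hT2]
    ext x
    constructor
    · rintro ⟨y, hy, rfl⟩
      refine ⟨y.2, ?_⟩
      rw [← ker_abHom]
      exact hy
    · rintro ⟨hx1, hx2⟩
      refine ⟨⟨x, hx1⟩, ?_, rfl⟩
      rw [← ker_abHom] at hx2
      exact hx2
  have h1 := Subgroup.rank_closure_finset_le_card (T.image Subtype.val : Finset (Fbar φ))
  have h2 : Group.rank (Subgroup.closure ((T.image Subtype.val : Finset (Fbar φ)) : Set (Fbar φ)))
      = Group.rank (hopfM φ) := Subgroup.rank_congr hT3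
  have h3 := Finset.card_image_le (s := T) (f := (Subtype.val : (barHom φ).ker → Fbar φ))
  omega

/-- If a finite group is presented by `n` generators and a finite set of `r` relators, then its Schur multiplier can be generated by `r - n` elements. In particular a finite group with a presentation having as many relators as generators has trivial Schur multiplier. -/
theorem result (n : ℕ) (rels : Finset (FreeGroup (Fin n))) [Finite (PresentedGroup (rels : Set (FreeGroup (Fin n))))] {A : Type*} [CommGroup A] [Finite A] (hA : Cfsg.HasSchurMultiplier (PresentedGroup (rels : Set (FreeGroup (Fin n)))) A) : Group.rank A ≤ rels.card - n := by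
  have hsurj : Function.Surjective (PresentedGroup.mk (rels : Set (FreeGroup (Fin n)))) :=
    QuotientGroup.mk'_surjective _
  obtain ⟨e⟩ := schurMultiplier_unique hA
    (hasSchurMultiplier_hopfM (PresentedGroup.mk (rels : Set (FreeGroup (Fin n)))) hsurj)
  rw [Group.rank_congr e]
  exact rank_hopfM_le n rels

end Cfsg.Agent.S3973
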