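import Cfsg.Statements.S3976
import Cfsg.Agent.Lib.helper20.Wielandt

set_option autoImplicit false
open Cfsg

namespace Cfsg.Agent.S3976

open scoped Pointwise

/-- conjugation action on subgroups of a given order -/
@[instance_reducible]
noncomputable def conjAction (G : Type*) [Group G] (n : ℕ) :
    MulAction G {H : Subgroup G // Nat.card H = n} where
  smul g H := ⟨MulAut.conj g • H.1, by
    rw [← Nat.card_congr (Subgroup.equivSMul (MulAut.conj g) H.1).toEquiv]; exact H.2⟩
  one_smul H := Subtype.ext (by
    show MulAut.conj (1 : G) • H.1 = H.1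
    rw [map_one, one_smul])
  mul_smul g h H := Subtype.ext (by
    show MulAut.conj (g * h) • H.1 = MulAut.conj g • (MulAut.conj h • H.1)
    rw [map_mul, mul_smul])

/-- Let `p` be a prime and `G` a group of order `p ^ m`. For every `s ≤ m` the number of normal subgroups of `G` of order `p ^ s` is congruent to `1` modulo `p`. -/
theorem result {G : Type*} [Group G] [Finite G] (p m s : ℕ) (hp : p.Prime) (hG : Nat.card G = p ^ m) (hs : s ≤ m) : Nat.card {H : Subgroup G // H.Normal ∧ Nat.card H = p ^ s} ≡ 1 [MOD p] := by
  have hpf : Fact p.Prime := ⟨hp⟩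
  have hPG : IsPGroup p G := IsPGroup.of_card hG
  let act := conjAction G (p ^ s)
  have h1 := hPG.card_modEq_card_fixedPoints {H : Subgroup G // Nat.card H = p ^ s}
  have h2 : Nat.card {H : Subgroup G // Nat.card H = p ^ s} ≡ 1 [MOD p] :=
    Cfsg.Agent.Lib.helper20.card_subgroups_modEq_one p s hp (by rw [hG]; exact pow_dvd_pow p hs)
  have h3 : Nat.card (MulAction.fixedPoints G {H : Subgroup G // Nat.card H = p ^ s}) =
      Nat.card {H : Subgroup G // H.Normal ∧ Nat.card H = p ^ s} := by
    apply Nat.card_congr
    refine
      { toFun := fun H => ⟨H.1.1, ?_, H.1.2⟩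
        invFun := fun H => ⟨⟨H.1, H.2.2⟩, ?_⟩
        left_inv := fun H => rfl
        right_inv := fun H => rfl }
    · constructor
      intro n hn g
      have hfix := H.2 g
      have hfix' : MulAut.conj g • H.1.1 = H.1.1 := congrArg Subtype.val hfix
      rw [← hfix']
      have := Subgroup.smul_mem_pointwise_smul n (MulAut.conj g) H.1.1 hn
      rwa [MulAut.smul_def, MulAut.conj_apply] at this
    · intro g
      apply Subtype.ext
      show MulAut.conj g • H.1 = H.1
      have hn := H.2.1
      exact Subgroup.Normal.conj_smul_eq_self g H.1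
  rw [← h3]
  exact h1.symm.trans h2

end Cfsg.Agent.S3976
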