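import Cfsg.Statements.S3977
import Cfsg.Agent.Lib.helper20.UniqueSub

set_option autoImplicit false
open Cfsg

namespace Cfsg.Agent.S3977

/-- Let `p` be a prime and `G` a group of order `p ^ m` which has exactly one subgroup of order `p ^ s`, where `1 ≤ s < m`, and where `s ≥ 2` if `p = 2`. Then `G` is cyclic. (For `p = 2` and `s = 1` the generalized quaternion groups also occur; that case is the classical criterion for a unique involution.) -/
theorem result {G : Type*} [Group G] [Finite G] (p m s : ℕ) (hp : p.Prime) (hG : Nat.card G = p ^ m) (hs : 1 ≤ s) (hsm : s < m) (h2 : p ≠ 2 ∨ 2 ≤ s) (huniq : ∀ H K : Subgroup G, Nat.card H = p ^ s → Nat.card K = p ^ s → H = K) : IsCyclic G := by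
  by_cases hp2 : p = 2
  · subst hp2
    have hs2 : 2 ≤ s := by
      rcases h2 with h | h
      · exact absurd rfl h
      · exact h
    exact Cfsg.Agent.Lib.helper20.unique_subgroup_cyclic 2 s 2 hp (by norm_num) hs2
      (by decide) m G hG hsm huniq
  · have h3 : 2 < p := lt_of_le_of_ne hp.two_le (Ne.symm hp2)
    exact Cfsg.Agent.Lib.helper20.unique_subgroup_cyclic p s 1 hp le_rfl hs
      (by rw [pow_one]; exact hp.dvd_choose_self (by norm_num) h3) m G hG hsm huniq

end Cfsg.Agent.S3977
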