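import Cfsg.Statements.S4212
import Mathlib

set_option autoImplicit false
open Cfsg

namespace Cfsg.Agent.S4212

open Classical

theorem block_sum {α : Type*} (cls : α → Finset α) (f : α → ℕ) (d : ℕ) :
    ∀ (S : Finset α), (∀ x ∈ S, x ∈ cls x ∧ cls x ⊆ S ∧
      (∀ y ∈ cls x, cls y = cls x ∧ f y = f x) ∧ d ∣ (cls x).card * f x) →
      d ∣ ∑ x ∈ S, f x := by
  intro S
  induction S using Finset.strongInduction with
  | H S ih =>
    intro h
    rcases S.eq_empty_or_nonempty with rfl | ⟨x, hx⟩
    · simp
    · obtain ⟨hxx, hsub, hcls, hd⟩ := h x hx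
      have hlt : S \ cls x ⊂ S := by
        refine Finset.ssubset_iff_subset_ne.mpr ⟨Finset.sdiff_subset, fun he => ?_⟩
        have : x ∈ S \ cls x := by rw [he]; exact hx
        exact (Finset.mem_sdiff.mp this).2 hxx
      have h1 := ih (S \ cls x) hlt (by
        intro y hy
        obtain ⟨hyS, hyn⟩ := Finset.mem_sdiff.mp hy
        obtain ⟨hyy, hysub, hycls, hyd⟩ := h y hyS
        refine ⟨hyy, ?_, hycls, hyd⟩
        intro z hz
        refine Finset.mem_sdiff.mpr ⟨hysub hz, fun hzx => hyn ?_⟩
        have e1 := (hcls z hzx).1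
        have e2 := (hycls z hz).1
        rw [← e1, e2]; exact hyy)
      have hsplit : ∑ y ∈ S, f y = ∑ y ∈ S \ cls x, f y + ∑ y ∈ cls x, f y := by
        rw [Finset.sum_sdiff hsub]
      rw [hsplit]
      refine dvd_add h1 ?_
      have : ∑ y ∈ cls x, f y = (cls x).card * f x := by
        rw [Finset.sum_congr rfl (fun y hy => (hcls y hy).2)]
        simp
      rw [this]; exact hd

variable {G : Type*} [Group G] [Fintype G]

theorem card_eq_filter (H : Subgroup G) :
    Nat.card H = (Finset.univ.filter (fun t : G => t ∈ H)).card :=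
  Nat.subtype_card _ (fun x => by simp)

theorem mem_cls (H : Subgroup G) (y z : G) :
    z ∈ (Finset.univ.filter (fun t : G => t ∈ H)).image (fun t => t * y * t⁻¹) ↔
      ∃ t ∈ H, t * y * t⁻¹ = z := by
  simp [Finset.mem_image]

theorem cls_eq (H : Subgroup G) (y z : G)
    (hz : z ∈ (Finset.univ.filter (fun t : G => t ∈ H)).image (fun t => t * y * t⁻¹)) :
    (Finset.univ.filter (fun t : G => t ∈ H)).image (fun t => t * z * t⁻¹) =
      (Finset.univ.filter (fun t : G => t ∈ H)).image (fun t => t * y * t⁻¹) := by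
  obtain ⟨t, ht, rfl⟩ := (mem_cls H y z).mp hz
  ext w
  rw [mem_cls, mem_cls]
  constructor
  · rintro ⟨s, hs, rfl⟩
    exact ⟨s * t, H.mul_mem hs ht, by group⟩
  · rintro ⟨s, hs, rfl⟩
    exact ⟨s * t⁻¹, H.mul_mem hs (H.inv_mem ht), by group⟩

theorem cls_card (H : Subgroup G) (y : G) :
    ((Finset.univ.filter (fun t : G => t ∈ H)).image (fun t => t * y * t⁻¹)).card *
      Nat.card (H ⊓ Subgroup.centralizer {y} : Subgroup G) = Nat.card H := by
  rw [card_eq_filter H, Finset.card_eq_sum_card_image (fun t => t * y * t⁻¹)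
    (Finset.univ.filter (fun t : G => t ∈ H))]
  rw [Finset.sum_const_nat]
  intro b hb
  obtain ⟨t, ht, rfl⟩ := (mem_cls H y b).mp hb
  rw [card_eq_filter]
  refine Finset.card_nbij' (fun a => t⁻¹ * a) (fun a => t * a) ?_ ?_ ?_ ?_
  · intro a ha
    rw [Finset.mem_coe, Finset.mem_filter, Finset.mem_filter] at ha
    rw [Finset.mem_coe, Finset.mem_filter, Subgroup.mem_inf,
      Subgroup.mem_centralizer_iff]
    simp only [Finset.mem_univ, true_and, Set.mem_singleton_iff, forall_eq]
    replace ha : a ∈ H ∧ a * y * a⁻¹ = t * y * t⁻¹ := ⟨ha.1.2, ha.2⟩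
    refine ⟨H.mul_mem (H.inv_mem ht) ha.1, ?_⟩
    have h2 := ha.2
    have : y = t⁻¹ * (a * y * a⁻¹) * t := by rw [h2]; group
    calc y * (t⁻¹ * a) = t⁻¹ * (a * y * a⁻¹) * t * (t⁻¹ * a) := by rw [← this]
      _ = t⁻¹ * a * y := by group
  · intro a ha
    rw [Finset.mem_coe, Finset.mem_filter, Subgroup.mem_inf,
      Subgroup.mem_centralizer_iff] at ha
    simp only [Finset.mem_univ, true_and, Set.mem_singleton_iff, forall_eq] at ha
    rw [Finset.mem_coe, Finset.mem_filter, Finset.mem_filter]
    simp only [Finset.mem_univ, true_and]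
    refine ⟨H.mul_mem ht ha.1, ?_⟩
    have h2 := ha.2
    calc t * a * y * (t * a)⁻¹ = t * (a * y) * a⁻¹ * t⁻¹ := by group
      _ = t * (y * a) * a⁻¹ * t⁻¹ := by rw [h2]
      _ = t * y * t⁻¹ := by group
  · intro a _; simp
  · intro a _; simp

theorem cnt_conj (H : Subgroup G) (n : ℕ) (y t : G) (ht : t ∈ H) :
    (Finset.univ.filter (fun x : G => x ∈ H ∧ x ^ n = t * y * t⁻¹)).card =
      (Finset.univ.filter (fun x : G => x ∈ H ∧ x ^ n = y)).card := by
  refine Finset.card_nbij' (fun a => t⁻¹ * a * t) (fun a => t * a * t⁻¹) ?_ ?_ ?_ ?_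
  · intro a ha
    rw [Finset.mem_coe, Finset.mem_filter] at ha ⊢
    replace ha := ha.2
    refine ⟨Finset.mem_univ _, H.mul_mem (H.mul_mem (H.inv_mem ht) ha.1) ht, ?_⟩
    have : (t⁻¹ * a * t) ^ n = t⁻¹ * a ^ n * t := by
      have := conj_pow (a := t⁻¹) (b := a) (i := n)
      simpa using this
    rw [this, ha.2]; group
  · intro a ha
    rw [Finset.mem_coe, Finset.mem_filter] at ha ⊢
    replace ha := ha.2
    refine ⟨Finset.mem_univ _, H.mul_mem (H.mul_mem ht ha.1) (H.inv_mem ht), ?_⟩
    rw [conj_pow, ha.2]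
  · intro a _; group
  · intro a _; group

theorem cnt_centralizer (H : Subgroup G) (n : ℕ) (y : G) :
    (Finset.univ.filter (fun x : G => x ∈ H ∧ x ^ n = y)).card =
      (Finset.univ.filter (fun x : G =>
        x ∈ (H ⊓ Subgroup.centralizer {y} : Subgroup G) ∧ x ^ n = y)).card := by
  congr 1
  refine Finset.filter_congr (fun x _ => ?_)
  constructor
  · rintro ⟨hx, rfl⟩
    refine ⟨⟨hx, ?_⟩, rfl⟩
    show x ∈ Subgroup.centralizer {x ^ n}
    rw [Subgroup.mem_centralizer_iff]
    intro z hz; rw [Set.mem_singleton_iff] at hz; subst hz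
    exact pow_mul_comm' x n
  · rintro ⟨hx, h⟩; exact ⟨hx.1, h⟩

theorem class_sum (H : Subgroup G) (Y : Finset G) (f : G → ℕ) (d : ℕ)
    (hY : ∀ y ∈ Y, ∀ t ∈ H, t * y * t⁻¹ ∈ Y)
    (hf : ∀ y ∈ Y, ∀ t ∈ H, f (t * y * t⁻¹) = f y)
    (hd : ∀ y ∈ Y, d ∣ ((Finset.univ.filter (fun t : G => t ∈ H)).image
      (fun t => t * y * t⁻¹)).card * f y) :
    d ∣ ∑ y ∈ Y, f y := by
  refine block_sum (fun y => (Finset.univ.filter (fun t : G => t ∈ H)).image
    (fun t => t * y * t⁻¹)) f d Y ?_
  intro y hy
  refine ⟨(mem_cls H y y).mpr ⟨1, H.one_mem, by simp⟩, ?_, ?_, hd y hy⟩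
  · intro z hz
    obtain ⟨t, ht, rfl⟩ := (mem_cls H y z).mp hz
    exact hY y hy t ht
  · intro z hz
    refine ⟨cls_eq H y z hz, ?_⟩
    obtain ⟨t, ht, rfl⟩ := (mem_cls H y z).mp hz
    exact hf y hy t ht


theorem central_count :
    ∀ (k : ℕ) (H : Subgroup G), Nat.card H = k → ∀ (n : ℕ) (c : G), c ∈ H →
      (∀ h ∈ H, h * c = c * h) →
      Nat.gcd n (Nat.card H) ∣ (Finset.univ.filter (fun x : G => x ∈ H ∧ x ^ n = c)).card := by
  intro k
  induction k using Nat.strong_induction_on with
  | _ k ihk =>
  intro H hHk n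
  induction n using Nat.strong_induction_on with
  | _ n ihn =>
  intro c hcH hcZ
  have fact : ∀ (m : ℕ) (y : G), y ∈ H → (m < n ∨ ¬ (∀ h ∈ H, h * y = y * h)) →
      Nat.gcd m (Nat.card (H ⊓ Subgroup.centralizer {y} : Subgroup G)) ∣
        (Finset.univ.filter (fun x : G => x ∈ H ∧ x ^ m = y)).card := by
    intro m y hyH hor
    rw [cnt_centralizer H m y]
    have hyC : y ∈ H ⊓ Subgroup.centralizer {y} := by
      refine ⟨hyH, ?_⟩
      show y ∈ Subgroup.centralizer {y}
      rw [Subgroup.mem_centralizer_iff]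
      intro z hz; rw [Set.mem_singleton_iff] at hz; subst hz; rfl
    have hyCZ : ∀ h ∈ H ⊓ Subgroup.centralizer {y}, h * y = y * h := by
      intro h hh
      have : h ∈ Subgroup.centralizer {y} := hh.2
      rw [Subgroup.mem_centralizer_iff] at this
      exact (this y rfl).symm
    by_cases hyZ : ∀ h ∈ H, h * y = y * h
    · have hm : m < n := hor.resolve_right (not_not.mpr hyZ)
      have hCH : H ⊓ Subgroup.centralizer {y} = H := by
        refine inf_eq_left.mpr (fun h hh => ?_)
        rw [Subgroup.mem_centralizer_iff]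
        intro z hz; rw [Set.mem_singleton_iff] at hz; subst hz
        exact (hyZ h hh).symm
      rw [hCH]
      exact ihn m hm y hyH hyZ
    · have hlt : Nat.card (H ⊓ Subgroup.centralizer {y} : Subgroup G) < k := by
        by_contra hge
        push_neg at hge
        rw [← hHk] at hge
        have := Subgroup.eq_of_le_of_card_ge (inf_le_left : H ⊓ Subgroup.centralizer {y} ≤ H) hge
        apply hyZ
        intro h hh
        rw [← this] at hh
        exact hyCZ h hh
      exact ihk _ hlt _ rfl m y hyC hyCZ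
  have key : ∀ n₁ n₂ : ℕ, n = n₂ * n₁ → n₂ < n →
      Nat.gcd n₂ (Nat.card H) ∣
        (Finset.univ.filter (fun x : G => x ∈ H ∧ x ^ n = c)).card := by
    intro n₁ n₂ hn hlt
    have hcard : (Finset.univ.filter (fun x : G => x ∈ H ∧ x ^ n = c)).card =
        ∑ y ∈ Finset.univ.filter (fun y : G => y ∈ H ∧ y ^ n₁ = c),
          (Finset.univ.filter (fun x : G => x ∈ H ∧ x ^ n₂ = y)).card := by
      rw [Finset.card_eq_sum_card_fiberwise (f := fun x : G => x ^ n₂)
        (t := Finset.univ.filter (fun y : G => y ∈ H ∧ y ^ n₁ = c))]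
      · refine Finset.sum_congr rfl (fun y hy => ?_)
        rw [Finset.filter_filter]
        congr 1
        refine Finset.filter_congr (fun x _ => ?_)
        simp only [Finset.mem_filter, Finset.mem_univ, true_and] at hy
        constructor
        · rintro ⟨⟨hx, _⟩, rfl⟩; exact ⟨hx, rfl⟩
        · rintro ⟨hx, rfl⟩; exact ⟨⟨hx, by rw [hn, pow_mul]; exact hy.2⟩, rfl⟩
      · intro x hx
        rw [Finset.mem_coe, Finset.mem_filter] at hx
        exact Finset.mem_coe.mpr (Finset.mem_filter.mpr ⟨Finset.mem_univ _, H.pow_mem hx.2.1 _,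
          by rw [← pow_mul, ← hn]; exact hx.2.2⟩)
    rw [hcard]
    refine class_sum H _ (fun y => (Finset.univ.filter (fun x : G => x ∈ H ∧ x ^ n₂ = y)).card)
      _ ?_ ?_ ?_
    · intro y hy t ht
      simp only [Finset.mem_filter, Finset.mem_univ, true_and] at hy ⊢
      refine ⟨H.mul_mem (H.mul_mem ht hy.1) (H.inv_mem ht), ?_⟩
      rw [conj_pow, hy.2, hcZ t ht, mul_inv_cancel_right]
    · intro y hy t ht
      exact cnt_conj H n₂ y t ht
    · intro y hy
      simp only [Finset.mem_filter, Finset.mem_univ, true_and] at hy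
      have h1 := fact n₂ y hy.1 (Or.inl hlt)
      have h2 := cls_card H y
      rw [← h2]
      exact dvd_trans (Nat.gcd_mul_right_dvd_mul_gcd _ _ _)
        (Nat.mul_dvd_mul (Nat.gcd_dvd_right _ _) h1)
  rcases Nat.lt_or_ge n 2 with hn2 | hn2
  · interval_cases n
    · simp only [pow_zero, Nat.gcd_zero_left]
      by_cases hc : c = 1
      · subst hc
        rw [card_eq_filter H]
        refine dvd_of_eq ?_
        congr 1
        refine Finset.filter_congr (fun x _ => ?_)
        simp
      · have : (Finset.univ.filter (fun x : G => x ∈ H ∧ (1 : G) = c)) = ∅ := by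
          refine Finset.filter_eq_empty_iff.mpr (fun x _ hx => hc hx.2.symm)
        rw [this]; simp
    · simp
  · obtain ⟨p, hp, hpn⟩ := Nat.exists_prime_and_dvd (show n ≠ 1 by omega)
    haveI : Fact p.Prime := ⟨hp⟩
    obtain ⟨a, r, hnr, hcop, ha⟩ : ∃ a r : ℕ, p ^ a * r = n ∧ Nat.Coprime p r ∧ 0 < a :=
      ⟨n.factorization p, n / p ^ n.factorization p, Nat.ordProj_mul_ordCompl_eq_self n p,
        Nat.coprime_ordCompl hp (by omega), hp.factorization_pos_of_dvd (by omega) hpn⟩
    have hpa2 : 2 ≤ p ^ a := by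
      calc 2 ≤ p := hp.two_le
        _ = p ^ 1 := (pow_one p).symm
        _ ≤ p ^ a := Nat.pow_le_pow_right hp.pos ha
    by_cases hr : r = 1
    · -- prime power case
      have hn : n = p ^ a := by rw [← hnr, hr, mul_one]
      obtain ⟨e, q, hHe, hpq⟩ : ∃ e q : ℕ, p ^ e * q = Nat.card H ∧ Nat.Coprime p q :=
        ⟨(Nat.card H).factorization p, Nat.card H / p ^ (Nat.card H).factorization p,
          Nat.ordProj_mul_ordCompl_eq_self _ p, Nat.coprime_ordCompl hp Nat.card_pos.ne'⟩
      -- (2b)
      have h2b : ∀ c' : G, c' ∈ H → (∀ h ∈ H, h * c' = c' * h) → c' ^ q = 1 →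
          (Finset.univ.filter (fun x : G => x ∈ H ∧ x ^ n = c')).card =
            (Finset.univ.filter (fun x : G => x ∈ H ∧ x ^ n = 1)).card := by
        intro c' hc'H hc'Z hc'q
        have ho : orderOf c' ∣ q := orderOf_dvd_of_pow_eq_one hc'q
        have hco : Nat.Coprime (p ^ a) (orderOf c') :=
          Nat.Coprime.coprime_dvd_right ho (Nat.Coprime.pow_left a hpq)
        obtain ⟨u, hu⟩ := exists_pow_eq_self_of_coprime hco
        have hz : (c' ^ u) ^ n = c' := by rw [hn, pow_right_comm]; exact hu
        have hzH : c' ^ u ∈ H := H.pow_mem hc'H u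
        have hzZ : ∀ h ∈ H, Commute h (c' ^ u) := fun h hh =>
          Commute.pow_right (hc'Z h hh) u
        symm
        refine Finset.card_nbij' (fun x => x * c' ^ u) (fun x => x * (c' ^ u)⁻¹) ?_ ?_ ?_ ?_
        · intro x hx
          rw [Finset.mem_coe, Finset.mem_filter] at hx ⊢
          refine ⟨Finset.mem_univ _, H.mul_mem hx.2.1 hzH, ?_⟩
          rw [(hzZ x hx.2.1).mul_pow, hx.2.2, hz, one_mul]
        · intro x hx
          rw [Finset.mem_coe, Finset.mem_filter] at hx ⊢
          refine ⟨Finset.mem_univ _, H.mul_mem hx.2.1 (H.inv_mem hzH), ?_⟩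
          rw [((hzZ x hx.2.1).inv_right).mul_pow, hx.2.2, inv_pow, hz, mul_inv_cancel]
        · intro x _; simp
        · intro x _; simp
      -- (2a)
      have h2a : ∀ c' : G, c' ∈ H → (∀ h ∈ H, h * c' = c' * h) → c' ^ q ≠ 1 →
          p ^ a ∣ (Finset.univ.filter (fun x : G => x ∈ H ∧ x ^ n = c')).card := by
        intro c' hc'H hc'Z hc'q
        obtain ⟨m, hm⟩ : ∃ m, m = orderOf c' := ⟨_, rfl⟩
        have hpm : p ∣ m := by
          by_contra hnd
          have h1 : m ∣ p ^ e * q := by
            rw [hHe, hm]; exact Subgroup.orderOf_dvd_natCard H hc'H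
          have h2 : Nat.Coprime m (p ^ e) :=
            Nat.Coprime.pow_right e ((Nat.Prime.coprime_iff_not_dvd hp).mpr hnd).symm
          have h3 : m ∣ q := h2.dvd_of_dvd_mul_left h1
          apply hc'q
          rw [hm] at h3
          exact orderOf_dvd_iff_pow_eq_one.mp h3
        obtain ⟨m', hm'⟩ := hpm
        obtain ⟨a', rfl⟩ : ∃ a', a = a' + 1 := ⟨a - 1, by omega⟩
        have hmpos : 0 < m := by rw [hm]; exact orderOf_pos c'
        have hm'pos : 0 < m' := by
          rcases Nat.eq_zero_or_pos m' with h0 | h0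
          · rw [h0, mul_zero] at hm'; omega
          · exact h0
        have hm'lt : m' < orderOf c' := by
          rw [← hm, hm']
          calc m' = 1 * m' := (one_mul _).symm
            _ < p * m' := Nat.mul_lt_mul_of_pos_right hp.one_lt hm'pos
        -- order of x^m
        have hord : ∀ x : G, x ^ n = c' → orderOf (x ^ m) = p ^ (a' + 1) := by
          intro x hx
          refine orderOf_eq_prime_pow ?_ ?_
          · have : (x ^ m) ^ p ^ a' = c' ^ m' := by
              rw [← hx, hn, ← pow_mul, ← pow_mul, hm']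
              congr 1
              rw [pow_succ]; ring
            rw [this]
            exact pow_ne_one_of_lt_orderOf hm'pos.ne' hm'lt
          · rw [← pow_mul, mul_comm, pow_mul, ← hn, hx, hm, pow_orderOf_eq_one]
        rw [Finset.card_eq_sum_ones]
        refine block_sum (fun x => (Finset.univ.filter
          (fun w : G => w ∈ Subgroup.zpowers (x ^ m))).image (fun w => x * w)) (fun _ => 1)
          (p ^ (a' + 1)) _ ?_
        intro x hx
        rw [Finset.mem_filter] at hx
        obtain ⟨-, hxH, hxn⟩ := hx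
        have hcardcls : ∀ x : G, x ^ n = c' → ((Finset.univ.filter
            (fun w : G => w ∈ Subgroup.zpowers (x ^ m))).image (fun w => x * w)).card =
            p ^ (a' + 1) := by
          intro x hxn
          rw [Finset.card_image_of_injective _ (mul_right_injective x), ← card_eq_filter,
            Nat.card_zpowers, hord x hxn]
        have hmemS : ∀ x : G, x ∈ H → x ^ n = c' → ∀ w ∈ Subgroup.zpowers (x ^ m),
            x * w ∈ H ∧ (x * w) ^ n = c' := by
          intro x hxH hxn w hw
          have hwH : w ∈ H := (Subgroup.zpowers_le.mpr (H.pow_mem hxH m)) hw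
          refine ⟨H.mul_mem hxH hwH, ?_⟩
          have hcomm : Commute x w := by
            obtain ⟨i, rfl⟩ := Subgroup.mem_zpowers_iff.mp hw
            exact ((Commute.refl x).pow_right m).zpow_right i
          have hw1 : w ^ n = 1 := by
            have := orderOf_dvd_of_mem_zpowers hw
            rw [hord x hxn, ← hn] at this
            exact orderOf_dvd_iff_pow_eq_one.mp this
          rw [hcomm.mul_pow, hxn, hw1, mul_one]
        refine ⟨?_, ?_, ?_, ?_⟩
        · exact Finset.mem_image.mpr ⟨1, by simp, mul_one x⟩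
        · intro z hz
          obtain ⟨w, hw, rfl⟩ := Finset.mem_image.mp hz
          rw [Finset.mem_filter] at hw ⊢
          exact ⟨Finset.mem_univ _, hmemS x hxH hxn w hw.2⟩
        · intro z hz
          refine ⟨?_, rfl⟩
          obtain ⟨w, hw, rfl⟩ := Finset.mem_image.mp hz
          rw [Finset.mem_filter] at hw
          replace hw := hw.2
          have hzS := hmemS x hxH hxn w hw
          have hcomm : Commute x w := by
            obtain ⟨i, rfl⟩ := Subgroup.mem_zpowers_iff.mp hw
            exact ((Commute.refl x).pow_right m).zpow_right i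
          have hle : Subgroup.zpowers ((x * w) ^ m) ≤ Subgroup.zpowers (x ^ m) := by
            rw [Subgroup.zpowers_le, hcomm.mul_pow]
            exact Subgroup.mul_mem _ (Subgroup.mem_zpowers _) (Subgroup.pow_mem _ hw m)
          have heq : Subgroup.zpowers ((x * w) ^ m) = Subgroup.zpowers (x ^ m) := by
            refine Subgroup.eq_of_le_of_card_ge hle ?_
            rw [Nat.card_zpowers, Nat.card_zpowers, hord x hxn, hord (x * w) hzS.2]
          ext u
          simp only [Finset.mem_image, Finset.mem_filter, Finset.mem_univ, true_and]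
          rw [heq]
          constructor
          · rintro ⟨w', hw', rfl⟩
            exact ⟨w * w', Subgroup.mul_mem _ hw hw', by group⟩
          · rintro ⟨w', hw', rfl⟩
            exact ⟨w⁻¹ * w', Subgroup.mul_mem _ (Subgroup.inv_mem _ hw) hw', by group⟩
        · rw [hcardcls x hxn, mul_one]
      -- (2c)
      have h2c : Nat.gcd n (Nat.card H) ∣
          (Finset.univ.filter (fun x : G => x ∈ H ∧ x ^ n = 1)).card := by
        let Zs : Subgroup G :=
          { carrier := {c | c ∈ H ∧ (∀ h ∈ H, h * c = c * h) ∧ c ^ q = 1}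
            mul_mem' := by
              rintro a b ⟨ha, haZ, haq⟩ ⟨hb, hbZ, hbq⟩
              refine ⟨H.mul_mem ha hb, fun h hh => ?_, ?_⟩
              · rw [← mul_assoc, haZ h hh, mul_assoc, hbZ h hh, mul_assoc]
              · have hab : Commute a b := (haZ b hb).symm
                rw [hab.mul_pow, haq, hbq, mul_one]
            one_mem' := ⟨H.one_mem, fun h _ => by simp, one_pow _⟩
            inv_mem' := by
              rintro a ⟨ha, haZ, haq⟩
              refine ⟨H.inv_mem ha, fun h hh => ?_, by rw [inv_pow, haq, inv_one]⟩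
              have := haZ h hh
              calc h * a⁻¹ = a⁻¹ * (a * h) * a⁻¹ := by group
                _ = a⁻¹ * (h * a) * a⁻¹ := by rw [this]
                _ = a⁻¹ * h := by group }
        have hZs : ∀ c, c ∈ Zs ↔ c ∈ H ∧ (∀ h ∈ H, h * c = c * h) ∧ c ^ q = 1 :=
          fun c => Iff.rfl
        have hZcop : Nat.Coprime (Nat.card Zs) p := by
          rw [Nat.coprime_comm, Nat.Prime.coprime_iff_not_dvd hp]
          intro hdvd
          obtain ⟨x, hx⟩ := exists_prime_orderOf_dvd_card' p hdvd
          have hxq : x ^ q = 1 := by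
            apply Subtype.ext
            rw [Subgroup.coe_pow]
            exact ((hZs x.1).mp x.2).2.2
          have : p ∣ q := by rw [← hx]; exact orderOf_dvd_of_pow_eq_one hxq
          exact (Nat.Prime.coprime_iff_not_dvd hp).mp hpq this
        have hfib := Finset.card_eq_sum_card_fiberwise (f := fun x : G => x ^ n)
            (s := Finset.univ.filter (fun t : G => t ∈ H))
            (t := Finset.univ.filter (fun t : G => t ∈ H)) (by
              intro x hx
              rw [Finset.mem_coe, Finset.mem_filter] at hx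
              exact Finset.mem_coe.mpr
                (Finset.mem_filter.mpr ⟨Finset.mem_univ _, H.pow_mem hx.2 _⟩))
        have hsum : Nat.card H = ∑ c' ∈ Finset.univ.filter (fun t : G => t ∈ H),
            (Finset.univ.filter (fun x : G => x ∈ H ∧ x ^ n = c')).card := by
          rw [card_eq_filter H, hfib]
          refine Finset.sum_congr rfl (fun y hy => ?_)
          rw [Finset.filter_filter]
        obtain ⟨F, hF⟩ : ∃ F : G → ℕ, F = fun c' =>
            (Finset.univ.filter (fun x : G => x ∈ H ∧ x ^ n = c')).card := ⟨_, rfl⟩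
        have hFc : ∀ c', F c' = (Finset.univ.filter (fun x : G => x ∈ H ∧ x ^ n = c')).card :=
          fun c' => by rw [hF]
        have hsum' : Nat.card H = ∑ c' ∈ Finset.univ.filter (fun t : G => t ∈ H), F c' := by
          rw [hsum]; exact Finset.sum_congr rfl (fun c' _ => (hFc c').symm)
        have hs1 := Finset.sum_filter_add_sum_filter_not (Finset.univ.filter (fun t : G => t ∈ H))
          (fun c' => ∀ h ∈ H, h * c' = c' * h) F
        have hs2 := Finset.sum_filter_add_sum_filter_not
          ((Finset.univ.filter (fun t : G => t ∈ H)).filter (fun c' => ∀ h ∈ H, h * c' = c' * h))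
          (fun c' => c' ^ q = 1) F
        -- part A
        have hA : ∑ c' ∈ ((Finset.univ.filter (fun t : G => t ∈ H)).filter
            (fun c' => ∀ h ∈ H, h * c' = c' * h)).filter (fun c' => c' ^ q = 1), F c' =
            Nat.card Zs * F 1 := by
          have hcardZ : Nat.card Zs = (((Finset.univ.filter (fun t : G => t ∈ H)).filter
            (fun c' => ∀ h ∈ H, h * c' = c' * h)).filter (fun c' => c' ^ q = 1)).card := by
            refine Nat.subtype_card _ (fun x => ?_)
            rw [Finset.mem_filter, Finset.mem_filter, Finset.mem_filter, hZs]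
            simp only [Finset.mem_univ, true_and, and_assoc]
          rw [hcardZ]
          refine Finset.sum_const_nat (fun c' hc' => ?_)
          rw [Finset.mem_filter, Finset.mem_filter, Finset.mem_filter] at hc'
          rw [hFc, hFc]
          exact h2b c' hc'.1.1.2 hc'.1.2 hc'.2
        -- part B
        have hB : p ^ a ∣ ∑ c' ∈ ((Finset.univ.filter (fun t : G => t ∈ H)).filter
            (fun c' => ∀ h ∈ H, h * c' = c' * h)).filter (fun c' => ¬ c' ^ q = 1), F c' := by
          refine Finset.dvd_sum (fun c' hc' => ?_)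
          rw [Finset.mem_filter, Finset.mem_filter, Finset.mem_filter] at hc'
          rw [hFc]
          exact h2a c' hc'.1.1.2 hc'.1.2 hc'.2
        -- part C
        have hC : Nat.gcd n (Nat.card H) ∣ ∑ c' ∈ (Finset.univ.filter (fun t : G => t ∈ H)).filter
            (fun c' => ¬ ∀ h ∈ H, h * c' = c' * h), F c' := by
          refine class_sum H _ F _ ?_ ?_ ?_
          · intro y hy t ht
            rw [Finset.mem_filter, Finset.mem_filter] at hy ⊢
            refine ⟨⟨Finset.mem_univ _, H.mul_mem (H.mul_mem ht hy.1.2) (H.inv_mem ht)⟩, ?_⟩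
            intro hz
            apply hy.2
            intro h hh
            have := hz (t * h * t⁻¹) (H.mul_mem (H.mul_mem ht hh) (H.inv_mem ht))
            calc h * y = t⁻¹ * (t * h * t⁻¹ * (t * y * t⁻¹)) * t := by group
              _ = t⁻¹ * (t * y * t⁻¹ * (t * h * t⁻¹)) * t := by rw [this]
              _ = y * h := by group
          · intro y hy t ht
            rw [hFc, hFc]
            exact cnt_conj H n y t ht
          · intro y hy
            rw [Finset.mem_filter, Finset.mem_filter] at hy
            have h1 := fact n y hy.1.2 (Or.inr hy.2)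
            have h2 := cls_card H y
            rw [hFc]
            rw [← h2]
            exact dvd_trans (Nat.gcd_mul_right_dvd_mul_gcd _ _ _)
              (Nat.mul_dvd_mul (Nat.gcd_dvd_right _ _) h1)
        have hdn : Nat.gcd n (Nat.card H) ∣ p ^ a := by rw [hn]; exact Nat.gcd_dvd_left _ _
        have htot : Nat.gcd n (Nat.card H) ∣ Nat.card Zs * F 1 := by
          have hH : Nat.card H = Nat.card Zs * F 1 +
              ∑ c' ∈ ((Finset.univ.filter (fun t : G => t ∈ H)).filter
                (fun c' => ∀ h ∈ H, h * c' = c' * h)).filter (fun c' => ¬ c' ^ q = 1), F c' +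
              ∑ c' ∈ (Finset.univ.filter (fun t : G => t ∈ H)).filter
                (fun c' => ¬ ∀ h ∈ H, h * c' = c' * h), F c' := by
            rw [← hA, hs2, hs1]; exact hsum'
          have h1 : Nat.gcd n (Nat.card H) ∣ Nat.card Zs * F 1 +
              ∑ c' ∈ ((Finset.univ.filter (fun t : G => t ∈ H)).filter
                (fun c' => ∀ h ∈ H, h * c' = c' * h)).filter (fun c' => ¬ c' ^ q = 1), F c' +
              ∑ c' ∈ (Finset.univ.filter (fun t : G => t ∈ H)).filter
                (fun c' => ¬ ∀ h ∈ H, h * c' = c' * h), F c' := by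
            rw [← hH]; exact Nat.gcd_dvd_right _ _
          have h2 := (Nat.dvd_add_left hC).mp h1
          exact (Nat.dvd_add_left (dvd_trans hdn hB)).mp h2
        have hcop2 : Nat.Coprime (Nat.gcd n (Nat.card H)) (Nat.card Zs) :=
          Nat.Coprime.coprime_dvd_left hdn (Nat.Coprime.pow_left a hZcop.symm)
        rw [← hFc]
        exact hcop2.dvd_of_dvd_mul_left htot
      by_cases hcq : c ^ q = 1
      · rw [h2b c hcH hcZ hcq]; exact h2c
      · exact dvd_trans (by rw [hn]; exact Nat.gcd_dvd_left _ _) (h2a c hcH hcZ hcq)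
    · have hr0 : 0 < r := by
        rcases Nat.eq_zero_or_pos r with h0 | h0
        · rw [h0, mul_zero] at hnr; omega
        · exact h0
      have hr2 : 2 ≤ r := by omega
      have hlt1 : p ^ a < n := by
        rw [← hnr]
        calc p ^ a = p ^ a * 1 := (mul_one _).symm
          _ < p ^ a * r := Nat.mul_lt_mul_of_pos_left (by omega) (by omega)
      have hlt2 : r < n := by
        rw [← hnr]
        calc r = 1 * r := (one_mul _).symm
          _ < p ^ a * r := Nat.mul_lt_mul_of_pos_right (by omega) hr0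
      have h1 := key r (p ^ a) hnr.symm hlt1
      have h2 := key (p ^ a) r (by rw [mul_comm]; exact hnr.symm) hlt2
      have hcop' : Nat.Coprime (p ^ a) r := Nat.Coprime.pow_left a hcop
      have hg : Nat.gcd n (Nat.card H) =
          Nat.gcd (p ^ a) (Nat.card H) * Nat.gcd r (Nat.card H) := by
        rw [← hnr, Nat.gcd_comm, Nat.Coprime.gcd_mul _ hcop', Nat.gcd_comm,
          Nat.gcd_comm (Nat.card H) r]
      rw [hg]
      refine Nat.Coprime.mul_dvd_of_dvd_of_dvd ?_ h1 h2
      exact Nat.Coprime.coprime_dvd_left (Nat.gcd_dvd_left _ _)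
        (Nat.Coprime.coprime_dvd_right (Nat.gcd_dvd_left _ _) hcop')


omit [Fintype G] in
/-- Frobenius: for `c` central in `H`, `gcd(n, |H|)` divides the number of solutions in `H`
of `x ^ n = c`. -/
theorem frobenius_sub [Finite G] (H : Subgroup G) (n : ℕ) (c : G) (hc : c ∈ H)
    (hcZ : ∀ h ∈ H, h * c = c * h) :
    Nat.gcd n (Nat.card H) ∣ Nat.card {x : G // x ∈ H ∧ x ^ n = c} := by
  haveI := Fintype.ofFinite G
  have e : Nat.card {x : G // x ∈ H ∧ x ^ n = c} =
      (Finset.univ.filter (fun x : G => x ∈ H ∧ x ^ n = c)).card :=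
    Nat.subtype_card _ (fun x => by simp)
  rw [e]
  exact central_count _ H rfl n c hc hcZ

omit [Fintype G] in
/-- Frobenius' theorem. -/
theorem frobenius [Finite G] (n : ℕ) :
    Nat.gcd n (Nat.card G) ∣ Nat.card {x : G // x ^ n = 1} := by
  have h := frobenius_sub (⊤ : Subgroup G) n 1 (Subgroup.one_mem _) (fun h _ => by simp)
  rw [Subgroup.card_top] at h
  have e : Nat.card {x : G // x ∈ (⊤ : Subgroup G) ∧ x ^ n = 1} = Nat.card {x : G // x ^ n = 1} :=
    Nat.card_congr (Equiv.subtypeEquivRight (fun x => by simp))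
  rwa [e] at h

theorem result {G : Type*} [Group G] [Finite G] (c : G) (n : ℕ) : Nat.gcd (Nat.card {y : G // IsConj c y} * n) (Nat.card G) ∣ Nat.card {x : G // IsConj c (x ^ n)} := by
  haveI := Fintype.ofFinite G
  obtain ⟨cl, hcl⟩ : ∃ cl : Finset G, cl = (Finset.univ.filter
    (fun t : G => t ∈ (⊤ : Subgroup G))).image (fun t => t * c * t⁻¹) := ⟨_, rfl⟩
  have hmem : ∀ y, y ∈ cl ↔ IsConj c y := by
    intro y; rw [hcl, mem_cls, isConj_iff]; simp
  have hh : Nat.card {y : G // IsConj c y} = cl.card := Nat.subtype_card _ hmem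
  have hX : Nat.card {x : G // IsConj c (x ^ n)} = ∑ y ∈ cl,
      (Finset.univ.filter (fun x : G => x ∈ (⊤ : Subgroup G) ∧ x ^ n = y)).card := by
    have e : Nat.card {x : G // IsConj c (x ^ n)} =
        (Finset.univ.filter (fun x : G => IsConj c (x ^ n))).card :=
      Nat.subtype_card _ (fun x => by simp)
    rw [e]
    rw [Finset.card_eq_sum_card_fiberwise (f := fun x : G => x ^ n) (t := cl) (fun x hx => by
      rw [Finset.mem_coe, Finset.mem_filter] at hx
      exact Finset.mem_coe.mpr ((hmem _).mpr hx.2))]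
    refine Finset.sum_congr rfl (fun y hy => ?_)
    rw [Finset.filter_filter]
    congr 1
    refine Finset.filter_congr (fun x _ => ?_)
    constructor
    · rintro ⟨_, rfl⟩; exact ⟨Subgroup.mem_top _, rfl⟩
    · rintro ⟨_, rfl⟩; exact ⟨(hmem _).mp hy, rfl⟩
  have hconst : ∑ y ∈ cl,
      (Finset.univ.filter (fun x : G => x ∈ (⊤ : Subgroup G) ∧ x ^ n = y)).card =
      cl.card * (Finset.univ.filter (fun x : G => x ∈ (⊤ : Subgroup G) ∧ x ^ n = c)).card := by
    refine Finset.sum_const_nat (fun y hy => ?_)
    rw [hcl, mem_cls] at hy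
    obtain ⟨t, ht, rfl⟩ := hy
    exact cnt_conj ⊤ n c t ht
  rw [hX, hconst, hh]
  have hcc := cls_card (⊤ : Subgroup G) c
  rw [← hcl, top_inf_eq, Subgroup.card_top] at hcc
  have hcnt := central_count _ (Subgroup.centralizer {c}) rfl n c
    (by rw [Subgroup.mem_centralizer_iff]; intro z hz; rw [Set.mem_singleton_iff] at hz; rw [hz])
    (by
      intro h hh
      rw [Subgroup.mem_centralizer_iff] at hh
      exact (hh c rfl).symm)
  rw [cnt_centralizer ⊤ n c, top_inf_eq]
  rw [← hcc, Nat.gcd_mul_left]
  exact Nat.mul_dvd_mul_left _ hcnt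

end Cfsg.Agent.S4212
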