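import Cfsg.Statements.S3994
import Cfsg.Agent.S4212

set_option autoImplicit false
open Cfsg

namespace Cfsg.Agent.S3994

open Classical
open Cfsg.Agent.S4212

/-- If `|G| = g₁ g₂` with `g₂` coprime to `g₁` and to `n`, the number of elements of order
divisible by `n` is a multiple of `g₂`. -/
theorem count_dvd {G : Type*} [Group G] [Fintype G] (n g₁ g₂ : ℕ) (hg : g₁ * g₂ = Nat.card G)
    (hcop : Nat.Coprime g₁ g₂) (hn : Nat.Coprime n g₂) :
    g₂ ∣ (Finset.univ.filter (fun x : G => n ∣ orderOf x)).card := by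
  obtain ⟨A, B, hAB⟩ : ∃ A B : ℤ, (g₂ : ℤ) * A + (g₁ : ℤ) * B = 1 := by
    have h := Nat.gcd_eq_gcd_ab g₂ g₁
    rw [hcop.symm.gcd_eq_one] at h
    exact ⟨_, _, by rw [← h]; simp⟩
  have hpowg : ∀ x : G, x ^ (g₁ * g₂) = 1 := fun x => by rw [hg]; exact pow_card_eq_one'
  have f1 : ∀ u : G, u ^ g₁ = 1 → u ^ ((g₂ : ℤ) * A) = u := by
    intro u hu
    have e : (g₂ : ℤ) * A = 1 - (g₁ : ℤ) * B := by linarith
    rw [e, zpow_sub, zpow_one, zpow_mul, zpow_natCast, hu, one_zpow, inv_one, mul_one]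
  have f2 : ∀ v : G, v ^ g₂ = 1 → v ^ ((g₂ : ℤ) * A) = 1 := by
    intro v hv
    rw [zpow_mul, zpow_natCast, hv, one_zpow]
  have f3 : ∀ x : G, (x ^ ((g₂ : ℤ) * A)) ^ g₁ = 1 := by
    intro x
    have e : (g₂ : ℤ) * A * (g₁ : ℤ) = ((g₁ * g₂ : ℕ) : ℤ) * A := by push_cast; ring
    rw [← zpow_natCast, ← zpow_mul, e, zpow_mul, zpow_natCast, hpowg, one_zpow]
  have f4 : ∀ x : G, ((x ^ ((g₂ : ℤ) * A))⁻¹ * x) ^ g₂ = 1 := by
    intro x
    have e1 : (x ^ ((g₂ : ℤ) * A))⁻¹ * x = x ^ ((g₁ : ℤ) * B) := by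
      calc (x ^ ((g₂ : ℤ) * A))⁻¹ * x = x ^ (-((g₂ : ℤ) * A)) * x ^ (1 : ℤ) := by
            rw [zpow_neg, zpow_one]
        _ = x ^ (-((g₂ : ℤ) * A) + 1) := (zpow_add x _ _).symm
        _ = x ^ ((g₁ : ℤ) * B) := by congr 1; linarith
    have e : (g₁ : ℤ) * B * (g₂ : ℤ) = ((g₁ * g₂ : ℕ) : ℤ) * B := by push_cast; ring
    rw [e1, ← zpow_natCast, ← zpow_mul, e, zpow_mul, zpow_natCast, hpowg, one_zpow]
  -- the fibration
  obtain ⟨F, hF⟩ : ∃ F : G → ℕ, F = fun u =>
      (Finset.univ.filter (fun v : G => v ∈ Subgroup.centralizer {u} ∧ v ^ g₂ = 1)).card :=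
    ⟨_, rfl⟩
  have hFc : ∀ u, F u =
      (Finset.univ.filter (fun v : G => v ∈ Subgroup.centralizer {u} ∧ v ^ g₂ = 1)).card :=
    fun u => by rw [hF]
  have hmaps : ∀ x : G, n ∣ orderOf x →
      (x ^ ((g₂ : ℤ) * A)) ^ g₁ = 1 ∧ n ∣ orderOf (x ^ ((g₂ : ℤ) * A)) := by
    intro x hx
    refine ⟨f3 x, ?_⟩
    obtain ⟨u, hu⟩ : ∃ u, u = x ^ ((g₂ : ℤ) * A) := ⟨_, rfl⟩
    rw [← hu]
    have hux : Commute u x := by rw [hu]; exact (Commute.refl x).zpow_left _
    have huv : Commute u (u⁻¹ * x) := (Commute.refl u).inv_right.mul_right hux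
    have hxe : x = u * (u⁻¹ * x) := by group
    have h1 : orderOf x ∣ orderOf u * orderOf (u⁻¹ * x) := by
      conv_lhs => rw [hxe]
      exact huv.orderOf_mul_dvd_mul_orderOf
    have h2 : orderOf (u⁻¹ * x) ∣ g₂ := orderOf_dvd_of_pow_eq_one (by rw [hu]; exact f4 x)
    have h3 : Nat.Coprime n (orderOf (u⁻¹ * x)) := Nat.Coprime.coprime_dvd_right h2 hn
    exact h3.dvd_of_dvd_mul_right (dvd_trans hx h1)
  have hcard : (Finset.univ.filter (fun x : G => n ∣ orderOf x)).card =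
      ∑ u ∈ Finset.univ.filter (fun u : G => u ^ g₁ = 1 ∧ n ∣ orderOf u), F u := by
    rw [Finset.card_eq_sum_card_fiberwise (f := fun x : G => x ^ ((g₂ : ℤ) * A))
      (t := Finset.univ.filter (fun u : G => u ^ g₁ = 1 ∧ n ∣ orderOf u)) (fun x hx => by
        rw [Finset.mem_coe, Finset.mem_filter] at hx
        exact Finset.mem_coe.mpr (Finset.mem_filter.mpr ⟨Finset.mem_univ _, hmaps x hx.2⟩))]
    refine Finset.sum_congr rfl (fun u hu => ?_)
    rw [Finset.mem_filter] at hu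
    obtain ⟨-, hu1, hu2⟩ := hu
    rw [hFc]
    symm
    refine Finset.card_nbij' (fun v => u * v) (fun x => u⁻¹ * x) ?_ ?_ ?_ ?_
    · intro v hv
      rw [Finset.mem_coe, Finset.mem_filter, Subgroup.mem_centralizer_iff] at hv
      obtain ⟨-, hvc, hv1⟩ := hv
      have huv : Commute u v := hvc u rfl
      have hphi : (u * v) ^ ((g₂ : ℤ) * A) = u := by
        rw [huv.mul_zpow, f1 u hu1, f2 v hv1, mul_one]
      rw [Finset.mem_coe, Finset.mem_filter, Finset.mem_filter]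
      refine ⟨⟨Finset.mem_univ _, ?_⟩, hphi⟩
      have hmem : u ∈ Subgroup.zpowers (u * v) := ⟨_, hphi⟩
      exact dvd_trans hu2 (orderOf_dvd_of_mem_zpowers hmem)
    · intro x hx
      rw [Finset.mem_coe, Finset.mem_filter, Finset.mem_filter] at hx
      obtain ⟨⟨-, hx1⟩, hx2⟩ := hx
      rw [Finset.mem_coe, Finset.mem_filter, Subgroup.mem_centralizer_iff]
      refine ⟨Finset.mem_univ _, ?_, ?_⟩
      · intro z hz
        rw [Set.mem_singleton_iff] at hz; rw [hz]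
        have hux : Commute u x := by rw [← hx2]; exact (Commute.refl x).zpow_left _
        exact ((Commute.refl u).inv_right.mul_right hux).eq
      · rw [← hx2]; exact f4 x
    · intro v _; simp
    · intro x _; simp
  rw [hcard]
  refine class_sum (⊤ : Subgroup G) _ F g₂ ?_ ?_ ?_
  · intro u hu t _
    rw [Finset.mem_filter] at hu ⊢
    refine ⟨Finset.mem_univ _, ?_, ?_⟩
    · rw [conj_pow, hu.2.1, mul_one, mul_inv_cancel]
    · have : orderOf u = orderOf (t * u * t⁻¹) :=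
        SemiconjBy.orderOf_eq t (show SemiconjBy t u (t * u * t⁻¹) by simp [SemiconjBy])
      rw [← this]; exact hu.2.2
  · intro u _ t _
    rw [hFc, hFc]
    refine Finset.card_nbij' (fun v => t⁻¹ * v * t) (fun v => t * v * t⁻¹) ?_ ?_ ?_ ?_
    · intro v hv
      rw [Finset.mem_coe, Finset.mem_filter, Subgroup.mem_centralizer_iff] at hv ⊢
      obtain ⟨-, hvc, hv1⟩ := hv
      refine ⟨Finset.mem_univ _, ?_, ?_⟩
      · intro z hz
        rw [Set.mem_singleton_iff] at hz; subst hz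
        have := hvc (t * z * t⁻¹) rfl
        calc z * (t⁻¹ * v * t) = t⁻¹ * (t * z * t⁻¹ * v) * t := by group
          _ = t⁻¹ * (v * (t * z * t⁻¹)) * t := by rw [this]
          _ = t⁻¹ * v * t * z := by group
      · have e : (t⁻¹ * v * t) ^ g₂ = t⁻¹ * v ^ g₂ * t := by
          have := conj_pow (a := t⁻¹) (b := v) (i := g₂)
          simpa using this
        rw [e, hv1]; group
    · intro v hv
      rw [Finset.mem_coe, Finset.mem_filter, Subgroup.mem_centralizer_iff] at hv ⊢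
      obtain ⟨-, hvc, hv1⟩ := hv
      refine ⟨Finset.mem_univ _, ?_, ?_⟩
      · intro z hz
        rw [Set.mem_singleton_iff] at hz; subst hz
        have := hvc u rfl
        calc t * u * t⁻¹ * (t * v * t⁻¹) = t * (u * v) * t⁻¹ := by group
          _ = t * (v * u) * t⁻¹ := by rw [this]
          _ = t * v * t⁻¹ * (t * u * t⁻¹) := by group
      · rw [conj_pow, hv1, mul_one, mul_inv_cancel]
    · intro v _; group
    · intro v _; group
  · intro u _
    have h1 := central_count _ (Subgroup.centralizer {u}) rfl g₂ 1 (Subgroup.one_mem _)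
      (fun h _ => by simp)
    have h2 := cls_card (⊤ : Subgroup G) u
    rw [top_inf_eq, Subgroup.card_top, ← hg] at h2
    rw [hFc]
    have h3 : g₂ ∣ ((Finset.univ.filter (fun t : G => t ∈ (⊤ : Subgroup G))).image
        (fun t => t * u * t⁻¹)).card * Nat.card (Subgroup.centralizer {u}) := by
      rw [h2]; exact dvd_mul_left _ _
    have h4 : g₂ = Nat.gcd g₂ (((Finset.univ.filter (fun t : G => t ∈ (⊤ : Subgroup G))).image
        (fun t => t * u * t⁻¹)).card * Nat.card (Subgroup.centralizer {u})) :=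
      (Nat.gcd_eq_left h3).symm
    exact (dvd_of_eq h4).trans (dvd_trans (Nat.gcd_mul_right_dvd_mul_gcd _ _ _)
      (Nat.mul_dvd_mul (Nat.gcd_dvd_right _ _) h1))


theorem result {G : Type*} [Group G] [Finite G] (n : ℕ) (hn : 0 < n) :
    Nat.card {g : G // n ∣ orderOf g} = 0 ∨
      (Nat.card G / Nat.gcd (Nat.card G) (n ^ Nat.card G)) ∣ Nat.card {g : G // n ∣ orderOf g} := by
  right
  haveI := Fintype.ofFinite G
  obtain ⟨g, hgdef⟩ : ∃ g, g = Nat.card G := ⟨_, rfl⟩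
  rw [← hgdef]
  have hgpos : 0 < g := by rw [hgdef]; exact Nat.card_pos
  obtain ⟨g₁, hg₁⟩ : ∃ g₁, g₁ = Nat.gcd g (n ^ g) := ⟨_, rfl⟩
  rw [← hg₁]
  have hg₁g : g₁ ∣ g := by rw [hg₁]; exact Nat.gcd_dvd_left _ _
  have hg₁n : g₁ ∣ n ^ g := by rw [hg₁]; exact Nat.gcd_dvd_right _ _
  have hg₁pos : 0 < g₁ := Nat.pos_of_dvd_of_pos hg₁g hgpos
  have hmul : g₁ * (g / g₁) = g := Nat.mul_div_cancel' hg₁g
  have hcopn : Nat.Coprime n (g / g₁) := by
    by_contra h
    obtain ⟨q, hq, hqn, hqg⟩ := Nat.Prime.not_coprime_iff_dvd.mp h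
    have hall : ∀ j : ℕ, q ^ j ∣ g₁ := by
      intro j
      induction j with
      | zero => simp
      | succ j ih =>
        have ha : q ^ (j + 1) ∣ g := by
          rw [← hmul, pow_succ]; exact Nat.mul_dvd_mul ih hqg
        have hle : q ^ (j + 1) ≤ g := Nat.le_of_dvd hgpos ha
        have hlt : j + 1 < q ^ (j + 1) := Nat.lt_pow_self hq.one_lt
        have hb : q ^ (j + 1) ∣ n ^ g :=
          dvd_trans (pow_dvd_pow_of_dvd hqn (j + 1)) (pow_dvd_pow n (by omega))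
        rw [hg₁]; exact Nat.dvd_gcd ha hb
    have h1 : q ^ g₁ ≤ g₁ := Nat.le_of_dvd hg₁pos (hall g₁)
    have h2 : g₁ < q ^ g₁ := Nat.lt_pow_self hq.one_lt
    omega
  have hcop : Nat.Coprime g₁ (g / g₁) :=
    Nat.Coprime.coprime_dvd_left hg₁n (Nat.Coprime.pow_left _ hcopn)
  have e : Nat.card {x : G // n ∣ orderOf x} =
      (Finset.univ.filter (fun x : G => n ∣ orderOf x)).card :=
    Nat.subtype_card _ (fun x => by simp)
  rw [e]
  exact count_dvd n g₁ (g / g₁) (by rw [hmul, hgdef]) hcop hcopn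

end Cfsg.Agent.S3994
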