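import Cfsg.Statements.S3997
import Mathlib

set_option autoImplicit false
open Cfsg

namespace Cfsg.Agent.S3997

/-- Let G and H be finite groups with the same order type: for every m they have the same number of elements of order m. If G is nilpotent then so is H. -/
theorem result {G H : Type*} [Group G] [Finite G] [Group H] [Finite H] (hT : (∀ m : ℕ, Nat.card {g : G // orderOf g = m} = Nat.card {h : H // orderOf h = m})) (hG : Group.IsNilpotent G) :
    Group.IsNilpotent H := by
  classical
  have he : ∀ m : ℕ, Nonempty ({g : G // orderOf g = m} ≃ {h : H // orderOf h = m}) :=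
    fun m => Finite.card_eq.mp (hT m)
  let e : G ≃ H := Equiv.ofFiberEquiv (fun m => (he m).some)
  have heo : ∀ g, orderOf (e g) = orderOf g := fun g => Equiv.ofFiberEquiv_map _ g
  have hcard : Nat.card G = Nat.card H := Nat.card_congr e
  have hGn := ((Group.isNilpotent_of_finite_tfae (G := G)).out 0 3 rfl rfl).mp hG
  apply ((Group.isNilpotent_of_finite_tfae (G := H)).out 0 3 rfl rfl).mpr
  intro p hp P
  obtain ⟨PG⟩ : Nonempty (Sylow p G) := inferInstance
  haveI := hGn p hp PG
  have hPG : ∀ g : G, (∃ k, orderOf g = p ^ k) → g ∈ PG := by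
    rintro g ⟨k, hk⟩
    have h1 : IsPGroup p (Subgroup.zpowers g) := IsPGroup.of_card (n := k) (by
      rw [Nat.card_zpowers, hk])
    obtain ⟨Q, hQ⟩ := h1.exists_le_sylow
    haveI := Sylow.unique_of_normal PG inferInstance
    have : Q = PG := Subsingleton.elim _ _
    rw [← this]
    exact hQ (Subgroup.mem_zpowers g)
  -- the set of p-elements of H
  let SH : Set H := {h | ∃ k, orderOf h = p ^ k}
  have hSH : SH = e '' (PG : Set G) := by
    ext h
    constructor
    · rintro ⟨k, hk⟩
      refine ⟨e.symm h, hPG _ ⟨k, ?_⟩, by simp⟩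
      rw [← heo]; simpa using hk
    · rintro ⟨g, hg, rfl⟩
      obtain ⟨k, hk⟩ := (IsPGroup.iff_orderOf.mp PG.2) ⟨g, hg⟩
      refine ⟨k, ?_⟩
      rw [heo, ← hk, Subgroup.orderOf_mk]
  have hcardSH : SH.ncard = p ^ (Nat.card H).factorization p := by
    rw [hSH, Set.ncard_image_of_injective _ e.injective, ← hcard, ← Sylow.card_eq_multiplicity PG]
    rfl
  have hPsub : ((P : Subgroup H) : Set H) ⊆ SH := by
    intro h hh
    obtain ⟨k, hk⟩ := (IsPGroup.iff_orderOf.mp P.2) ⟨h, hh⟩
    exact ⟨k, by rw [← hk, Subgroup.orderOf_mk]⟩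
  have hPeq : ((P : Subgroup H) : Set H) = SH := by
    apply Set.eq_of_subset_of_ncard_le hPsub _ (Set.toFinite _)
    rw [hcardSH, ← Sylow.card_eq_multiplicity P]
    exact le_of_eq rfl
  constructor
  intro n hn g
  have hn' : n ∈ SH := by rw [← hPeq]; exact hn
  obtain ⟨k, hk⟩ := hn'
  have : g * n * g⁻¹ ∈ SH := by
    refine ⟨k, ?_⟩
    rw [← hk]
    exact (MulAut.conj g).orderOf_eq n
  rw [← hPeq] at this
  exact this

end Cfsg.Agent.S3997
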