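import Cfsg.Statements.S3998

import Cfsg.Agent.Lib.helper3.SupersolvableHall
set_option autoImplicit false
open Cfsg

namespace Cfsg.Agent.S3998

universe u v

theorem quot_order_dvd {K : Type*} [Group K] [Finite K] {p : ℕ} [Fact p.Prime] (P : Sylow p K)
    [hn : (P : Subgroup K).Normal] (g : K) (k : ℕ) :
    orderOf (QuotientGroup.mk' (P : Subgroup K) g) ∣ k ↔ ∃ j : ℕ, orderOf g ∣ k * p ^ j := by
  rw [orderOf_dvd_iff_pow_eq_one, ← map_pow, QuotientGroup.mk'_apply, QuotientGroup.eq_one_iff]
  constructor
  · intro h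
    obtain ⟨j, hj⟩ := (IsPGroup.iff_orderOf.mp P.2) ⟨g ^ k, h⟩
    refine ⟨j, ?_⟩
    rw [orderOf_dvd_iff_pow_eq_one, pow_mul]
    have h2 : (⟨g ^ k, h⟩ : (P : Subgroup K)) ^ p ^ j = 1 := by
      rw [← hj]; exact pow_orderOf_eq_one _
    exact congrArg Subtype.val h2
  · rintro ⟨j, hj⟩
    rw [orderOf_dvd_iff_pow_eq_one, pow_mul] at hj
    have h1 : IsPGroup p (Subgroup.zpowers (g ^ k)) := by
      have hd : orderOf (g ^ k) ∣ p ^ j := orderOf_dvd_iff_pow_eq_one.mpr hj
      obtain ⟨i, -, hi⟩ := (Nat.dvd_prime_pow Fact.out).mp hd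
      exact IsPGroup.of_card (n := i) (by rw [Nat.card_zpowers, hi])
    obtain ⟨Q, hQ⟩ := h1.exists_le_sylow
    haveI := Sylow.unique_of_normal P hn
    have : Q = P := Subsingleton.elim _ _
    rw [← this]
    exact hQ (Subgroup.mem_zpowers _)

theorem card_preimage_order {K : Type*} [Group K] [Finite K] (N : Subgroup K) [N.Normal] (m : ℕ) :
    Nat.card {g : K // orderOf (QuotientGroup.mk' N g) = m} =
      Nat.card N * Nat.card {x : K ⧸ N // orderOf x = m} := by
  rw [← Nat.card_prod]
  exact Nat.card_congr (QuotientGroup.preimageMkEquivSubgroupProdSet N {x : K ⧸ N | orderOf x = m})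

theorem aux : ∀ (n : ℕ) (G : Type u) (H : Type v) [Group G] [Finite G] [Group H] [Finite H],
    Nat.card G = n →
    (∀ m : ℕ, Nat.card {g : G // orderOf g = m} = Nat.card {h : H // orderOf h = m}) →
    Cfsg.IsSupersolvable G → Group.IsSolvable H := by
  intro n
  induction n using Nat.strong_induction_on with
  | _ n ih =>
    intro G H _ _ _ _ hn hT hG
    classical
    have he : ∀ m : ℕ, Nonempty ({g : G // orderOf g = m} ≃ {h : H // orderOf h = m}) :=
      fun m => Finite.card_eq.mp (hT m)
    let e : G ≃ H := Equiv.ofFiberEquiv (fun m => (he m).some)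
    have heo : ∀ g, orderOf (e g) = orderOf g := fun g => Equiv.ofFiberEquiv_map _ g
    have hcard : Nat.card G = Nat.card H := Nat.card_congr e
    by_cases h1 : Nat.card G ≤ 1
    · haveI : Subsingleton H := by
        rw [← Finite.card_le_one_iff_subsingleton, ← hcard]; exact h1
      exact Group.isSolvable_of_comm (fun a b => Subsingleton.elim _ _)
    have h1' : 1 < Nat.card G := by omega
    obtain ⟨p, hp, hpd, hmax⟩ := Cfsg.Agent.Lib.helper3.exists_maximal_prime h1'
    haveI : Fact p.Prime := ⟨hp⟩
    obtain ⟨PG⟩ : Nonempty (Sylow p G) := inferInstance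
    haveI hPGn : (PG : Subgroup G).Normal :=
      Cfsg.Agent.Lib.helper3.supersolvable_sylow_normal hG p hmax PG
    obtain ⟨P⟩ : Nonempty (Sylow p H) := inferInstance
    have hPG : ∀ g : G, (∃ k, orderOf g = p ^ k) → g ∈ PG := by
      rintro g ⟨k, hk⟩
      have h1 : IsPGroup p (Subgroup.zpowers g) := IsPGroup.of_card (n := k) (by
        rw [Nat.card_zpowers, hk])
      obtain ⟨Q, hQ⟩ := h1.exists_le_sylow
      haveI := Sylow.unique_of_normal PG inferInstance
      have : Q = PG := Subsingleton.elim _ _
      rw [← this]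
      exact hQ (Subgroup.mem_zpowers g)
    let SH : Set H := {h | ∃ k, orderOf h = p ^ k}
    have hSH : SH = e '' (PG : Set G) := by
      ext h
      constructor
      · rintro ⟨k, hk⟩
        refine ⟨e.symm h, hPG _ ⟨k, ?_⟩, by simp⟩
        rw [← heo]; simpa using hk
      · rintro ⟨g, hg, rfl⟩
        obtain ⟨k, hk⟩ := (IsPGroup.iff_orderOf.mp PG.2) ⟨g, hg⟩
        refine ⟨k, ?_⟩
        rw [heo, ← hk, Subgroup.orderOf_mk]
    have hcardSH : SH.ncard = p ^ (Nat.card H).factorization p := by
      rw [hSH, Set.ncard_image_of_injective _ e.injective, ← hcard, ← Sylow.card_eq_multiplicity PG]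
      rfl
    have hPsub : ((P : Subgroup H) : Set H) ⊆ SH := by
      intro h hh
      obtain ⟨k, hk⟩ := (IsPGroup.iff_orderOf.mp P.2) ⟨h, hh⟩
      exact ⟨k, by rw [← hk, Subgroup.orderOf_mk]⟩
    have hPeq : ((P : Subgroup H) : Set H) = SH := by
      apply Set.eq_of_subset_of_ncard_le hPsub _ (Set.toFinite _)
      rw [hcardSH, ← Sylow.card_eq_multiplicity P]
      exact le_of_eq rfl
    haveI hPn : (P : Subgroup H).Normal := by
      constructor
      intro x hx g
      have hx' : x ∈ SH := by rw [← hPeq]; exact hx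
      obtain ⟨k, hk⟩ := hx'
      have : g * x * g⁻¹ ∈ SH := by
        refine ⟨k, ?_⟩
        rw [← hk]
        exact (MulAut.conj g).orderOf_eq x
      rw [← hPeq] at this
      exact this
    have hcardP : Nat.card (PG : Subgroup G) = Nat.card (P : Subgroup H) := by
      rw [Sylow.card_eq_multiplicity PG, Sylow.card_eq_multiplicity P, hcard]
    have hPGpos : 0 < Nat.card (PG : Subgroup G) := Nat.card_pos
    have hquot : ∀ g : G, orderOf (QuotientGroup.mk' (P : Subgroup H) (e g)) =
        orderOf (QuotientGroup.mk' (PG : Subgroup G) g) := by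
      intro g
      apply Nat.dvd_antisymm
      · rw [quot_order_dvd P, heo, ← quot_order_dvd PG]
      · rw [quot_order_dvd PG, ← heo, ← quot_order_dvd P]
    have hT' : ∀ m : ℕ, Nat.card {x : G ⧸ (PG : Subgroup G) // orderOf x = m} =
        Nat.card {y : H ⧸ (P : Subgroup H) // orderOf y = m} := by
      intro m
      have h1 := card_preimage_order (PG : Subgroup G) m
      have h2 := card_preimage_order (P : Subgroup H) m
      have h3 : Nat.card {g : G // orderOf (QuotientGroup.mk' (PG : Subgroup G) g) = m} =
          Nat.card {h : H // orderOf (QuotientGroup.mk' (P : Subgroup H) h) = m} := by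
        apply Nat.card_congr
        refine e.subtypeEquiv ?_
        intro g
        rw [hquot g]
      rw [h1, h2, hcardP] at h3
      exact Nat.eq_of_mul_eq_mul_left (by rw [← hcardP]; exact hPGpos) h3
    have hlt : Nat.card (G ⧸ (PG : Subgroup G)) < n := by
      have h3 := Subgroup.card_eq_card_quotient_mul_card_subgroup (PG : Subgroup G)
      have h4 : 1 < Nat.card (PG : Subgroup G) := by
        have hdvd : p ∣ Nat.card (PG : Subgroup G) := by
          rw [Sylow.card_eq_multiplicity PG]
          exact dvd_pow_self p (by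
            have := (Nat.Prime.factorization_pos_of_dvd hp (by omega) hpd)
            omega)
        have := Nat.le_of_dvd hPGpos hdvd
        have := hp.two_le
        omega
      have h5 : 0 < Nat.card (G ⧸ (PG : Subgroup G)) := Nat.card_pos
      rw [← hn, h3]
      nlinarith
    have hss : Cfsg.IsSupersolvable (G ⧸ (PG : Subgroup G)) :=
      Cfsg.Agent.Lib.helper3.isSupersolvable_of_surjective (QuotientGroup.mk' (PG : Subgroup G))
        (QuotientGroup.mk'_surjective _) hG
    haveI hQs : Group.IsSolvable (H ⧸ (P : Subgroup H)) :=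
      ih _ hlt (G ⧸ (PG : Subgroup G)) (H ⧸ (P : Subgroup H)) rfl hT' hss
    haveI hPs : Group.IsSolvable (P : Subgroup H) := by
      haveI : Group.IsNilpotent (P : Subgroup H) := IsPGroup.isNilpotent P.2
      exact IsNilpotent.to_isSolvable
    exact Group.isSolvable_of_ker_le_range (P : Subgroup H).subtype
      (QuotientGroup.mk' (P : Subgroup H)) (by simp)

/-- Let G and H be finite groups with the same order type (for every m the same number of elements of order m). If G is supersolvable then H is solvable. -/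
theorem result {G H : Type*} [Group G] [Finite G] [Group H] [Finite H] (hT : (∀ m : ℕ, Nat.card {g : G // orderOf g = m} = Nat.card {h : H // orderOf h = m})) (hG : Cfsg.IsSupersolvable G) :
    Group.IsSolvable H := by

  exact aux _ G H rfl hT hG

end Cfsg.Agent.S3998
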