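import Cfsg.Statements.S4003
-- import your own Cfsg.Agent.* helpers here
import Cfsg.Agent.S0065
import Cfsg.Agent.S0100
import Cfsg.Agent.Lib.helper1.NormEA
import Cfsg.Agent.Lib.helper1.RankTwoAut
import Cfsg.Agent.S4216

set_option autoImplicit false
open Cfsg

namespace Cfsg.Agent.S4003

open Subgroup

/-- In a `p`-group (`p` odd) with a normal elementary abelian subgroup `N` of order `p ^ 2`,
`p`-th powers are constant on cosets of `N`. -/
theorem mul_pow_p {R : Type*} [Group R] [Finite R] {p : ℕ} [Fact p.Prime] (hp : p ≠ 2)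
    (hR : IsPGroup p R) (N : Subgroup R) [N.Normal] (hNc : Nat.card N = p ^ 2)
    (hNe : ∀ a ∈ N, a ^ p = 1) (x n : R) (hn : n ∈ N) : (x * n) ^ p = x ^ p := by
  have hpp : p.Prime := Fact.out
  have hp3 : 2 < p := by have := hpp.two_le; omega
  have : Group.IsNilpotent R := hR.isNilpotent
  have hne : N ≠ ⊥ := by
    intro h
    rw [h, Subgroup.card_bot] at hNc
    have := hpp.one_lt
    nlinarith
  have h1 := Cfsg.Agent.S0065.normal_inf_center_ne_bot N hne
  obtain ⟨⟨z, hz⟩, hz1⟩ := (Subgroup.ne_bot_iff_exists_ne_one).mp h1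
  have hzN : z ∈ N := hz.1
  have hzc : z ∈ center R := hz.2
  have hz1' : z ≠ 1 := fun h => hz1 (Subtype.ext h)
  have hzo : orderOf z = p := orderOf_eq_prime (hNe z hzN) hz1'
  have hle : zpowers z ≤ center R := zpowers_le.mpr hzc
  have hnorm : (zpowers z).Normal := by
    refine ⟨fun a ha g => ?_⟩
    have h2 := hle ha
    rw [Subgroup.mem_center_iff] at h2
    rw [h2 g, mul_inv_cancel_right]
    exact ha
  have hcard : Nat.card N = p * Nat.card (zpowers z) := by
    rw [Nat.card_zpowers, hzo, hNc, pow_two]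
  have h2 := Cfsg.Agent.S0100.comm_mem_of_card hR (zpowers z) N (zpowers_le.mpr hzN) hcard n hn x
  obtain ⟨c, hc⟩ : ∃ c, c = x * n * x⁻¹ * n⁻¹ := ⟨_, rfl⟩
  rw [← hc] at h2
  have hcc : ∀ r : R, c⁻¹ * r = r * c⁻¹ := by
    intro r
    have h3 := hle h2
    rw [Subgroup.mem_center_iff] at h3
    have h4 := h3 r
    calc c⁻¹ * r = c⁻¹ * (r * c) * c⁻¹ := by group
      _ = c⁻¹ * (c * r) * c⁻¹ := by rw [h4]
      _ = r * c⁻¹ := by group
  have hcp : c⁻¹ ^ p = 1 := by
    rw [inv_pow, inv_eq_one]
    exact hNe c ((zpowers_le.mpr hzN) h2)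
  have h5 : n * x = c⁻¹ * x * n := by rw [hc]; group
  have h6 := Cfsg.Agent.Lib.helper1.mul_pow_central x n c⁻¹ hcc h5 p
  rw [h6, hNe n hn, mul_one]
  have h7 : p ∣ p.choose 2 := hpp.dvd_choose_self (by norm_num) hp3
  obtain ⟨k, hk⟩ := h7
  rw [hk, pow_mul, hcp, one_pow, mul_one]

theorem order_of_pow_p {R : Type*} [Group R] {p : ℕ} [Fact p.Prime]
    (hR : IsPGroup p R) (y : R) (i : ℕ) (hi : 1 ≤ i) (h : orderOf (y ^ p) = p ^ i) :
    orderOf y = p ^ (i + 1) := by
  have hpp : p.Prime := Fact.out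
  obtain ⟨t, ht⟩ := (IsPGroup.iff_orderOf.mp hR) y
  rw [orderOf_pow' y hpp.ne_zero, ht] at h
  have h1 : 1 < p ^ i := Nat.one_lt_pow (by omega) hpp.one_lt
  rcases t with _ | t
  · simp at h
    omega
  · have h2 : Nat.gcd (p ^ (t + 1)) p = p := Nat.gcd_eq_right (dvd_pow_self p (Nat.succ_ne_zero t))
    rw [h2, pow_succ, Nat.mul_div_cancel _ hpp.pos] at h
    have h3 := Nat.pow_right_injective hpp.two_le h
    rw [ht, h3]

theorem zpowers_pow_mul {R : Type*} [Group R] [Finite R] {p : ℕ} [Fact p.Prime] (hp : p ≠ 2)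
    (hR : IsPGroup p R) (N : Subgroup R) [N.Normal] (hNc : Nat.card N = p ^ 2)
    (hNe : ∀ a ∈ N, a ^ p = 1) (x l : R) (hl : l ∈ zpowers (x ^ p) ⊔ N) :
    zpowers ((x * l) ^ p) = zpowers (x ^ p) := by
  have hpp : p.Prime := Fact.out
  have h1 : l ∈ ((zpowers (x ^ p) ⊔ N : Subgroup R) : Set R) := hl
  rw [Subgroup.mul_normal] at h1
  obtain ⟨a, ha, b, hb, rfl⟩ := Set.mem_mul.mp h1
  have ha' : a ∈ Submonoid.powers (x ^ p) := (mem_powers_iff_mem_zpowers).mpr ha
  obtain ⟨k, rfl⟩ := (Submonoid.mem_powers_iff _ _).mp ha'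
  have h2 : x * ((x ^ p) ^ k * b) = x ^ (1 + p * k) * b := by
    rw [← mul_assoc, ← pow_mul, pow_add, pow_one]
  rw [h2, mul_pow_p hp hR N hNc hNe _ b hb]
  have h3 : (x ^ (1 + p * k)) ^ p = (x ^ p) ^ (1 + p * k) := by
    rw [← pow_mul, ← pow_mul, mul_comm]
  rw [h3]
  obtain ⟨t, ht⟩ := (IsPGroup.iff_orderOf.mp hR) (x ^ p)
  have h4 : (orderOf (x ^ p)).Coprime (1 + p * k) := by
    rw [ht]
    apply Nat.Coprime.pow_left
    rw [Nat.coprime_add_mul_left_right]
    exact Nat.coprime_one_right p
  have h5 : orderOf ((x ^ p) ^ (1 + p * k)) = orderOf (x ^ p) := h4.orderOf_pow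
  apply Subgroup.eq_of_le_of_card_ge (zpowers_le.mpr (pow_mem (mem_zpowers _) _))
  rw [Nat.card_zpowers, Nat.card_zpowers, h5]

/-- Miller/Kulakoff: in a noncyclic `p`-group, `p` odd, the number of elements of order `p ^ j`,
`j ≥ 2`, is divisible by `p ^ j`. -/
theorem card_order_pgroup {R : Type*} [Group R] [Finite R] {p : ℕ} [Fact p.Prime] (hp : p ≠ 2)
    (hR : IsPGroup p R) (hnc : ¬ IsCyclic R) (j : ℕ) (hj : 2 ≤ j) :
    p ^ j ∣ Nat.card {x : R // orderOf x = p ^ j} := by
  classical
  have hpp : p.Prime := Fact.out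
  have hTnc : ¬ IsCyclic (⊤ : Subgroup R) := fun h => hnc ((Subgroup.topEquiv.isCyclic).mp h)
  obtain ⟨N, -, hNn, -, hNe, hNc⟩ := Cfsg.Agent.Lib.helper1.exists_normal_ea_sq p hp (Nat.card R) R
    rfl hR ⊤ inferInstance hTnc
  let _ : Fintype R := Fintype.ofFinite R
  let L : R → Subgroup R := fun x => zpowers (x ^ p) ⊔ N
  let Φ : R → Finset R := fun x => Finset.univ.filter (fun y => x⁻¹ * y ∈ L x)
  let E : Finset R := Finset.univ.filter (fun x => orderOf x = p ^ j)
  have hcardE : Nat.card {x : R // orderOf x = p ^ j} = E.card := by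
    rw [Nat.card_eq_fintype_card, Fintype.card_subtype]
  rw [hcardE, Finset.card_eq_sum_card_image Φ E]
  apply Finset.dvd_sum
  intro S hS
  obtain ⟨x, hxE, rfl⟩ := Finset.mem_image.mp hS
  have hxo : orderOf x = p ^ j := (Finset.mem_filter.mp hxE).2
  have hLeq : ∀ l ∈ L x, L (x * l) = L x := by
    intro l hl
    show zpowers ((x * l) ^ p) ⊔ N = zpowers (x ^ p) ⊔ N
    rw [zpowers_pow_mul hp hR N hNc hNe x l hl]
  have hxp : orderOf (x ^ p) = p ^ (j - 1) := by
    rw [orderOf_pow' x hpp.ne_zero, hxo]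
    have h1 : Nat.gcd (p ^ j) p = p := Nat.gcd_eq_right (dvd_pow_self p (by omega))
    rw [h1]
    obtain ⟨j', rfl⟩ : ∃ j', j = j' + 1 := ⟨j - 1, by omega⟩
    rw [pow_succ, Nat.mul_div_cancel _ hpp.pos]; simp
  have hord : ∀ l ∈ L x, orderOf (x * l) = p ^ j := by
    intro l hl
    have h1 : orderOf ((x * l) ^ p) = p ^ (j - 1) := by
      rw [← Nat.card_zpowers, zpowers_pow_mul hp hR N hNc hNe x l hl, Nat.card_zpowers, hxp]
    have h2 := order_of_pow_p hR (x * l) (j - 1) (by omega) h1
    rw [h2]; congr 1; omega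
  have hfib : E.filter (fun y => Φ y = Φ x) = Φ x := by
    ext y
    simp only [Finset.mem_filter]
    constructor
    · rintro ⟨-, hy⟩
      rw [← hy]
      show y ∈ Finset.univ.filter (fun w => y⁻¹ * w ∈ L y)
      simp [one_mem]
    · intro hy
      have hl : x⁻¹ * y ∈ L x := (Finset.mem_filter.mp hy).2
      have hyx : y = x * (x⁻¹ * y) := by group
      refine ⟨?_, ?_⟩
      · show y ∈ Finset.univ.filter (fun x => orderOf x = p ^ j)
        rw [Finset.mem_filter]; refine ⟨Finset.mem_univ _, ?_⟩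
        rw [hyx]; exact hord _ hl
      · have hLy : L y = L x := by rw [hyx]; exact hLeq _ hl
        ext w
        show w ∈ Finset.univ.filter (fun w => y⁻¹ * w ∈ L y) ↔
          w ∈ Finset.univ.filter (fun w => x⁻¹ * w ∈ L x)
        simp only [Finset.mem_filter, Finset.mem_univ, true_and]
        rw [hLy]
        have h1 : y⁻¹ * w = (x⁻¹ * y)⁻¹ * (x⁻¹ * w) := by group
        rw [h1]
        exact Subgroup.mul_mem_cancel_left (L x) (inv_mem hl)
  rw [hfib]
  have hcardΦ : (Φ x).card = Nat.card (L x) := by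
    rw [← Nat.card_eq_finsetCard]
    apply Nat.card_congr
    exact
      { toFun := fun y => ⟨x⁻¹ * y.1, (Finset.mem_filter.mp y.2).2⟩
        invFun := fun l => ⟨x * l.1, by
          show x * l.1 ∈ Finset.univ.filter (fun y => x⁻¹ * y ∈ L x)
          rw [Finset.mem_filter]; refine ⟨Finset.mem_univ _, ?_⟩
          rw [inv_mul_cancel_left]; exact l.2⟩
        left_inv := fun y => by ext; simp
        right_inv := fun l => by ext; simp }
  rw [hcardΦ]
  obtain ⟨a, ha⟩ := IsPGroup.iff_card.mp (hR.to_subgroup (L x))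
  rw [ha]
  apply pow_dvd_pow
  by_contra hlt
  push Not at hlt
  have h1 : zpowers (x ^ p) ≤ L x := le_sup_left
  have h2 : p ^ (j - 1) ∣ p ^ a := by
    rw [← ha, ← hxp, ← Nat.card_zpowers]; exact Subgroup.card_dvd_of_le h1
  have h3 : j - 1 ≤ a := (Nat.pow_dvd_pow_iff_le_right hpp.one_lt).mp h2
  have h4 : a = j - 1 := by omega
  have h5 : zpowers (x ^ p) = L x := by
    apply Subgroup.eq_of_le_of_card_ge h1
    rw [ha, h4, Nat.card_zpowers, hxp]
  have h6 : N ≤ zpowers (x ^ p) := by rw [h5]; exact le_sup_right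
  have h7 : IsCyclic N := by
    have : IsCyclic (N.subgroupOf (zpowers (x ^ p))) := inferInstance
    exact ((Subgroup.subgroupOfEquivOfLe h6).isCyclic).mp this
  have h8 : Monoid.exponent N = Nat.card N := IsCyclic.exponent_eq_card
  have h9 : Monoid.exponent N ∣ p := by
    apply Monoid.exponent_dvd_of_forall_pow_eq_one
    intro n
    ext
    simpa using hNe n.1 n.2
  rw [h8, hNc] at h9
  have h10 := Nat.le_of_dvd hpp.pos h9
  have := hpp.one_lt
  nlinarith

/-- Counting generators of cyclic subgroups: elements of order `d` whose cyclic group lies in a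
given family `T` of cyclic subgroups of order `d`. -/
theorem card_gen {H : Type*} [Group H] [Finite H] (d : ℕ)
    (T : Finset (Subgroup H)) (hT : ∀ Z ∈ T, ∃ x : H, orderOf x = d ∧ zpowers x = Z) :
    Nat.card {x : H // orderOf x = d ∧ zpowers x ∈ T} = T.card * Nat.totient d := by
  classical
  let _ : Fintype H := Fintype.ofFinite H
  rw [Nat.card_eq_fintype_card, Fintype.card_subtype]
  rw [Finset.card_eq_sum_card_fiberwise (f := fun x => zpowers x) (t := T)]
  · apply Finset.sum_const_nat
    intro Z hZ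
    obtain ⟨x₀, hx₀, rfl⟩ := hT Z hZ
    have hc := IsCyclic.card_orderOf_eq_totient (α := zpowers x₀) (d := d)
      (by rw [Fintype.card_zpowers, hx₀])
    rw [← hc]
    symm
    apply Finset.card_bij (fun (a : ↥(zpowers x₀)) _ => (a : H))
    · intro a ha
      simp only [Finset.mem_filter, Finset.mem_univ, true_and] at ha ⊢
      have hao : orderOf (a : H) = d := by rw [Subgroup.orderOf_coe]; exact ha
      have hz : zpowers (a : H) = zpowers x₀ := by
        apply Subgroup.eq_of_le_of_card_ge (zpowers_le.mpr a.2)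
        rw [Nat.card_zpowers, Nat.card_zpowers, hao, hx₀]
      exact ⟨⟨hao, by rw [hz]; exact hZ⟩, hz⟩
    · intro a _ b _ h; exact Subtype.ext h
    · intro x hx
      simp only [Finset.mem_filter, Finset.mem_univ, true_and] at hx
      refine ⟨⟨x, by rw [← hx.2]; exact mem_zpowers x⟩, ?_, rfl⟩
      simp only [Finset.mem_filter, Finset.mem_univ, true_and]
      rw [Subgroup.orderOf_mk]; exact hx.1.1
  · intro x hx
    exact (Finset.mem_filter.mp hx).2.2

theorem pow_pred_dvd_card {H : Type*} [Group H] [Finite H] {p : ℕ} [Fact p.Prime] (j : ℕ)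
    (hj : 1 ≤ j) : p ^ (j - 1) ∣ Nat.card {x : H // orderOf x = p ^ j} := by
  classical
  have hpp : p.Prime := Fact.out
  let _ : Fintype H := Fintype.ofFinite H
  let T : Finset (Subgroup H) := (Finset.univ.filter (fun x : H => orderOf x = p ^ j)).image zpowers
  have h1 := card_gen (p ^ j) T (by
    intro Z hZ
    obtain ⟨x, hx, rfl⟩ := Finset.mem_image.mp hZ
    exact ⟨x, (Finset.mem_filter.mp hx).2, rfl⟩)
  have h2 : Nat.card {x : H // orderOf x = p ^ j} =
      Nat.card {x : H // orderOf x = p ^ j ∧ zpowers x ∈ T} := by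
    apply Nat.card_congr
    apply Equiv.subtypeEquivRight
    intro x
    constructor
    · intro hx
      exact ⟨hx, Finset.mem_image.mpr ⟨x, Finset.mem_filter.mpr ⟨Finset.mem_univ _, hx⟩, rfl⟩⟩
    · intro hx; exact hx.1
  rw [h2, h1, Nat.totient_prime_pow hpp (by omega)]
  exact Dvd.intro (T.card * (p - 1)) (by ring)

open scoped Pointwise in
theorem conj_smul_zpowers {H : Type*} [Group H] (g x : H) :
    (MulAut.conj g) • zpowers x = zpowers (g * x * g⁻¹) := by
  have h : (zpowers x).map (MulAut.conj g).toMonoidHom = zpowers (g * x * g⁻¹) := by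
    rw [MonoidHom.map_zpowers]; rfl
  rw [← h]; rfl

open scoped Pointwise in
/-- If a Sylow `p`-subgroup is not cyclic (`p` odd), the number of elements of order `p ^ j`,
`j ≥ 2`, is divisible by `p ^ j`. -/
theorem card_order_sylow {H : Type*} [Group H] [Finite H] {p : ℕ} [Fact p.Prime] (hp : p ≠ 2)
    (Q : Sylow p H) (hQ : ¬ IsCyclic (Q : Subgroup H)) (j : ℕ) (hj : 2 ≤ j) :
    p ^ j ∣ Nat.card {x : H // orderOf x = p ^ j} := by
  classical
  have hpp : p.Prime := Fact.out
  let _ : Fintype H := Fintype.ofFinite H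
  let _ : Fintype (Subgroup H) := Fintype.ofFinite _
  let E : Finset H := Finset.univ.filter (fun x => orderOf x = p ^ j)
  let T : Finset (Subgroup H) := (E.image zpowers).filter (fun Z => ¬ Z ≤ (Q : Subgroup H))
  have hsplit : Nat.card {x : H // orderOf x = p ^ j} =
      Nat.card {x : (Q : Subgroup H) // orderOf x = p ^ j} +
        Nat.card {x : H // orderOf x = p ^ j ∧ zpowers x ∈ T} := by
    have e1 : Nat.card {x : (Q : Subgroup H) // orderOf x = p ^ j} =
        (E.filter (fun x => x ∈ (Q : Subgroup H))).card := by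
      rw [← Nat.card_eq_finsetCard]
      apply Nat.card_congr
      exact
        { toFun := fun x => ⟨x.1.1, by
            rw [Finset.mem_filter, Finset.mem_filter]
            exact ⟨⟨Finset.mem_univ _, by rw [Subgroup.orderOf_coe]; exact x.2⟩, x.1.2⟩⟩
          invFun := fun x => ⟨⟨x.1, (Finset.mem_filter.mp x.2).2⟩, by
            rw [Subgroup.orderOf_mk]
            exact (Finset.mem_filter.mp (Finset.mem_filter.mp x.2).1).2⟩
          left_inv := fun x => by ext; rfl
          right_inv := fun x => by ext; rfl }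
    have e2 : Nat.card {x : H // orderOf x = p ^ j ∧ zpowers x ∈ T} =
        (E.filter (fun x => ¬ x ∈ (Q : Subgroup H))).card := by
      rw [← Nat.card_eq_finsetCard]
      apply Nat.card_congr
      apply Equiv.subtypeEquivRight
      intro x
      rw [Finset.mem_filter, Finset.mem_filter, Finset.mem_filter, Finset.mem_image]
      constructor
      · rintro ⟨hx, -, hx2⟩
        exact ⟨⟨Finset.mem_univ _, hx⟩, fun h => hx2 (zpowers_le.mpr h)⟩
      · rintro ⟨⟨-, hx⟩, hx2⟩
        exact ⟨hx, ⟨x, Finset.mem_filter.mpr ⟨Finset.mem_univ _, hx⟩, rfl⟩,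
          fun h => hx2 (h (mem_zpowers x))⟩
    rw [e1, e2, Nat.card_eq_fintype_card, Fintype.card_subtype]
    exact (Finset.card_filter_add_card_filter_not _).symm
  rw [hsplit]
  apply dvd_add
  · exact card_order_pgroup hp Q.isPGroup' hQ j hj
  · rw [card_gen (p ^ j) T (by
      intro Z hZ
      obtain ⟨x, hx, rfl⟩ := Finset.mem_image.mp (Finset.mem_filter.mp hZ).1
      exact ⟨x, (Finset.mem_filter.mp hx).2, rfl⟩)]
    have hT : p ∣ T.card := by
      have h := @Cfsg.Agent.S4216.cntP ↥(Q : Subgroup H) (Subgroup H) _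
        (MulAction.compHom (Subgroup H) ((MulAut.conj : H →* MulAut H).comp (Q : Subgroup H).subtype))
        _ p _ Q.isPGroup' T ∅ ?_ ?_
      · rw [Finset.card_empty] at h
        exact (Nat.modEq_zero_iff_dvd).mp h
      · intro g Z hZ
        show (MulAut.conj (g : H)) • Z ∈ T
        obtain ⟨x, hx, rfl⟩ := Finset.mem_image.mp (Finset.mem_filter.mp hZ).1
        have hZ2 := (Finset.mem_filter.mp hZ).2
        rw [conj_smul_zpowers]
        refine Finset.mem_filter.mpr ⟨Finset.mem_image.mpr ⟨(g : H) * x * (g : H)⁻¹, ?_, rfl⟩, ?_⟩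
        · refine Finset.mem_filter.mpr ⟨Finset.mem_univ _, ?_⟩
          have h1 := (MulAut.conj (g : H)).orderOf_eq x
          rw [MulAut.conj_apply] at h1
          rw [h1]; exact (Finset.mem_filter.mp hx).2
        · intro h
          apply hZ2
          apply zpowers_le.mpr
          have h1 : (g : H) * x * (g : H)⁻¹ ∈ (Q : Subgroup H) := h (mem_zpowers _)
          have h2 : x = (g : H)⁻¹ * ((g : H) * x * (g : H)⁻¹) * (g : H) := by group
          rw [h2]
          exact mul_mem (mul_mem (inv_mem g.2) h1) g.2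
      · intro Z
        constructor
        · intro h; exact absurd h (Finset.notMem_empty _)
        · rintro ⟨hZ, hfix⟩
          exfalso
          obtain ⟨x, hx, rfl⟩ := Finset.mem_image.mp (Finset.mem_filter.mp hZ).1
          have hZ2 := (Finset.mem_filter.mp hZ).2
          have hxo : orderOf x = p ^ j := (Finset.mem_filter.mp hx).2
          have hZp : IsPGroup p (zpowers x) := IsPGroup.of_card (n := j) (by rw [Nat.card_zpowers, hxo])
          have hnorm : (Q : Subgroup H) ≤ Subgroup.normalizer (zpowers x : Set H) := by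
            intro g hg
            have h1 : (MulAut.conj g) • zpowers x = zpowers x := hfix ⟨g, hg⟩
            rw [Subgroup.mem_normalizer_iff]
            intro h
            constructor
            · intro hh
              have h2 : (MulAut.conj g) • h ∈ (MulAut.conj g) • zpowers x :=
                Subgroup.smul_mem_pointwise_smul _ _ _ hh
              rw [h1, MulAut.smul_def, MulAut.conj_apply] at h2
              exact h2
            · intro hh
              have h2 : (MulAut.conj g) • h ∈ (MulAut.conj g) • zpowers x := by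
                rw [h1, MulAut.smul_def, MulAut.conj_apply]; exact hh
              exact Subgroup.smul_mem_pointwise_smul_iff.mp h2
          have hsup : IsPGroup p (zpowers x ⊔ (Q : Subgroup H) : Subgroup H) :=
            IsPGroup.to_sup_of_normal_left' hZp Q.isPGroup' hnorm
          have h3 := Q.is_maximal' hsup le_sup_right
          exact hZ2 (by rw [← h3]; exact le_sup_left)
    rw [Nat.totient_prime_pow hpp (by omega)]
    obtain ⟨c, hc⟩ := hT
    rw [hc]
    obtain ⟨j', rfl⟩ : ∃ j', j = j' + 1 := ⟨j - 1, by omega⟩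
    exact ⟨c * (p - 1), by simp only [Nat.add_sub_cancel]; ring⟩

theorem cyc_of_le {G : Type*} [Group G] {A B : Subgroup G} (h : A ≤ B) (hB : IsCyclic B) :
    IsCyclic A := by
  have : IsCyclic (A.subgroupOf B) := inferInstance
  exact ((Subgroup.subgroupOfEquivOfLe h).isCyclic).mp this

/-- Let G be a finite group, p an odd prime dividing the order of G whose Sylow p-subgroups are not cyclic, and n = p^s·m with s > 1 and m coprime to p. Then the number of elements of G of order n is a multiple of p^s. -/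
theorem result {G : Type*} [Group G] [Finite G] (p : ℕ) [Fact p.Prime] (hodd : p ≠ 2) (hpG : p ∣ Nat.card G)
    (P : Sylow p G) (hP : ¬ IsCyclic ↥(P : Subgroup G)) (s m : ℕ) (hs : 1 < s) (hm : Nat.Coprime p m) :
    p ^ s ∣ Nat.card {g : G // orderOf g = p ^ s * m} := by
  classical
  have hpp : p.Prime := Fact.out
  let _ : Fintype G := Fintype.ofFinite G
  have hcop : Nat.Coprime (p ^ s) m := Nat.Coprime.pow_left s hm
  have hm0 : 0 < m := by
    rcases Nat.eq_zero_or_pos m with h | h
    · rw [h, Nat.coprime_zero_right] at hm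
      exact absurd hm hpp.one_lt.ne'
    · exact h
  have hps0 : 0 < p ^ s := pow_pos hpp.pos s
  obtain ⟨c, hc1, hc2⟩ := Nat.chineseRemainder hcop 0 1
  obtain ⟨c', hc'1, hc'2⟩ := Nat.chineseRemainder hcop 1 0
  have hcdvd : p ^ s ∣ c := (Nat.modEq_zero_iff_dvd).mp hc1
  have hc'dvd : m ∣ c' := (Nat.modEq_zero_iff_dvd).mp hc'2
  have hF1 : ∀ x : G, orderOf x = p ^ s → x ^ c = 1 ∧ x ^ c' = x := by
    intro x hx
    refine ⟨?_, ?_⟩
    · exact orderOf_dvd_iff_pow_eq_one.mp (hx ▸ hcdvd)
    · have h1 : x ^ c' = x ^ 1 := pow_eq_pow_iff_modEq.mpr (hx ▸ hc'1)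
      rw [h1, pow_one]
  have hF2 : ∀ y : G, orderOf y = m → y ^ c = y ∧ y ^ c' = 1 := by
    intro y hy
    refine ⟨?_, ?_⟩
    · have h1 : y ^ c = y ^ 1 := pow_eq_pow_iff_modEq.mpr (hy ▸ hc2)
      rw [h1, pow_one]
    · exact orderOf_dvd_iff_pow_eq_one.mp (hy ▸ hc'dvd)
  have hF3 : ∀ g : G, orderOf g = p ^ s * m →
      g ^ c' * g ^ c = g ∧ orderOf (g ^ c) = m ∧ orderOf (g ^ c') = p ^ s := by
    intro g hg
    have h1 : g ^ c' * g ^ c = g := by
      rw [← pow_add]
      have h2 : c' + c ≡ 1 [MOD p ^ s * m] := by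
        apply (Nat.modEq_and_modEq_iff_modEq_mul hcop).mp
        constructor
        · have h3 := Nat.ModEq.add hc'1 hc1
          simpa using h3
        · have h3 := Nat.ModEq.add hc'2 hc2
          simpa using h3
      have h4 : g ^ (c' + c) = g ^ 1 := pow_eq_pow_iff_modEq.mpr (hg ▸ h2)
      rw [h4, pow_one]
    have ha : orderOf (g ^ c) ∣ m := by
      apply orderOf_dvd_of_pow_eq_one
      rw [← pow_mul]
      apply orderOf_dvd_iff_pow_eq_one.mp
      rw [hg]
      exact Nat.mul_dvd_mul_right hcdvd m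
    have hb : orderOf (g ^ c') ∣ p ^ s := by
      apply orderOf_dvd_of_pow_eq_one
      rw [← pow_mul]
      apply orderOf_dvd_iff_pow_eq_one.mp
      rw [hg, mul_comm (p ^ s) m]
      exact Nat.mul_dvd_mul_right hc'dvd (p ^ s)
    have hcomm : Commute (g ^ c') (g ^ c) := (Commute.refl g).pow_pow c' c
    have hcop' : (orderOf (g ^ c')).Coprime (orderOf (g ^ c)) :=
      Nat.Coprime.coprime_dvd_left hb (Nat.Coprime.coprime_dvd_right ha hcop)
    have h3 := hcomm.orderOf_mul_eq_mul_orderOf_of_coprime hcop'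
    rw [h1, hg] at h3
    have hale : orderOf (g ^ c) ≤ m := Nat.le_of_dvd hm0 ha
    have hble : orderOf (g ^ c') ≤ p ^ s := Nat.le_of_dvd hps0 hb
    have hb2 : orderOf (g ^ c') = p ^ s := by
      by_contra hne
      have hlt : orderOf (g ^ c') < p ^ s := lt_of_le_of_ne hble hne
      have h5 : orderOf (g ^ c') * orderOf (g ^ c) < p ^ s * m := by
        calc orderOf (g ^ c') * orderOf (g ^ c) ≤ orderOf (g ^ c') * m := Nat.mul_le_mul_left _ hale
          _ < p ^ s * m := (Nat.mul_lt_mul_right hm0).mpr hlt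
      omega
    have ha2 : orderOf (g ^ c) = m := by
      rw [hb2] at h3
      exact (Nat.eq_of_mul_eq_mul_left hps0 h3).symm
    exact ⟨h1, ha2, hb2⟩
  let E : Finset G := Finset.univ.filter (fun g => orderOf g = p ^ s * m)
  let Y : Finset G := Finset.univ.filter (fun y => orderOf y = m)
  let w : G → ℕ := fun y =>
    Nat.card {x : G // x ∈ Subgroup.centralizer ({y} : Set G) ∧ orderOf x = p ^ s}
  have hwC : ∀ y : G, w y =
      Nat.card {x : ↥(Subgroup.centralizer ({y} : Set G)) // orderOf x = p ^ s} := by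
    intro y
    apply Nat.card_congr
    exact
      { toFun := fun x => ⟨⟨x.1, x.2.1⟩, by rw [Subgroup.orderOf_mk]; exact x.2.2⟩
        invFun := fun x => ⟨x.1.1, x.1.2, by rw [Subgroup.orderOf_coe]; exact x.2⟩
        left_inv := fun x => by ext; rfl
        right_inv := fun x => by ext; rfl }
  have hfiber : ∀ y ∈ Y, (E.filter (fun g => g ^ c = y)).card = w y := by
    intro y hy
    have hyo : orderOf y = m := (Finset.mem_filter.mp hy).2
    have hg_of : ∀ g : G, g ∈ E.filter (fun g => g ^ c = y) →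
        orderOf g = p ^ s * m ∧ g ^ c = y := fun g hg =>
      ⟨(Finset.mem_filter.mp (Finset.mem_filter.mp hg).1).2, (Finset.mem_filter.mp hg).2⟩
    rw [← Nat.card_eq_finsetCard]
    apply Nat.card_congr
    exact
      { toFun := fun g => ⟨g.1 ^ c', by
          obtain ⟨hgo, hgy⟩ := hg_of g.1 g.2
          refine ⟨?_, (hF3 g.1 hgo).2.2⟩
          rw [Subgroup.mem_centralizer_iff]
          intro h hh
          rw [Set.mem_singleton_iff] at hh
          have h5 := ((Commute.refl g.1).pow_pow c c').eq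
          rw [hgy] at h5
          rw [hh]; exact h5⟩
        invFun := fun x => ⟨x.1 * y, by
          have hxc := x.2.1
          rw [Subgroup.mem_centralizer_iff] at hxc
          have hcm : Commute x.1 y := (hxc y rfl).symm
          have hxo : orderOf x.1 = p ^ s := x.2.2
          rw [Finset.mem_filter, Finset.mem_filter]
          refine ⟨⟨Finset.mem_univ _, ?_⟩, ?_⟩
          · rw [hcm.orderOf_mul_eq_mul_orderOf_of_coprime (by rw [hxo, hyo]; exact hcop), hxo, hyo]
          · rw [hcm.mul_pow, (hF1 x.1 hxo).1, (hF2 y hyo).1, one_mul]⟩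
        left_inv := fun g => by
          obtain ⟨hgo, hgy⟩ := hg_of g.1 g.2
          apply Subtype.ext
          show g.1 ^ c' * y = g.1
          have h5 := (hF3 g.1 hgo).1
          rw [hgy] at h5
          exact h5
        right_inv := fun x => by
          have hxc := x.2.1
          rw [Subgroup.mem_centralizer_iff] at hxc
          have hcm : Commute x.1 y := (hxc y rfl).symm
          have hxo : orderOf x.1 = p ^ s := x.2.2
          apply Subtype.ext
          show (x.1 * y) ^ c' = x.1
          rw [hcm.mul_pow, (hF1 x.1 hxo).2, (hF2 y hyo).2, mul_one] }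
  have hEsum : E.card = ∑ y ∈ Y, w y := by
    rw [Finset.card_eq_sum_card_fiberwise (f := fun g => g ^ c) (t := Y)]
    · exact Finset.sum_congr rfl hfiber
    · intro g hg
      have hg' : orderOf g = p ^ s * m := (Finset.mem_filter.mp (Finset.mem_coe.mp hg)).2
      exact Finset.mem_coe.mpr (Finset.mem_filter.mpr ⟨Finset.mem_univ _, (hF3 g hg').2.1⟩)
  have hcard : Nat.card {g : G // orderOf g = p ^ s * m} = E.card := by
    rw [Nat.card_eq_fintype_card, Fintype.card_subtype]
  rw [hcard, hEsum]
  have hw1 : ∀ y : G, p ^ (s - 1) ∣ w y := fun y => by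
    rw [hwC]; exact pow_pred_dvd_card s (by omega)
  have hwconj : ∀ (g y : G), w (g * y * g⁻¹) = w y := by
    intro g y
    symm
    apply Nat.card_congr
    apply Equiv.subtypeEquiv (MulAut.conj g).toEquiv
    intro x
    have h1 : orderOf ((MulAut.conj g).toEquiv x) = orderOf x := (MulAut.conj g).orderOf_eq x
    rw [h1, Subgroup.mem_centralizer_iff, Subgroup.mem_centralizer_iff]
    have h2 : (MulAut.conj g).toEquiv x = g * x * g⁻¹ := rfl
    rw [h2]
    constructor
    · rintro ⟨hx, ho⟩
      refine ⟨?_, ho⟩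
      intro h hh
      rw [Set.mem_singleton_iff] at hh
      have h3 := hx y rfl
      rw [hh]
      calc g * y * g⁻¹ * (g * x * g⁻¹) = g * (y * x) * g⁻¹ := by group
        _ = g * (x * y) * g⁻¹ := by rw [h3]
        _ = g * x * g⁻¹ * (g * y * g⁻¹) := by group
    · rintro ⟨hx, ho⟩
      refine ⟨?_, ho⟩
      intro h hh
      rw [Set.mem_singleton_iff] at hh
      have h3 := hx (g * y * g⁻¹) rfl
      rw [hh]
      calc y * x = g⁻¹ * (g * y * g⁻¹ * (g * x * g⁻¹)) * g := by group
        _ = g⁻¹ * (g * x * g⁻¹ * (g * y * g⁻¹)) * g := by rw [h3]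
        _ = x * y := by group
  have hsum : ∑ y ∈ Y, w y = ∑ k ∈ Y.image w, (Y.filter (fun y => w y = k)).card • k :=
    Finset.sum_comp (s := Y) (fun k : ℕ => k) w
  rw [hsum]
  apply Finset.dvd_sum
  intro k hk
  obtain ⟨y₀, hy₀, rfl⟩ := Finset.mem_image.mp hk
  rw [smul_eq_mul]
  by_cases hdiv : p ^ s ∣ w y₀
  · exact Dvd.dvd.mul_left hdiv _
  · have hL : p ∣ (Y.filter (fun y => w y = w y₀)).card := by
      have h := @Cfsg.Agent.S4216.cntP ↥(P : Subgroup G) G _
        (MulAction.compHom G ((MulAut.conj : G →* MulAut G).comp (P : Subgroup G).subtype))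
        _ p _ P.isPGroup' (Y.filter (fun y => w y = w y₀)) ∅ ?_ ?_
      · rw [Finset.card_empty] at h
        exact (Nat.modEq_zero_iff_dvd).mp h
      · intro g y hy
        show (g : G) * y * (g : G)⁻¹ ∈ Y.filter (fun y => w y = w y₀)
        rw [Finset.mem_filter, Finset.mem_filter] at hy ⊢
        refine ⟨⟨Finset.mem_univ _, ?_⟩, ?_⟩
        · have h1 := (MulAut.conj (g : G)).orderOf_eq y
          rw [MulAut.conj_apply] at h1
          rw [h1]; exact hy.1.2
        · rw [hwconj]; exact hy.2
      · intro y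
        constructor
        · intro h; exact absurd h (Finset.notMem_empty _)
        · rintro ⟨hy, hfix⟩
          exfalso
          apply hdiv
          rw [Finset.mem_filter] at hy
          rw [← hy.2]
          have hPC : (P : Subgroup G) ≤ Subgroup.centralizer ({y} : Set G) := by
            intro g hg
            rw [Subgroup.mem_centralizer_iff]
            intro h hh
            rw [Set.mem_singleton_iff] at hh
            have h1 : g * y * g⁻¹ = y := hfix ⟨g, hg⟩
            rw [hh]
            calc y * g = (g * y * g⁻¹) * g := by rw [h1]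
              _ = g * y := by group
          rw [hwC]
          have hPp : IsPGroup p ((P : Subgroup G).subgroupOf (Subgroup.centralizer ({y} : Set G))) :=
            P.isPGroup'.of_equiv (Subgroup.subgroupOfEquivOfLe hPC).symm
          obtain ⟨Q, hQ⟩ := hPp.exists_le_sylow
          apply card_order_sylow hodd Q _ s hs
          intro hcyc
          apply hP
          have h2 : IsCyclic ((P : Subgroup G).subgroupOf (Subgroup.centralizer ({y} : Set G))) :=
            cyc_of_le hQ hcyc
          exact ((Subgroup.subgroupOfEquivOfLe hPC).isCyclic).mp h2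
    obtain ⟨a, ha⟩ := hL
    obtain ⟨b, hb⟩ := hw1 y₀
    rw [ha, hb]
    obtain ⟨s', rfl⟩ : ∃ s', s = s' + 1 := ⟨s - 1, by omega⟩
    exact ⟨a * b, by simp only [Nat.add_sub_cancel]; ring⟩

end Cfsg.Agent.S4003
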