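import Cfsg.Statements.S4005
import Cfsg.Agent.Lib.helper23.BurnsidePQ
import Cfsg.Agent.Lib.helper3.Solvable

set_option autoImplicit false

open Cfsg

namespace Cfsg.Agent.S4005

universe u

/-- The `C₃ × C₃` fixed-point-free computation. -/
theorem c3c3_aux {V : Type u} [Group V] (hcomm : ∀ u v : V, u * v = v * u) (a b : V →* V)
    (hab : ∀ v, b (a v) = a (b v)) (ha3 : ∀ v, a (a (a v)) = v) (hb3 : ∀ v, b (b (b v)) = v)
    (h2 : ∀ v : V, v * v = 1)
    (fa : ∀ v, a v = v → v = 1) (fb : ∀ v, b v = v → v = 1)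
    (fab : ∀ v, a (b v) = v → v = 1) (fabb : ∀ v, a (b (b v)) = v → v = 1) :
    ∀ v : V, v = 1 := by
  haveI : Std.Commutative (α := V) (· * ·) := ⟨hcomm⟩
  have R : ∀ (s : V →* V), (∀ v, s (s (s v)) = v) → (∀ v, s v = v → v = 1) →
      ∀ v, v * s v * s (s v) = 1 := by
    intro s hs3 hsf v
    apply hsf
    rw [map_mul, map_mul, hs3, hcomm (s v * s (s v)) v, mul_assoc]
  intro v
  have R1 := R a ha3 fa v
  have R2 := R a ha3 fa (b v)
  have R3 := R a ha3 fa (b (b v))
  have R4 := R b hb3 fb v
  have R5 := R (a.comp b) (by intro w; simp only [MonoidHom.comp_apply, hab, hb3, ha3]) fab v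
  have R6 := R (a.comp (b.comp b))
    (by intro w; simp only [MonoidHom.comp_apply, hab, hb3, ha3]) fabb v
  simp only [MonoidHom.comp_apply, hab, hb3] at R5 R6
  have key : v * v * v * ((v * a v * a (a v)) * (b v * a (b v) * a (a (b v))) *
      (b (b v) * a (b (b v)) * a (a (b (b v))))) =
      (v * a v * a (a v)) * (v * b v * b (b v)) * (v * a (b v) * a (a (b (b v)))) *
      (v * a (b (b v)) * a (a (b v))) := by ac_rfl
  rw [R1, R2, R3, R4, R5, R6] at key
  simp only [mul_one] at key
  rw [h2, one_mul] at key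
  exact key

theorem no6 {G : Type u} [Group G]
    (h : ∀ g : G, orderOf g = 1 ∨ orderOf g = 2 ∨ orderOf g = 3) (s n : G)
    (hs : orderOf s = 2) (hn : orderOf n = 3) (hc : s * n = n * s) : False := by
  have h1 : orderOf (s * n) = 6 := by
    rw [Commute.orderOf_mul_eq_mul_orderOf_of_coprime hc (by rw [hs, hn]; decide), hs, hn]
  rcases h (s * n) with h2 | h2 | h2 <;> omega

/-- A fixed-point-free involution inverts. -/
theorem inverts {G : Type u} [Group G] [Finite G] (N : Subgroup G) [hN : N.Normal] (s : G)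
    (hs2 : s * s = 1) (hfpf : ∀ n ∈ N, s * n * s⁻¹ = n → n = 1) :
    ∀ n ∈ N, s * n * s⁻¹ = n⁻¹ := by
  classical
  let φ : N → N := fun n =>
    ⟨(n : G)⁻¹ * (s * n * s⁻¹), N.mul_mem (N.inv_mem n.2) (hN.conj_mem n n.2 s)⟩
  have hinj : Function.Injective φ := by
    intro n m h
    have h' : (n : G)⁻¹ * (s * n * s⁻¹) = (m : G)⁻¹ * (s * m * s⁻¹) := congrArg Subtype.val h
    have hd : s * ((m : G) * (n : G)⁻¹) * s⁻¹ = (m : G) * (n : G)⁻¹ := by
      have e1 : s * (n : G) * s⁻¹ = (n : G) * ((m : G)⁻¹ * (s * m * s⁻¹)) := by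
        rw [← h']; group
      calc s * ((m : G) * (n : G)⁻¹) * s⁻¹ = (s * m * s⁻¹) * (s * n * s⁻¹)⁻¹ := by group
        _ = (s * m * s⁻¹) * ((n : G) * ((m : G)⁻¹ * (s * m * s⁻¹)))⁻¹ := by rw [e1]
        _ = (m : G) * (n : G)⁻¹ := by group
    have h1 := hfpf _ (N.mul_mem m.2 (N.inv_mem n.2)) hd
    apply Subtype.ext
    exact (mul_inv_eq_one.mp h1).symm
  intro n hn
  obtain ⟨m, hm⟩ := (Finite.injective_iff_surjective.mp hinj) ⟨n, hn⟩
  have hm' : (m : G)⁻¹ * (s * m * s⁻¹) = n := congrArg Subtype.val hm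
  have hsinv : s⁻¹ = s := inv_eq_of_mul_eq_one_left hs2
  rw [← hm']
  calc s * ((m : G)⁻¹ * (s * m * s⁻¹)) * s⁻¹ = s * (m : G)⁻¹ * s * m * (s * s)⁻¹ := by group
    _ = s * (m : G)⁻¹ * s * m := by rw [hs2, inv_one, mul_one]
    _ = s * (m : G)⁻¹ * s⁻¹ * m := by rw [hsinv]
    _ = ((m : G)⁻¹ * (s * m * s⁻¹))⁻¹ := by group

theorem comm_of_inverts {G : Type u} [Group G] (N : Subgroup G) (s : G)
    (hinv : ∀ n ∈ N, s * n * s⁻¹ = n⁻¹) : ∀ n ∈ N, ∀ m ∈ N, n * m = m * n := by
  intro n hn m hm
  have h1 := hinv (n * m) (N.mul_mem hn hm)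
  have h2 : s * (n * m) * s⁻¹ = (s * n * s⁻¹) * (s * m * s⁻¹) := by group
  rw [h2, hinv n hn, hinv m hm, mul_inv_rev] at h1
  have h3 : (n⁻¹ * m⁻¹)⁻¹ = (m⁻¹ * n⁻¹)⁻¹ := by rw [h1]
  rw [mul_inv_rev, mul_inv_rev, inv_inv, inv_inv] at h3
  exact h3.symm

theorem comm_of_sq {G : Type u} [Group G] (N : Subgroup G)
    (h2 : ∀ n ∈ N, n * n = 1) : ∀ n ∈ N, ∀ m ∈ N, n * m = m * n := by
  intro n hn m hm
  have hinv : ∀ x ∈ N, x⁻¹ = x := fun x hx => inv_eq_of_mul_eq_one_left (h2 x hx)
  calc n * m = (n * m)⁻¹ := (hinv _ (N.mul_mem hn hm)).symm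
    _ = m⁻¹ * n⁻¹ := mul_inv_rev n m
    _ = m * n := by rw [hinv m hm, hinv n hn]

/-- A finite group whose set of element orders is exactly {1, 2, 3} has either a normal elementary abelian 3-subgroup of index 2 or a normal elementary abelian 2-subgroup of index 3. -/
theorem result {G : Type*} [Group G] [Finite G] (h : Set.range (orderOf : G → ℕ) = {k : ℕ | 1 ≤ k ∧ k ≤ 3}) :
    (∃ N : Subgroup G, N.Normal ∧ Cfsg.IsElementaryAbelian 3 N ∧ N.index = 2) ∨
      (∃ N : Subgroup G, N.Normal ∧ Cfsg.IsElementaryAbelian 2 N ∧ N.index = 3) := by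
  classical
  have hord : ∀ g : G, orderOf g = 1 ∨ orderOf g = 2 ∨ orderOf g = 3 := by
    intro g
    have h1 : orderOf g ∈ Set.range (orderOf : G → ℕ) := ⟨g, rfl⟩
    rw [h] at h1
    obtain ⟨h2, h3⟩ := h1
    omega
  obtain ⟨s, hs⟩ : ∃ s : G, orderOf s = 2 := by
    have h1 : (2 : ℕ) ∈ Set.range (orderOf : G → ℕ) := by
      rw [h]; exact ⟨by norm_num, by norm_num⟩
    exact h1
  obtain ⟨t, ht⟩ : ∃ t : G, orderOf t = 3 := by
    have h1 : (3 : ℕ) ∈ Set.range (orderOf : G → ℕ) := by
      rw [h]; exact ⟨by norm_num, by norm_num⟩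
    exact h1
  have hs2 : s * s = 1 := by rw [← sq, ← hs]; exact pow_orderOf_eq_one s
  have ht3 : t ^ 3 = 1 := by rw [← ht]; exact pow_orderOf_eq_one t
  haveI : Fact (Nat.Prime 3) := ⟨Nat.prime_three⟩
  haveI : Fact (Nat.Prime 2) := ⟨Nat.prime_two⟩
  haveI : Group.IsSolvable G := by
    obtain ⟨a, m, hm, hcard⟩ :=
      Nat.exists_eq_pow_mul_and_not_dvd (Nat.card_pos (α := G)).ne' 2 (by norm_num)
    have hm0 : m ≠ 0 := by
      rintro rfl
      rw [mul_zero] at hcard
      exact (Nat.card_pos (α := G)).ne' hcard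
    have hm3 : m = 3 ^ m.primeFactorsList.length := by
      apply Nat.eq_prime_pow_of_unique_prime_dvd hm0
      intro d hd hdm
      haveI : Fact d.Prime := ⟨hd⟩
      have hdG : d ∣ Nat.card G := by rw [hcard]; exact Dvd.dvd.mul_left hdm _
      obtain ⟨g, hg⟩ := exists_prime_orderOf_dvd_card' d hdG
      rcases hord g with h1 | h1 | h1
      · rw [hg] at h1; exact absurd h1 hd.one_lt.ne'
      · rw [hg] at h1; exfalso; rw [h1] at hdm; exact hm hdm
      · rw [hg] at h1; exact h1
    rw [hm3] at hcard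
    exact Cfsg.Agent.Lib.helper23.burnside_paqb 2 3 a _ Nat.prime_two Nat.prime_three hcard
  haveI : Nontrivial G := ⟨⟨s, 1, fun h1 => by rw [h1, orderOf_one] at hs; omega⟩⟩
  obtain ⟨p, hp, N₀, hN₀n, hN₀p, hN₀ne⟩ := Cfsg.Agent.Lib.helper3.exists_normal_pgroup_ne_bot' G
  haveI := hN₀n
  haveI : Fact p.Prime := ⟨hp⟩
  obtain ⟨n₀, hn₀N, hn₀⟩ : ∃ n₀ ∈ N₀, orderOf n₀ = p := by
    have hcard : p ∣ Nat.card N₀ := by
      obtain ⟨k, hk⟩ := IsPGroup.iff_card.mp hN₀p
      have hk0 : k ≠ 0 := by
        rintro rfl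
        rw [pow_zero] at hk
        exact hN₀ne (Subgroup.card_eq_one.mp hk)
      rw [hk]; exact dvd_pow_self p hk0
    obtain ⟨g, hg⟩ := exists_prime_orderOf_dvd_card' p hcard
    exact ⟨g, g.2, by rw [Subgroup.orderOf_coe]; exact hg⟩
  have hN₀dvd : ∀ n ∈ N₀, ∃ k, orderOf n ∣ p ^ k := by
    intro n hn
    obtain ⟨k, hk⟩ := hN₀p ⟨n, hn⟩
    have hk' : n ^ p ^ k = 1 := by simpa using congrArg Subtype.val hk
    exact ⟨k, orderOf_dvd_of_pow_eq_one hk'⟩
  obtain ⟨C, hCdef⟩ : ∃ C, C = Subgroup.centralizer (N₀ : Set G) := ⟨_, rfl⟩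
  haveI hCn : C.Normal := by rw [hCdef]; infer_instance
  have hCmem : ∀ c ∈ C, ∀ n ∈ N₀, n * c = c * n := by
    intro c hc n hn
    rw [hCdef] at hc
    exact (Subgroup.mem_centralizer_iff.mp hc) n hn
  have hp23 : p = 2 ∨ p = 3 := by
    rcases hord n₀ with h1 | h1 | h1
    · rw [hn₀] at h1; exact absurd h1 hp.one_lt.ne'
    · rw [hn₀] at h1; exact Or.inl h1
    · rw [hn₀] at h1; exact Or.inr h1
  rcases hp23 with rfl | rfl
  · -- a normal `2`-subgroup
    right
    have hN2 : ∀ n ∈ N₀, n * n = 1 := by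
      intro n hn
      obtain ⟨k, hk⟩ := hN₀dvd n hn
      rcases hord n with h1 | h1 | h1
      · rw [orderOf_eq_one_iff] at h1; rw [h1, one_mul]
      · rw [← sq, ← h1]; exact pow_orderOf_eq_one n
      · exfalso
        rw [h1] at hk
        have := Nat.Prime.dvd_of_dvd_pow Nat.prime_three hk
        omega
    have hC2 : ∀ c ∈ C, c * c = 1 := by
      intro c hc
      rcases hord c with h1 | h1 | h1
      · rw [orderOf_eq_one_iff] at h1; rw [h1, one_mul]
      · rw [← sq, ← h1]; exact pow_orderOf_eq_one c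
      · exact (no6 hord n₀ c hn₀ h1 (hCmem c hc n₀ hn₀N)).elim
    have hN₀c := comm_of_sq N₀ hN2
    have hN₀C : N₀ ≤ C := by
      intro n hn
      rw [hCdef, Subgroup.mem_centralizer_iff]
      intro m hm
      exact hN₀c m hm n hn
    have hCc := comm_of_sq C hC2
    have hCC : Subgroup.centralizer (C : Set G) ≤ C := by
      rw [hCdef]
      exact Subgroup.centralizer_le (by rw [← hCdef]; exact hN₀C)
    have htC : t ∉ C := by
      intro htC
      have h1 := hC2 t htC
      have h2 : orderOf t ∣ 2 := orderOf_dvd_of_pow_eq_one (by rw [sq]; exact h1)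
      rw [ht] at h2
      omega
    have hfpf3 : ∀ x : G, orderOf x = 3 → ∀ n ∈ C, x * n * x⁻¹ = n → n = 1 := by
      intro x hx n hn hfix
      by_contra hn1
      have hn2 : orderOf n = 2 := orderOf_eq_prime (by rw [sq]; exact hC2 n hn) hn1
      apply no6 hord n x hn2 hx
      calc n * x = (x * n * x⁻¹) * x := by rw [hfix]
        _ = x * n := by group
    have claim1 : ∀ g : G, g ∉ C → g ^ 3 = 1 := by
      intro g hg
      by_contra h3
      have hg2 : g * g = 1 := by
        rcases hord g with h1 | h1 | h1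
        · rw [orderOf_eq_one_iff] at h1; rw [h1, one_mul]
        · rw [← sq, ← h1]; exact pow_orderOf_eq_one g
        · exfalso; apply h3; rw [← h1]; exact pow_orderOf_eq_one g
      apply hg
      apply hCC
      rw [Subgroup.mem_centralizer_iff]
      intro n hn
      rcases hord (n * g) with h1 | h1 | h1
      · exfalso
        apply hg
        have h2 : n * g = 1 := orderOf_eq_one_iff.mp h1
        have h3 : g = n⁻¹ := eq_inv_of_mul_eq_one_right h2
        rw [h3]; exact C.inv_mem hn
      · have h2 : (n * g) * (n * g) = 1 := by rw [← sq, ← h1]; exact pow_orderOf_eq_one _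
        have hginv : g⁻¹ = g := inv_eq_of_mul_eq_one_left hg2
        have hninv : n⁻¹ = n := inv_eq_of_mul_eq_one_left (hC2 n hn)
        have h3' : (n * g)⁻¹ = n * g := inv_eq_of_mul_eq_one_left h2
        rw [← h3', mul_inv_rev, hginv, hninv]
      · exfalso
        apply hg
        have h2 : (n * g) ^ 3 = 1 := by rw [← h1]; exact pow_orderOf_eq_one _
        have h4 : (n * g) * (n * g) ∈ C := by
          have e : (n * g) * (n * g) = n * (g * n * g⁻¹) * (g * g) := by group
          rw [e, hg2, mul_one]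
          exact C.mul_mem hn (hCn.conj_mem n hn g)
        have h5 : n * g = ((n * g) * (n * g))⁻¹ := by
          apply eq_inv_of_mul_eq_one_left
          rw [← h2, pow_succ', pow_succ', pow_one]
        have h6 : n * g ∈ C := by rw [h5]; exact C.inv_mem h4
        have e : g = n⁻¹ * (n * g) := by group
        rw [e]; exact C.mul_mem (C.inv_mem hn) h6
    have claim2 : ¬ 9 ∣ Nat.card G := by
      intro h9
      obtain ⟨T, hT⟩ := Sylow.exists_subgroup_card_pow_prime 3 (show 3 ^ 2 ∣ Nat.card G from h9)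
      have hTc : IsMulCommutative T := IsPGroup.isMulCommutative_of_card_eq_prime_sq hT
      have hT3 : ∀ x ∈ T, x ≠ 1 → orderOf x = 3 := by
        intro x hx hx1
        have h1 : orderOf x ∣ 3 ^ 2 := by
          have h2 := orderOf_dvd_natCard (⟨x, hx⟩ : T)
          rw [hT, Subgroup.orderOf_mk] at h2
          exact h2
        rcases hord x with h2 | h2 | h2
        · exact absurd (orderOf_eq_one_iff.mp h2) hx1
        · exfalso
          rw [h2] at h1
          have := Nat.Prime.dvd_of_dvd_pow Nat.prime_two h1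
          omega
        · exact h2
      obtain ⟨z, hzT, hz1⟩ : ∃ z ∈ T, z ≠ 1 := by
        have h1 : Nontrivial T := by
          rw [← Finite.one_lt_card_iff_nontrivial, hT]; norm_num
        obtain ⟨z, hz⟩ := exists_ne (1 : T)
        exact ⟨z, z.2, fun h => hz (Subtype.ext h)⟩
      have hz3 := hT3 z hzT hz1
      obtain ⟨g, hgT, hgz⟩ : ∃ g ∈ T, g ∉ Subgroup.zpowers z := by
        by_contra hcon
        push Not at hcon
        have h1 : T ≤ Subgroup.zpowers z := hcon
        have h2 := Subgroup.card_le_of_le h1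
        rw [hT, Nat.card_zpowers, hz3] at h2
        omega
      have hcomm : z * g = g * z := congrArg Subtype.val (hTc.is_comm.comm ⟨z, hzT⟩ ⟨g, hgT⟩)
      have hg1 : g ≠ 1 := by
        intro h1
        apply hgz
        rw [h1]; exact Subgroup.one_mem _
      have hg3 := hT3 g hgT hg1
      have hgpow : g ^ 3 = 1 := by rw [← hg3]; exact pow_orderOf_eq_one g
      have hzpow : z ^ 3 = 1 := by rw [← hz3]; exact pow_orderOf_eq_one z
      have hzg1 : z * g ≠ 1 := by
        intro h1
        apply hgz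
        have : g = z⁻¹ := eq_inv_of_mul_eq_one_right h1
        rw [this]; exact Subgroup.inv_mem _ (Subgroup.mem_zpowers z)
      have hzgg1 : z * g * g ≠ 1 := by
        intro h1
        apply hgz
        have h2 : g * g = z⁻¹ := by
          have : z * (g * g) = 1 := by rw [← mul_assoc]; exact h1
          exact eq_inv_of_mul_eq_one_right this
        have h3 : g = (g * g) * (g * g) := by
          calc g = g ^ 3 * g := by rw [hgpow, one_mul]
            _ = (g * g) * (g * g) := by
                rw [pow_succ, pow_succ, pow_one]; simp only [mul_assoc]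
        rw [h3, h2]
        exact Subgroup.mul_mem _ (Subgroup.inv_mem _ (Subgroup.mem_zpowers z))
          (Subgroup.inv_mem _ (Subgroup.mem_zpowers z))
      have hzg3 := hT3 (z * g) (T.mul_mem hzT hgT) hzg1
      have hzgg3 := hT3 (z * g * g) (T.mul_mem (T.mul_mem hzT hgT) hgT) hzgg1
      have hall : ∀ v : C, v = 1 := by
        refine c3c3_aux (fun u v => Subtype.ext (hCc u u.2 v v.2))
          (MulAut.conjNormal z : MulAut C).toMonoidHom
          (MulAut.conjNormal g : MulAut C).toMonoidHom ?_ ?_ ?_ ?_ ?_ ?_ ?_ ?_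
        · intro v
          apply Subtype.ext
          simp only [MulEquiv.coe_toMonoidHom, MulAut.conjNormal_apply]
          calc g * (z * (v : G) * z⁻¹) * g⁻¹ = (g * z) * (v : G) * (g * z)⁻¹ := by group
            _ = (z * g) * (v : G) * (z * g)⁻¹ := by rw [hcomm]
            _ = z * (g * (v : G) * g⁻¹) * z⁻¹ := by group
        · intro v
          apply Subtype.ext
          simp only [MulEquiv.coe_toMonoidHom, MulAut.conjNormal_apply]
          have hzzz : z * z * z = 1 := by rw [← hzpow, pow_succ, pow_succ, pow_one]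
          calc z * (z * (z * (v : G) * z⁻¹) * z⁻¹) * z⁻¹
              = (z * z * z) * (v : G) * (z * z * z)⁻¹ := by group
            _ = (v : G) := by rw [hzzz]; group
        · intro v
          apply Subtype.ext
          simp only [MulEquiv.coe_toMonoidHom, MulAut.conjNormal_apply]
          have hggg : g * g * g = 1 := by rw [← hgpow, pow_succ, pow_succ, pow_one]
          calc g * (g * (g * (v : G) * g⁻¹) * g⁻¹) * g⁻¹
              = (g * g * g) * (v : G) * (g * g * g)⁻¹ := by group
            _ = (v : G) := by rw [hggg]; group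
        · intro v
          exact Subtype.ext (hC2 v v.2)
        · intro v hv
          apply Subtype.ext
          have h1 := congrArg Subtype.val hv
          simp only [MulEquiv.coe_toMonoidHom, MulAut.conjNormal_apply] at h1
          exact hfpf3 z hz3 v v.2 h1
        · intro v hv
          apply Subtype.ext
          have h1 := congrArg Subtype.val hv
          simp only [MulEquiv.coe_toMonoidHom, MulAut.conjNormal_apply] at h1
          exact hfpf3 g hg3 v v.2 h1
        · intro v hv
          apply Subtype.ext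
          have h1 := congrArg Subtype.val hv
          simp only [MulEquiv.coe_toMonoidHom, MulAut.conjNormal_apply] at h1
          apply hfpf3 (z * g) hzg3 v v.2
          rw [← h1]
          have e : z * g * (z * (g * (v : G) * g⁻¹) * z⁻¹) * (z * g)⁻¹
              = z * (g * z) * (g * (v : G) * g⁻¹) * (g * z)⁻¹ * z⁻¹ := by group
          rw [h1]
          calc z * g * (v : G) * (z * g)⁻¹ = z * (g * (v : G) * g⁻¹) * z⁻¹ := by group
            _ = (v : G) := h1
        · intro v hv
          apply Subtype.ext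
          have h1 := congrArg Subtype.val hv
          simp only [MulEquiv.coe_toMonoidHom, MulAut.conjNormal_apply] at h1
          apply hfpf3 (z * g * g) hzgg3 v v.2
          calc z * g * g * (v : G) * (z * g * g)⁻¹
              = z * (g * (g * (v : G) * g⁻¹) * g⁻¹) * z⁻¹ := by group
            _ = (v : G) := h1
      have h1 := hall ⟨n₀, hN₀C hn₀N⟩
      have h2 : n₀ = 1 := congrArg Subtype.val h1
      rw [h2, orderOf_one] at hn₀
      omega
    have hQ : IsPGroup 3 (G ⧸ C) := by
      intro gb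
      obtain ⟨g, rfl⟩ := QuotientGroup.mk_surjective gb
      refine ⟨1, ?_⟩
      rw [pow_one, ← QuotientGroup.mk_pow, QuotientGroup.eq_one_iff]
      by_cases hg : g ∈ C
      · exact C.pow_mem hg 3
      · rw [claim1 g hg]; exact C.one_mem
    obtain ⟨c, hc⟩ := IsPGroup.iff_card.mp hQ
    rw [← Subgroup.index_eq_card] at hc
    have hc0 : c ≠ 0 := by
      rintro rfl
      rw [pow_zero] at hc
      have := Subgroup.index_eq_one.mp hc
      exact htC (this ▸ Subgroup.mem_top t)
    have hc1 : c < 2 := by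
      by_contra hge
      push Not at hge
      apply claim2
      calc 9 = 3 ^ 2 := by norm_num
        _ ∣ 3 ^ c := pow_dvd_pow 3 hge
        _ = C.index := hc.symm
        _ ∣ Nat.card G := Subgroup.index_dvd_card C
    have hc' : c = 1 := by omega
    refine ⟨C, hCn, ⟨⟨⟨fun a b => Subtype.ext (hCc a a.2 b b.2)⟩⟩, fun a ha => ?_⟩, ?_⟩
    · rw [sq]; exact hC2 a ha
    · rw [hc, hc', pow_one]
  · -- a normal `3`-subgroup
    left
    have hN3 : ∀ n ∈ N₀, n ^ 3 = 1 := by
      intro n hn
      obtain ⟨k, hk⟩ := hN₀dvd n hn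
      rcases hord n with h1 | h1 | h1
      · rw [orderOf_eq_one_iff] at h1; rw [h1, one_pow]
      · exfalso
        rw [h1] at hk
        have := Nat.Prime.dvd_of_dvd_pow Nat.prime_two hk
        omega
      · rw [← h1]; exact pow_orderOf_eq_one n
    have hC3 : ∀ c ∈ C, c ^ 3 = 1 := by
      intro c hc
      rcases hord c with h1 | h1 | h1
      · rw [orderOf_eq_one_iff] at h1; rw [h1, one_pow]
      · exact (no6 hord c n₀ h1 hn₀ (hCmem c hc n₀ hn₀N).symm).elim
      · rw [← h1]; exact pow_orderOf_eq_one c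
    have hinv3 : ∀ (X : Subgroup G) [X.Normal], (∀ x ∈ X, x ^ 3 = 1) → ∀ s' : G, orderOf s' = 2 →
        ∀ x ∈ X, s' * x * s'⁻¹ = x⁻¹ := by
      intro X _ hX s' hs'
      apply inverts X s' (by rw [← sq, ← hs']; exact pow_orderOf_eq_one s')
      intro n hn hfix
      by_contra hn1
      have hn3 : orderOf n = 3 := orderOf_eq_prime (hX n hn) hn1
      apply no6 hord s' n hs' hn3
      calc s' * n = (s' * n * s'⁻¹) * s' := by group
        _ = n * s' := by rw [hfix]
    have hN₀c := comm_of_inverts N₀ s (hinv3 N₀ hN3 s hs)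
    have hN₀C : N₀ ≤ C := by
      intro n hn
      rw [hCdef, Subgroup.mem_centralizer_iff]
      intro m hm
      exact hN₀c m hm n hn
    have hCc := comm_of_inverts C s (hinv3 C hC3 s hs)
    have hCC : Subgroup.centralizer (C : Set G) ≤ C := by
      rw [hCdef]
      exact Subgroup.centralizer_le (by rw [← hCdef]; exact hN₀C)
    have hsC : s ∉ C := by
      intro hsC
      have h1 := hC3 s hsC
      have h2 : orderOf s ∣ 3 := orderOf_dvd_of_pow_eq_one h1
      rw [hs] at h2
      omega
    have hprod : ∀ s₁ s₂ : G, orderOf s₁ = 2 → orderOf s₂ = 2 → s₁ * s₂ ∈ C := by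
      intro s₁ s₂ h₁ h₂
      apply hCC
      rw [Subgroup.mem_centralizer_iff]
      intro n hn
      have h1 := hinv3 C hC3 s₂ h₂ n hn
      have h2 := hinv3 C hC3 s₁ h₁ n⁻¹ (C.inv_mem hn)
      rw [inv_inv] at h2
      calc n * (s₁ * s₂) = (s₁ * n⁻¹ * s₁⁻¹) * (s₁ * s₂) := by rw [h2]
        _ = s₁ * (n⁻¹ * s₂) := by group
        _ = s₁ * ((s₂ * n * s₂⁻¹) * s₂) := by rw [h1]
        _ = s₁ * s₂ * n := by group
    have key : ∀ g : G, g ∈ C ∨ g * s ∈ C := by
      intro g
      have hs' : orderOf (g * s * g⁻¹) = 2 := by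
        have := (MulAut.conj g).orderOf_eq s
        rw [MulAut.conj_apply] at this
        rw [this, hs]
      obtain ⟨o, hodef⟩ : ∃ o, o = g * s * g⁻¹ * s := ⟨_, rfl⟩
      have ho : o ∈ C := by rw [hodef]; exact hprod _ _ hs' hs
      have ho3 := hC3 o ho
      have hu : o * o ∈ C := C.mul_mem ho ho
      have hconj : (o * o) * s * (o * o)⁻¹ = g * s * g⁻¹ := by
        have h1 := hinv3 C hC3 s hs (o * o)⁻¹ (C.inv_mem hu)
        rw [inv_inv] at h1
        calc (o * o) * s * (o * o)⁻¹ = (o * o) * (s * (o * o)⁻¹ * s⁻¹) * s := by group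
          _ = (o * o) * (o * o) * s := by rw [h1]
          _ = (o * o * o) * o * s := by simp only [mul_assoc]
          _ = o * s := by
              have hooo : o * o * o = 1 := by rw [← ho3, pow_succ, pow_succ, pow_one]
              rw [hooo, one_mul]
          _ = g * s * g⁻¹ * (s * s) := by rw [hodef, mul_assoc]
          _ = g * s * g⁻¹ := by rw [hs2, mul_one]
      obtain ⟨w, hwdef⟩ : ∃ w, w = (o * o)⁻¹ * g := ⟨_, rfl⟩
      have hws : w * s = s * w := by
        rw [hwdef]
        calc (o * o)⁻¹ * g * s = (o * o)⁻¹ * (g * s * g⁻¹) * g := by group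
          _ = (o * o)⁻¹ * ((o * o) * s * (o * o)⁻¹) * g := by rw [hconj]
          _ = s * ((o * o)⁻¹ * g) := by group
      have hw2 : w * w = 1 := by
        rcases hord w with h1 | h1 | h1
        · rw [orderOf_eq_one_iff] at h1; rw [h1, one_mul]
        · rw [← sq, ← h1]; exact pow_orderOf_eq_one w
        · exact (no6 hord s w hs h1 hws.symm).elim
      by_cases hw1 : w = 1
      · left
        have e : g = (o * o) * w := by rw [hwdef]; group
        rw [e, hw1, mul_one]; exact hu
      · right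
        have hwo : orderOf w = 2 := orderOf_eq_prime (by rw [sq]; exact hw2) hw1
        have hwsC : w * s ∈ C := hprod w s hwo hs
        have h3 := hC3 _ hwsC
        have h4 : (w * s) * (w * s) = 1 := by
          calc w * s * (w * s) = w * (s * w) * s := by group
            _ = w * (w * s) * s := by rw [hws]
            _ = (w * w) * (s * s) := by group
            _ = 1 := by rw [hw2, hs2, one_mul]
        have h5 : w * s = 1 := by
          have h6 : (w * s) ^ 3 = w * s := by rw [pow_succ', pow_succ', pow_one, h4, mul_one]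
          rw [h6] at h3
          exact h3
        have e : g * s = (o * o) * (w * s) := by rw [hwdef]; group
        rw [e, h5, mul_one]; exact hu
    refine ⟨C, hCn, ⟨⟨⟨fun a b => Subtype.ext (hCc a a.2 b b.2)⟩⟩, hC3⟩, ?_⟩
    rw [Subgroup.index_eq_two_iff]
    refine ⟨s, fun b => ?_⟩
    rcases key b with hb | hb
    · right
      refine ⟨hb, fun h' => hsC ?_⟩
      have := C.mul_mem (C.inv_mem hb) h'
      rwa [inv_mul_cancel_left] at this
    · left
      refine ⟨hb, fun h' => hsC ?_⟩
      have := C.mul_mem (C.inv_mem h') hb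
      rwa [inv_mul_cancel_left] at this

end Cfsg.Agent.S4005
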