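import Cfsg.Statements.S4198
import Mathlib

set_option autoImplicit false
open Cfsg

namespace Cfsg.Agent.S4198


open Equiv

noncomputable def sPart {n : ℕ} (π : Nat.Partition n) : ℕ := Classical.epsilon (fun i => i ∈ π.parts)

theorem sPart_mem {n : ℕ} (π : Nat.Partition (n + 2)) : sPart π ∈ π.parts := by
  have h : ∃ i, i ∈ π.parts := by
    by_contra hc
    push_neg at hc
    have h0 : π.parts = 0 := Multiset.eq_zero_of_forall_notMem hc
    have := π.parts_sum
    rw [h0] at this
    simp at this
  exact Classical.epsilon_spec h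

noncomputable def f1 {n : ℕ} (π : Nat.Partition (n + 2)) (h : 1 ∈ π.parts) : Nat.Partition (n + 1) where
  parts := π.parts.erase 1
  parts_pos := by
    intro i hi
    exact π.parts_pos (Multiset.mem_of_mem_erase hi)
  parts_sum := by
    have hs : (1 ::ₘ π.parts.erase 1).sum = n + 2 := by rw [Multiset.cons_erase h]; exact π.parts_sum
    rw [Multiset.sum_cons] at hs
    omega

noncomputable def f2 {n : ℕ} (π : Nat.Partition (n + 2)) (h : 1 ∉ π.parts) : Nat.Partition n where
  parts := π.parts.erase (sPart π) + Multiset.replicate (sPart π - 2) 1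
  parts_pos := by
    intro i hi
    rcases Multiset.mem_add.mp hi with hi | hi
    · exact π.parts_pos (Multiset.mem_of_mem_erase hi)
    · rw [Multiset.eq_of_mem_replicate hi]; exact Nat.one_pos
  parts_sum := by
    have hm := sPart_mem π
    have hs : (sPart π ::ₘ π.parts.erase (sPart π)).sum = n + 2 := by
      rw [Multiset.cons_erase hm]; exact π.parts_sum
    rw [Multiset.sum_cons] at hs
    have hpos := π.parts_pos hm
    have hne : sPart π ≠ 1 := fun h1 => h (h1 ▸ hm)
    rw [Multiset.sum_add, Multiset.sum_replicate]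
    simp only [smul_eq_mul, mul_one]
    omega

theorem part_rec (n : ℕ) : Fintype.card (Nat.Partition (n + 2)) ≤
    Fintype.card (Nat.Partition (n + 1)) + Fintype.card (Nat.Partition n) := by
  classical
  rw [← Fintype.card_sum]
  let f : Nat.Partition (n + 2) → Nat.Partition (n + 1) ⊕ Nat.Partition n := fun π =>
    if h : 1 ∈ π.parts then Sum.inl (f1 π h) else Sum.inr (f2 π h)
  apply Fintype.card_le_of_injective f
  intro π₁ π₂ h12
  by_cases h1 : 1 ∈ π₁.parts
  · by_cases h2 : 1 ∈ π₂.parts
    · have e1 : f π₁ = Sum.inl (f1 π₁ h1) := dif_pos h1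
      have e2 : f π₂ = Sum.inl (f1 π₂ h2) := dif_pos h2
      rw [e1, e2] at h12
      have h3 := Sum.inl.inj h12
      have h4 : (f1 π₁ h1).parts = (f1 π₂ h2).parts := by rw [h3]
      have h5 : π₁.parts.erase 1 = π₂.parts.erase 1 := h4
      apply Nat.Partition.ext
      have e3 : π₁.parts = 1 ::ₘ π₁.parts.erase 1 := (Multiset.cons_erase h1).symm
      rw [e3, h5]; exact Multiset.cons_erase h2
    · have e1 : f π₁ = Sum.inl (f1 π₁ h1) := dif_pos h1
      have e2 : f π₂ = Sum.inr (f2 π₂ h2) := dif_neg h2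
      rw [e1, e2] at h12
      exact absurd h12 Sum.inl_ne_inr
  · by_cases h2 : 1 ∈ π₂.parts
    · have e1 : f π₁ = Sum.inr (f2 π₁ h1) := dif_neg h1
      have e2 : f π₂ = Sum.inl (f1 π₂ h2) := dif_pos h2
      rw [e1, e2] at h12
      exact absurd h12 Sum.inr_ne_inl
    · have e1 : f π₁ = Sum.inr (f2 π₁ h1) := dif_neg h1
      have e2 : f π₂ = Sum.inr (f2 π₂ h2) := dif_neg h2
      rw [e1, e2] at h12
      have h3 := Sum.inr.inj h12
      have h4 : (f2 π₁ h1).parts = (f2 π₂ h2).parts := by rw [h3]
      have h5 : π₁.parts.erase (sPart π₁) + Multiset.replicate (sPart π₁ - 2) 1 =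
          π₂.parts.erase (sPart π₂) + Multiset.replicate (sPart π₂ - 2) 1 := h4
      have hm1 := sPart_mem π₁
      have hm2 := sPart_mem π₂
      have hc : ∀ (π : Nat.Partition (n+2)), 1 ∉ π.parts →
          Multiset.count 1 (π.parts.erase (sPart π) + Multiset.replicate (sPart π - 2) 1) = sPart π - 2 := by
        intro π h
        rw [Multiset.count_add, Multiset.count_replicate_self,
          Multiset.count_eq_zero_of_notMem (fun hh => h (Multiset.mem_of_mem_erase hh)), zero_add]
      have h6 : sPart π₁ - 2 = sPart π₂ - 2 := by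
        rw [← hc π₁ h1, ← hc π₂ h2, h5]
      have hp1 := π₁.parts_pos hm1
      have hp2 := π₂.parts_pos hm2
      have hne1 : sPart π₁ ≠ 1 := fun hh => h1 (hh ▸ hm1)
      have hne2 : sPart π₂ ≠ 1 := fun hh => h2 (hh ▸ hm2)
      have h7 : sPart π₁ = sPart π₂ := by omega
      rw [h7] at h5
      have h8 : π₁.parts.erase (sPart π₂) = π₂.parts.erase (sPart π₂) := add_right_cancel h5
      apply Nat.Partition.ext
      have e3 : π₁.parts = sPart π₂ ::ₘ π₁.parts.erase (sPart π₂) := by
        rw [← h7]; exact (Multiset.cons_erase hm1).symm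
      rw [e3, h8]; exact Multiset.cons_erase hm2

theorem part_fib : ∀ n : ℕ, Fintype.card (Nat.Partition n) ≤ Nat.fib (n + 1) ∧
    Fintype.card (Nat.Partition (n+1)) ≤ Nat.fib (n + 2)
  | 0 => by
    show Fintype.card (Nat.Partition 0) ≤ Nat.fib 1 ∧ Fintype.card (Nat.Partition 1) ≤ Nat.fib 2
    refine ⟨?_, ?_⟩
    · rw [Fintype.card_unique]; decide
    · rw [Fintype.card_unique]; decide
  | (n+1) => by
    obtain ⟨h1, h2⟩ := part_fib n
    refine ⟨h2, ?_⟩
    show Fintype.card (Nat.Partition (n + 2)) ≤ Nat.fib (n + 3)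
    have := part_rec n
    have hf : Nat.fib (n + 3) = Nat.fib (n + 1) + Nat.fib (n + 2) := Nat.fib_add_two
    omega

theorem fib_le : ∀ m : ℕ, Nat.fib (m + 6) ≤ 2 ^ (m + 3) ∧ Nat.fib (m + 7) ≤ 2 ^ (m + 4)
  | 0 => by decide
  | (m+1) => by
    obtain ⟨h1, h2⟩ := fib_le m
    refine ⟨h2, ?_⟩
    have hf : Nat.fib (m + 6 + 2) = Nat.fib (m + 6) + Nat.fib (m + 7) := Nat.fib_add_two
    have e1 : 2 ^ (m + 1 + 4) = 2 * 2 ^ (m + 4) := by ring
    have e2 : 2 ^ (m + 4) = 2 * 2 ^ (m + 3) := by ring
    have e3 : Nat.fib (m + 1 + 7) = Nat.fib (m + 6 + 2) := rfl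
    omega

theorem part_le (N : ℕ) (h5 : 5 ≤ N) : Fintype.card (Nat.Partition N) ≤ 2 ^ (N - 2) := by
  obtain ⟨m, rfl⟩ : ∃ m, N = m + 5 := ⟨N - 5, by omega⟩
  have h1 := (part_fib (m + 5)).1
  have h2 := (fib_le m).1
  have e : m + 5 - 2 = m + 3 := by omega
  rw [e]
  exact h1.trans h2

def DP {N : ℕ} (π : Nat.Partition N) : Prop := (∀ i ∈ π.parts, Odd i) ∧ π.parts.Nodup

theorem hexD (N : ℕ) (h5 : 5 ≤ N) (π : Nat.Partition N) (h : DP π) : ∃ m, m ∈ π.parts ∧ 3 ≤ m := by
  obtain ⟨hodd, hnd⟩ := h
  by_contra hc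
  push_neg at hc
  have h1 : ∀ b ∈ π.parts, b = 1 := by
    intro b hb
    have := hc b hb
    have := π.parts_pos hb
    rcases hodd b hb with ⟨k, hk⟩
    omega
  have h2 : π.parts = Multiset.replicate (Multiset.card π.parts) 1 := Multiset.eq_replicate_card.mpr h1
  have h3 : Multiset.card π.parts ≤ 1 := by
    have h30 := Multiset.nodup_iff_count_le_one.mp hnd 1
    rw [h2, Multiset.count_replicate_self] at h30
    exact h30
  have h4 := π.parts_sum
  rw [h2, Multiset.sum_replicate] at h4
  simp only [smul_eq_mul, mul_one] at h4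
  omega

noncomputable def tPart {N : ℕ} (π : Nat.Partition N) : ℕ :=
  Classical.epsilon (fun m => m ∈ π.parts ∧ 3 ≤ m)

theorem tPart_spec {N : ℕ} (h5 : 5 ≤ N) (π : Nat.Partition N) (h : DP π) :
    tPart π ∈ π.parts ∧ 3 ≤ tPart π := Classical.epsilon_spec (hexD N h5 π h)

noncomputable def phiD {N : ℕ} (h5 : 5 ≤ N) (x : {π : Nat.Partition N // DP π}) : Nat.Partition N where
  parts := x.1.parts.erase (tPart x.1) + {tPart x.1 - 1, 1}
  parts_pos := by
    intro i hi
    obtain ⟨hm, h3⟩ := tPart_spec h5 x.1 x.2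
    rcases Multiset.mem_add.mp hi with hi | hi
    · exact x.1.parts_pos (Multiset.mem_of_mem_erase hi)
    · rw [Multiset.insert_eq_cons, Multiset.mem_cons, Multiset.mem_singleton] at hi
      rcases hi with hi | hi <;> omega
  parts_sum := by
    obtain ⟨hm, h3⟩ := tPart_spec h5 x.1 x.2
    have hs : (tPart x.1 ::ₘ x.1.parts.erase (tPart x.1)).sum = N := by
      rw [Multiset.cons_erase hm]; exact x.1.parts_sum
    rw [Multiset.sum_cons] at hs
    rw [Multiset.sum_add]
    have : ({tPart x.1 - 1, 1} : Multiset ℕ).sum = tPart x.1 - 1 + 1 := by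
      rw [Multiset.insert_eq_cons, Multiset.sum_cons, Multiset.sum_singleton]
    omega

theorem even_sum_add_card (s : Multiset ℕ) (h : ∀ i ∈ s, Odd i) : Even (s.sum + Multiset.card s) := by
  induction s using Multiset.induction_on with
  | empty => simp
  | cons a s ih =>
    have ha : Odd a := h a (Multiset.mem_cons_self a s)
    have ih' := ih (fun i hi => h i (Multiset.mem_cons_of_mem hi))
    rw [Multiset.sum_cons, Multiset.card_cons]
    rcases ha with ⟨k, hk⟩
    rcases ih' with ⟨j, hj⟩
    exact ⟨k + j + 1, by omega⟩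

theorem dp_lt (N : ℕ) (h5 : 5 ≤ N) : Nat.card {π : Nat.Partition N // DP π} <
    Nat.card {π : Nat.Partition N // ¬ Even (N + Multiset.card π.parts)} := by
  classical
  have hO : ∀ x : {π : Nat.Partition N // DP π}, ¬ Even (N + Multiset.card (phiD h5 x).parts) := by
    intro x
    obtain ⟨hm, h3⟩ := tPart_spec h5 x.1 x.2
    have hev : Even (N + Multiset.card x.1.parts) := by
      have := even_sum_add_card x.1.parts x.2.1
      rwa [x.1.parts_sum] at this
    have hcard : Multiset.card (phiD h5 x).parts = Multiset.card x.1.parts + 1 := by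
      show Multiset.card (x.1.parts.erase (tPart x.1) + {tPart x.1 - 1, 1}) = _
      rw [Multiset.card_add, Multiset.card_erase_of_mem hm]
      have hpos : 0 < Multiset.card x.1.parts := Multiset.card_pos_iff_exists_mem.mpr ⟨_, hm⟩
      have : Multiset.card ({tPart x.1 - 1, 1} : Multiset ℕ) = 2 := by
        rw [Multiset.insert_eq_cons, Multiset.card_cons, Multiset.card_singleton]
      rw [this]
      have : Nat.pred (Multiset.card x.1.parts) = Multiset.card x.1.parts - 1 := rfl
      omega
    rw [hcard, ← add_assoc, Nat.even_add_one]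
    exact not_not.mpr hev
  let f : {π : Nat.Partition N // DP π} → {π : Nat.Partition N // ¬ Even (N + Multiset.card π.parts)} :=
    fun x => ⟨phiD h5 x, hO x⟩
  have hinj : Function.Injective f := by
    intro x y hxy
    have h1 : (phiD h5 x).parts = (phiD h5 y).parts := by
      have h10 : phiD h5 x = phiD h5 y := congrArg Subtype.val hxy
      rw [h10]
    have h2 : x.1.parts.erase (tPart x.1) + {tPart x.1 - 1, 1} =
        y.1.parts.erase (tPart y.1) + {tPart y.1 - 1, 1} := h1
    obtain ⟨hmx, h3x⟩ := tPart_spec h5 x.1 x.2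
    obtain ⟨hmy, h3y⟩ := tPart_spec h5 y.1 y.2
    have hoddx : Odd (tPart x.1) := x.2.1 _ hmx
    have hmem : tPart x.1 - 1 ∈ y.1.parts.erase (tPart y.1) + {tPart y.1 - 1, 1} := by
      rw [← h2, Multiset.mem_add, Multiset.insert_eq_cons, Multiset.mem_cons]
      exact Or.inr (Or.inl rfl)
    have ht : tPart x.1 = tPart y.1 := by
      rcases Multiset.mem_add.mp hmem with hh | hh
      · have := y.2.1 _ (Multiset.mem_of_mem_erase hh)
        rcases this with ⟨k, hk⟩
        rcases hoddx with ⟨j, hj⟩
        omega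
      · rw [Multiset.insert_eq_cons, Multiset.mem_cons, Multiset.mem_singleton] at hh
        rcases hh with hh | hh <;> omega
    rw [ht] at h2
    have h4 : x.1.parts.erase (tPart y.1) = y.1.parts.erase (tPart y.1) := add_right_cancel h2
    apply Subtype.ext
    apply Nat.Partition.ext
    have e1 : x.1.parts = tPart y.1 ::ₘ x.1.parts.erase (tPart y.1) := by
      rw [← ht]; exact (Multiset.cons_erase hmx).symm
    rw [e1, h4]; exact Multiset.cons_erase hmy
  have hρ : ∃ ρ : Nat.Partition N, ¬ Even (N + Multiset.card ρ.parts) ∧ 1 ∉ ρ.parts := by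
    by_cases hev : Even N
    · refine ⟨⟨{N}, ?_, ?_⟩, ?_, ?_⟩
      · intro i hi; rw [Multiset.mem_singleton] at hi; omega
      · exact Multiset.sum_singleton N
      · show ¬ Even (N + Multiset.card ({N} : Multiset ℕ))
        rw [Multiset.card_singleton, Nat.even_add_one]; exact not_not.mpr hev
      · show 1 ∉ ({N} : Multiset ℕ)
        rw [Multiset.mem_singleton]; omega
    · refine ⟨⟨{N - 2, 2}, ?_, ?_⟩, ?_, ?_⟩
      · intro i hi
        rw [Multiset.insert_eq_cons, Multiset.mem_cons, Multiset.mem_singleton] at hi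
        rcases hi with hi | hi <;> omega
      · have : ({N - 2, 2} : Multiset ℕ).sum = N - 2 + 2 := by
          rw [Multiset.insert_eq_cons, Multiset.sum_cons, Multiset.sum_singleton]
        rw [this]; omega
      · show ¬ Even (N + Multiset.card ({N - 2, 2} : Multiset ℕ))
        have : Multiset.card ({N - 2, 2} : Multiset ℕ) = 2 := by
          rw [Multiset.insert_eq_cons, Multiset.card_cons, Multiset.card_singleton]
        rw [this]
        intro h; apply hev
        rcases h with ⟨k, hk⟩; exact ⟨k - 1, by omega⟩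
      · show 1 ∉ ({N - 2, 2} : Multiset ℕ)
        rw [Multiset.insert_eq_cons, Multiset.mem_cons, Multiset.mem_singleton]; omega
  obtain ⟨ρ, hρO, hρ1⟩ := hρ
  have hnot : (⟨ρ, hρO⟩ : {π : Nat.Partition N // ¬ Even (N + Multiset.card π.parts)}) ∉ Set.range f := by
    rintro ⟨x, hx⟩
    apply hρ1
    have h10 : (phiD h5 x) = ρ := congrArg Subtype.val hx
    rw [← h10]
    show 1 ∈ x.1.parts.erase (tPart x.1) + {tPart x.1 - 1, 1}
    rw [Multiset.mem_add, Multiset.insert_eq_cons, Multiset.mem_cons, Multiset.mem_singleton]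
    exact Or.inr (Or.inr rfl)
  rw [Nat.card_eq_fintype_card, Nat.card_eq_fintype_card]
  exact Fintype.card_lt_of_injective_of_notMem f hinj hnot

section perm
variable {α : Type*} [Fintype α] [DecidableEq α]

theorem exists_perm (π : Nat.Partition (Fintype.card α)) : ∃ g : Perm α, g.partition = π := by
  have hsplit : π.parts.filter (fun i => 2 ≤ i) + π.parts.filter (fun i => ¬ 2 ≤ i) = π.parts :=
    Multiset.filter_add_not _ _
  have hr : π.parts.filter (fun i => ¬ 2 ≤ i) =
      Multiset.replicate (Multiset.card (π.parts.filter (fun i => ¬ 2 ≤ i))) 1 := by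
    apply Multiset.eq_replicate_card.mpr
    intro b hb
    have h1 := Multiset.mem_filter.mp hb
    have := π.parts_pos h1.1
    omega
  have hsum : (π.parts.filter (fun i => 2 ≤ i)).sum +
      Multiset.card (π.parts.filter (fun i => ¬ 2 ≤ i)) = Fintype.card α := by
    have h1 := congrArg Multiset.sum hsplit
    rw [Multiset.sum_add, π.parts_sum] at h1
    have h2 : (π.parts.filter (fun i => ¬ 2 ≤ i)).sum =
        Multiset.card (π.parts.filter (fun i => ¬ 2 ≤ i)) := by
      conv_lhs => rw [hr]
      rw [Multiset.sum_replicate]; simp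
    omega
  obtain ⟨g, hg⟩ := (Equiv.Perm.exists_with_cycleType_iff α (m := π.parts.filter (fun i => 2 ≤ i))).mpr
    ⟨by omega, fun a ha => (Multiset.mem_filter.mp ha).2⟩
  refine ⟨g, Nat.Partition.ext ?_⟩
  have hsup : g.support.card = (π.parts.filter (fun i => 2 ≤ i)).sum := by
    rw [← Equiv.Perm.sum_cycleType, hg]
  rw [Equiv.Perm.parts_partition, hg, hsup]
  have hk : Fintype.card α - (π.parts.filter (fun i => 2 ≤ i)).sum =
      Multiset.card (π.parts.filter (fun i => ¬ 2 ≤ i)) := by omega
  rw [hk, ← hr]; exact hsplit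

theorem sign_iff (g : Perm α) : g ∈ alternatingGroup α ↔
    Even (Fintype.card α + Multiset.card g.partition.parts) := by
  rw [Equiv.Perm.mem_alternatingGroup, Equiv.Perm.sign_of_cycleType, Equiv.Perm.parts_partition,
    Multiset.card_add, Multiset.card_replicate]
  have hs : g.cycleType.sum = g.support.card := Equiv.Perm.sum_cycleType g
  have hle : g.support.card ≤ Fintype.card α := Finset.card_le_univ _
  rw [neg_one_pow_eq_one_iff_even (by decide), hs]
  simp only [Nat.even_iff]
  omega

theorem dp_of_cent (g : Perm α) (h : Subgroup.centralizer {g} ≤ alternatingGroup α) :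
    DP g.partition := by
  obtain ⟨h1, h2, h3⟩ := Equiv.Perm.centralizer_le_alternating_iff.mp h
  have hs : g.cycleType.sum = g.support.card := Equiv.Perm.sum_cycleType g
  have hk : Fintype.card α - g.support.card ≤ 1 := by omega
  constructor
  · intro i hi
    rw [Equiv.Perm.parts_partition] at hi
    rcases Multiset.mem_add.mp hi with hi | hi
    · exact h1 i hi
    · rw [Multiset.eq_of_mem_replicate hi]; exact odd_one
  · rw [Equiv.Perm.parts_partition, Multiset.nodup_add]
    refine ⟨Multiset.nodup_iff_count_le_one.mpr h3, ?_, ?_⟩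
    · rw [Multiset.nodup_iff_count_le_one]
      intro a
      by_cases ha : a = 1
      · subst ha; rw [Multiset.count_replicate_self]; exact hk
      · rw [Multiset.count_eq_zero_of_notMem (fun hh => ha (Multiset.eq_of_mem_replicate hh))]
        exact Nat.zero_le _
    · rw [Multiset.disjoint_left]
      intro a ha hb
      have := Equiv.Perm.two_le_of_mem_cycleType ha
      have := Multiset.eq_of_mem_replicate hb
      omega

theorem sign_mul_of_odd (x y : Perm α) (hx : x ∉ alternatingGroup α) (hy : y ∉ alternatingGroup α) :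
    Equiv.Perm.sign x = -1 ∧ Equiv.Perm.sign y = -1 := by
  rw [Equiv.Perm.mem_alternatingGroup] at hx hy
  refine ⟨?_, ?_⟩
  · rcases Int.units_eq_one_or (Equiv.Perm.sign x) with h | h
    · exact absurd h hx
    · exact h
  · rcases Int.units_eq_one_or (Equiv.Perm.sign y) with h | h
    · exact absurd h hy
    · exact h

theorem conj_of_not_dp (g h : alternatingGroup α)
    (hp : (g : Perm α).partition = (h : Perm α).partition) (hD : ¬ DP (g : Perm α).partition) :
    IsConj g h := by
  have h1 : IsConj (g : Perm α) (h : Perm α) := Equiv.Perm.partition_eq_of_isConj.mpr hp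
  obtain ⟨c, hc⟩ := isConj_iff.mp h1
  have h2 : ¬ Subgroup.centralizer {(g : Perm α)} ≤ alternatingGroup α :=
    fun hh => hD (dp_of_cent _ hh)
  obtain ⟨z, hz, hzA⟩ := SetLike.not_le_iff_exists.mp h2
  rw [Subgroup.mem_centralizer_singleton_iff] at hz
  have hcomm : z * (g : Perm α) * z⁻¹ = (g : Perm α) := by
    rw [mul_inv_eq_iff_eq_mul]
    first | exact hz | exact hz.symm
  by_cases hcA : c ∈ alternatingGroup α
  · exact isConj_iff.mpr ⟨⟨c, hcA⟩, Subtype.ext hc⟩
  · have hczA : c * z ∈ alternatingGroup α := by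
      obtain ⟨s1, s2⟩ := sign_mul_of_odd c z hcA hzA
      rw [Equiv.Perm.mem_alternatingGroup, map_mul, s1, s2]; decide
    refine isConj_iff.mpr ⟨⟨c * z, hczA⟩, Subtype.ext ?_⟩
    show c * z * (g : Perm α) * (c * z)⁻¹ = (h : Perm α)
    rw [← hc, mul_inv_rev]
    calc c * z * (g : Perm α) * (z⁻¹ * c⁻¹) = c * (z * (g : Perm α) * z⁻¹) * c⁻¹ := by group
      _ = c * (g : Perm α) * c⁻¹ := by rw [hcomm]

theorem conj_two_of_three (g₀ g₁ g₂ : alternatingGroup α)
    (h1 : (g₁ : Perm α).partition = (g₀ : Perm α).partition)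
    (h2 : (g₂ : Perm α).partition = (g₀ : Perm α).partition)
    (n1 : ¬ IsConj g₀ g₁) (n2 : ¬ IsConj g₀ g₂) : IsConj g₁ g₂ := by
  obtain ⟨x, hx⟩ := isConj_iff.mp (Equiv.Perm.partition_eq_of_isConj.mpr h1.symm)
  obtain ⟨y, hy⟩ := isConj_iff.mp (Equiv.Perm.partition_eq_of_isConj.mpr h2.symm)
  have hxA : x ∉ alternatingGroup α := fun hh => n1 (isConj_iff.mpr ⟨⟨x, hh⟩, Subtype.ext hx⟩)
  have hyA : y ∉ alternatingGroup α := fun hh => n2 (isConj_iff.mpr ⟨⟨y, hh⟩, Subtype.ext hy⟩)
  have hA : y * x⁻¹ ∈ alternatingGroup α := by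
    obtain ⟨s1, s2⟩ := sign_mul_of_odd x y hxA hyA
    rw [Equiv.Perm.mem_alternatingGroup, map_mul, map_inv, s1, s2]; decide
  refine isConj_iff.mpr ⟨⟨y * x⁻¹, hA⟩, Subtype.ext ?_⟩
  show y * x⁻¹ * (g₁ : Perm α) * (y * x⁻¹)⁻¹ = (g₂ : Perm α)
  rw [← hx, ← hy]; group

noncomputable def rep (C : ConjClasses (alternatingGroup α)) : alternatingGroup α := Quotient.out C

theorem rep_mk (C : ConjClasses (alternatingGroup α)) : ConjClasses.mk (rep C) = C := Quotient.out_eq C

noncomputable def psi (C : ConjClasses (alternatingGroup α)) : Nat.Partition (Fintype.card α) :=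
  ((rep C : alternatingGroup α) : Perm α).partition

noncomputable def cc (π : Nat.Partition (Fintype.card α)) : ConjClasses (alternatingGroup α) :=
  Classical.epsilon (fun C => psi C = π)

theorem psi_cc (C : ConjClasses (alternatingGroup α)) : psi (cc (psi C)) = psi C :=
  Classical.epsilon_spec (p := fun C' => psi C' = psi C) ⟨C, rfl⟩

theorem card_alt_le : Nat.card (ConjClasses (alternatingGroup α)) ≤
    Nat.card {π : Nat.Partition (Fintype.card α) // Even (Fintype.card α + Multiset.card π.parts)} +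
    Nat.card {π : Nat.Partition (Fintype.card α) // DP π} := by
  classical
  rw [← Nat.card_sum]
  have hE : ∀ C : ConjClasses (alternatingGroup α),
      Even (Fintype.card α + Multiset.card (psi C).parts) := fun C => (sign_iff _).mp (rep C).2
  have hD : ∀ C : ConjClasses (alternatingGroup α), C ≠ cc (psi C) → DP (psi C) := by
    intro C hne
    by_contra hnd
    apply hne
    have h1 : IsConj (rep C) (rep (cc (psi C))) := conj_of_not_dp _ _ (psi_cc C).symm hnd
    calc C = ConjClasses.mk (rep C) := (rep_mk C).symm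
      _ = ConjClasses.mk (rep (cc (psi C))) := ConjClasses.mk_eq_mk_iff_isConj.mpr h1
      _ = cc (psi C) := rep_mk _
  let F : ConjClasses (alternatingGroup α) →
      {π : Nat.Partition (Fintype.card α) // Even (Fintype.card α + Multiset.card π.parts)} ⊕
      {π : Nat.Partition (Fintype.card α) // DP π} := fun C =>
    if h : C = cc (psi C) then Sum.inl ⟨psi C, hE C⟩ else Sum.inr ⟨psi C, hD C h⟩
  apply Nat.card_le_card_of_injective F
  intro C₁ C₂ h12
  by_cases h1 : C₁ = cc (psi C₁)
  · by_cases h2 : C₂ = cc (psi C₂)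
    · have e1 : F C₁ = Sum.inl ⟨psi C₁, hE C₁⟩ := dif_pos h1
      have e2 : F C₂ = Sum.inl ⟨psi C₂, hE C₂⟩ := dif_pos h2
      rw [e1, e2] at h12
      have hpsi : psi C₁ = psi C₂ := congrArg Subtype.val (Sum.inl.inj h12)
      calc C₁ = cc (psi C₁) := h1
        _ = cc (psi C₂) := by rw [hpsi]
        _ = C₂ := h2.symm
    · have e1 : F C₁ = Sum.inl ⟨psi C₁, hE C₁⟩ := dif_pos h1
      have e2 : F C₂ = Sum.inr ⟨psi C₂, hD C₂ h2⟩ := dif_neg h2
      rw [e1, e2] at h12
      exact absurd h12 Sum.inl_ne_inr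
  · by_cases h2 : C₂ = cc (psi C₂)
    · have e1 : F C₁ = Sum.inr ⟨psi C₁, hD C₁ h1⟩ := dif_neg h1
      have e2 : F C₂ = Sum.inl ⟨psi C₂, hE C₂⟩ := dif_pos h2
      rw [e1, e2] at h12
      exact absurd h12 Sum.inr_ne_inl
    · have e1 : F C₁ = Sum.inr ⟨psi C₁, hD C₁ h1⟩ := dif_neg h1
      have e2 : F C₂ = Sum.inr ⟨psi C₂, hD C₂ h2⟩ := dif_neg h2
      rw [e1, e2] at h12
      have hpsi : psi C₁ = psi C₂ := congrArg Subtype.val (Sum.inr.inj h12)
      have n1 : ¬ IsConj (rep (cc (psi C₁))) (rep C₁) := by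
        intro hh
        apply h1
        calc C₁ = ConjClasses.mk (rep C₁) := (rep_mk C₁).symm
          _ = ConjClasses.mk (rep (cc (psi C₁))) := (ConjClasses.mk_eq_mk_iff_isConj.mpr hh).symm
          _ = cc (psi C₁) := rep_mk _
      have n2 : ¬ IsConj (rep (cc (psi C₁))) (rep C₂) := by
        intro hh
        apply h2
        calc C₂ = ConjClasses.mk (rep C₂) := (rep_mk C₂).symm
          _ = ConjClasses.mk (rep (cc (psi C₁))) := (ConjClasses.mk_eq_mk_iff_isConj.mpr hh).symm
          _ = cc (psi C₁) := rep_mk _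
          _ = cc (psi C₂) := by rw [hpsi]
      have h3 : IsConj (rep C₁) (rep C₂) :=
        conj_two_of_three (rep (cc (psi C₁))) (rep C₁) (rep C₂) (psi_cc C₁).symm
          (hpsi.symm.trans (psi_cc C₁).symm) n1 n2
      calc C₁ = ConjClasses.mk (rep C₁) := (rep_mk C₁).symm
        _ = ConjClasses.mk (rep C₂) := ConjClasses.mk_eq_mk_iff_isConj.mpr h3
        _ = C₂ := rep_mk C₂

theorem main (h5 : 5 ≤ Fintype.card α) :
    Nat.card (ConjClasses (alternatingGroup α)) < Nat.card (ConjClasses (Perm α)) ∧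
    Nat.card (ConjClasses (Perm α)) ≤ 2 ^ (Fintype.card α - 2) := by
  classical
  have hP : Nat.card (Nat.Partition (Fintype.card α)) ≤ Nat.card (ConjClasses (Perm α)) := by
    let G : Nat.Partition (Fintype.card α) → ConjClasses (Perm α) :=
      fun π => ConjClasses.mk (Classical.choose (exists_perm (α := α) π))
    apply Nat.card_le_card_of_injective G
    intro π ρ h
    have h' : ConjClasses.mk (Classical.choose (exists_perm (α := α) π)) =
        ConjClasses.mk (Classical.choose (exists_perm (α := α) ρ)) := h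
    have h1 := ConjClasses.mk_eq_mk_iff_isConj.mp h'
    have h2 := Equiv.Perm.partition_eq_of_isConj.mp h1
    rw [Classical.choose_spec (exists_perm (α := α) π),
      Classical.choose_spec (exists_perm (α := α) ρ)] at h2
    exact h2
  have hP' : Nat.card (ConjClasses (Perm α)) ≤ Nat.card (Nat.Partition (Fintype.card α)) := by
    let G : ConjClasses (Perm α) → Nat.Partition (Fintype.card α) :=
      fun C => (Quotient.out C : Perm α).partition
    apply Nat.card_le_card_of_injective G
    intro C D h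
    have h1 : IsConj (Quotient.out C : Perm α) (Quotient.out D) :=
      Equiv.Perm.partition_eq_of_isConj.mpr h
    calc C = ConjClasses.mk (Quotient.out C) := (Quotient.out_eq C).symm
      _ = ConjClasses.mk (Quotient.out D) := ConjClasses.mk_eq_mk_iff_isConj.mpr h1
      _ = D := Quotient.out_eq D
  have hsplit : Nat.card {π : Nat.Partition (Fintype.card α) //
        Even (Fintype.card α + Multiset.card π.parts)} +
      Nat.card {π : Nat.Partition (Fintype.card α) //
        ¬ Even (Fintype.card α + Multiset.card π.parts)} =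
      Nat.card (Nat.Partition (Fintype.card α)) := by
    rw [← Nat.card_sum]
    exact Nat.card_congr (Equiv.sumCompl _)
  have h1 := card_alt_le (α := α)
  have h2 := dp_lt (Fintype.card α) h5
  refine ⟨by omega, ?_⟩
  refine hP'.trans ?_
  rw [Nat.card_eq_fintype_card]
  exact part_le _ h5

end perm


/-- For n ≥ 5 the alternating group of degree n has strictly fewer conjugacy classes than the symmetric group of degree n, and the symmetric group of degree n (whose classes correspond to the partitions of n) has at most 2^(n−2) conjugacy classes. -/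
theorem result (n : ℕ) (hn : 5 ≤ n) : Nat.card (ConjClasses (alternatingGroup (Fin n))) < Nat.card (ConjClasses (Equiv.Perm (Fin n))) ∧ Nat.card (ConjClasses (Equiv.Perm (Fin n))) ≤ 2 ^ (n - 2) := by
  have h := main (α := Fin n) (by rw [Fintype.card_fin]; exact hn)
  rw [Fintype.card_fin] at h
  exact h

end Cfsg.Agent.S4198
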