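import Cfsg.Statements.S4200
-- import your own Cfsg.Agent.* helpers here
import Mathlib

set_option autoImplicit false
open Cfsg

namespace Cfsg.Agent.S4200

open Classical in
/-- a representative of the coset `q` commuting with `a`, when one exists -/
noncomputable def rep {X : Type*} [Group X] (Y : Subgroup X) (a : X) (q : X ⧸ Y) : X :=
  if h : ∃ r : X, Commute a r ∧ (QuotientGroup.mk r : X ⧸ Y) = q then h.choose else 1

theorem rep_spec {X : Type*} [Group X] (Y : Subgroup X) (a z : X) (hz : Commute a z) :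
    Commute a (rep Y a (QuotientGroup.mk z)) ∧
      (QuotientGroup.mk (rep Y a (QuotientGroup.mk z)) : X ⧸ Y) = QuotientGroup.mk z := by
  have h : ∃ r : X, Commute a r ∧ (QuotientGroup.mk r : X ⧸ Y) = QuotientGroup.mk z :=
    ⟨z, hz, rfl⟩
  unfold rep
  rw [dif_pos h]
  exact h.choose_spec

/-- the injection `(t, z) ↦ (zY, (t, r⁻¹ z))` on commuting pairs -/
noncomputable def jmap {X : Type*} [Group X] (Y : Subgroup X) {T : Type*} (ι : T → X)
    (p : {p : T × X // Commute (ι p.1) p.2}) :
    (X ⧸ Y) × {p : T × Y // Commute (ι p.1) (p.2 : X)} :=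
  (QuotientGroup.mk p.1.2, ⟨(p.1.1, ⟨(rep Y (ι p.1.1) (QuotientGroup.mk p.1.2))⁻¹ * p.1.2,
      QuotientGroup.eq.mp (rep_spec Y _ _ p.2).2⟩),
      Commute.mul_right (Commute.inv_right (rep_spec Y _ _ p.2).1) p.2⟩)

theorem jmap_injective {X : Type*} [Group X] (Y : Subgroup X) {T : Type*} (ι : T → X) :
    Function.Injective (jmap Y ι) := by
  rintro ⟨⟨t, z⟩, hp⟩ ⟨⟨t', z'⟩, hp'⟩ h
  simp only [jmap, Prod.mk.injEq, Subtype.mk.injEq] at h
  obtain ⟨hq, ht, hz⟩ := h
  subst ht
  rw [hq] at hz
  have := mul_left_cancel hz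
  subst this
  rfl

theorem jmap_card_le {X : Type*} [Group X] [Finite X] (Y : Subgroup X) {T : Type*} [Finite T]
    (ι : T → X) :
    Nat.card {p : T × X // Commute (ι p.1) p.2} ≤
      Y.index * Nat.card {p : T × Y // Commute (ι p.1) (p.2 : X)} := by
  have h := Nat.card_le_card_of_injective _ (jmap_injective Y ι)
  rw [Nat.card_prod] at h
  exact h
theorem jmap_card_lt {X : Type*} [Group X] [Finite X] (Y : Subgroup X) (hY : ¬ Y.Normal) :
    Nat.card {p : Y × X // Commute (p.1 : X) p.2} <
      Y.index * Nat.card {p : Y × Y // Commute (p.1 : X) (p.2 : X)} := by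
  classical
  have : Fintype {p : Y × X // Commute (p.1 : X) p.2} := Fintype.ofFinite _
  have : Fintype ((X ⧸ Y) × {p : Y × Y // Commute (p.1 : X) (p.2 : X)}) := Fintype.ofFinite _
  obtain ⟨y, hy, g, hg⟩ : ∃ y ∈ Y, ∃ g : X, g * y * g⁻¹ ∉ Y := by
    by_contra hcon
    push Not at hcon
    exact hY ⟨fun n hn g => hcon n hn g⟩
  have hnot : ((QuotientGroup.mk g⁻¹ : X ⧸ Y),
      (⟨(⟨y, hy⟩, 1), Commute.one_right _⟩ : {p : Y × Y // Commute (p.1 : X) (p.2 : X)})) ∉
      Set.range (jmap Y (fun t : Y => (t : X))) := by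
    rintro ⟨⟨⟨t, z⟩, hp⟩, h⟩
    simp only [jmap, Prod.mk.injEq, Subtype.mk.injEq] at h
    obtain ⟨hq, ht, -⟩ := h
    subst ht
    have h1 : z⁻¹ * g⁻¹ ∈ Y := QuotientGroup.eq.mp hq
    apply hg
    have hp' : y * z = z * y := hp
    have e : g * y * g⁻¹ = (z⁻¹ * g⁻¹)⁻¹ * y * (z⁻¹ * g⁻¹) := by
      have : (z⁻¹ * g⁻¹)⁻¹ * y * (z⁻¹ * g⁻¹) = g * (z * y * z⁻¹) * g⁻¹ := by group
      rw [this, ← hp']
      group
    rw [e]
    exact Y.mul_mem (Y.mul_mem (Y.inv_mem h1) hy) h1
  have h := Fintype.card_lt_of_injective_of_notMem _ (jmap_injective Y (fun t : Y => (t : X))) hnot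
  rw [← Nat.card_eq_fintype_card, ← Nat.card_eq_fintype_card, Nat.card_prod] at h
  exact h

/-- Let Y be a subgroup of the finite group X, of index m. Then the numbers of conjugacy classes satisfy k(Y) ≤ m·k(X) and k(X) ≤ m·k(Y), and the second inequality is strict unless Y is normal in X. -/
theorem result {X : Type*} [Group X] [Finite X] (Y : Subgroup X) : Nat.card (ConjClasses Y) ≤ Y.index * Nat.card (ConjClasses X) ∧ Nat.card (ConjClasses X) ≤ Y.index * Nat.card (ConjClasses Y) ∧ (¬ Y.Normal → Nat.card (ConjClasses X) < Y.index * Nat.card (ConjClasses Y)) := by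
  classical
  have hX := card_comm_eq_card_conjClasses_mul_card X
  have hY := card_comm_eq_card_conjClasses_mul_card Y
  have hidx : Nat.card Y * Y.index = Nat.card X := Y.card_mul_index
  have hYpos : 0 < Nat.card Y := Nat.card_pos
  have hmpos : 0 < Y.index := Nat.pos_of_ne_zero Y.index_ne_zero_of_finite
  -- equivalences
  have e1 : Nat.card {p : X × Y // Commute p.1 (p.2 : X)} =
      Nat.card {p : Y × X // Commute (p.1 : X) p.2} :=
    Nat.card_congr ((Equiv.prodComm X Y).subtypeEquiv
      (fun p => ⟨fun h => h.symm, fun h => h.symm⟩))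
  have e2 : Nat.card {p : Y × Y // Commute (p.1 : X) (p.2 : X)} =
      Nat.card {p : Y × Y // Commute p.1 p.2} :=
    Nat.card_congr (Equiv.subtypeEquivRight (fun p =>
      ⟨fun h => Subtype.ext h, fun h => congrArg Subtype.val h⟩))
  have hA := jmap_card_le Y (fun t : X => t)
  have hB := jmap_card_le Y (fun t : Y => (t : X))
  rw [e2, hY] at hB
  rw [e1] at hA
  rw [hX] at hA
  refine ⟨?_, ?_, ?_⟩
  · -- k(Y) ≤ m k(X)
    have hinj : Function.Injective (fun p : {p : Y × Y // Commute p.1 p.2} =>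
        (⟨((p.1.1 : X), (p.1.2 : X)), congrArg Subtype.val p.2⟩ :
          {p : X × X // Commute p.1 p.2})) := by
      rintro ⟨⟨a, b⟩, h⟩ ⟨⟨a', b'⟩, h'⟩ hab
      have hab' := congrArg Subtype.val hab
      simp only [Prod.mk.injEq] at hab'
      obtain ⟨h1, h2⟩ := hab'
      have ha : a = a' := Subtype.ext h1
      have hb : b = b' := Subtype.ext h2
      subst ha; subst hb; rfl
    have hle := Nat.card_le_card_of_injective _ hinj
    rw [hX, hY, ← hidx] at hle
    have : Nat.card (ConjClasses Y) * Nat.card Y ≤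
        (Y.index * Nat.card (ConjClasses X)) * Nat.card Y := by
      calc Nat.card (ConjClasses Y) * Nat.card Y
          ≤ Nat.card (ConjClasses X) * (Nat.card Y * Y.index) := hle
        _ = (Y.index * Nat.card (ConjClasses X)) * Nat.card Y := by ring
    exact Nat.le_of_mul_le_mul_right this hYpos
  · have h1 : Nat.card (ConjClasses X) * Nat.card X ≤
        Y.index * (Y.index * (Nat.card (ConjClasses Y) * Nat.card Y)) :=
      le_trans hA (Nat.mul_le_mul_left _ hB)
    rw [← hidx] at h1
    have : Nat.card (ConjClasses X) * (Nat.card Y * Y.index) ≤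
        (Y.index * Nat.card (ConjClasses Y)) * (Nat.card Y * Y.index) := by
      calc Nat.card (ConjClasses X) * (Nat.card Y * Y.index)
          ≤ Y.index * (Y.index * (Nat.card (ConjClasses Y) * Nat.card Y)) := h1
        _ = (Y.index * Nat.card (ConjClasses Y)) * (Nat.card Y * Y.index) := by ring
    exact Nat.le_of_mul_le_mul_right this (Nat.mul_pos hYpos hmpos)
  · intro hYn
    have hB' := jmap_card_lt Y hYn
    rw [e2, hY] at hB'
    have h1 : Nat.card (ConjClasses X) * Nat.card X <
        Y.index * (Y.index * (Nat.card (ConjClasses Y) * Nat.card Y)) :=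
      lt_of_le_of_lt hA (Nat.mul_lt_mul_of_pos_left hB' hmpos)
    rw [← hidx] at h1
    have : Nat.card (ConjClasses X) * (Nat.card Y * Y.index) <
        (Y.index * Nat.card (ConjClasses Y)) * (Nat.card Y * Y.index) := by
      calc Nat.card (ConjClasses X) * (Nat.card Y * Y.index)
          < Y.index * (Y.index * (Nat.card (ConjClasses Y) * Nat.card Y)) := h1
        _ = (Y.index * Nat.card (ConjClasses Y)) * (Nat.card Y * Y.index) := by ring
    exact Nat.lt_of_mul_lt_mul_right this

end Cfsg.Agent.S4200
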