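import Cfsg.Statements.S4201
-- import your own Cfsg.Agent.* helpers here
import Mathlib

set_option autoImplicit false
open Cfsg

namespace Cfsg.Agent.S4201

open Classical in
/-- a representative of the coset `q` commuting with `a`, when one exists -/
noncomputable def rep {X : Type*} [Group X] (Y : Subgroup X) (a : X) (q : X ⧸ Y) : X :=
  if h : ∃ r : X, Commute a r ∧ (QuotientGroup.mk r : X ⧸ Y) = q then h.choose else 1

theorem rep_spec {X : Type*} [Group X] (Y : Subgroup X) (a z : X) (hz : Commute a z) :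
    Commute a (rep Y a (QuotientGroup.mk z)) ∧
      (QuotientGroup.mk (rep Y a (QuotientGroup.mk z)) : X ⧸ Y) = QuotientGroup.mk z := by
  have h : ∃ r : X, Commute a r ∧ (QuotientGroup.mk r : X ⧸ Y) = QuotientGroup.mk z :=
    ⟨z, hz, rfl⟩
  unfold rep
  rw [dif_pos h]
  exact h.choose_spec

/-- the injection `(t, z) ↦ (zY, (t, r⁻¹ z))` on commuting pairs -/
noncomputable def jmap {X : Type*} [Group X] (Y : Subgroup X) {T : Type*} (ι : T → X)
    (p : {p : T × X // Commute (ι p.1) p.2}) :
    (X ⧸ Y) × {p : T × Y // Commute (ι p.1) (p.2 : X)} :=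
  (QuotientGroup.mk p.1.2, ⟨(p.1.1, ⟨(rep Y (ι p.1.1) (QuotientGroup.mk p.1.2))⁻¹ * p.1.2,
      QuotientGroup.eq.mp (rep_spec Y _ _ p.2).2⟩),
      Commute.mul_right (Commute.inv_right (rep_spec Y _ _ p.2).1) p.2⟩)

theorem jmap_injective {X : Type*} [Group X] (Y : Subgroup X) {T : Type*} (ι : T → X) :
    Function.Injective (jmap Y ι) := by
  rintro ⟨⟨t, z⟩, hp⟩ ⟨⟨t', z'⟩, hp'⟩ h
  simp only [jmap, Prod.mk.injEq, Subtype.mk.injEq] at h
  obtain ⟨hq, ht, hz⟩ := h
  subst ht
  rw [hq] at hz
  have := mul_left_cancel hz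
  subst this
  rfl

theorem jmap_card_le {X : Type*} [Group X] [Finite X] (Y : Subgroup X) {T : Type*} [Finite T]
    (ι : T → X) :
    Nat.card {p : T × X // Commute (ι p.1) p.2} ≤
      Y.index * Nat.card {p : T × Y // Commute (ι p.1) (p.2 : X)} := by
  have h := Nat.card_le_card_of_injective _ (jmap_injective Y ι)
  rw [Nat.card_prod] at h
  exact h
theorem comm_card_le {X : Type*} [Group X] [Finite X] (N : Subgroup X) [N.Normal] :
    Nat.card {p : X × X // Commute p.1 p.2} ≤
      Nat.card {q : (X ⧸ N) × (X ⧸ N) // Commute q.1 q.2} *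
        Nat.card {p : N × N // Commute (p.1 : X) (p.2 : X)} := by
  classical
  let s : {p : X × N // Commute p.1 (p.2 : X)} ≃ {p : N × X // Commute (p.1 : X) p.2} :=
    (Equiv.prodComm X N).subtypeEquiv (fun p => ⟨fun h => h.symm, fun h => h.symm⟩)
  let Ψ : {p : X × X // Commute p.1 p.2} →
      {q : (X ⧸ N) × (X ⧸ N) // Commute q.1 q.2} ×
        {p : N × N // Commute (p.1 : X) (p.2 : X)} :=
    fun p => (⟨((jmap N (fun t : N => (t : X)) (s (jmap N (fun t : X => t) p).2)).1,
        (jmap N (fun t : X => t) p).1), by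
        show Commute (QuotientGroup.mk p.1.1 : X ⧸ N) (QuotientGroup.mk p.1.2)
        exact p.2.map (QuotientGroup.mk' N)⟩,
      (jmap N (fun t : N => (t : X)) (s (jmap N (fun t : X => t) p).2)).2)
  have hΨ : Function.Injective Ψ := by
    intro p p' h
    have h1 : (jmap N (fun t : N => (t : X)) (s (jmap N (fun t : X => t) p).2)) =
        (jmap N (fun t : N => (t : X)) (s (jmap N (fun t : X => t) p').2)) := by
      apply Prod.ext
      · exact congrArg (fun w => w.1.1.1) h
      · exact congrArg (fun w => w.2) h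
    have h2 := s.injective (jmap_injective N _ h1)
    have h3 : (jmap N (fun t : X => t) p).1 = (jmap N (fun t : X => t) p').1 :=
      congrArg (fun w => w.1.1.2) h
    exact jmap_injective N _ (Prod.ext h3 h2)
  have := Nat.card_le_card_of_injective Ψ hΨ
  rw [Nat.card_prod] at this
  exact this

/-- If N is a normal subgroup of the finite group X then k(X) ≤ k(N)·k(X ⧸ N), where k denotes the number of conjugacy classes. -/
theorem result {X : Type*} [Group X] [Finite X] (N : Subgroup X) [N.Normal] : Nat.card (ConjClasses X) ≤ Nat.card (ConjClasses N) * Nat.card (ConjClasses (X ⧸ N)) := by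
  classical
  have hX := card_comm_eq_card_conjClasses_mul_card X
  have hN := card_comm_eq_card_conjClasses_mul_card N
  have hQ := card_comm_eq_card_conjClasses_mul_card (X ⧸ N)
  have e2 : Nat.card {p : N × N // Commute (p.1 : X) (p.2 : X)} =
      Nat.card {p : N × N // Commute p.1 p.2} :=
    Nat.card_congr (Equiv.subtypeEquivRight (fun p =>
      ⟨fun h => Subtype.ext h, fun h => congrArg Subtype.val h⟩))
  have h := comm_card_le N
  rw [e2, hX, hN, hQ] at h
  have hidx : Nat.card N * Nat.card (X ⧸ N) = Nat.card X := by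
    rw [← Subgroup.index_eq_card]; exact N.card_mul_index
  rw [← hidx] at h
  have hpos : 0 < Nat.card N * Nat.card (X ⧸ N) := Nat.mul_pos Nat.card_pos Nat.card_pos
  have : Nat.card (ConjClasses X) * (Nat.card N * Nat.card (X ⧸ N)) ≤
      (Nat.card (ConjClasses N) * Nat.card (ConjClasses (X ⧸ N))) *
        (Nat.card N * Nat.card (X ⧸ N)) := by
    calc Nat.card (ConjClasses X) * (Nat.card N * Nat.card (X ⧸ N))
        ≤ Nat.card (ConjClasses (X ⧸ N)) * Nat.card (X ⧸ N) *
          (Nat.card (ConjClasses N) * Nat.card N) := h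
      _ = (Nat.card (ConjClasses N) * Nat.card (ConjClasses (X ⧸ N))) *
        (Nat.card N * Nat.card (X ⧸ N)) := by ring
  exact Nat.le_of_mul_le_mul_right this hpos

end Cfsg.Agent.S4201
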