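import Cfsg.Statements.S4203
-- import your own Cfsg.Agent.* helpers here
import Mathlib
import Cfsg.Agent.Lib.helper23.BurnsidePQ

set_option autoImplicit false
open Cfsg

namespace Cfsg.Agent.S4203

universe u

theorem coatom_comap {G : Type*} [Group G] (N : Subgroup G) [N.Normal]
    (M' : Subgroup (G ⧸ N)) (hM' : IsCoatom M') : IsCoatom (M'.comap (QuotientGroup.mk' N)) := by
  have hs : Function.Surjective (QuotientGroup.mk' N) := QuotientGroup.mk'_surjective N
  constructor
  · intro h
    apply hM'.1
    rw [← Subgroup.map_comap_eq_self_of_surjective hs M', h, ← MonoidHom.range_eq_map,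
      MonoidHom.range_eq_top]
    exact hs
  · intro L hL
    have hker : (QuotientGroup.mk' N).ker ≤ L := by
      refine le_trans ?_ hL.le
      intro x hx
      rw [Subgroup.mem_comap]
      rw [MonoidHom.mem_ker] at hx
      rw [hx]; exact one_mem _
    have h1 : M' < L.map (QuotientGroup.mk' N) := by
      rw [lt_iff_le_and_ne]
      constructor
      · rw [← Subgroup.map_comap_eq_self_of_surjective hs M']
        exact Subgroup.map_mono hL.le
      · intro heq
        have h2 : L = M'.comap (QuotientGroup.mk' N) := by
          rw [heq, Subgroup.comap_map_eq_self hker]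
        exact hL.ne h2.symm
    have h3 := hM'.2 _ h1
    rw [← Subgroup.comap_map_eq_self hker, h3, Subgroup.comap_top]

theorem two_three_card (n : ℕ) (hn : n ≠ 0) (h : ∀ q : ℕ, q.Prime → q ∣ n → q ≤ 3) :
    ∃ a b : ℕ, n = 2 ^ a * 3 ^ b := by
  obtain ⟨a, m, hm, hnm⟩ := Nat.exists_eq_pow_mul_and_not_dvd hn 2 (by norm_num)
  have hm0 : m ≠ 0 := by rintro rfl; simp at hm
  obtain ⟨b, m', hm', hmm'⟩ := Nat.exists_eq_pow_mul_and_not_dvd hm0 3 (by norm_num)
  have hm1 : m' = 1 := by
    rw [Nat.eq_one_iff_not_exists_prime_dvd]
    intro q hq hqm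
    have hqm1 : q ∣ m := by rw [hmm']; exact dvd_mul_of_dvd_right hqm _
    have hqn : q ∣ n := by rw [hnm]; exact dvd_mul_of_dvd_right hqm1 _
    have hq3 := h q hq hqn
    have hq2 := hq.two_le
    interval_cases q
    · exact hm hqm1
    · exact hm' hqm
  refine ⟨a, b, ?_⟩
  rw [hnm, hmm', hm1, mul_one]

theorem arith_aux (p q : ℕ) (hp : p.Prime) (hq : q.Prime) (hqp : q ≤ p)
    (h : q ≡ 1 [MOD p] ∨ q ^ 2 ≡ 1 [MOD p]) : p = 3 := by
  have hp2 := hp.two_le
  have hq2 := hq.two_le
  rcases h with h | h
  · exfalso
    rcases Nat.lt_or_ge q p with hlt | hge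
    · have h1 : q % p = 1 % p := h
      rw [Nat.mod_eq_of_lt hlt, Nat.mod_eq_of_lt (by omega)] at h1
      omega
    · have hqp' : q = p := le_antisymm hqp hge
      subst hqp'
      have h1 : q % q = 1 % q := h
      rw [Nat.mod_self, Nat.mod_eq_of_lt (by omega)] at h1
      omega
  · have h1 : p ∣ q ^ 2 - 1 := by
      have := (Nat.modEq_iff_dvd' (by nlinarith : 1 ≤ q ^ 2)).mp h.symm
      exact this
    have h2 : q ^ 2 - 1 = (q - 1) * (q + 1) := by
      obtain ⟨k, rfl⟩ : ∃ k, q = k + 1 := ⟨q - 1, by omega⟩
      simp only [Nat.add_sub_cancel]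
      have : (k + 1) ^ 2 = k * (k + 1 + 1) + 1 := by ring
      omega
    rw [h2] at h1
    rcases (Nat.Prime.dvd_mul hp).mp h1 with h3 | h3
    · exfalso
      have := Nat.le_of_dvd (by omega) h3
      omega
    · have h4 := Nat.le_of_dvd (by omega) h3
      have h5 : q + 1 = p := by
        rcases Nat.lt_or_ge q p with hlt | hge
        · omega
        · exfalso
          have hqp' : q = p := le_antisymm hqp hge
          subst hqp'
          have : q ∣ 1 := (Nat.dvd_add_right (dvd_refl q)).mp h3
          have := Nat.le_of_dvd (by omega) this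
          omega
      subst h5
      rcases hq.eq_two_or_odd with h6 | h6
      · omega
      · exfalso
        have h7 : 2 ∣ q + 1 := by omega
        have h8 := (Nat.prime_dvd_prime_iff_eq Nat.prime_two hp).mp h7
        omega

theorem hall_aux : ∀ n : ℕ, ∀ (G : Type u) [Group G] [Finite G], Nat.card G = n →
    (∀ M : Subgroup G, IsCoatom M → ∃ p : ℕ, p.Prime ∧ (M.index = p ∨ M.index = p ^ 2)) →
    Group.IsSolvable G := by
  intro n
  induction n using Nat.strong_induction_on with
  | _ n ih =>
    intro G _ _ hcard h
    by_cases h1 : Nat.card G = 1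
    · have : Subsingleton G := (Nat.card_eq_one_iff_unique.mp h1).1
      infer_instance
    have hpos : 0 < Nat.card G := Nat.card_pos
    have hne : (Nat.card G).primeFactors.Nonempty := by
      rw [Nat.nonempty_primeFactors]; omega
    obtain ⟨p, hpdef⟩ : ∃ p, p = (Nat.card G).primeFactors.max' hne := ⟨_, rfl⟩
    have hpmem : p ∈ (Nat.card G).primeFactors := by rw [hpdef]; exact Finset.max'_mem _ _
    have hpp : p.Prime := Nat.prime_of_mem_primeFactors hpmem
    have hpdvd : p ∣ Nat.card G := Nat.dvd_of_mem_primeFactors hpmem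
    have hpmax : ∀ q : ℕ, q.Prime → q ∣ Nat.card G → q ≤ p := by
      intro q hq hqd
      rw [hpdef]
      exact Finset.le_max' _ _ (Nat.mem_primeFactors.mpr ⟨hq, hqd, by omega⟩)
    have : Fact p.Prime := ⟨hpp⟩
    obtain ⟨P⟩ : Nonempty (Sylow p G) := Sylow.nonempty
    by_cases hPn : (P : Subgroup G).Normal
    · have hPcard : 1 < Nat.card (P : Subgroup G) := by
        rw [Sylow.card_eq_multiplicity]
        have hf : 0 < (Nat.card G).factorization p :=
          (hpp.factorization_pos_of_dvd (by omega) hpdvd)
        exact Nat.one_lt_pow (by omega) hpp.one_lt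
      have hlt : Nat.card (G ⧸ (P : Subgroup G)) < n := by
        rw [← hcard, Subgroup.card_eq_card_quotient_mul_card_subgroup (P : Subgroup G)]
        have hq : 0 < Nat.card (G ⧸ (P : Subgroup G)) := Nat.card_pos
        nlinarith
      have hq : Group.IsSolvable (G ⧸ (P : Subgroup G)) := by
        apply ih _ hlt (G ⧸ (P : Subgroup G)) rfl
        intro M' hM'
        obtain ⟨q, hq, hq'⟩ := h _ (coatom_comap (P : Subgroup G) M' hM')
        rw [Subgroup.index_comap_of_surjective M' (QuotientGroup.mk'_surjective _)] at hq'
        exact ⟨q, hq, hq'⟩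
      have hPs : Group.IsSolvable (P : Subgroup G) := by
        have := P.isPGroup'.isNilpotent
        infer_instance
      exact Group.isSolvable_of_ker_le_range (P : Subgroup G).subtype
        (QuotientGroup.mk' (P : Subgroup G)) (by
          rw [QuotientGroup.ker_mk', Subgroup.range_subtype])
    · have hNne : Subgroup.normalizer ((P : Subgroup G) : Set G) ≠ ⊤ := by
        intro h0
        exact hPn (Subgroup.normalizer_eq_top_iff.mp h0)
      obtain ⟨M, hM, hNM⟩ := (eq_top_or_exists_le_coatom _).resolve_left hNne
      have hPM : (P : Subgroup G) ≤ M := le_trans Subgroup.le_normalizer hNM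
      have hmod : M.index ≡ 1 [MOD p] := by
        have e1 : Nat.card (Sylow p G) = (Subgroup.normalizer ((P : Subgroup G) : Set G)).index :=
          Sylow.card_eq_index_normalizer P
        have e2 : Nat.card (Sylow p M)
            = (Subgroup.normalizer ((P : Subgroup G) : Set G)).relIndex M := by
          rw [Sylow.card_eq_index_normalizer (P.subtype hPM), Subgroup.relIndex,
            Subgroup.subgroupOf_normalizer_eq hPM]
          rfl
        have e3 := Subgroup.relIndex_mul_index hNM
        have m1 : Nat.card (Sylow p G) ≡ 1 [MOD p] := card_sylow_modEq_one p G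
        have m2 : Nat.card (Sylow p M) ≡ 1 [MOD p] := card_sylow_modEq_one p M
        rw [e1, ← e3] at m1
        rw [e2] at m2
        have m3 : (Subgroup.normalizer ((P : Subgroup G) : Set G)).relIndex M * M.index
            ≡ 1 * M.index [MOD p] := Nat.ModEq.mul_right _ m2
        rw [one_mul] at m3
        exact m3.symm.trans m1
      obtain ⟨q, hq, hq'⟩ := h M hM
      have hqdvd : q ∣ Nat.card G := by
        have hidx : M.index ∣ Nat.card G := Subgroup.index_dvd_card M
        rcases hq' with hq' | hq'
        · rw [hq'] at hidx; exact hidx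
        · rw [hq'] at hidx; exact dvd_trans (dvd_pow_self q (by norm_num)) hidx
      have hqp := hpmax q hq hqdvd
      have hp3 : p = 3 := by
        apply arith_aux p q hpp hq hqp
        rcases hq' with hq' | hq'
        · left; rw [← hq']; exact hmod
        · right; rw [← hq']; exact hmod
      obtain ⟨a, b, hab⟩ := two_three_card (Nat.card G) (by omega) (by
        intro r hr hrd
        rw [← hp3]; exact hpmax r hr hrd)
      exact Cfsg.Agent.Lib.helper23.burnside_paqb 2 3 a b Nat.prime_two Nat.prime_three hab

/-- A finite group in which every maximal subgroup has index a prime or the square of a prime is solvable. -/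
theorem result {G : Type*} [Group G] [Finite G] (h : ∀ M : Subgroup G, IsCoatom M → ∃ p : ℕ, p.Prime ∧ (M.index = p ∨ M.index = p ^ 2)) : Group.IsSolvable G := by
  exact hall_aux _ G rfl h

end Cfsg.Agent.S4203
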