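import Cfsg.Statements.S4204
-- import your own Cfsg.Agent.* helpers here

set_option autoImplicit false
open Cfsg

namespace Cfsg.Agent.S4204

open scoped commutatorElement

/-- the subgroup of `g` with `[g, N] ⊆ T`, for `T` normal -/
def commSub {G : Type*} [Group G] (N T : Subgroup G) [hT : T.Normal] : Subgroup G where
  carrier := {g | ∀ n ∈ N, ⁅g, n⁆ ∈ T}
  one_mem' := by
    intro n _
    rw [commutatorElement_one_left]
    exact T.one_mem
  mul_mem' := by
    intro a b ha hb n hn
    rw [commutatorElement_mul_left_eq_conj_mul]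
    exact T.mul_mem (hT.conj_mem _ (hb n hn) a) (ha n hn)
  inv_mem' := by
    intro a ha n hn
    rw [commutatorElement_inv_left]
    have h1 : ⁅n, a⁆ ∈ T := by
      rw [← commutatorElement_inv]
      exact T.inv_mem (ha n hn)
    have := hT.conj_mem _ h1 a⁻¹
    simpa using this

theorem le_commSub_iff {G : Type*} [Group G] (M N T : Subgroup G) [hT : T.Normal] :
    M ≤ commSub N T ↔ ⁅M, N⁆ ≤ T := by
  rw [Subgroup.commutator_le]
  exact Iff.rfl

theorem comm_iSup_le {G : Type*} [Group G] {ι : Sort*} (M : ι → Subgroup G) (N T : Subgroup G)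
    [hT : T.Normal] (h : ∀ i, ⁅M i, N⁆ ≤ T) : ⁅⨆ i, M i, N⁆ ≤ T := by
  rw [← le_commSub_iff]
  exact iSup_le fun i => (le_commSub_iff _ _ _).mpr (h i)

theorem comm_sup_le {G : Type*} [Group G] (M N₁ N₂ T : Subgroup G)
    [hT : T.Normal] (h₁ : ⁅M, N₁⁆ ≤ T) (h₂ : ⁅M, N₂⁆ ≤ T) : ⁅M, N₁ ⊔ N₂⁆ ≤ T := by
  rw [Subgroup.commutator_comm, ← le_commSub_iff]
  refine sup_le ?_ ?_
  · rw [le_commSub_iff, Subgroup.commutator_comm]; exact h₁
  · rw [le_commSub_iff, Subgroup.commutator_comm]; exact h₂

theorem lcs_normal {G : Type*} [Group G] (H : Subgroup G) [H.Normal] (n : ℕ) :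
    (H.lowerCentralSeries n).Normal := by
  induction n with
  | zero => exact ‹H.Normal›
  | succ n ih =>
    rw [Subgroup.lowerCentralSeries_succ]
    exact Subgroup.commutator_normal _ _

/-- shifted lower central series: `sh H 0 = ⊤`, `sh H (i+1) = L_i(H)` -/
def sh {G : Type*} [Group G] (H : Subgroup G) : ℕ → Subgroup G
  | 0 => ⊤
  | (i+1) => H.lowerCentralSeries i

theorem sh_normal {G : Type*} [Group G] (H : Subgroup G) [H.Normal] (n : ℕ) : (sh H n).Normal := by
  cases n with
  | zero => exact Subgroup.normal_top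
  | succ n => exact lcs_normal H n

theorem sh_comm_le {G : Type*} [Group G] (H : Subgroup G) [H.Normal] (n : ℕ) :
    ⁅sh H n, H⁆ ≤ sh H (n+1) := by
  cases n with
  | zero => exact Subgroup.commutator_le_right _ _
  | succ n => exact le_of_eq rfl

theorem sh_eq_bot {G : Type*} [Group G] (H : Subgroup G) (c n : ℕ)
    (hc : H.lowerCentralSeries c = ⊥) (hn : c + 1 ≤ n) : sh H n = ⊥ := by
  obtain ⟨m, rfl⟩ : ∃ m, n = m + 1 := ⟨n - 1, by omega⟩
  rw [eq_bot_iff, ← hc]
  exact H.lowerCentralSeries_antitone (by omega)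

theorem fitting_aux {G : Type*} [Group G] (H K : Subgroup G) [H.Normal] [K.Normal] (n : ℕ) :
    (H ⊔ K).lowerCentralSeries n ≤ ⨆ i : Fin (n + 2), sh H i ⊓ sh K (n + 1 - i) := by
  have hsn : ∀ i, (sh H i).Normal := sh_normal H
  have hkn : ∀ i, (sh K i).Normal := sh_normal K
  have hTn : ∀ n, (⨆ i : Fin (n + 2), sh H i ⊓ sh K (n + 1 - i)).Normal := by
    intro n
    have : ∀ i : Fin (n + 2), (sh H i ⊓ sh K (n + 1 - i)).Normal := fun i =>
      Subgroup.normal_inf_normal _ _
    exact Subgroup.iSup_normal _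
  induction n with
  | zero =>
    refine sup_le ?_ ?_
    · refine le_trans ?_ (le_iSup _ (⟨1, by omega⟩ : Fin 2))
      show H ≤ H ⊓ ⊤
      simp
    · refine le_trans ?_ (le_iSup _ (⟨0, by omega⟩ : Fin 2))
      show K ≤ ⊤ ⊓ K
      simp
  | succ n ih =>
    rw [Subgroup.lowerCentralSeries_succ]
    refine le_trans (Subgroup.commutator_mono ih le_rfl) ?_
    have := hTn (n + 1)
    apply comm_iSup_le
    intro i
    have := hsn (i : ℕ)
    have := hkn (n + 1 - (i : ℕ))
    apply comm_sup_le
    · refine le_trans ?_ (le_iSup _ (⟨(i : ℕ) + 1, by omega⟩ : Fin (n + 1 + 2)))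
      refine le_inf ?_ ?_
      · exact le_trans (Subgroup.commutator_mono inf_le_left le_rfl) (sh_comm_le H i)
      · have h1 : n + 1 + 1 - ((i : ℕ) + 1) = n + 1 - (i : ℕ) := by omega
        show _ ≤ sh K (n + 1 + 1 - ((i : ℕ) + 1))
        rw [h1]
        exact le_trans (Subgroup.commutator_mono inf_le_right le_rfl) (Subgroup.commutator_le_left _ _)
    · refine le_trans ?_ (le_iSup _ (⟨(i : ℕ), by omega⟩ : Fin (n + 1 + 2)))
      refine le_inf ?_ ?_
      · exact le_trans (Subgroup.commutator_mono inf_le_left le_rfl) (Subgroup.commutator_le_left _ _)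
      · have h1 : n + 1 + 1 - (i : ℕ) = (n + 1 - (i : ℕ)) + 1 := by have := i.2; omega
        show _ ≤ sh K (n + 1 + 1 - (i : ℕ))
        rw [h1]
        exact le_trans (Subgroup.commutator_mono inf_le_right le_rfl) (sh_comm_le K _)

/-- If `H` and `K` are normal subgroups of a finite group with `H` nilpotent of class at most `c` and `K` nilpotent of class at most `d` (the terms with index `c`, respectively `d`, of their lower central series are trivial, indices starting at `0`), then `HK` is nilpotent of class at most `c + d`. -/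
theorem result {G : Type*} [Group G] [Finite G] (H K : Subgroup G) [H.Normal] [K.Normal] (c d : ℕ) (hH : H.lowerCentralSeries c = ⊥) (hK : K.lowerCentralSeries d = ⊥) : (H ⊔ K).lowerCentralSeries (c + d) = ⊥ := by
  rw [eq_bot_iff]
  refine le_trans (fitting_aux H K (c + d)) ?_
  apply iSup_le
  intro i
  by_cases hi : c + 1 ≤ (i : ℕ)
  · rw [sh_eq_bot H c i hH hi]; simp
  · rw [sh_eq_bot K d _ hK (by omega)]; simp

end Cfsg.Agent.S4204
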