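import Cfsg.Statements.S4211
-- import your own Cfsg.Agent.* helpers here
import Cfsg.Agent.Lib.helper1.Quat

set_option autoImplicit false
open Cfsg

namespace Cfsg.Agent.S4211

theorem cpow {G : Type*} [Group G] {x y c : G} (h : x * y = c * y * x) (hx : Commute c x)
    (_hy : Commute c y) (n : ℕ) : x ^ n * y = c ^ n * y * x ^ n := by
  induction n with
  | zero => simp
  | succ n ih =>
    have h1 : x * c ^ n = c ^ n * x := ((hx.pow_left n).eq).symm
    calc x ^ (n + 1) * y = x * (x ^ n * y) := by rw [pow_succ', mul_assoc]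
      _ = x * (c ^ n * y * x ^ n) := by rw [ih]
      _ = (x * c ^ n) * y * x ^ n := by simp only [mul_assoc]
      _ = c ^ n * (x * y) * x ^ n := by rw [h1]; simp only [mul_assoc]
      _ = c ^ n * (c * y * x) * x ^ n := by rw [h]
      _ = c ^ (n + 1) * y * x ^ (n + 1) := by rw [pow_succ, pow_succ']; simp only [mul_assoc]

theorem mul_pow_c {G : Type*} [Group G] {x y c : G} (h : y * x = c * x * y) (hx : Commute c x)
    (hy : Commute c y) (n : ℕ) : (x * y) ^ n = x ^ n * y ^ n * c ^ (n.choose 2) := by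
  induction n with
  | zero => simp
  | succ n ih =>
    have h1 := cpow h hy hx n
    have hc : Commute (c ^ (n.choose 2)) (x * y) := (hx.mul_right hy).pow_left _
    have h4 : x ^ n * c ^ n = c ^ n * x ^ n := ((hx.pow_pow n n).eq).symm
    have h5 : (n + 1).choose 2 = n + n.choose 2 := by
      rw [Nat.choose_succ_succ, Nat.choose_one_right]
    have hcX : Commute (c ^ n) (x ^ n * (x * y ^ n * y)) :=
      ((hx.pow_right n).mul_right ((hx.mul_right (hy.pow_right n)).mul_right hy)).pow_left n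
    calc (x * y) ^ (n + 1) = (x * y) ^ n * (x * y) := pow_succ _ _
      _ = x ^ n * y ^ n * c ^ (n.choose 2) * (x * y) := by rw [ih]
      _ = x ^ n * (y ^ n * x) * y * c ^ (n.choose 2) := by
          rw [mul_assoc (x ^ n * y ^ n), hc.eq]; simp only [mul_assoc]
      _ = x ^ n * (c ^ n * x * y ^ n) * y * c ^ (n.choose 2) := by rw [h1]
      _ = (x ^ n * c ^ n) * (x * y ^ n * y) * c ^ (n.choose 2) := by simp only [mul_assoc]
      _ = c ^ n * (x ^ n * (x * y ^ n * y)) * c ^ (n.choose 2) := by rw [h4]; simp only [mul_assoc]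
      _ = (x ^ n * (x * y ^ n * y)) * c ^ n * c ^ (n.choose 2) := by rw [hcX.eq]
      _ = x ^ (n + 1) * y ^ (n + 1) * c ^ ((n + 1).choose 2) := by
          rw [h5, pow_add c, pow_succ x, pow_succ y]; simp only [mul_assoc]

theorem cyc_p {G : Type*} [Group G] [Finite G] {p A : ℕ} (hp : p.Prime) {z c : G}
    (hz : orderOf z = p ^ (A + 1)) (hc : c ∈ Subgroup.zpowers z) (hco : orderOf c = p) :
    z ^ (p ^ A) ∈ Subgroup.zpowers c ∧ c ∈ Subgroup.zpowers (z ^ (p ^ A)) := by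
  obtain ⟨k, hk⟩ := (Submonoid.mem_powers_iff _ _).mp ((mem_powers_iff_mem_zpowers).mpr hc)
  have hcp : c ^ p = 1 := by rw [← hco]; exact pow_orderOf_eq_one c
  have h1 : z ^ (k * p) = 1 := by rw [pow_mul, hk, hcp]
  have h2 : p ^ (A + 1) ∣ k * p := by rw [← hz]; exact orderOf_dvd_of_pow_eq_one h1
  have h3 : p ^ A ∣ k := by
    rw [pow_succ] at h2
    exact (Nat.mul_dvd_mul_iff_right hp.pos).mp h2
  obtain ⟨k', rfl⟩ := h3
  have hcZ : c = (z ^ (p ^ A)) ^ k' := by rw [← pow_mul, hk]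
  have hZp : (z ^ (p ^ A)) ^ p = 1 := by
    rw [← pow_mul, ← pow_succ, ← hz]; exact pow_orderOf_eq_one z
  have hpk : ¬ p ∣ k' := by
    rintro ⟨k'', rfl⟩
    have : c = 1 := by rw [hcZ, pow_mul, hZp, one_pow]
    rw [this, orderOf_one] at hco
    exact hp.one_lt.ne hco
  have hcop : Nat.Coprime k' p := (Nat.Prime.coprime_iff_not_dvd hp).mpr hpk |>.symm
  obtain ⟨m, -, hm⟩ := Nat.exists_mul_mod_eq_one_of_coprime hcop hp.one_lt
  refine ⟨?_, ?_⟩
  · have : z ^ (p ^ A) = c ^ m := by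
      rw [hcZ, ← pow_mul, pow_eq_pow_mod (k' * m) hZp, hm, pow_one]
    rw [this]
    exact Subgroup.pow_mem _ (Subgroup.mem_zpowers c) m
  · rw [hcZ]
    exact Subgroup.pow_mem _ (Subgroup.mem_zpowers _) k'

theorem comm_of_mem_zpowers {G : Type*} [Group G] {x y : G} (h : y ∈ Subgroup.zpowers x) :
    x * y = y * x := by
  obtain ⟨k, rfl⟩ := Subgroup.mem_zpowers_iff.mp h
  exact ((Commute.refl x).zpow_right k).eq

theorem key {G : Type*} [Group G] [Finite G] (hn : ∀ K : Subgroup G, K.Normal) (H : Subgroup G)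
    (x y : G) (hx : x ∈ H) (hy : y ∈ H) (hxy : x * y ≠ y * x)
    (hmin : ∀ x' ∈ H, ∀ y' ∈ H, x' * y' ≠ y' * x' →
      orderOf x + orderOf y ≤ orderOf x' + orderOf y')
    (hle : orderOf y ≤ orderOf x) :
    orderOf x = 4 ∧ y * y = x ^ 2 ∧ y * x * y⁻¹ = x⁻¹ ∧ y ∉ Subgroup.zpowers x := by
  obtain ⟨c, hcdef⟩ : ∃ c : G, c = x * y * x⁻¹ * y⁻¹ := ⟨_, rfl⟩
  have hcx : c ∈ Subgroup.zpowers x := by
    have h1 : y * x⁻¹ * y⁻¹ ∈ Subgroup.zpowers x :=
      (hn _).conj_mem x⁻¹ (inv_mem (Subgroup.mem_zpowers x)) y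
    have h2 : c = x * (y * x⁻¹ * y⁻¹) := by rw [hcdef]; group
    rw [h2]; exact mul_mem (Subgroup.mem_zpowers x) h1
  have hcy : c ∈ Subgroup.zpowers y := by
    have h1 : x * y * x⁻¹ ∈ Subgroup.zpowers y :=
      (hn _).conj_mem y (Subgroup.mem_zpowers y) x
    rw [hcdef]; exact mul_mem h1 (inv_mem (Subgroup.mem_zpowers y))
  have hCx : Commute c x := (comm_of_mem_zpowers hcx).symm
  have hCy : Commute c y := (comm_of_mem_zpowers hcy).symm
  have hc1 : c ≠ 1 := by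
    intro h
    apply hxy
    rw [hcdef] at h
    have : x * y * x⁻¹ * y⁻¹ * (y * x) = y * x := by rw [h, one_mul]
    rw [← this]; group
  have hrel : x * y = c * y * x := by rw [hcdef]; group
  have hrel' : y * x = c⁻¹ * x * y := by rw [hcdef]; group
  have hfin : ∀ g : G, 0 < orderOf g := fun g => orderOf_pos g
  have hstep : ∀ q : ℕ, q.Prime → q ∣ orderOf x → c ^ q = 1 := by
    intro q hq hdvd
    have ho : orderOf (x ^ q) < orderOf x := by
      rw [orderOf_pow_of_dvd hq.ne_zero hdvd]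
      exact Nat.div_lt_self (hfin x) hq.one_lt
    have hcomm : x ^ q * y = y * x ^ q := by
      by_contra hne
      have := hmin (x ^ q) (pow_mem hx q) y hy hne
      omega
    have h1 := cpow hrel hCx hCy q
    rw [hcomm] at h1
    have h2 : 1 * (y * x ^ q) = c ^ q * (y * x ^ q) := by rw [one_mul, ← mul_assoc]; exact h1
    exact (mul_right_cancel h2).symm
  have hstep' : ∀ q : ℕ, q.Prime → q ∣ orderOf y → c ^ q = 1 := by
    intro q hq hdvd
    have ho : orderOf (y ^ q) < orderOf y := by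
      rw [orderOf_pow_of_dvd hq.ne_zero hdvd]
      exact Nat.div_lt_self (hfin y) hq.one_lt
    have hcomm : y ^ q * x = x * y ^ q := by
      by_contra hne
      have := hmin x hx (y ^ q) (pow_mem hy q) (fun h => hne h.symm)
      omega
    have h1 := cpow hrel' hCy.inv_left hCx.inv_left q
    rw [hcomm] at h1
    have h2 : 1 * (x * y ^ q) = c⁻¹ ^ q * (x * y ^ q) := by rw [one_mul, ← mul_assoc]; exact h1
    have h3 := (mul_right_cancel h2).symm
    rwa [inv_pow, inv_eq_one] at h3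
  have hx1 : orderOf x ≠ 1 := by
    intro h
    rw [orderOf_eq_one_iff] at h
    apply hxy; rw [h, one_mul, mul_one]
  have hy1 : orderOf y ≠ 1 := by
    intro h
    rw [orderOf_eq_one_iff] at h
    apply hxy; rw [h, one_mul, mul_one]
  have hprime : ∀ q : ℕ, q.Prime → c ^ q = 1 → q = orderOf c := by
    intro q hq h
    have := orderOf_dvd_of_pow_eq_one h
    rcases (Nat.dvd_prime hq).mp this with h1 | h1
    · rw [orderOf_eq_one_iff] at h1; exact absurd h1 hc1
    · exact h1.symm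
  obtain ⟨p, hpdef⟩ : ∃ p : ℕ, p = orderOf c := ⟨_, rfl⟩
  have hp : p.Prime := by
    obtain ⟨q, hq, hdvd⟩ := Nat.exists_prime_and_dvd hx1
    rw [hpdef, ← hprime q hq (hstep q hq hdvd)]; exact hq
  obtain ⟨A', hA'⟩ : ∃ A', orderOf x = p ^ A' :=
    ⟨_, Nat.eq_prime_pow_of_unique_prime_dvd (hfin x).ne' (fun {d} hd hdvd => by
      rw [hpdef]; exact hprime d hd (hstep d hd hdvd))⟩
  obtain ⟨B', hB'⟩ : ∃ B', orderOf y = p ^ B' :=
    ⟨_, Nat.eq_prime_pow_of_unique_prime_dvd (hfin y).ne' (fun {d} hd hdvd => by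
      rw [hpdef]; exact hprime d hd (hstep' d hd hdvd))⟩
  have hA0 : A' ≠ 0 := by rintro rfl; exact hx1 (by rw [hA', pow_zero])
  have hB0 : B' ≠ 0 := by rintro rfl; exact hy1 (by rw [hB', pow_zero])
  obtain ⟨A, rfl⟩ := Nat.exists_eq_succ_of_ne_zero hA0
  obtain ⟨B, rfl⟩ := Nat.exists_eq_succ_of_ne_zero hB0
  have hBA : B ≤ A := by
    rw [hA', hB'] at hle
    have := (Nat.pow_le_pow_iff_right hp.one_lt).mp hle
    omega
  obtain ⟨hXc, hcX⟩ := cyc_p hp hA' hcx hpdef.symm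
  obtain ⟨hYc, hcY⟩ := cyc_p hp hB' hcy hpdef.symm
  have hynot : y ∉ Subgroup.zpowers x := fun h => hxy (comm_of_mem_zpowers h)
  have hB1 : B ≠ 0 := by
    rintro rfl
    rw [pow_zero, pow_one] at hYc
    apply hynot
    exact (Subgroup.zpowers_le.mpr hcx) hYc
  have hYX : (y ^ (p ^ B))⁻¹ ∈ Subgroup.zpowers (x ^ (p ^ A)) :=
    inv_mem ((Subgroup.zpowers_le.mpr hcX) hYc)
  obtain ⟨j, hj⟩ := (Submonoid.mem_powers_iff _ _).mp ((mem_powers_iff_mem_zpowers).mpr hYX)
  obtain ⟨n, hndef⟩ : ∃ n : ℕ, n = p ^ (A - B) * j := ⟨_, rfl⟩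
  obtain ⟨v, hvdef⟩ : ∃ v : G, v = x ^ n := ⟨_, rfl⟩
  have hvH : v ∈ H := by rw [hvdef]; exact pow_mem hx n
  have hvN : v ^ (p ^ B) = (y ^ (p ^ B))⁻¹ := by
    rw [hvdef, ← hj, ← pow_mul, ← pow_mul, hndef]
    congr 1
    have : p ^ A = p ^ (A - B) * p ^ B := by rw [← pow_add, Nat.sub_add_cancel hBA]
    rw [this]; ring
  obtain ⟨d, hddef⟩ : ∃ d : G, d = c ^ n := ⟨_, rfl⟩
  have hvy : v * y = d * y * v := by rw [hvdef, hddef]; exact cpow hrel hCx hCy n
  have hdy : Commute d y := by rw [hddef]; exact hCy.pow_left n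
  have hdv : Commute d v := by rw [hddef, hvdef]; exact hCx.pow_pow n n
  have hw := mul_pow_c hvy hdy hdv (p ^ B)
  rw [hvN, mul_inv_cancel, one_mul, hddef, ← pow_mul] at hw
  have hwH : y * v ∈ H := mul_mem hy hvH
  have hxw : x * (y * v) ≠ (y * v) * x := by
    intro h
    apply hxy
    have hxv : x * v = v * x := by rw [hvdef]; exact ((Commute.refl x).pow_right n).eq
    have : x * y * v = y * x * v := by rw [mul_assoc, h, mul_assoc, mul_assoc, hxv]
    exact mul_right_cancel this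
  have hcp : c ^ p = 1 := by rw [hpdef]; exact pow_orderOf_eq_one c
  have hcontra : p ∣ n * (p ^ B).choose 2 → False := by
    rintro ⟨t, ht⟩
    rw [ht, pow_mul, hcp, one_pow] at hw
    have h1 : orderOf (y * v) ∣ p ^ B := orderOf_dvd_of_pow_eq_one hw
    have h2 : orderOf (y * v) ≤ p ^ B := Nat.le_of_dvd (pow_pos hp.pos B) h1
    have h3 := hmin x hx (y * v) hwH hxw
    have h4 : p ^ B < p ^ (B + 1) := Nat.pow_lt_pow_right hp.one_lt (Nat.lt_succ_self B)
    rw [hB'] at h3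
    exact absurd (h4.trans_le ((Nat.le_of_add_le_add_left h3).trans h2)) (lt_irrefl _)
  have hch : (p ^ B).choose 2 * 2 = p ^ B * (p ^ B - 1) := by
    obtain ⟨N, hN⟩ : ∃ N, p ^ B = N + 1 := Nat.exists_eq_succ_of_ne_zero (pow_pos hp.pos B).ne'
    rw [hN, Nat.add_sub_cancel]
    have := Nat.add_one_mul_choose_eq N 1
    rw [Nat.choose_one_right] at this
    exact this.symm
  have hAB : A = B := by
    by_contra hne
    have hlt : B < A := lt_of_le_of_ne hBA (Ne.symm hne)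
    apply hcontra
    rw [hndef]
    have : p ∣ p ^ (A - B) := dvd_pow_self p (by omega)
    exact Dvd.dvd.mul_right (Dvd.dvd.mul_right this j) _
  have hp2 : p = 2 := by
    by_contra hne
    apply hcontra
    have hcop : Nat.Coprime p 2 := (Nat.coprime_primes hp Nat.prime_two).mpr hne
    have h1 : p ∣ (p ^ B).choose 2 * 2 := by
      rw [hch]; exact Dvd.dvd.mul_right (dvd_pow_self p hB1) _
    exact Dvd.dvd.mul_left (hcop.dvd_of_dvd_mul_right h1) _
  subst hp2
  have hB2 : B = 1 := by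
    by_contra hne
    apply hcontra
    obtain ⟨B2, rfl⟩ : ∃ B2, B = B2 + 2 := ⟨B - 2, by omega⟩
    have hK : 2 ^ (B2 + 2) = 4 * 2 ^ B2 := by rw [pow_add]; ring
    have h1 : (2 ^ (B2 + 2)).choose 2 * 2 = (2 * (2 ^ B2 * (2 ^ (B2 + 2) - 1))) * 2 := by
      rw [hch]
      have : 2 * (2 ^ B2 * (2 ^ (B2 + 2) - 1)) * 2 = (4 * 2 ^ B2) * (2 ^ (B2 + 2) - 1) := by ring
      rw [this, ← hK]
    have h2 : (2 ^ (B2 + 2)).choose 2 = 2 * (2 ^ B2 * (2 ^ (B2 + 2) - 1)) :=
      Nat.eq_of_mul_eq_mul_right (by norm_num) h1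
    exact Dvd.dvd.mul_left ⟨_, h2⟩ _
  have hox : orderOf x = 4 := by rw [hA', hAB, hB2]; norm_num
  have hoy : orderOf y = 4 := by rw [hB', hB2]; norm_num
  have hsq : ∀ u : G, u ∈ Subgroup.zpowers c → u = 1 ∨ u = c := by
    intro u hu
    obtain ⟨k, rfl⟩ := Subgroup.mem_zpowers_iff.mp hu
    rcases Int.even_or_odd' k with ⟨m, rfl | rfl⟩
    · left; rw [zpow_mul, zpow_ofNat, hcp, one_zpow]
    · right; rw [zpow_add, zpow_mul, zpow_ofNat, hcp, one_zpow, one_mul, zpow_one]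
  have hx2 : x ^ 2 = c := by
    have h := hXc
    rw [hAB, hB2, pow_one] at h
    rcases hsq _ h with h1 | h1
    · exfalso
      have := orderOf_dvd_of_pow_eq_one h1
      rw [hox] at this; norm_num at this
    · exact h1
  have hy2 : y ^ 2 = c := by
    have h := hYc
    rw [hB2, pow_one] at h
    rcases hsq _ h with h1 | h1
    · exfalso
      have := orderOf_dvd_of_pow_eq_one h1
      rw [hoy] at this; norm_num at this
    · exact h1
  refine ⟨hox, by rw [← pow_two, hy2, hx2], ?_, hynot⟩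
  calc y * x * y⁻¹ = c⁻¹ * x * y * y⁻¹ := by rw [hrel']
    _ = c⁻¹ * x := by group
    _ = (x ^ 2)⁻¹ * x := by rw [hx2]
    _ = x⁻¹ := by rw [pow_two]; group

theorem exists_q8 {G : Type*} [Group G] [Finite G] (hn : ∀ K : Subgroup G, K.Normal)
    (H : Subgroup G) (a b : G) (ha : a ∈ H) (hb : b ∈ H) (hab : a * b ≠ b * a) :
    ∃ x ∈ H, ∃ y ∈ H, orderOf x = 4 ∧ y * y = x ^ 2 ∧ y * x * y⁻¹ = x⁻¹ ∧
      y ∉ Subgroup.zpowers x := by
  classical
  have hex : ∃ n : ℕ, ∃ x ∈ H, ∃ y ∈ H, x * y ≠ y * x ∧ orderOf x + orderOf y = n :=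
    ⟨_, a, ha, b, hb, hab, rfl⟩
  obtain ⟨x, hx, y, hy, hxy, hsum⟩ := Nat.find_spec hex
  have hmin : ∀ x' ∈ H, ∀ y' ∈ H, x' * y' ≠ y' * x' →
      orderOf x + orderOf y ≤ orderOf x' + orderOf y' := by
    intro x' hx' y' hy' hne
    by_contra hlt
    push Not at hlt
    rw [hsum] at hlt
    exact Nat.find_min hex hlt ⟨x', hx', y', hy', hne, rfl⟩
  rcases le_total (orderOf y) (orderOf x) with hle | hle
  · exact ⟨x, hx, y, hy, key hn H x y hx hy hxy hmin hle⟩
  · refine ⟨y, hy, x, hx, key hn H y x hy hx (fun h => hxy h.symm) ?_ hle⟩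
    intro x' hx' y' hy' hne
    have := hmin x' hx' y' hy' hne
    omega

theorem conj4 {G : Type*} [Group G] [Finite G] (hn : ∀ K : Subgroup G, K.Normal) (t g : G)
    (h4 : t ^ 4 = 1) (h2 : t ^ 2 ≠ 1) : g * t * g⁻¹ = t ∨ g * t * g⁻¹ = t⁻¹ := by
  have hmem : g * t * g⁻¹ ∈ Subgroup.zpowers t := (hn _).conj_mem t (Subgroup.mem_zpowers t) g
  obtain ⟨k, hk⟩ := (Submonoid.mem_powers_iff _ _).mp ((mem_powers_iff_mem_zpowers).mpr hmem)
  have hk' : t ^ (k % 4) = g * t * g⁻¹ := by rw [← hk]; exact (pow_eq_pow_mod k h4).symm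
  have hlt : k % 4 < 4 := Nat.mod_lt _ (by norm_num)
  have hsq : (g * t * g⁻¹) ^ 2 ≠ 1 := by
    rw [conj_pow, Ne, conj_eq_one_iff]; exact h2
  obtain ⟨r, hr⟩ : ∃ r, r = k % 4 := ⟨_, rfl⟩
  rw [← hr] at hk' hlt
  interval_cases r
  · exfalso; apply hsq; rw [← hk', pow_zero, one_pow]
  · left; rw [← hk', pow_one]
  · exfalso; apply hsq; rw [← hk', ← pow_mul]; exact h4
  · right; rw [← hk']
    exact eq_inv_of_mul_eq_one_left (by rw [← pow_succ]; exact h4)

open scoped Pointwise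

/-- A finite non-abelian group in which every subgroup is normal is the internal direct product of a subgroup isomorphic to the quaternion group of order `8`, an elementary abelian `2`-subgroup and an abelian subgroup of odd order. -/
theorem result {G : Type*} [Group G] [Finite G] (hna : ¬ IsMulCommutative G) (hn : ∀ H : Subgroup G, H.Normal) : ∃ Q E A : Subgroup G, Nonempty (Q ≃* QuaternionGroup 2) ∧ Cfsg.IsElementaryAbelian 2 E ∧ IsMulCommutative A ∧ Odd (Nat.card A) ∧ E ⊓ A = ⊥ ∧ Q ⊓ (E ⊔ A) = ⊥ ∧ Q ⊔ (E ⊔ A) = ⊤ := by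
  classical
  obtain ⟨a, b, hab⟩ : ∃ a b : G, a * b ≠ b * a := by
    by_contra h
    push Not at h
    exact hna ⟨⟨h⟩⟩
  obtain ⟨x, -, y, -, hox, hyy, hconj, hynot⟩ :=
    exists_q8 hn ⊤ a b (Subgroup.mem_top _) (Subgroup.mem_top _) hab
  have hx4 : x ^ 4 = 1 := by rw [← hox]; exact pow_orderOf_eq_one x
  have hx2 : x ^ 2 ≠ 1 := by
    intro h
    have := orderOf_dvd_of_pow_eq_one h
    rw [hox] at this; norm_num at this
  have hxy : x * y ≠ y * x := by
    intro h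
    apply hx2
    have h1 : y * x * y⁻¹ = x := by rw [← h]; group
    rw [hconj] at h1
    calc x ^ 2 = x * x := pow_two x
      _ = x⁻¹ * x := by rw [h1]
      _ = 1 := inv_mul_cancel x
  obtain ⟨z, hz⟩ : ∃ z : G, z = x ^ 2 := ⟨_, rfl⟩
  have hz1 : z ≠ 1 := by rw [hz]; exact hx2
  have hzz : z ^ 2 = 1 := by rw [hz, ← pow_mul]; exact hx4
  have hy2 : y ^ 2 = z := by rw [pow_two, hyy, hz]
  have hy4 : y ^ 4 = 1 := by
    have : y ^ 4 = (y ^ 2) ^ 2 := by rw [← pow_mul]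
    rw [this, hy2, hzz]
  have hy2' : y ^ 2 ≠ 1 := by rw [hy2]; exact hz1
  have h1 : y * x = x⁻¹ * y := by
    calc y * x = (y * x * y⁻¹) * y := by group
      _ = x⁻¹ * y := by rw [hconj]
  have hconj' : x * y * x⁻¹ = y⁻¹ := by
    apply eq_inv_of_mul_eq_one_right
    calc y * (x * y * x⁻¹) = (y * x) * y * x⁻¹ := by group
      _ = x⁻¹ * y * y * x⁻¹ := by rw [h1]
      _ = x⁻¹ * (y * y) * x⁻¹ := by group
      _ = x⁻¹ * (x * x) * x⁻¹ := by rw [hyy, pow_two]
      _ = 1 := by group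
  have hρ : x ^ (2 * 2) = 1 := hx4
  obtain ⟨f, hf⟩ : ∃ f : QuaternionGroup 2 →* G,
      f = Cfsg.Agent.Lib.helper1.quatHom y x 2 hρ hyy hconj := ⟨_, rfl⟩
  have hinj : Function.Injective f := by
    rw [hf]
    exact Cfsg.Agent.Lib.helper1.quatHom_injective y x 2 hρ hyy hconj (by rw [hox]) hynot
  have hxQ : x ∈ f.range := by
    refine ⟨QuaternionGroup.a 1, ?_⟩
    rw [hf, Cfsg.Agent.Lib.helper1.quatHom_a]
    have := Cfsg.Agent.Lib.helper1.zpowMod_natCast x (2 * 2) hρ 1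
    rw [Nat.cast_one, pow_one] at this
    exact this
  have hyQ : y ∈ f.range := by
    refine ⟨QuaternionGroup.xa 0, ?_⟩
    rw [hf, Cfsg.Agent.Lib.helper1.quatHom_xa, Cfsg.Agent.Lib.helper1.zpowMod_zero, mul_one]
  have hQel : ∀ g ∈ f.range, g ∈ Subgroup.zpowers x ∨ ∃ t ∈ Subgroup.zpowers x, g = y * t := by
    rintro g ⟨q, rfl⟩
    rw [hf]
    cases q with
    | a i => left; exact Cfsg.Agent.Lib.helper1.zpowMod_mem_zpowers x _ hρ i
    | xa i => right; exact ⟨_, Cfsg.Agent.Lib.helper1.zpowMod_mem_zpowers x _ hρ i, rfl⟩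
  obtain ⟨C, hC⟩ : ∃ C : Subgroup G, ∀ g, g ∈ C ↔ g * x = x * g ∧ g * y = y * g := by
    refine ⟨Subgroup.centralizer ({x, y} : Set G), fun g => ?_⟩
    rw [Subgroup.mem_centralizer_iff]
    constructor
    · intro h; exact ⟨(h x (by simp)).symm, (h y (by simp)).symm⟩
    · rintro ⟨h1, h2⟩ u hu
      rcases hu with rfl | rfl
      · exact h1.symm
      · exact h2.symm
  have hQC : ∀ g : G, ∃ q ∈ f.range, ∃ c ∈ C, g = q * c := by
    intro g
    have hk : ∀ q ∈ f.range, g * x * g⁻¹ = q * x * q⁻¹ → g * y * g⁻¹ = q * y * q⁻¹ →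
        ∃ q ∈ f.range, ∃ c ∈ C, g = q * c := by
      intro q hq e1 e2
      refine ⟨q, hq, q⁻¹ * g, (hC _).mpr ⟨?_, ?_⟩, by group⟩
      · calc q⁻¹ * g * x = q⁻¹ * (g * x * g⁻¹) * g := by group
          _ = q⁻¹ * (q * x * q⁻¹) * g := by rw [e1]
          _ = x * (q⁻¹ * g) := by group
      · calc q⁻¹ * g * y = q⁻¹ * (g * y * g⁻¹) * g := by group
          _ = q⁻¹ * (q * y * q⁻¹) * g := by rw [e2]
          _ = y * (q⁻¹ * g) := by group
    rcases conj4 hn x g hx4 hx2 with e1 | e1 <;> rcases conj4 hn y g hy4 hy2' with e2 | e2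
    · exact hk 1 (one_mem _) (by rw [e1]; group) (by rw [e2]; group)
    · exact hk x hxQ (by rw [e1]; group) (by rw [e2, hconj'])
    · exact hk y hyQ (by rw [e1, hconj]) (by rw [e2]; group)
    · refine hk (x * y) (mul_mem hxQ hyQ) ?_ ?_
      · rw [e1]
        calc x⁻¹ = x * x⁻¹ * x⁻¹ := by group
          _ = x * (y * x * y⁻¹) * x⁻¹ := by rw [hconj]
          _ = x * y * x * (x * y)⁻¹ := by group
      · rw [e2]
        calc y⁻¹ = x * y * x⁻¹ := hconj'.symm
          _ = x * y * y * (x * y)⁻¹ := by group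
  have hno4 : ∀ g ∈ C, g ^ 4 = 1 → g ^ 2 = 1 := by
    intro g hg hg4
    obtain ⟨hgx, hgy⟩ := (hC g).mp hg
    have hcomm : Commute g y := hgy
    have hmem : x * (g * y) * x⁻¹ ∈ Subgroup.zpowers (g * y) :=
      (hn _).conj_mem (g * y) (Subgroup.mem_zpowers _) x
    have hxw : x * (g * y) * x⁻¹ = g * y⁻¹ := by
      calc x * (g * y) * x⁻¹ = (x * g) * y * x⁻¹ := by group
        _ = (g * x) * y * x⁻¹ := by rw [hgx]
        _ = g * (x * y * x⁻¹) := by group
        _ = g * y⁻¹ := by rw [hconj']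
    have hw4 : (g * y) ^ 4 = 1 := by rw [hcomm.mul_pow, hg4, hy4, one_mul]
    obtain ⟨k, hk⟩ := (Submonoid.mem_powers_iff _ _).mp ((mem_powers_iff_mem_zpowers).mpr hmem)
    have hk' : g ^ (k % 4) * y ^ (k % 4) = g * y⁻¹ := by
      rw [← hcomm.mul_pow, ← hxw, ← hk]; exact (pow_eq_pow_mod k hw4).symm
    have hlt : k % 4 < 4 := Nat.mod_lt _ (by norm_num)
    obtain ⟨r, hr⟩ : ∃ r, r = k % 4 := ⟨_, rfl⟩
    rw [← hr] at hk' hlt
    have hgney : g ≠ y := by
      intro hgy'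
      rw [hgy'] at hgx
      exact hxy hgx.symm
    interval_cases r
    · exfalso
      rw [pow_zero, pow_zero, one_mul] at hk'
      exact hgney (mul_inv_eq_one.mp hk'.symm)
    · exfalso
      rw [pow_one, pow_one] at hk'
      have h5 : y = y⁻¹ := mul_left_cancel hk'
      apply hy2'
      rw [pow_two]
      calc y * y = y * y⁻¹ := by rw [← h5]
        _ = 1 := mul_inv_cancel y
    · exfalso
      have h5 : g * y ^ 2 = y⁻¹ := by
        apply mul_left_cancel (a := g)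
        rw [← mul_assoc, ← pow_two]; exact hk'
      have h6 : g * y ^ 3 = 1 := by rw [pow_succ, ← mul_assoc, h5, inv_mul_cancel]
      have h7 : y * y ^ 3 = 1 := by rw [← pow_succ']; exact hy4
      exact hgney (mul_right_cancel (h6.trans h7.symm))
    · have h5 : y ^ 3 = y⁻¹ := eq_inv_of_mul_eq_one_left (by rw [← pow_succ]; exact hy4)
      rw [h5] at hk'
      have h6 : g ^ 3 = g := mul_right_cancel hk'
      have h7 : g ^ 2 * g = 1 * g := by rw [← pow_succ, one_mul]; exact h6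
      exact mul_right_cancel h7
  have hCab : ∀ a ∈ C, ∀ b ∈ C, a * b = b * a := by
    intro a ha b hb
    by_contra hne
    obtain ⟨x', hx', y', hy', hox', -, -, -⟩ := exists_q8 hn C a b ha hb hne
    have h4 : x' ^ 4 = 1 := by rw [← hox']; exact pow_orderOf_eq_one x'
    have h2 := hno4 x' hx' h4
    have := orderOf_dvd_of_pow_eq_one h2
    rw [hox'] at this; norm_num at this
  have hpow2 : ∀ k : ℕ, ∀ h ∈ C, h ^ (2 ^ (k + 1)) = 1 → h ^ 2 = 1 := by
    intro k
    induction k with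
    | zero => intro h _ hh; simpa using hh
    | succ k ih =>
      intro h hh hpow
      apply ih h hh
      have h4 : (h ^ (2 ^ k)) ^ 4 = 1 := by
        rw [← pow_mul]
        have : 2 ^ k * 4 = 2 ^ (k + 1 + 1) := by ring
        rw [this]; exact hpow
      have h2 := hno4 _ (pow_mem hh _) h4
      rw [← pow_mul] at h2
      have : 2 ^ (k + 1) = 2 ^ k * 2 := by ring
      rw [this]; exact h2
  obtain ⟨E0, hE0⟩ : ∃ E0 : Subgroup G, ∀ g, g ∈ E0 ↔ g ∈ C ∧ g ^ 2 = 1 :=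
    ⟨{ carrier := {g | g ∈ C ∧ g ^ 2 = 1}
       one_mem' := ⟨C.one_mem, one_pow 2⟩
       mul_mem' := by
         rintro a b ⟨ha, ha2⟩ ⟨hb, hb2⟩
         exact ⟨C.mul_mem ha hb, by
           rw [(show Commute a b from hCab a ha b hb).mul_pow, ha2, hb2, one_mul]⟩
       inv_mem' := by
         rintro a ⟨ha, ha2⟩
         exact ⟨C.inv_mem ha, by rw [inv_pow, ha2, inv_one]⟩ }, fun g => Iff.rfl⟩
  obtain ⟨A, hA⟩ : ∃ A : Subgroup G, ∀ g, g ∈ A ↔ g ∈ C ∧ ∃ m, Odd m ∧ g ^ m = 1 :=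
    ⟨{ carrier := {g | g ∈ C ∧ ∃ m, Odd m ∧ g ^ m = 1}
       one_mem' := ⟨C.one_mem, 1, odd_one, one_pow 1⟩
       mul_mem' := by
         rintro a b ⟨ha, m, hm, ham⟩ ⟨hb, m', hm', hbm⟩
         refine ⟨C.mul_mem ha hb, m * m', hm.mul hm', ?_⟩
         rw [(show Commute a b from hCab a ha b hb).mul_pow, pow_mul, ham, one_pow,
           mul_comm m m', pow_mul, hbm, one_pow, one_mul]
       inv_mem' := by
         rintro a ⟨ha, m, hm, ham⟩
         exact ⟨C.inv_mem ha, m, hm, by rw [inv_pow, ham, inv_one]⟩ }, fun g => Iff.rfl⟩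
  have hzC : z ∈ C := by
    rw [hC]
    refine ⟨?_, ?_⟩
    · rw [hz]; exact ((Commute.refl x).pow_left 2).eq
    · rw [← hy2]; exact ((Commute.refl y).pow_left 2).eq
  have hzE0 : z ∈ E0 := (hE0 z).mpr ⟨hzC, hzz⟩
  have hzQ : z ∈ f.range := by rw [hz]; exact pow_mem hxQ 2
  obtain ⟨E, hEmax⟩ := (Set.toFinite {E : Subgroup G | E ≤ E0 ∧ z ∉ E}).exists_maximal
    ⟨⊥, bot_le, fun h => hz1 (Subgroup.mem_bot.mp h)⟩
  have hE1 : E ≤ E0 := hEmax.prop.1
  have hE2 : z ∉ E := hEmax.prop.2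
  have hEcompl : ∀ g ∈ E0, g ∈ E ∨ ∃ e ∈ E, g = e * z := by
    intro g hg
    by_cases hgE : g ∈ E
    · left; exact hgE
    right
    have hnorm : (Subgroup.zpowers g).Normal := hn _
    have hzin : z ∈ E ⊔ Subgroup.zpowers g := by
      by_contra hzn
      have hmem : E ⊔ Subgroup.zpowers g ∈ {E : Subgroup G | E ≤ E0 ∧ z ∉ E} :=
        ⟨sup_le hE1 (Subgroup.zpowers_le.mpr hg), hzn⟩
      have hle := hEmax.le_of_ge hmem le_sup_left
      exact hgE (hle (Subgroup.mem_sup_right (Subgroup.mem_zpowers g)))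
    have hzin' : z ∈ (E : Set G) * (Subgroup.zpowers g : Set G) := by
      rw [← Subgroup.mul_normal]; exact hzin
    obtain ⟨e, he, t, ht, het⟩ := Set.mem_mul.mp hzin'
    have hg2 : g ^ 2 = 1 := ((hE0 g).mp hg).2
    obtain ⟨k, rfl⟩ := Subgroup.mem_zpowers_iff.mp ht
    rcases Int.even_or_odd' k with ⟨m, rfl | rfl⟩
    · exfalso
      rw [zpow_mul, zpow_ofNat, hg2, one_zpow, mul_one] at het
      apply hE2; rw [← het]; exact he
    · rw [zpow_add, zpow_mul, zpow_ofNat, hg2, one_zpow, one_mul, zpow_one] at het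
      exact ⟨e⁻¹, inv_mem he, by rw [← het]; group⟩
  have hdec : ∀ c ∈ C, ∃ e ∈ E0, ∃ a ∈ A, c = e * a := by
    intro c hc
    obtain ⟨k, m, hm, hkm⟩ := Nat.exists_eq_two_pow_mul_odd (orderOf_pos c).ne'
    have h1 : (c ^ m) ^ (2 ^ k) = 1 := by
      rw [← pow_mul, mul_comm, ← hkm]; exact pow_orderOf_eq_one c
    have h2 : (c ^ m) ^ 2 = 1 := by
      cases k with
      | zero => rw [pow_zero, pow_one] at h1; rw [h1, one_pow]
      | succ k => exact hpow2 k _ (pow_mem hc m) h1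
    obtain ⟨t, ht⟩ := hm
    refine ⟨c ^ m, (hE0 _).mpr ⟨pow_mem hc m, h2⟩, (c ^ (2 * t))⁻¹,
      (hA _).mpr ⟨inv_mem (pow_mem hc _), m, ⟨t, ht⟩, ?_⟩, ?_⟩
    · rw [inv_pow, inv_eq_one, ← pow_mul]
      have : c ^ (2 * t * m) = ((c ^ m) ^ 2) ^ t := by
        rw [← pow_mul, ← pow_mul]; congr 1; ring
      rw [this, h2, one_pow]
    · have hcm : Commute (c ^ (2 * t)) c := (Commute.refl c).pow_left _
      rw [ht, pow_succ, hcm.eq, mul_assoc, mul_inv_cancel, mul_one]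
  have hEC : ∀ g ∈ E, g ∈ C := fun g hg => ((hE0 g).mp (hE1 hg)).1
  have hAC : ∀ g ∈ A, g ∈ C := fun g hg => ((hA g).mp hg).1
  have hodd2 : ∀ g : G, g ^ 2 = 1 → (∃ m, Odd m ∧ g ^ m = 1) → g = 1 := by
    rintro g h2 ⟨m, ⟨t, rfl⟩, hm⟩
    rw [pow_succ, pow_mul, h2, one_pow, one_mul] at hm
    exact hm
  refine ⟨f.range, E, A, ⟨(MonoidHom.ofInjective hinj).symm⟩, ?_, ?_, ?_, ?_, ?_, ?_⟩
  · exact ⟨⟨⟨fun a b => Subtype.ext (hCab a.1 (hEC _ a.2) b.1 (hEC _ b.2))⟩⟩,
      fun a ha => ((hE0 a).mp (hE1 ha)).2⟩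
  · exact ⟨⟨fun a b => Subtype.ext (hCab a.1 (hAC _ a.2) b.1 (hAC _ b.2))⟩⟩
  · by_contra hodd
    rw [Nat.not_odd_iff_even] at hodd
    have : Fact (Nat.Prime 2) := ⟨Nat.prime_two⟩
    obtain ⟨u, hu⟩ := exists_prime_orderOf_dvd_card' (G := A) 2 hodd.two_dvd
    obtain ⟨-, m, hm, hum⟩ := (hA u.1).mp u.2
    have h2 : orderOf (u : G) = 2 := by rw [Subgroup.orderOf_coe]; exact hu
    have hd : orderOf (u : G) ∣ m := orderOf_dvd_of_pow_eq_one hum
    rw [h2] at hd
    obtain ⟨t, ht⟩ := hm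
    omega
  · rw [eq_bot_iff]
    rintro g ⟨hgE, hgA⟩
    rw [Subgroup.mem_bot]
    exact hodd2 g ((hE0 g).mp (hE1 hgE)).2 ((hA g).mp hgA).2
  · rw [eq_bot_iff]
    rintro g ⟨hgQ, hgEA⟩
    rw [Subgroup.mem_bot]
    have hnA : A.Normal := hn A
    have hgEA' : g ∈ (E : Set G) * (A : Set G) := by rw [← Subgroup.mul_normal]; exact hgEA
    obtain ⟨e, he, a, ha, hea⟩ := Set.mem_mul.mp hgEA'
    have hgC : g ∈ C := by rw [← hea]; exact C.mul_mem (hEC e he) (hAC a ha)
    obtain ⟨hgx, hgy⟩ := (hC g).mp hgC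
    have hg1z : g = 1 ∨ g = z := by
      rcases hQel g hgQ with hgz | ⟨t, ht, hgt⟩
      · obtain ⟨k, hk⟩ :=
          (Submonoid.mem_powers_iff _ _).mp ((mem_powers_iff_mem_zpowers).mpr hgz)
        have hk' : x ^ (k % 4) = g := by rw [← hk]; exact (pow_eq_pow_mod k hx4).symm
        have hlt : k % 4 < 4 := Nat.mod_lt _ (by norm_num)
        obtain ⟨r, hr⟩ : ∃ r, r = k % 4 := ⟨_, rfl⟩
        rw [← hr] at hk' hlt
        interval_cases r
        · left; rw [← hk', pow_zero]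
        · exfalso; rw [pow_one] at hk'; rw [← hk'] at hgy; exact hxy hgy
        · right; rw [← hk', hz]
        · exfalso
          rw [← hk'] at hgy
          have h9 : x = (x ^ 3) ^ 3 := by
            calc x = (x ^ 4) ^ 2 * x := by rw [hx4, one_pow, one_mul]
              _ = (x ^ 3) ^ 3 := by rw [← pow_mul, ← pow_succ, ← pow_mul]
          apply hxy
          have hc3 : Commute (x ^ 3) y := hgy
          rw [h9]; exact (hc3.pow_left 3).eq
      · exfalso
        have htx : x * t = t * x := comm_of_mem_zpowers ht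
        apply hxy
        rw [hgt] at hgx
        have : y * x * t = x * y * t := by
          calc y * x * t = y * (x * t) := by group
            _ = y * (t * x) := by rw [htx]
            _ = y * t * x := by group
            _ = x * (y * t) := hgx
            _ = x * y * t := by group
        exact (mul_right_cancel this).symm
    rcases hg1z with h | h
    · exact h
    · exfalso
      rw [h] at hea
      have hea' : a = e⁻¹ * z := by rw [← hea]; group
      have hCea : Commute e⁻¹ z := hCab _ (C.inv_mem (hEC e he)) _ hzC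
      have ha2 : a ^ 2 = 1 := by
        rw [hea', hCea.mul_pow, inv_pow, ((hE0 e).mp (hE1 he)).2, hzz, inv_one, one_mul]
      have ha1 : a = 1 := hodd2 a ha2 ((hA a).mp ha).2
      rw [ha1, mul_one] at hea
      apply hE2; rw [← hea]; exact he
  · rw [eq_top_iff]
    intro g _
    obtain ⟨q, hq, c, hc, rfl⟩ := hQC g
    obtain ⟨e, he, a, ha, rfl⟩ := hdec c hc
    rcases hEcompl e he with heE | ⟨e', he', rfl⟩
    · exact Subgroup.mul_mem_sup hq (Subgroup.mul_mem_sup heE ha)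
    · have hcomm : e' * z = z * e' := hCab _ (hEC e' he') _ hzC
      have : q * (e' * z * a) = (q * z) * (e' * a) := by rw [hcomm]; group
      rw [this]
      exact Subgroup.mul_mem_sup (mul_mem hq hzQ) (Subgroup.mul_mem_sup he' ha)

end Cfsg.Agent.S4211
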