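import Cfsg.Statements.S4213
-- import your own Cfsg.Agent.* helpers here
import Mathlib

set_option autoImplicit false
open Cfsg

namespace Cfsg.Agent.S4213

universe u

open scoped commutatorElement

theorem exists_normal_exp_p {G : Type*} [Group G] [Finite G] [hs : Group.IsSolvable G]
    [Nontrivial G] :
    ∃ (p : ℕ) (K : Subgroup G), p.Prime ∧ K.Normal ∧ K ≠ ⊥ ∧ ∀ k ∈ K, k ^ p = 1 := by
  classical
  have hex : ∃ m, derivedSeries G m = ⊥ := hs.solvable
  have hm₀bot : derivedSeries G (Nat.find hex) = ⊥ := Nat.find_spec hex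
  have hm₀pos : Nat.find hex ≠ 0 := by
    intro h0
    rw [h0, derivedSeries_zero] at hm₀bot
    exact top_ne_bot hm₀bot
  obtain ⟨j, hj⟩ := Nat.exists_eq_succ_of_ne_zero hm₀pos
  obtain ⟨A, hA⟩ : ∃ A, A = derivedSeries G j := ⟨_, rfl⟩
  have hAne : A ≠ ⊥ := by
    rw [hA]; exact Nat.find_min hex (by omega : j < Nat.find hex)
  have hAA : ⁅A, A⁆ = ⊥ := by
    rw [hA, ← derivedSeries_succ, ← Nat.succ_eq_add_one, ← hj]; exact hm₀bot
  have hAcomm : ∀ a ∈ A, ∀ b ∈ A, a * b = b * a := by
    intro a ha b hb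
    have h1 := Subgroup.commutator_mem_commutator ha hb
    rw [hAA, Subgroup.mem_bot] at h1
    exact commutatorElement_eq_one_iff_mul_comm.mp h1
  have hAn : A.Normal := by rw [hA]; exact derivedSeries_normal G j
  have hAcard : Nat.card A ≠ 1 := fun h => hAne (Subgroup.card_eq_one.mp h)
  obtain ⟨p, hp, hpd⟩ := Nat.exists_prime_and_dvd hAcard
  have : Fact p.Prime := ⟨hp⟩
  obtain ⟨a, ha⟩ := exists_prime_orderOf_dvd_card' p hpd
  let K : Subgroup G :=
    { carrier := {k | k ∈ A ∧ k ^ p = 1}
      mul_mem' := by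
        rintro x y ⟨hx, hx'⟩ ⟨hy, hy'⟩
        refine ⟨A.mul_mem hx hy, ?_⟩
        have hc : Commute x y := hAcomm x hx y hy
        rw [hc.mul_pow, hx', hy', one_mul]
      one_mem' := ⟨A.one_mem, one_pow _⟩
      inv_mem' := by
        rintro x ⟨hx, hx'⟩
        exact ⟨A.inv_mem hx, by rw [inv_pow, hx', inv_one]⟩ }
  have hKmem : ∀ x, x ∈ K ↔ x ∈ A ∧ x ^ p = 1 := fun x => Iff.rfl
  refine ⟨p, K, hp, ?_, ?_, ?_⟩
  · constructor
    intro x hx g
    rw [hKmem] at hx ⊢
    refine ⟨hAn.conj_mem x hx.1 g, ?_⟩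
    rw [conj_pow, hx.2, mul_one, mul_inv_cancel]
  · intro hbot
    have hmem : (a : G) ∈ K := by
      rw [hKmem]
      refine ⟨a.2, ?_⟩
      have h1 : a ^ p = 1 := by rw [← ha]; exact pow_orderOf_eq_one a
      have h2 := congrArg Subtype.val h1
      simpa using h2
    rw [hbot, Subgroup.mem_bot] at hmem
    have h3 : a = 1 := Subtype.ext hmem
    rw [h3, orderOf_one] at ha
    exact hp.one_lt.ne ha
  · intro k hk
    exact ((hKmem k).mp hk).2

theorem card_preimage {G : Type*} [Group G] [Finite G] (K : Subgroup G) [K.Normal]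
    (Q : G ⧸ K → Prop) :
    Nat.card {x : G // Q (QuotientGroup.mk' K x)} = Nat.card {y : G ⧸ K // Q y} * Nat.card K := by
  classical
  rw [← Nat.card_prod]
  apply Nat.card_congr
  have hout : ∀ y : G ⧸ K, QuotientGroup.mk' K (Quotient.out y) = y := fun y =>
    QuotientGroup.out_eq' y
  refine
    { toFun := fun x => (⟨QuotientGroup.mk' K x.1, x.2⟩,
        ⟨(Quotient.out (QuotientGroup.mk' K x.1 : G ⧸ K))⁻¹ * x.1, ?_⟩)
      invFun := fun yk => ⟨Quotient.out yk.1.1 * yk.2.1, ?_⟩
      left_inv := ?_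
      right_inv := ?_ }
  · rw [← QuotientGroup.eq]
    exact hout _
  · have h1 : QuotientGroup.mk' K (Quotient.out yk.1.1 * yk.2.1) = yk.1.1 := by
      rw [map_mul, hout]
      have : QuotientGroup.mk' K (yk.2.1) = 1 := (QuotientGroup.eq_one_iff _).mpr yk.2.2
      rw [this, mul_one]
    rw [h1]; exact yk.1.2
  · intro x
    apply Subtype.ext
    simp
  · rintro ⟨⟨y, hy⟩, ⟨k, hk⟩⟩
    have h1 : QuotientGroup.mk' K (Quotient.out y * k) = y := by
      rw [map_mul, hout]
      have : QuotientGroup.mk' K k = 1 := (QuotientGroup.eq_one_iff _).mpr hk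
      rw [this, mul_one]
    apply Prod.ext
    · apply Subtype.ext
      exact h1
    · apply Subtype.ext
      show (Quotient.out (QuotientGroup.mk' K (Quotient.out y * k) : G ⧸ K))⁻¹
        * (Quotient.out y * k) = k
      rw [h1]; group

theorem set_eq_of_card {G : Type*} [Finite G] (S T : G → Prop) (hST : ∀ x, S x → T x)
    (hcard : Nat.card {x : G // T x} ≤ Nat.card {x : G // S x}) : ∀ x, T x → S x := by
  intro x hx
  have hinj : Function.Injective (fun y : {x : G // S x} => (⟨y.1, hST y.1 y.2⟩ : {x : G // T x})) := by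
    intro y z h
    apply Subtype.ext
    simpa using h
  have hbij := hinj.bijective_of_nat_card_le hcard
  obtain ⟨y, hy⟩ := hbij.2 ⟨x, hx⟩
  have : y.1 = x := congrArg Subtype.val hy
  rw [← this]; exact y.2

theorem split_n (p i n : ℕ) (hp : p.Prime) (hi : 1 ≤ i) (hpn : p ∣ n) (hn : n ≠ 0) (q : ℕ)
    (hq : n ∣ q * p ^ i) :
    ∃ n' e : ℕ, n = n' * p ^ e ∧ 1 ≤ e ∧ e ≤ i ∧ n' ∣ q := by
  by_cases h : p ^ i ∣ n
  · obtain ⟨n', hn'⟩ := h
    refine ⟨n', i, by rw [hn', mul_comm], hi, le_refl _, ?_⟩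
    rw [hn', mul_comm] at hq
    exact Nat.dvd_of_mul_dvd_mul_right (pow_pos hp.pos i) hq
  · obtain ⟨e, n', hn', hne⟩ := Nat.exists_eq_pow_mul_and_not_dvd hn p hp.ne_one
    have he1 : 1 ≤ e := by
      rcases Nat.eq_zero_or_pos e with h0 | h0
      · exfalso
        rw [h0, pow_zero, one_mul] at hne
        rw [hne] at hpn
        exact hn' hpn
      · exact h0
    have hei : e ≤ i := by
      by_contra hlt
      push Not at hlt
      apply h
      rw [hne]
      exact dvd_mul_of_dvd_left (pow_dvd_pow p hlt.le) _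
    refine ⟨n', e, by rw [hne, mul_comm], he1, hei, ?_⟩
    have hcop : Nat.Coprime n' (p ^ i) := by
      apply Nat.Coprime.pow_right
      exact (Nat.coprime_comm.mp ((Nat.Prime.coprime_iff_not_dvd hp).mpr hn'))
    have hn'q : n' ∣ q * p ^ i := dvd_trans ⟨p ^ e, by rw [hne, mul_comm]⟩ hq
    exact hcop.dvd_of_dvd_mul_right hn'q

theorem frob_aux : ∀ N : ℕ, ∀ (G : Type u) [Group G] [Finite G] [Group.IsSolvable G],
    Nat.card G = N → ∀ n : ℕ, n ∣ Nat.card G →
      n ≤ Nat.card {x : G // x ^ n = 1} ∧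
      (Nat.card {x : G // x ^ n = 1} = n →
        ∃ H : Subgroup G, H.Normal ∧ (H : Set G) = {x : G | x ^ n = 1}) := by
  intro N
  induction N using Nat.strong_induction_on with
  | _ N ih =>
    intro G _ _ _ hcard n hn
    classical
    have hGpos : 0 < Nat.card G := Nat.card_pos
    have hn0 : n ≠ 0 := by
      rintro rfl
      rw [zero_dvd_iff] at hn
      omega
    rcases subsingleton_or_nontrivial G with hsub | hnt
    · have hG1 : Nat.card G = 1 := Nat.card_of_subsingleton (1 : G)
      rw [hG1, Nat.dvd_one] at hn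
      subst hn
      have hc : Nat.card {x : G // x ^ 1 = 1} = 1 := by
        have : Subsingleton {x : G // x ^ 1 = 1} := inferInstance
        exact Nat.card_of_subsingleton (⟨1, one_pow 1⟩ : {x : G // x ^ 1 = 1})
      refine ⟨by rw [hc], fun _ => ⟨⊤, inferInstance, ?_⟩⟩
      ext x
      simp only [Subgroup.coe_top, Set.mem_univ, Set.mem_ofPred_eq, true_iff]
      exact Subsingleton.elim _ _
    obtain ⟨p, K, hp, hKn, hKne, hKexp⟩ := exists_normal_exp_p (G := G)
    have : Fact p.Prime := ⟨hp⟩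
    have hKp : IsPGroup p K := by
      intro k
      refine ⟨1, ?_⟩
      apply Subtype.ext
      rw [pow_one]
      simpa using hKexp k.1 k.2
    obtain ⟨i, hi⟩ := IsPGroup.iff_card.mp hKp
    have hi1 : 1 ≤ i := by
      rcases Nat.eq_zero_or_pos i with h0 | h0
      · exfalso
        rw [h0, pow_zero] at hi
        exact hKne (Subgroup.card_eq_one.mp hi)
      · exact h0
    have hGK : Nat.card G = Nat.card (G ⧸ K) * p ^ i := by
      rw [← hi]; exact Subgroup.card_eq_card_quotient_mul_card_subgroup K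
    have hqpos : 0 < Nat.card (G ⧸ K) := Nat.card_pos
    have hlt : Nat.card (G ⧸ K) < N := by
      rw [← hcard, hGK]
      have : 2 ≤ p ^ i := by
        calc 2 ≤ p := hp.two_le
          _ = p ^ 1 := (pow_one p).symm
          _ ≤ p ^ i := Nat.pow_le_pow_right hp.pos hi1
      nlinarith
    have IH := ih _ hlt (G ⧸ K) rfl
    have hπpow : ∀ (x : G) (m : ℕ), (QuotientGroup.mk' K x) ^ m = 1 ↔ x ^ m ∈ K := by
      intro x m
      rw [← map_pow, QuotientGroup.mk'_apply, QuotientGroup.eq_one_iff]
    by_cases hpn : p ∣ n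
    · -- case p ∣ n
      obtain ⟨n', e, hne, he1, hei, hn'⟩ := split_n p i n hp hi1 hpn hn0 (Nat.card (G ⧸ K))
        (by rw [← hGK]; exact hn)
      obtain ⟨hA, hB⟩ := IH n' hn'
      have hT := card_preimage K (fun y => y ^ n' = 1)
      rw [hi] at hT
      have hsub : ∀ x : G, (QuotientGroup.mk' K x) ^ n' = 1 → x ^ n = 1 := by
        intro x hx
        rw [hπpow] at hx
        have h1 := hKexp _ hx
        obtain ⟨e', rfl⟩ : ∃ e', e = e' + 1 := ⟨e - 1, by omega⟩
        rw [hne, pow_succ, ← mul_assoc, mul_comm (n' * p ^ e') p, ← mul_assoc, mul_comm p n',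
          pow_mul, pow_mul, h1, one_pow]
      have hle : Nat.card {x : G // (QuotientGroup.mk' K x) ^ n' = 1}
          ≤ Nat.card {x : G // x ^ n = 1} :=
        Nat.card_le_card_of_injective
          (fun y => (⟨y.1, hsub y.1 y.2⟩ : {x : G // x ^ n = 1}))
          (by intro y z h; apply Subtype.ext; simpa using h)
      have hpe : p ^ e ≤ p ^ i := Nat.pow_le_pow_right hp.pos hei
      have hchain : n ≤ Nat.card {y : G ⧸ K // y ^ n' = 1} * p ^ i := by
        calc n = n' * p ^ e := hne
          _ ≤ n' * p ^ i := Nat.mul_le_mul_left _ hpe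
          _ ≤ Nat.card {y : G ⧸ K // y ^ n' = 1} * p ^ i := Nat.mul_le_mul_right _ hA
      refine ⟨by omega, ?_⟩
      intro hcn
      have hpi : 0 < p ^ i := pow_pos hp.pos i
      have hs : Nat.card {y : G ⧸ K // y ^ n' = 1} = n' := by
        have h1 : Nat.card {y : G ⧸ K // y ^ n' = 1} * p ^ i ≤ n' * p ^ i := by
          calc Nat.card {y : G ⧸ K // y ^ n' = 1} * p ^ i ≤ n := by omega
            _ = n' * p ^ e := hne
            _ ≤ n' * p ^ i := Nat.mul_le_mul_left _ hpe
        have h2 := Nat.le_of_mul_le_mul_right h1 hpi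
        omega
      obtain ⟨H', hH'n, hH'⟩ := hB hs
      have hsup : ∀ x : G, x ^ n = 1 → (QuotientGroup.mk' K x) ^ n' = 1 :=
        set_eq_of_card _ _ hsub (by omega)
      refine ⟨H'.comap (QuotientGroup.mk' K), hH'n.comap _, ?_⟩
      ext x
      have hx : QuotientGroup.mk' K x ∈ H' ↔ (QuotientGroup.mk' K x) ^ n' = 1 := by
        rw [← SetLike.mem_coe, hH']; rfl
      simp only [Subgroup.coe_comap, Set.mem_preimage, SetLike.mem_coe, Set.mem_ofPred_eq]
      rw [hx]
      exact ⟨hsub x, hsup x⟩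
    · -- case p ∤ n
      have hcop : Nat.Coprime n p := (Nat.coprime_comm.mp ((Nat.Prime.coprime_iff_not_dvd hp).mpr hpn))
      have hn' : n ∣ Nat.card (G ⧸ K) := by
        rw [hGK] at hn
        exact (Nat.Coprime.pow_right i hcop).dvd_of_dvd_mul_right hn
      obtain ⟨hA, hB⟩ := IH n hn'
      -- the surjection
      have hsurj : Function.Surjective
          (fun x : {x : G // x ^ n = 1} =>
            (⟨QuotientGroup.mk' K x.1, by rw [← map_pow, x.2, map_one]⟩ :
              {y : G ⧸ K // y ^ n = 1})) := by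
        rintro ⟨y, hy⟩
        obtain ⟨x, rfl⟩ := QuotientGroup.mk'_surjective K y
        rw [hπpow] at hy
        obtain ⟨k, hk⟩ : ∃ k, k = x ^ n := ⟨_, rfl⟩
        rw [← hk] at hy
        have hkp : k ^ p = 1 := hKexp k hy
        have hcomm : Commute x k := by rw [hk]; exact (Commute.refl x).pow_right n
        have hbez := Nat.gcd_eq_gcd_ab n p
        rw [Nat.Coprime.gcd_eq_one hcop] at hbez
        obtain ⟨u, hu⟩ : ∃ u : ℤ, u = Nat.gcdA n p := ⟨_, rfl⟩
        obtain ⟨v, hv⟩ : ∃ v : ℤ, v = Nat.gcdB n p := ⟨_, rfl⟩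
        rw [← hu, ← hv] at hbez
        have hx' : (x * k ^ (-u)) ^ n = 1 := by
          have hc2 : Commute x (k ^ (-u)) := hcomm.zpow_right (-u)
          rw [hc2.mul_pow, ← hk, ← zpow_natCast (k ^ (-u)) n, ← zpow_mul]
          have h1 : k * k ^ (-u * (n : ℤ)) = k ^ (1 + -u * (n : ℤ)) := by
            rw [zpow_add, zpow_one]
          rw [h1]
          have h2 : (1 : ℤ) + -u * (n : ℤ) = (p : ℤ) * v := by
            have : ((1 : ℕ) : ℤ) = (n : ℤ) * u + (p : ℤ) * v := hbez
            push_cast at this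
            linarith
          rw [h2, zpow_mul, zpow_natCast, hkp, one_zpow]
        refine ⟨⟨x * k ^ (-u), hx'⟩, ?_⟩
        apply Subtype.ext
        show QuotientGroup.mk' K (x * k ^ (-u)) = QuotientGroup.mk' K x
        rw [map_mul]
        have : QuotientGroup.mk' K (k ^ (-u)) = 1 :=
          (QuotientGroup.eq_one_iff _).mpr (K.zpow_mem hy _)
        rw [this, mul_one]
      have hle := Nat.card_le_card_of_surjective _ hsurj
      refine ⟨by omega, ?_⟩
      intro hcn
      have hs : Nat.card {y : G ⧸ K // y ^ n = 1} = n := by omega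
      obtain ⟨H', hH'n, hH'⟩ := hB hs
      have hH'mem : ∀ y : G ⧸ K, y ∈ H' ↔ y ^ n = 1 := by
        intro y
        rw [← SetLike.mem_coe, hH']; rfl
      have hH'card : Nat.card H' = n := by
        rw [← hs]
        exact Nat.card_congr (Equiv.subtypeEquivRight hH'mem)
      obtain ⟨H, hH⟩ : ∃ H : Subgroup G, H = H'.comap (QuotientGroup.mk' K) := ⟨_, rfl⟩
      have hHn : H.Normal := by rw [hH]; exact hH'n.comap _
      have hHcard : Nat.card H = n * p ^ i := by
        have h1 := card_preimage K (fun y => y ∈ H')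
        rw [hi] at h1
        rw [← hH'card, ← h1, hH]
        rfl
      have hKH : K ≤ H := by
        intro k hk
        rw [hH, Subgroup.mem_comap]
        have : QuotientGroup.mk' K k = 1 := (QuotientGroup.eq_one_iff _).mpr hk
        rw [this]; exact one_mem _
      have hK'card : Nat.card (K.subgroupOf H) = p ^ i := by
        rw [← hi]
        exact Nat.card_congr (Subgroup.subgroupOfEquivOfLe hKH).toEquiv
      have hK'idx : (K.subgroupOf H).index = n := by
        have h1 := Subgroup.index_mul_card (K.subgroupOf H)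
        rw [hK'card, hHcard] at h1
        exact Nat.eq_of_mul_eq_mul_right (pow_pos hp.pos i) h1
      have hK'n : (K.subgroupOf H).Normal := inferInstance
      obtain ⟨Q, hQ⟩ := Subgroup.exists_right_complement'_of_coprime (N := K.subgroupOf H) (by
        rw [hK'card, hK'idx]
        exact (Nat.Coprime.pow_right i hcop).symm)
      have hQcard : Nat.card Q = n := by
        have h1 := hQ.card_mul_card
        rw [hK'card, hHcard, mul_comm] at h1
        exact Nat.eq_of_mul_eq_mul_right (pow_pos hp.pos i) h1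
      obtain ⟨Q', hQ'⟩ : ∃ Q' : Subgroup G, Q' = Q.map H.subtype := ⟨_, rfl⟩
      have hQ'card : Nat.card Q' = n := by
        rw [← hQcard, hQ']
        exact (Nat.card_congr
          (Subgroup.equivMapOfInjective Q H.subtype (Subgroup.subtype_injective H)).toEquiv).symm
      have hQ'sub : ∀ x : G, x ∈ Q' → x ^ n = 1 := by
        intro x hx
        have h1 : (⟨x, hx⟩ : Q') ^ Nat.card Q' = 1 := pow_card_eq_one'
        rw [hQ'card] at h1
        have h2 := congrArg Subtype.val h1
        simpa using h2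
      have hQ'sup : ∀ x : G, x ^ n = 1 → x ∈ Q' :=
        set_eq_of_card (fun x => x ∈ Q') (fun x => x ^ n = 1) hQ'sub (by
          rw [hcn]; exact hQ'card.ge)
      refine ⟨Q', ?_, ?_⟩
      · constructor
        intro q hq g
        apply hQ'sup
        rw [conj_pow, hQ'sub q hq, mul_one, mul_inv_cancel]
      · ext x
        exact ⟨hQ'sub x, hQ'sup x⟩

/-- If `G` is a finite solvable group and `n` divides the order of `G` and exactly `n` elements `x` of `G` satisfy `x^n = 1`, then these elements form a normal subgroup. -/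
theorem result {G : Type*} [Group G] [Finite G] [Group.IsSolvable G] (n : ℕ) (hn : n ∣ Nat.card G) (hcount : Nat.card {x : G // x ^ n = 1} = n) : ∃ H : Subgroup G, H.Normal ∧ (H : Set G) = {x : G | x ^ n = 1} := by
  exact (frob_aux _ G rfl n hn).2 hcount

end Cfsg.Agent.S4213
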