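import Cfsg.Statements.S4214
import Cfsg.Agent.S0003
import Cfsg.Agent.S0004
import Cfsg.Agent.S0043
import Cfsg.Agent.Lib.helper12.SubConj
import Cfsg.Agent.Lib.helper1.Carter
import Cfsg.Agent.Lib.helper3.SchmidtB
import Cfsg.Agent.Lib.helper8.CoprimeSZ
import Mathlib

set_option autoImplicit false
open Cfsg

namespace Cfsg.Agent.S4214

universe u

/-- one admissible factor of the number of Hall subgroups -/
def Fac (G : Type u) [Group G] (m x : ℕ) : Prop :=
  (∃ q e : ℕ, q.Prime ∧ x = q ^ e) ∧
  (∃ K L : Subgroup G, K.Normal ∧ L.Normal ∧ K < L ∧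
    (∀ M : Subgroup G, M.Normal → K ≤ M → M ≤ L → M = K ∨ M = L) ∧ x ∣ K.relIndex L) ∧
  (∃ q : ℕ, q.Prime ∧ q ∣ m ∧ x ≡ 1 [MOD q])

theorem card_mul_relIndex' {G : Type*} [Group G] (A B : Subgroup G) (h : A ≤ B) :
    Nat.card A * A.relIndex B = Nat.card B := by
  rw [← Subgroup.relIndex_bot_left (H := A), ← Subgroup.relIndex_bot_left (H := B)]
  exact Subgroup.relIndex_mul_relIndex ⊥ A B bot_le h

theorem relIndex_sup_normal {G : Type*} [Group G] [Finite G] (H M : Subgroup G) [M.Normal] :
    H.relIndex (H ⊔ M) = H.relIndex M := by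
  have h1 : Nat.card H * H.relIndex (H ⊔ M) = Nat.card (H ⊔ M : Subgroup G) :=
    card_mul_relIndex' H (H ⊔ M) le_sup_left
  have h2 : Nat.card M * M.relIndex (H ⊔ M) = Nat.card (H ⊔ M : Subgroup G) :=
    card_mul_relIndex' M (H ⊔ M) le_sup_right
  have h3 : M.relIndex (H ⊔ M) = M.relIndex H := Subgroup.relIndex_sup_right H M
  have h4 : Nat.card (H ⊓ M : Subgroup G) * (H ⊓ M).relIndex M = Nat.card M :=
    card_mul_relIndex' _ _ inf_le_right
  have h5 : Nat.card (H ⊓ M : Subgroup G) * (H ⊓ M).relIndex H = Nat.card H :=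
    card_mul_relIndex' _ _ inf_le_left
  have h6 : (H ⊓ M).relIndex M = H.relIndex M := Subgroup.inf_relIndex_right H M
  have h7 : (H ⊓ M).relIndex H = M.relIndex H := Subgroup.inf_relIndex_left H M
  have hpos : 0 < Nat.card H := Nat.card_pos
  apply Nat.eq_of_mul_eq_mul_left hpos
  calc Nat.card H * H.relIndex (H ⊔ M) = Nat.card M * M.relIndex H := by rw [h1, ← h2, h3]
    _ = (Nat.card (H ⊓ M : Subgroup G) * H.relIndex M) * M.relIndex H := by rw [← h6, h4]
    _ = (Nat.card (H ⊓ M : Subgroup G) * M.relIndex H) * H.relIndex M := by ring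
    _ = Nat.card H * H.relIndex M := by rw [← h7, h5]

theorem mem_normalizer_of_forall {G : Type*} [Group G] [Finite G] (H : Subgroup G) (t : G)
    (h : ∀ x ∈ H, t * x * t⁻¹ ∈ H) : t ∈ Subgroup.normalizer (H : Set G) := by
  rw [← Cfsg.Agent.Lib.helper12.map_conj_eq_iff]
  apply Subgroup.eq_of_le_of_card_ge
  · rintro _ ⟨x, hx, rfl⟩
    exact h x hx
  · rw [Subgroup.card_map_of_injective (MulAut.conj t).injective]

theorem count_eq_index {G : Type*} [Group G] [Finite G] [Group.IsSolvable G] (H : Subgroup G)
    (hcop : (Nat.card H).Coprime H.index) :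
    Nat.card {K : Subgroup G // Nat.card K = Nat.card H} =
      (Subgroup.normalizer (H : Set G)).index := by
  have hset : ∀ K : Subgroup G, Nat.card K = Nat.card H ↔
      ∃ g : G, K = H.map (MulAut.conj g).toMonoidHom := by
    intro K
    constructor
    · intro hK
      obtain ⟨g, hg⟩ := Cfsg.Agent.S0004.result (Nat.card H) H.index
        (H.card_mul_index).symm hcop H K rfl hK
      refine ⟨g, ?_⟩
      rw [← hg]
      rfl
    · rintro ⟨g, rfl⟩
      exact Subgroup.card_map_of_injective (MulAut.conj g).injective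
  have h1 := Cfsg.Agent.Lib.helper12.card_conjugates_mul H
  have h2 : Nat.card {K : Subgroup G // Nat.card K = Nat.card H} =
      Nat.card {W : Subgroup G // ∃ g : G, W = H.map (MulAut.conj g).toMonoidHom} :=
    Nat.card_congr (Equiv.subtypeEquivRight hset)
  have h3 := Subgroup.card_mul_index (Subgroup.normalizer (H : Set G))
  rw [h2]
  have hpos : 0 < Nat.card (Subgroup.normalizer (H : Set G)) := Nat.card_pos
  apply Nat.eq_of_mul_eq_mul_right hpos
  rw [h1, ← h3, mul_comm]

theorem card_modEq_fix {α : Type*} [Finite α] (p : ℕ) [hp : Fact p.Prime] (σ : Equiv.Perm α)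
    (hσ : σ ^ p = 1) : Nat.card α ≡ Nat.card {a : α // σ a = a} [MOD p] := by
  have hP : IsPGroup p (Subgroup.zpowers σ) := by
    rintro ⟨τ, hτ⟩
    refine ⟨1, ?_⟩
    obtain ⟨k, rfl⟩ := Subgroup.mem_zpowers_iff.mp hτ
    apply Subtype.ext
    show (σ ^ k) ^ (p ^ 1) = 1
    rw [pow_one, ← zpow_natCast, ← zpow_mul, mul_comm, zpow_mul, zpow_natCast, hσ, one_zpow]
  have h := hP.card_modEq_card_fixedPoints α
  have h2 : Nat.card (MulAction.fixedPoints (Subgroup.zpowers σ) α) =
      Nat.card {a : α // σ a = a} := by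
    apply Nat.card_congr
    apply Equiv.subtypeEquivRight
    intro a
    rw [MulAction.mem_fixedPoints]
    constructor
    · intro h
      exact h ⟨σ, Subgroup.mem_zpowers σ⟩
    · rintro h ⟨τ, hτ⟩
      obtain ⟨k, rfl⟩ := Subgroup.mem_zpowers_iff.mp hτ
      exact Equiv.Perm.zpow_apply_eq_self_of_apply_eq_self h k
  rw [← h2]; exact h

theorem fix_index {G : Type u} [Group G] [Finite G] (q : ℕ) (hq : q.Prime) (M : Subgroup G)
    [hMn : M.Normal] (hMq : ∃ a, Nat.card M = q ^ a) :
    ∀ (N : ℕ) (H : Subgroup G), Nat.card H ≤ N → Group.IsSolvable H →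
      (Nat.card H).Coprime (Nat.card M) →
      ∃ l : List ℕ, (M ⊓ Subgroup.centralizer (H : Set G)).relIndex M = l.prod ∧
        ∀ x ∈ l, (∃ e, x = q ^ e) ∧ x ∣ Nat.card M ∧
          ∃ p : ℕ, p.Prime ∧ p ∣ Nat.card H ∧ x ≡ 1 [MOD p] := by
  obtain ⟨a, ha⟩ := hMq
  intro N
  induction N with
  | zero =>
    intro H hH
    exact absurd hH (by have : 0 < Nat.card H := Nat.card_pos; omega)
  | succ N ih =>
    intro H hHN hsol hcop
    by_cases hbot : H = ⊥
    · subst hbot
      refine ⟨[], ?_, by simp⟩
      rw [List.prod_nil, Subgroup.relIndex_eq_one]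
      intro x hx
      refine ⟨hx, Subgroup.mem_centralizer_iff.mpr ?_⟩
      intro h hh
      have : h = 1 := by simpa using hh
      rw [this]; simp
    · haveI : Nontrivial H := (Subgroup.nontrivial_iff_ne_bot H).mpr hbot
      haveI := hsol
      obtain ⟨S', hS'n, hS'p⟩ := Cfsg.Agent.Lib.helper3.exists_normal_prime_index H
      haveI : Fact S'.index.Prime := ⟨hS'p⟩
      obtain ⟨p, hpdef⟩ : ∃ p, p = S'.index := ⟨_, rfl⟩
      have hpp : p.Prime := hpdef ▸ hS'p
      haveI : Fact p.Prime := ⟨hpp⟩
      obtain ⟨S, hSdef⟩ : ∃ S, S = S'.map H.subtype := ⟨_, rfl⟩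
      have hSH : S ≤ H := by rw [hSdef]; exact Subgroup.map_subtype_le S'
      have hcardS : Nat.card S = Nat.card S' := by
        rw [hSdef]; exact Subgroup.card_map_of_injective H.subtype_injective
      have hcardmul : Nat.card S * p = Nat.card H := by
        rw [hcardS, hpdef]; exact S'.card_mul_index
      have hpH : p ∣ Nat.card H := Dvd.intro_left _ hcardmul
      have hSlt : Nat.card S ≤ N := by
        have h2 : 2 ≤ p := hpp.two_le
        have hpos : 0 < Nat.card S := Nat.card_pos
        nlinarith
      have hSsol : Group.IsSolvable S :=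
        Group.isSolvable_of_isSolvable_injective (Subgroup.inclusion_injective hSH)
      have hSdvd : Nat.card S ∣ Nat.card H := Subgroup.card_dvd_of_le hSH
      obtain ⟨lS, hlS, hfS⟩ := ih S hSlt hSsol (Nat.Coprime.coprime_dvd_left hSdvd hcop)
      obtain ⟨W, hWdef⟩ : ∃ W, W = M ⊓ Subgroup.centralizer (S : Set G) := ⟨_, rfl⟩
      obtain ⟨W₀, hW₀def⟩ : ∃ W₀, W₀ = M ⊓ Subgroup.centralizer (H : Set G) := ⟨_, rfl⟩
      have hW₀W : W₀ ≤ W := by
        rw [hWdef, hW₀def]
        exact inf_le_inf_left _ (Subgroup.centralizer_le (by exact_mod_cast hSH))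
      have hWM : W ≤ M := by rw [hWdef]; exact inf_le_left
      have hmul : W₀.relIndex W * W.relIndex M = W₀.relIndex M :=
        Subgroup.relIndex_mul_relIndex W₀ W M hW₀W hWM
      -- S is normalized by H
      have hSnorm : ∀ h ∈ H, ∀ s ∈ S, h⁻¹ * s * h ∈ S := by
        intro h hh s hs
        rw [hSdef] at hs ⊢
        obtain ⟨s', hs', rfl⟩ := hs
        have := hS'n.conj_mem s' hs' (⟨h, hh⟩⁻¹ : H)
        refine ⟨(⟨h, hh⟩⁻¹ : H) * s' * (⟨h, hh⟩⁻¹ : H)⁻¹, this, ?_⟩
        simp
      have hWmem : ∀ w, w ∈ W ↔ w ∈ M ∧ ∀ s ∈ S, s * w = w * s := by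
        intro w
        rw [hWdef, Subgroup.mem_inf, Subgroup.mem_centralizer_iff]
        rfl
      have hconj : ∀ h ∈ H, ∀ w ∈ W, h * w * h⁻¹ ∈ W := by
        intro h hh w hw
        rw [hWmem] at hw ⊢
        refine ⟨hMn.conj_mem w hw.1 h, ?_⟩
        intro s hs
        have h1 := hw.2 _ (hSnorm h hh s hs)
        calc s * (h * w * h⁻¹) = h * ((h⁻¹ * s * h) * w) * h⁻¹ := by group
          _ = h * (w * (h⁻¹ * s * h)) * h⁻¹ := by rw [h1]
          _ = h * w * h⁻¹ * s := by group
      -- element outside S
      have hex : ∃ g : H, g ∉ S' := by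
        by_contra hcon
        push_neg at hcon
        have : S' = ⊤ := by
          rw [eq_top_iff]; intro x _; exact hcon x
        rw [this, Subgroup.index_top] at hS'p
        exact Nat.not_prime_one hS'p
      obtain ⟨g, hg⟩ := hex
      have hgS : (g : G) ∉ S := by
        intro hgS
        rw [hSdef] at hgS
        obtain ⟨s', hs', hs'g⟩ := hgS
        have : s' = g := Subtype.ext hs'g
        exact hg (this ▸ hs')
      have hgp : (g : G) ^ p ∈ S := by
        rw [hSdef]
        refine ⟨g ^ p, ?_, by simp⟩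
        rw [hpdef]
        exact Subgroup.pow_index_mem S' g
      let σ : Equiv.Perm W :=
        { toFun := fun w => ⟨(g : G) * w.1 * (g : G)⁻¹, hconj g.1 g.2 w.1 w.2⟩
          invFun := fun w => ⟨(g : G)⁻¹ * w.1 * (g : G), by
            have := hconj (g : G)⁻¹ (H.inv_mem g.2) w.1 w.2
            simpa using this⟩
          left_inv := by
            intro w; apply Subtype.ext; show (g : G)⁻¹ * ((g : G) * w.1 * (g : G)⁻¹) * (g : G) = w.1
            group
          right_inv := by
            intro w; apply Subtype.ext; show (g : G) * ((g : G)⁻¹ * w.1 * (g : G)) * (g : G)⁻¹ = w.1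
            group }
      have hσapply : ∀ w : W, ((σ w : W) : G) = (g : G) * w.1 * (g : G)⁻¹ := fun w => rfl
      have hσpow : ∀ (k : ℕ) (w : W), (((σ ^ k) w : W) : G) = (g : G) ^ k * w.1 * ((g : G) ^ k)⁻¹ := by
        intro k
        induction k with
        | zero => intro w; simp
        | succ k ihk =>
          intro w
          rw [pow_succ', Equiv.Perm.mul_apply, hσapply, ihk, pow_succ']
          group
      have hσp : σ ^ p = 1 := by
        ext w
        rw [hσpow, Equiv.Perm.one_apply]
        have hw := ((hWmem w.1).mp w.2).2 _ hgp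
        rw [hw]; group
      have hmod := card_modEq_fix p σ hσp
      have hfix : ∀ w : W, σ w = w ↔ w ∈ W₀.subgroupOf W := by
        intro w
        rw [Subgroup.mem_subgroupOf, hW₀def, Subgroup.mem_inf, Subgroup.mem_centralizer_iff]
        constructor
        · intro hw
          have hw1 : (g : G) * w.1 * (g : G)⁻¹ = w.1 := by
            have := congrArg Subtype.val hw
            rwa [hσapply] at this
          have hgw : (g : G) * w.1 = w.1 * (g : G) := by
            calc (g : G) * w.1 = ((g : G) * w.1 * (g : G)⁻¹) * (g : G) := by group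
              _ = w.1 * (g : G) := by rw [hw1]
          refine ⟨hWM w.2, ?_⟩
          -- T = H ⊓ C(w)
          obtain ⟨T, hTdef⟩ : ∃ T, T = H ⊓ Subgroup.centralizer ({w.1} : Set G) := ⟨_, rfl⟩
          have hTmem : ∀ x, x ∈ T ↔ x ∈ H ∧ w.1 * x = x * w.1 := by
            intro x
            rw [hTdef, Subgroup.mem_inf, Subgroup.mem_centralizer_iff]
            simp
          have hST : S ≤ T := by
            intro s hs
            rw [hTmem]
            exact ⟨hSH hs, (((hWmem w.1).mp w.2).2 s hs).symm⟩
          have hTH : T ≤ H := by rw [hTdef]; exact inf_le_left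
          have hgT : (g : G) ∈ T := by
            rw [hTmem]; exact ⟨g.2, hgw.symm⟩
          have hrel : S.relIndex T * T.relIndex H = S.relIndex H :=
            Subgroup.relIndex_mul_relIndex S T H hST hTH
          have hSrel : S.relIndex H = p := by
            rw [Subgroup.relIndex, hSdef, hpdef]
            congr 1
            exact Subgroup.comap_map_eq_self_of_injective H.subtype_injective S'
          rw [hSrel] at hrel
          have hdvd : T.relIndex H ∣ p := Dvd.intro_left _ hrel
          rcases (Nat.dvd_prime hpp).mp hdvd with h1 | h1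
          · have hHT : H ≤ T := Subgroup.relIndex_eq_one.mp h1
            intro h hh
            exact (((hTmem h).mp (hHT hh)).2).symm
          · rw [h1] at hrel
            have h2 : S.relIndex T = 1 := by
              have hppos : 0 < p := hpp.pos
              exact Nat.eq_of_mul_eq_mul_right hppos (by rw [hrel, one_mul])
            have hTS : T ≤ S := Subgroup.relIndex_eq_one.mp h2
            exact absurd (hTS hgT) hgS
        · rintro ⟨-, hw⟩
          apply Subtype.ext
          rw [hσapply]
          have := hw (g : G) g.2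
          calc (g : G) * w.1 * (g : G)⁻¹ = ((g : G) * w.1) * (g : G)⁻¹ := by group
            _ = (w.1 * (g : G)) * (g : G)⁻¹ := by rw [this]
            _ = w.1 := by group
      have hcfix : Nat.card {w : W // σ w = w} = Nat.card (W₀.subgroupOf W) :=
        Nat.card_congr (Equiv.subtypeEquivRight hfix)
      rw [hcfix] at hmod
      have hcW : Nat.card (W₀.subgroupOf W) * W₀.relIndex W = Nat.card W :=
        Subgroup.card_mul_index (W₀.subgroupOf W)
      have hWdvd : Nat.card W ∣ Nat.card M := Subgroup.card_dvd_of_le hWM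
      have hc₀dvd : Nat.card (W₀.subgroupOf W) ∣ Nat.card M :=
        (Dvd.intro _ hcW).trans hWdvd
      have hcopp : Nat.Coprime p (Nat.card (W₀.subgroupOf W)) :=
        Nat.Coprime.coprime_dvd_left hpH (Nat.Coprime.coprime_dvd_right hc₀dvd hcop)
      have hy1 : W₀.relIndex W ≡ 1 [MOD p] := by
        apply Nat.ModEq.cancel_right_of_coprime hcopp
        rw [one_mul, mul_comm, hcW]
        exact hmod
      have hyM : W₀.relIndex W ∣ Nat.card M := (Subgroup.relIndex_dvd_card W₀ W).trans hWdvd
      have hyq : ∃ e, W₀.relIndex W = q ^ e := by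
        rw [ha] at hyM
        obtain ⟨j, -, hj⟩ := (Nat.dvd_prime_pow hq).mp hyM
        exact ⟨j, hj⟩
      refine ⟨W₀.relIndex W :: lS, ?_, ?_⟩
      · rw [List.prod_cons, ← hlS, ← hWdef, ← hW₀def]
        exact hmul.symm
      · intro x hx
        rcases List.mem_cons.mp hx with rfl | hx
        · exact ⟨hyq, hyM, p, hpp, hpH, hy1⟩
        · obtain ⟨h1, h2, r, hr, hrS, hrm⟩ := hfS x hx
          exact ⟨h1, h2, r, hr, hrS.trans hSdvd, hrm⟩


theorem main_ind (N : ℕ) : ∀ (G : Type u) [Group G] [Finite G] [Group.IsSolvable G],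
    Nat.card G ≤ N → ∀ (H : Subgroup G), (Nat.card H).Coprime H.index →
    ∃ l : List ℕ, (Subgroup.normalizer (H : Set G)).index = l.prod ∧
      ∀ x ∈ l, Fac G (Nat.card H) x := by
  induction N with
  | zero =>
    intro G _ _ _ hG
    exact absurd hG (by have : 0 < Nat.card G := Nat.card_pos; omega)
  | succ N ih =>
    intro G _ _ _ hGN H hcop
    by_cases htriv : Subsingleton G
    · refine ⟨[], ?_, by simp⟩
      rw [List.prod_nil, Subgroup.index_eq_one, eq_top_iff]
      intro x _
      have : x = 1 := Subsingleton.elim _ _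
      rw [this]; exact one_mem _
    · haveI : Nontrivial G := not_subsingleton_iff_nontrivial.mp htriv
      obtain ⟨M, hMn, hMbot, hMmin⟩ := Cfsg.Agent.Lib.helper1.exists_min_normal G
      haveI := hMn
      obtain ⟨-, q, hq, hMexp⟩ := Cfsg.Agent.S0043.result M hMbot hMmin
      haveI : Fact q.Prime := ⟨hq⟩
      have hMp : IsPGroup q M := by
        rintro ⟨x, hx⟩
        refine ⟨1, ?_⟩
        apply Subtype.ext
        simpa using hMexp x hx
      obtain ⟨a, ha⟩ := IsPGroup.iff_card.mp hMp
      have hπ : Function.Surjective (QuotientGroup.mk' M) := QuotientGroup.mk'_surjective M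
      obtain ⟨π, hπdef⟩ : ∃ π : G →* G ⧸ M, π = QuotientGroup.mk' M := ⟨_, rfl⟩
      rw [← hπdef] at hπ
      have hker : π.ker = M := by rw [hπdef]; exact QuotientGroup.ker_mk' M
      have hquot : Nat.card (G ⧸ M) ≤ N := by
        have h1 : Nat.card M * M.index = Nat.card G := M.card_mul_index
        have h2 : 1 < Nat.card M := (Subgroup.one_lt_card_iff_ne_bot M).mpr hMbot
        have h3 : M.index = Nat.card (G ⧸ M) := Subgroup.index_eq_card M
        have h4 : 0 < Nat.card (G ⧸ M) := Nat.card_pos
        rw [h3] at h1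
        nlinarith
      obtain ⟨Hb, hHbdef⟩ : ∃ Hb, Hb = H.map π := ⟨_, rfl⟩
      have hcard_dvd : Nat.card Hb ∣ Nat.card H := by
        rw [hHbdef]; exact Subgroup.card_map_dvd H π
      have hidx_dvd : Hb.index ∣ H.index := by
        rw [hHbdef]; exact Subgroup.index_map_dvd H hπ
      have hcopb : (Nat.card Hb).Coprime Hb.index :=
        Nat.Coprime.coprime_dvd_left hcard_dvd (Nat.Coprime.coprime_dvd_right hidx_dvd hcop)
      obtain ⟨lb, hlb, hfb⟩ := ih (G ⧸ M) hquot Hb hcopb
      obtain ⟨J, hJdef⟩ : ∃ J, J = H ⊔ M := ⟨_, rfl⟩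
      have hNJ : (Subgroup.normalizer (J : Set G)).index = lb.prod := by
        have e1 : (Subgroup.normalizer (Hb : Set (G ⧸ M))).comap π =
            Subgroup.normalizer ((Hb.comap π : Subgroup G) : Set G) :=
          Subgroup.comap_normalizer_eq_of_surjective Hb hπ
        have e2 : Hb.comap π = J := by
          rw [hHbdef, Subgroup.comap_map_eq, hker, hJdef]
        have e3 : ((Subgroup.normalizer (Hb : Set (G ⧸ M))).comap π).index =
            (Subgroup.normalizer (Hb : Set (G ⧸ M))).index :=
          Subgroup.index_comap_of_surjective _ hπ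
        rw [← e2, ← e1, e3, hlb]
      have hFacLift : ∀ x, Fac (G ⧸ M) (Nat.card Hb) x → Fac G (Nat.card H) x := by
        rintro x ⟨hpp, ⟨K, L, hK, hL, hKL, hmin, hdvd⟩, ⟨r, hr, hrdvd, hmod⟩⟩
        refine ⟨hpp, ⟨K.comap π, L.comap π, hK.comap π, hL.comap π, ?_, ?_, ?_⟩,
          ⟨r, hr, hrdvd.trans hcard_dvd, hmod⟩⟩
        · exact (Subgroup.comap_lt_comap_of_surjective hπ).mpr hKL
        · intro X hX hKX hXL
          have hMX : M ≤ X := by
            have hkk : π.ker ≤ K.comap π := Subgroup.ker_le_comap π K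
            rw [hker] at hkk
            exact le_trans hkk hKX
          have hXeq : (X.map π).comap π = X := by
            rw [Subgroup.comap_map_eq, hker]
            exact sup_eq_left.mpr hMX
          have hXn : (X.map π).Normal := Subgroup.Normal.map hX π hπ
          have h1 : K ≤ X.map π := by
            have := Subgroup.map_mono (f := π) hKX
            rwa [Subgroup.map_comap_eq_self_of_surjective hπ] at this
          have h2 : X.map π ≤ L := Subgroup.map_le_iff_le_comap.mpr hXL
          rcases hmin (X.map π) hXn h1 h2 with h | h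
          · left; rw [← hXeq, h]
          · right; rw [← hXeq, h]
        · rw [Subgroup.relIndex_comap, Subgroup.map_comap_eq_self_of_surjective hπ]
          exact hdvd
      have hMnorm : ∀ g : G, M.map (MulAut.conj g).toMonoidHom = M := by
        intro g
        rw [Cfsg.Agent.Lib.helper12.map_conj_eq_iff, Subgroup.normalizer_eq_top]
        trivial
      have hNle : Subgroup.normalizer (H : Set G) ≤ Subgroup.normalizer (J : Set G) := by
        intro g hg
        rw [← Cfsg.Agent.Lib.helper12.map_conj_eq_iff] at hg ⊢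
        rw [hJdef, Subgroup.map_sup, hg, hMnorm]
      have hmul : (Subgroup.normalizer (H : Set G)).relIndex (Subgroup.normalizer (J : Set G)) *
          (Subgroup.normalizer (J : Set G)).index = (Subgroup.normalizer (H : Set G)).index :=
        Subgroup.relIndex_mul_index hNle
      by_cases hqH : q ∣ Nat.card H
      · -- M ≤ H
        have hqi : ¬ q ∣ H.index := by
          intro h
          have := Nat.dvd_gcd hqH h
          rw [Nat.Coprime] at hcop
          rw [hcop] at this
          exact hq.one_lt.ne' (Nat.dvd_one.mp this)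
        have h1 : H.relIndex (H ⊔ M) ∣ H.index :=
          Dvd.intro _ (Subgroup.relIndex_mul_index (le_sup_left : H ≤ H ⊔ M))
        rw [relIndex_sup_normal] at h1
        have h2 : H.relIndex M ∣ Nat.card M := Subgroup.relIndex_dvd_card H M
        rw [ha] at h2
        obtain ⟨j, -, hj⟩ := (Nat.dvd_prime_pow hq).mp h2
        have hj0 : j = 0 := by
          by_contra hj0
          apply hqi
          refine dvd_trans ?_ h1
          rw [hj]
          exact dvd_pow_self q hj0
        rw [hj0, pow_zero] at hj
        have hMH : M ≤ H := Subgroup.relIndex_eq_one.mp hj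
        have hJH : J = H := by rw [hJdef]; exact sup_eq_left.mpr hMH
        rw [hJH] at hNJ
        exact ⟨lb, hNJ, fun x hx => hFacLift x (hfb x hx)⟩
      · have hcopM : (Nat.card H).Coprime (Nat.card M) := by
          rw [ha]
          exact Nat.Coprime.pow_right a ((Nat.Prime.coprime_iff_not_dvd hq).mpr hqH).symm
        have hinf : H ⊓ M = ⊥ := by
          apply Subgroup.eq_bot_of_card_eq
          have h1 : Nat.card (H ⊓ M : Subgroup G) ∣ Nat.card H := Subgroup.card_dvd_of_le inf_le_left
          have h2 : Nat.card (H ⊓ M : Subgroup G) ∣ Nat.card M := Subgroup.card_dvd_of_le inf_le_right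
          have := Nat.dvd_gcd h1 h2
          rw [Nat.Coprime] at hcopM
          rw [hcopM] at this
          exact Nat.dvd_one.mp this
        have hHJ : H ≤ J := by rw [hJdef]; exact le_sup_left
        have hMJ : M ≤ J := by rw [hJdef]; exact le_sup_right
        have hFr : Subgroup.normalizer (J : Set G) ≤ Subgroup.normalizer (H : Set G) ⊔ M := by
          intro g hg
          have hJg : J.map (MulAut.conj g).toMonoidHom = J :=
            (Cfsg.Agent.Lib.helper12.map_conj_eq_iff J g).mpr hg
          obtain ⟨H', hH'def⟩ : ∃ H', H' = H.map (MulAut.conj g).toMonoidHom := ⟨_, rfl⟩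
          have hH'J : H' ≤ J := by
            rw [hH'def, ← hJg]; exact Subgroup.map_mono hHJ
          have hcardH' : Nat.card H' = Nat.card H := by
            rw [hH'def]; exact Subgroup.card_map_of_injective (MulAut.conj g).injective
          have hc1 : Nat.card (H.subgroupOf J) = Nat.card H :=
            Cfsg.Agent.Lib.helper8.card_subgroupOf_of_le hHJ
          have hc2 : Nat.card (H'.subgroupOf J) = Nat.card H := by
            rw [Cfsg.Agent.Lib.helper8.card_subgroupOf_of_le hH'J, hcardH']
          have hJcard : Nat.card J = Nat.card H * H.relIndex J :=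
            (card_mul_relIndex' H J hHJ).symm
          have hcopJ : (Nat.card H).Coprime (H.relIndex J) :=
            Nat.Coprime.coprime_dvd_right (Dvd.intro _ (Subgroup.relIndex_mul_index hHJ)) hcop
          obtain ⟨j, hj⟩ := Cfsg.Agent.S0004.result (G := J) (Nat.card H) (H.relIndex J)
            hJcard hcopJ (H.subgroupOf J) (H'.subgroupOf J) hc1 hc2
          have ht : (j.1)⁻¹ * g ∈ Subgroup.normalizer (H : Set G) := by
            apply mem_normalizer_of_forall
            intro h hh
            have h1 : g * h * g⁻¹ ∈ H' := by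
              rw [hH'def]; exact ⟨h, hh, rfl⟩
            have h2 : (⟨g * h * g⁻¹, hH'J h1⟩ : J) ∈ H'.subgroupOf J := by
              rw [Subgroup.mem_subgroupOf]; exact h1
            rw [← hj, Subgroup.mem_pointwise_smul_iff_inv_smul_mem, Subgroup.mem_subgroupOf] at h2
            have h3 : (((MulAut.conj j)⁻¹ • (⟨g * h * g⁻¹, hH'J h1⟩ : J) : J) : G) =
                j.1⁻¹ * (g * h * g⁻¹) * j.1 := by
              simp [MulAut.smul_def]
            rw [h3] at h2
            convert h2 using 1
            group
          have hgeq : g = j.1 * ((j.1)⁻¹ * g) := by group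
          rw [hgeq]
          refine Subgroup.mul_mem _ ?_ (Subgroup.mem_sup_left ht)
          have : J ≤ Subgroup.normalizer (H : Set G) ⊔ M := by
            rw [hJdef]
            exact sup_le (Subgroup.le_normalizer.trans le_sup_left) le_sup_right
          exact this j.2
        have hJeq : Subgroup.normalizer (J : Set G) = Subgroup.normalizer (H : Set G) ⊔ M :=
          le_antisymm hFr (sup_le hNle (hMJ.trans Subgroup.le_normalizer))
        have hNC : Subgroup.normalizer (H : Set G) ⊓ M = M ⊓ Subgroup.centralizer (H : Set G) := by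
          apply le_antisymm
          · rintro x ⟨hxN, hxM⟩
            refine ⟨hxM, Subgroup.mem_centralizer_iff.mpr ?_⟩
            intro h hh
            have h1 : x * h * x⁻¹ * h⁻¹ ∈ H ⊓ M := by
              constructor
              · exact H.mul_mem ((Subgroup.mem_normalizer_iff.mp hxN h).mp hh) (H.inv_mem hh)
              · have : x * h * x⁻¹ * h⁻¹ = x * (h * x⁻¹ * h⁻¹) := by group
                rw [this]
                exact M.mul_mem hxM (hMn.conj_mem _ (M.inv_mem hxM) h)
            rw [hinf, Subgroup.mem_bot] at h1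
            have : x * h = h * x := by
              calc x * h = (x * h * x⁻¹ * h⁻¹) * (h * x) := by group
                _ = h * x := by rw [h1, one_mul]
            exact this.symm
          · rintro x ⟨hxM, hxC⟩
            exact ⟨Subgroup.centralizer_le_normalizer _ hxC, hxM⟩
        have hc : (Subgroup.normalizer (H : Set G)).relIndex (Subgroup.normalizer (J : Set G)) =
            (M ⊓ Subgroup.centralizer (H : Set G)).relIndex M := by
          rw [hJeq, relIndex_sup_normal, ← hNC, Subgroup.inf_relIndex_right]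
        obtain ⟨l', hl', hf'⟩ := fix_index q hq M ⟨a, ha⟩ (Nat.card H) H le_rfl inferInstance hcopM
        refine ⟨l' ++ lb, ?_, ?_⟩
        · rw [List.prod_append, ← hl', ← hNJ, ← hc]
          exact hmul.symm
        · intro x hx
          rcases List.mem_append.mp hx with hx | hx
          · obtain ⟨⟨e, he⟩, hxM, r, hr, hrH, hrm⟩ := hf' x hx
            refine ⟨⟨q, e, hq, he⟩, ⟨⊥, M, inferInstance, hMn, bot_lt_iff_ne_bot.mpr hMbot, ?_, ?_⟩,
              ⟨r, hr, hrH, hrm⟩⟩
            · intro X hX _ hXM
              exact hMmin X hX hXM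
            · rw [Subgroup.relIndex_bot_left]; exact hxM
          · exact hFacLift x (hfb x hx)

theorem result {G : Type*} [Group G] [Finite G] [Group.IsSolvable G] (m n : ℕ) (hG : Nat.card G = m * n) (hmn : Nat.Coprime m n) : ∃ (k : ℕ) (f : Fin k → ℕ), Nat.card {H : Subgroup G // Nat.card H = m} = ∏ i, f i ∧ ∀ i, (∃ q e : ℕ, q.Prime ∧ f i = q ^ e) ∧ (∃ K L : Subgroup G, K.Normal ∧ L.Normal ∧ K < L ∧ (∀ M : Subgroup G, M.Normal → K ≤ M → M ≤ L → M = K ∨ M = L) ∧ f i ∣ K.relIndex L) ∧ (∃ q : ℕ, q.Prime ∧ q ∣ m ∧ f i ≡ 1 [MOD q]) := by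
  obtain ⟨H, hH⟩ := Cfsg.Agent.S0003.result m n hG hmn
  have hm : 0 < m := by
    rcases Nat.eq_zero_or_pos m with h | h
    · rw [h, zero_mul] at hG
      have : 0 < Nat.card G := Nat.card_pos
      omega
    · exact h
  have hidx : H.index = n := by
    have h1 := H.card_mul_index
    rw [hH, hG] at h1
    exact Nat.eq_of_mul_eq_mul_left hm h1
  have hcop : (Nat.card H).Coprime H.index := by rw [hH, hidx]; exact hmn
  obtain ⟨l, hl, hf⟩ := main_ind (Nat.card G) G le_rfl H hcop
  have hcount := count_eq_index H hcop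
  rw [hH] at hcount hf
  refine ⟨l.length, fun i => l.get i, ?_, ?_⟩
  · rw [hcount, hl, ← List.prod_ofFn, List.ofFn_get]
  · intro i
    exact hf (l.get i) (List.get_mem l i)

end Cfsg.Agent.S4214
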