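import Cfsg.Statements.S4217
import Cfsg.Agent.Lib.helper1.Gaschutz
import Cfsg.Agent.S0122
import Mathlib

set_option autoImplicit false
open Cfsg

namespace Cfsg.Agent.S4217

theorem torsion_sub {G : Type*} [Group G] (A : Subgroup G) [A.Normal]
    (hcomm : ∀ x ∈ A, ∀ y ∈ A, x * y = y * x) (m : ℕ) :
    ∃ B : Subgroup G, B.Normal ∧ B ≤ A ∧ ∀ x, x ∈ B ↔ x ∈ A ∧ x ^ m = 1 := by
  refine ⟨{ carrier := {x | x ∈ A ∧ x ^ m = 1}
            mul_mem' := ?_, one_mem' := ?_, inv_mem' := ?_ }, ?_, ?_, ?_⟩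
  · rintro x y ⟨hx, hx'⟩ ⟨hy, hy'⟩
    refine ⟨mul_mem hx hy, ?_⟩
    have hc : Commute x y := hcomm x hx y hy
    rw [hc.mul_pow, hx', hy', one_mul]
  · exact ⟨one_mem _, one_pow _⟩
  · rintro x ⟨hx, hx'⟩
    exact ⟨inv_mem hx, by rw [inv_pow, hx', inv_one]⟩
  · constructor
    rintro x ⟨hx, hx'⟩ g
    refine ⟨Subgroup.Normal.conj_mem inferInstance x hx g, ?_⟩
    rw [conj_pow, hx']; simp
  · intro x hx; exact hx.1
  · intro x; exact Iff.rfl

theorem local_compl {G : Type*} [Group G] [Finite G] (A : Subgroup G) [A.Normal]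
    (hcomm : ∀ x ∈ A, ∀ y ∈ A, x * y = y * x)
    (q : ℕ) (hq : q.Prime) (U K : Subgroup G) (hKA : K ⊓ A = ⊥) (hU : K ⊔ A = U)
    (hqU : ¬ q ∣ U.index) :
    ∃ H : Subgroup G, H.index ∣ q ^ (Nat.card A).factorization q ∧
      ∀ x ∈ H, x ∈ A → x ^ (Nat.card A / q ^ (Nat.card A).factorization q) = 1 := by
  haveI : Fact q.Prime := ⟨hq⟩
  obtain ⟨n, hn⟩ : ∃ n, n = Nat.card A := ⟨_, rfl⟩
  rw [← hn]
  have hn0 : n ≠ 0 := by rw [hn]; exact Nat.card_pos.ne'
  obtain ⟨qn, hqn⟩ : ∃ qn, qn = q ^ n.factorization q := ⟨_, rfl⟩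
  obtain ⟨m, hm⟩ : ∃ m, m = n / q ^ n.factorization q := ⟨_, rfl⟩
  rw [← hm]
  have hnm : qn * m = n := by rw [hqn, hm]; exact Nat.ordProj_mul_ordCompl_eq_self n q
  have hcop : Nat.Coprime qn m := by
    rw [hqn, hm]; exact (Nat.coprime_ordCompl hq hn0).pow_left _
  obtain ⟨Aq, hAqN, hAqA, hAq⟩ := torsion_sub A hcomm qn
  obtain ⟨Aq', hAq'N, hAq'A, hAq'⟩ := torsion_sub A hcomm m
  haveI := hAqN
  haveI := hAq'N
  haveI hAqcomm : IsMulCommutative Aq :=
    ⟨⟨fun a b => Subtype.ext (hcomm a (hAqA a.2) b (hAqA b.2))⟩⟩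
  have hpow : ∀ x ∈ A, x ^ n = 1 := by
    intro x hx
    have h1 : (⟨x, hx⟩ : A) ^ Nat.card A = 1 := pow_card_eq_one'
    rw [hn]
    exact congrArg Subtype.val h1
  obtain ⟨u, v, huv⟩ : ∃ u v : ℤ, (qn : ℤ) * u + (m : ℤ) * v = 1 := by
    refine ⟨Nat.gcdA qn m, Nat.gcdB qn m, ?_⟩
    rw [← Nat.gcd_eq_gcd_ab, hcop.gcd_eq_one]; rfl
  have hdec : ∀ x ∈ A, x ^ ((m : ℤ) * v) ∈ Aq ∧ x ^ ((qn : ℤ) * u) ∈ Aq' ∧
      x = x ^ ((m : ℤ) * v) * x ^ ((qn : ℤ) * u) := by
    intro x hx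
    refine ⟨?_, ?_, ?_⟩
    · rw [hAq]
      refine ⟨zpow_mem hx _, ?_⟩
      rw [← zpow_natCast, ← zpow_mul]
      have e : (m : ℤ) * v * (qn : ℤ) = (n : ℤ) * v := by rw [← hnm]; push_cast; ring
      rw [e, zpow_mul, zpow_natCast, hpow x hx, one_zpow]
    · rw [hAq']
      refine ⟨zpow_mem hx _, ?_⟩
      rw [← zpow_natCast, ← zpow_mul]
      have e : (qn : ℤ) * u * (m : ℤ) = (n : ℤ) * u := by rw [← hnm]; push_cast; ring
      rw [e, zpow_mul, zpow_natCast, hpow x hx, one_zpow]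
    · rw [← zpow_add]
      have e : (m : ℤ) * v + (qn : ℤ) * u = 1 := by rw [← huv]; ring
      rw [e, zpow_one]
  have hinf : Aq ⊓ Aq' = ⊥ := by
    rw [eq_bot_iff]
    intro x hx
    obtain ⟨h1, h2⟩ := Subgroup.mem_inf.mp hx
    have h1' := ((hAq x).mp h1).2
    have h2' := ((hAq' x).mp h2).2
    have h3 : orderOf x ∣ Nat.gcd qn m :=
      Nat.dvd_gcd (orderOf_dvd_of_pow_eq_one h1') (orderOf_dvd_of_pow_eq_one h2')
    rw [hcop.gcd_eq_one, Nat.dvd_one, orderOf_eq_one_iff] at h3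
    rw [Subgroup.mem_bot]; exact h3
  have hsup : Aq ⊔ Aq' = A := by
    apply le_antisymm (sup_le hAqA hAq'A)
    intro x hx
    obtain ⟨h1, h2, h3⟩ := hdec x hx
    rw [h3]
    exact mul_mem (Subgroup.mem_sup_left h1) (Subgroup.mem_sup_right h2)
  have hAqp : IsPGroup q Aq := by
    intro x
    refine ⟨n.factorization q, Subtype.ext ?_⟩
    have := ((hAq x).mp x.2).2
    rw [hqn] at this
    simpa using this
  obtain ⟨j, hj⟩ := IsPGroup.iff_card.mp hAqp
  have hcopU : (Nat.card Aq).Coprime U.index := by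
    rw [hj]; exact Nat.Coprime.pow_left _ ((Nat.Prime.coprime_iff_not_dvd hq).mpr hqU)
  have h1 : (K ⊔ Aq') ⊓ Aq = ⊥ := by
    rw [eq_bot_iff]
    intro x hx
    obtain ⟨hx1, hx2⟩ := Subgroup.mem_inf.mp hx
    rw [Subgroup.mem_sup_of_normal_right] at hx1
    obtain ⟨k, hk, a, ha, rfl⟩ := hx1
    have hkA : k ∈ A := by
      have : k = (k * a) * a⁻¹ := by group
      rw [this]; exact mul_mem (hAqA hx2) (inv_mem (hAq'A ha))
    have hk1 : k = 1 := by
      have : k ∈ K ⊓ A := ⟨hk, hkA⟩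
      rw [hKA, Subgroup.mem_bot] at this
      exact this
    rw [hk1, one_mul] at hx2 ⊢
    have : a ∈ Aq ⊓ Aq' := ⟨hx2, ha⟩
    rw [hinf] at this
    exact this
  have h2 : Aq ⊔ (K ⊔ Aq') = U := by
    rw [← hU, ← hsup, sup_left_comm]
  obtain ⟨H, hH⟩ := Cfsg.Agent.Lib.helper1.gaschutz_exists (K := Aq) (U := U) (A := K ⊔ Aq')
    hcopU h1 h2
  refine ⟨H, ?_, ?_⟩
  · rw [hH.index_eq_card, hj]
    have h3 : q ^ j ∣ n := by rw [← hj, hn]; exact Subgroup.card_dvd_of_le hAqA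
    exact pow_dvd_pow q ((hq.pow_dvd_iff_le_factorization hn0).mp h3)
  · intro x hxH hxA
    obtain ⟨h1, h2, h3⟩ := hdec x hxA
    have h4 : x ^ ((m : ℤ) * v) = 1 := by
      have h5 : x ^ ((m : ℤ) * v) ∈ Aq ⊓ H := ⟨h1, zpow_mem hxH _⟩
      rw [hH.disjoint.eq_bot, Subgroup.mem_bot] at h5
      exact h5
    rw [h4, one_mul] at h3
    rw [h3]
    exact ((hAq' _).mp h2).2

/-- Let `A` be an abelian normal subgroup of the finite group `G`. Then `A` has a complement in `G` if and only if, for every prime `p` dividing the index of `A`, there are a Sylow `p`-subgroup `S` of `G/A` and a subgroup `K` of `G` with `K ∩ A = 1` and `KA` equal to the preimage of `S` (that is, `A` has a complement in the preimage of a Sylow `p`-subgroup of `G/A`). -/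
theorem result {G : Type*} [Group G] [Finite G] (A : Subgroup G) [A.Normal] (hA : IsMulCommutative A) : (∃ K : Subgroup G, K.IsComplement' A) ↔ ∀ p : ℕ, p.Prime → p ∣ A.index → ∃ (S : Sylow p (G ⧸ A)) (K : Subgroup G), K ⊓ A = ⊥ ∧ K ⊔ A = (S : Subgroup (G ⧸ A)).comap (QuotientGroup.mk' A) := by
  have hcomm : ∀ x ∈ A, ∀ y ∈ A, x * y = y * x := by
    intro x hx y hy
    have := mul_comm' (⟨x, hx⟩ : A) ⟨y, hy⟩
    exact congrArg Subtype.val this
  constructor
  · rintro ⟨K, hK⟩ p hp hpA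
    haveI : Fact p.Prime := ⟨hp⟩
    obtain ⟨S⟩ : Nonempty (Sylow p (G ⧸ A)) := inferInstance
    have hAle : A ≤ (S : Subgroup (G ⧸ A)).comap (QuotientGroup.mk' A) := by
      intro a ha
      rw [Subgroup.mem_comap]
      have : (QuotientGroup.mk' A) a = 1 := (QuotientGroup.eq_one_iff a).mpr ha
      rw [this]; exact one_mem _
    refine ⟨S, K ⊓ (S : Subgroup (G ⧸ A)).comap (QuotientGroup.mk' A), ?_, ?_⟩
    · rw [inf_right_comm, hK.disjoint.eq_bot, bot_inf_eq]
    · apply le_antisymm (sup_le inf_le_right hAle)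
      intro x hx
      have hx' : x ∈ K ⊔ A := by rw [hK.sup_eq_top]; trivial
      rw [Subgroup.mem_sup_of_normal_right] at hx'
      obtain ⟨k, hk, a, ha, rfl⟩ := hx'
      have hk' : k ∈ (S : Subgroup (G ⧸ A)).comap (QuotientGroup.mk' A) := by
        have : k = (k * a) * a⁻¹ := by group
        rw [this]; exact mul_mem hx (inv_mem (hAle ha))
      exact mul_mem (Subgroup.mem_sup_left ⟨hk, hk'⟩) (Subgroup.mem_sup_right ha)
  · intro h
    obtain ⟨n, hn⟩ : ∃ n, n = Nat.card A := ⟨_, rfl⟩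
    have hn0 : n ≠ 0 := by rw [hn]; exact Nat.card_pos.ne'
    have hex : ∀ q : ℕ, q.Prime → ∃ H : Subgroup G, H.index ∣ q ^ n.factorization q ∧
        ∀ x ∈ H, x ∈ A → x ^ (n / q ^ n.factorization q) = 1 := by
      intro q hq
      rw [hn]
      by_cases hqA : q ∣ A.index
      · obtain ⟨S, K, hK1, hK2⟩ := h q hq hqA
        refine local_compl A hcomm q hq _ K hK1 hK2 ?_
        rw [Subgroup.index_comap_of_surjective _ (QuotientGroup.mk'_surjective A)]
        haveI : Fact q.Prime := ⟨hq⟩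
        exact S.not_dvd_index
      · exact local_compl A hcomm q hq A ⊥ (bot_inf_eq _) (bot_sup_eq _) hqA
    choose Hf hHf1 hHf2 using hex
    obtain ⟨H, hH⟩ : ∃ H : Subgroup G,
        H = ⨅ q : n.primeFactors, Hf q.1 (Nat.prime_of_mem_primeFactors q.2) := ⟨_, rfl⟩
    have hidx : H.index ≤ n := by
      calc H.index ≤ ∏ q : n.primeFactors,
            (Hf q.1 (Nat.prime_of_mem_primeFactors q.2)).index := by
            rw [hH]; exact Subgroup.index_iInf_le _
        _ ≤ ∏ q : n.primeFactors, q.1 ^ n.factorization q.1 := by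
            apply Finset.prod_le_prod'
            intro q _
            exact Nat.le_of_dvd (pow_pos (Nat.prime_of_mem_primeFactors q.2).pos _) (hHf1 _ _)
        _ = n := by
            rw [Finset.prod_coe_sort (s := n.primeFactors) (f := fun q => q ^ n.factorization q)]
            have := Nat.prod_factorization_pow_eq_self hn0
            rw [Finsupp.prod, Nat.support_factorization] at this
            exact this
    have hdisj : H ⊓ A = ⊥ := by
      rw [eq_bot_iff]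
      intro x hx
      obtain ⟨hxH, hxA⟩ := Subgroup.mem_inf.mp hx
      rw [Subgroup.mem_bot]
      by_contra hx1
      have hord : orderOf x ≠ 1 := by rwa [Ne, orderOf_eq_one_iff]
      obtain ⟨q, hq, hqx⟩ := Nat.exists_prime_and_dvd hord
      have hxn : orderOf x ∣ n := by
        have h1 : (⟨x, hxA⟩ : A) ^ Nat.card A = 1 := pow_card_eq_one'
        rw [hn]
        exact orderOf_dvd_of_pow_eq_one (congrArg Subtype.val h1)
      have hqn : q ∈ n.primeFactors := Nat.mem_primeFactors.mpr ⟨hq, hqx.trans hxn, hn0⟩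
      have hxHq : x ∈ Hf q hq := by
        rw [hH, Subgroup.mem_iInf] at hxH
        exact hxH ⟨q, hqn⟩
      have hxq := hHf2 q hq x hxHq hxA
      have : q ∣ n / q ^ n.factorization q := hqx.trans (orderOf_dvd_of_pow_eq_one hxq)
      exact Nat.not_dvd_ordCompl hq hn0 this
    refine ⟨H, ?_⟩
    apply Subgroup.isComplement'_of_card_mul_and_disjoint _ (disjoint_iff.mpr hdisj)
    have h1 := Cfsg.Agent.S0122.card_sup_mul_card_inf H A
    rw [hdisj, Subgroup.card_bot, mul_one] at h1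
    have h2 : Nat.card ↥(H ⊔ A) ≤ Nat.card G := Subgroup.card_le_card_group _
    have h3 := Subgroup.card_mul_index H
    rw [← hn] at h1 ⊢
    apply le_antisymm
    · rw [← h1]; exact h2
    · rw [← h3]; exact Nat.mul_le_mul_left _ hidx

end Cfsg.Agent.S4217
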