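import Cfsg.Statements.S4218
-- import your own Cfsg.Agent.* helpers here
import Cfsg.Agent.Lib.helper16.PSolv
import Cfsg.Agent.Lib.helper9.PPrimeCore
import Cfsg.Agent.Lib.helper1.PGroup
import Cfsg.Agent.S4207

set_option autoImplicit false
open Cfsg

namespace Cfsg.Agent.S4218

section
variable {G : Type*} [Group G] (N P : Subgroup G) [N.Normal] [P.Normal]

theorem map_conj_subgroupOf (g : G) :
    (N.subgroupOf P).map ((MulAut.conjNormal g : MulAut ↥P) : ↥P →* ↥P) = N.subgroupOf P := by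
  ext y
  constructor
  · rintro ⟨x, hx, rfl⟩
    have hx' : (x : G) ∈ N := hx
    show ((MulAut.conjNormal g x : ↥P) : G) ∈ N
    rw [MulAut.conjNormal_apply]
    exact (inferInstance : N.Normal).conj_mem _ hx' g
  · intro hy
    have hy' : (y : G) ∈ N := hy
    refine ⟨(MulAut.conjNormal g⁻¹ : MulAut ↥P) y, ?_, ?_⟩
    · show (((MulAut.conjNormal g⁻¹ : MulAut ↥P) y : ↥P) : G) ∈ N
      rw [MulAut.conjNormal_apply]
      exact (inferInstance : N.Normal).conj_mem _ hy' g⁻¹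
    · apply Subtype.ext
      show ((MulAut.conjNormal g ((MulAut.conjNormal g⁻¹ : MulAut ↥P) y) : ↥P) : G) = (y : G)
      rw [MulAut.conjNormal_apply, MulAut.conjNormal_apply]
      group

/-- the automorphism of `P/N` induced by conjugation with `g` -/
noncomputable def alpha (g : G) : MulAut (↥P ⧸ N.subgroupOf P) :=
  QuotientGroup.congr (N.subgroupOf P) (N.subgroupOf P) (MulAut.conjNormal g : MulAut ↥P)
    (map_conj_subgroupOf N P g)

theorem alpha_mk (g : G) (y : ↥P) :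
    alpha N P g (QuotientGroup.mk' (N.subgroupOf P) y) =
      QuotientGroup.mk' (N.subgroupOf P) ((MulAut.conjNormal g : MulAut ↥P) y) := rfl

/-- `g ↦ alpha g` as a homomorphism -/
noncomputable def phi : G →* MulAut (↥P ⧸ N.subgroupOf P) where
  toFun := alpha N P
  map_one' := by
    ext z
    obtain ⟨y, rfl⟩ := QuotientGroup.mk'_surjective (N.subgroupOf P) z
    rw [alpha_mk, map_one]; rfl
  map_mul' := by
    intro g h
    ext z
    obtain ⟨y, rfl⟩ := QuotientGroup.mk'_surjective (N.subgroupOf P) z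
    rw [MulAut.mul_apply, alpha_mk, alpha_mk, alpha_mk, map_mul]; rfl

theorem phi_mk (g : G) (y : ↥P) :
    phi N P g (QuotientGroup.mk' (N.subgroupOf P) y) =
      QuotientGroup.mk' (N.subgroupOf P) ((MulAut.conjNormal g : MulAut ↥P) y) := rfl

/-- automorphisms acting trivially on the Frattini quotient -/
def frAut (Q : Type*) [Group Q] : Subgroup (MulAut Q) where
  carrier := {α | ∀ z : Q, α z * z⁻¹ ∈ frattini Q}
  one_mem' := by
    intro z
    show z * z⁻¹ ∈ frattini Q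
    rw [mul_inv_cancel]; exact one_mem _
  mul_mem' := by
    intro a b ha hb z
    have h1 := ha (b z)
    have h2 := hb z
    have e : (a * b) z * z⁻¹ = (a (b z) * (b z)⁻¹) * (b z * z⁻¹) := by
      rw [MulAut.mul_apply]; group
    rw [e]; exact mul_mem h1 h2
  inv_mem' := by
    intro a ha z
    have h1 := ha (a⁻¹ z)
    have e : a (a⁻¹ z) = z := by
      rw [← MulAut.mul_apply, mul_inv_cancel]; rfl
    rw [e] at h1
    have e2 : a⁻¹ z * z⁻¹ = (z * (a⁻¹ z)⁻¹)⁻¹ := by group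
    rw [e2]; exact inv_mem h1

theorem frAut_normal (Q : Type*) [Group Q] : (frAut Q).Normal := by
  constructor
  intro a ha b z
  have hchar : (frattini Q).Characteristic := inferInstance
  have h1 := ha (b⁻¹ z)
  have h2 : b (a (b⁻¹ z) * (b⁻¹ z)⁻¹) ∈ frattini Q := by
    have := Subgroup.ext_iff.mp (hchar.fixed b) (a (b⁻¹ z) * (b⁻¹ z)⁻¹)
    exact this.mpr h1
  have e : (b * a * b⁻¹) z * z⁻¹ = b (a (b⁻¹ z) * (b⁻¹ z)⁻¹) := by
    rw [map_mul, map_inv, MulAut.mul_apply, MulAut.mul_apply]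
    have : b (b⁻¹ z) = z := by rw [← MulAut.mul_apply, mul_inv_cancel]; rfl
    rw [this]
  rw [← e] at h2
  exact h2

end

theorem hh_general {G : Type*} [Group G] [Finite G] {p : ℕ} [Fact p.Prime]
    (N P : Subgroup G) [N.Normal] [P.Normal]
    (hP : P = (Cfsg.pCore p (G ⧸ N)).comap (QuotientGroup.mk' N))
    (hcent : Subgroup.centralizer ((Cfsg.pCore p (G ⧸ N) : Subgroup (G ⧸ N)) : Set (G ⧸ N)) ≤
      Cfsg.pCore p (G ⧸ N))
    (g : G) :
    (∀ x ∈ P, g * x * g⁻¹ * x⁻¹ ∈ ((frattini (↥P ⧸ N.subgroupOf P)).comap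
      (QuotientGroup.mk' (N.subgroupOf P))).map P.subtype) ↔ g ∈ P := by
  have hpc : IsPGroup p (Cfsg.pCore p (G ⧸ N)) := Cfsg.Agent.Lib.helper15.pCore_isPGroup p (G ⧸ N)
  -- elements of P have a p-power in N
  have hPpow : ∀ y ∈ P, ∃ k : ℕ, y ^ (p ^ k) ∈ N := by
    intro y hy
    have h1 : QuotientGroup.mk' N y ∈ Cfsg.pCore p (G ⧸ N) := by
      rw [hP] at hy; exact hy
    obtain ⟨k, hk⟩ := hpc ⟨_, h1⟩
    refine ⟨k, ?_⟩
    have h2 : (QuotientGroup.mk' N y) ^ (p ^ k) = 1 := congrArg Subtype.val hk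
    rw [← map_pow] at h2
    exact (QuotientGroup.eq_one_iff _).mp h2
  have hQ : IsPGroup p (↥P ⧸ N.subgroupOf P) := by
    intro z
    obtain ⟨y, rfl⟩ := QuotientGroup.mk'_surjective (N.subgroupOf P) z
    obtain ⟨k, hk⟩ := hPpow y y.2
    refine ⟨k, ?_⟩
    rw [← map_pow]
    apply (QuotientGroup.eq_one_iff _).mpr
    rw [Subgroup.mem_subgroupOf]
    exact hk
  have memF : ∀ y : ↥P, (y : G) ∈ ((frattini (↥P ⧸ N.subgroupOf P)).comap
      (QuotientGroup.mk' (N.subgroupOf P))).map P.subtype ↔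
      QuotientGroup.mk' (N.subgroupOf P) y ∈ frattini (↥P ⧸ N.subgroupOf P) := by
    intro y
    constructor
    · rintro ⟨y', hy', he⟩
      have : y' = y := Subtype.ext he
      rw [← this]; exact hy'
    · intro h; exact ⟨y, h, rfl⟩
  constructor
  · intro hg
    -- phi g ∈ frAut
    have hgA : phi N P g ∈ frAut (↥P ⧸ N.subgroupOf P) := by
      intro z
      obtain ⟨y, rfl⟩ := QuotientGroup.mk'_surjective (N.subgroupOf P) z
      rw [phi_mk, ← map_inv, ← map_mul]
      rw [← memF]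
      have := hg y y.2
      have e : (((MulAut.conjNormal g : MulAut ↥P) y * y⁻¹ : ↥P) : G) = g * y * g⁻¹ * (y : G)⁻¹ := by
        rw [Subgroup.coe_mul, MulAut.conjNormal_apply, Subgroup.coe_inv]
      rw [e]; exact this
    obtain ⟨n, hn⟩ := IsPGroup.iff_card.mp hQ
    obtain ⟨r, -, hr⟩ := (Nat.dvd_prime_pow (Fact.out : p.Prime)).mp
      (hn ▸ Subgroup.index_dvd_card (frattini (↥P ⧸ N.subgroupOf P)))
    have hcardA := Cfsg.Agent.S4207.result hn hr (frAut (↥P ⧸ N.subgroupOf P))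
      (fun α hα z => hα z)
    -- the normal subgroup C
    have hAn := frAut_normal (↥P ⧸ N.subgroupOf P)
    have hCn : ((frAut (↥P ⧸ N.subgroupOf P)).comap (phi N P)).Normal := hAn.comap _
    -- p-power of any element of C lies in N
    have hCpow : ∀ c ∈ (frAut (↥P ⧸ N.subgroupOf P)).comap (phi N P),
        ∃ k : ℕ, c ^ (p ^ k) ∈ N := by
      intro c hc
      have h1 : (⟨phi N P c, hc⟩ : frAut (↥P ⧸ N.subgroupOf P)) ^
          (Nat.card (frAut (↥P ⧸ N.subgroupOf P))) = 1 := pow_card_eq_one'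
      obtain ⟨d, hd⟩ := hcardA
      have h2 : (phi N P c) ^ (p ^ (r * (n - r))) = 1 := by
        have := congrArg Subtype.val h1
        rw [hd, pow_mul]
        simp only [Subgroup.coe_pow, Subgroup.coe_one] at this
        rw [this, one_pow]
      rw [← map_pow] at h2
      -- c' := c ^ (p ^ _) acts trivially on P / N
      obtain ⟨c', hc'⟩ : ∃ c' : G, c' = c ^ (p ^ (r * (n - r))) := ⟨_, rfl⟩
      rw [← hc'] at h2
      have h3 : QuotientGroup.mk' N c' ∈ Subgroup.centralizer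
          ((Cfsg.pCore p (G ⧸ N) : Subgroup (G ⧸ N)) : Set (G ⧸ N)) := by
        rw [Subgroup.mem_centralizer_iff]
        intro q hq
        obtain ⟨y, rfl⟩ := QuotientGroup.mk'_surjective N q
        have hyP : y ∈ P := by rw [hP]; exact hq
        have h4 := congrArg (fun a : MulAut (↥P ⧸ N.subgroupOf P) =>
          a (QuotientGroup.mk' (N.subgroupOf P) ⟨y, hyP⟩)) h2
        simp only [MulAut.one_apply] at h4
        rw [phi_mk] at h4
        have h5 := (QuotientGroup.eq_iff_div_mem).mp h4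
        rw [Subgroup.mem_subgroupOf] at h5
        have e : (((MulAut.conjNormal c' : MulAut ↥P) ⟨y, hyP⟩ / ⟨y, hyP⟩ : ↥P) : G) =
            c' * y * c'⁻¹ * y⁻¹ := by
          rw [div_eq_mul_inv, Subgroup.coe_mul, MulAut.conjNormal_apply, Subgroup.coe_inv]
        rw [e] at h5
        rw [← map_mul, ← map_mul]
        apply (QuotientGroup.eq_iff_div_mem).mpr
        have e2 : y * c' / (c' * y) = (c' * y * c'⁻¹ * y⁻¹)⁻¹ := by
          rw [div_eq_mul_inv]; group
        rw [e2]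
        exact inv_mem h5
      have h6 : c' ∈ P := by rw [hP]; exact hcent h3
      obtain ⟨j, hj⟩ := hPpow c' h6
      refine ⟨r * (n - r) + j, ?_⟩
      rw [pow_add, pow_mul, ← hc']
      exact hj
    have hCp : IsPGroup p (((frAut (↥P ⧸ N.subgroupOf P)).comap (phi N P)).map
        (QuotientGroup.mk' N)) := by
      rintro ⟨_, c, hc, rfl⟩
      obtain ⟨k, hk⟩ := hCpow c hc
      refine ⟨k, Subtype.ext ?_⟩
      show (QuotientGroup.mk' N c) ^ (p ^ k) = 1
      rw [← map_pow]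
      exact (QuotientGroup.eq_one_iff _).mpr hk
    have hCmn : (((frAut (↥P ⧸ N.subgroupOf P)).comap (phi N P)).map
        (QuotientGroup.mk' N)).Normal := hCn.map _ (QuotientGroup.mk'_surjective N)
    have hle : ((frAut (↥P ⧸ N.subgroupOf P)).comap (phi N P)).map (QuotientGroup.mk' N) ≤
        Cfsg.pCore p (G ⧸ N) := le_sSup ⟨hCmn, hCp⟩
    rw [hP]
    exact hle ⟨g, hgA, rfl⟩
  · intro hg x hx
    have h1 : g * x * g⁻¹ * x⁻¹ ∈ P :=
      mul_mem ((inferInstance : P.Normal).conj_mem x hx g) (inv_mem hx)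
    have h2 := (memF ⟨g * x * g⁻¹ * x⁻¹, h1⟩).mpr
    apply h2
    have hcf := Cfsg.Agent.Lib.helper1.commutator_le_frattini p hQ
    apply hcf
    have e : (⟨g * x * g⁻¹ * x⁻¹, h1⟩ : ↥P) =
        (⟨g, hg⟩ : ↥P) * ⟨x, hx⟩ * (⟨g, hg⟩ : ↥P)⁻¹ * (⟨x, hx⟩ : ↥P)⁻¹ := rfl
    rw [e, map_mul, map_mul, map_mul, map_inv, map_inv, ← commutatorElement_def]
    exact Subgroup.commutator_mem_commutator (Subgroup.mem_top _) (Subgroup.mem_top _)

/-- Let `G` be a finite `p`-solvable group, `N₀ = O_{p'}(G)`, `P₁ = O_{p',p}(G)`, and let `F ≤ P₁` be the preimage of the Frattini subgroup of `P₁/N₀`. Then an element `g` of `G` induces the identity on `P₁/F` by conjugation (that is, `g x g⁻¹ x⁻¹ ∈ F` for all `x ∈ P₁`) if and only if `g ∈ P₁`: the group `G/P₁` acts faithfully on `P₁/F`. -/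
theorem result {G : Type*} [Group G] [Finite G] {p : ℕ} [Fact p.Prime] (hG : Cfsg.IsPSolvable p G) (g : G) : (∀ x ∈ Cfsg.pPrimePCore p G, g * x * g⁻¹ * x⁻¹ ∈ ((frattini (↥(Cfsg.pPrimePCore p G) ⧸ (Cfsg.pPrimeCore p G).subgroupOf (Cfsg.pPrimePCore p G))).comap (QuotientGroup.mk' ((Cfsg.pPrimeCore p G).subgroupOf (Cfsg.pPrimePCore p G)))).map (Cfsg.pPrimePCore p G).subtype) ↔ g ∈ Cfsg.pPrimePCore p G := by
  have hQs : Cfsg.IsPSolvable p (G ⧸ Cfsg.pPrimeCore p G) :=
    Cfsg.Agent.Lib.helper16.isPSolvable_of_surjective (QuotientGroup.mk' (Cfsg.pPrimeCore p G))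
      (QuotientGroup.mk'_surjective _) hG
  have hbot : Cfsg.pPrimeCore p (G ⧸ Cfsg.pPrimeCore p G) = ⊥ :=
    Cfsg.Agent.Lib.helper9.pPrimeCore_quotient_eq_bot p G
  have hcent := Cfsg.Agent.Lib.helper16.centralizer_pCore_le_of_pSolvable hQs hbot
  have : (Cfsg.pPrimePCore p G).Normal := by
    unfold Cfsg.pPrimePCore; infer_instance
  exact hh_general (Cfsg.pPrimeCore p G) (Cfsg.pPrimePCore p G) rfl hcent g

end Cfsg.Agent.S4218
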