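import Cfsg.Statements.S4219
-- import your own Cfsg.Agent.* helpers here

set_option autoImplicit false
open Cfsg

namespace Cfsg.Agent.S4219

open scoped Pointwise

theorem mem_smul_sylow {G : Type*} [Group G] {p : ℕ} (g x : G) (P : Sylow p G) :
    x ∈ (g • P : Sylow p G) ↔ g⁻¹ * x * g ∈ P := by
  change x ∈ ((g • P : Sylow p G) : Subgroup G) ↔ g⁻¹ * x * g ∈ (P : Subgroup G)
  rw [Sylow.coe_subgroup_smul, Subgroup.mem_pointwise_smul_iff_inv_smul_mem]
  have e : (MulAut.conj g)⁻¹ • x = g⁻¹ * x * g := by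
    simp [MulAut.smul_def]
  rw [e]

theorem witt_aux {G : Type*} [Group G] [Finite G] {α : Type*} [MulAction G α] {t : ℕ}
    (x : Fin t ↪ α) {p : ℕ} [Fact p.Prime] (P : Sylow p (MulAction.stabilizer G x))
    (c : Fin t ↪ α)
    (hc : ∀ i, c i ∈ MulAction.fixedPoints ((P : Subgroup (MulAction.stabilizer G x)).map
      (MulAction.stabilizer G x).subtype) α)
    (g0 : G) (hg0 : g0 • x = c) :
    ∃ n ∈ Subgroup.normalizer ((((P : Subgroup (MulAction.stabilizer G x)).map
      (MulAction.stabilizer G x).subtype) : Subgroup G) : Set G), n • x = c := by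
  classical
  obtain ⟨P', hP'⟩ : ∃ P' : Subgroup G, P' = (P : Subgroup (MulAction.stabilizer G x)).map
      (MulAction.stabilizer G x).subtype := ⟨_, rfl⟩
  rw [← hP'] at hc ⊢
  have hfixc : ∀ y ∈ P', y • c = c := by
    intro y hy
    ext i
    rw [Function.Embedding.smul_apply]
    exact hc i ⟨y, hy⟩
  have hcardP' : Nat.card P' = Nat.card (P : Subgroup (MulAction.stabilizer G x)) := by
    rw [hP']
    exact Subgroup.card_map_of_injective (Subgroup.subtype_injective _)
  obtain ⟨Q, hQ⟩ : ∃ Q : Subgroup G, Q = P'.map (MulAut.conj g0⁻¹).toMonoidHom := ⟨_, rfl⟩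
  have hQmem : ∀ w : G, w ∈ Q ↔ g0 * w * g0⁻¹ ∈ P' := by
    intro w
    rw [hQ]
    constructor
    · rintro ⟨y, hy, rfl⟩
      have : g0 * (MulAut.conj g0⁻¹).toMonoidHom y * g0⁻¹ = y := by
        simp
        group
      rw [this]; exact hy
    · intro hw
      refine ⟨g0 * w * g0⁻¹, hw, ?_⟩
      simp
      group
  have hcardQ : Nat.card Q = Nat.card P' := by
    rw [hQ]
    exact Subgroup.card_map_of_injective (MulAut.conj g0⁻¹).injective
  have hQH : Q ≤ MulAction.stabilizer G x := by
    intro w hw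
    rw [hQmem] at hw
    rw [MulAction.mem_stabilizer_iff]
    have h1 := hfixc _ hw
    rw [← hg0, mul_smul, mul_smul, inv_smul_smul] at h1
    exact smul_left_cancel g0 h1
  have hcardQ' : Nat.card (Q.subgroupOf (MulAction.stabilizer G x)) =
      p ^ (Nat.card (MulAction.stabilizer G x)).factorization p := by
    rw [Nat.card_congr (Subgroup.subgroupOfEquivOfLe hQH).toEquiv, hcardQ, hcardP']
    exact P.card_eq_multiplicity
  obtain ⟨h, hh⟩ := MulAction.exists_smul_eq (MulAction.stabilizer G x)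
    (Sylow.ofCard (Q.subgroupOf (MulAction.stabilizer G x)) hcardQ') P
  refine ⟨g0 * (h : G)⁻¹, ?_, ?_⟩
  · apply Subgroup.mem_normalizer_fintype
    intro z hz
    have hz' : z ∈ (P' : Subgroup G) := hz
    rw [hP'] at hz'
    obtain ⟨z', hz'P, rfl⟩ := hz'
    have h1 : z' ∈ (h • Sylow.ofCard (Q.subgroupOf (MulAction.stabilizer G x)) hcardQ' :
        Sylow p (MulAction.stabilizer G x)) := by
      rw [hh]; exact hz'P
    rw [mem_smul_sylow] at h1
    have h2 : h⁻¹ * z' * h ∈ Q.subgroupOf (MulAction.stabilizer G x) := h1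
    rw [Subgroup.mem_subgroupOf, hQmem] at h2
    have e : g0 * (h : G)⁻¹ * (MulAction.stabilizer G x).subtype z' * (g0 * (h : G)⁻¹)⁻¹
        = g0 * ((h⁻¹ * z' * h : MulAction.stabilizer G x) : G) * g0⁻¹ := by
      simp only [Subgroup.coe_mul, Subgroup.coe_inv, Subgroup.coe_subtype]
      group
    show g0 * (h : G)⁻¹ * (MulAction.stabilizer G x).subtype z' * (g0 * (h : G)⁻¹)⁻¹ ∈ P'
    rw [e]
    exact h2
  · rw [mul_smul]
    have : (h : G)⁻¹ • x = x := by
      rw [inv_smul_eq_iff]
      exact (MulAction.mem_stabilizer_iff.mp h.2).symm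
    rw [this, hg0]

/-- Let a finite group `G` act `t`-fold transitively on a finite set, let `H` be the stabilizer of `t` distinct points and `P` a Sylow `p`-subgroup of `H`. Then the normalizer of `P` in `G` is `t`-fold transitive on the fixed points of `P`: any `t` distinct fixed points of `P` can be carried to any other `t` distinct fixed points of `P` by an element normalizing `P`. -/
theorem result {G : Type*} [Group G] [Finite G] {α : Type*} [Fintype α] [MulAction G α] {t : ℕ} (hG : MulAction.IsMultiplyPretransitive G α t) (x : Fin t ↪ α) {p : ℕ} [Fact p.Prime] (P : Sylow p (MulAction.stabilizer G x)) (a b : Fin t ↪ α) (ha : ∀ i, a i ∈ MulAction.fixedPoints ((P : Subgroup (MulAction.stabilizer G x)).map (MulAction.stabilizer G x).subtype) α) (hb : ∀ i, b i ∈ MulAction.fixedPoints ((P : Subgroup (MulAction.stabilizer G x)).map (MulAction.stabilizer G x).subtype) α) : ∃ g ∈ Subgroup.normalizer ((((P : Subgroup (MulAction.stabilizer G x)).map (MulAction.stabilizer G x).subtype) : Subgroup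 G) : Set G), g • a = b := by
  classical
  have := hG
  obtain ⟨g1, hg1⟩ := MulAction.exists_smul_eq G x a
  obtain ⟨g2, hg2⟩ := MulAction.exists_smul_eq G x b
  obtain ⟨n1, hn1, hn1x⟩ := witt_aux x P a ha g1 hg1
  obtain ⟨n2, hn2, hn2x⟩ := witt_aux x P b hb g2 hg2
  refine ⟨n2 * n1⁻¹, Subgroup.mul_mem _ hn2 (Subgroup.inv_mem _ hn1), ?_⟩
  rw [mul_smul]
  have : n1⁻¹ • a = x := by
    rw [inv_smul_eq_iff]; exact hn1x.symm
  rw [this, hn2x]

end Cfsg.Agent.S4219
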