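import Cfsg.Statements.S4223
import Mathlib

set_option autoImplicit false
open Cfsg

namespace Cfsg.Agent.S4223

universe u v w

/-- directly indecomposable, in the form of the hypothesis -/
def Indec (H : Type*) [Group H] : Prop :=
  ∀ X Y : Subgroup H, X.Normal → Y.Normal → X ⊓ Y = ⊥ → X ⊔ Y = ⊤ → X = ⊥ ∨ Y = ⊥

/-- normal endomorphism, as a plain function -/
structure NEnd {H : Type*} [Group H] (φ : H → H) : Prop where
  mul : ∀ x y, φ (x * y) = φ x * φ y
  conj : ∀ g x, φ (g * x * g⁻¹) = g * φ x * g⁻¹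

namespace NEnd
variable {H : Type*} [Group H] {φ ψ : H → H}

theorem one (h : NEnd φ) : φ 1 = 1 := by
  have := h.mul 1 1
  rw [mul_one] at this
  exact mul_left_cancel (a := φ 1) (by rw [mul_one]; exact this.symm)

theorem inv (h : NEnd φ) (x : H) : φ x⁻¹ = (φ x)⁻¹ := by
  apply eq_inv_of_mul_eq_one_left
  rw [← h.mul, inv_mul_cancel, h.one]

theorem comp (h : NEnd φ) (h' : NEnd ψ) : NEnd (φ ∘ ψ) :=
  ⟨fun x y => by simp only [Function.comp_apply, h'.mul, h.mul],
   fun g x => by simp only [Function.comp_apply, h'.conj, h.conj]⟩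

theorem id' : NEnd (id : H → H) := ⟨fun _ _ => rfl, fun _ _ => rfl⟩

theorem iterate (h : NEnd φ) : ∀ k, NEnd (φ^[k])
  | 0 => id'
  | k+1 => by rw [Function.iterate_succ]; exact (iterate h k).comp h

theorem symm (h : NEnd φ) (hb : Function.Bijective φ) :
    NEnd ((Equiv.ofBijective φ hb).symm : H → H) := by
  have hs : ∀ y, φ ((Equiv.ofBijective φ hb).symm y) = y :=
    fun y => (Equiv.ofBijective φ hb).apply_symm_apply y
  refine ⟨fun x y => hb.1 ?_, fun g x => hb.1 ?_⟩
  · rw [hs, h.mul, hs, hs]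
  · rw [hs, h.conj, hs]

end NEnd

theorem exists_idem {α : Type*} [Finite α] (φ : α → α) :
    ∃ k, 0 < k ∧ ∀ x, φ^[k] (φ^[k] x) = φ^[k] x := by
  obtain ⟨i, j, hij, hEq⟩ : ∃ i j : ℕ, i < j ∧ φ^[i] = φ^[j] := by
    obtain ⟨a, b, hab, h⟩ := Finite.exists_ne_map_eq_of_infinite (fun k : ℕ => φ^[k])
    rcases Nat.lt_or_gt_of_ne hab with h' | h'
    · exact ⟨a, b, h', h⟩
    · exact ⟨b, a, h', h.symm⟩
  obtain ⟨d, hd⟩ : ∃ d, j = i + d := ⟨j - i, by omega⟩
  have hdpos : 0 < d := by omega
  have h1 : ∀ t, φ^[i + t * d] = φ^[i] := by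
    intro t
    induction t with
    | zero => simp
    | succ t ih =>
      have e1 : i + (t + 1) * d = t * d + (i + d) := by ring
      rw [e1, Function.iterate_add, ← hd, ← hEq, ← Function.iterate_add]
      have e2 : t * d + i = i + t * d := by ring
      rw [e2, ih]
  have h2 : ∀ m, i ≤ m → ∀ t, φ^[m + t * d] = φ^[m] := by
    intro m hm t
    obtain ⟨e, rfl⟩ : ∃ e, m = e + i := ⟨m - i, by omega⟩
    have e1 : e + i + t * d = e + (i + t * d) := by ring
    rw [e1, Function.iterate_add, h1, ← Function.iterate_add]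
  refine ⟨(i + 1) * d, Nat.mul_pos (Nat.succ_pos i) hdpos, fun x => ?_⟩
  have hk : i ≤ (i + 1) * d := by nlinarith
  have := h2 ((i + 1) * d) hk (i + 1)
  rw [← Function.iterate_add_apply]
  exact congrFun this x

theorem fitting {H : Type*} [Group H] [Finite H] (hind : Indec H) (φ : H → H) (hφ : NEnd φ) :
    Function.Bijective φ ∨ ∃ k, ∀ x, φ^[k] x = 1 := by
  obtain ⟨k, hk, hidem⟩ := exists_idem φ
  obtain ⟨θ, hθdef⟩ : ∃ θ, θ = φ^[k] := ⟨_, rfl⟩
  rw [← hθdef] at hidem
  have hθ : NEnd θ := hθdef ▸ hφ.iterate k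
  let Kr : Subgroup H :=
    { carrier := {x | θ x = 1}
      mul_mem' := by
        intro a b ha hb
        show θ (a * b) = 1
        rw [hθ.mul, show θ a = 1 from ha, show θ b = 1 from hb, one_mul]
      one_mem' := hθ.one
      inv_mem' := by
        intro a ha
        show θ a⁻¹ = 1
        rw [hθ.inv, show θ a = 1 from ha, inv_one] }
  let Im : Subgroup H :=
    { carrier := {x | θ x = x}
      mul_mem' := by
        intro a b ha hb
        show θ (a * b) = a * b
        rw [hθ.mul, show θ a = a from ha, show θ b = b from hb]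
      one_mem' := hθ.one
      inv_mem' := by
        intro a ha
        show θ a⁻¹ = a⁻¹
        rw [hθ.inv, show θ a = a from ha] }
  have hKr : ∀ x, x ∈ Kr ↔ θ x = 1 := fun x => Iff.rfl
  have hIm : ∀ x, x ∈ Im ↔ θ x = x := fun x => Iff.rfl
  have hKn : Kr.Normal := ⟨fun x hx g => by rw [hKr] at hx ⊢; rw [hθ.conj, hx]; group⟩
  have hIn : Im.Normal := ⟨fun x hx g => by rw [hIm] at hx ⊢; rw [hθ.conj, hx]⟩
  have hinf : Kr ⊓ Im = ⊥ := by
    rw [eq_bot_iff]; intro x hx
    obtain ⟨h1, h2⟩ := Subgroup.mem_inf.mp hx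
    rw [hKr] at h1; rw [hIm] at h2
    rw [Subgroup.mem_bot, ← h2, h1]
  have hsup : Kr ⊔ Im = ⊤ := by
    rw [eq_top_iff]; intro x _
    have h1 : x * (θ x)⁻¹ ∈ Kr := by rw [hKr, hθ.mul, hθ.inv, hidem, mul_inv_cancel]
    have h2 : θ x ∈ Im := by rw [hIm, hidem]
    have : x = x * (θ x)⁻¹ * θ x := by group
    rw [this]
    exact Subgroup.mul_mem_sup h1 h2
  rcases hind Kr Im hKn hIn hinf hsup with h | h
  · left
    have hθinj : Function.Injective θ := by
      intro a b hab
      have : a * b⁻¹ ∈ Kr := by rw [hKr, hθ.mul, hθ.inv, hab, mul_inv_cancel]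
      rw [h, Subgroup.mem_bot] at this
      exact mul_inv_eq_one.mp this
    have hφinj : Function.Injective φ := by
      intro a b hab
      apply hθinj
      rw [hθdef]
      obtain ⟨k', rfl⟩ : ∃ k', k = k' + 1 := ⟨k - 1, by omega⟩
      rw [Function.iterate_succ_apply, Function.iterate_succ_apply, hab]
    exact Finite.injective_iff_bijective.mp hφinj
  · right
    refine ⟨k, fun x => ?_⟩
    have : θ x ∈ Im := by rw [hIm, hidem]
    rw [h, Subgroup.mem_bot] at this
    rw [← hθdef]; exact this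

/-- pointwise product of a list of maps -/
def lsum {H : Type*} [Group H] (l : List (H → H)) (x : H) : H := (l.map (fun f => f x)).prod

theorem lsum_nil {H : Type*} [Group H] (x : H) : lsum ([] : List (H → H)) x = 1 := rfl

theorem lsum_cons {H : Type*} [Group H] (f : H → H) (l : List (H → H)) (x : H) :
    lsum (f :: l) x = f x * lsum l x := by
  simp [lsum]

theorem lsum_comm {H : Type*} [Group H] (f : H → H) (l : List (H → H))
    (h : ∀ g ∈ l, ∀ x y, f x * g y = g y * f x) (x y : H) :
    f x * lsum l y = lsum l y * f x := by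
  induction l with
  | nil => simp [lsum_nil]
  | cons g l ih =>
    rw [lsum_cons]
    have h1 := h g (List.mem_cons_self ..) x y
    have h2 := ih (fun g' hg' => h g' (List.mem_cons_of_mem _ hg'))
    rw [← mul_assoc, h1, mul_assoc, h2, mul_assoc]

theorem lsum_nend {H : Type*} [Group H] : ∀ (l : List (H → H)), (∀ f ∈ l, NEnd f) →
    l.Pairwise (fun f g => ∀ x y, f x * g y = g y * f x) → NEnd (lsum l) := by
  intro l
  induction l with
  | nil => intro _ _; exact ⟨fun x y => by simp [lsum_nil], fun g x => by simp [lsum_nil]⟩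
  | cons f l ih =>
    intro hl hp
    rw [List.pairwise_cons] at hp
    have hf := hl f (List.mem_cons_self ..)
    have hL := ih (fun g hg => hl g (List.mem_cons_of_mem _ hg)) hp.2
    refine ⟨fun x y => ?_, fun g x => ?_⟩
    · rw [lsum_cons, lsum_cons, lsum_cons, hf.mul, hL.mul]
      have := lsum_comm f l hp.1 y x
      calc f x * f y * (lsum l x * lsum l y) = f x * (f y * lsum l x) * lsum l y := by group
        _ = f x * (lsum l x * f y) * lsum l y := by rw [this]
        _ = f x * lsum l x * (f y * lsum l y) := by group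
    · rw [lsum_cons, lsum_cons, hf.conj, hL.conj]; group

theorem sum_lemma {H : Type*} [Group H] [Finite H] [Nontrivial H] (hind : Indec H) :
    ∀ (l : List (H → H)), (∀ f ∈ l, NEnd f) →
      l.Pairwise (fun f g => ∀ x y, f x * g y = g y * f x) →
      Function.Bijective (lsum l) → ∃ f ∈ l, Function.Bijective f := by
  intro l
  induction l with
  | nil =>
    intro _ _ hb
    exfalso
    obtain ⟨x, y, hxy⟩ := exists_pair_ne H
    exact hxy (hb.1 (by rw [lsum_nil, lsum_nil]))
  | cons f l ih =>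
    intro hl hp hb
    have hp' := List.pairwise_cons.mp hp
    have hf := hl f (List.mem_cons_self ..)
    have hl' : ∀ g ∈ l, NEnd g := fun g hg => hl g (List.mem_cons_of_mem _ hg)
    have hs := lsum_nend (f :: l) hl hp
    have hs' := lsum_nend l hl' hp'.2
    obtain ⟨α, hαdef⟩ : ∃ α : H → H, α = (Equiv.ofBijective _ hb).symm := ⟨_, rfl⟩
    have hα : NEnd α := hαdef ▸ hs.symm hb
    have hαs : ∀ x, α (lsum (f :: l) x) = x := by
      intro x; rw [hαdef]; exact (Equiv.ofBijective _ hb).symm_apply_apply x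
    rcases fitting hind (f ∘ α) (hf.comp hα) with h | ⟨k, hk⟩
    · refine ⟨f, List.mem_cons_self .., ?_⟩
      have : f = (f ∘ α) ∘ lsum (f :: l) := by
        funext x; simp only [Function.comp_apply, hαs]
      rw [this]
      exact h.comp hb
    · have hinj : Function.Injective (lsum l) := by
        intro a b hab
        have h1 : lsum l (a * b⁻¹) = 1 := by rw [hs'.mul, hs'.inv, hab, mul_inv_cancel]
        obtain ⟨z, hz⟩ : ∃ z, z = lsum (f :: l) (a * b⁻¹) := ⟨_, rfl⟩
        have h2 : z = f (a * b⁻¹) := by rw [hz, lsum_cons, h1, mul_one]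
        have h3 : (f ∘ α) z = z := by
          show f (α z) = z
          have : α z = a * b⁻¹ := by rw [hz, hαs]
          rw [this]; exact h2.symm
        have h4 : (f ∘ α)^[k] z = z := Function.iterate_fixed h3 k
        have hz1 : z = 1 := h4.symm.trans (hk z)
        have h5 : lsum (f :: l) (a * b⁻¹) = lsum (f :: l) 1 := by rw [← hz, hz1, hs.one]
        exact mul_inv_eq_one.mp (hb.1 h5)
      obtain ⟨g, hg, hgb⟩ := ih hl' hp'.2 (Finite.injective_iff_bijective.mp hinj)
      exact ⟨g, List.mem_cons_of_mem _ hg, hgb⟩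

theorem list_prod_mulSingle {κ : Type*} [DecidableEq κ] {B : κ → Type*} [∀ j, Group (B j)]
    (F : ∀ j, B j) (k : κ) : ∀ l : List κ, l.Nodup →
    ((l.map (fun j => Pi.mulSingle j (F j))).prod) k = if k ∈ l then F k else 1 := by
  intro l
  induction l with
  | nil => intro _; simp
  | cons j l ih =>
    intro hnd
    rw [List.nodup_cons] at hnd
    rw [List.map_cons, List.prod_cons, Pi.mul_apply, ih hnd.2]
    by_cases hkj : k = j
    · subst hkj
      rw [Pi.mulSingle_eq_same, if_neg hnd.1, mul_one, if_pos (List.mem_cons_self ..)]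
    · rw [Pi.mulSingle_eq_of_ne hkj, one_mul]
      by_cases hkl : k ∈ l
      · rw [if_pos hkl, if_pos (List.mem_cons_of_mem _ hkl)]
      · rw [if_neg hkl, if_neg (by simp [hkj, hkl])]

theorem finRange_prod_mulSingle {n : ℕ} {B : Fin n → Type*} [∀ j, Group (B j)] (F : ∀ j, B j) :
    ((List.finRange n).map (fun j => Pi.mulSingle j (F j))).prod = F := by
  funext k
  rw [list_prod_mulSingle F k _ (List.nodup_finRange n), if_pos (List.mem_finRange k)]

theorem mulSingle_conj {κ : Type*} [DecidableEq κ] {B : κ → Type*} [∀ j, Group (B j)] (j : κ)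
    (G : ∀ j, B j) (b : B j) :
    Pi.mulSingle j (G j * b * (G j)⁻¹) = G * Pi.mulSingle j b * G⁻¹ := by
  funext k
  by_cases hkj : k = j
  · subst hkj; simp
  · simp [Pi.mulSingle_eq_of_ne hkj]

theorem core {A : Type u} {C : Type w} [Group A] [Group C] [Finite A] [Finite C] [Nontrivial A]
    (hA : Indec A) {n : ℕ} {B : Fin (n + 1) → Type v} [∀ j, Group (B j)] [∀ j, Finite (B j)]
    (hB : ∀ j, Indec (B j)) (e : A × C ≃* ((j : Fin (n + 1)) → B j)) :
    ∃ j : Fin (n + 1), Nonempty (A ≃* B j) ∧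
      Nonempty (C ≃* ((i : Fin n) → B (j.succAbove i))) := by
  classical
  let U : ∀ j, A →* B j := fun j =>
    (Pi.evalMonoidHom B j).comp (e.toMonoidHom.comp (MonoidHom.inl A C))
  let V : ∀ j, B j →* A := fun j =>
    (MonoidHom.fst A C).comp (e.symm.toMonoidHom.comp (MonoidHom.mulSingle B j))
  have hU : ∀ j a, U j a = e (a, 1) j := fun j a => rfl
  have hV : ∀ j b, V j b = (e.symm (Pi.mulSingle j b)).1 := fun j b => rfl
  obtain ⟨φ, hφdef⟩ : ∃ φ : Fin (n + 1) → A → A, φ = fun j a => V j (U j a) := ⟨_, rfl⟩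
  have hφa : ∀ j a, φ j a = V j (U j a) := fun j a => by rw [hφdef]
  have hφ : ∀ j, NEnd (φ j) := by
    intro j
    refine ⟨fun x y => by simp only [hφa, map_mul], fun g x => ?_⟩
    rw [hφa, hφa]
    have h1 : U j (g * x * g⁻¹) = e (g, 1) j * U j x * (e (g, 1) j)⁻¹ := by
      rw [map_mul, map_mul, map_inv]; rfl
    rw [h1, hV, mulSingle_conj, map_mul, map_mul, map_inv, e.symm_apply_apply]
    rfl
  have hcomm : ∀ j k, j ≠ k → ∀ x y, φ j x * φ k y = φ k y * φ j x := by
    intro j k hjk x y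
    rw [hφa, hφa, hV, hV, ← Prod.fst_mul, ← Prod.fst_mul, ← map_mul, ← map_mul,
      (Pi.mulSingle_commute hjk (U j x) (U k y)).eq]
  have hsum : ∀ x, lsum ((List.finRange (n + 1)).map φ) x = x := by
    intro x
    rw [lsum, List.map_map]
    have h1 : ((fun f : A → A => f x) ∘ φ) =
        (fun M => ((MonoidHom.fst A C).comp e.symm.toMonoidHom) M) ∘
          (fun j => Pi.mulSingle j (e (x, 1) j)) := by
      funext j
      show φ j x = _
      rw [hφa]; rfl
    rw [h1, ← List.map_map, ← map_list_prod, finRange_prod_mulSingle]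
    simp
  have hl1 : ∀ f ∈ (List.finRange (n + 1)).map φ, NEnd f := by
    intro f hf
    obtain ⟨j, -, rfl⟩ := List.mem_map.mp hf
    exact hφ j
  have hl2 : ((List.finRange (n + 1)).map φ).Pairwise
      (fun f g => ∀ x y, f x * g y = g y * f x) := by
    rw [List.pairwise_map]
    exact (List.nodup_finRange (n + 1)).imp (fun {j k} hjk => hcomm j k hjk)
  have hbij : Function.Bijective (lsum ((List.finRange (n + 1)).map φ)) := by
    have : lsum ((List.finRange (n + 1)).map φ) = id := funext hsum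
    rw [this]; exact Function.bijective_id
  obtain ⟨f, hf, hfb⟩ := sum_lemma hA _ hl1 hl2 hbij
  obtain ⟨j, -, rfl⟩ := List.mem_map.mp hf
  refine ⟨j, ?_⟩
  have hVU : ∀ a, V j (U j a) = φ j a := fun a => (hφa j a).symm
  have hXn : (U j).range.Normal := by
    constructor
    rintro _ ⟨a, rfl⟩ b
    obtain ⟨gc, hgc⟩ : ∃ gc : A × C, e gc = Pi.mulSingle j b :=
      ⟨e.symm (Pi.mulSingle j b), e.apply_symm_apply _⟩
    refine ⟨gc.1 * a * gc.1⁻¹, ?_⟩
    have h1 : ((gc.1 * a * gc.1⁻¹, (1 : C)) : A × C) = gc * (a, 1) * gc⁻¹ := by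
      ext <;> simp
    rw [hU, h1, map_mul, map_mul, map_inv, hgc]
    simp [hU]
  have hinf : (U j).range ⊓ (V j).ker = ⊥ := by
    rw [eq_bot_iff]
    intro y hy0
    obtain ⟨⟨a, rfl⟩, hy⟩ := Subgroup.mem_inf.mp hy0
    rw [MonoidHom.mem_ker, hVU] at hy
    have : a = 1 := hfb.1 (by rw [hy, (hφ j).one])
    rw [this, map_one]; exact Subgroup.mem_bot.mpr rfl
  have hsup : (U j).range ⊔ (V j).ker = ⊤ := by
    rw [eq_top_iff]; intro b _
    obtain ⟨a, ha⟩ := hfb.2 (V j b)
    have h1 : (U j a)⁻¹ * b ∈ (V j).ker := by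
      rw [MonoidHom.mem_ker, map_mul, map_inv, hVU, ha, inv_mul_cancel]
    have : b = U j a * ((U j a)⁻¹ * b) := by group
    rw [this]
    exact Subgroup.mul_mem_sup ⟨a, rfl⟩ h1
  have hker : (V j).ker = ⊥ := by
    rcases hB j _ _ hXn (MonoidHom.normal_ker (V j)) hinf hsup with h | h
    · exfalso
      obtain ⟨x, y, hxy⟩ := exists_pair_ne A
      apply hxy
      apply hfb.1
      have hx : U j x = 1 := by
        have : U j x ∈ (U j).range := ⟨x, rfl⟩
        rwa [h, Subgroup.mem_bot] at this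
      have hy : U j y = 1 := by
        have : U j y ∈ (U j).range := ⟨y, rfl⟩
        rwa [h, Subgroup.mem_bot] at this
      rw [hφa, hφa, hx, hy]
    · exact h
  have hVinj : Function.Injective (V j) := (MonoidHom.ker_eq_bot_iff (V j)).mp hker
  have hVsurj : Function.Surjective (V j) := by
    intro a
    obtain ⟨a', ha'⟩ := hfb.2 a
    exact ⟨U j a', by rw [hVU]; exact ha'⟩
  let isoBA : B j ≃* A := MulEquiv.ofBijective (V j) ⟨hVinj, hVsurj⟩
  refine ⟨⟨isoBA.symm⟩, ?_⟩
  let W : C →* ((i : Fin n) → B (j.succAbove i)) :=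
    (MonoidHom.pi (fun i => Pi.evalMonoidHom B (j.succAbove i))).comp
      (e.toMonoidHom.comp (MonoidHom.inr A C))
  have hW : ∀ c i, W c i = e (1, c) (j.succAbove i) := fun c i => rfl
  have hWinj : Function.Injective W := by
    rw [injective_iff_map_eq_one]
    intro c hc
    have hF : e (1, c) = Pi.mulSingle j (e (1, c) j) := by
      funext k
      by_cases hkj : k = j
      · subst hkj; simp
      · obtain ⟨i, rfl⟩ := Fin.exists_succAbove_eq hkj
        rw [Pi.mulSingle_eq_of_ne hkj, ← hW, hc]; rfl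
    have h1 : V j (e (1, c) j) = 1 := by
      rw [hV, ← hF, e.symm_apply_apply]
    have h2 : e (1, c) j = 1 := hVinj (by rw [h1, map_one])
    rw [h2, Pi.mulSingle_one] at hF
    have h3 : ((1 : A), c) = 1 := e.injective (by rw [hF, map_one])
    exact (Prod.ext_iff.mp h3).2
  have hcard : Nat.card ((i : Fin n) → B (j.succAbove i)) ≤ Nat.card C := by
    have h1 : Nat.card (A × C) = Nat.card ((k : Fin (n + 1)) → B k) := Nat.card_congr e.toEquiv
    have h2 : Nat.card ((k : Fin (n + 1)) → B k) =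
        Nat.card (B j × ((i : Fin n) → B (j.succAbove i))) :=
      (Nat.card_congr (Fin.insertNthEquiv B j)).symm
    have h3 : Nat.card (B j) = Nat.card A := Nat.card_congr isoBA.toEquiv
    rw [Nat.card_prod] at h1 h2
    rw [h2, h3] at h1
    have hpos : 0 < Nat.card A := Nat.card_pos
    exact (Nat.eq_of_mul_eq_mul_left hpos h1).ge
  exact ⟨MulEquiv.ofBijective W (hWinj.bijective_of_nat_card_le hcard)⟩

/-- splitting off the first factor -/
def consMulEquiv {m : ℕ} (A : Fin (m + 1) → Type u) [∀ i, Group (A i)] :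
    A 0 × ((i : Fin m) → A i.succ) ≃* ((i : Fin (m + 1)) → A i) where
  toFun p := Fin.cons p.1 p.2
  invFun f := (f 0, fun i => f i.succ)
  left_inv p := by ext <;> simp
  right_inv f := by funext i; refine Fin.cases ?_ (fun i => ?_) i <;> simp
  map_mul' p q := by
    funext i; refine Fin.cases ?_ (fun i => ?_) i <;> simp

theorem pi_nontrivial_ne {n : ℕ} {B : Fin (n + 1) → Type v} [∀ j, Group (B j)]
    (h : Nontrivial (B 0)) : ∃ F : (∀ j, B j), F ≠ 1 := by
  obtain ⟨b, hb⟩ := exists_ne (1 : B 0)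
  refine ⟨Pi.mulSingle 0 b, fun h => hb ?_⟩
  have := congrFun h 0
  simpa using this

theorem frame : ∀ (m n : ℕ) (A : Fin m → Type u) (B : Fin n → Type v) [∀ i, Group (A i)]
    [∀ j, Group (B j)] [∀ i, Finite (A i)] [∀ j, Finite (B j)],
    (∀ i, Nontrivial (A i) ∧ Indec (A i)) → (∀ j, Nontrivial (B j) ∧ Indec (B j)) →
    (((i : Fin m) → A i) ≃* ((j : Fin n) → B j)) →
    ∃ σ : Fin m ≃ Fin n, ∀ i, Nonempty (A i ≃* B (σ i)) := by
  intro m
  induction m with
  | zero =>
    intro n A B _ _ _ _ hA hB e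
    cases n with
    | zero => exact ⟨Equiv.refl _, fun i => i.elim0⟩
    | succ n =>
      exfalso
      obtain ⟨F, hF⟩ := pi_nontrivial_ne (hB 0).1
      apply hF
      apply e.symm.injective
      exact Subsingleton.elim _ _
  | succ m ih =>
    intro n A B _ _ _ _ hA hB e
    cases n with
    | zero =>
      exfalso
      obtain ⟨F, hF⟩ := pi_nontrivial_ne (hA 0).1
      apply hF
      apply e.injective
      exact Subsingleton.elim _ _
    | succ n =>
      haveI := (hA 0).1
      obtain ⟨j, ⟨iso0⟩, ⟨isoC⟩⟩ :=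
        core (hA 0).2 (fun j => (hB j).2) ((consMulEquiv A).trans e)
      obtain ⟨σ', hσ'⟩ := ih n (fun i => A i.succ) (fun i => B (j.succAbove i))
        (fun i => hA i.succ) (fun i => hB (j.succAbove i)) isoC
      obtain rfl : m = n := Fin.equiv_iff_eq.mp ⟨σ'⟩
      let σ : Fin (m + 1) → Fin (m + 1) := Fin.cons j (fun i => j.succAbove (σ' i))
      have hσ0 : σ 0 = j := rfl
      have hσs : ∀ i : Fin m, σ i.succ = j.succAbove (σ' i) := fun i => rfl
      have hinj : Function.Injective σ := by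
        intro a b hab
        induction a using Fin.cases with
        | zero =>
          induction b using Fin.cases with
          | zero => rfl
          | succ b => rw [hσ0, hσs] at hab; exact absurd hab.symm (Fin.succAbove_ne j _)
        | succ a =>
          induction b using Fin.cases with
          | zero => rw [hσ0, hσs] at hab; exact absurd hab (Fin.succAbove_ne j _)
          | succ b =>
            rw [hσs, hσs] at hab
            rw [σ'.injective (Fin.succAbove_right_injective hab)]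
      refine ⟨Equiv.ofBijective σ (Finite.injective_iff_bijective.mp hinj), fun i => ?_⟩
      rw [Equiv.ofBijective_apply]
      induction i using Fin.cases with
      | zero => exact ⟨iso0⟩
      | succ i => exact hσ' i

theorem result {m n : ℕ} {A : Fin m → Type*} {B : Fin n → Type*} [∀ i, Group (A i)] [∀ j, Group (B j)] [∀ i, Finite (A i)] [∀ j, Finite (B j)] (hA : ∀ i, Nontrivial (A i) ∧ ∀ H K : Subgroup (A i), H.Normal → K.Normal → H ⊓ K = ⊥ → H ⊔ K = ⊤ → H = ⊥ ∨ K = ⊥) (hB : ∀ j, Nontrivial (B j) ∧ ∀ H K : Subgroup (B j), H.Normal → K.Normal → H ⊓ K = ⊥ → H ⊔ K = ⊤ → H = ⊥ ∨ K = ⊥) (e : ((i : Fin m) → A i) ≃* ((j : Fin n) → B j)) : ∃ σ : Fin m ≃ Fin n, ∀ i, Nonempty (A i ≃* B (σ i)) :=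
  frame m n A B hA hB e

end Cfsg.Agent.S4223
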