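import Cfsg.Statements.S4224
-- import your own Cfsg.Agent.* helpers here
import Cfsg.Agent.S4210

set_option autoImplicit false
open Cfsg

namespace Cfsg.Agent.S4224



/-- In a regular `p`-group, for all elements `a`, `b` and every power `q = p^k`: `a^q` commutes with `b` if and only if the commutator `a⁻¹b⁻¹ab` has `q`-th power equal to `1`. -/
theorem result {G : Type*} [Group G] [Finite G] {p : ℕ} [Fact p.Prime] (hG : Cfsg.IsRegularPGroup p G) (a b : G) (k : ℕ) : a ^ p ^ k * b = b * a ^ p ^ k ↔ (a⁻¹ * b⁻¹ * a * b) ^ p ^ k = 1 := by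
  have h1 := Cfsg.Agent.S4210.result hG (b⁻¹ * a * b) a k
  have h2 : (b⁻¹ * a * b) ^ p ^ k = b⁻¹ * a ^ p ^ k * b := by
    have := conj_pow (a := b⁻¹) (b := a) (i := p ^ k)
    simpa using this
  have h3 : (a⁻¹ * b⁻¹ * a * b) ^ p ^ k = a⁻¹ * (b⁻¹ * a * b * a⁻¹) ^ p ^ k * a := by
    have := conj_pow (a := a⁻¹) (b := b⁻¹ * a * b * a⁻¹) (i := p ^ k)
    simp only [inv_inv] at this
    rw [← this]
    congr 1
    group
  rw [h3]
  constructor
  · intro h
    have h4 : (b⁻¹ * a * b) ^ p ^ k = a ^ p ^ k := by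
      rw [h2, mul_assoc, h]; group
    rw [h1.mp h4]; group
  · intro h
    have h5 : (b⁻¹ * a * b * a⁻¹) ^ p ^ k = 1 := by
      have : (b⁻¹ * a * b * a⁻¹) ^ p ^ k = a * (a⁻¹ * (b⁻¹ * a * b * a⁻¹) ^ p ^ k * a) * a⁻¹ := by
        group
      rw [this, h]; group
    have h4 := h1.mpr h5
    rw [h2] at h4
    have : a ^ p ^ k * b = b * (b⁻¹ * a ^ p ^ k * b) := by group
    rw [this, h4]

end Cfsg.Agent.S4224
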