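import Cfsg.Statements.S4226
import Cfsg.Agent.Lib.helper7.YoshidaRes

set_option autoImplicit false
open Cfsg

namespace Cfsg.Agent.S4226

open scoped commutatorElement

/-- Let `P` be a Sylow `p`-subgroup of the finite group `G` with nilpotency class less than `p` (the term of index `p - 1` of the lower central series of `P`, indexed from `0`, is trivial), and let `N` be its normalizer. Then `O^p(N) = O^p(G) ∩ N`, where `O^p` denotes the subgroup generated by the elements of order prime to `p`; so the largest `p`-factor groups of `G` and of `N` are isomorphic. -/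
theorem result {G : Type*} [Group G] [Finite G] {p : ℕ} [Fact p.Prime] (P : Sylow p G) (hcl : (P : Subgroup G).lowerCentralSeries (p - 1) = ⊥) : Cfsg.pResidualOf p (Subgroup.normalizer ((P : Subgroup G) : Set G)) = Cfsg.pResidual p G ⊓ Subgroup.normalizer ((P : Subgroup G) : Set G) := by
  have hwc : Cfsg.IsWeaklyClosed (P : Subgroup G) (P : Subgroup G) := by
    refine ⟨le_rfl, fun g hg => ?_⟩
    apply Subgroup.eq_of_le_of_card_ge hg
    rw [Subgroup.card_map_of_injective (MulAut.conj g).injective]
  have hD : ∀ (z : G), z ∈ (P : Subgroup G) → ∀ (k : ℕ) (u : G), u ∈ (P : Subgroup G) →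
      (fun y : G => y⁻¹ * z⁻¹ * y * z)^[k] u ∈ (P : Subgroup G).lowerCentralSeries k := by
    intro z hz k
    induction k with
    | zero => intro u hu; exact hu
    | succ k ih =>
      intro u hu
      rw [Function.iterate_succ_apply']
      have h1 := ih u hu
      have h2 : ⁅((fun y : G => y⁻¹ * z⁻¹ * y * z)^[k] u)⁻¹, z⁻¹⁆ ∈
          ⁅(P : Subgroup G).lowerCentralSeries k, (P : Subgroup G)⁆ :=
        Subgroup.commutator_mem_commutator (Subgroup.inv_mem _ h1) (Subgroup.inv_mem _ hz)
      rw [commutatorElement_def, inv_inv, inv_inv] at h2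
      exact h2
  apply Cfsg.Agent.Lib.helper7.Yoshida.pres_eq P (P : Subgroup G) hwc
  intro x hx z hz W₀ _ _
  have h1 := hD z hz (p - 1) x hx
  rw [hcl, Subgroup.mem_bot] at h1
  rw [h1]
  exact Subgroup.one_mem _

end Cfsg.Agent.S4226
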