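import Cfsg.Statements.S4227
import Cfsg.Agent.S0144
import Cfsg.Agent.Lib.helper16.PSolv
import Cfsg.Agent.Lib.helper10.PSolv
import Cfsg.Agent.Lib.helper9.PPrimeCore
import Cfsg.Agent.Lib.helper15.PCore
import Mathlib

set_option autoImplicit false
open Cfsg

namespace Cfsg.Agent.S4227

universe u

theorem pow_two_of {G : Type*} [Group G] (g : G) (h6 : g ^ 6 = 1) (k : ℕ) (hk : g ^ 2 ^ k = 1) :
    g ^ 2 = 1 := by
  have h1 : orderOf g ∣ 6 := orderOf_dvd_of_pow_eq_one h6
  have h2 : orderOf g ∣ 2 ^ k := orderOf_dvd_of_pow_eq_one hk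
  obtain ⟨j, -, hj⟩ := (Nat.dvd_prime_pow Nat.prime_two).mp h2
  have hj1 : j ≤ 1 := by
    by_contra hcon
    have hcon' : 2 ≤ j := by omega
    have h3 : 2 ^ 2 ∣ 6 := (pow_dvd_pow 2 hcon').trans (hj ▸ h1)
    omega
  have h4 : orderOf g ∣ 2 := by
    rw [hj]
    have := pow_dvd_pow 2 hj1
    simpa using this
  exact orderOf_dvd_iff_pow_eq_one.mp h4

theorem pow_three_of {G : Type*} [Group G] (g : G) (h6 : g ^ 6 = 1) (k : ℕ) (hk : g ^ 3 ^ k = 1) :
    g ^ 3 = 1 := by
  have h1 : orderOf g ∣ 6 := orderOf_dvd_of_pow_eq_one h6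
  have h2 : orderOf g ∣ 3 ^ k := orderOf_dvd_of_pow_eq_one hk
  obtain ⟨j, -, hj⟩ := (Nat.dvd_prime_pow Nat.prime_three).mp h2
  have hj1 : j ≤ 1 := by
    by_contra hcon
    have hcon' : 2 ≤ j := by omega
    have h3 : 3 ^ 2 ∣ 6 := (pow_dvd_pow 3 hcon').trans (hj ▸ h1)
    omega
  have h4 : orderOf g ∣ 3 := by
    rw [hj]
    have := pow_dvd_pow 3 hj1
    simpa using this
  exact orderOf_dvd_iff_pow_eq_one.mp h4

theorem eq_one_of_pow {G : Type*} [Group G] (z : G) (h3 : z ^ 3 = 1) (h2 : z ^ 2 = 1) : z = 1 := by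
  have h : z ^ 3 = z ^ 2 * z := pow_succ z 2
  rw [h3, h2, one_mul] at h
  exact h.symm

theorem comm_of_sq {G : Type*} [Group G] (s t : G) (hs : s ^ 2 = 1) (ht : t ^ 2 = 1)
    (hst : (s * t) ^ 2 = 1) : s * t = t * s := by
  have h1 : s * s = 1 := by rw [← pow_two]; exact hs
  have h2 : t * t = 1 := by rw [← pow_two]; exact ht
  have h3 : s * t * (s * t) = 1 := by rw [← pow_two]; exact hst
  have h4 : s * t = (s * t)⁻¹ := eq_inv_of_mul_eq_one_left h3
  have h5 : s⁻¹ = s := inv_eq_of_mul_eq_one_left h1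
  have h6 : t⁻¹ = t := inv_eq_of_mul_eq_one_left h2
  rw [h4, mul_inv_rev, h5, h6]

/-- The commutative case. -/
theorem a4_comm {A : Type*} [CommGroup A] (X B C D : A →* A)
    (he : ∀ a : A, a ^ 3 = 1)
    (hX : ∀ a, a * X a * X (X a) = 1)
    (hB : ∀ a, a * X (B a) * X (X (D a)) = 1)
    (hC : ∀ a, a * X (C a) * X (X (B a)) = 1)
    (hD : ∀ a, a * X (D a) * X (X (C a)) = 1)
    (hCB : ∀ a, C (B a) = D a) (hBB : ∀ a, B (B a) = a) :
    ∀ a, B a = a := by
  have ht : ∀ a, B a * C a * D a = 1 := by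
    intro a
    have h1 := hB a
    have h2 := hC a
    have h3 := hD a
    have h4 : X (B a * C a * D a) * X (X (B a * C a * D a)) = 1 := by
      have h5 : (a * X (B a) * X (X (D a))) * (a * X (C a) * X (X (B a))) *
          (a * X (D a) * X (X (C a))) = 1 := by
        rw [h1, h2, h3]; simp
      have e : (a * X (B a) * X (X (D a))) * (a * X (C a) * X (X (B a))) *
          (a * X (D a) * X (X (C a)))
          = a ^ 3 * (X (B a) * X (C a) * X (D a) *
            (X (X (B a)) * X (X (C a)) * X (X (D a)))) := by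
        rw [pow_succ, pow_two]
        simp only [mul_assoc, mul_comm, mul_left_comm]
      rw [e, he, one_mul] at h5
      simp only [map_mul]
      exact h5
    have h6 := hX (B a * C a * D a)
    rw [mul_assoc, h4, mul_one] at h6
    exact h6
  have hw : ∀ w : A, w * B w * C (w * B w) = w := by
    intro w
    rw [map_mul, hCB]
    have h1 := ht w
    calc w * B w * (C w * D w) = w * (B w * C w * D w) := by simp only [mul_assoc]
      _ = w := by rw [h1, mul_one]
  intro a
  have h6 := hw (a * (B a)⁻¹)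
  have h7 : a * (B a)⁻¹ * B (a * (B a)⁻¹) = 1 := by
    rw [map_mul, map_inv, hBB]
    group
  rw [h7, map_one, mul_one] at h6
  exact (mul_inv_eq_one.mp h6.symm).symm

/-- The general case, by induction along the derived series. -/
theorem a4_gen : ∀ (n : ℕ) (V : Type u) [Group V] [Finite V], Nat.card V = n →
    ∀ (X B C D : V →* V), (∀ a : V, a ^ 3 = 1) → (∀ a, a * X a * X (X a) = 1) →
    (∀ a, a * X (B a) * X (X (D a)) = 1) → (∀ a, a * X (C a) * X (X (B a)) = 1) →
    (∀ a, a * X (D a) * X (X (C a)) = 1) → (∀ a, C (B a) = D a) → (∀ a, B (B a) = a) →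
    ∀ a, B a = a := by
  intro n
  induction n using Nat.strong_induction_on with
  | _ n ih =>
  intro V _ _ hn X B C D he hX hB hC hD hCB hBB
  by_cases htriv : Subsingleton V
  · intro a; exact Subsingleton.elim _ _
  rw [not_subsingleton_iff_nontrivial] at htriv
  haveI : Fact (Nat.Prime 3) := ⟨Nat.prime_three⟩
  have hP : IsPGroup 3 V := fun a => ⟨1, by rw [pow_one]; exact he a⟩
  haveI : Group.IsNilpotent V := hP.isNilpotent
  have hlt : commutator V < ⊤ := Group.IsSolvable.commutator_lt_top_of_nontrivial V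
  -- Step 1: the abelianization
  have h1 : ∀ a : V, a⁻¹ * B a ∈ commutator V := by
    have key := a4_comm (A := Abelianization V) (Abelianization.map X) (Abelianization.map B)
      (Abelianization.map C) (Abelianization.map D)
      (by
        intro a
        obtain ⟨v, rfl⟩ := QuotientGroup.mk_surjective a
        show (Abelianization.of v) ^ 3 = 1
        rw [← map_pow, he, map_one])
      (by
        intro a
        obtain ⟨v, rfl⟩ := QuotientGroup.mk_surjective a
        show Abelianization.of v * Abelianization.map X (Abelianization.of v) *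
          Abelianization.map X (Abelianization.map X (Abelianization.of v)) = 1
        rw [Abelianization.map_of, Abelianization.map_of, ← map_mul, ← map_mul, hX, map_one])
      (by
        intro a
        obtain ⟨v, rfl⟩ := QuotientGroup.mk_surjective a
        show Abelianization.of v * Abelianization.map X (Abelianization.map B (Abelianization.of v)) *
          Abelianization.map X (Abelianization.map X (Abelianization.map D (Abelianization.of v))) = 1
        rw [Abelianization.map_of, Abelianization.map_of, Abelianization.map_of,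
          Abelianization.map_of, Abelianization.map_of, ← map_mul, ← map_mul, hB, map_one])
      (by
        intro a
        obtain ⟨v, rfl⟩ := QuotientGroup.mk_surjective a
        show Abelianization.of v * Abelianization.map X (Abelianization.map C (Abelianization.of v)) *
          Abelianization.map X (Abelianization.map X (Abelianization.map B (Abelianization.of v))) = 1
        rw [Abelianization.map_of, Abelianization.map_of, Abelianization.map_of,
          Abelianization.map_of, Abelianization.map_of, ← map_mul, ← map_mul, hC, map_one])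
      (by
        intro a
        obtain ⟨v, rfl⟩ := QuotientGroup.mk_surjective a
        show Abelianization.of v * Abelianization.map X (Abelianization.map D (Abelianization.of v)) *
          Abelianization.map X (Abelianization.map X (Abelianization.map C (Abelianization.of v))) = 1
        rw [Abelianization.map_of, Abelianization.map_of, Abelianization.map_of,
          Abelianization.map_of, Abelianization.map_of, ← map_mul, ← map_mul, hD, map_one])
      (by
        intro a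
        obtain ⟨v, rfl⟩ := QuotientGroup.mk_surjective a
        show Abelianization.map C (Abelianization.map B (Abelianization.of v)) =
          Abelianization.map D (Abelianization.of v)
        rw [Abelianization.map_of, Abelianization.map_of, Abelianization.map_of, hCB])
      (by
        intro a
        obtain ⟨v, rfl⟩ := QuotientGroup.mk_surjective a
        show Abelianization.map B (Abelianization.map B (Abelianization.of v)) =
          Abelianization.of v
        rw [Abelianization.map_of, Abelianization.map_of, hBB])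
    intro a
    have h2 := key (Abelianization.of a)
    rw [Abelianization.map_of] at h2
    have h3 : Abelianization.of (a⁻¹ * B a) = 1 := by
      rw [map_mul, map_inv, h2, inv_mul_cancel]
    have h4 : a⁻¹ * B a ∈ (Abelianization.of : V →* Abelianization V).ker := h3
    rwa [Abelianization.ker_of] at h4
  -- Step 2: the commutator subgroup
  have hmem : ∀ f : V →* V, ∀ k ∈ commutator V, f k ∈ commutator V := by
    intro f k hk
    have h2 : f k ∈ (commutator V).map f := ⟨k, hk, rfl⟩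
    rw [commutator_def, Subgroup.map_commutator] at h2
    rw [commutator_def]
    exact Subgroup.commutator_mono le_top le_top h2
  obtain ⟨X', hX'⟩ : ∃ X' : ↥(commutator V) →* ↥(commutator V), ∀ k, ((X' k : ↥(commutator V)) : V) = X k :=
    ⟨(X.comp (commutator V).subtype).codRestrict (commutator V) (fun k => hmem X k k.2), fun k => rfl⟩
  obtain ⟨B', hB'⟩ : ∃ B' : ↥(commutator V) →* ↥(commutator V), ∀ k, ((B' k : ↥(commutator V)) : V) = B k :=
    ⟨(B.comp (commutator V).subtype).codRestrict (commutator V) (fun k => hmem B k k.2), fun k => rfl⟩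
  obtain ⟨C', hC'⟩ : ∃ C' : ↥(commutator V) →* ↥(commutator V), ∀ k, ((C' k : ↥(commutator V)) : V) = C k :=
    ⟨(C.comp (commutator V).subtype).codRestrict (commutator V) (fun k => hmem C k k.2), fun k => rfl⟩
  obtain ⟨D', hD'⟩ : ∃ D' : ↥(commutator V) →* ↥(commutator V), ∀ k, ((D' k : ↥(commutator V)) : V) = D k :=
    ⟨(D.comp (commutator V).subtype).codRestrict (commutator V) (fun k => hmem D k k.2), fun k => rfl⟩
  have hcard : Nat.card ↥(commutator V) < n := by
    rw [← hn]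
    exact lt_of_le_of_ne (Subgroup.card_le_card_group _)
      (fun h => hlt.ne ((Subgroup.card_eq_iff_eq_top _).mp h))
  have h2 := ih _ hcard ↥(commutator V) rfl X' B' C' D'
    (by intro k; apply Subtype.ext; rw [Subgroup.coe_pow, he]; rfl)
    (by
      intro k; apply Subtype.ext
      rw [Subgroup.coe_mul, Subgroup.coe_mul, hX', hX', hX', hX]; rfl)
    (by
      intro k; apply Subtype.ext
      rw [Subgroup.coe_mul, Subgroup.coe_mul, hX', hX', hX', hB', hD', hB]; rfl)
    (by
      intro k; apply Subtype.ext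
      rw [Subgroup.coe_mul, Subgroup.coe_mul, hX', hX', hX', hC', hB', hC]; rfl)
    (by
      intro k; apply Subtype.ext
      rw [Subgroup.coe_mul, Subgroup.coe_mul, hX', hX', hX', hD', hC', hD]; rfl)
    (by intro k; apply Subtype.ext; rw [hC', hB', hD', hCB])
    (by intro k; apply Subtype.ext; rw [hB', hB', hBB])
  -- Step 3
  intro a
  have hz := h1 a
  have hBz : B (a⁻¹ * B a) = a⁻¹ * B a := by
    have := h2 ⟨a⁻¹ * B a, hz⟩
    have h3 := congrArg Subtype.val this
    rw [hB'] at h3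
    exact h3
  have hzz : (a⁻¹ * B a) ^ 2 = 1 := by
    rw [map_mul, map_inv, hBB] at hBz
    -- hBz : (B a)⁻¹ * a = a⁻¹ * B a
    rw [pow_two]
    calc a⁻¹ * B a * (a⁻¹ * B a) = a⁻¹ * B a * ((B a)⁻¹ * a) := by rw [hBz]
      _ = 1 := by group
  have hz1 := eq_one_of_pow _ (he _) hzz
  exact (inv_mul_eq_one.mp hz1).symm

theorem cube_norm {Q : Type*} [Group Q] (h6 : ∀ g : Q, g ^ 6 = 1) (W : Subgroup Q) [hWn : W.Normal]
    (hW3 : ∀ w ∈ W, w ^ 3 = 1) (y : Q) (hy : y ^ 3 = 1) (w : Q) (hw : w ∈ W) :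
    w * (y * w * y⁻¹) * (y * (y * w * y⁻¹) * y⁻¹) = 1 := by
  have e : (w * y) ^ 3 = w * (y * w * y⁻¹) * (y * (y * w * y⁻¹) * y⁻¹) * y ^ 3 := by
    simp only [pow_succ, pow_zero, one_mul]
    group
  have hmem : w * (y * w * y⁻¹) * (y * (y * w * y⁻¹) * y⁻¹) ∈ W :=
    W.mul_mem (W.mul_mem hw (hWn.conj_mem w hw y)) (hWn.conj_mem _ (hWn.conj_mem w hw y) y)
  have h1 := hW3 _ hmem
  have h2 : (w * (y * w * y⁻¹) * (y * (y * w * y⁻¹) * y⁻¹)) ^ 2 = 1 := by
    have h3 := h6 (w * y)
    rw [show (6 : ℕ) = 3 * 2 from rfl, pow_mul, e, hy, mul_one] at h3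
    exact h3
  exact eq_one_of_pow _ h1 h2

theorem sylow2_normal {Q : Type u} [Group Q] [Finite Q] (h6 : ∀ g : Q, g ^ 6 = 1)
    (hC : Subgroup.centralizer ((pCore 2 Q : Subgroup Q) : Set Q) ≤ pCore 2 Q) :
    ¬ 2 ∣ (pCore 2 Q).index := by
  haveI : Fact (Nat.Prime 2) := ⟨Nat.prime_two⟩
  obtain ⟨P⟩ : Nonempty (Sylow 2 Q) := inferInstance
  have hle : pCore 2 Q ≤ (P : Subgroup Q) := Cfsg.Agent.Lib.helper15.pCore_le_sylow P
  have hP2 : ∀ t ∈ (P : Subgroup Q), t ^ 2 = 1 := by
    intro t ht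
    obtain ⟨k, hk⟩ := P.isPGroup' ⟨t, ht⟩
    exact pow_two_of t (h6 t) k (by simpa using congrArg Subtype.val hk)
  have hcomm : ∀ s ∈ (P : Subgroup Q), ∀ t ∈ (P : Subgroup Q), s * t = t * s := fun s hs t ht =>
    comm_of_sq s t (hP2 s hs) (hP2 t ht) (hP2 _ (Subgroup.mul_mem _ hs ht))
  have hPle : (P : Subgroup Q) ≤ pCore 2 Q := by
    intro s hs
    apply hC
    rw [Subgroup.mem_centralizer_iff]
    intro w hw
    exact hcomm w (hle hw) s hs
  have heq : pCore 2 Q = (P : Subgroup Q) := le_antisymm hle hPle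
  rw [heq]
  exact P.not_dvd_index

theorem sylow3_normal {Q : Type u} [Group Q] [Finite Q] (hsolv : Group.IsSolvable Q)
    (h6 : ∀ g : Q, g ^ 6 = 1)
    (hC : Subgroup.centralizer ((pCore 3 Q : Subgroup Q) : Set Q) ≤ pCore 3 Q) :
    ¬ 3 ∣ (pCore 3 Q).index := by
  haveI : Fact (Nat.Prime 3) := ⟨Nat.prime_three⟩
  haveI : Fact (Nat.Prime 2) := ⟨Nat.prime_two⟩
  intro hdvd
  obtain ⟨W, hWdef⟩ : ∃ W : Subgroup Q, W = pCore 3 Q := ⟨_, rfl⟩
  haveI hWn : W.Normal := by rw [hWdef]; exact Cfsg.pCore_normal 3 Q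
  have hWp : IsPGroup 3 W := by rw [hWdef]; exact Cfsg.Agent.Lib.helper15.pCore_isPGroup 3 Q
  rw [← hWdef] at hC hdvd
  have hW3 : ∀ w ∈ W, w ^ 3 = 1 := by
    intro w hw
    obtain ⟨k, hk⟩ := hWp ⟨w, hw⟩
    exact pow_three_of w (h6 w) k (by simpa using congrArg Subtype.val hk)
  have hQ6 : ∀ g : Q ⧸ W, g ^ 6 = 1 := by
    intro g
    obtain ⟨g, rfl⟩ := QuotientGroup.mk_surjective g
    rw [← QuotientGroup.mk_pow, h6]; rfl
  haveI hsolv' : Group.IsSolvable (Q ⧸ W) :=
    Group.isSolvable_of_surjective (QuotientGroup.mk'_surjective W)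
  have hker : ∀ g : Q, (QuotientGroup.mk' W) g = 1 ↔ g ∈ W := fun g => QuotientGroup.eq_one_iff g
  -- O_{2'}(Q/W) = 1
  have hcore2 : pPrimeCore 2 (Q ⧸ W) = ⊥ := by
    obtain ⟨L, hL⟩ : ∃ L : Subgroup Q, L = (pPrimeCore 2 (Q ⧸ W)).comap (QuotientGroup.mk' W) :=
      ⟨_, rfl⟩
    have hLn : L.Normal := by rw [hL]; exact Subgroup.Normal.comap (Cfsg.pPrimeCore_normal 2 _) _
    have hodd := Cfsg.Agent.Lib.helper9.pPrimeCore_coprime 2 (Q ⧸ W)
    have hL3 : ∀ g ∈ L, g ^ 3 = 1 := by
      intro g hg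
      rw [hL, Subgroup.mem_comap] at hg
      -- the image has odd order dividing 6
      have h1 : orderOf ((QuotientGroup.mk' W) g) ∣ 6 := orderOf_dvd_of_pow_eq_one (hQ6 _)
      have h2 : orderOf ((QuotientGroup.mk' W) g) ∣ Nat.card (pPrimeCore 2 (Q ⧸ W)) := by
        have := Subgroup.orderOf_dvd_natCard (pPrimeCore 2 (Q ⧸ W)) hg
        exact this
      have h3 : (orderOf ((QuotientGroup.mk' W) g)).Coprime 2 := Nat.Coprime.coprime_dvd_left h2 hodd
      have h4 : orderOf ((QuotientGroup.mk' W) g) ∣ 3 := by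
        have h5 : orderOf ((QuotientGroup.mk' W) g) ∣ 2 * 3 := h1
        exact h3.dvd_of_dvd_mul_left h5
      have h5 : ((QuotientGroup.mk' W) g) ^ 3 = 1 := orderOf_dvd_iff_pow_eq_one.mp h4
      rw [← map_pow, hker] at h5
      have h6' := hW3 _ h5
      -- g^9 = 1 and g^6 = 1
      have h7 : g ^ 9 = 1 := by rw [show (9 : ℕ) = 3 * 3 from rfl, pow_mul]; exact h6'
      have h8 : g ^ 9 = g ^ 6 * g ^ 3 := by rw [← pow_add]
      rw [h7, h6 g, one_mul] at h8
      exact h8.symm
    have hLp : IsPGroup 3 L := by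
      rintro ⟨g, hg⟩
      exact ⟨1, by apply Subtype.ext; rw [pow_one]; exact hL3 g hg⟩
    have hLW : L ≤ W := by rw [hWdef]; exact Cfsg.Agent.Lib.helper15.le_pCore hLn hLp
    rw [eq_bot_iff]
    intro g hg
    obtain ⟨g, rfl⟩ := QuotientGroup.mk_surjective g
    have hgL : g ∈ L := by rw [hL, Subgroup.mem_comap]; exact hg
    rw [Subgroup.mem_bot]
    exact (hker g).mpr (hLW hgL)
  have hC2 := Cfsg.Agent.Lib.helper10.centralizer_pCore_le_of_solvable (p := 2) hsolv' hcore2
  obtain ⟨R', hR'def⟩ : ∃ R' : Subgroup (Q ⧸ W), R' = pCore 2 (Q ⧸ W) := ⟨_, rfl⟩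
  haveI hR'n : R'.Normal := by rw [hR'def]; exact Cfsg.pCore_normal 2 _
  have hR'p : IsPGroup 2 R' := by rw [hR'def]; exact Cfsg.Agent.Lib.helper15.pCore_isPGroup 2 _
  rw [← hR'def] at hC2
  have hcardQ : Nat.card (Q ⧸ W) = W.index := (Subgroup.index_eq_card W).symm
  obtain ⟨x', hx'⟩ := exists_prime_orderOf_dvd_card' (G := Q ⧸ W) 3 (hcardQ ▸ hdvd)
  have hx'3 : x' ^ 3 = 1 := by rw [← hx']; exact pow_orderOf_eq_one x'
  have hx'R : x' ∉ Subgroup.centralizer (R' : Set (Q ⧸ W)) := by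
    intro h
    have h1 := hC2 h
    obtain ⟨k, hk⟩ := hR'p ⟨x', h1⟩
    have hk' : x' ^ 2 ^ k = 1 := by simpa using congrArg Subtype.val hk
    have h3 : orderOf x' ∣ 2 ^ k := orderOf_dvd_of_pow_eq_one hk'
    rw [hx'] at h3
    have h4 := Nat.Prime.dvd_of_dvd_pow Nat.prime_three h3
    omega
  obtain ⟨R, hRdef⟩ : ∃ R : Subgroup Q, R = R'.comap (QuotientGroup.mk' W) := ⟨_, rfl⟩
  haveI hRn : R.Normal := by rw [hRdef]; exact Subgroup.Normal.comap hR'n _
  obtain ⟨T⟩ : Nonempty (Sylow 2 ↥R) := inferInstance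
  obtain ⟨T', hT'def⟩ : ∃ T' : Subgroup Q, T' = (T : Subgroup ↥R).map R.subtype := ⟨_, rfl⟩
  have hfrat : Subgroup.normalizer (T' : Set Q) ⊔ R = ⊤ := by
    rw [hT'def]; exact Sylow.normalizer_sup_eq_top T
  have hT'2 : ∀ t ∈ T', t ^ 2 = 1 := by
    intro t ht
    rw [hT'def] at ht
    obtain ⟨s, hs, rfl⟩ := ht
    obtain ⟨k, hk⟩ := T.isPGroup' ⟨s, hs⟩
    have hk' : (s : Q) ^ 2 ^ k = 1 := by
      have := congrArg Subtype.val (congrArg Subtype.val hk)
      simpa using this
    exact pow_two_of _ (h6 _) k hk'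
  have hT'comm : ∀ s ∈ T', ∀ t ∈ T', s * t = t * s := fun s hs t ht =>
    comm_of_sq s t (hT'2 s hs) (hT'2 t ht) (hT'2 _ (Subgroup.mul_mem _ hs ht))
  -- the image of T' is R'
  have hsurjT : ∀ r' ∈ R', ∃ t ∈ T', (QuotientGroup.mk' W) t = r' := by
    intro r' hr'
    have hsurj : Function.Surjective ((QuotientGroup.mk' W).subgroupComap R') :=
      MonoidHom.subgroupComap_surjective_of_surjective _ _ (QuotientGroup.mk'_surjective W)
    subst hRdef
    have htop : ((T.mapSurjective hsurj : Sylow 2 ↥R') : Subgroup ↥R') = ⊤ :=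
      ((T.mapSurjective hsurj).3 (hR'p.to_subgroup ⊤) le_top).symm
    rw [Sylow.coe_mapSurjective] at htop
    have hmem : (⟨r', hr'⟩ : ↥R') ∈ (T : Subgroup _).map ((QuotientGroup.mk' W).subgroupComap R') := by
      rw [htop]; exact Subgroup.mem_top _
    obtain ⟨s, hs, hs2⟩ := hmem
    refine ⟨(s : Q), ?_, ?_⟩
    · rw [hT'def]; exact ⟨s, hs, rfl⟩
    · exact congrArg Subtype.val hs2
  -- the element x
  obtain ⟨x, hxN, hxx', hx3⟩ : ∃ x : Q, x ∈ Subgroup.normalizer (T' : Set Q) ∧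
      (QuotientGroup.mk' W) x = x' ∧ x ^ 3 = 1 := by
    obtain ⟨g, rfl⟩ := QuotientGroup.mk_surjective x'
    have hg : g ∈ Subgroup.normalizer (T' : Set Q) ⊔ R := by rw [hfrat]; exact Subgroup.mem_top _
    rw [Subgroup.mem_sup_of_normal_right] at hg
    obtain ⟨n, hn, r, hr, rfl⟩ := hg
    have hr' : (QuotientGroup.mk' W) r ∈ R' := by rw [hRdef] at hr; exact hr
    obtain ⟨t, ht, ht2⟩ := hsurjT _ hr'
    have hx : (QuotientGroup.mk' W) (n * t) = ((n * r : Q) : Q ⧸ W) := by
      rw [map_mul, ht2, ← map_mul]; rfl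
    refine ⟨n * t, Subgroup.mul_mem _ hn (Subgroup.le_normalizer ht), hx, ?_⟩
    have h1 : (QuotientGroup.mk' W) ((n * t) ^ 3) = 1 := by
      rw [map_pow, hx]; exact hx'3
    rw [hker] at h1
    have h2 := hW3 _ h1
    have h3 : ((n * t) ^ 3) ^ 2 = 1 := by rw [← pow_mul]; exact h6 _
    exact eq_one_of_pow _ h2 h3
  -- x does not centralize T'
  obtain ⟨t0, ht0, ht0x⟩ : ∃ t ∈ T', x * t * x⁻¹ ≠ t := by
    by_contra hcon
    push Not at hcon
    apply hx'R
    rw [Subgroup.mem_centralizer_iff]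
    intro r' hr'
    obtain ⟨t, ht, rfl⟩ := hsurjT r' hr'
    rw [← hxx', ← map_mul, ← map_mul]
    congr 1
    have := hcon t ht
    calc t * x = (x * t * x⁻¹) * x := by rw [this]
      _ = x * t := by group
  have hconj : ∀ t ∈ T', x * t * x⁻¹ ∈ T' := fun t ht => (Subgroup.mem_normalizer_iff.mp hxN t).mp ht
  obtain ⟨t1, ht1def⟩ : ∃ t1 : Q, t1 = x * t0 * x⁻¹ := ⟨_, rfl⟩
  obtain ⟨t2, ht2def⟩ : ∃ t2 : Q, t2 = x * t1 * x⁻¹ := ⟨_, rfl⟩
  have ht1 : t1 ∈ T' := by rw [ht1def]; exact hconj t0 ht0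
  have ht2 : t2 ∈ T' := by rw [ht2def]; exact hconj t1 ht1
  have hxx : x * x * x = 1 := by
    have : x ^ 3 = x * x * x := by simp only [pow_succ, pow_zero, one_mul]
    rw [← this]; exact hx3
  have hxinv : x⁻¹ = x * x := inv_eq_of_mul_eq_one_left hxx
  -- commutation relations
  have e1 : t1 * x = x * t0 := by rw [ht1def]; group
  have e2 : t2 * x = x * t1 := by rw [ht2def]; group
  have e0 : t0 * x = x * t2 := by
    rw [ht2def, ht1def]
    have : x * (x * (x * t0 * x⁻¹) * x⁻¹) = (x * x * x) * t0 * x⁻¹ * x⁻¹ := by group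
    rw [this, hxx, hxinv]
    have : 1 * t0 * (x * x) * (x * x) = t0 * x * (x * x * x) := by group
    rw [this, hxx, mul_one]
  have s0 : t0 * t0 = 1 := by rw [← pow_two]; exact hT'2 t0 ht0
  have s1 : t1 * t1 = 1 := by rw [← pow_two]; exact hT'2 t1 ht1
  have s2 : t2 * t2 = 1 := by rw [← pow_two]; exact hT'2 t2 ht2
  have c01 := hT'comm t0 ht0 t1 ht1
  have c02 := hT'comm t0 ht0 t2 ht2
  have c12 := hT'comm t1 ht1 t2 ht2
  obtain ⟨b, hb⟩ : ∃ b : Q, b = t0 * t1 := ⟨_, rfl⟩
  obtain ⟨c, hc⟩ : ∃ c : Q, c = t2 * t0 := ⟨_, rfl⟩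
  obtain ⟨d, hd⟩ : ∃ d : Q, d = t1 * t2 := ⟨_, rfl⟩
  have hbT : b ∈ T' := by rw [hb]; exact Subgroup.mul_mem _ ht0 ht1
  have hb1 : b ≠ 1 := by
    intro h
    rw [hb] at h
    apply ht0x
    rw [← ht1def]
    have : t1 = t0⁻¹ := (inv_eq_of_mul_eq_one_right h).symm
    rw [this]
    exact inv_eq_of_mul_eq_one_left s0
  have r1 : b * x = x * c := by
    rw [hb, hc]
    calc t0 * t1 * x = t0 * (t1 * x) := by group
      _ = t0 * (x * t0) := by rw [e1]
      _ = (t0 * x) * t0 := by group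
      _ = (x * t2) * t0 := by rw [e0]
      _ = x * (t2 * t0) := by group
  have r2 : c * x = x * d := by
    rw [hc, hd]
    calc t2 * t0 * x = t2 * (t0 * x) := by group
      _ = t2 * (x * t2) := by rw [e0]
      _ = (t2 * x) * t2 := by group
      _ = (x * t1) * t2 := by rw [e2]
      _ = x * (t1 * t2) := by group
  have r3 : d * x = x * b := by
    rw [hd, hb]
    calc t1 * t2 * x = t1 * (t2 * x) := by group
      _ = t1 * (x * t1) := by rw [e2]
      _ = (t1 * x) * t1 := by group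
      _ = (x * t0) * t1 := by rw [e1]
      _ = x * (t0 * t1) := by group
  have hcb : c * b = d := by
    rw [hc, hb, hd]
    calc t2 * t0 * (t0 * t1) = t2 * (t0 * t0) * t1 := by group
      _ = t2 * t1 := by rw [s0, mul_one]
      _ = t1 * t2 := c12.symm
  have hdc : d * c = b := by
    rw [hc, hb, hd]
    calc t1 * t2 * (t2 * t0) = t1 * (t2 * t2) * t0 := by group
      _ = t1 * t0 := by rw [s2, mul_one]
      _ = t0 * t1 := c01.symm
  have hbd : b * d = c := by
    rw [hc, hb, hd]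
    calc t0 * t1 * (t1 * t2) = t0 * (t1 * t1) * t2 := by group
      _ = t0 * t2 := by rw [s1, mul_one]
      _ = t2 * t0 := c02
  have hbb : b * b = 1 := by rw [← pow_two]; exact hT'2 b hbT
  have hcc : c * c = 1 := by
    rw [← pow_two]; exact hT'2 c (by rw [hc]; exact Subgroup.mul_mem _ ht2 ht0)
  have hdd : d * d = 1 := by
    rw [← pow_two]; exact hT'2 d (by rw [hd]; exact Subgroup.mul_mem _ ht1 ht2)
  -- the identities
  have F := cube_norm h6 W hW3
  have G2 : ∀ (v v1 u : Q), v * x = x * v1 → v1 * v = u → u * x = x * v → v * v = 1 →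
      ∀ w ∈ W, w * (x * (v * w * v⁻¹) * x⁻¹) * (x * (x * (u * w * u⁻¹) * x⁻¹) * x⁻¹) = 1 := by
    intro v v1 u h1 h2 h3 h4 w hw
    have hsq : (x * v) * (x * v) = x * x * u := by
      calc x * v * (x * v) = x * (v * x) * v := by group
        _ = x * (x * v1) * v := by rw [h1]
        _ = x * x * (v1 * v) := by group
        _ = x * x * u := by rw [h2]
    have hy3 : (x * v) ^ 3 = 1 := by
      have h5 : (x * v) ^ 3 = (x * v) * (x * v) * (x * v) := by
        simp only [pow_succ, pow_zero, one_mul]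
      rw [h5, hsq]
      calc x * x * u * (x * v) = x * x * (u * x) * v := by group
        _ = x * x * (x * v) * v := by rw [h3]
        _ = (x * x * x) * (v * v) := by group
        _ = 1 := by rw [hxx, h4, one_mul]
    have hF := F (x * v) hy3 w hw
    have e2 : (x * v) * w * (x * v)⁻¹ = x * (v * w * v⁻¹) * x⁻¹ := by group
    have e3 : (x * v) * ((x * v) * w * (x * v)⁻¹) * (x * v)⁻¹ =
        x * (x * (u * w * u⁻¹) * x⁻¹) * x⁻¹ := by
      calc (x * v) * ((x * v) * w * (x * v)⁻¹) * (x * v)⁻¹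
          = ((x * v) * (x * v)) * w * ((x * v) * (x * v))⁻¹ := by group
        _ = (x * x * u) * w * (x * x * u)⁻¹ := by rw [hsq]
        _ = x * (x * (u * w * u⁻¹) * x⁻¹) * x⁻¹ := by group
    rw [e3, e2] at hF
    exact hF
  have hcj : ∀ (g : Q) (w : ↥W),
      (((MulAut.conjNormal g : MulAut ↥W).toMonoidHom w : ↥W) : Q) = g * w * g⁻¹ :=
    fun g w => MulAut.conjNormal_apply g w
  have key := a4_gen _ ↥W rfl (MulAut.conjNormal x : MulAut ↥W).toMonoidHom
    (MulAut.conjNormal b : MulAut ↥W).toMonoidHom (MulAut.conjNormal c : MulAut ↥W).toMonoidHom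
    (MulAut.conjNormal d : MulAut ↥W).toMonoidHom
    (by intro w; apply Subtype.ext; rw [Subgroup.coe_pow]; exact hW3 _ w.2)
    (by
      intro w; apply Subtype.ext
      simp only [Subgroup.coe_mul, hcj]
      exact F x hx3 _ w.2)
    (by
      intro w; apply Subtype.ext
      simp only [Subgroup.coe_mul, hcj]
      exact G2 b c d r1 hcb r3 hbb _ w.2)
    (by
      intro w; apply Subtype.ext
      simp only [Subgroup.coe_mul, hcj]
      exact G2 c d b r2 hdc r1 hcc _ w.2)
    (by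
      intro w; apply Subtype.ext
      simp only [Subgroup.coe_mul, hcj]
      exact G2 d b c r3 hbd r2 hdd _ w.2)
    (by
      intro w; apply Subtype.ext
      simp only [hcj]
      rw [← hcb]; group)
    (by
      intro w; apply Subtype.ext
      simp only [hcj]
      have h1 : b * (b * (w : Q) * b⁻¹) * b⁻¹ = (b * b) * w * (b * b)⁻¹ := by group
      rw [h1, hbb]; group)
  have hbcent : b ∈ Subgroup.centralizer (W : Set Q) := by
    rw [Subgroup.mem_centralizer_iff]
    intro w hw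
    have h1 := congrArg Subtype.val (key ⟨w, hw⟩)
    rw [hcj] at h1
    -- h1 : b * w * b⁻¹ = w
    calc w * b = (b * w * b⁻¹) * b := by rw [h1]
      _ = b * w := by group
  have hbW := hC hbcent
  exact hb1 (eq_one_of_pow b (hW3 b hbW) (hT'2 b hbT))

theorem plen_one {G : Type u} [Group G] [Finite G] (p : ℕ) [Fact p.Prime]
    (hidx : ¬ p ∣ (pCore p (G ⧸ (Cfsg.upperPSeries p G 1).1)).index) : Cfsg.PLengthLE p 1 G := by
  have hp : p.Prime := Fact.out
  unfold Cfsg.PLengthLE
  have h2 : (Cfsg.upperPSeries p G 2).1 =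
      (Cfsg.pCore p (G ⧸ (Cfsg.upperPSeries p G 1).1)).comap
        (QuotientGroup.mk' (Cfsg.upperPSeries p G 1).1) := by
    show (Cfsg.upperPSeries p G (1 + 1)).1 = _
    rw [Cfsg.upperPSeries]
    rw [if_neg (by decide)]
  have h3 : (Cfsg.upperPSeries p G (2 * 1 + 1)).1 =
      (Cfsg.pPrimeCore p (G ⧸ (Cfsg.upperPSeries p G (2 * 1)).1)).comap
        (QuotientGroup.mk' (Cfsg.upperPSeries p G (2 * 1)).1) := by
    rw [Cfsg.upperPSeries]
    rw [if_pos (even_two_mul 1)]
  rw [h3]
  have hidx2 : ¬ p ∣ (Cfsg.upperPSeries p G (2 * 1)).1.index := by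
    show ¬ p ∣ (Cfsg.upperPSeries p G 2).1.index
    rw [h2, Subgroup.index_comap_of_surjective _ (QuotientGroup.mk'_surjective _)]
    exact hidx
  have htop : Cfsg.pPrimeCore p (G ⧸ (Cfsg.upperPSeries p G (2 * 1)).1) = ⊤ := by
    rw [eq_top_iff]
    apply Cfsg.Agent.Lib.helper9.le_pPrimeCore (inferInstance : (⊤ : Subgroup _).Normal)
    rw [Subgroup.card_top, ← Subgroup.index_eq_card]
    exact ((Nat.Prime.coprime_iff_not_dvd hp).mpr hidx2).symm
  rw [htop, Subgroup.comap_top]

theorem cent_quot {G : Type u} [Group G] [Finite G] (hsolv : Group.IsSolvable G) (p : ℕ)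
    [Fact p.Prime] :
    Subgroup.centralizer ((pCore p (G ⧸ (Cfsg.upperPSeries p G 1).1) :
      Subgroup (G ⧸ (Cfsg.upperPSeries p G 1).1)) : Set (G ⧸ (Cfsg.upperPSeries p G 1).1)) ≤
      pCore p (G ⧸ (Cfsg.upperPSeries p G 1).1) := by
  have h1 : (Cfsg.upperPSeries p G 1).1 =
      (Cfsg.pPrimeCore p (G ⧸ (Cfsg.upperPSeries p G 0).1)).comap
        (QuotientGroup.mk' (Cfsg.upperPSeries p G 0).1) := by
    show (Cfsg.upperPSeries p G (0 + 1)).1 = _
    rw [Cfsg.upperPSeries]
    rw [if_pos ⟨0, rfl⟩]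
  have hcore := Cfsg.Agent.Lib.helper16.pPrimeCore_quot_eq_bot_of_comap (p := p)
    (Cfsg.upperPSeries p G 0).1 (Cfsg.upperPSeries p G 1).1 h1
  have hs : Group.IsSolvable (G ⧸ (Cfsg.upperPSeries p G 1).1) :=
    Group.isSolvable_of_surjective (QuotientGroup.mk'_surjective _)
  exact Cfsg.Agent.Lib.helper10.centralizer_pCore_le_of_solvable hs hcore

/-- A finite group in which every element has order dividing `6` has `2`-length at most `1` and `3`-length at most `1`. -/
theorem result {G : Type*} [Group G] [Finite G] (h : ∀ x : G, x ^ 6 = 1) : Cfsg.PLengthLE 2 1 G ∧ Cfsg.PLengthLE 3 1 G := by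
  haveI : Fact (Nat.Prime 3) := ⟨Nat.prime_three⟩
  haveI : Fact (Nat.Prime 2) := ⟨Nat.prime_two⟩
  have hprime : ∀ r : ℕ, r.Prime → r ∣ Nat.card G → r = 2 ∨ r = 3 := by
    intro r hr hdvd
    haveI : Fact r.Prime := ⟨hr⟩
    obtain ⟨x, hx⟩ := exists_prime_orderOf_dvd_card' (G := G) r hdvd
    have h1 : orderOf x ∣ 6 := orderOf_dvd_of_pow_eq_one (h x)
    rw [hx] at h1
    have h2 : r ∣ 2 * 3 := h1
    rcases (Nat.Prime.dvd_mul hr).mp h2 with h3 | h3
    · left; exact (Nat.prime_dvd_prime_iff_eq hr Nat.prime_two).mp h3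
    · right; exact (Nat.prime_dvd_prime_iff_eq hr Nat.prime_three).mp h3
  have hn0 : Nat.card G ≠ 0 := Nat.card_pos.ne'
  have hsolv : Group.IsSolvable G := by
    obtain ⟨n, hn⟩ : ∃ n : ℕ, n = Nat.card G := ⟨_, rfl⟩
    rw [← hn] at hprime hn0
    obtain ⟨m, hm⟩ : ∃ m : ℕ, m = n / 2 ^ n.factorization 2 := ⟨_, rfl⟩
    have hm1 : 2 ^ n.factorization 2 * m = n := by rw [hm]; exact Nat.ordProj_mul_ordCompl_eq_self n 2
    have hmn : m ∣ n := by rw [hm]; exact Nat.ordCompl_dvd n 2
    have hm0 : m ≠ 0 := by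
      rintro rfl
      rw [mul_zero] at hm1
      exact hn0 hm1.symm
    have hm2 : ¬ 2 ∣ m := by rw [hm]; exact Nat.not_dvd_ordCompl Nat.prime_two hn0
    obtain ⟨k, hk⟩ : ∃ k : ℕ, k = m / 3 ^ m.factorization 3 := ⟨_, rfl⟩
    have hk1 : 3 ^ m.factorization 3 * k = m := by rw [hk]; exact Nat.ordProj_mul_ordCompl_eq_self m 3
    have hkm : k ∣ m := by rw [hk]; exact Nat.ordCompl_dvd m 3
    have hk3 : ¬ 3 ∣ k := by rw [hk]; exact Nat.not_dvd_ordCompl Nat.prime_three hm0
    have hkone : k = 1 := by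
      by_contra hne
      obtain ⟨r, hr, hrk⟩ := Nat.exists_prime_and_dvd hne
      rcases hprime r hr (hrk.trans (hkm.trans hmn)) with rfl | rfl
      · exact hm2 (hrk.trans hkm)
      · exact hk3 hrk
    rw [hkone, mul_one] at hk1
    rw [← hk1] at hm1
    exact Cfsg.Agent.S0144.result 2 3 (n.factorization 2) (m.factorization 3) Nat.prime_two
      Nat.prime_three (hn ▸ hm1.symm)
  have hQ6 : ∀ (N : Subgroup G) [N.Normal] (g : G ⧸ N), g ^ 6 = 1 := by
    intro N _ g
    obtain ⟨g, rfl⟩ := QuotientGroup.mk_surjective g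
    rw [← QuotientGroup.mk_pow, h]; rfl
  refine ⟨plen_one 2 ?_, plen_one 3 ?_⟩
  · exact sylow2_normal (hQ6 _) (cent_quot hsolv 2)
  · exact sylow3_normal (Group.isSolvable_of_surjective (QuotientGroup.mk'_surjective _)) (hQ6 _)
      (cent_quot hsolv 3)

end Cfsg.Agent.S4227
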