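import Cfsg.Statements.S4275
-- import your own Cfsg.Agent.* helpers here
import Mathlib

set_option autoImplicit false
open Cfsg

namespace Cfsg.Agent.S4275



/-- Let G be a transitive group of permutations of a finite set Ω, let o ∈ Ω, and let α be an automorphism of G. Then α is induced by conjugation by a permutation of Ω normalizing G if and only if the image under α of the stabilizer of o fixes some point of Ω. -/
theorem result {Ω : Type*} [Fintype Ω] (G : Subgroup (Equiv.Perm Ω)) (htr : MulAction.IsPretransitive G Ω) (o : Ω) (α : G ≃* G) : (∃ σ : Equiv.Perm Ω, σ ∈ Subgroup.normalizer (G : Set (Equiv.Perm Ω)) ∧ ∀ g : G, ((α g : G) : Equiv.Perm Ω) = σ * (g : Equiv.Perm Ω) * σ⁻¹) ↔ ∃ ω : Ω, ∀ g ∈ (MulAction.stabilizer G o).map α.toMonoidHom, g • ω = ω := by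
  classical
  have := htr
  constructor
  · rintro ⟨σ, -, hσ⟩
    refine ⟨σ o, ?_⟩
    rintro g ⟨h, hh, rfl⟩
    have hh' : (h : Equiv.Perm Ω) o = o := MulAction.mem_stabilizer_iff.mp hh
    show ((α h : G) : Equiv.Perm Ω) (σ o) = σ o
    rw [hσ h]
    simp [hh']
  · rintro ⟨ω, hω⟩
    have hω' : ∀ h : G, (h : Equiv.Perm Ω) o = o → ((α h : G) : Equiv.Perm Ω) ω = ω := by
      intro h hh
      exact hω (α h) ⟨h, MulAction.mem_stabilizer_iff.mpr hh, rfl⟩
    have hex : ∀ x : Ω, ∃ c : G, (c : Equiv.Perm Ω) o = x := fun x =>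
      MulAction.exists_smul_eq G o x
    choose c hc using hex
    have key : ∀ g : G, ((α (c ((g : Equiv.Perm Ω) o)) : G) : Equiv.Perm Ω) ω
        = ((α g : G) : Equiv.Perm Ω) ω := by
      intro g
      have h1 : ((g⁻¹ * c ((g : Equiv.Perm Ω) o) : G) : Equiv.Perm Ω) o = o := by
        rw [Subgroup.coe_mul, Equiv.Perm.mul_apply, hc, Subgroup.coe_inv]
        simp
      have h2 := hω' _ h1
      rw [map_mul, map_inv, Subgroup.coe_mul, Equiv.Perm.mul_apply, Subgroup.coe_inv] at h2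
      -- h2 : (α g)⁻¹ (α c ω) = ω
      have h3 := congrArg ((α g : G) : Equiv.Perm Ω) h2
      simpa using h3
    have hsurj : Function.Surjective (fun x : Ω => ((α (c x) : G) : Equiv.Perm Ω) ω) := by
      intro y
      obtain ⟨γ, hγ⟩ := MulAction.exists_smul_eq G ω y
      refine ⟨((α.symm γ : G) : Equiv.Perm Ω) o, ?_⟩
      show ((α (c (((α.symm γ : G) : Equiv.Perm Ω) o)) : G) : Equiv.Perm Ω) ω = y
      rw [key, MulEquiv.apply_symm_apply]
      exact hγ
    have hbij : Function.Bijective (fun x : Ω => ((α (c x) : G) : Equiv.Perm Ω) ω) :=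
      ⟨Finite.injective_iff_surjective.mpr hsurj, hsurj⟩
    obtain ⟨σ, hσ⟩ : ∃ σ : Equiv.Perm Ω, ∀ x, σ x = ((α (c x) : G) : Equiv.Perm Ω) ω :=
      ⟨Equiv.ofBijective _ hbij, fun x => rfl⟩
    have hσo : ∀ g : G, σ ((g : Equiv.Perm Ω) o) = ((α g : G) : Equiv.Perm Ω) ω := by
      intro g; rw [hσ, key]
    have hconj : ∀ g : G, ((α g : G) : Equiv.Perm Ω) = σ * (g : Equiv.Perm Ω) * σ⁻¹ := by
      intro g
      rw [eq_mul_inv_iff_mul_eq]
      ext x
      obtain ⟨h, rfl⟩ : ∃ h : G, (h : Equiv.Perm Ω) o = x := MulAction.exists_smul_eq G o x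
      show ((α g : G) : Equiv.Perm Ω) (σ ((h : Equiv.Perm Ω) o))
        = σ ((g : Equiv.Perm Ω) ((h : Equiv.Perm Ω) o))
      have e : (g : Equiv.Perm Ω) ((h : Equiv.Perm Ω) o) = ((g * h : G) : Equiv.Perm Ω) o := rfl
      rw [e, hσo, hσo, map_mul]
      rfl
    refine ⟨σ, ?_, hconj⟩
    apply Subgroup.mem_normalizer_fintype
    intro τ hτ
    have := hconj ⟨τ, hτ⟩
    show σ * τ * σ⁻¹ ∈ G
    rw [← this]
    exact (α ⟨τ, hτ⟩).2

end Cfsg.Agent.S4275
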