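import Cfsg.Statements.S4277
import Cfsg.Agent.Lib.helper5.SchreierPrimeB

set_option autoImplicit false
open Cfsg

namespace Cfsg.Agent.S4277

open Cfsg.Agent.Lib.helper5

/-- A case of the Schreier conjecture: if a finite simple group G has a subgroup of prime index, then the outer automorphism group of G is solvable. -/
theorem result {G : Type*} [Group G] [Finite G] [IsSimpleGroup G] (H : Subgroup G) (hH : H.index.Prime) : Group.IsSolvable (Cfsg.Out G) := by
  classical
  by_cases hs : Group.IsSolvable G
  · have hcomm := IsSimpleGroup.comm_iff_isSolvable.mpr hs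
    letI : CommGroup G := { (inferInstance : Group G) with mul_comm := hcomm }
    haveI : IsCyclic G := inferInstance
    haveI : Group.IsSolvable (MulAut G) :=
      Group.isSolvable_of_isSolvable_injective (f := (IsCyclic.mulAutMulEquiv G).toMonoidHom)
        (IsCyclic.mulAutMulEquiv G).injective
    infer_instance
  · have hHne : H ≠ ⊤ := by
      rintro rfl
      rw [Subgroup.index_top] at hH
      exact Nat.not_prime_one hH
    letI : Fintype (G ⧸ H) := Fintype.ofFinite _
    let ρ : G →* Equiv.Perm (G ⧸ H) := MulAction.toPermHom G (G ⧸ H)
    have hinj : Function.Injective ρ := by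
      rw [← MonoidHom.ker_eq_bot_iff]
      rcases (inferInstance : ρ.ker.Normal).eq_bot_or_eq_top with h | h
      · exact h
      · exfalso
        apply hHne
        rw [eq_top_iff]
        intro g _
        have hg : g ∈ ρ.ker := h ▸ Subgroup.mem_top g
        have h1 : ρ g = 1 := hg
        have h3 : (ρ g) (QuotientGroup.mk 1 : G ⧸ H) = QuotientGroup.mk 1 := by rw [h1]; rfl
        have h2 : g • (QuotientGroup.mk 1 : G ⧸ H) = QuotientGroup.mk 1 := h3
        rw [MulAction.Quotient.smul_mk, QuotientGroup.eq] at h2
        simpa using h2
    have hp : (Fintype.card (G ⧸ H)).Prime := by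
      rw [← Nat.card_eq_fintype_card, ← Subgroup.index_eq_card]; exact hH
    let e : G ≃* ρ.range := MonoidHom.ofInjective hinj
    have : MulAction.IsPretransitive ρ.range (G ⧸ H) := by
      constructor
      intro a b
      obtain ⟨g, hg⟩ := MulAction.exists_smul_eq G a b
      exact ⟨⟨ρ g, g, rfl⟩, hg⟩
    have hns : ¬ Group.IsSolvable ρ.range := by
      intro h
      exact hs (Group.isSolvable_of_isSolvable_injective (f := e.toMonoidHom) e.injective)
    exact sp_out_transport e (sp_out_solvable_perm ρ.range hp hns)

end Cfsg.Agent.S4277
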