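import Cfsg.Statements.S4283
-- import your own Cfsg.Agent.* helpers here
import Mathlib

set_option autoImplicit false
open Cfsg

namespace Cfsg.Agent.S4283

open scoped Pointwise

theorem mem_conj_smul {G : Type*} [Group G] (g y : G) (M : Subgroup G) :
    y ∈ MulAut.conj g • M ↔ g⁻¹ * y * g ∈ M := by
  rw [Subgroup.mem_pointwise_smul_iff_inv_smul_mem]
  have e : (MulAut.conj g)⁻¹ • y = g⁻¹ * y * g := by simp [MulAut.smul_def]
  rw [e]

theorem card_dvd_of_free {A X : Type*} [Group A] [MulAction A X]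
    (h : ∀ b : X, MulAction.stabilizer A b = ⊥) : Nat.card A ∣ Nat.card X := by
  rw [Nat.card_congr (MulAction.selfEquivOrbitsQuotientProd h), Nat.card_prod]
  exact dvd_mul_left _ _

theorem frob_comm_mem {Q : Type*} [Group Q] (A : Subgroup Q)
    (hA : Cfsg.IsFrobeniusComplement A) {x g t : Q}
    (hx : x ∈ MulAut.conj t • A) (hx1 : x ≠ 1) (hg : Commute g x) : g ∈ MulAut.conj t • A := by
  rw [mem_conj_smul] at hx ⊢
  by_contra hg'
  have h1 := hA.2.2 _ hg'
  have h2 : t⁻¹ * x * t ∈ A ⊓ MulAut.conj (t⁻¹ * g * t) • A := by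
    refine Subgroup.mem_inf.mpr ⟨hx, ?_⟩
    rw [mem_conj_smul]
    have e1 : (t⁻¹ * g * t)⁻¹ * (t⁻¹ * x * t) * (t⁻¹ * g * t) = t⁻¹ * (g⁻¹ * x * g) * t := by
      group
    rw [e1]
    have e2 : g⁻¹ * x * g = x := by rw [mul_assoc, ← hg.eq, inv_mul_cancel_left]
    rw [e2]; exact hx
  rw [h1, Subgroup.mem_bot] at h2
  apply hx1
  have e3 : x = t * (t⁻¹ * x * t) * t⁻¹ := by group
  rw [e3, h2]; group

theorem mem_kernel_iff {Q : Type*} [Group Q] (A N : Subgroup Q)
    (hN : Cfsg.frobeniusKernel A = (N : Set Q)) (x : Q) :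
    x ∈ N ↔ (x = 1 ∨ ∀ g : Q, x ∉ MulAut.conj g • A) := by
  rw [← SetLike.mem_coe, ← hN]; rfl

theorem frob_cent_kernel {Q : Type*} [Group Q] (A N : Subgroup Q)
    (hA : Cfsg.IsFrobeniusComplement A) (hN : Cfsg.frobeniusKernel A = (N : Set Q))
    {x g : Q} (hx : x ∈ N) (hx1 : x ≠ 1) (hg : Commute g x) : g ∈ N := by
  by_contra hgN
  rw [mem_kernel_iff A N hN] at hgN
  push Not at hgN
  obtain ⟨hg1, t, ht⟩ := hgN
  have h3 := frob_comm_mem A hA ht hg1 hg.symm
  rcases (mem_kernel_iff A N hN x).mp hx with h | h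
  · exact hx1 h
  · exact h t h3

theorem frob_cent_compl {Q : Type*} [Group Q] (A N : Subgroup Q)
    (hA : Cfsg.IsFrobeniusComplement A) (hN : Cfsg.frobeniusKernel A = (N : Set Q))
    {x : Q} (hx : x ∉ N) :
    ∃ t : Q, x ∈ MulAut.conj t • A ∧ ∀ g : Q, Commute g x → g ∈ MulAut.conj t • A := by
  rw [mem_kernel_iff A N hN] at hx
  push Not at hx
  obtain ⟨hx1, t, ht⟩ := hx
  exact ⟨t, ht, fun g hg => frob_comm_mem A hA ht hx1 hg⟩

theorem frob_inf {Q : Type*} [Group Q] (A N : Subgroup Q)
    (hN : Cfsg.frobeniusKernel A = (N : Set Q)) : N ⊓ A = ⊥ := by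
  rw [eq_bot_iff]
  intro x hx
  rw [Subgroup.mem_bot]
  rcases (mem_kernel_iff A N hN x).mp hx.1 with h | h
  · exact h
  · exact absurd ((mem_conj_smul (1 : Q) x A).mpr (by simpa using hx.2)) (h 1)

theorem frob_card {Q : Type*} [Group Q] [Finite Q] (A N : Subgroup Q)
    (hN : Cfsg.frobeniusKernel A = (N : Set Q)) : Nat.card N = A.index := by
  classical
  have h1 : Nat.card N * Nat.card A ≤ Nat.card Q := by
    have hd : Disjoint N A := disjoint_iff.mpr (frob_inf A N hN)
    have := Nat.card_le_card_of_injective _ (Subgroup.mul_injective_of_disjoint hd)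
    rwa [Nat.card_prod] at this
  have h2 : Nat.card Q ≤ Nat.card N + A.index * (Nat.card A - 1) := by
    have e := Nat.card_congr (Equiv.sumCompl (fun x : Q => x ∈ N))
    rw [Nat.card_sum] at e
    let F : (Q ⧸ A) × {a : A // a ≠ 1} → {x : Q // ¬ x ∈ N} := fun qa =>
      ⟨qa.1.out * (qa.2.1 : Q) * qa.1.out⁻¹, by
        rw [mem_kernel_iff A N hN]
        push Not
        refine ⟨?_, qa.1.out, ?_⟩
        · intro h
          apply qa.2.2
          apply Subtype.ext
          have e3 : (qa.2.1 : Q) = qa.1.out⁻¹ * (qa.1.out * (qa.2.1 : Q) * qa.1.out⁻¹) * qa.1.out := by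
            group
          rw [e3, h]; simp
        · rw [mem_conj_smul]
          have e3 : qa.1.out⁻¹ * (qa.1.out * (qa.2.1 : Q) * qa.1.out⁻¹) * qa.1.out = qa.2.1 := by
            group
          rw [e3]; exact qa.2.1.2⟩
    have hF : Function.Surjective F := by
      rintro ⟨x, hx⟩
      have hx' := hx
      rw [mem_kernel_iff A N hN] at hx'
      push Not at hx'
      obtain ⟨hx1, t, ht⟩ := hx'
      rw [mem_conj_smul] at ht
      obtain ⟨a', ha'⟩ := QuotientGroup.mk_out_eq_mul A t
      refine ⟨(QuotientGroup.mk t, ⟨⟨(a' : Q)⁻¹ * (t⁻¹ * x * t) * a',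
        mul_mem (mul_mem (inv_mem a'.2) ht) a'.2⟩, ?_⟩), ?_⟩
      · intro h
        apply hx1
        have h' : (a' : Q)⁻¹ * (t⁻¹ * x * t) * a' = 1 := congrArg Subtype.val h
        have e3 : x = t * a' * ((a' : Q)⁻¹ * (t⁻¹ * x * t) * a') * (a' : Q)⁻¹ * t⁻¹ := by group
        rw [e3, h']; group
      · apply Subtype.ext
        show (QuotientGroup.mk t : Q ⧸ A).out * ((a' : Q)⁻¹ * (t⁻¹ * x * t) * a')
          * (QuotientGroup.mk t : Q ⧸ A).out⁻¹ = x
        rw [ha']; group
    have h3 := Nat.card_le_card_of_surjective F hF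
    rw [Nat.card_prod] at h3
    have h4 : Nat.card {a : A // a ≠ 1} = Nat.card A - 1 := by
      have := Nat.card_congr (Equiv.optionSubtypeNe (1 : A))
      rw [Finite.card_option] at this
      omega
    rw [h4] at h3
    have h5 : Nat.card (Q ⧸ A) = A.index := rfl
    rw [h5] at h3
    have h6 : Nat.card {x : Q // x ∈ N} = Nat.card N := rfl
    omega
  have h5 : A.index * Nat.card A = Nat.card Q := Subgroup.index_mul_card A
  have hApos : 0 < Nat.card A := Nat.card_pos
  apply le_antisymm
  · rw [← h5] at h1; exact Nat.le_of_mul_le_mul_right h1 hApos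
  · rw [← h5] at h2
    obtain ⟨m, hm⟩ : ∃ m, Nat.card A = m + 1 := ⟨Nat.card A - 1, by omega⟩
    rw [hm] at h2
    simp only [Nat.add_sub_cancel] at h2
    have : A.index * (m + 1) = A.index * m + A.index := by ring
    omega

@[reducible] def conjActOn {Q : Type*} [Group Q] (A N : Subgroup Q)
    (hN : Cfsg.frobeniusKernel A = (N : Set Q)) : MulAction A {x : Q // x ∈ N ∧ x ≠ 1} where
  smul a x := ⟨(a : Q) * x.1 * (a : Q)⁻¹, by
    refine ⟨?_, ?_⟩
    · rw [mem_kernel_iff A N hN]
      rcases (mem_kernel_iff A N hN x.1).mp x.2.1 with h | h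
      · exact absurd h x.2.2
      · right
        intro g hg
        apply h ((a : Q)⁻¹ * g)
        rw [mem_conj_smul] at hg ⊢
        have e3 : ((a : Q)⁻¹ * g)⁻¹ * x.1 * ((a : Q)⁻¹ * g)
            = g⁻¹ * ((a : Q) * x.1 * (a : Q)⁻¹) * g := by group
        rw [e3]; exact hg
    · intro h
      apply x.2.2
      have e3 : x.1 = (a : Q)⁻¹ * ((a : Q) * x.1 * (a : Q)⁻¹) * (a : Q) := by group
      rw [e3, h]; group⟩
  one_smul x := by
    apply Subtype.ext
    show ((1 : A) : Q) * x.1 * ((1 : A) : Q)⁻¹ = x.1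
    simp
  mul_smul a b x := by
    apply Subtype.ext
    show ((a * b : A) : Q) * x.1 * ((a * b : A) : Q)⁻¹
      = (a : Q) * ((b : Q) * x.1 * (b : Q)⁻¹) * (a : Q)⁻¹
    simp [mul_assoc]

theorem frob_coprime {Q : Type*} [Group Q] [Finite Q] (A N : Subgroup Q)
    (hA : Cfsg.IsFrobeniusComplement A) (hN : Cfsg.frobeniusKernel A = (N : Set Q)) :
    (Nat.card N).Coprime (Nat.card A) := by
  classical
  let _ := conjActOn A N hN
  have hfree : ∀ x : {x : Q // x ∈ N ∧ x ≠ 1}, MulAction.stabilizer A x = ⊥ := by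
    intro x
    rw [eq_bot_iff]
    intro a ha
    rw [MulAction.mem_stabilizer_iff] at ha
    rw [Subgroup.mem_bot]
    by_contra ha1
    have hax : (a : Q) * x.1 * (a : Q)⁻¹ = x.1 := congrArg Subtype.val ha
    have hcomm : Commute x.1 (a : Q) := by
      show x.1 * a = a * x.1
      calc x.1 * a = ((a : Q) * x.1 * (a : Q)⁻¹) * a := by rw [hax]
        _ = a * x.1 := by group
    have ha' : (a : Q) ∈ MulAut.conj (1 : Q) • A :=
      (mem_conj_smul (1 : Q) (a : Q) A).mpr (by simp)
    have ha1' : (a : Q) ≠ 1 := fun h => ha1 (Subtype.ext h)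
    have hx := frob_comm_mem A hA ha' ha1' hcomm
    rcases (mem_kernel_iff A N hN x.1).mp x.2.1 with h | h
    · exact x.2.2 h
    · exact h 1 hx
  have hdvd := card_dvd_of_free hfree
  have hX : Nat.card {x : Q // x ∈ N ∧ x ≠ 1} + 1 = Nat.card N := by
    have e : {x : Q // x ∈ N ∧ x ≠ 1} ≃ {y : N // y ≠ 1} :=
      { toFun := fun x => ⟨⟨x.1, x.2.1⟩, fun h => x.2.2 (congrArg Subtype.val h)⟩
        invFun := fun y => ⟨y.1.1, y.1.2, fun h => y.2 (Subtype.ext h)⟩
        left_inv := fun x => rfl
        right_inv := fun y => rfl }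
    rw [Nat.card_congr e, ← Finite.card_option, Nat.card_congr (Equiv.optionSubtypeNe (1 : N))]
  obtain ⟨m, hm⟩ := hdvd
  rw [← hX, hm]
  simp

/-- Let G be a finite group with centre Z and let K, H be abelian subgroups of G containing Z such that G/Z is a Frobenius group with complement H/Z and kernel K/Z. Then the conjugacy class sizes of G are exactly 1, [G : K] and [G : H], and these two indices are coprime. (This is the converse half of the characterization of finite groups whose conjugacy class sizes are exactly 1, m and n with m and n coprime.) -/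
theorem result {G : Type*} [Group G] [Finite G] (K H : Subgroup G) (hZK : Subgroup.center G ≤ K) (hZH : Subgroup.center G ≤ H) (hK : IsMulCommutative K) (hH : IsMulCommutative H) (hFrob : Cfsg.IsFrobeniusComplement (H.map (QuotientGroup.mk' (Subgroup.center G)))) (hker : Cfsg.frobeniusKernel (H.map (QuotientGroup.mk' (Subgroup.center G))) = (K.map (QuotientGroup.mk' (Subgroup.center G)) : Set (G ⧸ Subgroup.center G))) : Set.range (fun x : G => (Subgroup.centralizer ({x} : Set G)).index) = ({1, K.index, H.index} : Set ℕ) ∧ K.index.Coprime H.index := by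
  classical
  obtain ⟨π, hπ⟩ : ∃ π : G →* G ⧸ Subgroup.center G,
      π = QuotientGroup.mk' (Subgroup.center G) := ⟨_, rfl⟩
  rw [← hπ] at hFrob hker
  have hπs : Function.Surjective π := by rw [hπ]; exact QuotientGroup.mk'_surjective _
  have hkerπ : π.ker = Subgroup.center G := by rw [hπ]; exact QuotientGroup.ker_mk' _
  have hmemH : ∀ y : G, π y ∈ H.map π ↔ y ∈ H := by
    intro y
    rw [← Subgroup.mem_comap, Subgroup.comap_map_eq_self (by rw [hkerπ]; exact hZH)]
  have hmemK : ∀ y : G, π y ∈ K.map π ↔ y ∈ K := by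
    intro y
    rw [← Subgroup.mem_comap, Subgroup.comap_map_eq_self (by rw [hkerπ]; exact hZK)]
  have hπ1 : ∀ y : G, π y = 1 ↔ y ∈ Subgroup.center G := by
    intro y; rw [← MonoidHom.mem_ker, hkerπ]
  have hidxH : (H.map π).index = H.index :=
    Subgroup.index_map_eq H hπs (by rw [hkerπ]; exact hZH)
  have hidxK : (K.map π).index = K.index :=
    Subgroup.index_map_eq K hπs (by rw [hkerπ]; exact hZK)
  have hcard := frob_card (H.map π) (K.map π) hker
  have hcop := frob_coprime (H.map π) (K.map π) hFrob hker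
  have hKidx : K.index = Nat.card (H.map π) := by
    have h1 := Subgroup.index_mul_card (K.map π)
    have h2 := Subgroup.index_mul_card (H.map π)
    rw [hidxK] at h1
    rw [← hcard] at h2
    have hpos : 0 < Nat.card (K.map π) := Nat.card_pos
    have h3 : K.index * Nat.card (K.map π) = Nat.card (H.map π) * Nat.card (K.map π) := by
      rw [h1, ← h2, mul_comm]
    exact Nat.eq_of_mul_eq_mul_right hpos h3
  have hHidx : H.index = Nat.card (K.map π) := by rw [← hidxH, hcard]
  have hcent1 : ∀ x ∈ Subgroup.center G, (Subgroup.centralizer ({x} : Set G)).index = 1 := by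
    intro x hx
    rw [Subgroup.index_eq_one, eq_top_iff]
    intro g _
    rw [Subgroup.mem_centralizer_iff]
    intro y hy
    rw [Set.mem_singleton_iff] at hy; subst hy
    exact (Subgroup.mem_center_iff.mp hx g).symm
  have hcentK : ∀ x ∈ K, x ∉ Subgroup.center G → Subgroup.centralizer ({x} : Set G) = K := by
    intro x hxK hxZ
    apply le_antisymm
    · intro g hg
      rw [Subgroup.mem_centralizer_iff] at hg
      have hgx : x * g = g * x := hg x rfl
      rw [← hmemK]
      apply frob_cent_kernel (H.map π) (K.map π) hFrob hker ((hmemK x).mpr hxK)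
        (by rw [Ne, hπ1]; exact hxZ)
      show π g * π x = π x * π g
      rw [← map_mul, ← map_mul, hgx]
    · intro g hg
      rw [Subgroup.mem_centralizer_iff]
      intro y hy
      rw [Set.mem_singleton_iff] at hy; subst hy
      exact congrArg Subtype.val (mul_comm' (⟨y, hxK⟩ : K) ⟨g, hg⟩)
  have hcentH : ∀ x, x ∉ K → (Subgroup.centralizer ({x} : Set G)).index = H.index := by
    intro x hxK
    have hxK' : π x ∉ K.map π := by rwa [hmemK]
    obtain ⟨t', ht', hcomm⟩ := frob_cent_compl (H.map π) (K.map π) hFrob hker hxK'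
    obtain ⟨t, rfl⟩ := hπs t'
    have hconj : ∀ y : G, π y ∈ MulAut.conj (π t) • H.map π ↔ t⁻¹ * y * t ∈ H := by
      intro y
      rw [mem_conj_smul, ← hmemH, map_mul, map_mul, map_inv]
    have hx : t⁻¹ * x * t ∈ H := (hconj x).mp ht'
    have heq : Subgroup.centralizer ({x} : Set G)
        = H.map ((MulAut.conj t : G ≃* G) : G →* G) := by
      ext g
      rw [Subgroup.mem_centralizer_iff]
      constructor
      · intro hg
        have hgx : x * g = g * x := hg x rfl
        have h1 : t⁻¹ * g * t ∈ H := by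
          rw [← hconj]
          apply hcomm
          show π g * π x = π x * π g
          rw [← map_mul, ← map_mul, hgx]
        refine ⟨t⁻¹ * g * t, h1, ?_⟩
        show t * (t⁻¹ * g * t) * t⁻¹ = g
        group
      · rintro ⟨g', hg', rfl⟩ y hy
        rw [Set.mem_singleton_iff] at hy; subst hy
        have hc : (t⁻¹ * y * t) * g' = g' * (t⁻¹ * y * t) :=
          congrArg Subtype.val (mul_comm' (⟨t⁻¹ * y * t, hx⟩ : H) ⟨g', hg'⟩)
        show y * (t * g' * t⁻¹) = t * g' * t⁻¹ * y
        calc y * (t * g' * t⁻¹) = t * ((t⁻¹ * y * t) * g') * t⁻¹ := by group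
          _ = t * (g' * (t⁻¹ * y * t)) * t⁻¹ := by rw [hc]
          _ = t * g' * t⁻¹ * y := by group
    rw [heq, Subgroup.index_map_equiv]
  constructor
  · ext m
    simp only [Set.mem_range, Set.mem_insert_iff, Set.mem_singleton_iff]
    constructor
    · rintro ⟨x, rfl⟩
      by_cases hxZ : x ∈ Subgroup.center G
      · left; exact hcent1 x hxZ
      · by_cases hxK : x ∈ K
        · right; left; rw [hcentK x hxK hxZ]
        · right; right; exact hcentH x hxK
    · rintro (rfl | rfl | rfl)
      · exact ⟨1, hcent1 1 (one_mem _)⟩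
      · have hne : K.map π ≠ ⊥ := by
          intro h0
          have h1 : Nat.card (K.map π) = 1 := by rw [h0]; simp
          rw [hcard, Subgroup.index_eq_one] at h1
          exact hFrob.2.1 h1
        rcases Subgroup.bot_or_exists_ne_one (K.map π) with h0 | ⟨x', hx', hx'1⟩
        · exact absurd h0 hne
        · obtain ⟨x, hxK, rfl⟩ := hx'
          exact ⟨x, by rw [hcentK x hxK (by rwa [← hπ1])]⟩
      · rcases Subgroup.bot_or_exists_ne_one (H.map π) with h0 | ⟨x', hx', hx'1⟩
        · exact absurd h0 hFrob.1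
        · obtain ⟨x, hxH, rfl⟩ := hx'
          refine ⟨x, hcentH x ?_⟩
          intro hxK
          have h1 : π x ∈ K.map π ⊓ H.map π := ⟨(hmemK x).mpr hxK, (hmemH x).mpr hxH⟩
          rw [frob_inf (H.map π) (K.map π) hker, Subgroup.mem_bot] at h1
          exact hx'1 h1
  · rw [hKidx, hHidx]; exact hcop.symm

end Cfsg.Agent.S4283
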