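import Cfsg.Statements.S4293
-- import your own Cfsg.Agent.* helpers here
import Cfsg.Agent.S4295

set_option autoImplicit false
open Cfsg

namespace Cfsg.Agent.S4293

section S4293aux

open scoped Pointwise

universe u

theorem frob_transport {L Γ : Type*} [Group L] [Group Γ] (e : L ≃* Γ) (C : Subgroup Γ)
    (hC : Cfsg.IsFrobeniusComplement C) : Cfsg.IsFrobeniusComplement (C.comap e.toMonoidHom) := by
  obtain ⟨h1, h2, h3⟩ := hC
  refine ⟨?_, ?_, ?_⟩
  · intro hb
    apply h1
    rw [eq_bot_iff]
    intro c hc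
    have h5 : e.symm c ∈ C.comap e.toMonoidHom := by
      show e (e.symm c) ∈ C
      rw [MulEquiv.apply_symm_apply]; exact hc
    rw [hb, Subgroup.mem_bot] at h5
    rw [Subgroup.mem_bot]
    have := congrArg e h5
    rwa [MulEquiv.apply_symm_apply, map_one] at this
  · intro ht
    apply h2
    rw [eq_top_iff]
    intro g _
    have h5 : e.symm g ∈ C.comap e.toMonoidHom := by rw [ht]; trivial
    have h6 : e (e.symm g) ∈ C := h5
    rwa [MulEquiv.apply_symm_apply] at h6
  · intro g hg
    have hg' : e g ∉ C := hg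
    rw [eq_bot_iff]
    intro x hx
    obtain ⟨hx1, hx2⟩ := Subgroup.mem_inf.mp hx
    rw [Subgroup.mem_pointwise_smul_iff_inv_smul_mem] at hx2
    have e1 : (MulAut.conj g)⁻¹ • x = g⁻¹ * x * g := by
      rw [MulAut.smul_def, MulAut.conj_inv_apply]
    rw [e1] at hx2
    have hx2' : (e g)⁻¹ * e x * e g ∈ C := by
      have h7 : e (g⁻¹ * x * g) ∈ C := hx2
      rwa [map_mul, map_mul, map_inv] at h7
    have h5 : e x ∈ C ⊓ (MulAut.conj (e g) • C) := by
      refine Subgroup.mem_inf.mpr ⟨hx1, ?_⟩
      rw [Subgroup.mem_pointwise_smul_iff_inv_smul_mem, MulAut.smul_def, MulAut.conj_inv_apply]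
      exact hx2'
    rw [h3 (e g) hg', Subgroup.mem_bot] at h5
    rw [Subgroup.mem_bot]
    have := congrArg e.symm h5
    rwa [MulEquiv.symm_apply_apply, map_one] at this

theorem geom_id {D : Type*} [Ring D] (h : D) (n : ℕ) :
    ∑ i ∈ Finset.range n, (i : D) * (h ^ (i + 1) - h ^ i)
      = (n : D) * h ^ n - ∑ i ∈ Finset.range n, h ^ (i + 1) := by
  induction n with
  | zero => simp
  | succ n ih =>
    rw [Finset.sum_range_succ, ih, Finset.sum_range_succ]
    push_cast
    noncomm_ring

theorem frob_of_module {D : Type u} [DivisionRing D] (H : Subgroup Dˣ) [Finite H] (hH : H ≠ ⊥)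
    (p : ℕ) (hp : p.Prime) (hcop : ∀ h : ↥H, (orderOf h).Coprime p)
    (hne : ∃ x ∈ Submodule.span ℤ (Set.range (fun h : ↥H => ((h : Dˣ) : D))),
      ∀ w ∈ Submodule.span ℤ (Set.range (fun h : ↥H => ((h : Dˣ) : D))), x ≠ (p : ℤ) • w) :
    ∃ (Γ : Type u) (_ : Group Γ) (_ : Finite Γ) (C : Subgroup Γ),
      Cfsg.IsFrobeniusComplement C ∧ Nonempty (H ≃* C) := by
  classical
  obtain ⟨R, hRdef⟩ : ∃ R : Submodule ℤ D,
      R = Submodule.span ℤ (Set.range (fun h : ↥H => ((h : Dˣ) : D))) := ⟨_, rfl⟩
  rw [← hRdef] at hne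
  have hgen : ∀ h : ↥H, ((h : Dˣ) : D) ∈ R := by
    intro h; rw [hRdef]; exact Submodule.subset_span ⟨h, rfl⟩
  have hmulR : ∀ (h : ↥H), ∀ x ∈ R, ((h : Dˣ) : D) * x ∈ R := by
    intro h x hx
    rw [hRdef] at hx ⊢
    induction hx using Submodule.span_induction with
    | mem y hy =>
      obtain ⟨k, rfl⟩ := hy
      apply Submodule.subset_span
      exact ⟨h * k, by simp⟩
    | zero => rw [mul_zero]; exact Submodule.zero_mem _
    | add y z _ _ hy hz => rw [mul_add]; exact Submodule.add_mem _ hy hz
    | smul a y _ hy => rw [mul_smul_comm]; exact Submodule.smul_mem _ a hy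
  let lam : ↥H → (↥R →ₗ[ℤ] ↥R) := fun h =>
    { toFun := fun x => ⟨((h : Dˣ) : D) * x, hmulR h x x.2⟩
      map_add' := fun x y => Subtype.ext (by simp [mul_add])
      map_smul' := fun a x => Subtype.ext (by
        show ((h : Dˣ) : D) * (a • (x : D)) = a • (((h : Dˣ) : D) * (x : D))
        exact mul_smul_comm _ _ _) }
  have hlam : ∀ (h : ↥H) (x : ↥R), ((lam h x : ↥R) : D) = ((h : Dˣ) : D) * x := fun _ _ => rfl
  let P : Submodule ℤ ↥R := LinearMap.range ((p : ℤ) • (LinearMap.id : ↥R →ₗ[ℤ] ↥R))
  have hPmem : ∀ y : ↥R, y ∈ P ↔ ∃ w : ↥R, (p : ℤ) • w = y := by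
    intro y
    constructor
    · rintro ⟨w, hw⟩; exact ⟨w, hw⟩
    · rintro ⟨w, hw⟩; exact ⟨w, hw⟩
  have hP : ∀ h : ↥H, P ≤ P.comap (lam h) := by
    intro h y hy
    obtain ⟨w, rfl⟩ := (hPmem y).mp hy
    show lam h ((p : ℤ) • w) ∈ P
    rw [map_smul]
    exact (hPmem _).mpr ⟨lam h w, rfl⟩
  let _ : DistribMulAction ↥H (↥R ⧸ P) :=
    { smul := fun h v => Submodule.mapQ P P (lam h) (hP h) v
      one_smul := by
        intro v
        induction v using Submodule.Quotient.induction_on with
        | _ x =>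
          show Submodule.mapQ P P (lam 1) (hP 1) (Submodule.Quotient.mk x) = Submodule.Quotient.mk x
          rw [Submodule.mapQ_apply]
          congr 1
          apply Subtype.ext
          rw [hlam]; simp
      mul_smul := by
        intro g h v
        induction v using Submodule.Quotient.induction_on with
        | _ x =>
          show Submodule.mapQ P P (lam (g * h)) (hP (g * h)) (Submodule.Quotient.mk x)
            = Submodule.mapQ P P (lam g) (hP g) (Submodule.mapQ P P (lam h) (hP h)
                (Submodule.Quotient.mk x))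
          rw [Submodule.mapQ_apply, Submodule.mapQ_apply, Submodule.mapQ_apply]
          congr 1
          apply Subtype.ext
          rw [hlam, hlam, hlam]; simp [mul_assoc]
      smul_zero := fun h => map_zero _
      smul_add := fun h v w => map_add _ v w }
  have hsmul : ∀ (h : ↥H) (x : ↥R), h • (Submodule.Quotient.mk x : ↥R ⧸ P)
      = Submodule.Quotient.mk (lam h x) := fun h x => Submodule.mapQ_apply _ _ _ _
  -- finiteness
  have hfinR : Module.Finite ℤ ↥R := by
    rw [hRdef]
    exact Module.Finite.span_of_finite ℤ (Set.finite_range _)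
  have hfinV : Finite (↥R ⧸ P) := by
    apply Module.finite_of_fg_torsion
    intro v
    refine ⟨⟨(p : ℤ), ?_⟩, ?_⟩
    · rw [mem_nonZeroDivisors_iff_ne_zero]
      exact_mod_cast hp.ne_zero
    · induction v using Submodule.Quotient.induction_on with
      | _ x =>
        show (p : ℤ) • (Submodule.Quotient.mk x : ↥R ⧸ P) = 0
        rw [← Submodule.Quotient.mk_smul, Submodule.Quotient.mk_eq_zero]
        exact (hPmem _).mpr ⟨x, rfl⟩
  have hntV : Nontrivial (↥R ⧸ P) := by
    obtain ⟨x, hx, hxw⟩ := hne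
    refine ⟨⟨Submodule.Quotient.mk ⟨x, hx⟩, 0, ?_⟩⟩
    intro h0
    rw [Submodule.Quotient.mk_eq_zero] at h0
    obtain ⟨w, hw⟩ := (hPmem _).mp h0
    apply hxw w w.2
    have := congrArg Subtype.val hw
    simpa using this.symm
  have hntH : Nontrivial ↥H := by
    obtain ⟨⟨a, ha⟩, ha1⟩ := Subgroup.ne_bot_iff_exists_ne_one.mp hH
    exact ⟨⟨⟨a, ha⟩, 1, ha1⟩⟩
  have hntM : Nontrivial (Multiplicative (↥R ⧸ P)) := hntV
  let φ : ↥H →* MulAut (Multiplicative (↥R ⧸ P)) :=
    (MulAutMultiplicative (↥R ⧸ P)).symm.toMonoidHom.comp (DistribMulAction.toAddAut ↥H (↥R ⧸ P))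
  have hφ : ∀ (g : ↥H) (n : Multiplicative (↥R ⧸ P)),
      φ g n = Multiplicative.ofAdd (g • Multiplicative.toAdd n) := fun g n => rfl
  have hfpf : ∀ g : ↥H, g ≠ 1 → ∀ n, φ g n = n → n = 1 := by
    intro g hg n hn
    rw [hφ] at hn
    have h1 : g • Multiplicative.toAdd n = Multiplicative.toAdd n := by
      have := congrArg Multiplicative.toAdd hn
      simpa using this
    obtain ⟨v, hv⟩ : ∃ v : ↥R ⧸ P, v = Multiplicative.toAdd n := ⟨_, rfl⟩
    rw [← hv] at h1
    suffices hv0 : v = 0 by
      have : Multiplicative.toAdd n = 0 := by rw [← hv, hv0]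
      exact this
    induction v using Submodule.Quotient.induction_on with
    | _ x =>
      rw [hsmul, Submodule.Quotient.eq] at h1
      obtain ⟨w, hw⟩ := (hPmem _).mp h1
      have hw' : ((g : Dˣ) : D) * x - x = (p : ℤ) • (w : D) := by
        have := congrArg Subtype.val hw
        simp only [Submodule.coe_smul, Submodule.coe_sub, hlam] at this
        exact this.symm
      -- the element h and its order
      obtain ⟨h, hh⟩ : ∃ h : D, h = ((g : Dˣ) : D) := ⟨_, rfl⟩
      rw [← hh] at hw'
      have hh1 : h ≠ 1 := by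
        intro e
        apply hg
        apply Subtype.ext
        apply Units.ext
        rw [← hh, e]; rfl
      obtain ⟨m, hm⟩ : ∃ m, m = orderOf g := ⟨_, rfl⟩
      have hhm : h ^ m = 1 := by
        have h2 : g ^ m = 1 := by rw [hm]; exact pow_orderOf_eq_one g
        have h3 := congrArg (fun y : ↥H => ((y : Dˣ) : D)) h2
        simp only [Subgroup.coe_pow, Units.val_pow_eq_pow_val, Subgroup.coe_one, Units.val_one] at h3
        rw [hh]; exact h3
      have hgs : ∑ i ∈ Finset.range m, h ^ (i + 1) = 0 := by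
        have h2 : (h - 1) * ∑ i ∈ Finset.range m, h ^ i = 0 := by
          rw [mul_geom_sum, hhm, sub_self]
        have h3 : ∑ i ∈ Finset.range m, h ^ i = 0 := by
          rcases mul_eq_zero.mp h2 with h4 | h4
          · exact absurd (sub_eq_zero.mp h4) hh1
          · exact h4
        have h5 : ∑ i ∈ Finset.range m, h ^ (i + 1) = h * ∑ i ∈ Finset.range m, h ^ i := by
          rw [Finset.mul_sum]
          exact Finset.sum_congr rfl (fun i _ => pow_succ' h i)
        rw [h5, h3, mul_zero]
      have hid := geom_id h m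
      rw [hhm, hgs, mul_one, sub_zero] at hid
      -- h^i * w ∈ R
      have hpowR : ∀ i : ℕ, h ^ i * (w : D) ∈ R := by
        intro i
        have := hmulR (g ^ i) w w.2
        simpa [hh] using this
      obtain ⟨W, hW⟩ : ∃ W : D, W = ∑ i ∈ Finset.range m, (i : ℤ) • (h ^ i * (w : D)) := ⟨_, rfl⟩
      have hWR : W ∈ R := by
        rw [hW]
        exact Submodule.sum_mem _ (fun i _ => Submodule.smul_mem _ _ (hpowR i))
      have hkey : (m : ℤ) • (x : D) = (p : ℤ) • W := by
        have e1 : (m : ℤ) • (x : D) = (m : D) * x := by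
          rw [zsmul_eq_mul]; push_cast; rfl
        rw [e1, ← hid, Finset.sum_mul, hW, Finset.smul_sum]
        apply Finset.sum_congr rfl
        intro i _
        have e2 : (h ^ (i + 1) - h ^ i) * (x : D) = h ^ i * (h * x - x) := by
          rw [pow_succ]; noncomm_ring
        rw [mul_assoc, e2, hw']
        simp only [zsmul_eq_mul, Int.cast_natCast]
        have hc : Commute (p : D) (h ^ i) := Nat.cast_commute p _
        have hc2 : Commute (i : D) (p : D) := Nat.cast_commute i _
        calc (i : D) * (h ^ i * ((p : D) * (w : D)))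
            = (i : D) * ((h ^ i * (p : D)) * (w : D)) := by rw [mul_assoc]
          _ = (i : D) * (((p : D) * h ^ i) * (w : D)) := by rw [hc.eq]
          _ = ((i : D) * (p : D)) * (h ^ i * (w : D)) := by simp only [mul_assoc]
          _ = ((p : D) * (i : D)) * (h ^ i * (w : D)) := by rw [hc2.eq]
          _ = (p : D) * ((i : D) * (h ^ i * (w : D))) := by simp only [mul_assoc]
      -- Bezout
      have hcop' : IsCoprime (m : ℤ) (p : ℤ) := by
        rw [Int.isCoprime_iff_gcd_eq_one]
        have := hcop g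
        rw [← hm] at this
        simpa [Int.gcd_natCast_natCast] using this
      obtain ⟨a, b, hab⟩ := hcop'
      have hx : (x : D) = (p : ℤ) • (a • W + b • (x : D)) := by
        calc (x : D) = (a * m + b * p) • (x : D) := by rw [hab, one_smul]
          _ = a • ((m : ℤ) • (x : D)) + b • ((p : ℤ) • (x : D)) := by
              rw [add_smul, mul_smul, mul_smul]
          _ = a • ((p : ℤ) • W) + b • ((p : ℤ) • (x : D)) := by rw [hkey]
          _ = (p : ℤ) • (a • W + b • (x : D)) := by
              rw [smul_add, smul_comm a, smul_comm b]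
      rw [Submodule.Quotient.mk_eq_zero, hPmem]
      refine ⟨⟨a • W + b • (x : D), Submodule.add_mem _ (Submodule.smul_mem _ _ hWR)
        (Submodule.smul_mem _ _ x.2)⟩, ?_⟩
      apply Subtype.ext
      simp only [Submodule.coe_smul]
      exact hx.symm
  have hfr := Cfsg.Agent.S4295.semidirect_frob φ hfpf
  have hfinΓ : Finite (Multiplicative (↥R ⧸ P) ⋊[φ] ↥H) :=
    Finite.of_equiv _ SemidirectProduct.equivProd.symm
  exact ⟨Multiplicative (↥R ⧸ P) ⋊[φ] ↥H, inferInstance, hfinΓ, _, hfr,
    ⟨MonoidHom.ofInjective SemidirectProduct.inr_injective⟩⟩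

end S4293aux

/-- A nontrivial finite subgroup of the multiplicative group of a division ring occurs as a Frobenius complement of some finite Frobenius group. -/
theorem result {D : Type*} [DivisionRing D] (H : Subgroup Dˣ) [Finite H] (hH : H ≠ ⊥) :
    ∃ (L : Type) (_ : Group L) (_ : Finite L) (C : Subgroup L), Cfsg.IsFrobeniusComplement C ∧ Nonempty (H ≃* C) := by
  classical
  have hone : (1 : D) ∈ Submodule.span ℤ (Set.range (fun h : ↥H => ((h : Dˣ) : D))) :=
    Submodule.subset_span ⟨1, by simp⟩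
  have hmain : ∃ (p : ℕ), p.Prime ∧ (∀ h : ↥H, (orderOf h).Coprime p) ∧
      ∃ x ∈ Submodule.span ℤ (Set.range (fun h : ↥H => ((h : Dˣ) : D))),
        ∀ w ∈ Submodule.span ℤ (Set.range (fun h : ↥H => ((h : Dˣ) : D))), x ≠ (p : ℤ) • w := by
    obtain ⟨ℓ, hℓ⟩ := CharP.exists D
    rcases CharP.char_is_prime_or_zero D ℓ with hprime | hzero
    · haveI : Fact ℓ.Prime := ⟨hprime⟩
      refine ⟨ℓ, hprime, ?_, 1, hone, ?_⟩
      · intro h
        rw [Nat.coprime_comm, Nat.Prime.coprime_iff_not_dvd hprime]
        intro hd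
        have hpos : 0 < orderOf h := orderOf_pos h
        obtain ⟨x, hx⟩ : ∃ x : ↥H, x = h ^ (orderOf h / ℓ) := ⟨_, rfl⟩
        have hxo : orderOf x = ℓ := by
          rw [hx]; exact orderOf_pow_orderOf_div hpos.ne' hd
        have hxℓ : x ^ ℓ = 1 := by rw [← hxo]; exact pow_orderOf_eq_one x
        have hx1 : x ≠ 1 := by
          intro e
          rw [e, orderOf_one] at hxo
          exact hprime.one_lt.ne hxo
        have h3 : (((x : Dˣ) : D)) ^ ℓ = 1 := by
          have := congrArg (fun y : ↥H => ((y : Dˣ) : D)) hxℓ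
          simpa using this
        have h4 : ((((x : Dˣ) : D)) - 1) ^ ℓ = 0 := by
          rw [sub_pow_char_of_commute ℓ (Commute.one_right _), h3, one_pow, sub_self]
        have h5 : (((x : Dˣ) : D)) - 1 = 0 := pow_eq_zero_iff (hprime.ne_zero) |>.mp h4
        apply hx1
        apply Subtype.ext
        apply Units.ext
        exact sub_eq_zero.mp h5
      · intro w _ h1
        have : ((ℓ : ℤ) : D) = 0 := by
          rw [Int.cast_natCast]; exact CharP.cast_eq_zero D ℓ
        rw [zsmul_eq_mul, this, zero_mul] at h1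
        exact one_ne_zero h1
    · subst hzero
      haveI : CharZero D := CharP.charP_to_charZero D
      obtain ⟨p, hpge, hp⟩ := Nat.exists_infinite_primes (Nat.card ↥H + 1)
      refine ⟨p, hp, ?_, ?_⟩
      · intro h
        have h1 : orderOf h ∣ Nat.card ↥H := orderOf_dvd_natCard h
        have h2 : (Nat.card ↥H).Coprime p := by
          rw [Nat.coprime_comm, Nat.Prime.coprime_iff_not_dvd hp]
          exact Nat.not_dvd_of_pos_of_lt Nat.card_pos (by omega)
        exact Nat.Coprime.coprime_dvd_left h1 h2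
      · by_contra hcon
        push Not at hcon
        have hle : Submodule.span ℤ (Set.range (fun h : ↥H => ((h : Dˣ) : D)))
            ≤ (Ideal.span {(p : ℤ)}) • Submodule.span ℤ (Set.range (fun h : ↥H => ((h : Dˣ) : D))) := by
          intro x hx
          obtain ⟨w, hw, hxw⟩ := hcon x hx
          rw [hxw]
          exact Submodule.smul_mem_smul (Ideal.mem_span_singleton_self _) hw
        obtain ⟨r, hr1, hr2⟩ := Submodule.exists_sub_one_mem_and_smul_eq_zero_of_fg_of_le_smul
          (Ideal.span {(p : ℤ)}) _ (Submodule.fg_span (Set.finite_range _)) hle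
        have h1 := hr2 1 hone
        rw [zsmul_eq_mul, mul_one] at h1
        have h2 : r = 0 := by exact_mod_cast h1
        rw [h2, Ideal.mem_span_singleton] at hr1
        have h3 : (p : ℤ) ∣ 1 := by
          have : (0 : ℤ) - 1 = -1 := by ring
          rw [this] at hr1
          exact (dvd_neg).mp hr1
        have h4 : p ∣ 1 := by exact_mod_cast h3
        exact hp.one_lt.ne' (Nat.dvd_one.mp h4)
  obtain ⟨p, hp, hcop, hne⟩ := hmain
  obtain ⟨Γ, _, _, C, hC, ⟨e⟩⟩ := frob_of_module H hH p hp hcop hne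
  have hsmall : Small.{0} Γ := inferInstance
  let e' : Shrink.{0} Γ ≃* Γ := Shrink.mulEquiv
  refine ⟨Shrink.{0} Γ, inferInstance, Finite.of_equiv Γ (equivShrink Γ),
    C.comap e'.toMonoidHom, frob_transport e' C hC, ?_⟩
  have hmap : C.comap e'.toMonoidHom = C.map e'.symm.toMonoidHom :=
    (Subgroup.map_equiv_eq_comap_symm e'.symm C).symm
  rw [hmap]
  exact ⟨e.trans (e'.symm.subgroupMap C)⟩

end Cfsg.Agent.S4293
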