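import Cfsg.Statements.S4296
-- import your own Cfsg.Agent.* helpers here
import Mathlib
import Cfsg.Agent.Lib.helper1.FrobConj
import Cfsg.Agent.S0040

set_option autoImplicit false
open Cfsg

namespace Cfsg.Agent.S4296

universe u

/-- the core case: exponent `r` -/
theorem sq_core {A : Type*} [AddCommGroup A] [Finite A] (r : ℕ) [hr : Fact r.Prime] (hodd : Odd r)
    (hexp : ∀ v : A, r • v = 0) (i j : A →+ A)
    (hii : ∀ v, i (i v) = -v) (hjj : ∀ v, j (j v) = -v) (hiji : ∀ v, i (j (i v)) = j v) :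
    IsSquare (Nat.card A) := by
  obtain ⟨a, b, hab⟩ := ZMod.sq_add_sq r (-1 : ZMod r)
  obtain ⟨a₀, ha₀⟩ : ∃ a₀ : ℤ, a₀ = (a.val : ℤ) := ⟨_, rfl⟩
  obtain ⟨b₀, hb₀⟩ : ∃ b₀ : ℤ, b₀ = (b.val : ℤ) := ⟨_, rfl⟩
  have hdiv : (r : ℤ) ∣ a₀ * a₀ + b₀ * b₀ + 1 := by
    rw [← ZMod.intCast_zmod_eq_zero_iff_dvd]
    rw [ha₀, hb₀]; push_cast; rw [ZMod.natCast_zmod_val, ZMod.natCast_zmod_val]
    linear_combination hab
  have hzsmul : ∀ v : A, (a₀ * a₀ + b₀ * b₀ + 1) • v = 0 := by
    intro v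
    obtain ⟨k, hk⟩ := hdiv
    rw [hk, mul_comm, mul_smul, natCast_zsmul, hexp, smul_zero]
  have hanti : ∀ v, j (i v) = - i (j v) := by
    intro v
    have h := hiji (i v)
    rw [hii, map_neg, map_neg] at h
    exact h.symm
  obtain ⟨T, hT⟩ : ∃ T : A →+ A, ∀ v, T v = a₀ • i v + b₀ • j v :=
    ⟨a₀ • i + b₀ • j, fun v => rfl⟩
  obtain ⟨S, hS⟩ : ∃ S : A →+ A, ∀ v, S v = b₀ • i v - a₀ • j v :=
    ⟨b₀ • i - a₀ • j, fun v => rfl⟩
  have hiT : ∀ v, i (T v) = a₀ • (-v) + b₀ • i (j v) := by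
    intro v; rw [hT, map_add, map_zsmul, map_zsmul, hii]
  have hjT : ∀ v, j (T v) = a₀ • (-(i (j v))) + b₀ • (-v) := by
    intro v; rw [hT, map_add, map_zsmul, map_zsmul, hanti, hjj]
  have hiS : ∀ v, i (S v) = b₀ • (-v) - a₀ • i (j v) := by
    intro v; rw [hS, map_sub, map_zsmul, map_zsmul, hii]
  have hjS : ∀ v, j (S v) = b₀ • (-(i (j v))) - a₀ • (-v) := by
    intro v; rw [hS, map_sub, map_zsmul, map_zsmul, hanti, hjj]
  have hTT : ∀ v, T (T v) = v := by
    intro v
    rw [hT (T v), hiT, hjT]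
    have h0 := hzsmul v
    have e : a₀ • (a₀ • -v + b₀ • i (j v)) + b₀ • (a₀ • -(i (j v)) + b₀ • -v) =
        v - (a₀ * a₀ + b₀ * b₀ + 1) • v := by module
    rw [e, h0, sub_zero]
  have hSS : ∀ v, S (S v) = v := by
    intro v
    rw [hS (S v), hiS, hjS]
    have h0 := hzsmul v
    have e : b₀ • (b₀ • -v - a₀ • i (j v)) - a₀ • (b₀ • -(i (j v)) - a₀ • -v) =
        v - (a₀ * a₀ + b₀ * b₀ + 1) • v := by module
    rw [e, h0, sub_zero]
  have hST : ∀ v, S (T v) = - T (S v) := by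
    intro v
    rw [hS (T v), hT (S v), hiT, hjT, hiS, hjS]
    module
  -- eigenspaces
  obtain ⟨Kp, hKp⟩ : ∃ Kp : AddSubgroup A, ∀ v, v ∈ Kp ↔ T v = v := by
    refine ⟨(T - AddMonoidHom.id A).ker, fun v => ?_⟩
    rw [AddMonoidHom.mem_ker, AddMonoidHom.sub_apply, AddMonoidHom.id_apply, sub_eq_zero]
  obtain ⟨f, hf⟩ : ∃ f : A →+ A, ∀ v, f v = T v + v := ⟨T + AddMonoidHom.id A, fun v => rfl⟩
  have hker : ∀ v, v ∈ f.ker ↔ T v = -v := by
    intro v
    rw [AddMonoidHom.mem_ker, hf, add_eq_zero_iff_eq_neg]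
  have hrange : f.range = Kp := by
    ext v
    rw [hKp, AddMonoidHom.mem_range]
    constructor
    · rintro ⟨w, rfl⟩
      rw [hf, map_add, hTT, add_comm]
    · intro hv
      obtain ⟨t, ht⟩ := hodd
      refine ⟨(t + 1) • v, ?_⟩
      rw [hf, map_nsmul, hv, ← add_nsmul]
      have h2 : t + 1 + (t + 1) = r + 1 := by omega
      rw [h2, add_nsmul, hexp, zero_add, one_nsmul]
  have hcard : Nat.card A = Nat.card f.range * Nat.card f.ker := by
    rw [AddSubgroup.card_eq_card_quotient_mul_card_addSubgroup f.ker]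
    congr 1
    exact Nat.card_congr (QuotientAddGroup.quotientKerEquivRange f).toEquiv
  have hequiv : Nat.card Kp = Nat.card f.ker := by
    apply Nat.card_congr
    refine ⟨fun v => ⟨S v, ?_⟩, fun v => ⟨S v, ?_⟩, fun v => Subtype.ext (hSS v), fun v => Subtype.ext (hSS v)⟩
    · rw [hker]
      have h1 := (hKp v).mp v.2
      have h2 := hST v
      rw [h1] at h2
      exact (neg_eq_iff_eq_neg.mpr h2).symm
    · rw [hKp]
      have h1 := (hker v).mp v.2
      have h2 := hST v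
      rw [h1, map_neg] at h2
      exact (neg_injective h2).symm
  rw [hcard, hrange, hequiv]
  exact ⟨_, rfl⟩

theorem sq_aux : ∀ (n : ℕ) (A : Type u) [AddCommGroup A] [Finite A], Nat.card A ≤ n →
    Odd (Nat.card A) → ∀ i j : A →+ A, (∀ v, i (i v) = -v) → (∀ v, j (j v) = -v) →
    (∀ v, i (j (i v)) = j v) → IsSquare (Nat.card A) := by
  intro n
  induction n with
  | zero =>
    intro A _ _ hc
    have := Nat.card_pos (α := A)
    omega
  | succ n ih =>
    intro A _ _ hc hodd i j hii hjj hiji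
    by_cases h1 : Nat.card A = 1
    · exact ⟨1, by rw [h1]⟩
    have hr : (Nat.card A).minFac.Prime := Nat.minFac_prime h1
    obtain ⟨r, hrdef⟩ : ∃ r : ℕ, r = (Nat.card A).minFac := ⟨_, rfl⟩
    rw [← hrdef] at hr
    have hrdvd : r ∣ Nat.card A := by rw [hrdef]; exact Nat.minFac_dvd _
    have : Fact r.Prime := ⟨hr⟩
    have hrodd : Odd r := Odd.of_dvd_nat hodd hrdvd
    obtain ⟨μ, hμ⟩ : ∃ μ : A →+ A, ∀ v, μ v = r • v := ⟨nsmulAddMonoidHom r, fun v => rfl⟩
    have hcard : Nat.card A = Nat.card μ.range * Nat.card μ.ker := by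
      rw [AddSubgroup.card_eq_card_quotient_mul_card_addSubgroup μ.ker]
      congr 1
      exact Nat.card_congr (QuotientAddGroup.quotientKerEquivRange μ).toEquiv
    have hK2 : 2 ≤ Nat.card μ.ker := by
      obtain ⟨x, hx⟩ := exists_prime_addOrderOf_dvd_card' r hrdvd
      have hne : μ.ker ≠ ⊥ := by
        intro hbot
        have hxk : x ∈ μ.ker := by
          rw [AddMonoidHom.mem_ker, hμ, ← hx]; exact addOrderOf_nsmul_eq_zero x
        rw [hbot, AddSubgroup.mem_bot] at hxk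
        rw [hxk, addOrderOf_zero] at hx
        exact hr.one_lt.ne hx
      have := (AddSubgroup.one_lt_card_iff_ne_bot _).mpr hne
      omega
    by_cases hR : μ.range = ⊥
    · apply sq_core r hrodd _ i j hii hjj hiji
      intro v
      have : μ v ∈ μ.range := ⟨v, rfl⟩
      rw [hR, AddSubgroup.mem_bot, hμ] at this
      exact this
    · have hR2 : 2 ≤ Nat.card μ.range := by
        have := (AddSubgroup.one_lt_card_iff_ne_bot _).mpr hR
        omega
      have hKn : Nat.card μ.ker ≤ n := by nlinarith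
      have hRn : Nat.card μ.range ≤ n := by nlinarith
      have hKodd : Odd (Nat.card μ.ker) :=
        Odd.of_dvd_nat hodd (hcard ▸ Dvd.intro_left _ rfl)
      have hRodd : Odd (Nat.card μ.range) :=
        Odd.of_dvd_nat hodd (hcard ▸ Dvd.intro _ rfl)
      have hiK : ∀ v : μ.ker, i v ∈ μ.ker := by
        intro v
        have hv := v.2
        rw [AddMonoidHom.mem_ker, hμ] at hv ⊢
        rw [← map_nsmul, hv, map_zero]
      have hjK : ∀ v : μ.ker, j v ∈ μ.ker := by
        intro v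
        have hv := v.2
        rw [AddMonoidHom.mem_ker, hμ] at hv ⊢
        rw [← map_nsmul, hv, map_zero]
      have hiR : ∀ v : μ.range, i v ∈ μ.range := by
        intro v
        obtain ⟨w, hw⟩ := v.2
        refine ⟨i w, ?_⟩
        rw [hμ, ← map_nsmul, ← hμ, hw]
      have hjR : ∀ v : μ.range, j v ∈ μ.range := by
        intro v
        obtain ⟨w, hw⟩ := v.2
        refine ⟨j w, ?_⟩
        rw [hμ, ← map_nsmul, ← hμ, hw]
      have sK := ih μ.ker hKn hKodd ((i.comp μ.ker.subtype).codRestrict μ.ker hiK)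
        ((j.comp μ.ker.subtype).codRestrict μ.ker hjK)
        (fun v => Subtype.ext (hii v)) (fun v => Subtype.ext (hjj v))
        (fun v => Subtype.ext (hiji v))
      have sR := ih μ.range hRn hRodd ((i.comp μ.range.subtype).codRestrict μ.range hiR)
        ((j.comp μ.range.subtype).codRestrict μ.range hjR)
        (fun v => Subtype.ext (hii v)) (fun v => Subtype.ext (hjj v))
        (fun v => Subtype.ext (hiji v))
      rw [hcard]
      exact sR.mul sK

open scoped IsMulCommutative in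
theorem frob_sq {L : Type u} [Group L] [Finite L] (N : Subgroup L) [hNn : N.Normal] (I J z : L)
    (hI : I * I = z) (hJ : J * J = z) (hzz : z * z = 1) (hIJ : I * J * I = J)
    (hfpf : ∀ n ∈ N, z * n = n * z → n = 1) : Odd (Nat.card N) ∧ IsSquare (Nat.card N) := by
  classical
  have hzinv : z⁻¹ = z := inv_eq_of_mul_eq_one_left hzz
  have hinvert : ∀ u ∈ N, z * u * z⁻¹ = u⁻¹ := by
    let ψ : N → N := fun n =>
      ⟨(n : L)⁻¹ * (z * n * z⁻¹), N.mul_mem (N.inv_mem n.2) (hNn.conj_mem n n.2 z)⟩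
    have hinj : Function.Injective ψ := by
      intro n m h
      have h1 : (n : L)⁻¹ * (z * n * z⁻¹) = (m : L)⁻¹ * (z * m * z⁻¹) := congrArg Subtype.val h
      have h2 : z * ((m : L) * (n : L)⁻¹) = (m : L) * (n : L)⁻¹ * z := by
        have h3 : (m : L) * ((n : L)⁻¹ * (z * n * z⁻¹)) * z * (n : L)⁻¹ =
            (m : L) * ((m : L)⁻¹ * (z * m * z⁻¹)) * z * (n : L)⁻¹ := by rw [h1]
        have e1 : (m : L) * ((n : L)⁻¹ * (z * n * z⁻¹)) * z * (n : L)⁻¹ =
            (m : L) * (n : L)⁻¹ * z := by group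
        have e2 : (m : L) * ((m : L)⁻¹ * (z * m * z⁻¹)) * z * (n : L)⁻¹ =
            z * ((m : L) * (n : L)⁻¹) := by group
        rw [e1, e2] at h3
        exact h3.symm
      have h4 := hfpf _ (N.mul_mem m.2 (N.inv_mem n.2)) h2
      apply Subtype.ext
      exact (mul_inv_eq_one.mp h4).symm
    have hsurj : Function.Surjective ψ := Finite.surjective_of_injective hinj
    intro u hu
    obtain ⟨n, hn⟩ := hsurj ⟨u, hu⟩
    have hn' : (n : L)⁻¹ * (z * n * z⁻¹) = u := congrArg Subtype.val hn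
    rw [← hn', hzinv]
    have e : z * ((n : L)⁻¹ * (z * n * z)) * z = z * (n : L)⁻¹ * z * n * (z * z) := by group
    have e' : ((n : L)⁻¹ * (z * n * z))⁻¹ = z⁻¹ * (n : L)⁻¹ * z⁻¹ * n := by group
    rw [e, e', hzz, hzinv, mul_one]
  have hab : ∀ u ∈ N, ∀ v ∈ N, u * v = v * u := by
    intro u hu v hv
    have h1 := hinvert (u * v) (N.mul_mem hu hv)
    have h2 := hinvert u hu
    have h3 := hinvert v hv
    have e : z * (u * v) * z⁻¹ = (z * u * z⁻¹) * (z * v * z⁻¹) := by group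
    rw [e, h2, h3] at h1
    have h4 : (u⁻¹ * v⁻¹)⁻¹ = ((u * v)⁻¹)⁻¹ := by rw [h1]
    rw [mul_inv_rev, inv_inv, inv_inv, inv_inv] at h4
    exact h4.symm
  have hodd : Odd (Nat.card N) := by
    by_contra hne
    rw [Nat.not_odd_iff_even] at hne
    have h2 : 2 ∣ Nat.card N := hne.two_dvd
    have : Fact (Nat.Prime 2) := ⟨Nat.prime_two⟩
    obtain ⟨x, hx⟩ := exists_prime_orderOf_dvd_card' 2 h2
    have hx2 : (x : L) * (x : L) = 1 := by
      have h5 := pow_orderOf_eq_one x
      rw [hx] at h5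
      have h6 := congrArg Subtype.val h5
      simpa [pow_two] using h6
    have hxinv : (x : L)⁻¹ = x := inv_eq_of_mul_eq_one_left hx2
    have h1 := hinvert x x.2
    rw [hxinv] at h1
    have h2 : z * (x : L) = x * z := by
      calc z * (x : L) = (z * x * z⁻¹) * z := by group
        _ = x * z := by rw [h1]
    have h3 := hfpf x x.2 h2
    have h4 : x = 1 := Subtype.ext h3
    rw [h4, orderOf_one] at hx
    omega
  refine ⟨hodd, ?_⟩
  have hcomm : IsMulCommutative N := ⟨⟨fun a b => Subtype.ext (hab a a.2 b b.2)⟩⟩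
  let cI : N →* N :=
    { toFun := fun n => ⟨I * n * I⁻¹, hNn.conj_mem n n.2 I⟩
      map_one' := Subtype.ext (by simp)
      map_mul' := fun a b => Subtype.ext (by simp) }
  let cJ : N →* N :=
    { toFun := fun n => ⟨J * n * J⁻¹, hNn.conj_mem n n.2 J⟩
      map_one' := Subtype.ext (by simp)
      map_mul' := fun a b => Subtype.ext (by simp) }
  have hcI : ∀ n : N, ((cI n : N) : L) = I * n * I⁻¹ := fun n => rfl
  have hcJ : ∀ n : N, ((cJ n : N) : L) = J * n * J⁻¹ := fun n => rfl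
  have h := sq_aux (Nat.card N) (Additive N) le_rfl hodd (MonoidHom.toAdditive cI)
    (MonoidHom.toAdditive cJ) ?_ ?_ ?_
  · exact h
  · intro v
    show cI (cI (Additive.toMul v)) = (Additive.toMul v)⁻¹
    apply Subtype.ext
    rw [hcI, hcI, Subgroup.coe_inv, ← hinvert _ (Additive.toMul v).2, ← hI]
    group
  · intro v
    show cJ (cJ (Additive.toMul v)) = (Additive.toMul v)⁻¹
    apply Subtype.ext
    rw [hcJ, hcJ, Subgroup.coe_inv, ← hinvert _ (Additive.toMul v).2, ← hJ]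
    group
  · intro v
    show cI (cJ (cI (Additive.toMul v))) = cJ (Additive.toMul v)
    apply Subtype.ext
    rw [hcI, hcJ, hcI, hcJ]
    have e : I * (J * (I * ((Additive.toMul v : N) : L) * I⁻¹) * J⁻¹) * I⁻¹ =
        (I * J * I) * ((Additive.toMul v : N) : L) * (I * J * I)⁻¹ := by group
    rw [e, hIJ]

theorem quat_elems (m : ℕ) (hm : m ≠ 0) (k : ℕ) (hk : m = 2 * k) :
    ∃ I J z : QuaternionGroup m, I * I = z ∧ J * J = z ∧ z * z = 1 ∧ I * J * I = J ∧ z ≠ 1 := by
  refine ⟨QuaternionGroup.a ((k : ℕ) : ZMod (2 * m)), QuaternionGroup.xa 0,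
    QuaternionGroup.a ((m : ℕ) : ZMod (2 * m)), ?_, ?_, ?_, ?_, ?_⟩
  · rw [QuaternionGroup.a_mul_a]
    congr 1
    rw [hk]; push_cast; ring
  · rw [QuaternionGroup.xa_mul_xa]
    congr 1
    ring
  · rw [QuaternionGroup.a_mul_a, QuaternionGroup.one_def]
    congr 1
    have h : ((m : ℕ) : ZMod (2 * m)) + ((m : ℕ) : ZMod (2 * m)) = ((2 * m : ℕ) : ZMod (2 * m)) := by
      push_cast; ring
    rw [h]; exact ZMod.natCast_self _
  · rw [QuaternionGroup.a_mul_xa, QuaternionGroup.xa_mul_a]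
    congr 1
    ring
  · intro h
    rw [QuaternionGroup.one_def] at h
    have h1 : ((m : ℕ) : ZMod (2 * m)) = 0 := QuaternionGroup.a.inj h
    rw [ZMod.natCast_eq_zero_iff] at h1
    have := Nat.le_of_dvd (Nat.pos_of_ne_zero hm) h1
    omega

theorem frob_odd_sq {L : Type u} [Group L] [Finite L] (H : Subgroup L)
    (hF : Cfsg.IsFrobeniusComplement H) (m : ℕ) (k : ℕ) (hm : m ≠ 0) (hk : m = 2 * k)
    (φ : QuaternionGroup m →* L) (hφ : Function.Injective φ) (hφH : ∀ q, φ q ∈ H) :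
    ∃ N : Subgroup L, (N : Set L) = Cfsg.frobeniusKernel H ∧ N ≠ ⊥ ∧ N.IsComplement' H ∧
      Odd (Nat.card N) ∧ IsSquare (Nat.card N) := by
  obtain ⟨N, hset, hNn, hc, hN, hfpf⟩ := Cfsg.Agent.Lib.helper1.frob_pair H hF
  obtain ⟨I₀, J₀, z₀, hI₀, hJ₀, hz₀, hIJ₀, hz1⟩ := quat_elems m hm k hk
  have hzne : φ z₀ ≠ 1 := by
    intro h
    apply hz1
    apply hφ
    rw [h, map_one]
  obtain ⟨hodd, hsq⟩ := frob_sq N (φ I₀) (φ J₀) (φ z₀) (by rw [← map_mul, hI₀])
    (by rw [← map_mul, hJ₀]) (by rw [← map_mul, hz₀, map_one])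
    (by rw [← map_mul, ← map_mul, hIJ₀]) (by
      intro n hn hcomm
      have h := hfpf (φ z₀) (hφH z₀) hzne
      have hmem : n ∈ N ⊓ Subgroup.centralizer {φ z₀} :=
        Subgroup.mem_inf.mpr ⟨hn, by rw [Subgroup.mem_centralizer_singleton_iff]; exact hcomm.symm⟩
      rw [h, Subgroup.mem_bot] at hmem
      exact hmem)
  exact ⟨N, hset, hN, hc, hodd, hsq⟩

/-- Let H be a Frobenius complement in a finite group, and suppose some Sylow subgroup of H is not cyclic. Then the number of elements of the Frobenius kernel (the identity together with the elements lying in no conjugate of H) is an odd perfect square. -/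
theorem result {L : Type*} [Group L] [Finite L] (H : Subgroup L) (hF : Cfsg.IsFrobeniusComplement H)
    (hZ : ∃ (p : ℕ) (_ : Fact p.Prime) (P : Sylow p H), ¬ IsCyclic P) :
    Odd (Nat.card (Cfsg.frobeniusKernel H)) ∧ IsSquare (Nat.card (Cfsg.frobeniusKernel H)) := by
  obtain ⟨p, hp, P, hPnc⟩ := hZ
  obtain ⟨N₀, hset₀, hNn₀, hc₀, hN₀, hfpf₀⟩ := Cfsg.Agent.Lib.helper1.frob_pair H hF
  rcases Cfsg.Agent.S0040.result N₀ H hc₀ hN₀ hfpf₀ p P with hcyc | ⟨n, ⟨e⟩⟩
  · exact absurd hcyc hPnc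
  · have hn : n ≠ 0 := by
      rintro rfl
      apply hPnc
      have : IsCyclic (QuaternionGroup (2 ^ 0)) := QuaternionGroup.quaternionGroup_one_isCyclic
      exact isCyclic_of_surjective e.symm e.symm.surjective
    obtain ⟨k, hk⟩ : ∃ k, n = k + 1 := Nat.exists_eq_succ_of_ne_zero hn
    obtain ⟨N, hset, -, -, hodd, hsq⟩ := frob_odd_sq H hF (2 ^ n) (2 ^ k) (by positivity)
      (by rw [hk, pow_succ]; ring)
      ((H.subtype.comp (P : Subgroup H).subtype).comp e.symm.toMonoidHom)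
      (by
        intro a b hab
        apply e.symm.injective
        apply Subtype.ext
        apply Subtype.ext
        exact hab)
      (fun q => ((e.symm q : P) : H).2)
    have hcardN : Nat.card (Cfsg.frobeniusKernel H) = Nat.card N := by
      rw [← hset]; rfl
    rw [hcardN]; exact ⟨hodd, hsq⟩

end Cfsg.Agent.S4296
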