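import Cfsg.Statements.S4299
-- import your own Cfsg.Agent.* helpers here
import Mathlib
import Cfsg.Agent.S4295

set_option autoImplicit false
open Cfsg

namespace Cfsg.Agent.S4299

theorem exists_unit_order (m : ℕ) (hm : m ≠ 0) :
    ∃ (p : ℕ) (_ : Fact p.Prime) (u : (ZMod p)ˣ), orderOf u = m := by
  obtain ⟨p, hp, hpm, hmod⟩ := Nat.exists_prime_gt_modEq_one (k := m) 1 hm
  have hpf : Fact p.Prime := ⟨hp⟩
  obtain ⟨g, hg⟩ := IsCyclic.exists_ofOrder_eq_natCard (α := (ZMod p)ˣ)
  have hcard : Nat.card (ZMod p)ˣ = p - 1 := by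
    rw [Nat.card_eq_fintype_card, ZMod.card_units_eq_totient, Nat.totient_prime hp]
  have hdvd : m ∣ p - 1 := (Nat.modEq_iff_dvd' hp.one_lt.le).mp hmod.symm
  refine ⟨p, hpf, g ^ (orderOf g / m), ?_⟩
  exact orderOf_pow_orderOf_div (by rw [hg, hcard]; have := hp.two_le; omega)
    (by rw [hg, hcard]; exact hdvd)

/-- Every nontrivial finite cyclic group occurs as a Frobenius complement of some finite Frobenius group. -/
theorem result {C : Type*} [Group C] [Finite C] [IsCyclic C] [Nontrivial C] :
    ∃ (L : Type) (_ : Group L) (_ : Finite L) (H : Subgroup L), Cfsg.IsFrobeniusComplement H ∧ Nonempty (C ≃* H) := by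
  classical
  have hm : 2 ≤ Nat.card C := Finite.one_lt_card
  obtain ⟨p, hp, u, hu⟩ := exists_unit_order (Nat.card C) (by omega)
  let φ₀ : (ZMod p)ˣ →* MulAut (Multiplicative (ZMod p)) :=
    (MulAutMultiplicative (ZMod p)).symm.toMonoidHom.comp (AddAut.mulLeft)
  let φ : Subgroup.zpowers u →* MulAut (Multiplicative (ZMod p)) :=
    φ₀.comp (Subgroup.zpowers u).subtype
  have hφ : ∀ (g : Subgroup.zpowers u) (n : Multiplicative (ZMod p)),
      φ g n = Multiplicative.ofAdd (((g : (ZMod p)ˣ) : ZMod p) * Multiplicative.toAdd n) :=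
    fun g n => rfl
  have : Nontrivial (Subgroup.zpowers u) := by
    rw [← Finite.one_lt_card_iff_nontrivial, Nat.card_zpowers, hu]; exact hm
  have hfpf : ∀ g : Subgroup.zpowers u, g ≠ 1 → ∀ n, φ g n = n → n = 1 := by
    intro g hg n hn
    rw [hφ] at hn
    have h1 : ((g : (ZMod p)ˣ) : ZMod p) * Multiplicative.toAdd n = Multiplicative.toAdd n := by
      have := congrArg Multiplicative.toAdd hn
      simpa using this
    have h2 : (((g : (ZMod p)ˣ) : ZMod p) - 1) * Multiplicative.toAdd n = 0 := by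
      rw [sub_mul, h1, one_mul, sub_self]
    rcases mul_eq_zero.mp h2 with h | h
    · exfalso
      apply hg
      apply Subtype.ext
      apply Units.ext
      exact sub_eq_zero.mp h
    · have := congrArg Multiplicative.ofAdd h
      simpa using this
  refine ⟨Multiplicative (ZMod p) ⋊[φ] Subgroup.zpowers u, inferInstance,
    Finite.of_equiv _ SemidirectProduct.equivProd.symm, (SemidirectProduct.inr).range,
    Cfsg.Agent.S4295.semidirect_frob φ hfpf, ⟨?_⟩⟩
  have e1 : C ≃* Subgroup.zpowers u := mulEquivOfCyclicCardEq (by rw [Nat.card_zpowers, hu])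
  exact e1.trans (MonoidHom.ofInjective SemidirectProduct.inr_injective)

end Cfsg.Agent.S4299
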