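import Cfsg.Statements.S4297
-- import your own Cfsg.Agent.* helpers here
import Mathlib
import Cfsg.Agent.S4295
import Cfsg.Agent.S4299
import Cfsg.Agent.Lib.helper1.Quat

set_option autoImplicit false
open Cfsg

namespace Cfsg.Agent.S4297



/-- For every n ≥ 2 the dicyclic group of order 4n (generated by an element a of order 2n and an element x with x² = aⁿ and x a x⁻¹ = a⁻¹) occurs as a Frobenius complement of some finite Frobenius group. -/
theorem result (n : ℕ) (hn : 2 ≤ n) :
    ∃ (L : Type) (_ : Group L) (_ : Finite L) (H : Subgroup L), Cfsg.IsFrobeniusComplement H ∧ Nonempty (H ≃* QuaternionGroup n) := by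
  classical
  obtain ⟨p, hp, u, hu⟩ := Cfsg.Agent.S4299.exists_unit_order (2 * n) (by omega)
  have hpp : p.Prime := hp.out
  have hn0 : NeZero n := ⟨by omega⟩
  -- the scalars
  obtain ⟨ζ, hζ⟩ : ∃ ζ : ZMod p, ζ = (u : ZMod p) := ⟨_, rfl⟩
  obtain ⟨ξ, hξ⟩ : ∃ ξ : ZMod p, ξ = ((u⁻¹ : (ZMod p)ˣ) : ZMod p) := ⟨_, rfl⟩
  have hζξ : ζ * ξ = 1 := by rw [hζ, hξ, ← Units.val_mul, mul_inv_cancel, Units.val_one]
  have hξζ : ξ * ζ = 1 := by rw [mul_comm]; exact hζξ
  have hζpow : ∀ k : ℕ, ζ ^ k = 1 ↔ 2 * n ∣ k := by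
    intro k
    rw [← hu, orderOf_dvd_iff_pow_eq_one, hζ, ← Units.val_pow_eq_pow_val]
    constructor
    · intro h; exact Units.ext (by rw [h, Units.val_one])
    · intro h; rw [h, Units.val_one]
  have hζn : ζ ^ n = -1 := by
    have h1 : (ζ ^ n) * (ζ ^ n) = 1 := by
      rw [← pow_add, ← two_mul]; exact (hζpow _).mpr dvd_rfl
    have h2 : ζ ^ n ≠ 1 := by
      intro h
      have := (hζpow n).mp h
      have := Nat.le_of_dvd (by omega) this
      omega
    rcases mul_self_eq_one_iff.mp h1 with h | h
    · exact absurd h h2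
    · exact h
  have hξn : ξ ^ n = -1 := by
    have h1 : ζ ^ n * ξ ^ n = 1 := by rw [← mul_pow, hζξ, one_pow]
    rw [hζn] at h1
    have : ξ ^ n = -(-1 * ξ ^ n) := by ring
    rw [this, h1]
  have hodd : Odd (Nat.card (Multiplicative (ZMod p × ZMod p))) := by
    have hp2 : p ≠ 2 := by
      rintro rfl
      have h1 : Nat.card (ZMod 2)ˣ = 1 := by
        rw [Nat.card_eq_fintype_card, ZMod.card_units_eq_totient]; rfl
      have h2 := orderOf_dvd_natCard u
      rw [hu, h1] at h2
      have := Nat.le_of_dvd (by norm_num) h2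
      omega
    have hpo : Odd p := hpp.odd_of_ne_two hp2
    have : Nat.card (Multiplicative (ZMod p × ZMod p)) = p * p := by
      show Nat.card (ZMod p × ZMod p) = p * p
      rw [Nat.card_prod, Nat.card_zmod]
    rw [this]; exact hpo.mul hpo
  let eρ : (ZMod p × ZMod p) ≃+ (ZMod p × ZMod p) :=
    { toFun := fun w => (ζ * w.1, ξ * w.2)
      invFun := fun w => (ξ * w.1, ζ * w.2)
      left_inv := fun w => by
        ext
        · show ξ * (ζ * w.1) = w.1
          rw [← mul_assoc, hξζ, one_mul]
        · show ζ * (ξ * w.2) = w.2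
          rw [← mul_assoc, hζξ, one_mul]
      right_inv := fun w => by
        ext
        · show ζ * (ξ * w.1) = w.1
          rw [← mul_assoc, hζξ, one_mul]
        · show ξ * (ζ * w.2) = w.2
          rw [← mul_assoc, hξζ, one_mul]
      map_add' := fun v w => by
        ext
        · show ζ * (v.1 + w.1) = ζ * v.1 + ζ * w.1
          ring
        · show ξ * (v.2 + w.2) = ξ * v.2 + ξ * w.2
          ring }
  let ex : (ZMod p × ZMod p) ≃+ (ZMod p × ZMod p) :=
    { toFun := fun w => (w.2, -w.1)
      invFun := fun w => (-w.2, w.1)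
      left_inv := fun w => by
        ext
        · show - -w.1 = w.1
          ring
        · rfl
      right_inv := fun w => by
        ext
        · rfl
        · show - -w.2 = w.2
          ring
      map_add' := fun v w => by
        ext
        · rfl
        · show -(v.1 + w.1) = -v.1 + -w.1
          ring }
  let ρ : MulAut (Multiplicative (ZMod p × ZMod p)) := AddEquiv.toMultiplicative eρ
  let x : MulAut (Multiplicative (ZMod p × ZMod p)) := AddEquiv.toMultiplicative ex
  have hρ_apply : ∀ v : Multiplicative (ZMod p × ZMod p),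
      ρ v = Multiplicative.ofAdd (ζ * (Multiplicative.toAdd v).1, ξ * (Multiplicative.toAdd v).2) :=
    fun v => rfl
  have hx_apply : ∀ v : Multiplicative (ZMod p × ZMod p),
      x v = Multiplicative.ofAdd ((Multiplicative.toAdd v).2, -(Multiplicative.toAdd v).1) :=
    fun v => rfl
  have hρpow : ∀ (k : ℕ) (v : Multiplicative (ZMod p × ZMod p)),
      (ρ ^ k) v = Multiplicative.ofAdd (ζ ^ k * (Multiplicative.toAdd v).1,
        ξ ^ k * (Multiplicative.toAdd v).2) := by
    intro k
    induction k with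
    | zero =>
      intro v
      rw [pow_zero, pow_zero, pow_zero, one_mul, one_mul, MulAut.one_apply]
      rfl
    | succ k ih =>
      intro v
      rw [pow_succ, MulAut.mul_apply, ih, hρ_apply]
      show Multiplicative.ofAdd (ζ ^ k * (ζ * (Multiplicative.toAdd v).1),
        ξ ^ k * (ξ * (Multiplicative.toAdd v).2)) = _
      rw [pow_succ, pow_succ, mul_assoc, mul_assoc]
  have hxx : ∀ v : Multiplicative (ZMod p × ZMod p), x (x v) = v⁻¹ := by
    intro v
    rw [hx_apply, hx_apply]
    show Multiplicative.ofAdd (-(Multiplicative.toAdd v).1, -(Multiplicative.toAdd v).2) =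
      Multiplicative.ofAdd (-(Multiplicative.toAdd v))
    rfl
  have hρn : ∀ v : Multiplicative (ZMod p × ZMod p), (ρ ^ n) v = v⁻¹ := by
    intro v
    rw [hρpow, hζn, hξn]
    show Multiplicative.ofAdd (-1 * (Multiplicative.toAdd v).1, -1 * (Multiplicative.toAdd v).2) =
      Multiplicative.ofAdd (-(Multiplicative.toAdd v))
    congr 1
    ext
    · show -1 * (Multiplicative.toAdd v).1 = -(Multiplicative.toAdd v).1
      ring
    · show -1 * (Multiplicative.toAdd v).2 = -(Multiplicative.toAdd v).2
      ring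
  have hρ2n : ρ ^ (2 * n) = 1 := by
    refine MulEquiv.ext fun v => ?_
    rw [hρpow, (hζpow _).mpr dvd_rfl, MulAut.one_apply]
    have : ξ ^ (2 * n) = 1 := by
      have h1 : ζ ^ (2 * n) * ξ ^ (2 * n) = 1 := by rw [← mul_pow, hζξ, one_pow]
      rw [(hζpow _).mpr dvd_rfl, one_mul] at h1
      exact h1
    rw [this, one_mul, one_mul]
    rfl
  have hxx' : x * x = ρ ^ n := by
    refine MulEquiv.ext fun v => ?_
    rw [MulAut.mul_apply, hxx, hρn]
  have hconj : x * ρ * x⁻¹ = ρ⁻¹ := by
    have h1 : ρ * x * ρ = x := by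
      refine MulEquiv.ext fun v => ?_
      rw [MulAut.mul_apply, MulAut.mul_apply, hρ_apply, hx_apply, hρ_apply, hx_apply]
      congr 1
      ext
      · show ζ * (ξ * (Multiplicative.toAdd v).2) = (Multiplicative.toAdd v).2
        rw [← mul_assoc, hζξ, one_mul]
      · show ξ * -(ζ * (Multiplicative.toAdd v).1) = -(Multiplicative.toAdd v).1
        rw [mul_neg, ← mul_assoc, hξζ, one_mul]
    calc x * ρ * x⁻¹ = ρ⁻¹ * (ρ * x * ρ) * x⁻¹ := by group
      _ = ρ⁻¹ * x * x⁻¹ := by rw [h1]
      _ = ρ⁻¹ := by group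
  obtain ⟨φ, hφ⟩ : ∃ φ : QuaternionGroup n →* MulAut (Multiplicative (ZMod p × ZMod p)),
      φ = Cfsg.Agent.Lib.helper1.quatHom x ρ n hρ2n hxx' hconj := ⟨_, rfl⟩
  have hz : ∀ v, φ (QuaternionGroup.a n) v = v⁻¹ := by
    intro v
    have h4 : φ (QuaternionGroup.a n) = ρ ^ n := by
      rw [hφ, Cfsg.Agent.Lib.helper1.quatHom_a]
      exact Cfsg.Agent.Lib.helper1.zpowMod_natCast ρ (2 * n) hρ2n n
    rw [h4, hρn]
  have hinvfix : ∀ v : Multiplicative (ZMod p × ZMod p), v⁻¹ = v → v = 1 := by
    intro v hv
    have h5 : v ^ 2 = 1 := by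
      rw [pow_two]; nth_rewrite 1 [← hv]; exact inv_mul_cancel v
    have ho : orderOf v ∣ 2 := orderOf_dvd_of_pow_eq_one h5
    have ho2 : orderOf v ∣ Nat.card (Multiplicative (ZMod p × ZMod p)) := orderOf_dvd_natCard v
    have hc : Nat.Coprime 2 (Nat.card (Multiplicative (ZMod p × ZMod p))) :=
      Nat.coprime_two_left.mpr hodd
    exact orderOf_eq_one_iff.mp (Nat.eq_one_of_dvd_coprimes hc ho ho2)
  have hfpf : ∀ q : QuaternionGroup n, q ≠ 1 →
      ∀ v : Multiplicative (ZMod p × ZMod p), φ q v = v → v = 1 := by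
    rintro (i | i) hq v hv
    · have hi : i ≠ 0 := by
        rintro rfl
        exact hq QuaternionGroup.one_def.symm
      have h1 : φ (QuaternionGroup.a i) = ρ ^ i.val := by
        rw [hφ, Cfsg.Agent.Lib.helper1.quatHom_a]
        have := Cfsg.Agent.Lib.helper1.zpowMod_natCast ρ (2 * n) hρ2n i.val
        rwa [ZMod.natCast_zmod_val] at this
      rw [h1, hρpow] at hv
      have hk : ¬ 2 * n ∣ i.val := by
        intro hd
        apply hi
        have := (ZMod.natCast_eq_zero_iff i.val (2 * n)).mpr hd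
        rwa [ZMod.natCast_zmod_val] at this
      have hζk : ζ ^ i.val ≠ 1 := fun h => hk ((hζpow _).mp h)
      have hξk : ξ ^ i.val ≠ 1 := by
        intro h
        apply hζk
        have h1 : ζ ^ i.val * ξ ^ i.val = 1 := by rw [← mul_pow, hζξ, one_pow]
        rw [h, mul_one] at h1
        exact h1
      have hv' := congrArg Multiplicative.toAdd hv
      have e1 : ζ ^ i.val * (Multiplicative.toAdd v).1 = (Multiplicative.toAdd v).1 :=
        congrArg Prod.fst hv'
      have e2 : ξ ^ i.val * (Multiplicative.toAdd v).2 = (Multiplicative.toAdd v).2 :=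
        congrArg Prod.snd hv'
      have z1 : (Multiplicative.toAdd v).1 = 0 := by
        have : (ζ ^ i.val - 1) * (Multiplicative.toAdd v).1 = 0 := by
          rw [sub_mul, e1, one_mul, sub_self]
        rcases mul_eq_zero.mp this with h | h
        · exact absurd (sub_eq_zero.mp h) hζk
        · exact h
      have z2 : (Multiplicative.toAdd v).2 = 0 := by
        have : (ξ ^ i.val - 1) * (Multiplicative.toAdd v).2 = 0 := by
          rw [sub_mul, e2, one_mul, sub_self]
        rcases mul_eq_zero.mp this with h | h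
        · exact absurd (sub_eq_zero.mp h) hξk
        · exact h
      show v = Multiplicative.ofAdd (0 : ZMod p × ZMod p)
      have : Multiplicative.toAdd v = 0 := Prod.ext z1 z2
      rw [← this]; rfl
    · have h6 : φ (QuaternionGroup.xa i * QuaternionGroup.xa i) v = v := by
        rw [map_mul, MulAut.mul_apply, hv, hv]
      rw [QuaternionGroup.xa_mul_xa, add_sub_cancel_right, hz] at h6
      exact hinvfix v h6
  have : Nontrivial (Multiplicative (ZMod p × ZMod p)) := by
    rw [← Finite.one_lt_card_iff_nontrivial]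
    have := hodd
    have h0 : 0 < Nat.card (Multiplicative (ZMod p × ZMod p)) := Nat.card_pos
    rcases this with ⟨k, hk⟩
    have : Nat.card (Multiplicative (ZMod p × ZMod p)) = p * p := by
      show Nat.card (ZMod p × ZMod p) = p * p
      rw [Nat.card_prod, Nat.card_zmod]
    rw [this]
    have := hpp.two_le
    nlinarith
  have : Nontrivial (QuaternionGroup n) := by
    rw [← Finite.one_lt_card_iff_nontrivial, Nat.card_eq_fintype_card, QuaternionGroup.card]
    omega
  refine ⟨Multiplicative (ZMod p × ZMod p) ⋊[φ] QuaternionGroup n, inferInstance, ?_,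
    (SemidirectProduct.inr : QuaternionGroup n →* Multiplicative (ZMod p × ZMod p) ⋊[φ] QuaternionGroup n).range,
    Cfsg.Agent.S4295.semidirect_frob φ hfpf,
    ⟨(MonoidHom.ofInjective SemidirectProduct.inr_injective).symm⟩⟩
  exact Finite.of_equiv _ SemidirectProduct.equivProd.symm

end Cfsg.Agent.S4297
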