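import Cfsg.Statements.S4298
import Mathlib
import Cfsg.Agent.S4295

set_option autoImplicit false
open Cfsg

namespace Cfsg.Agent.S4298

/-- The table of an embedding `SL(2,3) → SL(2,5)` on entries. -/
def tbl (a b c d : ZMod 3) : ZMod 5 × ZMod 5 × ZMod 5 × ZMod 5 :=
  match a.val, b.val, c.val, d.val with
  | 0, 1, 2, 0 => (0, 1, 4, 0)
  | 0, 1, 2, 1 => (4, 1, 2, 2)
  | 0, 1, 2, 2 => (1, 3, 4, 3)
  | 0, 2, 1, 0 => (0, 4, 1, 0)
  | 0, 2, 1, 1 => (4, 2, 1, 2)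
  | 0, 2, 1, 2 => (1, 4, 3, 3)
  | 1, 0, 0, 1 => (1, 0, 0, 1)
  | 1, 0, 1, 1 => (1, 1, 2, 3)
  | 1, 0, 2, 1 => (3, 4, 3, 1)
  | 1, 1, 0, 1 => (1, 2, 1, 3)
  | 1, 1, 1, 2 => (2, 0, 0, 3)
  | 1, 1, 2, 0 => (2, 3, 4, 4)
  | 1, 2, 0, 1 => (3, 3, 4, 1)
  | 1, 2, 1, 0 => (2, 4, 3, 4)
  | 1, 2, 2, 2 => (0, 3, 3, 0)
  | 2, 0, 0, 2 => (4, 0, 0, 4)
  | 2, 0, 1, 2 => (2, 1, 2, 4)
  | 2, 0, 2, 2 => (4, 4, 3, 2)
  | 2, 1, 0, 2 => (2, 2, 1, 4)
  | 2, 1, 1, 1 => (0, 2, 2, 0)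
  | 2, 1, 2, 0 => (3, 1, 2, 1)
  | 2, 2, 0, 2 => (4, 3, 4, 2)
  | 2, 2, 1, 0 => (3, 2, 1, 1)
  | 2, 2, 2, 1 => (3, 0, 0, 2)
  | _, _, _, _ => (1, 0, 0, 1)

/-- Product of `2 × 2` matrices given as tuples. -/
def mul4 (x y : ZMod 5 × ZMod 5 × ZMod 5 × ZMod 5) : ZMod 5 × ZMod 5 × ZMod 5 × ZMod 5 :=
  (x.1 * y.1 + x.2.1 * y.2.2.1, x.1 * y.2.1 + x.2.1 * y.2.2.2,
    x.2.2.1 * y.1 + x.2.2.2 * y.2.2.1, x.2.2.1 * y.2.1 + x.2.2.2 * y.2.2.2)

/-- Application of a tuple matrix to a vector. -/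
def app (t : ZMod 5 × ZMod 5 × ZMod 5 × ZMod 5) (v : ZMod 5 × ZMod 5) : ZMod 5 × ZMod 5 :=
  (t.1 * v.1 + t.2.1 * v.2, t.2.2.1 * v.1 + t.2.2.2 * v.2)

theorem app_mul4 (x y : ZMod 5 × ZMod 5 × ZMod 5 × ZMod 5) (v : ZMod 5 × ZMod 5) :
    app (mul4 x y) v = app x (app y v) := by
  unfold app mul4
  ext
  · simp only; ring
  · simp only; ring

theorem app_add (t : ZMod 5 × ZMod 5 × ZMod 5 × ZMod 5) (v w : ZMod 5 × ZMod 5) :
    app t (v + w) = app t v + app t w := by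
  unfold app
  ext
  · simp only [Prod.fst_add, Prod.snd_add]; ring
  · simp only [Prod.fst_add, Prod.snd_add]; ring

set_option maxRecDepth 100000 in
theorem tbl_mul : ∀ a b c d : ZMod 3, a * d - b * c = 1 → ∀ e f g h : ZMod 3, e * h - f * g = 1 →
    tbl (a * e + b * g) (a * f + b * h) (c * e + d * g) (c * f + d * h)
      = mul4 (tbl a b c d) (tbl e f g h) := by
  decide

set_option maxRecDepth 100000 in
theorem tbl_fpf : ∀ a b c d : ZMod 3, a * d - b * c = 1 → ¬ (a = 1 ∧ b = 0 ∧ c = 0 ∧ d = 1) →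
    ∀ x y : ZMod 5, app (tbl a b c d) (x, y) = (x, y) → x = 0 ∧ y = 0 := by
  decide

theorem tbl_one : tbl 1 0 0 1 = (1, 0, 0, 1) := by decide

abbrev G3 := Matrix.SpecialLinearGroup (Fin 2) (ZMod 3)

/-- The tuple attached to an element of `SL(2,3)`. -/
def T (A : G3) : ZMod 5 × ZMod 5 × ZMod 5 × ZMod 5 := tbl (A 0 0) (A 0 1) (A 1 0) (A 1 1)

theorem det_eq (A : G3) : A 0 0 * A 1 1 - A 0 1 * A 1 0 = 1 := by
  have h := A.2
  rw [Matrix.det_fin_two] at h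
  exact h

theorem T_mul (A B : G3) : T (A * B) = mul4 (T A) (T B) := by
  unfold T
  have h := tbl_mul (A 0 0) (A 0 1) (A 1 0) (A 1 1) (det_eq A) (B 0 0) (B 0 1) (B 1 0) (B 1 1)
    (det_eq B)
  rw [← h]
  simp only [Matrix.SpecialLinearGroup.coe_mul, Matrix.mul_apply, Fin.sum_univ_two]

theorem T_one : T (1 : G3) = (1, 0, 0, 1) := by
  unfold T
  simp only [Matrix.SpecialLinearGroup.coe_one, Matrix.one_apply_eq, ne_eq, one_ne_zero,
    not_false_eq_true, Matrix.one_apply_ne, zero_ne_one]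
  exact tbl_one

theorem app_T_mul (A B : G3) (v : ZMod 5 × ZMod 5) : app (T (A * B)) v = app (T A) (app (T B) v) := by
  rw [T_mul, app_mul4]

theorem app_T_one (v : ZMod 5 × ZMod 5) : app (T (1 : G3)) v = v := by
  rw [T_one]
  unfold app
  ext
  · simp
  · simp

/-- The action of an element of `SL(2,3)` on `F_5^2`. -/
def act (A : G3) : (ZMod 5 × ZMod 5) ≃+ (ZMod 5 × ZMod 5) :=
  { toFun := fun v => app (T A) v
    invFun := fun v => app (T A⁻¹) v
    left_inv := fun v => by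
      show app (T A⁻¹) (app (T A) v) = v
      rw [← app_T_mul, inv_mul_cancel, app_T_one]
    right_inv := fun v => by
      show app (T A) (app (T A⁻¹) v) = v
      rw [← app_T_mul, mul_inv_cancel, app_T_one]
    map_add' := fun v w => app_add _ v w }

/-- The action as a homomorphism. -/
def φ : G3 →* MulAut (Multiplicative (ZMod 5 × ZMod 5)) :=
  { toFun := fun A => AddEquiv.toMultiplicative (act A)
    map_one' := by
      refine MulEquiv.ext fun v => ?_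
      show Multiplicative.ofAdd (app (T (1 : G3)) (Multiplicative.toAdd v)) = v
      rw [app_T_one]; rfl
    map_mul' := fun A B => by
      refine MulEquiv.ext fun v => ?_
      show Multiplicative.ofAdd (app (T (A * B)) (Multiplicative.toAdd v)) =
        Multiplicative.ofAdd (app (T A) (app (T B) (Multiplicative.toAdd v)))
      rw [app_T_mul] }

theorem φ_apply (A : G3) (v : Multiplicative (ZMod 5 × ZMod 5)) :
    φ A v = Multiplicative.ofAdd (app (T A) (Multiplicative.toAdd v)) := rfl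

theorem fpf (A : G3) (hA : A ≠ 1) (v : Multiplicative (ZMod 5 × ZMod 5)) (hv : φ A v = v) :
    v = 1 := by
  rw [φ_apply] at hv
  have hv' : app (T A) (Multiplicative.toAdd v) = Multiplicative.toAdd v :=
    congrArg Multiplicative.toAdd hv
  have hne : ¬ (A 0 0 = 1 ∧ A 0 1 = 0 ∧ A 1 0 = 0 ∧ A 1 1 = 1) := by
    rintro ⟨h1, h2, h3, h4⟩
    apply hA
    ext i j
    fin_cases i <;> fin_cases j
    · simpa using h1
    · simpa using h2
    · simpa using h3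
    · simpa using h4
  have h := tbl_fpf (A 0 0) (A 0 1) (A 1 0) (A 1 1) (det_eq A) hne (Multiplicative.toAdd v).1
    (Multiplicative.toAdd v).2 hv'
  show v = Multiplicative.ofAdd (0 : ZMod 5 × ZMod 5)
  have : Multiplicative.toAdd v = 0 := Prod.ext h.1 h.2
  rw [← this]; rfl

/-- `SL(2,3)` occurs as a Frobenius complement (in a Frobenius group of order `600`). -/
theorem result :
    ∃ (L : Type) (_ : Group L) (_ : Finite L) (H : Subgroup L), Cfsg.IsFrobeniusComplement H ∧ Nonempty (H ≃* Matrix.SpecialLinearGroup (Fin 2) (ZMod 3)) := by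
  have hN : Nontrivial (Multiplicative (ZMod 5 × ZMod 5)) :=
    ⟨⟨Multiplicative.ofAdd (0, 0), Multiplicative.ofAdd (1, 0), by decide⟩⟩
  have hG : Nontrivial G3 := by
    refine ⟨⟨1, ⟨!![1, 1; 0, 1], by rw [Matrix.det_fin_two]; decide⟩, ?_⟩⟩
    intro h
    have h1 := congrArg (fun A : G3 => A 0 1) h
    simp at h1
  refine ⟨Multiplicative (ZMod 5 × ZMod 5) ⋊[φ] G3, inferInstance, ?_,
    (SemidirectProduct.inr : G3 →* Multiplicative (ZMod 5 × ZMod 5) ⋊[φ] G3).range,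
    Cfsg.Agent.S4295.semidirect_frob φ fpf,
    ⟨(MonoidHom.ofInjective SemidirectProduct.inr_injective).symm⟩⟩
  exact Finite.of_equiv _ SemidirectProduct.equivProd.symm

end Cfsg.Agent.S4298
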