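import Cfsg.Statements.S4300
-- import your own Cfsg.Agent.* helpers here

set_option autoImplicit false
open Cfsg

namespace Cfsg.Agent.S4300

/-- Let G act faithfully and primitively on a set X, and suppose the stabilizer of some point is a simple group. Then either G is simple, or G has a normal subgroup, neither trivial nor the whole group, that acts regularly on X (transitively with trivial point stabilizers). -/
theorem result {G : Type*} [Group G] {X : Type*} [MulAction G X] [FaithfulSMul G X]
    (hprim : MulAction.IsPreprimitive G X) (x : X) (hsimple : IsSimpleGroup (MulAction.stabilizer G x)) :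
    IsSimpleGroup G ∨ ∃ N : Subgroup G, N.Normal ∧ N ≠ ⊥ ∧ N ≠ ⊤ ∧
      MulAction.IsPretransitive N X ∧ ∀ y : X, MulAction.stabilizer N y = ⊥ := by
  classical
  by_cases hs : IsSimpleGroup G
  · exact Or.inl hs
  right
  have := hprim
  have := hsimple
  -- the stabilizer is nontrivial
  obtain ⟨s, hs1⟩ := exists_ne (1 : MulAction.stabilizer G x)
  have hs1' : (s : G) ≠ 1 := fun h => hs1 (Subtype.ext h)
  have : Nontrivial G := ⟨⟨(s : G), 1, hs1'⟩⟩
  have : Nontrivial X := by
    by_contra hX
    rw [not_nontrivial_iff_subsingleton] at hX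
    apply hs1'
    apply FaithfulSMul.eq_of_smul_eq_smul (α := X)
    intro a
    exact Subsingleton.elim _ _
  obtain ⟨N, hNn, hNne⟩ : ∃ N : Subgroup G, N.Normal ∧ ¬ (N = ⊥ ∨ N = ⊤) := by
    by_contra hcon
    push Not at hcon
    apply hs
    exact ⟨fun H hH => hcon H hH⟩
  push Not at hNne
  obtain ⟨hNbot, hNtop⟩ := hNne
  have := hNn
  have hcoatom : IsCoatom (MulAction.stabilizer G x) :=
    MulAction.IsPreprimitive.isCoatom_stabilizer_of_isPreprimitive (G := G) x
  have hstab : ∀ g : G, ∀ n : G, n ∈ MulAction.stabilizer G (g • x) ↔ g⁻¹ * n * g ∈ MulAction.stabilizer G x := by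
    intro g n
    rw [MulAction.mem_stabilizer_iff, MulAction.mem_stabilizer_iff, mul_smul, mul_smul, inv_smul_eq_iff]
  have hdisj : N ⊓ MulAction.stabilizer G x = ⊥ := by
    rcases (inferInstance : (N.subgroupOf (MulAction.stabilizer G x)).Normal).eq_bot_or_eq_top with h | h
    · rw [Subgroup.subgroupOf_eq_bot] at h
      exact disjoint_iff.mp h
    · exfalso
      rw [Subgroup.subgroupOf_eq_top] at h
      have hEq : MulAction.stabilizer G x = N := by
        by_contra hne
        exact hNtop (hcoatom.2 N (lt_of_le_of_ne h hne))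
      apply hs1'
      apply FaithfulSMul.eq_of_smul_eq_smul (α := X)
      intro a
      obtain ⟨g, rfl⟩ := MulAction.exists_smul_eq G x a
      rw [one_smul]
      have hsN : (s : G) ∈ N := h s.2
      have h1 : g⁻¹ * (s : G) * g ∈ MulAction.stabilizer G x := by
        have h0 : g⁻¹ * (s : G) * g ∈ N := by
          have := hNn.conj_mem (s : G) hsN g⁻¹
          simpa using this
        exact hEq.ge h0
      exact MulAction.mem_stabilizer_iff.mp ((hstab g s).mpr h1)
  refine ⟨N, hNn, hNbot, hNtop, ?_, ?_⟩
  · apply MulAction.IsQuasiPreprimitive.isPretransitive_of_normal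
    obtain ⟨n, hnN, hn1⟩ : ∃ n ∈ N, n ≠ 1 := by
      by_contra hcon
      push Not at hcon
      exact hNbot ((Subgroup.eq_bot_iff_forall N).mpr hcon)
    intro hfix
    apply hn1
    apply FaithfulSMul.eq_of_smul_eq_smul (α := X)
    intro a
    rw [one_smul]
    have ha : a ∈ MulAction.fixedPoints N X := by rw [hfix]; exact Set.mem_univ a
    exact ha ⟨n, hnN⟩
  · intro y
    rw [eq_bot_iff]
    intro n hn
    rw [MulAction.mem_stabilizer_iff] at hn
    obtain ⟨g, rfl⟩ := MulAction.exists_smul_eq G x y
    have h1 : g⁻¹ * (n : G) * g ∈ MulAction.stabilizer G x := (hstab g n).mp (MulAction.mem_stabilizer_iff.mpr hn)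
    have h2 : g⁻¹ * (n : G) * g ∈ N := by
      have := hNn.conj_mem (n : G) n.2 g⁻¹
      simpa using this
    have h3 : g⁻¹ * (n : G) * g ∈ N ⊓ MulAction.stabilizer G x := ⟨h2, h1⟩
    rw [hdisj, Subgroup.mem_bot] at h3
    rw [Subgroup.mem_bot]
    apply Subtype.ext
    have : (n : G) = g * (g⁻¹ * (n : G) * g) * g⁻¹ := by group
    rw [this, h3]
    simp

end Cfsg.Agent.S4300
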