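import Cfsg.Statements.S4301
-- import your own Cfsg.Agent.* helpers here

set_option autoImplicit false
open Cfsg

namespace Cfsg.Agent.S4301

open Equiv

theorem exists_emb {X : Type*} {k : ℕ} (hk : 2 ≤ k) (e : Fin k ↪ X) (p q : X) (hpq : p ≠ q) :
    ∃ a : Fin k ↪ X, a ⟨0, by omega⟩ = p ∧ a ⟨1, by omega⟩ = q := by
  classical
  obtain ⟨τ, hτ⟩ : ∃ τ : Perm X, τ = Equiv.swap (e ⟨0, by omega⟩) p := ⟨_, rfl⟩
  have hτ0 : τ (e ⟨0, by omega⟩) = p := by rw [hτ]; exact Equiv.swap_apply_left _ _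
  have hne : τ (e ⟨1, by omega⟩) ≠ p := by
    intro h
    rw [← hτ0] at h
    have := e.injective (τ.injective h)
    simp [Fin.ext_iff] at this
  refine ⟨e.trans (Equiv.swap (τ (e ⟨1, by omega⟩)) q * τ).toEmbedding, ?_, ?_⟩
  · show (Equiv.swap (τ (e ⟨1, by omega⟩)) q * τ) (e ⟨0, by omega⟩) = p
    rw [Perm.mul_apply, hτ0]
    exact Equiv.swap_apply_of_ne_of_ne hne.symm hpq
  · show (Equiv.swap (τ (e ⟨1, by omega⟩)) q * τ) (e ⟨1, by omega⟩) = q
    rw [Perm.mul_apply]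
    exact Equiv.swap_apply_left _ _

theorem main {X : Type*} (G : Subgroup (Equiv.Perm (Option X))) (hfix : ∀ f ∈ G, f none = none)
    (k : ℕ) (hk : 2 ≤ k) (hkX : Nonempty (Fin k ↪ X))
    (htrans : ∀ a b : Fin k ↪ X, ∃ f ∈ G, ∀ i, f (some (a i)) = some (b i))
    (h g : Equiv.Perm (Option X)) (hg : g ∈ G) (x y : X)
    (h1 : h none = some x) (h2 : h (some x) = none) (h3 : h (some y) = some y)
    (h4 : g (some x) = some y) (h5 : g (some y) = some x)
    (h6 : (g * h) ^ 3 ∈ G) (h7 : h ^ 2 ∈ G)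
    (h8 : ∀ f ∈ G, f (some x) = some x → h * f * h ∈ G ∧ (h * f * h) (some x) = some x) :
    (∀ f ∈ Subgroup.closure ((G : Set (Equiv.Perm (Option X))) ∪ {h}), f none = none ↔ f ∈ G) ∧
      MulAction.IsMultiplyPretransitive (Subgroup.closure ((G : Set (Equiv.Perm (Option X))) ∪ {h}))
        (Option X) (k + 1) := by
  classical
  obtain ⟨e0⟩ := hkX
  have hxy : x ≠ y := by
    intro hxy
    rw [← hxy, h2] at h3
    exact Option.some_ne_none x h3.symm
  have hsome : ∀ f ∈ G, ∀ z : X, ∃ z' : X, f (some z) = some z' := by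
    intro f hf z
    have hne : f (some z) ≠ none := by
      intro h0
      rw [← hfix f hf] at h0
      exact Option.some_ne_none z (f.injective h0)
    exact Option.ne_none_iff_exists'.mp hne
  have hB1 : ∀ p q r : X, p ≠ q → p ≠ r →
      ∃ u ∈ G, u (some p) = some p ∧ u (some q) = some r := by
    intro p q r hpq hpr
    obtain ⟨a, ha0, ha1⟩ := exists_emb hk e0 p q hpq
    obtain ⟨b, hb0, hb1⟩ := exists_emb hk e0 p r hpr
    obtain ⟨u, hu, hu'⟩ := htrans a b
    refine ⟨u, hu, ?_, ?_⟩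
    · have := hu' ⟨0, by omega⟩
      rwa [ha0, hb0] at this
    · have := hu' ⟨1, by omega⟩
      rwa [ha1, hb1] at this
  have hB1' : ∀ z : X, ∃ f ∈ G, f (some z) = some x := by
    intro z
    by_cases hz : z = x
    · exact ⟨1, G.one_mem, by rw [hz]; rfl⟩
    · obtain ⟨a, ha0, ha1⟩ := exists_emb hk e0 z x hz
      obtain ⟨b, hb0, hb1⟩ := exists_emb hk e0 x z (fun h => hz h.symm)
      obtain ⟨u, hu, hu'⟩ := htrans a b
      refine ⟨u, hu, ?_⟩
      have := hu' ⟨0, by omega⟩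
      rwa [ha0, hb0] at this
  have hB2 : ∀ f ∈ G, f (some x) ≠ some x → ∃ u1 ∈ G, ∃ u2 ∈ G,
      u1 (some x) = some x ∧ u2 (some x) = some x ∧ f = u1 * g * u2 := by
    intro f hf hfx
    obtain ⟨z, hz⟩ := hsome f hf x
    have hzx : x ≠ z := by
      intro h0; apply hfx; rw [hz, ← h0]
    obtain ⟨u1, hu1, hu1x, hu1y⟩ := hB1 x y z hxy hzx
    refine ⟨u1, hu1, (u1 * g)⁻¹ * f, G.mul_mem (G.inv_mem (G.mul_mem hu1 hg)) hf, hu1x, ?_,
      by group⟩
    rw [Perm.mul_apply, hz, Perm.inv_eq_iff_eq, Perm.mul_apply, h4, hu1y]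
  obtain ⟨w, hw⟩ : ∃ w, w = (h ^ 2)⁻¹ := ⟨_, rfl⟩
  have hwG : w ∈ G := hw ▸ G.inv_mem h7
  have hinv : h⁻¹ = w * h := by rw [hw]; group
  have hinv' : h⁻¹ = h * w := by rw [hw]; group
  obtain ⟨A, hA, B, hB, hAB⟩ : ∃ A ∈ G, ∃ B ∈ G, h * g * h = A * h * B := by
    refine ⟨g⁻¹ * (g * h) ^ 3 * w, G.mul_mem (G.mul_mem (G.inv_mem hg) h6) hwG, g⁻¹,
      G.inv_mem hg, ?_⟩
    have e : (g * h) ^ 3 = g * h * (g * h) * (g * h) := by rw [pow_succ, pow_two]
    rw [e]
    calc h * g * h = g⁻¹ * (g * h * (g * h) * (g * h)) * h⁻¹ * g⁻¹ := by group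
      _ = g⁻¹ * (g * h * (g * h) * (g * h)) * (w * h) * g⁻¹ := by rw [hinv]
      _ = g⁻¹ * (g * h * (g * h) * (g * h)) * w * h * g⁻¹ := by group
  have hC3 : ∀ f ∈ G, h * f * h ∈ G ∨ ∃ f1 ∈ G, ∃ f2 ∈ G, h * f * h = f1 * h * f2 := by
    intro f hf
    by_cases hfx : f (some x) = some x
    · exact Or.inl (h8 f hf hfx).1
    · right
      obtain ⟨u1, hu1, u2, hu2, hu1x, hu2x, rfl⟩ := hB2 f hf hfx
      refine ⟨(h * u1 * h) * w * A, G.mul_mem (G.mul_mem (h8 u1 hu1 hu1x).1 hwG) hA,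
        B * w * (h * u2 * h), G.mul_mem (G.mul_mem hB hwG) (h8 u2 hu2 hu2x).1, ?_⟩
      have e1 : h⁻¹ * g * h⁻¹ = (w * h) * g * (h * w) := by rw [← hinv, ← hinv']
      calc h * (u1 * g * u2) * h = (h * u1 * h) * (h⁻¹ * g * h⁻¹) * (h * u2 * h) := by group
        _ = (h * u1 * h) * ((w * h) * g * (h * w)) * (h * u2 * h) := by rw [e1]
        _ = (h * u1 * h) * w * (h * g * h) * w * (h * u2 * h) := by group
        _ = (h * u1 * h) * w * (A * h * B) * w * (h * u2 * h) := by rw [hAB]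
        _ = (h * u1 * h) * w * A * h * (B * w * (h * u2 * h)) := by group
  obtain ⟨K, hK⟩ : ∃ K : Subgroup (Perm (Option X)),
      ∀ f, f ∈ K ↔ (f ∈ G ∨ ∃ f1 ∈ G, ∃ f2 ∈ G, f = f1 * h * f2) := by
    refine ⟨{ carrier := {f | f ∈ G ∨ ∃ f1 ∈ G, ∃ f2 ∈ G, f = f1 * h * f2}
              mul_mem' := ?_
              one_mem' := Or.inl G.one_mem
              inv_mem' := ?_ }, fun f => Iff.rfl⟩
    · rintro a b (ha | ⟨a1, ha1, a2, ha2, rfl⟩) (hb | ⟨b1, hb1, b2, hb2, rfl⟩)
      · exact Or.inl (G.mul_mem ha hb)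
      · exact Or.inr ⟨a * b1, G.mul_mem ha hb1, b2, hb2, by group⟩
      · exact Or.inr ⟨a1, ha1, a2 * b, G.mul_mem ha2 hb, by group⟩
      · have e : a1 * h * a2 * (b1 * h * b2) = a1 * (h * (a2 * b1) * h) * b2 := by group
        rcases hC3 (a2 * b1) (G.mul_mem ha2 hb1) with hc | ⟨c1, hc1, c2, hc2, hc⟩
        · left
          show a1 * h * a2 * (b1 * h * b2) ∈ G
          rw [e]; exact G.mul_mem (G.mul_mem ha1 hc) hb2
        · right
          refine ⟨a1 * c1, G.mul_mem ha1 hc1, c2 * b2, G.mul_mem hc2 hb2, ?_⟩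
          rw [e, hc]; group
    · rintro a (ha | ⟨a1, ha1, a2, ha2, rfl⟩)
      · exact Or.inl (G.inv_mem ha)
      · right
        refine ⟨a2⁻¹ * w, G.mul_mem (G.inv_mem ha2) hwG, a1⁻¹, G.inv_mem ha1, ?_⟩
        calc (a1 * h * a2)⁻¹ = a2⁻¹ * h⁻¹ * a1⁻¹ := by group
          _ = a2⁻¹ * (w * h) * a1⁻¹ := by rw [hinv]
          _ = a2⁻¹ * w * h * a1⁻¹ := by group
  have hle : Subgroup.closure ((G : Set (Perm (Option X))) ∪ {h}) ≤ K := by
    rw [Subgroup.closure_le]
    rintro f (hf | hf)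
    · exact (hK f).mpr (Or.inl hf)
    · rw [Set.mem_singleton_iff] at hf
      rw [hf]
      exact (hK h).mpr (Or.inr ⟨1, G.one_mem, 1, G.one_mem, by group⟩)
  have hGle : G ≤ Subgroup.closure ((G : Set (Perm (Option X))) ∪ {h}) :=
    fun f hf => Subgroup.subset_closure (Or.inl hf)
  have hhmem : h ∈ Subgroup.closure ((G : Set (Perm (Option X))) ∪ {h}) :=
    Subgroup.subset_closure (Or.inr rfl)
  refine ⟨?_, ?_⟩
  · intro f hf
    constructor
    · intro hnone
      rcases (hK f).mp (hle hf) with hfG | ⟨f1, hf1, f2, hf2, rfl⟩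
      · exact hfG
      · exfalso
        rw [Perm.mul_apply, Perm.mul_apply, hfix f2 hf2, h1] at hnone
        obtain ⟨z', hz'⟩ := hsome f1 hf1 x
        rw [hz'] at hnone
        exact Option.some_ne_none z' hnone
    · exact hfix f
  · obtain ⟨Γ, hΓ⟩ : ∃ Γ : Subgroup (Perm (Option X)),
        Γ = Subgroup.closure ((G : Set (Perm (Option X))) ∪ {h}) := ⟨_, rfl⟩
    rw [← hΓ] at hGle hhmem ⊢
    have hto : ∀ p : Option X, ∃ γ ∈ Γ, γ p = none := by
      intro p
      cases p with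
      | none => exact ⟨1, Γ.one_mem, rfl⟩
      | some z =>
        obtain ⟨f, hf, hfz⟩ := hB1' z
        exact ⟨h * f, Γ.mul_mem hhmem (hGle hf), by rw [Perm.mul_apply, hfz, h2]⟩
    refine ⟨fun a b => ?_⟩
    obtain ⟨γ1, hγ1, hγ1a⟩ := hto (a 0)
    obtain ⟨γ2, hγ2, hγ2b⟩ := hto (b 0)
    have key : ∀ (c : Fin (k + 1) ↪ Option X) (γ : Perm (Option X)), γ (c 0) = none →
        ∃ c' : Fin k ↪ X, ∀ i : Fin k, γ (c i.succ) = some (c' i) := by
      intro c γ hc
      have hne : ∀ i : Fin k, γ (c i.succ) ≠ none := by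
        intro i h0
        rw [← hc] at h0
        have := c.injective (γ.injective h0)
        exact Fin.succ_ne_zero i this
      choose c' hc' using fun i => Option.ne_none_iff_exists'.mp (hne i)
      refine ⟨⟨c', ?_⟩, hc'⟩
      intro i j hij
      have : γ (c i.succ) = γ (c j.succ) := by rw [hc', hc', hij]
      exact Fin.succ_injective _ (c.injective (γ.injective this))
    obtain ⟨a', ha'⟩ := key a γ1 hγ1a
    obtain ⟨b', hb'⟩ := key b γ2 hγ2b
    obtain ⟨f, hf, hf'⟩ := htrans a' b'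
    refine ⟨⟨γ2⁻¹ * f * γ1, Γ.mul_mem (Γ.mul_mem (Γ.inv_mem hγ2) (hGle hf)) hγ1⟩, ?_⟩
    refine DFunLike.ext _ _ (fun i => ?_)
    show (γ2⁻¹ * f * γ1) (a i) = b i
    rw [Perm.mul_apply, Perm.mul_apply, Perm.inv_eq_iff_eq]
    induction i using Fin.cases with
    | zero => rw [hγ1a, hfix f hf, hγ2b]
    | succ j => rw [ha', hf', hb']

/-- One-point extension of a multiply transitive group. Let X be a set and G a group of permutations of Option X (the set X with one extra point ∗ = none) all of whose elements fix ∗, such that G is k-transitive on the points of X for some k ≥ 2, X having at least k points. Suppose a permutation h of Option X and an element g of G satisfy: h interchanges ∗ with a point x of X and fixes a point y of X; g interchanges x and y; (g h)³ and h² lie in G; and for every f in G fixing x, the product h f h lies in G and fixes x. Then an element of the group generated by G and h fixes ∗ exactly when it lies in G,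 and that group acts (k+1)-transitively on Option X. -/
theorem result {X : Type*} (G : Subgroup (Equiv.Perm (Option X))) (hfix : ∀ f ∈ G, f none = none)
    (k : ℕ) (hk : 2 ≤ k) (hkX : Nonempty (Fin k ↪ X))
    (htrans : ∀ a b : Fin k ↪ X, ∃ f ∈ G, ∀ i, f (some (a i)) = some (b i))
    (h g : Equiv.Perm (Option X)) (hg : g ∈ G) (x y : X)
    (h1 : h none = some x) (h2 : h (some x) = none) (h3 : h (some y) = some y)
    (h4 : g (some x) = some y) (h5 : g (some y) = some x)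
    (h6 : (g * h) ^ 3 ∈ G) (h7 : h ^ 2 ∈ G)
    (h8 : ∀ f ∈ G, f (some x) = some x → h * f * h ∈ G ∧ (h * f * h) (some x) = some x) :
    (∀ f ∈ Subgroup.closure ((G : Set (Equiv.Perm (Option X))) ∪ {h}), f none = none ↔ f ∈ G) ∧
      MulAction.IsMultiplyPretransitive (Subgroup.closure ((G : Set (Equiv.Perm (Option X))) ∪ {h})) (Option X) (k + 1) := by
  exact main G hfix k hk hkX htrans h g hg x y h1 h2 h3 h4 h5 h6 h7 h8

end Cfsg.Agent.S4301
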