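import Cfsg.Statements.S4309
-- import your own Cfsg.Agent.* helpers here

set_option autoImplicit false
open Cfsg

namespace Cfsg.Agent.S4309

theorem card_eq_of_le {G : Type*} [Group G] [Finite G] {H K : Subgroup G} (h : H ≤ K) :
    Nat.card K = H.relIndex K * Nat.card H := by
  have h1 := Subgroup.card_mul_index (H.subgroupOf K)
  rw [Nat.card_congr (Subgroup.subgroupOfEquivOfLe h).toEquiv] at h1
  rw [Subgroup.relIndex, ← h1, mul_comm]

theorem relIndex_sup_of_normal {G : Type*} [Group G] [Finite G] (H Q : Subgroup G) [Q.Normal] :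
    H.relIndex (H ⊔ Q) = H.relIndex Q := by
  have h1 := card_eq_of_le (le_sup_left : H ≤ H ⊔ Q)
  have h2 := card_eq_of_le (le_sup_right : Q ≤ H ⊔ Q)
  have h3 := card_eq_of_le (inf_le_left : H ⊓ Q ≤ H)
  have h4 := card_eq_of_le (inf_le_right : H ⊓ Q ≤ Q)
  rw [Subgroup.relIndex_sup_right] at h2
  rw [Subgroup.inf_relIndex_left] at h3
  rw [Subgroup.inf_relIndex_right] at h4
  have hc : 0 < Nat.card (H ⊓ Q : Subgroup G) := Nat.card_pos
  have ha : 0 < Q.relIndex H := by
    rcases Nat.eq_zero_or_pos (Q.relIndex H) with h0 | h0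
    · rw [h0, zero_mul] at h3
      exact absurd h3 (Nat.card_pos).ne'
    · exact h0
  have e : H.relIndex (H ⊔ Q) * (Q.relIndex H * Nat.card (H ⊓ Q : Subgroup G)) =
      H.relIndex Q * (Q.relIndex H * Nat.card (H ⊓ Q : Subgroup G)) := by
    calc H.relIndex (H ⊔ Q) * (Q.relIndex H * Nat.card (H ⊓ Q : Subgroup G))
        = H.relIndex (H ⊔ Q) * Nat.card H := by rw [h3]
      _ = Nat.card (H ⊔ Q : Subgroup G) := h1.symm
      _ = Q.relIndex H * Nat.card Q := h2
      _ = Q.relIndex H * (H.relIndex Q * Nat.card (H ⊓ Q : Subgroup G)) := by rw [← h4]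
      _ = H.relIndex Q * (Q.relIndex H * Nat.card (H ⊓ Q : Subgroup G)) := by ring
  exact Nat.eq_of_mul_eq_mul_right (Nat.mul_pos ha hc) e

theorem relIndex_dvd_index_of_normal' {G : Type*} [Group G] [Finite G] (H Q : Subgroup G) [Q.Normal] :
    H.relIndex Q ∣ H.index := by
  rw [← relIndex_sup_of_normal]
  exact Subgroup.relIndex_dvd_index_of_le le_sup_left

/-- Let `π` be a set of primes, `G` a finite group with a Hall `π`-subgroup `H` (every prime divisor of the order of `H` lies in `π` and no prime of `π` divides its index), and `A` a normal subgroup of `G`. Then `H ∩ A` is a Hall `π`-subgroup of `A` and the image of `H` in `G/A` is a Hall `π`-subgroup of `G/A`. -/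
theorem result {G : Type*} [Group G] [Finite G] (π : Set ℕ)
    (H A : Subgroup G) [A.Normal] (hH : Cfsg.IsPiHall π H) :
    Cfsg.IsPiHall π ((H ⊓ A).subgroupOf A) ∧ Cfsg.IsPiHall π (H.map (QuotientGroup.mk' A)) := by
  obtain ⟨h1, h2⟩ := hH
  refine ⟨⟨?_, ?_⟩, ⟨?_, ?_⟩⟩
  · intro p hp hdvd
    apply h1 p hp
    rw [Nat.card_congr (Subgroup.subgroupOfEquivOfLe (inf_le_right : H ⊓ A ≤ A)).toEquiv] at hdvd
    exact hdvd.trans (Subgroup.card_dvd_of_le inf_le_left)
  · intro p hp hpπ hdvd
    apply h2 p hp hpπ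
    have e : ((H ⊓ A).subgroupOf A).index = H.relIndex A := by
      rw [← Subgroup.relIndex, Subgroup.inf_relIndex_right]
    rw [e] at hdvd
    exact hdvd.trans (relIndex_dvd_index_of_normal' H A)
  · intro p hp hdvd
    exact h1 p hp (hdvd.trans (Subgroup.card_map_dvd H _))
  · intro p hp hpπ hdvd
    exact h2 p hp hpπ (hdvd.trans (Subgroup.index_map_dvd H (QuotientGroup.mk'_surjective A)))

end Cfsg.Agent.S4309
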