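import Cfsg.Statements.S4314

set_option autoImplicit false
open Cfsg

namespace Cfsg.Agent.S4314

open scoped commutatorElement

theorem eq_of_le_of_index_eq {G : Type*} [Group G] [Finite G] {H K : Subgroup G}
    (hle : H ≤ K) (hi : H.index = K.index) : H = K := by
  have h1 := Subgroup.relIndex_mul_index hle
  have hK : K.index ≠ 0 := Subgroup.index_ne_zero_of_finite
  have h2 : H.relIndex K = 1 := by
    rw [hi] at h1
    have : H.relIndex K * K.index = 1 * K.index := by rw [h1, one_mul]
    exact Nat.eq_of_mul_eq_mul_right (Nat.pos_of_ne_zero hK) this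
  exact le_antisymm hle (Subgroup.relIndex_eq_one.mp h2)

theorem case1 {G : Type*} [Group G] [Finite G]
    (h : ∀ x : G, (Subgroup.centralizer ({x} : Set G)).index = 1 ∨
      ((Subgroup.centralizer ({x} : Set G)).index).Prime)
    (hall : ∀ x : G, (Subgroup.centralizer ({x} : Set G)).Normal) :
    Subgroup.upperCentralSeries G 2 = ⊤ := by
  rw [eq_top_iff]
  intro x _
  rw [show (2 : ℕ) = 1 + 1 from rfl, Subgroup.mem_upperCentralSeries_succ_iff]
  intro y
  rw [Subgroup.upperCentralSeries_one, Subgroup.mem_center_iff]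
  intro z
  have hz : ⁅x, y⁆ ∈ Subgroup.centralizer ({z} : Set G) := by
    haveI := hall z
    rcases h z with h1 | hp
    · rw [Subgroup.index_eq_one] at h1
      rw [h1]
      trivial
    · haveI : Fact (Subgroup.centralizer ({z} : Set G)).index.Prime := ⟨hp⟩
      have hcard : Nat.card (G ⧸ Subgroup.centralizer ({z} : Set G)) =
          (Subgroup.centralizer ({z} : Set G)).index := (Subgroup.index_eq_card _).symm
      haveI : IsCyclic (G ⧸ Subgroup.centralizer ({z} : Set G)) := isCyclic_of_prime_card hcard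
      have hcomm : ∀ a b : G ⧸ Subgroup.centralizer ({z} : Set G), a * b = b * a :=
        fun a b => (IsCyclic.commGroup (α := G ⧸ Subgroup.centralizer ({z} : Set G))).mul_comm a b
      rw [← QuotientGroup.eq_one_iff, commutatorElement_def]
      have e : ((x * y * x⁻¹ * y⁻¹ : G) : G ⧸ Subgroup.centralizer ({z} : Set G)) =
          (x : G ⧸ Subgroup.centralizer ({z} : Set G)) * (y : G ⧸ Subgroup.centralizer ({z} : Set G))
            * (x : G ⧸ Subgroup.centralizer ({z} : Set G))⁻¹
            * (y : G ⧸ Subgroup.centralizer ({z} : Set G))⁻¹ := rfl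
      rw [e, hcomm (x : G ⧸ Subgroup.centralizer ({z} : Set G)) (y : G ⧸ Subgroup.centralizer ({z} : Set G))]
      group
  rw [Subgroup.mem_centralizer_singleton_iff] at hz
  exact hz.symm

theorem cycle_facts {Ω : Type*} [Finite Ω] {p : ℕ} (hp : p.Prime) (hcard : Nat.card Ω = p)
    (σ : Equiv.Perm Ω) (h1 : σ ≠ 1) (hpow : σ ^ p = 1) :
    (∀ ω : Ω, σ ω ≠ ω) ∧ (∀ ω₀ ω : Ω, ∃ i : ℕ, (σ ^ i) ω₀ = ω) := by
  classical
  haveI := Fintype.ofFinite Ω
  haveI : Fact p.Prime := ⟨hp⟩
  have ho : orderOf σ = p := orderOf_eq_prime hpow h1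
  have hc : Fintype.card Ω = p := by rw [← Nat.card_eq_fintype_card]; exact hcard
  have hcyc : σ.IsCycle :=
    Equiv.Perm.isCycle_of_prime_order'' (by rw [hc]; exact hp) (by rw [ho, hc])
  have hsupp : σ.support = Finset.univ := by
    apply Finset.eq_univ_of_card
    rw [← hcyc.orderOf, ho, hc]
  have hmove : ∀ ω : Ω, σ ω ≠ ω := by
    intro ω
    rw [← Equiv.Perm.mem_support, hsupp]
    exact Finset.mem_univ _
  exact ⟨hmove, fun ω₀ ω => hcyc.exists_pow_eq (hmove ω₀) (hmove ω)⟩

theorem mem_core_iff {G : Type*} [Group G] (M : Subgroup G) (g : G) :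
    g ∈ M.normalCore ↔ ∀ ω : G ⧸ M, g • ω = ω := by
  rw [Subgroup.normalCore_eq_ker, MonoidHom.mem_ker]
  constructor
  · intro hg ω
    have := congrArg (fun σ : Equiv.Perm (G ⧸ M) => σ ω) hg
    simpa using this
  · intro hg
    ext ω
    simpa using hg ω

theorem actB {G : Type*} [Group G] [Finite G] (M : Subgroup G) (hp : M.index.Prime) (w : G)
    (hw : w ∉ M.normalCore) (hwp : w ^ M.index ∈ M.normalCore) :
    (∀ ω : G ⧸ M, w • ω ≠ ω) ∧ (∀ ω₀ ω : G ⧸ M, ∃ i : ℕ, w ^ i • ω₀ = ω) := by
  have hcard : Nat.card (G ⧸ M) = M.index := (Subgroup.index_eq_card M).symm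
  have h1 : MulAction.toPermHom G (G ⧸ M) w ≠ 1 := by
    intro h1
    apply hw
    rw [Subgroup.normalCore_eq_ker, MonoidHom.mem_ker]
    exact h1
  have h2 : (MulAction.toPermHom G (G ⧸ M) w) ^ M.index = 1 := by
    rw [← map_pow]
    rw [Subgroup.normalCore_eq_ker, MonoidHom.mem_ker] at hwp
    exact hwp
  obtain ⟨ha, hb⟩ := cycle_facts hp hcard _ h1 h2
  refine ⟨fun ω => ha ω, fun ω₀ ω => ?_⟩
  obtain ⟨i, hi⟩ := hb ω₀ ω
  refine ⟨i, ?_⟩
  rw [← map_pow] at hi
  exact hi

theorem core_of_fix {G : Type*} [Group G] [Finite G] (M : Subgroup G) (hp : M.index.Prime) (m : G)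
    (hm : m ∈ M) (hmp : m ^ M.index ∈ M.normalCore) : m ∈ M.normalCore := by
  by_contra hmK
  apply (actB M hp m hmK hmp).1 ((1 : G) : G ⧸ M)
  rw [MulAction.Quotient.smul_mk, QuotientGroup.eq]
  simpa using hm

theorem pow_mem_of_mem_sup {G : Type*} [Group G] {K : Subgroup G} [K.Normal] {w : G} {n : ℕ}
    (hw : w ^ n ∈ K) {g : G} (hg : g ∈ Subgroup.zpowers w ⊔ K) : g ^ n ∈ K := by
  have hker : ∀ g : G, QuotientGroup.mk' K g = 1 ↔ g ∈ K := fun g => by
    rw [← MonoidHom.mem_ker, QuotientGroup.ker_mk']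
  have hle : Subgroup.zpowers w ⊔ K ≤
      (Subgroup.zpowers (QuotientGroup.mk' K w)).comap (QuotientGroup.mk' K) := by
    apply sup_le
    · rw [Subgroup.zpowers_le, Subgroup.mem_comap]
      exact Subgroup.mem_zpowers _
    · intro k hk
      rw [Subgroup.mem_comap, (hker k).mpr hk]
      exact one_mem _
  have h1 := hle hg
  rw [Subgroup.mem_comap, Subgroup.mem_zpowers_iff] at h1
  obtain ⟨m, hm⟩ := h1
  rw [← hker, map_pow, ← hm, ← zpow_natCast, ← zpow_mul, mul_comm, zpow_mul, zpow_natCast,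
    ← map_pow, (hker _).mpr hw, one_zpow]

/-- The key structural lemma. -/
theorem keyGL {G : Type*} [Group G] [Finite G]
    (h : ∀ x : G, (Subgroup.centralizer ({x} : Set G)).index = 1 ∨
      ((Subgroup.centralizer ({x} : Set G)).index).Prime)
    (M : Subgroup G) (hMn : ¬ M.Normal) (hp : M.index.Prime) (w : G)
    (hw : w ∉ M.normalCore) (hwp : w ^ M.index ∈ M.normalCore) :
    Subgroup.centralizer ({w} : Set G) = Subgroup.zpowers w ⊔ M.normalCore ∧
      (Subgroup.zpowers w ⊔ M.normalCore).index.Prime := by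
  haveI hKn : M.normalCore.Normal := Subgroup.normalCore_normal M
  obtain ⟨hB1, hB2⟩ := actB M hp w hw hwp
  have hCle : Subgroup.centralizer ({w} : Set G) ≤ Subgroup.zpowers w ⊔ M.normalCore := by
    intro u hu
    rw [Subgroup.mem_centralizer_singleton_iff] at hu
    have hcu : Commute u w := hu
    obtain ⟨i, hi⟩ := hB2 ((1 : G) : G ⧸ M) (u • ((1 : G) : G ⧸ M))
    have hv : (w ^ i)⁻¹ * u ∈ M.normalCore := by
      rw [mem_core_iff]
      intro ω
      obtain ⟨j, hj⟩ := hB2 ((1 : G) : G ⧸ M) ω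
      have hc : Commute ((w ^ i)⁻¹ * u) (w ^ j) :=
        ((Commute.pow_pow_self w i j).inv_left).mul_left (hcu.pow_right j)
      rw [← hj, ← mul_smul, hc.eq, mul_smul, mul_smul, ← hi, inv_smul_smul]
    have : u = w ^ i * ((w ^ i)⁻¹ * u) := by rw [mul_inv_cancel_left]
    rw [this]
    exact Subgroup.mul_mem_sup (pow_mem (Subgroup.mem_zpowers w) i) hv
  have hWM : (Subgroup.zpowers w ⊔ M.normalCore) ⊓ M ≤ M.normalCore := by
    intro g hg
    exact core_of_fix M hp g hg.2 (pow_mem_of_mem_sup hwp hg.1)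
  have hWtop : Subgroup.zpowers w ⊔ M.normalCore ≠ ⊤ := by
    intro htop
    apply hMn
    have : M = M.normalCore := by
      apply le_antisymm _ (Subgroup.normalCore_le M)
      rw [htop, top_inf_eq] at hWM
      exact hWM
    rw [this]
    exact hKn
  have hW1 : (Subgroup.zpowers w ⊔ M.normalCore).index ≠ 1 := by
    rw [Ne, Subgroup.index_eq_one]
    exact hWtop
  have hdvd := Subgroup.index_dvd_of_le hCle
  rcases h w with h1 | hpr
  · rw [h1, Nat.dvd_one] at hdvd
    exact absurd hdvd hW1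
  · have heq : (Subgroup.zpowers w ⊔ M.normalCore).index =
        (Subgroup.centralizer ({w} : Set G)).index := by
      rcases (Nat.dvd_prime hpr).mp hdvd with h1 | h2
      · exact absurd h1 hW1
      · exact h2
    refine ⟨eq_of_le_of_index_eq hCle heq.symm, ?_⟩
    rw [heq]
    exact hpr

theorem case2 {G : Type*} [Group G] [Finite G]
    (h : ∀ x : G, (Subgroup.centralizer ({x} : Set G)).index = 1 ∨
      ((Subgroup.centralizer ({x} : Set G)).index).Prime)
    (x : G) (hx : ¬ (Subgroup.centralizer ({x} : Set G)).Normal) :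
    ∃ p q : ℕ, p.Prime ∧ q.Prime ∧ p ≠ q ∧ Nat.card (G ⧸ Subgroup.center G) = p * q ∧
      ¬ IsMulCommutative (G ⧸ Subgroup.center G) := by
  classical
  have hMp : (Subgroup.centralizer ({x} : Set G)).index.Prime := by
    rcases h x with h1 | hp
    · exfalso
      apply hx
      rw [Subgroup.index_eq_one] at h1
      rw [h1]
      infer_instance
    · exact hp
  obtain ⟨M, hMdef⟩ : ∃ M : Subgroup G, M = Subgroup.centralizer ({x} : Set G) := ⟨_, rfl⟩
  rw [← hMdef] at hx hMp
  have hMx : ∀ g : G, g ∈ M ↔ g * x = x * g := by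
    intro g
    rw [hMdef, Subgroup.mem_centralizer_singleton_iff]
  obtain ⟨K, hKdef⟩ : ∃ K : Subgroup G, K = M.normalCore := ⟨_, rfl⟩
  haveI hKn : K.Normal := by rw [hKdef]; exact Subgroup.normalCore_normal M
  have hKM : K ≤ M := by rw [hKdef]; exact Subgroup.normalCore_le M
  haveI : Fact M.index.Prime := ⟨hMp⟩
  have hMK : ¬ M ≤ K := by
    intro hle
    apply hx
    have : M = K := le_antisymm hle hKM
    rw [this]
    exact hKn
  -- Cauchy
  have hdvd : M.index ∣ Nat.card (G ⧸ K) := by
    rw [← Subgroup.index_eq_card, ← Subgroup.relIndex_mul_index hKM]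
    exact dvd_mul_left _ _
  obtain ⟨wb, hwb⟩ := exists_prime_orderOf_dvd_card' (G := G ⧸ K) M.index hdvd
  obtain ⟨w, rfl⟩ := QuotientGroup.mk'_surjective K wb
  have hker : ∀ g : G, QuotientGroup.mk' K g = 1 ↔ g ∈ K := fun g => by
    rw [← MonoidHom.mem_ker, QuotientGroup.ker_mk']
  have hw : w ∉ K := by
    intro hwK
    rw [(hker w).mpr hwK, orderOf_one] at hwb
    exact hMp.one_lt.ne hwb
  have hwp : w ^ M.index ∈ K := by
    rw [← hker, map_pow, ← hwb, pow_orderOf_eq_one]
  obtain ⟨W, hWdef⟩ : ∃ W : Subgroup G, W = Subgroup.zpowers w ⊔ K := ⟨_, rfl⟩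
  have hKW : K ≤ W := by rw [hWdef]; exact le_sup_right
  have hwW : w ∈ W := by rw [hWdef]; exact Subgroup.mem_sup_left (Subgroup.mem_zpowers w)
  have hGL : ∀ w' : G, w' ∉ K → w' ^ M.index ∈ K →
      Subgroup.centralizer ({w'} : Set G) = Subgroup.zpowers w' ⊔ K ∧
        (Subgroup.zpowers w' ⊔ K).index.Prime := by
    intro w' h1 h2
    rw [hKdef] at h1 h2 ⊢
    exact keyGL h M hx hMp w' h1 h2
  obtain ⟨hCw, hWp⟩ := hGL w hw hwp
  rw [← hWdef] at hCw hWp
  have hL1 : ∀ m ∈ M, m ^ M.index ∈ K → m ∈ K := by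
    intro m hm hmp
    rw [hKdef] at hmp ⊢
    exact core_of_fix M hMp m hm hmp
  have hL2 : ∀ g ∈ W, g ^ M.index ∈ K := by
    intro g hg
    rw [hWdef] at hg
    exact pow_mem_of_mem_sup hwp hg
  have hwM : w ∉ M := fun hwM => hw (hL1 w hwM hwp)
  have hD : ∀ w' ∈ W, w' ∉ K → Subgroup.centralizer ({w'} : Set G) = W := by
    intro w' hw'W hw'K
    obtain ⟨h1, h2⟩ := hGL w' hw'K (hL2 w' hw'W)
    have hle : Subgroup.zpowers w' ⊔ K ≤ W := sup_le ((Subgroup.zpowers_le).mpr hw'W) hKW
    have hdv := Subgroup.index_dvd_of_le hle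
    have heq : (Subgroup.zpowers w' ⊔ K).index = W.index := by
      rcases (Nat.dvd_prime h2).mp hdv with h3 | h3
      · exact absurd h3 hWp.one_lt.ne'
      · exact h3.symm
    rw [h1]
    exact eq_of_le_of_index_eq hle heq
  have hab : ∀ k ∈ K, ∀ a ∈ W, Commute k a := by
    intro k hk a ha
    by_cases haK : a ∈ K
    · have h1 : a * w ∈ W := mul_mem ha hwW
      have h2 : a * w ∉ K := fun h2 => hw ((Subgroup.mul_mem_cancel_left K haK).mp h2)
      have h3 : k ∈ Subgroup.centralizer ({a * w} : Set G) := by rw [hD _ h1 h2]; exact hKW hk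
      have h4 : k ∈ Subgroup.centralizer ({w} : Set G) := by rw [hCw]; exact hKW hk
      rw [Subgroup.mem_centralizer_singleton_iff] at h3 h4
      have h5 : Commute k (a * w) := h3
      have h6 : Commute k w := h4
      have h7 := h5.mul_right h6.inv_right
      rwa [mul_inv_cancel_right] at h7
    · have h3 : k ∈ Subgroup.centralizer ({a} : Set G) := by rw [hD _ ha haK]; exact hKW hk
      rw [Subgroup.mem_centralizer_singleton_iff] at h3
      exact h3
  have hE : x ∉ W := by
    intro hxW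
    by_cases hxK : x ∈ K
    · apply hwM
      rw [hMx]
      exact ((hab x hxK w hwW).eq).symm
    · have := hD x hxW hxK
      rw [← hMdef] at this
      apply hwM
      rw [this]
      exact hwW
  have hF : K = Subgroup.center G := by
    apply le_antisymm
    · intro k hk
      have hle : W ≤ Subgroup.centralizer ({k} : Set G) := by
        intro a ha
        rw [Subgroup.mem_centralizer_singleton_iff]
        exact ((hab k hk a ha).eq).symm
      have hdv := Subgroup.index_dvd_of_le hle
      rcases (Nat.dvd_prime hWp).mp hdv with h3 | h3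
      · rw [Subgroup.index_eq_one] at h3
        rw [Subgroup.mem_center_iff]
        intro g
        have : g ∈ Subgroup.centralizer ({k} : Set G) := by rw [h3]; trivial
        rw [Subgroup.mem_centralizer_singleton_iff] at this
        exact this
      · exfalso
        have := eq_of_le_of_index_eq hle h3.symm
        apply hE
        rw [this, Subgroup.mem_centralizer_singleton_iff]
        exact ((hMx k).mp (hKM hk)).symm
    · rw [hKdef, Subgroup.normal_le_normalCore, hMdef]
      exact Subgroup.center_le_centralizer _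
  have hrel : K.relIndex W = M.index := by
    have h1 := Subgroup.relIndex_ker W (QuotientGroup.mk' K)
    rw [QuotientGroup.ker_mk'] at h1
    rw [h1]
    have h2 : W.map (QuotientGroup.mk' K) = Subgroup.zpowers (QuotientGroup.mk' K w) := by
      rw [hWdef, Subgroup.map_sup, MonoidHom.map_zpowers,
        (Subgroup.map_eq_bot_iff _).mpr (by rw [QuotientGroup.ker_mk']), sup_bot_eq]
    rw [h2, Nat.card_zpowers]
    exact hwb
  have hidx : K.index = M.index * W.index := by
    rw [← Subgroup.relIndex_mul_index hKW, hrel]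
  have hrelM : K.relIndex M = W.index := by
    have h1 := Subgroup.relIndex_mul_index hKM
    rw [hidx, mul_comm] at h1
    exact Nat.eq_of_mul_eq_mul_left hMp.pos h1
  have hne : M.index ≠ W.index := by
    intro heq
    apply hMK
    intro m hm
    apply hL1 m hm
    have := Subgroup.pow_relIndex_mem K hm
    rw [hrelM, ← heq] at this
    exact this
  refine ⟨M.index, W.index, hMp, hWp, hne, ?_, ?_⟩
  · rw [← hF, ← Subgroup.index_eq_card, hidx]
  · intro hc
    apply hx
    constructor
    intro m hm g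
    have h1 := hc.is_comm.comm ((g⁻¹ : G) : G ⧸ Subgroup.center G) ((m : G) : G ⧸ Subgroup.center G)
    have h2 : (((g⁻¹ * m : G)) : G ⧸ Subgroup.center G) = ((m * g⁻¹ : G) : G ⧸ Subgroup.center G) := h1
    rw [QuotientGroup.eq, ← hF] at h2
    have h3 := mul_mem hm (hKM h2)
    have h4 : m * ((g⁻¹ * m)⁻¹ * (m * g⁻¹)) = g * m * g⁻¹ := by group
    rw [h4] at h3
    exact h3

theorem result {G : Type*} [Group G] [Finite G]
    (h : ∀ x : G, (Subgroup.centralizer ({x} : Set G)).index = 1 ∨ ((Subgroup.centralizer ({x} : Set G)).index).Prime) :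
    Subgroup.upperCentralSeries G 2 = ⊤ ∨
      ∃ p q : ℕ, p.Prime ∧ q.Prime ∧ p ≠ q ∧ Nat.card (G ⧸ Subgroup.center G) = p * q ∧ ¬ IsMulCommutative (G ⧸ Subgroup.center G) := by
  classical
  by_cases hall : ∀ x : G, (Subgroup.centralizer ({x} : Set G)).Normal
  · left
    exact case1 h hall
  · right
    push Not at hall
    obtain ⟨x, hx⟩ := hall
    exact case2 h x hx

end Cfsg.Agent.S4314
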