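import Cfsg.Statements.S4320
import Cfsg.Agent.Lib.helper5.PITb

set_option autoImplicit false
open Cfsg

namespace Cfsg.Agent.S4320

open Cfsg.Agent.Lib.helper5

/-- The Principal Ideal Theorem of class field theory in its group-theoretic form: for every finite group `G`, the transfer homomorphism from `G` into the abelianization `G'/G''` of its derived subgroup `G'` is the trivial homomorphism. -/
theorem result {G : Type*} [Group G] [Finite G] :
    MonoidHom.transfer (Abelianization.of : ↥(commutator G) →* Abelianization ↥(commutator G)) =
      (1 : G →* Abelianization ↥(commutator G)) := by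
  classical
  ext g
  rw [MonoidHom.one_apply]
  let T : (commutator G).LeftTransversal := default
  let t : Abelianization G → G := fun q => (T.2.leftQuotientEquiv q : G)
  have ht : ∀ q : Abelianization G, Abelianization.of (t q) = q :=
    fun q => T.2.quotientGroupMk_leftQuotientEquiv q
  have hmem : ∀ (g : G) (x : Abelianization G),
      (t (Abelianization.of g * x))⁻¹ * g * t x ∈ commutator G := by
    intro g x
    rw [← Abelianization.ker_of, MonoidHom.mem_ker, map_mul, map_mul, map_inv, ht, ht]
    rw [mul_assoc, inv_mul_cancel]
  let cH : G → Abelianization G → ↥(commutator G) := fun g x =>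
    ⟨(t (Abelianization.of g * x))⁻¹ * g * t x, hmem g x⟩
  let F : G → Abelianization G → Additive (Abelianization ↥(commutator G)) := fun g x =>
    Additive.ofMul (Abelianization.of (cH g x))
  have hF : ∀ g h x, F (g * h) x = F g (Abelianization.of h * x) + F h x := by
    intro g h x
    show Additive.ofMul (Abelianization.of (cH (g * h) x)) =
      Additive.ofMul (Abelianization.of (cH g (Abelianization.of h * x)))
        + Additive.ofMul (Abelianization.of (cH h x))
    rw [← ofMul_mul, ← map_mul]
    congr 2
    apply Subtype.ext
    show (t (Abelianization.of (g * h) * x))⁻¹ * (g * h) * t x =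
      ((t (Abelianization.of g * (Abelianization.of h * x)))⁻¹ * g
          * t (Abelianization.of h * x)) *
        ((t (Abelianization.of h * x))⁻¹ * h * t x)
    rw [map_mul, mul_assoc (Abelianization.of g)]
    group
  have key := @pit_core G _ _ (Additive (Abelianization ↥(commutator G))) _
    ((commutator G).fintypeQuotientOfFiniteIndex) F hF g
  have key2 : @Finset.prod (Abelianization G) _ _
      (@Finset.univ _ ((commutator G).fintypeQuotientOfFiniteIndex))
      (fun x => (Abelianization.of (cH g x) : Abelianization ↥(commutator G))) = 1 := by
    have h1 := congrArg Additive.toMul key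
    rw [toMul_sum] at h1
    exact h1
  have e1 : ∀ x : Abelianization G,
      ((g • T).2.leftQuotientEquiv (Abelianization.of g * x) : G) = g * t x := by
    intro x
    have e2 : (g⁻¹ • (show G ⧸ commutator G from Abelianization.of g * x) : G ⧸ commutator G)
        = (show G ⧸ commutator G from x) := by
      induction x using QuotientGroup.induction_on with
      | H y =>
        show ((g⁻¹ * (g * y) : G) : G ⧸ commutator G) = (y : G ⧸ commutator G)
        rw [inv_mul_cancel_left]
    have h := Subgroup.smul_apply_eq_smul_apply_inv_smul g T (Abelianization.of g * x)
    exact h.trans (congrArg (fun q => g * (T.2.leftQuotientEquiv q : G)) e2)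
  rw [MonoidHom.transfer_def _ T g]
  unfold Subgroup.leftTransversals.diff
  rw [← key2]
  symm
  let _ : Fintype (Abelianization G) := (commutator G).fintypeQuotientOfFiniteIndex
  refine Fintype.prod_equiv (Equiv.mulLeft (Abelianization.of g)) _ _ ?_
  intro x
  congr 1
  apply Subtype.ext
  show (t (Abelianization.of g * x))⁻¹ * g * t x =
    (t (Abelianization.of g * x))⁻¹ * ((g • T).2.leftQuotientEquiv (Abelianization.of g * x) : G)
  rw [mul_assoc]
  exact congrArg (fun z => (t (Abelianization.of g * x))⁻¹ * z) (e1 x).symm

end Cfsg.Agent.S4320
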