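import Cfsg.Statements.S4421
-- import your own Cfsg.Agent.* helpers here

set_option autoImplicit false
open Cfsg

namespace Cfsg.Agent.S4421

theorem mem_map_conj {G : Type*} [Group G] (B : Subgroup G) (g x : G) :
    x ∈ B.map (MulAut.conj g).toMonoidHom ↔ g⁻¹ * x * g ∈ B := by
  rw [Subgroup.mem_map]
  constructor
  · rintro ⟨b, hb, rfl⟩
    have : g⁻¹ * ((MulAut.conj g).toMonoidHom b) * g = b := by
      simp [MulAut.conj_apply]
      group
    rw [this]
    exact hb
  · intro h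
    refine ⟨g⁻¹ * x * g, h, ?_⟩
    simp [MulAut.conj_apply, mul_assoc]

theorem mem_normalizer_of_map_eq {G : Type*} [Group G] (B : Subgroup G) (g y : G)
    (h : B.map (MulAut.conj g).toMonoidHom = B.map (MulAut.conj y).toMonoidHom) :
    y⁻¹ * g ∈ Subgroup.normalizer (B : Set G) := by
  rw [Subgroup.mem_normalizer_iff]
  intro b
  have e1 : b ∈ B ↔ g * b * g⁻¹ ∈ B.map (MulAut.conj g).toMonoidHom := by
    rw [mem_map_conj]
    have : g⁻¹ * (g * b * g⁻¹) * g = b := by group
    rw [this]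
  have e2 : g * b * g⁻¹ ∈ B.map (MulAut.conj y).toMonoidHom ↔
      y⁻¹ * g * b * (y⁻¹ * g)⁻¹ ∈ B := by
    rw [mem_map_conj]
    have : y⁻¹ * (g * b * g⁻¹) * y = y⁻¹ * g * b * (y⁻¹ * g)⁻¹ := by group
    rw [this]
  rw [e1, h, e2]

theorem map_conj_eq_of_mem_normalizer {G : Type*} [Group G] (B : Subgroup G) (g : G)
    (h : g ∈ Subgroup.normalizer (B : Set G)) (x : G) :
    x ∈ B.map (MulAut.conj g).toMonoidHom ↔ x ∈ B := by
  rw [mem_map_conj]
  have h' := (Subgroup.mem_normalizer_iff.mp h) (g⁻¹ * x * g)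
  have : g * (g⁻¹ * x * g) * g⁻¹ = x := by group
  rw [this] at h'
  exact h'


/-- A factorization of a normalizer from two-step control of fusion. Let `G` be a finite group and `A ≤ S ≤ H` subgroups of `G` such that: (i) `S` controls the `G`-fusion of `A` in the sense that every `G`-conjugate of `A` lying in `S` is an `S`-conjugate of `A`; (ii) `H` controls the `G`-fusion of `S` in the same sense; (iii) every conjugate of `S` by an element of the normalizer of `A` lies in `H`. Then `N_G(A) = N_H(A) · (N_G(S) ∩ N_G(A))`: every element of the normalizer of `A` is a product of an element of `H` normalizing `A` and an element normalizing both `S` and `A`. -/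
theorem result {G : Type*} [Group G] [Finite G] (A S H : Subgroup G)
    (hAS : A ≤ S) (hSH : S ≤ H)
    (h1 : ∀ g : G, A.map (MulAut.conj g).toMonoidHom ≤ S → ∃ s ∈ S, A.map (MulAut.conj g).toMonoidHom = A.map (MulAut.conj s).toMonoidHom)
    (h2 : ∀ g : G, S.map (MulAut.conj g).toMonoidHom ≤ H → ∃ y ∈ H, S.map (MulAut.conj g).toMonoidHom = S.map (MulAut.conj y).toMonoidHom)
    (h3 : ∀ x ∈ Subgroup.normalizer (A : Set G), S.map (MulAut.conj x).toMonoidHom ≤ H) :
    ∀ x ∈ Subgroup.normalizer (A : Set G), ∃ y ∈ H ⊓ Subgroup.normalizer (A : Set G),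
      ∃ z ∈ Subgroup.normalizer (S : Set G) ⊓ Subgroup.normalizer (A : Set G), x = y * z := by
  intro x hx
  obtain ⟨y, hyH, hy⟩ := h2 x (h3 x hx)
  have hn : y⁻¹ * x ∈ Subgroup.normalizer (S : Set G) := mem_normalizer_of_map_eq S x y hy
  have hAn : A.map (MulAut.conj (y⁻¹ * x)).toMonoidHom ≤ S := by
    intro b hb
    rw [← map_conj_eq_of_mem_normalizer S _ hn]
    exact Subgroup.map_mono hAS hb
  obtain ⟨s, hsS, hs⟩ := h1 (y⁻¹ * x) hAn
  have hzA : s⁻¹ * (y⁻¹ * x) ∈ Subgroup.normalizer (A : Set G) :=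
    mem_normalizer_of_map_eq A _ s hs
  have hsN : s ∈ Subgroup.normalizer (S : Set G) := Subgroup.le_normalizer hsS
  have hzS : s⁻¹ * (y⁻¹ * x) ∈ Subgroup.normalizer (S : Set G) :=
    Subgroup.mul_mem _ (Subgroup.inv_mem _ hsN) hn
  refine ⟨y * s, ⟨H.mul_mem hyH (hSH hsS), ?_⟩, s⁻¹ * (y⁻¹ * x), ⟨hzS, hzA⟩, by group⟩
  have e : y * s = x * (s⁻¹ * (y⁻¹ * x))⁻¹ := by group
  rw [e]
  exact Subgroup.mul_mem _ hx (Subgroup.inv_mem _ hzA)

end Cfsg.Agent.S4421
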