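import Cfsg.Statements.S4422
-- import your own Cfsg.Agent.* helpers here

set_option autoImplicit false
open Cfsg

namespace Cfsg.Agent.S4422

theorem prime_case (q e p : ℕ) (hq : 2 ≤ q) (he : 1 ≤ e) (hp : p.Prime) (hpd : p ∣ q ^ e - 1)
    (hcop : ∀ i : ℕ, 1 ≤ i → i < e → ¬ p ∣ q ^ i - 1) : p % e = 1 % e := by
  have : Fact p.Prime := Fact.mk hp
  have h1 : ∀ i, p ∣ q ^ i - 1 ↔ (q : ZMod p) ^ i = 1 := by
    intro i
    have hpos : 1 ≤ q ^ i := Nat.one_le_pow _ _ (by omega)
    rw [← ZMod.natCast_eq_zero_iff, Nat.cast_sub hpos, Nat.cast_pow, Nat.cast_one, sub_eq_zero]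
  have hqe : (q : ZMod p) ^ e = 1 := (h1 e).mp hpd
  have hq0 : (q : ZMod p) ≠ 0 := by
    intro h0
    rw [h0, zero_pow (by omega)] at hqe
    exact zero_ne_one hqe
  have hd : orderOf (q : ZMod p) ∣ e := orderOf_dvd_of_pow_eq_one hqe
  have hdpos : 0 < orderOf (q : ZMod p) :=
    orderOf_pos_iff.mpr (isOfFinOrder_iff_pow_eq_one.mpr ⟨e, he, hqe⟩)
  have hde : orderOf (q : ZMod p) = e := by
    by_contra hne
    have hlt : orderOf (q : ZMod p) < e := lt_of_le_of_ne (Nat.le_of_dvd he hd) hne
    exact hcop _ hdpos hlt ((h1 _).mpr (pow_orderOf_eq_one _))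
  have hdiv : e ∣ p - 1 := by
    rw [← hde]
    exact orderOf_dvd_of_pow_eq_one (ZMod.pow_card_sub_one_eq_one hq0)
  obtain ⟨k, hk⟩ := hdiv
  have h2 : p = 1 + e * k := by
    have := hp.one_lt
    omega
  rw [h2, Nat.add_mul_mod_self_left]


/-- Primitive divisors of `q^e - 1` are congruent to 1 modulo `e`. Let `q ≥ 2` and `e ≥ 1` be natural numbers and let `m` be a divisor of `q^e - 1` that is coprime to `q^i - 1` for every `1 ≤ i < e` (so `m` divides the primitive part of `q^e - 1`, the largest such divisor). Then `m ≡ 1 (mod e)`. -/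
theorem result (q e m : ℕ) (hq : 2 ≤ q) (he : 1 ≤ e)
    (hm : m ∣ q ^ e - 1) (hcop : ∀ i : ℕ, 1 ≤ i → i < e → Nat.Coprime m (q ^ i - 1)) :
    m % e = 1 % e := by
  have hqe : 2 ≤ q ^ e := by
    calc 2 ≤ q := hq
      _ = q ^ 1 := (pow_one q).symm
      _ ≤ q ^ e := Nat.pow_le_pow_right (by omega) he
  have hm0 : m ≠ 0 := by
    rintro rfl
    have := Nat.eq_zero_of_zero_dvd hm
    omega
  have key : ∀ d, d ∣ m → d % e = 1 % e := by
    intro d
    induction d using Nat.strong_induction_on with
    | _ d ih =>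
      intro hd
      rcases Nat.lt_or_ge d 2 with h | h
      · have hd0 : d ≠ 0 := by
          rintro rfl
          exact hm0 (Nat.eq_zero_of_zero_dvd hd)
        have hd1 : d = 1 := by omega
        rw [hd1]
      · have hp := Nat.minFac_prime (by omega : d ≠ 1)
        obtain ⟨d', hd'⟩ := Nat.minFac_dvd d
        have hd'pos : 0 < d' := by
          rcases Nat.eq_zero_or_pos d' with h0 | h0
          · rw [h0, mul_zero] at hd'
            omega
          · exact h0
        have hd'lt : d' < d := by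
          have h2 := hp.two_le
          nlinarith
        have hpm : Nat.minFac d ∣ m := (Nat.minFac_dvd d).trans hd
        have h1 := prime_case q e (Nat.minFac d) hq he hp (hpm.trans hm)
          (fun i hi hie hdv => by
            have hc := hcop i hi hie
            have := Nat.dvd_gcd hpm hdv
            rw [hc] at this
            exact hp.one_lt.ne' (Nat.dvd_one.mp this))
        have h2 := ih d' hd'lt (Dvd.dvd.trans ⟨Nat.minFac d, hd'.trans (mul_comm _ _)⟩ hd)
        have h3 : d % e = (Nat.minFac d * d') % e := congrArg (· % e) hd'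
        rw [h3, Nat.mul_mod, h1, h2, ← Nat.mul_mod, mul_one]
  exact key m dvd_rfl

end Cfsg.Agent.S4422
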