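import Cfsg.Statements.S4433
import Cfsg.Agent.Lib.helper22.QuotDefect

set_option autoImplicit false
open Cfsg

namespace Cfsg.Agent.S4433

open Cfsg.Agent.Lib.helper5 Cfsg.Agent.Lib.helper23 Cfsg.Agent.Lib.helper24 Cfsg.Agent.Lib.helper22

theorem result {G : Type*} [Group G] [Finite G] (p : ℕ) [Fact p.Prime] (M : Ideal Cfsg.AlgInt) (hM : Cfsg.IsPModular p M) (N : Subgroup G) [N.Normal] (Bbar : Set (Cfsg.IrrCharacter (G ⧸ N))) (hBbar : Cfsg.IsPBlock M Bbar) (B : Set (Cfsg.IrrCharacter G)) (hB : Cfsg.IsPBlock M B) (hsub : ∀ χ ∈ Bbar, ∀ ψ : Cfsg.IrrCharacter G, (ψ : G → ℂ) = (χ : G ⧸ N → ℂ) ∘ QuotientGroup.mk → ψ ∈ B) (Dbar : Subgroup (G ⧸ N)) (hDbar : Cfsg.IsDefectGroup p M Bbar Dbar) : ∃ P : Subgroup G, Cfsg.IsDefectGroup p M B P ∧ Dbar ≤ P.map (QuotientGroup.mk' N) := by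
  classical
  have : Fintype G := Fintype.ofFinite G
  have : Fintype (G ⧸ N) := Fintype.ofFinite _
  have : Fintype (Cfsg.IrrCharacter G) := Fintype.ofFinite _
  have : Fintype (Cfsg.IrrCharacter (G ⧸ N)) := Fintype.ofFinite _
  have hMp := isPModular_isPrime hM
  have hp : p.Prime := hM.1
  obtain ⟨χb, rfl⟩ := hBbar
  let χ₀ : Cfsg.IrrCharacter G := ⟨χb.1 ∘ (QuotientGroup.mk : G → G ⧸ N),
    isIrrCharacter_comp_surjective (QuotientGroup.mk' N) (QuotientGroup.mk'_surjective N) χb.2⟩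
  have hχ₀B : χ₀ ∈ B := hsub χb (mem_blockOf_self hMp.ne_top χb) χ₀ rfl
  obtain ⟨χ₁, rfl⟩ := hB
  have hBeq : Cfsg.blockOf M χ₀.1 = Cfsg.blockOf M χ₁.1 := blockOf_eq_of_mem hMp hχ₀B
  rw [← hBeq]
  obtain ⟨x, hx⟩ := exists_defectClass hMp χ₀
  have hx1 : ¬ Cfsg.MemLocalIdeal M (Cfsg.centralChar χ₀.1 x) :=
    hx.2.2 χ₀ (mem_blockOf_self hMp.ne_top χ₀)
  have hfac := centralChar_comp_mk_relIndex N x χb.1
  have hfac' : Cfsg.centralChar χ₀.1 x = _ := hfac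
  rw [hfac'] at hx1
  have hr : ¬ p ∣ (Subgroup.centralizer ({x} : Set G)).relIndex
          ((Subgroup.centralizer ({(x : G ⧸ N)} : Set (G ⧸ N))).comap (QuotientGroup.mk' N)) := by
    intro hdvd
    apply hx1
    apply memLocalIdeal_mul_right hMp ((memLocalIdeal_natCast_iff hM _).mpr hdvd)
    exact memLocalRing_centralChar hMp χb _
  have hu : ¬ Cfsg.MemLocalIdeal M (Cfsg.centralChar χb.1 (x : G ⧸ N)) := by
    intro h
    apply hx1
    exact memLocalIdeal_mul_left hMp (memLocalRing_natCast hMp.ne_top _) h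
  obtain ⟨g₀, hg₀, P₀, rfl⟩ := hDbar
  obtain ⟨Px⟩ : Nonempty (Sylow p (Subgroup.centralizer ({x} : Set G))) := inferInstance
  obtain ⟨Du, hDu⟩ := exists_sylow_image N x hr Px
  obtain ⟨y, hy⟩ := key_conj hM χb (x : G ⧸ N) g₀ hu hg₀.2.1 Du _ (sylow_map_isPGroup _ P₀)
    (sylow_map_le _ P₀)
  rw [hDu] at hy
  obtain ⟨y', rfl⟩ := QuotientGroup.mk_surjective y
  have hdef : Cfsg.IsDefectGroup p M (Cfsg.blockOf M χ₀.1)
      ((Px : Subgroup (Subgroup.centralizer ({x} : Set G))).map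
        (Subgroup.centralizer ({x} : Set G)).subtype) := ⟨x, hx, Px, rfl⟩
  refine ⟨_, isDefectGroup_conj hdef y'⁻¹, ?_⟩
  intro d hd
  have h1 := hy (Subgroup.mem_map_of_mem (MulAut.conj (y' : G ⧸ N)).toMonoidHom hd)
  obtain ⟨a, ha, hae⟩ := Subgroup.mem_map.mp h1
  refine Subgroup.mem_map.mpr ⟨y'⁻¹ * a * y', ?_, ?_⟩
  · refine Subgroup.mem_map.mpr ⟨a, ha, ?_⟩
    simp [MulAut.conj_apply]
  · have h2 : (QuotientGroup.mk' N) a = (y' : G ⧸ N) * d * (y' : G ⧸ N)⁻¹ := by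
      rw [hae]
      simp [MulAut.conj_apply]
    show ((y'⁻¹ * a * y' : G) : G ⧸ N) = d
    rw [QuotientGroup.mk_mul, QuotientGroup.mk_mul]
    have h3 : ((a : G) : G ⧸ N) = (y' : G ⧸ N) * d * (y' : G ⧸ N)⁻¹ := h2
    rw [h3, QuotientGroup.mk_inv]
    group

end Cfsg.Agent.S4433
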