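import Cfsg.Statements.S4475
import Cfsg.Agent.Lib.helper24.CharFS

set_option autoImplicit false
open Cfsg

namespace Cfsg.Agent.S4475

open Cfsg.Agent.Lib.helper24

theorem fs_eigen {G : Type*} [Group G] [Fintype G] {W : Type*} [AddCommGroup W] [Module ℂ W]
    [FiniteDimensional ℂ W] (σ : Representation ℂ G W) (T : W →ₗ[ℂ] W)
    (hT : ∀ g : G, T ∘ₗ σ g = σ g ∘ₗ T)
    (h1 : Module.finrank ℂ σ.invariants = 1) :
    ∀ w ∈ σ.invariants, T w = (LinearMap.trace ℂ W (T ∘ₗ avgOp σ)) • w := by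
  obtain ⟨⟨v, hv⟩, hv0, hspan⟩ := finrank_eq_one_iff'.mp h1
  have hTv : T v ∈ σ.invariants := by
    intro g
    have := congrArg (fun F : W →ₗ[ℂ] W => F v) (hT g)
    simp only [LinearMap.comp_apply] at this
    rw [← this, hv g]
  obtain ⟨c, hc⟩ := hspan ⟨T v, hTv⟩
  have hc' : c • v = T v := congrArg Subtype.val hc
  have hTP : T ∘ₗ avgOp σ = c • avgOp σ := by
    ext w
    obtain ⟨d, hd⟩ := hspan ⟨avgOp σ w, avgOp_mem_invariants σ w⟩
    have hd' : d • v = avgOp σ w := congrArg Subtype.val hd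
    simp only [LinearMap.comp_apply, LinearMap.smul_apply]
    rw [← hd', map_smul, ← hc', smul_smul, smul_smul, mul_comm]
  rw [hTP, map_smul, trace_avgOp, h1]
  simp only [Nat.cast_one, smul_eq_mul, mul_one]
  intro w hw
  obtain ⟨d, hd⟩ := hspan ⟨w, hw⟩
  have hd' : d • v = w := congrArg Subtype.val hd
  rw [← hd', map_smul, ← hc', smul_smul, smul_smul, mul_comm]

theorem mem_inv_iff {G : Type*} [Group G] {n : ℕ} (ρ : Representation ℂ G (Fin n → ℂ))
    (M : Matrix (Fin n) (Fin n) ℂ) :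
    M ∈ (bilRep ρ).invariants ↔
      ∀ g : G, (LinearMap.toMatrix' (ρ g)).transpose * M * LinearMap.toMatrix' (ρ g) = M := by
  constructor
  · intro h g
    have := h g⁻¹
    rw [bilRep_apply, inv_inv] at this
    exact this
  · intro h g
    rw [bilRep_apply]
    exact h g⁻¹

theorem result {G : Type*} [Group G] [Fintype G] (n : ℕ) (ρ : Representation ℂ G (Fin n → ℂ)) (hirr : ρ.IsIrreducible) (hreal : ∀ g : G, (ρ.character g).im = 0) : (∃ M : Matrix (Fin n) (Fin n) ℂ, M ≠ 0 ∧ ∀ g : G, (LinearMap.toMatrix' (ρ g)).transpose * M * LinearMap.toMatrix' (ρ g) = M) ∧ ∀ M : Matrix (Fin n) (Fin n) ℂ, (∀ g : G, (LinearMap.toMatrix' (ρ g)).transpose * M * LinearMap.toMatrix' (ρ g) = M) → M.transpose = ((Nat.card G : ℂ)⁻¹ * ∑ s : G, ρ.character (s * s)) • M := by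
  classical
  let χ : IrrCharacter G := ⟨ρ.character, ⟨n, ρ, hirr, rfl⟩⟩
  have hconj : irrConj χ = χ := (irrConj_eq_iff χ).mpr hreal
  have hfin := fs_finrank χ ρ rfl
  rw [if_pos hconj.symm] at hfin
  have h1 : Module.finrank ℂ (bilRep ρ).invariants = 1 := by exact_mod_cast hfin
  constructor
  · obtain ⟨⟨v, hv⟩, hv0, -⟩ := finrank_eq_one_iff'.mp h1
    refine ⟨v, fun h => hv0 (Subtype.ext h), (mem_inv_iff ρ v).mp hv⟩
  · intro M hM
    have hind := fs_indicator_eq_trace χ ρ rfl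
    have := fs_eigen (bilRep ρ) (transposeL n) (transposeL_comp_bilRep ρ) h1 M
      ((mem_inv_iff ρ M).mpr hM)
    rw [transposeL_apply, ← hind] at this
    exact this

end Cfsg.Agent.S4475
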