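import Cfsg.Statements.S4474
import Cfsg.Agent.S4475
import Cfsg.Agent.Lib.helper23.CharInt

set_option autoImplicit false
open Cfsg

namespace Cfsg.Agent.S4474

open Cfsg.Agent.Lib.helper24
open scoped Matrix

noncomputable def cplx {G : Type*} [Group G] {n : ℕ} (ρ : Representation ℝ G (Fin n → ℝ)) :
    Representation ℂ G (Fin n → ℂ) where
  toFun g := Matrix.toLin' ((LinearMap.toMatrix' (ρ g)).map Complex.ofRealHom)
  map_one' := by
    simp
    rfl
  map_mul' g h := by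
    rw [map_mul, LinearMap.toMatrix'_mul, Matrix.map_mul, Matrix.toLin'_mul]
    rfl

theorem cplx_toMatrix {G : Type*} [Group G] {n : ℕ} (ρ : Representation ℝ G (Fin n → ℝ)) (g : G) :
    LinearMap.toMatrix' (cplx ρ g) = (LinearMap.toMatrix' (ρ g)).map Complex.ofRealHom := by
  show LinearMap.toMatrix' (Matrix.toLin' ((LinearMap.toMatrix' (ρ g)).map Complex.ofRealHom)) = _
  rw [LinearMap.toMatrix'_toLin']

theorem cplx_character {G : Type*} [Group G] {n : ℕ} (ρ : Representation ℝ G (Fin n → ℝ)) (g : G) :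
    (cplx ρ).character g = ((LinearMap.trace ℝ (Fin n → ℝ) (ρ g) : ℝ) : ℂ) := by
  unfold Representation.character
  rw [← trace_toMatrix', cplx_toMatrix, LinearMap.trace_eq_matrix_trace ℝ (Pi.basisFun ℝ (Fin n)),
    LinearMap.toMatrix_eq_toMatrix']
  simp [Matrix.trace]

theorem real_imp {G : Type*} [Group G] [Fintype G] (χ : IrrCharacter G) (n : ℕ)
    (ρ : Representation ℝ G (Fin n → ℝ))
    (hρ : ∀ g : G, ((LinearMap.trace ℝ (Fin n → ℝ) (ρ g) : ℝ) : ℂ) = (χ : G → ℂ) g) :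
    ((Nat.card G : ℂ)⁻¹ * ∑ s : G, (χ : G → ℂ) (s * s)) = 1 := by
  classical
  have hchar : (cplx ρ).character = χ.1 := by
    funext g
    rw [cplx_character, hρ]
  have hreal : ∀ g : G, (χ.1 g).im = 0 := by
    intro g
    rw [← hρ g]
    exact Complex.ofReal_im _
  have hconj : irrConj χ = χ := (irrConj_eq_iff χ).mpr hreal
  have hfin := fs_finrank χ (cplx ρ) hchar
  rw [if_pos hconj.symm] at hfin
  have h1 : Module.finrank ℂ (bilRep (cplx ρ)).invariants = 1 := by exact_mod_cast hfin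
  have hn : n ≠ 0 := by
    intro h0
    subst h0
    have h2 := hρ 1
    have h3 : χ.1 1 = 0 := by
      rw [← h2]
      simp
    exact irr_one_ne_zero χ h3
  let MR : Matrix (Fin n) (Fin n) ℝ :=
    ∑ g : G, (LinearMap.toMatrix' (ρ g))ᵀ * LinearMap.toMatrix' (ρ g)
  let M : Matrix (Fin n) (Fin n) ℂ := MR.map Complex.ofRealHom
  have hMeq : M = ∑ g : G, (LinearMap.toMatrix' (cplx ρ g))ᵀ * LinearMap.toMatrix' (cplx ρ g) := by
    show MR.map Complex.ofRealHom = _
    have : MR.map Complex.ofRealHom = Complex.ofRealHom.mapMatrix MR := rfl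
    rw [this, map_sum]
    apply Finset.sum_congr rfl
    intro g _
    rw [cplx_toMatrix, map_mul]
    rfl
  have hinv : ∀ h : G, (LinearMap.toMatrix' (cplx ρ h))ᵀ * M * LinearMap.toMatrix' (cplx ρ h) = M := by
    intro h
    rw [hMeq, Finset.mul_sum, Finset.sum_mul]
    symm
    rw [← Equiv.sum_comp (Equiv.mulRight h)]
    apply Finset.sum_congr rfl
    intro g _
    simp only [Equiv.coe_mulRight, map_mul, LinearMap.toMatrix'_mul, Matrix.transpose_mul,
      Matrix.mul_assoc]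
  have hsymm : Mᵀ = M := by
    rw [hMeq, Matrix.transpose_sum]
    apply Finset.sum_congr rfl
    intro g _
    rw [Matrix.transpose_mul, Matrix.transpose_transpose]
  have hM0 : M ≠ 0 := by
    intro h0
    have i : Fin n := ⟨0, Nat.pos_of_ne_zero hn⟩
    have h2 : MR i i = 0 := by
      have h3 := congrFun (congrFun h0 i) i
      have h4 : M i i = ((MR i i : ℝ) : ℂ) := rfl
      rw [h4, Matrix.zero_apply] at h3
      exact_mod_cast h3
    have h5 : (1 : ℝ) ≤ MR i i := by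
      show (1 : ℝ) ≤ (∑ g : G, (LinearMap.toMatrix' (ρ g))ᵀ * LinearMap.toMatrix' (ρ g)) i i
      rw [Matrix.sum_apply]
      have hnn : ∀ g : G, 0 ≤ ((LinearMap.toMatrix' (ρ g))ᵀ * LinearMap.toMatrix' (ρ g)) i i := by
        intro g
        rw [Matrix.mul_apply]
        apply Finset.sum_nonneg
        intro k _
        rw [Matrix.transpose_apply]
        exact mul_self_nonneg _
      have h6 := Finset.single_le_sum (f := fun g : G =>
        ((LinearMap.toMatrix' (ρ g))ᵀ * LinearMap.toMatrix' (ρ g)) i i) (fun g _ => hnn g)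
        (Finset.mem_univ (1 : G))
      have h7 : ((LinearMap.toMatrix' (ρ 1))ᵀ * LinearMap.toMatrix' (ρ 1)) i i = 1 := by
        simp
      rw [h7] at h6
      exact h6
    linarith
  have hmem : M ∈ (bilRep (cplx ρ)).invariants := (Cfsg.Agent.S4475.mem_inv_iff (cplx ρ) M).mpr hinv
  have hind := fs_indicator_eq_trace χ (cplx ρ) hchar
  have h := Cfsg.Agent.S4475.fs_eigen (bilRep (cplx ρ)) (transposeL n) (transposeL_comp_bilRep (cplx ρ))
    h1 M hmem
  rw [transposeL_apply, ← hind, hsymm] at h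
  by_contra hne
  apply hM0
  have h8 : (1 - ((Nat.card G : ℂ)⁻¹ * ∑ s : G, χ.1 (s * s))) • M = 0 := by
    rw [sub_smul, one_smul, ← h, sub_self]
  rcases smul_eq_zero.mp h8 with h9 | h9
  · exact absurd (sub_eq_zero.mp h9).symm hne
  · exact h9

noncomputable def cj {n : ℕ} (M : Matrix (Fin n) (Fin n) ℂ) : Matrix (Fin n) (Fin n) ℂ :=
  M.map (starRingEnd ℂ)

theorem cj_apply {n : ℕ} (M : Matrix (Fin n) (Fin n) ℂ) (i j : Fin n) :
    cj M i j = (starRingEnd ℂ) (M i j) := rfl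

theorem cj_mul {n : ℕ} (M N : Matrix (Fin n) (Fin n) ℂ) : cj (M * N) = cj M * cj N :=
  Matrix.map_mul

theorem cj_cj {n : ℕ} (M : Matrix (Fin n) (Fin n) ℂ) : cj (cj M) = M := by
  ext i j
  simp [cj_apply]

theorem cj_one {n : ℕ} : cj (1 : Matrix (Fin n) (Fin n) ℂ) = 1 := by
  ext i j
  simp [cj_apply, Matrix.one_apply, apply_ite]

theorem cj_smul {n : ℕ} (c : ℂ) (M : Matrix (Fin n) (Fin n) ℂ) :
    cj (c • M) = (starRingEnd ℂ) c • cj M := by
  ext i j
  simp [cj_apply]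

theorem cj_add {n : ℕ} (M N : Matrix (Fin n) (Fin n) ℂ) : cj (M + N) = cj M + cj N := by
  ext i j
  simp [cj_apply]

theorem cj_transpose {n : ℕ} (M : Matrix (Fin n) (Fin n) ℂ) : (cj M)ᵀ = Mᴴ := by
  ext i j
  simp [cj_apply, Matrix.conjTranspose_apply]

theorem cj_injective {n : ℕ} {M N : Matrix (Fin n) (Fin n) ℂ} (h : cj M = cj N) : M = N := by
  rw [← cj_cj M, h, cj_cj]

theorem cj_mulVec {n : ℕ} (M : Matrix (Fin n) (Fin n) ℂ) (v : Fin n → ℂ) :
    cj M *ᵥ star v = star (M *ᵥ v) := by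
  ext i
  simp [Matrix.mulVec, dotProduct, cj_apply, map_sum]

noncomputable def herm {G : Type*} [Fintype G] {n : ℕ} (X : G → Matrix (Fin n) (Fin n) ℂ) :
    Matrix (Fin n) (Fin n) ℂ := ∑ g : G, (X g)ᴴ * X g

noncomputable def nrm {G : Type*} [Fintype G] {n : ℕ} (X : G → Matrix (Fin n) (Fin n) ℂ)
    (w : Fin n → ℂ) : ℝ := ∑ g : G, ∑ i : Fin n, Complex.normSq ((X g *ᵥ w) i)

theorem herm_conjTranspose {G : Type*} [Fintype G] {n : ℕ} (X : G → Matrix (Fin n) (Fin n) ℂ) :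
    (herm X)ᴴ = herm X := by
  unfold herm
  rw [Matrix.conjTranspose_sum]
  apply Finset.sum_congr rfl
  intro g _
  rw [Matrix.conjTranspose_mul, Matrix.conjTranspose_conjTranspose]

theorem herm_inv {G : Type*} [Group G] [Fintype G] {n : ℕ} (X : G → Matrix (Fin n) (Fin n) ℂ)
    (hXmul : ∀ g h, X (g * h) = X g * X h) (h : G) :
    (X h)ᴴ * herm X * X h = herm X := by
  unfold herm
  rw [Finset.mul_sum, Finset.sum_mul]
  symm
  rw [← Equiv.sum_comp (Equiv.mulRight h)]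
  apply Finset.sum_congr rfl
  intro g _
  simp only [Equiv.coe_mulRight, hXmul, Matrix.conjTranspose_mul, Matrix.mul_assoc]

theorem herm_form {G : Type*} [Fintype G] {n : ℕ} (X : G → Matrix (Fin n) (Fin n) ℂ)
    (w : Fin n → ℂ) : star w ⬝ᵥ (herm X *ᵥ w) = (nrm X w : ℂ) := by
  unfold herm nrm
  rw [Matrix.sum_mulVec, dotProduct_sum]
  push_cast
  apply Finset.sum_congr rfl
  intro g _
  rw [← Matrix.mulVec_mulVec, Matrix.dotProduct_mulVec, ← Matrix.star_mulVec]
  unfold dotProduct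
  apply Finset.sum_congr rfl
  intro i _
  rw [Pi.star_apply, Complex.normSq_eq_conj_mul_self]
  rfl

theorem nrm_pos {G : Type*} [Group G] [Fintype G] {n : ℕ} (X : G → Matrix (Fin n) (Fin n) ℂ)
    (hX1 : X 1 = 1) {w : Fin n → ℂ} (hw : w ≠ 0) : 0 < nrm X w := by
  unfold nrm
  obtain ⟨i, hi⟩ : ∃ i, w i ≠ 0 := by
    by_contra h
    push Not at h
    exact hw (funext h)
  have h1 : 0 < ∑ i : Fin n, Complex.normSq ((X 1 *ᵥ w) i) := by
    rw [hX1, Matrix.one_mulVec]
    exact lt_of_lt_of_le (Complex.normSq_pos.mpr hi)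
      (Finset.single_le_sum (f := fun i => Complex.normSq (w i))
        (fun j _ => Complex.normSq_nonneg _) (Finset.mem_univ i))
  exact lt_of_lt_of_le h1 (Finset.single_le_sum
    (f := fun g : G => ∑ i : Fin n, Complex.normSq ((X g *ᵥ w) i))
    (fun g _ => Finset.sum_nonneg (fun j _ => Complex.normSq_nonneg _)) (Finset.mem_univ 1))

theorem nrm_nonneg {G : Type*} [Fintype G] {n : ℕ} (X : G → Matrix (Fin n) (Fin n) ℂ)
    (w : Fin n → ℂ) : 0 ≤ nrm X w :=
  Finset.sum_nonneg (fun g _ => Finset.sum_nonneg (fun j _ => Complex.normSq_nonneg _))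

theorem herm_det {G : Type*} [Group G] [Fintype G] {n : ℕ} (X : G → Matrix (Fin n) (Fin n) ℂ)
    (hX1 : X 1 = 1) : IsUnit (herm X).det := by
  rw [isUnit_iff_ne_zero]
  intro h0
  obtain ⟨v, hv, hv0⟩ := Matrix.exists_mulVec_eq_zero_iff.mpr h0
  have h1 := herm_form X v
  rw [hv0, dotProduct_zero] at h1
  have h2 := nrm_pos X hX1 hv
  have h3 : nrm X v = 0 := by exact_mod_cast h1.symm
  linarith

theorem sym_form {n : ℕ} (M : Matrix (Fin n) (Fin n) ℂ) (hMsym : Mᵀ = M) (u w : Fin n → ℂ) :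
    u ⬝ᵥ (M *ᵥ w) = w ⬝ᵥ (M *ᵥ u) := by
  rw [Matrix.dotProduct_mulVec, dotProduct_comm]
  congr 1
  rw [← Matrix.mulVec_transpose, hMsym]

theorem star_dot_star {n : ℕ} (u w : Fin n → ℂ) : star u ⬝ᵥ star w = star (u ⬝ᵥ w) := by
  simp [dotProduct, map_sum]

theorem exists_real_structure {G : Type*} [Group G] [Fintype G] {n : ℕ}
    (X : G → Matrix (Fin n) (Fin n) ℂ) (hX1 : X 1 = 1) (hXmul : ∀ g h, X (g * h) = X g * X h)
    (hschur : ∀ T : Matrix (Fin n) (Fin n) ℂ, (∀ g, T * X g = X g * T) → ∃ c : ℂ, T = c • 1)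
    (M : Matrix (Fin n) (Fin n) ℂ) (hM0 : M ≠ 0) (hMsym : Mᵀ = M)
    (hMinv : ∀ g, (X g)ᵀ * M * X g = M) :
    ∃ A : Matrix (Fin n) (Fin n) ℂ, A * cj A = 1 ∧ ∀ g, X g * A = A * cj (X g) := by
  have hHu : IsUnit (herm X).det := herm_det X hX1
  have hXinv : ∀ g, X g⁻¹ * X g = 1 := fun g => by rw [← hXmul, inv_mul_cancel, hX1]
  have hH1 : ∀ g, herm X * X g = (X g⁻¹)ᴴ * herm X := by
    intro g
    have := herm_inv X hXmul g⁻¹
    calc herm X * X g = ((X g⁻¹)ᴴ * herm X * X g⁻¹) * X g := by rw [this]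
      _ = (X g⁻¹)ᴴ * herm X * (X g⁻¹ * X g) := by simp only [Matrix.mul_assoc]
      _ = (X g⁻¹)ᴴ * herm X := by rw [hXinv, Matrix.mul_one]
  have hM1 : ∀ g, M * X g = (X g⁻¹)ᵀ * M := by
    intro g
    have := hMinv g⁻¹
    calc M * X g = ((X g⁻¹)ᵀ * M * X g⁻¹) * X g := by rw [this]
      _ = (X g⁻¹)ᵀ * M * (X g⁻¹ * X g) := by simp only [Matrix.mul_assoc]
      _ = (X g⁻¹)ᵀ * M := by rw [hXinv, Matrix.mul_one]
  have hM2 : ∀ g, cj M * cj (X g) = (X g⁻¹)ᴴ * cj M := by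
    intro g
    rw [← cj_mul, hM1, cj_mul]
    congr 1
  obtain ⟨A', hA'⟩ : ∃ A' : Matrix (Fin n) (Fin n) ℂ, A' = (herm X)⁻¹ * cj M := ⟨_, rfl⟩
  have hHA : herm X * A' = cj M := by
    rw [hA', ← Matrix.mul_assoc, Matrix.mul_nonsing_inv _ hHu, Matrix.one_mul]
  have hint : ∀ g, X g * A' = A' * cj (X g) := by
    intro g
    have h1 : herm X * (X g * A') = herm X * (A' * cj (X g)) := by
      rw [← Matrix.mul_assoc, hH1, Matrix.mul_assoc, hHA, ← Matrix.mul_assoc, hHA, hM2]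
    have h2 := congrArg (fun Z => (herm X)⁻¹ * Z) h1
    simp only [← Matrix.mul_assoc, Matrix.nonsing_inv_mul _ hHu, Matrix.one_mul] at h2
    exact h2
  have hcomm : ∀ g, (A' * cj A') * X g = X g * (A' * cj A') := by
    intro g
    have h1 : cj A' * X g = cj (X g) * cj A' := by
      have := congrArg cj (hint g)
      rw [cj_mul, cj_mul, cj_cj] at this
      exact this.symm
    rw [Matrix.mul_assoc, h1, ← Matrix.mul_assoc, ← hint, Matrix.mul_assoc]
  obtain ⟨c, hc⟩ := hschur _ hcomm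
  have hE1 : ∀ w u : Fin n → ℂ,
      star w ⬝ᵥ (herm X *ᵥ (A' *ᵥ star u)) = star (w ⬝ᵥ (M *ᵥ u)) := by
    intro w u
    rw [Matrix.mulVec_mulVec, hHA, cj_mulVec, star_dot_star]
  have hE2 : ∀ u : Fin n → ℂ, A' *ᵥ star (A' *ᵥ star u) = c • u := by
    intro u
    rw [← cj_mulVec, star_star, Matrix.mulVec_mulVec, hc, Matrix.smul_mulVec, Matrix.one_mulVec]
  have hkey : ∀ u : Fin n → ℂ, (nrm X (A' *ᵥ star u) : ℂ) = c * (nrm X u : ℂ) := by
    intro u
    rw [← herm_form, ← herm_form]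
    have h1 := hE1 (A' *ᵥ star u) u
    have h2 := hE1 u (A' *ᵥ star u)
    rw [hE2, Matrix.mulVec_smul, dotProduct_smul, smul_eq_mul] at h2
    rw [h2, sym_form M hMsym u]
    have h3 : star (star (A' *ᵥ star u)) = A' *ᵥ star u := star_star _
    rw [← h1]
  have hA0 : A' ≠ 0 := by
    intro h0
    rw [h0, Matrix.mul_zero] at hHA
    apply hM0
    apply cj_injective
    rw [← hHA]
    ext i j
    simp [cj_apply]
  obtain ⟨i, j, hij⟩ : ∃ i j, A' i j ≠ 0 := by
    by_contra h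
    push Not at h
    apply hA0
    ext i j
    exact h i j
  have hu0 : star (Pi.single j (1 : ℂ) : Fin n → ℂ) ≠ 0 := by
    intro h
    have h1 := congrFun h j
    simp at h1
  have hJu0 : A' *ᵥ star (star (Pi.single j (1 : ℂ) : Fin n → ℂ)) ≠ 0 := by
    rw [star_star]
    intro h
    have h1 := congrFun h i
    rw [Matrix.mulVec_single_one] at h1
    exact hij h1
  have hk := hkey (star (Pi.single j (1 : ℂ) : Fin n → ℂ))
  have hp1 := nrm_pos X hX1 hu0
  have hp2 := nrm_pos X hX1 hJu0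
  obtain ⟨r, hr⟩ : ∃ r : ℝ, r = nrm X (A' *ᵥ star (star (Pi.single j (1 : ℂ) : Fin n → ℂ)))
      / nrm X (star (Pi.single j (1 : ℂ) : Fin n → ℂ)) := ⟨_, rfl⟩
  have hrpos : 0 < r := by
    rw [hr]
    exact div_pos hp2 hp1
  have hcr : c = (r : ℂ) := by
    rw [hr]
    push_cast
    rw [hk]
    have hne : (nrm X (star (Pi.single j (1 : ℂ) : Fin n → ℂ)) : ℂ) ≠ 0 := by
      exact_mod_cast hp1.ne'
    rw [mul_div_assoc, div_self hne, mul_one]
  have hsq : (0 : ℝ) < Real.sqrt r := Real.sqrt_pos.mpr hrpos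
  refine ⟨((Real.sqrt r)⁻¹ : ℂ) • A', ?_, ?_⟩
  · rw [cj_smul, Matrix.smul_mul, Matrix.mul_smul, smul_smul, hc, smul_smul, hcr]
    have h1 : (starRingEnd ℂ) ((Real.sqrt r : ℂ)⁻¹) = (Real.sqrt r : ℂ)⁻¹ := by
      rw [map_inv₀, Complex.conj_ofReal]
    rw [h1]
    have h2 : ((Real.sqrt r : ℂ))⁻¹ * ((Real.sqrt r : ℂ))⁻¹ * (r : ℂ) = 1 := by
      have h3 : (Real.sqrt r : ℂ) * (Real.sqrt r : ℂ) = (r : ℂ) := by
        rw [← Complex.ofReal_mul, Real.mul_self_sqrt hrpos.le]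
      have h4 : (Real.sqrt r : ℂ) ≠ 0 := by
        exact_mod_cast hsq.ne'
      rw [← h3]
      field_simp
    rw [h2, one_smul]
  · intro g
    rw [Matrix.mul_smul, hint, Matrix.smul_mul]

theorem hilbert90 {n : ℕ} (A : Matrix (Fin n) (Fin n) ℂ) (hA : A * cj A = 1) :
    ∃ P : Matrix (Fin n) (Fin n) ℂ, IsUnit P.det ∧ A * cj P = P := by
  let f : ℕ → ℂ := fun k => (1 + Complex.I * k) / (1 - Complex.I * k)
  have hden : ∀ k : ℕ, (1 - Complex.I * (k : ℂ)) ≠ 0 := by
    intro k h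
    have := congrArg Complex.re h
    simp at this
  have hinj : Function.Injective f := by
    intro a b h
    have h1 : (1 + Complex.I * a) * (1 - Complex.I * b)
        = (1 + Complex.I * b) * (1 - Complex.I * a) :=
      (div_eq_div_iff (hden a) (hden b)).mp h
    have h2 : (a : ℂ) = b := by
      linear_combination (-Complex.I / 2) * h1 + ((a : ℂ) - b) * Complex.I_sq
    exact_mod_cast h2
  have hp : (-A).charpoly ≠ 0 := (Matrix.charpoly_monic (-A)).ne_zero
  obtain ⟨t, ⟨k, rfl⟩, hk⟩ := (Set.infinite_range_of_injective hinj).exists_notMem_finset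
    (-A).charpoly.roots.toFinset
  rw [Multiset.mem_toFinset, Polynomial.mem_roots hp, Polynomial.IsRoot, Matrix.eval_charpoly] at hk
  refine ⟨(1 - Complex.I * (k : ℂ)) • A + (1 + Complex.I * (k : ℂ)) • 1, ?_, ?_⟩
  · have h1 : (1 - Complex.I * (k : ℂ)) • A + (1 + Complex.I * (k : ℂ)) • (1 : Matrix (Fin n) (Fin n) ℂ)
        = (1 - Complex.I * (k : ℂ)) • (Matrix.scalar (Fin n) (f k) - (-A)) := by
      have h2 : (1 - Complex.I * (k : ℂ)) * f k = 1 + Complex.I * (k : ℂ) := by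
        show (1 - Complex.I * (k : ℂ)) * ((1 + Complex.I * k) / (1 - Complex.I * k)) = _
        field_simp [hden k]
      rw [sub_neg_eq_add, smul_add, add_comm, ← h2]
      congr 1
      ext i j
      simp [Matrix.scalar_apply, Matrix.diagonal_apply, Matrix.one_apply, mul_ite]
    rw [h1, Matrix.det_smul, isUnit_iff_ne_zero]
    exact mul_ne_zero (pow_ne_zero _ (hden k)) hk
  · rw [cj_add, cj_smul, cj_smul, cj_one, Matrix.mul_add, Matrix.mul_smul, Matrix.mul_smul, hA,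
      Matrix.mul_one]
    have h1 : (starRingEnd ℂ) (1 - Complex.I * (k : ℂ)) = 1 + Complex.I * k := by
      simp
    have h2 : (starRingEnd ℂ) (1 + Complex.I * (k : ℂ)) = 1 - Complex.I * k := by
      simp
      ring
    rw [h1, h2, add_comm]

theorem imp_real {G : Type*} [Group G] [Fintype G] (χ : IrrCharacter G)
    (hν : ((Nat.card G : ℂ)⁻¹ * ∑ s : G, (χ : G → ℂ) (s * s)) = 1) :
    ∃ (n : ℕ) (ρ : Representation ℝ G (Fin n → ℝ)),
      ∀ g : G, ((LinearMap.trace ℝ (Fin n → ℝ) (ρ g) : ℝ) : ℂ) = (χ : G → ℂ) g := by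
  classical
  obtain ⟨n, ρ, hirr, hρ⟩ := χ.2
  have hreal : ∀ g : G, (ρ.character g).im = 0 := by
    rcases frobenius_schur χ with ⟨h0, _⟩ | ⟨_, hc⟩
    · rw [hν] at h0
      exact absurd h0 one_ne_zero
    · intro g
      rw [hρ]
      exact (irrConj_eq_iff χ).mp hc g
  obtain ⟨⟨M, hM0, hMinv⟩, hall⟩ := Cfsg.Agent.S4475.result n ρ hirr hreal
  have hMsym : Mᵀ = M := by
    have h1 := hall M hMinv
    have hν' : ((Nat.card G : ℂ)⁻¹ * ∑ s : G, ρ.character (s * s)) = 1 := by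
      rw [hρ]
      exact hν
    rw [hν', one_smul] at h1
    exact h1
  obtain ⟨X, hXdef⟩ : ∃ X : G → Matrix (Fin n) (Fin n) ℂ, X = fun g => LinearMap.toMatrix' (ρ g) :=
    ⟨_, rfl⟩
  have hX1 : X 1 = 1 := by
    rw [hXdef]
    show LinearMap.toMatrix' (ρ 1) = 1
    rw [map_one]
    exact LinearMap.toMatrix'_one
  have hXmul : ∀ g h, X (g * h) = X g * X h := by
    intro g h
    rw [hXdef]
    show LinearMap.toMatrix' (ρ (g * h)) = _
    rw [map_mul, LinearMap.toMatrix'_mul]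
  have hschur : ∀ T : Matrix (Fin n) (Fin n) ℂ, (∀ g, T * X g = X g * T) → ∃ c : ℂ, T = c • 1 := by
    intro T hT
    have hirr' := hirr
    obtain ⟨c, hc⟩ := Cfsg.Agent.Lib.helper23.irr_commuting_scalar n ρ (Matrix.toLin' T) (by
      intro g
      have h1 := congrArg Matrix.toLin' (hT g)
      rw [hXdef, Matrix.toLin'_mul, Matrix.toLin'_mul, Matrix.toLin'_toMatrix'] at h1
      exact h1)
    refine ⟨c, ?_⟩
    have h2 := congrArg LinearMap.toMatrix' hc
    rw [LinearMap.toMatrix'_toLin'] at h2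
    rw [h2]
    simp
  have hMinv' : ∀ g, (X g)ᵀ * M * X g = M := by
    intro g
    rw [hXdef]
    exact hMinv g
  obtain ⟨A, hA1, hA2⟩ := exists_real_structure X hX1 hXmul hschur M hM0 hMsym hMinv'
  obtain ⟨P, hPu, hP⟩ := hilbert90 A hA1
  obtain ⟨Y, hYdef⟩ : ∃ Y : G → Matrix (Fin n) (Fin n) ℂ, Y = fun g => P⁻¹ * X g * P := ⟨_, rfl⟩
  have hYreal : ∀ g, cj (Y g) = Y g := by
    intro g
    have hQ : cj P * cj P⁻¹ = 1 := by
      rw [← cj_mul, Matrix.mul_nonsing_inv _ hPu, cj_one]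
    have hPA : P * cj P⁻¹ = A := by
      calc P * cj P⁻¹ = (A * cj P) * cj P⁻¹ := by rw [hP]
        _ = A := by rw [Matrix.mul_assoc, hQ, Matrix.mul_one]
    have h1 : P * cj (Y g) = X g * P := by
      rw [hYdef]
      show P * cj (P⁻¹ * X g * P) = X g * P
      calc P * cj (P⁻¹ * X g * P) = (P * cj P⁻¹) * cj (X g) * cj P := by
            rw [cj_mul, cj_mul]
            simp only [Matrix.mul_assoc]
        _ = A * cj (X g) * cj P := by rw [hPA]
        _ = X g * (A * cj P) := by rw [← hA2, Matrix.mul_assoc]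
        _ = X g * P := by rw [hP]
    have h2 : P * Y g = X g * P := by
      rw [hYdef]
      show P * (P⁻¹ * X g * P) = X g * P
      rw [← Matrix.mul_assoc, ← Matrix.mul_assoc, Matrix.mul_nonsing_inv _ hPu, Matrix.one_mul]
    have h3 := congrArg (fun Z => P⁻¹ * Z) (h1.trans h2.symm)
    simp only [← Matrix.mul_assoc, Matrix.nonsing_inv_mul _ hPu, Matrix.one_mul] at h3
    exact h3
  have hYR : ∀ g, ((Y g).map Complex.re).map Complex.ofRealHom = Y g := by
    intro g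
    ext i j
    have h1 : (starRingEnd ℂ) (Y g i j) = Y g i j := by
      have := congrFun (congrFun (hYreal g) i) j
      exact this
    exact Complex.conj_eq_iff_re.mp h1
  have hY1 : Y 1 = 1 := by
    rw [hYdef]
    show P⁻¹ * X 1 * P = 1
    rw [hX1, Matrix.mul_one, Matrix.nonsing_inv_mul _ hPu]
  have hYmul : ∀ g h, Y (g * h) = Y g * Y h := by
    intro g h
    rw [hYdef]
    show P⁻¹ * X (g * h) * P = (P⁻¹ * X g * P) * (P⁻¹ * X h * P)
    rw [hXmul]
    have h1 : (P⁻¹ * X g * P) * (P⁻¹ * X h * P) = P⁻¹ * X g * (P * P⁻¹) * X h * P := by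
      simp only [Matrix.mul_assoc]
    rw [h1, Matrix.mul_nonsing_inv _ hPu, Matrix.mul_one]
    simp only [Matrix.mul_assoc]
  have hinjm : Function.Injective (fun Z : Matrix (Fin n) (Fin n) ℝ => Z.map Complex.ofRealHom) :=
    Matrix.map_injective Complex.ofReal_injective
  have hYR1 : (Y 1).map Complex.re = 1 := by
    apply hinjm
    show ((Y 1).map Complex.re).map Complex.ofRealHom = (1 : Matrix (Fin n) (Fin n) ℝ).map Complex.ofRealHom
    rw [hYR, hY1]
    ext i j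
    simp [Matrix.one_apply, apply_ite]
  have hYRmul : ∀ g h, (Y (g * h)).map Complex.re = (Y g).map Complex.re * (Y h).map Complex.re := by
    intro g h
    apply hinjm
    show ((Y (g * h)).map Complex.re).map Complex.ofRealHom
      = ((Y g).map Complex.re * (Y h).map Complex.re).map Complex.ofRealHom
    rw [Matrix.map_mul, hYR, hYR, hYR, hYmul]
  let ρR : Representation ℝ G (Fin n → ℝ) :=
    { toFun := fun g => Matrix.toLin' ((Y g).map Complex.re)
      map_one' := by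
        rw [hYR1, Matrix.toLin'_one]
        rfl
      map_mul' := fun g h => by
        rw [hYRmul, Matrix.toLin'_mul]
        rfl }
  refine ⟨n, ρR, ?_⟩
  intro g
  show ((LinearMap.trace ℝ (Fin n → ℝ) (Matrix.toLin' ((Y g).map Complex.re)) : ℝ) : ℂ) = χ.1 g
  rw [LinearMap.trace_eq_matrix_trace ℝ (Pi.basisFun ℝ (Fin n)), LinearMap.toMatrix_eq_toMatrix',
    LinearMap.toMatrix'_toLin']
  have h1 : ((Matrix.trace ((Y g).map Complex.re) : ℝ) : ℂ) = Matrix.trace (Y g) := by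
    rw [← hYR g]
    simp [Matrix.trace]
  rw [h1, hYdef]
  show Matrix.trace (P⁻¹ * X g * P) = χ.1 g
  rw [Matrix.trace_mul_comm, ← Matrix.mul_assoc, Matrix.mul_nonsing_inv _ hPu, Matrix.one_mul, hXdef]
  show Matrix.trace (LinearMap.toMatrix' (ρ g)) = χ.1 g
  rw [trace_toMatrix', ← hρ]
  rfl

theorem result {G : Type*} [Group G] [Fintype G] (χ : Cfsg.IrrCharacter G) : ((Nat.card G : ℂ)⁻¹ * ∑ s : G, (χ : G → ℂ) (s * s)) = 1 ↔ ∃ (n : ℕ) (ρ : Representation ℝ G (Fin n → ℝ)), ∀ g : G, ((LinearMap.trace ℝ (Fin n → ℝ) (ρ g) : ℝ) : ℂ) = (χ : G → ℂ) g := by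
  constructor
  · exact imp_real χ
  · rintro ⟨n, ρ, hρ⟩
    exact real_imp χ n ρ hρ

end Cfsg.Agent.S4474
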