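import Cfsg.Statements.S4476
import Cfsg.Agent.S0159
import Cfsg.Agent.Lib.helper24.CharFS
import Cfsg.Agent.Lib.helper24.CharPerm
import Cfsg.Agent.Lib.helper23.InvolCount

set_option autoImplicit false
open Cfsg

namespace Cfsg.Agent.S4476

open Cfsg.Agent.Lib.helper24

theorem card_sq_one {G : Type*} [Group G] [Fintype G] :
    Nat.card {s : G // s * s = 1} = Nat.card {x : G // orderOf x = 2} + 1 := by
  classical
  rw [Nat.card_eq_fintype_card, Nat.card_eq_fintype_card, Fintype.card_subtype,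
    Fintype.card_subtype]
  have hfact : Fact (Nat.Prime 2) := ⟨Nat.prime_two⟩
  have : (Finset.univ.filter (fun s : G => s * s = 1))
      = insert 1 (Finset.univ.filter (fun x : G => orderOf x = 2)) := by
    ext s
    simp only [Finset.mem_filter, Finset.mem_univ, true_and, Finset.mem_insert]
    rw [orderOf_eq_prime_iff, pow_two]
    by_cases hs : s = 1
    · simp [hs]
    · simp [hs]
  rw [this, Finset.card_insert_of_notMem]
  simp

theorem nu_data {G : Type*} [Group G] [Fintype G] (χ : IrrCharacter G) :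
    ∃ e : ℤ, (Nat.card G : ℂ)⁻¹ * ∑ s : G, (χ : G → ℂ) (s * s) = (e : ℂ) ∧ e ≤ 1 ∧
      (e ≠ 0 → ∀ g : G, ((χ : G → ℂ) g).im = 0) := by
  rcases frobenius_schur χ with ⟨h0, _⟩ | ⟨h1 | h1, hc⟩
  · exact ⟨0, by simpa using h0, by norm_num, fun h => absurd rfl h⟩
  · exact ⟨1, by simpa using h1, le_refl _, fun _ => (irrConj_eq_iff χ).mp hc⟩
  · exact ⟨-1, by simpa using h1, by norm_num, fun _ => (irrConj_eq_iff χ).mp hc⟩

theorem nu_triv {G : Type*} [Group G] [Fintype G] :
    (Nat.card G : ℂ)⁻¹ * ∑ s : G, ((trivIrr G : IrrCharacter G) : G → ℂ) (s * s) = 1 := by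
  have hne : (Nat.card G : ℂ) ≠ 0 := NeZero.ne _
  simp only [trivIrr_apply, Finset.sum_const, Finset.card_univ, nsmul_eq_mul, mul_one]
  rw [← Nat.card_eq_fintype_card]
  exact inv_mul_cancel₀ hne

theorem main_facts {G : Type*} [Group G] [Fintype G] [Fintype (IrrCharacter G)]
    [DecidableEq (IrrCharacter G)]
    (t : ℕ) (ht : Nat.card {x : G // orderOf x = 2} = t) :
    (∑ χ : IrrCharacter G, (charDegree (χ : G → ℂ) : ℚ) ^ 2 = (Nat.card G : ℚ)) ∧
    (charDegree ((trivIrr G : IrrCharacter G) : G → ℂ) = 1) ∧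
    ((t : ℚ) ≤ ∑ χ ∈ (Finset.univ.erase (trivIrr G)).filter
        (fun χ : IrrCharacter G => ∀ g : G, ((χ : G → ℂ) g).im = 0),
          (charDegree (χ : G → ℂ) : ℚ)) := by
  classical
  have hdeg : ∀ χ : IrrCharacter G, (χ : G → ℂ) 1 = (charDegree (χ : G → ℂ) : ℂ)
      ∧ charDegree (χ : G → ℂ) ≠ 0 := fun χ => Cfsg.Agent.Lib.helper23.irr_degree_facts χ
  have htriv : charDegree ((trivIrr G : IrrCharacter G) : G → ℂ) = 1 := by
    have h := (hdeg (trivIrr G)).1
    rw [trivIrr_apply] at h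
    exact_mod_cast h.symm
  refine ⟨?_, htriv, ?_⟩
  · have h := sum_sq_degrees (G := G)
    have h2 : ((∑ χ : IrrCharacter G, (charDegree (χ : G → ℂ)) ^ 2 : ℕ) : ℂ)
        = ((Nat.card G : ℕ) : ℂ) := by
      rw [← h]
      push_cast
      apply Finset.sum_congr rfl
      intro χ _
      rw [(hdeg χ).1]
    have h3 : (∑ χ : IrrCharacter G, (charDegree (χ : G → ℂ)) ^ 2 : ℕ) = Nat.card G := by
      exact_mod_cast h2
    exact_mod_cast h3
  · choose e he1 he2 he3 using (nu_data (G := G))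
    have hcount : ((t : ℤ) + 1) = ∑ χ : IrrCharacter G, e χ * (charDegree (χ : G → ℂ) : ℤ) := by
      have h := S0159.result (G := G)
      rw [finsum_eq_sum_of_fintype, card_sq_one, ht] at h
      have h2 : (((t + 1 : ℕ) : ℤ) : ℂ)
          = ((∑ χ : IrrCharacter G, e χ * (charDegree (χ : G → ℂ) : ℤ) : ℤ) : ℂ) := by
        push_cast
        push_cast at h
        rw [h]
        apply Finset.sum_congr rfl
        intro χ _
        rw [he1, (hdeg χ).1]
      have h3 : ((t + 1 : ℕ) : ℤ) = ∑ χ : IrrCharacter G, e χ * (charDegree (χ : G → ℂ) : ℤ) := by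
        exact_mod_cast h2
      rw [← h3]
      push_cast
      ring
    have hetriv : e (trivIrr G) = 1 := by
      have h := he1 (trivIrr G)
      rw [nu_triv] at h
      exact_mod_cast h.symm
    rw [← Finset.add_sum_erase _ _ (Finset.mem_univ (trivIrr G)), hetriv, htriv] at hcount
    have hcount2 : (t : ℤ) = ∑ χ ∈ Finset.univ.erase (trivIrr G),
        e χ * (charDegree (χ : G → ℂ) : ℤ) := by
      push_cast at hcount
      linarith
    have hle : (t : ℤ) ≤ ∑ χ ∈ (Finset.univ.erase (trivIrr G)).filter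
        (fun χ : IrrCharacter G => ∀ g : G, ((χ : G → ℂ) g).im = 0),
          (charDegree (χ : G → ℂ) : ℤ) := by
      rw [hcount2, Finset.sum_filter]
      apply Finset.sum_le_sum
      intro χ _
      by_cases h0 : e χ = 0
      · rw [h0, zero_mul]
        split_ifs
        · exact Int.natCast_nonneg _
        · exact le_refl _
      · rw [if_pos (he3 χ h0)]
        have := he2 χ
        have hd : (0 : ℤ) ≤ (charDegree (χ : G → ℂ) : ℤ) := Int.natCast_nonneg _
        nlinarith
    have : ((t : ℤ) : ℚ) ≤ ((∑ χ ∈ (Finset.univ.erase (trivIrr G)).filter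
        (fun χ : IrrCharacter G => ∀ g : G, ((χ : G → ℂ) g).im = 0),
          (charDegree (χ : G → ℂ) : ℤ) : ℤ) : ℚ) := by
      exact_mod_cast hle
    push_cast at this
    exact this

theorem class_facts {G : Type*} [Group G] [Fintype G] :
    ∑ x : G, (Nat.card (Subgroup.centralizer ({x} : Set G)) : ℚ)
      = (Nat.card G : ℚ) * (Nat.card (IrrCharacter G) : ℚ) := by
  classical
  have h := sum_centralizer_eq (G := G) (fun _ => True) (fun _ _ _ => Iff.rfl)
  simp only [if_true] at h
  have hk : Nat.card {C : ConjClasses G // ∀ g : G, ConjClasses.mk g = C → True}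
      = Nat.card (IrrCharacter G) := by
    rw [card_irr_eq_card_conjClasses]
    exact Nat.card_congr (Equiv.subtypeUnivEquiv (fun C => fun _ _ => trivial))
  rw [hk] at h
  have h2 : ((∑ x : G, Nat.card (Subgroup.centralizer ({x} : Set G)) : ℕ) : ℂ)
      = ((Nat.card G * Nat.card (IrrCharacter G) : ℕ) : ℂ) := by
    push_cast
    exact h
  have h3 : (∑ x : G, Nat.card (Subgroup.centralizer ({x} : Set G)) : ℕ)
      = Nat.card G * Nat.card (IrrCharacter G) := by
    exact_mod_cast h2
  exact_mod_cast h3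

theorem result {G : Type*} [Group G] [Fintype G] (heven : Even (Nat.card G)) (t : ℕ) (ht : Nat.card {x : G // orderOf x = 2} = t) : (∃ x : G, x ≠ 1 ∧ ((Subgroup.centralizer ({x} : Set G)).index : ℚ) ≤ (((Nat.card G : ℚ) - 1) / t) ^ 2) ∧ ∃ χ : Cfsg.IrrCharacter G, (χ : G → ℂ) ≠ (fun _ => 1) ∧ (∀ g : G, ((χ : G → ℂ) g).im = 0) ∧ (Cfsg.charDegree (χ : G → ℂ) : ℚ) ≤ ((Nat.card G : ℚ) - 1) / t := by
  classical
  have hfin : Fintype (IrrCharacter G) := Fintype.ofFinite _
  obtain ⟨hsq, htriv, hle⟩ := main_facts t ht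
  have hcl := class_facts (G := G)
  have hgpos : 0 < Nat.card G := Nat.card_pos
  have hg2 : 2 ≤ Nat.card G := by
    obtain ⟨m, hm⟩ := heven
    omega
  have ht1 : 1 ≤ t := by
    have hfact : Fact (Nat.Prime 2) := ⟨Nat.prime_two⟩
    obtain ⟨x, hx⟩ := exists_prime_orderOf_dvd_card' 2 (even_iff_two_dvd.mp heven)
    rw [← ht]
    exact Nat.card_pos_iff.mpr ⟨⟨⟨x, hx⟩⟩, inferInstance⟩
  have hgq : (2 : ℚ) ≤ (Nat.card G : ℚ) := by exact_mod_cast hg2
  have htq : (1 : ℚ) ≤ (t : ℚ) := by exact_mod_cast ht1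
  obtain ⟨α, hα⟩ : ∃ α : ℚ, α = ((Nat.card G : ℚ) - 1) / t := ⟨_, rfl⟩
  rw [← hα]
  have hαpos : 0 < α := by
    rw [hα]
    exact div_pos (by linarith) (by linarith)
  have hαt : α * t = (Nat.card G : ℚ) - 1 := by
    rw [hα]
    field_simp
  obtain ⟨R, hR⟩ : ∃ R : Finset (IrrCharacter G), R = (Finset.univ.erase (trivIrr G)).filter
      (fun χ : IrrCharacter G => ∀ g : G, ((χ : G → ℂ) g).im = 0) := ⟨_, rfl⟩
  rw [← hR] at hle
  have hsq' : ∑ χ ∈ Finset.univ.erase (trivIrr G), (charDegree (χ : G → ℂ) : ℚ) ^ 2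
      = (Nat.card G : ℚ) - 1 := by
    rw [← hsq, ← Finset.add_sum_erase _ _ (Finset.mem_univ (trivIrr G)), htriv]
    simp
  have hRsub : R ⊆ Finset.univ.erase (trivIrr G) := by
    rw [hR]
    exact Finset.filter_subset _ _
  refine ⟨?_, ?_⟩
  · by_contra hcon
    push Not at hcon
    have hk1 : 1 ≤ Nat.card (IrrCharacter G) := by
      have : Nonempty (IrrCharacter G) := ⟨trivIrr G⟩
      exact Nat.card_pos
    have hCS : (t : ℚ) ^ 2 ≤ ((Nat.card (IrrCharacter G) : ℚ) - 1) * ((Nat.card G : ℚ) - 1) := by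
      have h1 : (t : ℚ) ≤ ∑ χ ∈ Finset.univ.erase (trivIrr G), (charDegree (χ : G → ℂ) : ℚ) :=
        hle.trans (Finset.sum_le_sum_of_subset_of_nonneg hRsub (fun _ _ _ => Nat.cast_nonneg _))
      have h2 := Finset.sum_mul_sq_le_sq_mul_sq (Finset.univ.erase (trivIrr G))
        (fun _ => (1 : ℚ)) (fun χ : IrrCharacter G => (charDegree (χ : G → ℂ) : ℚ))
      simp only [one_mul, one_pow, Finset.sum_const, nsmul_eq_mul, mul_one] at h2
      rw [hsq', Finset.card_erase_of_mem (Finset.mem_univ _), Finset.card_univ,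
        ← Nat.card_eq_fintype_card, Nat.cast_sub hk1] at h2
      push_cast at h2
      calc (t : ℚ) ^ 2 ≤ (∑ χ ∈ Finset.univ.erase (trivIrr G), (charDegree (χ : G → ℂ) : ℚ)) ^ 2 :=
            pow_le_pow_left₀ (by linarith) h1 2
        _ ≤ _ := h2
    have hsum : ∑ x ∈ Finset.univ.erase (1 : G),
        (Nat.card (Subgroup.centralizer ({x} : Set G)) : ℚ)
        = (Nat.card G : ℚ) * ((Nat.card (IrrCharacter G) : ℚ) - 1) := by
      have h0 := Finset.add_sum_erase Finset.univ
        (fun x : G => (Nat.card (Subgroup.centralizer ({x} : Set G)) : ℚ)) (Finset.mem_univ (1 : G))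
      rw [hcl] at h0
      have h1 : Nat.card (Subgroup.centralizer ({(1 : G)} : Set G)) = Nat.card G := by
        have h : Subgroup.centralizer ({(1 : G)} : Set G) = ⊤ := by
          ext y
          simp [Subgroup.mem_centralizer_iff]
        rw [h, Subgroup.card_top]
      simp only [h1] at h0
      linarith
    have hlt : ∑ x ∈ Finset.univ.erase (1 : G),
        (Nat.card (Subgroup.centralizer ({x} : Set G)) : ℚ) * α ^ 2
        < ∑ x ∈ Finset.univ.erase (1 : G), (Nat.card G : ℚ) := by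
      apply Finset.sum_lt_sum_of_nonempty
      · rw [← Finset.card_pos, Finset.card_erase_of_mem (Finset.mem_univ _), Finset.card_univ,
          ← Nat.card_eq_fintype_card]
        omega
      · intro x hx
        have hx1 : x ≠ 1 := Finset.ne_of_mem_erase hx
        have h := hcon x hx1
        have hmul : (Subgroup.centralizer ({x} : Set G)).index
            * Nat.card (Subgroup.centralizer ({x} : Set G)) = Nat.card G :=
          Subgroup.index_mul_card _
        have hcpos : (0 : ℚ) < (Nat.card (Subgroup.centralizer ({x} : Set G)) : ℚ) := by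
          exact_mod_cast Nat.card_pos
        calc (Nat.card (Subgroup.centralizer ({x} : Set G)) : ℚ) * α ^ 2
            < (Nat.card (Subgroup.centralizer ({x} : Set G)) : ℚ)
              * ((Subgroup.centralizer ({x} : Set G)).index : ℚ) := mul_lt_mul_of_pos_left h hcpos
          _ = (Nat.card G : ℚ) := by
            rw [← hmul]
            push_cast
            ring
    rw [← Finset.sum_mul, hsum, Finset.sum_const, Finset.card_erase_of_mem (Finset.mem_univ _),
      Finset.card_univ, ← Nat.card_eq_fintype_card, nsmul_eq_mul, Nat.cast_sub (by omega)] at hlt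
    push_cast at hlt
    have hα2 : α ^ 2 * (t : ℚ) ^ 2 = ((Nat.card G : ℚ) - 1) ^ 2 := by
      rw [← mul_pow, hαt]
    have hgq' : (0 : ℚ) < (Nat.card G : ℚ) := by linarith
    have h3 : ((Nat.card (IrrCharacter G) : ℚ) - 1) * α ^ 2 < (Nat.card G : ℚ) - 1 := by
      by_contra h
      push Not at h
      nlinarith
    have h4 : ((Nat.card (IrrCharacter G) : ℚ) - 1) * ((Nat.card G : ℚ) - 1) ^ 2
        < ((Nat.card G : ℚ) - 1) * (t : ℚ) ^ 2 := by
      have ht2 : (0 : ℚ) < (t : ℚ) ^ 2 := by positivity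
      calc ((Nat.card (IrrCharacter G) : ℚ) - 1) * ((Nat.card G : ℚ) - 1) ^ 2
          = (((Nat.card (IrrCharacter G) : ℚ) - 1) * α ^ 2) * (t : ℚ) ^ 2 := by
            rw [← hα2]
            ring
        _ < ((Nat.card G : ℚ) - 1) * (t : ℚ) ^ 2 := mul_lt_mul_of_pos_right h3 ht2
    nlinarith
  · by_contra hcon
    push Not at hcon
    have hRne : R.Nonempty := by
      by_contra h
      rw [Finset.not_nonempty_iff_eq_empty] at h
      rw [h, Finset.sum_empty] at hle
      linarith
    have h1 : ∑ χ ∈ R, α * (charDegree (χ : G → ℂ) : ℚ)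
        < ∑ χ ∈ R, (charDegree (χ : G → ℂ) : ℚ) ^ 2 := by
      apply Finset.sum_lt_sum_of_nonempty hRne
      intro χ hχ
      rw [hR, Finset.mem_filter, Finset.mem_erase] at hχ
      have hne : (χ : G → ℂ) ≠ fun _ => 1 := by
        intro h
        apply hχ.1.1
        exact Subtype.ext h
      have := hcon χ hne hχ.2
      have hd : (0 : ℚ) < (charDegree (χ : G → ℂ) : ℚ) := lt_trans hαpos this
      nlinarith
    have h2 : ∑ χ ∈ R, (charDegree (χ : G → ℂ) : ℚ) ^ 2 ≤ (Nat.card G : ℚ) - 1 := by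
      rw [← hsq']
      exact Finset.sum_le_sum_of_subset_of_nonneg hRsub (fun _ _ _ => by positivity)
    rw [← Finset.mul_sum] at h1
    have h3 : α * (t : ℚ) ≤ α * ∑ χ ∈ R, (charDegree (χ : G → ℂ) : ℚ) :=
      mul_le_mul_of_nonneg_left hle hαpos.le
    linarith

end Cfsg.Agent.S4476
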