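import Cfsg.Statements.S4487
import Cfsg.Agent.Lib.helper23.SingleBlock

set_option autoImplicit false
open Cfsg

namespace Cfsg.Agent.S4487

/-- Let G be a finite group and p a prime such that G has no non-trivial normal subgroup of order prime to p and C_G(O_p(G)) ≤ O_p(G). Then G has a single p-block: any two irreducible characters lie in the same block relative to every maximal ideal M of the algebraic integers containing p. -/
theorem result {G : Type*} [Group G] [Finite G] (p : ℕ) [Fact p.Prime] (M : Ideal Cfsg.AlgInt) (hM : Cfsg.IsPModular p M) (hcore : Cfsg.pPrimeCore p G = ⊥) (hconstr : Subgroup.centralizer ((Cfsg.pCore p G) : Set G) ≤ Cfsg.pCore p G) (χ ψ : Cfsg.IrrCharacter G) : Cfsg.SameBlock M (χ : G → ℂ) (ψ : G → ℂ) := by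
  haveI := Cfsg.Agent.Lib.helper1.pCore_normal p G
  exact Cfsg.Agent.Lib.helper23.sameBlock_of_self_centralizing p M hM (Cfsg.pCore p G)
    (Cfsg.Agent.Lib.helper1.pCore_isPGroup p G) hconstr χ ψ

end Cfsg.Agent.S4487
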