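import Cfsg.Statements.S4495
import Cfsg.Agent.Lib.helper22.SelfCentStruct

set_option autoImplicit false
open Cfsg

namespace Cfsg.Agent.S4495

open Cfsg.Agent.Lib.helper22

theorem result {G : Type*} [Group G] [Finite G] (p : ℕ) (hp : p.Prime) (x : G) (hx : orderOf x = p) (hC : Subgroup.centralizer ({x} : Set G) = Subgroup.zpowers x) (t : ℕ) (ht : Nat.card {C : ConjClasses G // ∃ g ∈ C.carrier, orderOf g = p} = t) : (t ≠ p - 1 → (commutator G).index * t ≤ p - 1) ∧ (t = p - 1 → (commutator G).index = p) := by
  have hfact : Fact p.Prime := ⟨hp⟩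
  have hcount := sc_count hx hC
  rw [ht] at hcount
  have hp2 : 0 < p - 1 := by
    have := hp.two_le
    omega
  by_cases hN : Subgroup.normalizer (Subgroup.zpowers x : Set G) ≤ Subgroup.zpowers x
  · have he : (Subgroup.zpowers x).relIndex (Subgroup.normalizer (Subgroup.zpowers x : Set G)) = 1 :=
      Subgroup.relIndex_eq_one.mpr hN
    rw [he, one_mul] at hcount
    exact ⟨fun h => absurd hcount h, fun _ => (sc_transfer hx hC hN).1⟩
  · have hxc := sc_x_mem_commutator hx hC hN
    have hdvd := sc_index_dvd hx hC (commutator G) hxc
    have he : (Subgroup.zpowers x).relIndex (Subgroup.normalizer (Subgroup.zpowers x : Set G)) ≠ 1 :=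
      fun h => hN (Subgroup.relIndex_eq_one.mp h)
    constructor
    · intro _
      have hepos : 0 < (Subgroup.zpowers x).relIndex
          (Subgroup.normalizer (Subgroup.zpowers x : Set G)) := by
        rcases Nat.eq_zero_or_pos ((Subgroup.zpowers x).relIndex
          (Subgroup.normalizer (Subgroup.zpowers x : Set G))) with h0 | h0
        · rw [h0, zero_mul] at hcount
          omega
        · exact h0
      calc (commutator G).index * t
          ≤ (Subgroup.zpowers x).relIndex (Subgroup.normalizer (Subgroup.zpowers x : Set G)) * t :=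
            Nat.mul_le_mul_right t (Nat.le_of_dvd hepos hdvd)
        _ = p - 1 := hcount
    · intro htp
      rw [htp] at hcount
      exfalso
      apply he
      exact Nat.eq_of_mul_eq_mul_right hp2 (by rw [hcount, one_mul])

end Cfsg.Agent.S4495
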