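import Cfsg.Statements.S4636
-- import your own Cfsg.Agent.* helpers here

set_option autoImplicit false
open scoped Pointwise
open Cfsg

namespace Cfsg.Agent.S4636

/-- Let P be a nontrivial cyclic p-subgroup of the finite group G and Z its subgroup of order p. For every x outside N_G(Z), P meets its conjugate xPx⁻¹ trivially; consequently N_G(Q) ≤ N_G(Z) for every nontrivial subgroup Q of P. -/
theorem result {G : Type*} [Group G] [Finite G] (p : ℕ) [Fact p.Prime] (P : Subgroup G) (hP : IsPGroup p P) (hP1 : P ≠ ⊥) (hcyc : IsCyclic P) (Z : Subgroup G) (hZ : Z ≤ P) (hZcard : Nat.card Z = p) : (∀ x : G, x ∉ Subgroup.normalizer (Z : Set G) → P ⊓ MulAut.conj x • P = ⊥) ∧ ∀ Q : Subgroup G, Q ≤ P → Q ≠ ⊥ → Subgroup.normalizer (Q : Set G) ≤ Subgroup.normalizer (Z : Set G) := by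
  classical
  have hp : p.Prime := Fact.out
  have hZpow : ∀ z ∈ Z, z ^ p = 1 := by
    intro z hz
    have h1 : (⟨z, hz⟩ : Z) ^ Nat.card Z = 1 := pow_card_eq_one'
    rw [hZcard] at h1
    simpa using congrArg (Subtype.val) h1
  have hmem : ∀ w ∈ P, w ^ p = 1 → w ∈ Z := by
    intro w hw hwp
    letI : Fintype P := Fintype.ofFinite P
    letI : Fintype Z := Fintype.ofFinite Z
    have hle := IsCyclic.card_pow_eq_one_le (α := P) (n := p) hp.pos
    set S : Finset P := Finset.univ.filter (fun a : P => a ^ p = 1) with hS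
    set T : Finset P := S.filter (fun a : P => (a : G) ∈ Z) with hT
    have hTS : T ⊆ S := Finset.filter_subset _ _
    have hcardT : p ≤ T.card := by
      have hinj : Function.Injective (fun z : Z => (⟨(z : G), hZ z.2⟩ : P)) := by
        intro a b hab
        apply Subtype.ext
        simpa using congrArg (fun q : P => (q : G)) hab
      have h2 : (Finset.univ.image (fun z : Z => (⟨(z : G), hZ z.2⟩ : P))) ⊆ T := by
        intro a ha
        rw [Finset.mem_image] at ha
        obtain ⟨z, -, rfl⟩ := ha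
        rw [hT, Finset.mem_filter, hS, Finset.mem_filter]
        refine ⟨⟨Finset.mem_univ _, ?_⟩, z.2⟩
        apply Subtype.ext
        simpa using hZpow z z.2
      have h3 := Finset.card_le_card h2
      rw [Finset.card_image_of_injective _ hinj, Finset.card_univ, ← Nat.card_eq_fintype_card, hZcard] at h3
      exact h3
    have hTeq : T = S := Finset.eq_of_subset_of_card_le hTS (le_trans hle hcardT)
    have hwS : (⟨w, hw⟩ : P) ∈ S := by
      rw [hS, Finset.mem_filter]
      refine ⟨Finset.mem_univ _, ?_⟩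
      apply Subtype.ext
      simpa using hwp
    rw [← hTeq, hT, Finset.mem_filter] at hwS
    exact hwS.2
  have part1 : ∀ x : G, x ∉ Subgroup.normalizer (Z : Set G) → P ⊓ MulAut.conj x • P = ⊥ := by
    intro x hx
    by_contra hne
    rcases Subgroup.bot_or_exists_ne_one (P ⊓ MulAut.conj x • P) with h | ⟨y, hy, hy1⟩
    · exact hne h
    have hyP : y ∈ P := hy.1
    have hex : ∃ k : ℕ, y ^ p ^ k = 1 := by
      obtain ⟨k, hk⟩ := hP ⟨y, hyP⟩
      exact ⟨k, by simpa using congrArg (Subtype.val) hk⟩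
    have hk0 : Nat.find hex ≠ 0 := by
      intro h0
      have := Nat.find_spec hex
      rw [h0] at this
      simp at this
      exact hy1 this
    obtain ⟨m, hm⟩ := Nat.exists_eq_succ_of_ne_zero hk0
    set w := y ^ p ^ m with hw
    have hw1 : w ≠ 1 := by
      have := Nat.find_min hex (m := m) (by omega)
      exact this
    have hwp : w ^ p = 1 := by
      have := Nat.find_spec hex
      rw [hm, pow_succ, pow_mul] at this
      exact this
    have hwI : w ∈ P ⊓ MulAut.conj x • P := Subgroup.pow_mem _ hy _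
    have hwZ : w ∈ Z := hmem w hwI.1 hwp
    have hw2 : x⁻¹ * w * x ∈ P := by
      have h5 : w ∈ MulAut.conj x • P := hwI.2
      rw [Subgroup.mem_pointwise_smul_iff_inv_smul_mem] at h5
      simpa [MulAut.smul_def] using h5
    have hw2p : (x⁻¹ * w * x) ^ p = 1 := by
      have : x⁻¹ * w * x = MulAut.conj x⁻¹ w := by simp
      rw [this, ← map_pow, hwp, map_one]
    have hw2Z : x⁻¹ * w * x ∈ Z := hmem _ hw2 hw2p
    have hconj : ∀ z ∈ Z, x⁻¹ * z * x⁻¹⁻¹ ∈ Z := by
      intro z hz
      have h1 : (⟨z, hz⟩ : Z) ∈ Subgroup.zpowers (⟨w, hwZ⟩ : Z) :=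
        mem_zpowers_of_prime_card hZcard (by
          intro h
          exact hw1 (by simpa using congrArg (Subtype.val) h))
      obtain ⟨i, hi⟩ := h1
      have hz' : z = w ^ i := by
        have := congrArg (Subtype.val) hi
        simpa using this.symm
      have : x⁻¹ * z * x⁻¹⁻¹ = (x⁻¹ * w * x) ^ i := by
        have e1 : x⁻¹ * w * x = MulAut.conj x⁻¹ w := by simp
        have e2 : x⁻¹ * z * x⁻¹⁻¹ = MulAut.conj x⁻¹ z := by simp
        rw [e1, e2, hz', map_zpow]
      rw [this]
      exact Subgroup.zpow_mem _ hw2Z _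
    have hxinv : x⁻¹ ∈ Subgroup.normalizer (Z : Set G) :=
      Subgroup.mem_normalizer_fintype (S := (Z : Set G)) hconj
    exact hx (by simpa using inv_mem hxinv)
  refine ⟨part1, ?_⟩
  intro Q hQ hQ1 g hg
  by_contra hgn
  have h1 := part1 g hgn
  apply hQ1
  rw [eq_bot_iff, ← h1]
  refine le_inf hQ ?_
  intro x hx
  rw [Subgroup.mem_pointwise_smul_iff_inv_smul_mem]
  have h2 : g⁻¹ ∈ Subgroup.normalizer (Q : Set G) := inv_mem hg
  rw [Subgroup.mem_normalizer_iff] at h2
  have h3 := (h2 x).mp hx
  simp only [inv_inv] at h3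
  exact hQ (by simpa [MulAut.smul_def] using h3)

end Cfsg.Agent.S4636
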