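import Cfsg.Statements.S4665
import Cfsg.Agent.Lib.helper23.CharRes

set_option autoImplicit false
open Cfsg

namespace Cfsg.Agent.S4665

/-- Fix a prime p, a maximal ideal M of the algebraic integers containing p, and a p-block B of the finite group G, and let p^a be the p-part of the order of G. Let χ be an integer combination of the irreducible characters in B. If the function that agrees with χ on p-regular elements and vanishes on p-singular elements is again an integer combination of the irreducible characters in B, then p^a divides χ(1). -/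
theorem result {G : Type*} [Group G] [Fintype G] (p : ℕ) [Fact p.Prime] (M : Ideal Cfsg.AlgInt) (hM : Cfsg.IsPModular p M) (B : Set (Cfsg.IrrCharacter G)) (hB : Cfsg.IsPBlock M B) (χ : G → ℂ) (hχ : (∃ n : Cfsg.IrrCharacter G → ℤ, ∀ g : G, χ g = ∑ᶠ ψ ∈ B, (n ψ : ℂ) * (ψ : G → ℂ) g)) (h0 : (∃ n : Cfsg.IrrCharacter G → ℤ, ∀ g : G, Cfsg.pRegularPart p χ g = ∑ᶠ ψ ∈ B, (n ψ : ℂ) * (ψ : G → ℂ) g)) : ∃ k : ℤ, χ 1 = (p ^ (Nat.card G).factorization p : ℂ) * k := by
  classical
  obtain ⟨n, hn⟩ := h0
  have hp : p.Prime := Fact.out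
  obtain ⟨P⟩ : Nonempty (Sylow p G) := inferInstance
  have hPcard : Nat.card (P : Subgroup G) = p ^ (Nat.card G).factorization p :=
    P.card_eq_multiplicity
  have h1 : Cfsg.pRegularPart p χ 1 = χ 1 := by
    have h3 : ¬ p ∣ orderOf (1 : G) := by
      rw [orderOf_one]
      exact hp.one_lt.ne' ∘ Nat.dvd_one.mp
    unfold Cfsg.pRegularPart Cfsg.IsPRegular
    exact if_pos h3
  have hPsing : ∀ x : (P : Subgroup G), x ≠ 1 → Cfsg.pRegularPart p χ (x : G) = 0 := by
    intro x hx
    have hdvd : p ∣ orderOf (x : G) := by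
      obtain ⟨k, hk⟩ := (IsPGroup.iff_orderOf.mp P.isPGroup') x
      rw [Subgroup.orderOf_coe, hk]
      have hk0 : k ≠ 0 := by
        rintro rfl
        rw [pow_zero, orderOf_eq_one_iff] at hk
        exact hx hk
      exact dvd_pow_self p hk0
    unfold Cfsg.pRegularPart Cfsg.IsPRegular
    exact if_neg (not_not.mpr hdvd)
  set T : Set (Cfsg.IrrCharacter G) := {ψ | ψ ∈ B ∧ n ψ ≠ 0} with hT
  by_cases hfin : T.Finite
  · have hsum : ∀ g, Cfsg.pRegularPart p χ g =
        ∑ ψ ∈ hfin.toFinset, (n ψ : ℂ) * (ψ : G → ℂ) g := by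
      intro g
      rw [hn g]
      apply finsum_mem_eq_sum_of_inter_support_eq
      ext ψ
      simp only [Set.mem_inter_iff, Function.mem_support, Set.Finite.coe_toFinset, hT]
      constructor
      · rintro ⟨hB1, hne⟩
        exact ⟨⟨hB1, fun h => hne (by simp [h])⟩, hne⟩
      · rintro ⟨⟨hB1, _⟩, hne⟩
        exact ⟨hB1, hne⟩
    letI : Fintype (P : Subgroup G) := Fintype.ofFinite _
    have hA : ∑ x : (P : Subgroup G), Cfsg.pRegularPart p χ (x : G) = χ 1 := by
      rw [← h1, Finset.sum_eq_single (1 : (P : Subgroup G))]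
      · rfl
      · intro x _ hx
        exact hPsing x hx
      · intro h
        exact absurd (Finset.mem_univ _) h
    have hB' : ∑ x : (P : Subgroup G), Cfsg.pRegularPart p χ (x : G) =
        ∑ ψ ∈ hfin.toFinset, (n ψ : ℂ) * ∑ x : (P : Subgroup G), (ψ : G → ℂ) x := by
      simp_rw [hsum, Finset.mul_sum]
      rw [Finset.sum_comm]
    choose m hm using fun ψ : Cfsg.IrrCharacter G =>
      Cfsg.Agent.Lib.helper23.isCharacter_sum_subgroup
        (Cfsg.Agent.Lib.helper23.isIrrCharacter_isCharacter ψ.2) (P : Subgroup G)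
    refine ⟨∑ ψ ∈ hfin.toFinset, n ψ * (m ψ : ℤ), ?_⟩
    rw [← hA, hB']
    simp_rw [hm]
    have hcast : (p ^ (Nat.card G).factorization p : ℂ) = (Nat.card (P : Subgroup G) : ℂ) := by
      rw [hPcard]
      push_cast
      rfl
    rw [hcast]
    push_cast
    rw [Finset.mul_sum]
    refine Finset.sum_congr rfl fun ψ _ => by ring
  · refine ⟨0, ?_⟩
    rw [← h1, hn 1]
    simp only [Int.cast_zero, mul_zero]
    apply finsum_mem_eq_zero_of_infinite
    refine Set.Infinite.mono ?_ hfin
    intro ψ hψ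
    refine ⟨hψ.1, ?_⟩
    simp only [Function.mem_support]
    have h2 : (ψ : G → ℂ) 1 ≠ 0 := Cfsg.Agent.Lib.helper23.isIrrCharacter_one_ne_zero ψ.2
    exact mul_ne_zero (by exact_mod_cast hψ.2) h2

end Cfsg.Agent.S4665
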