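import Cfsg.Statements.S4668
import Cfsg.Agent.Lib.helper23.BlockCentralizer
import Cfsg.Agent.Lib.helper8.CoprimeAction
import Cfsg.Agent.Lib.helper5.BlockReg

set_option autoImplicit false
open Cfsg

namespace Cfsg.Agent.S4668

open Cfsg.Agent.Lib.helper5 Cfsg.Agent.Lib.helper23 Cfsg.Agent.Lib.helper24

theorem result {G : Type*} [Group G] [Fintype G] (p : ℕ) [Fact p.Prime] (M : Ideal Cfsg.AlgInt) (hM : Cfsg.IsPModular p M) (m : ℕ) (Q : Fin (m + 1) → Subgroup G) (hQ : StrictMono Q) (hQp : ∀ i, IsPGroup p (Q i)) (N : Subgroup G) (hN : ∀ g : G, g ∈ N ↔ ∀ i, g ∈ Subgroup.normalizer (Q i : Set G)) (E : Set (Cfsg.IrrCharacter N)) (hE : Cfsg.IsPBlock M E) (n : N) (hn : (n : G) ∉ Subgroup.centralizer (Q (Fin.last m) : Set G)) : Cfsg.blockCoeff E n = 0 := by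
  classical
  have : Fintype N := Fintype.ofFinite N
  have : Fintype (Cfsg.IrrCharacter N) := Fintype.ofFinite _
  have hMp := isPModular_isPrime hM
  have hp : p.Prime := hM.1
  by_contra hne
  apply hn
  have hreg : ¬ p ∣ orderOf n := by
    intro hdvd
    apply hne
    obtain ⟨χ₀, rfl⟩ := hE
    rw [← coef_indicator, coef_eq_zero_of_singular hM (indicator_mem_osimaRing hMp χ₀)
      (indicator_mul_self _) n hdvd]
  have hregG : ¬ p ∣ orderOf (n : G) := by
    rw [Subgroup.orderOf_coe]
    exact hreg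
  have hcent : ∀ i : Fin (m + 1), ∀ q : G, q ∈ Q i → q ∈ N → q * (n : G) = (n : G) * q := by
    intro i q hqi hqN
    have hnormal : ((Q i ⊓ N).subgroupOf N).Normal := by
      constructor
      intro x hx g
      rw [Subgroup.mem_subgroupOf] at hx ⊢
      refine Subgroup.mem_inf.mpr ⟨?_, (g * x * g⁻¹).2⟩
      have hg := (hN g).mp g.2 i
      have h1 := (Subgroup.mem_normalizer_iff.mp hg (x : G)).mp (Subgroup.mem_inf.mp hx).1
      push_cast
      exact h1
    have hpg : IsPGroup p ((Q i ⊓ N).subgroupOf N) :=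
      ((hQp i).to_le inf_le_left).comap_subtype
    have h1 : n ∈ Subgroup.centralizer (((Q i ⊓ N).subgroupOf N : Subgroup N) : Set N) := by
      by_contra hcon
      exact hne (blockCoeff_eq_zero_of_not_mem_centralizer hM _ hpg E hE n hcon)
    have h2 := Subgroup.mem_centralizer_iff.mp h1 ⟨q, hqN⟩
      (Subgroup.mem_subgroupOf.mpr (Subgroup.mem_inf.mpr ⟨hqi, hqN⟩))
    exact congrArg Subtype.val h2
  have hmono : ∀ i j : Fin (m + 1), i ≤ j → Q i ≤ Q j := fun i j hij => hQ.monotone hij
  have hcard : (Nat.card (Subgroup.zpowers (n : G))).Coprime p := by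
    rw [Nat.card_zpowers]
    exact ((Nat.Prime.coprime_iff_not_dvd hp).mpr hregG).symm
  have hnorm : ∀ i : Fin (m + 1), Subgroup.zpowers (n : G) ≤ Subgroup.normalizer (Q i : Set G) := by
    intro i
    rw [Subgroup.zpowers_le]
    exact (hN n).mp n.2 i
  have hmemN : ∀ (i : Fin (m + 1)) (q : G), q ∈ Q i →
      (∀ j : Fin (m + 1), j < i → q ∈ Subgroup.centralizer (Q j : Set G)) → q ∈ N := by
    intro i q hqi hc
    rw [hN]
    intro j
    rcases lt_or_ge j i with hji | hij
    · exact Subgroup.centralizer_le_normalizer _ (hc j hji)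
    · exact Subgroup.le_normalizer (hmono i j hij hqi)
  have hzc : ∀ q : G, q * (n : G) = (n : G) * q →
      q ∈ Subgroup.centralizer ((Subgroup.zpowers (n : G) : Subgroup G) : Set G) := by
    intro q hq
    rw [Subgroup.mem_centralizer_iff]
    rintro _ ⟨k, rfl⟩
    have hcm : Commute (n : G) q := hq.symm
    exact (hcm.zpow_left k).eq
  have key : ∀ k : ℕ, ∀ hk : k < m + 1,
      Subgroup.zpowers (n : G) ≤ Subgroup.centralizer (Q ⟨k, hk⟩ : Set G) := by
    intro k
    induction k with
    | zero =>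
      intro hk
      rw [Subgroup.zpowers_le, Subgroup.mem_centralizer_iff]
      intro q hq
      have hqN : q ∈ N := hmemN ⟨0, hk⟩ q hq (by
        intro j hj
        exact absurd hj (by simp))
      exact hcent ⟨0, hk⟩ q hq hqN
    | succ k ih =>
      intro hk
      have hk' : k < m + 1 := by omega
      have ih' := ih hk'
      have hPQ : Q ⟨k, hk'⟩ ≤ Subgroup.centralizer ((Subgroup.zpowers (n : G) : Subgroup G) : Set G) := by
        intro q hq
        apply hzc
        have h1 := Subgroup.mem_centralizer_iff.mp (ih' (Subgroup.mem_zpowers (n : G))) q hq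
        exact h1
      apply Cfsg.Agent.Lib.helper8.thompson_pq (p := p) (Q ⟨k, hk'⟩) (Subgroup.zpowers (n : G))
        (Q ⟨k + 1, hk⟩) (hQp _) hcard (hQp _) hPQ
      · exact (hmono ⟨k, hk'⟩ ⟨k + 1, hk⟩ (by simp [Fin.le_def])).trans Subgroup.le_normalizer
      · exact hnorm _
      · intro q hq
        obtain ⟨hq1, hq2⟩ := Subgroup.mem_inf.mp hq
        apply hzc
        have hqN : q ∈ N := hmemN ⟨k + 1, hk⟩ q hq1 (by
          intro j hj
          have hjk : j ≤ ⟨k, hk'⟩ := by
            rw [Fin.le_def]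
            rw [Fin.lt_def] at hj
            simp only at hj ⊢
            omega
          exact Subgroup.centralizer_le (hmono j ⟨k, hk'⟩ hjk) hq2)
        exact hcent ⟨k + 1, hk⟩ q hq1 hqN
  have hfin := key m (by omega) (Subgroup.mem_zpowers (n : G))
  exact hfin

end Cfsg.Agent.S4668
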