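import Cfsg.Statements.S4683
import Cfsg.Agent.Lib.helper22.SubsecNorm
import Cfsg.Agent.Lib.helper23.BrauerPairThird

set_option autoImplicit false
open Cfsg

namespace Cfsg.Agent.S4683

open Cfsg.Agent.Lib.helper24 Cfsg.Agent.Lib.helper23 Cfsg.Agent.Lib.helper22 Cfsg.Agent.Lib.helper5
open scoped ComplexConjugate

universe u

theorem brauerPair_induced {G : Type u} [Group G] [Fintype G] (p : ℕ) [Fact p.Prime]
    (M : Ideal AlgInt) (hM : IsPModular p M) (B : Set (IrrCharacter G)) (Q : Subgroup G)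
    (hQH : Q ≤ Subgroup.centralizer (Q : Set G))
    (e : Set (IrrCharacter (Subgroup.centralizer (Q : Set G))))
    (hBe : IsBrauerPairOf p M B Q e) :
    IsInducedBlock M (Subgroup.centralizer (Q : Set G)) e B := by
  classical
  have := Fintype.ofFinite (IrrCharacter G)
  have := Fintype.ofFinite (Subgroup.centralizer (Q : Set G))
  have := Fintype.ofFinite (IrrCharacter (Subgroup.centralizer (Q : Set G)))
  have hMp := isPModular_isPrime hM
  obtain ⟨⟨hQ, he⟩, hB, hom⟩ := hBe
  have hHN : Subgroup.centralizer (Q : Set G) ≤ Subgroup.normalizer (Q : Set G) :=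
    Subgroup.centralizer_le_normalizer _
  obtain ⟨B₁, hind⟩ := Cfsg.Agent.S0919.result p M hM Q (Subgroup.centralizer (Q : Set G)) hQ
    hQH le_rfl hHN e he
  suffices h : B₁ = B by rw [← h]; exact hind
  obtain ⟨ξ₀, rfl⟩ := he
  have hξ₀ : ξ₀ ∈ blockOf M ξ₀.1 := mem_blockOf_self hMp.ne_top ξ₀
  obtain ⟨χ₁, hB₁⟩ := hind.2.1
  have hχ₁ : χ₁ ∈ B₁ := by rw [hB₁]; exact mem_blockOf_self hMp.ne_top χ₁
  obtain ⟨χ₀, rfl⟩ := hB
  have ha := indicator_mem_osimaRing (G := G) hMp χ₀
  have h1 := brFun_top_of_induced (Subgroup.centralizer (Q : Set G)) hMp hind hξ₀ hχ₁ ha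
  have h2 := brFun_top_sub_centralizer (Subgroup.centralizer (Q : Set G)) hM Q hQ hQH hHN ξ₀ ha
  have h3 := hom ξ₀ hξ₀
  rw [brauerOmega_eq_brFun] at h3
  have h4 : MemLocalIdeal M ((blockOf M χ₀.1).indicator (fun _ => (1 : ℂ)) χ₁ - 1) := by
    have h5 := memLocalIdeal_add hMp (memLocalIdeal_sub hMp h2 h1) h3
    convert h5 using 1
    ring
  have hmem : χ₁ ∈ blockOf M χ₀.1 := by
    by_contra hn
    rw [Set.indicator_of_notMem hn, zero_sub] at h4
    have h6 := memLocalIdeal_neg h4
    rw [neg_neg] at h6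
    exact not_memLocalIdeal_one hMp h6
  rw [hB₁]
  exact blockOf_eq_of_mem hMp hmem

theorem result {G : Type*} [Group G] [Fintype G] (p : ℕ) [Fact p.Prime] (M : Ideal Cfsg.AlgInt) (hM : Cfsg.IsPModular p M) (B : Set (Cfsg.IrrCharacter G)) (u : G) (hu : ∃ k : ℕ, orderOf u = p ^ k) (e : Set (Cfsg.IrrCharacter (Subgroup.centralizer (Subgroup.zpowers u : Set G)))) (hBe : Cfsg.IsBrauerPairOf p M B (Subgroup.zpowers u) e) : ∑ᶠ χ ∈ B, ∑ᶠ s : Subgroup.centralizer (Subgroup.zpowers u : Set G), Cfsg.pRegularPart p (Cfsg.blockPart e (fun c : Subgroup.centralizer (Subgroup.zpowers u : Set G) => (χ : G → ℂ) (u * c))) s * Cfsg.blockPart e (fun c : Subgroup.centralizer (Subgroup.zpowers u : Set G) => (χ : G → ℂ) (u⁻¹ * c)) s⁻¹ = (Nat.card (Subgroup.centralizer (Subgroup.zpowers u : Set G)) : ℂ) * (Cfsg.blockRank p e : ℂ) := by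
  classical
  have := Fintype.ofFinite (IrrCharacter G)
  have := Fintype.ofFinite (Subgroup.centralizer (Subgroup.zpowers u : Set G))
  have := Fintype.ofFinite (IrrCharacter (Subgroup.centralizer (Subgroup.zpowers u : Set G)))
  have hQH : Subgroup.zpowers u ≤ Subgroup.centralizer (Subgroup.zpowers u : Set G) := by
    rw [Subgroup.zpowers_le, centralizer_zpowers_eq]
    exact self_mem_centralizer_singleton u
  have hind := brauerPair_induced p M hM B (Subgroup.zpowers u) hQH e hBe
  have he : IsPBlock M e := hBe.1.2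
  have hH1 : ∀ h : Subgroup.centralizer (Subgroup.zpowers u : Set G), (h : G) * u = u * (h : G) := by
    intro h
    have h1 : (h : G) ∈ Subgroup.centralizer ({u} : Set G) := by
      rw [← centralizer_zpowers_eq]
      exact h.2
    exact Subgroup.mem_centralizer_singleton_iff.mp h1
  have hH2 : Subgroup.centralizer ({u} : Set G) ≤ Subgroup.centralizer (Subgroup.zpowers u : Set G) :=
    centralizer_singleton_le_centralizer_zpowers u
  rw [← subsec_trace (Subgroup.centralizer (Subgroup.zpowers u : Set G)) hM u hu hH1 hH2 e he B hind,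
    finsum_mem_def, finsum_eq_sum_of_fintype]
  apply Finset.sum_congr rfl
  intro χ _
  by_cases hχ : χ ∈ B
  · rw [Set.indicator_of_mem hχ, Set.indicator_of_mem hχ, one_mul, finsum_eq_sum_of_fintype]
    apply Finset.sum_congr rfl
    intro s _
    rw [pRegularPart_apply, subsec_conj _ u hH1 e χ s]
    by_cases hs : p ∣ orderOf s
    · have : ¬ IsPRegular p s := fun h => h hs
      rw [if_neg this, if_pos hs, zero_mul]
    · rw [if_pos (show IsPRegular p s from hs), if_neg hs]
  · rw [Set.indicator_of_notMem hχ, Set.indicator_of_notMem hχ, zero_mul]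

end Cfsg.Agent.S4683
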