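import Cfsg.Statements.S4702
import Cfsg.Agent.Lib.helper2.Sharp3M

set_option autoImplicit false
open Cfsg

open Cfsg.Agent.Lib.helper2.Sharp3

namespace Cfsg.Agent.S4702

/-- Let G be a triply transitive permutation group on a finite set of odd size m ≥ 3 in which only the identity fixes three or more points. Then m = 2^a + 1 for some a ≥ 1 and G is isomorphic to SL(2, 2^a). -/
theorem result {α : Type*} [Fintype α] [DecidableEq α] (hm : 3 ≤ Fintype.card α) (hodd : Odd (Fintype.card α)) (G : Subgroup (Equiv.Perm α)) (h3 : MulAction.IsMultiplyPretransitive G α 3) (hfix : ∀ g : G, 3 ≤ Nat.card (MulAction.fixedBy α g) → g = 1) : ∃ a : ℕ, 1 ≤ a ∧ Fintype.card α = 2 ^ a + 1 ∧ ∃ (F : Type) (_ : Field F) (_ : Fintype F), Fintype.card F = 2 ^ a ∧ Nonempty (G ≃* Matrix.SpecialLinearGroup (Fin 2) F) := by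
  classical
  have h3t := three_trans_elem G h3
  have hsh : ∀ g ∈ G, ∀ a b c : α, a ≠ b → a ≠ c → b ≠ c → g a = a → g b = b → g c = c →
      g = 1 := by
    intro g hg a b c hab hac hbc ha hb hc
    have hsub : ({a, b, c} : Set α) ⊆ MulAction.fixedBy α (⟨g, hg⟩ : G) := by
      intro x hx
      rcases hx with rfl | rfl | hx
      · exact ha
      · exact hb
      · rw [Set.mem_singleton_iff] at hx
        rw [hx]
        exact hc
    have hcard : 3 ≤ Nat.card (MulAction.fixedBy α (⟨g, hg⟩ : G)) := by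
      rw [Nat.card_coe_set_eq]
      have h1 : ({a, b, c} : Set α).ncard = 3 :=
        Set.ncard_eq_three.mpr ⟨a, b, c, hab, hac, hbc, rfl⟩
      rw [← h1]
      exact Set.ncard_le_ncard hsub (Set.toFinite _)
    exact congrArg Subtype.val (hfix ⟨g, hg⟩ hcard)
  obtain ⟨F, hField, hFin, hChar, hcard, hiso⟩ := sharp3_main G hodd hm h3t hsh
  obtain ⟨a, ha, hFa⟩ := card_two_pow F
  exact ⟨a, ha, by rw [hcard, hFa], F, hField, hFin, hFa, hiso⟩

end Cfsg.Agent.S4702
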