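import Cfsg.Statements.S4729
import Cfsg.Agent.Lib.helper22.RootProj
import Cfsg.Agent.Lib.helper23.CharInt
import Cfsg.Agent.Lib.helper23.RepGen
import Cfsg.Agent.Lib.helper23.DefectBound
import Cfsg.Agent.Lib.helper24.CharKer

set_option autoImplicit false
open Cfsg

namespace Cfsg.Agent.S4729

open Cfsg.Agent.Lib.helper23 Cfsg.Agent.Lib.helper24 Cfsg.Agent.Lib.helper22
open scoped ComplexConjugate

theorem char_sub_deg_mem {G : Type*} [Group G] [Finite G] {p : ℕ} [Fact p.Prime]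
    {M : Ideal Cfsg.AlgInt} (hM : Cfsg.IsPModular p M) (P : Sylow p G) (χ : Cfsg.IrrCharacter G)
    (hχ : χ ∈ Cfsg.principalBlock M G) (g : G)
    (hg : g ∈ Subgroup.centralizer ((P : Subgroup G) : Set G)) :
    Cfsg.MemLocalIdeal M (χ.1 g - χ.1 1) := by
  have hMp := Cfsg.Agent.Lib.helper23.isPModular_isPrime hM
  have h := (Cfsg.Agent.Lib.helper23.mem_principalBlock_iff M χ).mp hχ g
  have hle : (P : Subgroup G) ≤ Subgroup.centralizer ({g} : Set G) := by
    intro x hx
    rw [Subgroup.mem_centralizer_singleton_iff]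
    exact Subgroup.mem_centralizer_iff.mp hg x hx
  have hidx : ¬ p ∣ (Subgroup.centralizer ({g} : Set G)).index := fun hd =>
    P.not_dvd_index (dvd_trans hd (Subgroup.index_dvd_of_le hle))
  obtain ⟨d, hd0, hd⟩ := isIrrCharacter_one χ.2
  have hdC : (d : ℂ) ≠ 0 := by exact_mod_cast hd0.ne'
  have hiC : ((Subgroup.centralizer ({g} : Set G)).index : ℂ) ≠ 0 := by
    exact_mod_cast Subgroup.index_ne_zero_of_finite
  unfold Cfsg.centralChar at h
  rw [hd] at h ⊢
  have h2 := memLocalIdeal_mul_left hMp (memLocalRing_mul hMp (memLocalRing_natCast hMp.ne_top d)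
    (memLocalRing_inv_natCast hM _ hidx)) (memLocalIdeal_neg h)
  convert h2 using 1
  field_simp
  ring

theorem result {G : Type*} [Group G] [Finite G] (p : ℕ) [Fact p.Prime] (M : Ideal Cfsg.AlgInt) (hM : Cfsg.IsPModular p M) (hperf : commutator G = ⊤) (P : Sylow p G) (χ : Cfsg.IrrCharacter G) (hχ : χ ∈ Cfsg.principalBlock M G) (hfaith : ∀ g : G, (χ : G → ℂ) g = (χ : G → ℂ) 1 → g = 1) (hdeg : Cfsg.charDegree (χ : G → ℂ) < 2 * p) : IsPGroup p ↥(Subgroup.centralizer ((P : Subgroup G) : Set G)) := by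
  classical
  have hp : p.Prime := hM.1
  have hMp := Cfsg.Agent.Lib.helper23.isPModular_isPrime hM
  by_contra hnp
  have hex : ∃ r : ℕ, r.Prime ∧ r ≠ p ∧
      r ∣ Nat.card (Subgroup.centralizer ((P : Subgroup G) : Set G)) := by
    by_contra hcon
    push Not at hcon
    apply hnp
    have hcard : Nat.card (Subgroup.centralizer ((P : Subgroup G) : Set G)) ≠ 0 :=
      Nat.card_pos.ne'
    have h1 := Nat.eq_prime_pow_of_unique_prime_dvd hcard (p := p) (fun {d} hd hdvd => by
      by_contra hne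
      exact hcon d hd hne hdvd)
    exact IsPGroup.of_card h1
  obtain ⟨r, hr, hrp, hrdvd⟩ := hex
  have : Fact r.Prime := ⟨hr⟩
  obtain ⟨z, hz⟩ := exists_prime_orderOf_dvd_card' r hrdvd
  have hzG : orderOf (z : G) = r := by rw [Subgroup.orderOf_coe]; exact hz
  have hzk : ∀ k : ℕ, (z : G) ^ k ∈ Subgroup.centralizer ((P : Subgroup G) : Set G) :=
    fun k => Subgroup.pow_mem _ z.2 k
  obtain ⟨n, ρ, hirr, hρ⟩ := χ.2
  have hχ1 : χ.1 1 = (n : ℂ) := by rw [← hρ, Representation.char_one, Module.finrank_fin_fun]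
  have hdegn : Cfsg.charDegree χ.1 = n := by
    have h1 := charDegree_cast χ
    rw [hχ1] at h1
    exact_mod_cast h1
  obtain ⟨A, hA⟩ : ∃ A : Module.End ℂ (Fin n → ℂ), A = ρ (z : G) := ⟨_, rfl⟩
  have hAr : A ^ r = 1 := by rw [hA, ← map_pow, ← hzG, pow_orderOf_eq_one, map_one]
  have htr : ∀ k : ℕ, LinearMap.trace ℂ (Fin n → ℂ) (A ^ k) = χ.1 ((z : G) ^ k) := by
    intro k
    rw [hA, ← map_pow, ← hρ]
    rfl
  have hdet : LinearMap.det A = 1 := by
    let f : G →* ℂˣ := (LinearMap.det.comp ρ).toHomUnits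
    have hker : f.ker = ⊤ := by
      have h1 := Abelianization.commutator_subset_ker f
      rw [hperf] at h1
      exact top_le_iff.mp h1
    have h1 : f (z : G) = 1 := by
      have h2 : (z : G) ∈ f.ker := by rw [hker]; trivial
      exact h2
    have h2 := congrArg Units.val h1
    rw [hA]
    exact h2
  obtain ⟨ω, hω⟩ : ∃ ω : ℂ, IsPrimitiveRoot ω r := ⟨_, Complex.isPrimitiveRoot_exp r hr.ne_zero⟩
  have hr0 : 0 < r := hr.pos
  have hrC : (r : ℂ) ≠ 0 := by exact_mod_cast hr.ne_zero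
  have hηr : ∀ j : ℕ, (ω ^ j) ^ r = 1 := fun j => by
    rw [← pow_mul, mul_comm, pow_mul, hω.pow_eq_one, one_pow]
  obtain ⟨Pj, hPj⟩ : ∃ Pj : ℕ → Module.End ℂ (Fin n → ℂ),
      Pj = fun j => (r : ℂ)⁻¹ • rootQ r A (ω ^ j) := ⟨_, rfl⟩
  have hidem : ∀ j, IsIdempotentElem (Pj j) := by
    intro j
    rw [hPj]
    show (r : ℂ)⁻¹ • rootQ r A (ω ^ j) * (r : ℂ)⁻¹ • rootQ r A (ω ^ j) = _
    rw [smul_mul_smul_comm, rootQ_sq r A hAr _ (hηr j), smul_smul]
    congr 1
    field_simp
  have hAP : ∀ j, A * Pj j = (ω ^ j)⁻¹ • Pj j := by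
    intro j
    have h1 := rootQ_mul r A hAr (ω ^ j) (hηr j)
    have hne : ω ^ j ≠ 0 := pow_ne_zero _ (hω.ne_zero hr.ne_zero)
    rw [hPj]
    simp only
    rw [mul_smul_comm, smul_comm]
    congr 1
    rw [eq_inv_smul_iff₀ hne]
    exact h1
  have hsum : ∑ j ∈ Finset.range r, Pj j = 1 := by
    rw [hPj]
    simp only
    rw [← Finset.smul_sum, rootQ_sum r A ω hω hr0, smul_smul, inv_mul_cancel₀ hrC, one_smul]
  obtain ⟨m, hm⟩ : ∃ m : ℕ → ℕ,
      m = fun j => Module.finrank ℂ (LinearMap.range (Pj j)) := ⟨_, rfl⟩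
  have htrP : ∀ j, LinearMap.trace ℂ (Fin n → ℂ) (Pj j) = (m j : ℂ) := by
    intro j
    rw [hm]
    exact (LinearMap.IsIdempotentElem.isProj_range _ (hidem j)).trace
  have hmsum : ∑ j ∈ Finset.range r, m j = n := by
    have h1 := congrArg (LinearMap.trace ℂ (Fin n → ℂ)) hsum
    rw [map_sum, LinearMap.trace_one, Module.finrank_fin_fun] at h1
    simp only [htrP] at h1
    exact_mod_cast h1
  have hform : ∀ j, (r : ℂ) * (m j : ℂ)
      = ∑ k ∈ Finset.range r, (ω ^ j) ^ k * χ.1 ((z : G) ^ k) := by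
    intro j
    rw [← htrP, hPj]
    simp only
    rw [map_smul, smul_eq_mul, ← mul_assoc, mul_inv_cancel₀ hrC, one_mul]
    unfold rootQ
    rw [map_sum]
    apply Finset.sum_congr rfl
    intro k _
    rw [map_smul, smul_eq_mul, htr]
  have hdiv : ∀ j, 0 < j → j < r → p ∣ m j := by
    intro j hj0 hjr
    have hne1 : ω ^ j ≠ 1 := hω.pow_ne_one_of_pos_of_lt hj0.ne' hjr
    have hgeom : ∑ k ∈ Finset.range r, (ω ^ j) ^ k = 0 := by
      have h3 := mul_geom_sum (ω ^ j) r
      rw [hηr j, sub_self] at h3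
      exact (mul_eq_zero.mp h3).resolve_left (sub_ne_zero.mpr hne1)
    have h1 : (r : ℂ) * (m j : ℂ)
        = ∑ k ∈ Finset.range r, (ω ^ j) ^ k * (χ.1 ((z : G) ^ k) - χ.1 1) := by
      rw [hform j]
      have h4 : ∑ k ∈ Finset.range r, (ω ^ j) ^ k * (χ.1 ((z : G) ^ k) - χ.1 1)
          = ∑ k ∈ Finset.range r, (ω ^ j) ^ k * χ.1 ((z : G) ^ k)
            - (∑ k ∈ Finset.range r, (ω ^ j) ^ k) * χ.1 1 := by
        rw [Finset.sum_mul, ← Finset.sum_sub_distrib]
        apply Finset.sum_congr rfl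
        intro k _
        ring
      rw [h4, hgeom, zero_mul, sub_zero]
    have h2 : Cfsg.MemLocalIdeal M (((r * m j : ℕ) : ℂ)) := by
      push_cast
      rw [h1]
      apply memLocalIdeal_sum hMp
      intro k _
      apply memLocalIdeal_mul_left hMp _ (char_sub_deg_mem hM P χ hχ _ (hzk k))
      apply memLocalRing_of_isIntegral hMp.ne_top
      exact IsIntegral.pow (IsIntegral.pow (hω.isIntegral hr0) j) k
    rw [memLocalIdeal_natCast_iff hM] at h2
    exact (hp.dvd_mul.mp h2).resolve_left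
      (fun h => hrp ((Nat.prime_dvd_prime_iff_eq hp hr).mp h).symm)
  have hn2p : n < 2 * p := by rw [← hdegn]; exact hdeg
  have hAsum : A = ∑ j ∈ Finset.range r, (ω ^ j)⁻¹ • Pj j := by
    have h1 : A = A * ∑ j ∈ Finset.range r, Pj j := by rw [hsum, mul_one]
    rw [h1, Finset.mul_sum]
    exact Finset.sum_congr rfl (fun j _ => hAP j)
  by_cases hJ : ∃ j₀, 0 < j₀ ∧ j₀ < r ∧ m j₀ ≠ 0
  · obtain ⟨j₀, hj0, hjr, hmj⟩ := hJ
    have hmp : p ≤ m j₀ := Nat.le_of_dvd (Nat.pos_of_ne_zero hmj) (hdiv j₀ hj0 hjr)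
    have hother : ∀ j, j < r → j ≠ 0 → j ≠ j₀ → m j = 0 := by
      intro j hjr' hj0' hjj
      by_contra hne
      have hmp' : p ≤ m j :=
        Nat.le_of_dvd (Nat.pos_of_ne_zero hne) (hdiv j (Nat.pos_of_ne_zero hj0') hjr')
      have hsub : ({j, j₀} : Finset ℕ) ⊆ Finset.range r := by
        intro i hi
        rw [Finset.mem_insert, Finset.mem_singleton] at hi
        rcases hi with rfl | rfl
        · exact Finset.mem_range.mpr hjr'
        · exact Finset.mem_range.mpr hjr
      have h5 := Finset.sum_le_sum_of_subset (f := m) hsub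
      rw [Finset.sum_pair hjj, hmsum] at h5
      omega
    have hmeq : m j₀ = p := by
      have hle : m j₀ ≤ n := by
        rw [← hmsum]
        exact Finset.single_le_sum (f := m) (fun _ _ => Nat.zero_le _) (Finset.mem_range.mpr hjr)
      obtain ⟨c, hc⟩ := hdiv j₀ hj0 hjr
      have hc1 : c = 1 := by
        rcases c with _ | _ | c
        · rw [mul_zero] at hc
          exact absurd hc hmj
        · rfl
        · exfalso
          have h6 : 2 * p ≤ m j₀ := by
            rw [hc]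
            nlinarith
          omega
      rw [hc, hc1, mul_one]
    have hPzero : ∀ j, j < r → j ≠ 0 → j ≠ j₀ → Pj j = 0 := by
      intro j h1 h2 h3
      have h4 := hother j h1 h2 h3
      rw [hm] at h4
      simp only at h4
      rw [Submodule.finrank_eq_zero] at h4
      exact LinearMap.range_eq_bot.mp h4
    have hsum2 : Pj 0 + Pj j₀ = 1 := by
      rw [← hsum]
      symm
      apply Finset.sum_eq_add 0 j₀ hj0.ne
      · intro c hc hcc
        exact hPzero c (Finset.mem_range.mp hc) hcc.1 hcc.2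
      · intro h
        exact absurd (Finset.mem_range.mpr hr0) h
      · intro h
        exact absurd (Finset.mem_range.mpr hjr) h
    have hA2 : A = Pj 0 + (ω ^ j₀)⁻¹ • Pj j₀ := by
      have h7 : ∑ j ∈ Finset.range r, (ω ^ j)⁻¹ • Pj j
          = (ω ^ 0)⁻¹ • Pj 0 + (ω ^ j₀)⁻¹ • Pj j₀ := by
        apply Finset.sum_eq_add 0 j₀ hj0.ne
        · intro c hc hcc
          rw [hPzero c (Finset.mem_range.mp hc) hcc.1 hcc.2, smul_zero]
        · intro h
          exact absurd (Finset.mem_range.mpr hr0) h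
        · intro h
          exact absurd (Finset.mem_range.mpr hjr) h
      rw [pow_zero, inv_one, one_smul] at h7
      rw [← h7]
      exact hAsum
    have hA3 : A = 1 + ((ω ^ j₀)⁻¹ - 1) • Pj j₀ := by
      rw [hA2, ← hsum2]
      module
    rw [hA3, det_one_add_smul_idem _ (hidem j₀)] at hdet
    have hmm : Module.finrank ℂ (LinearMap.range (Pj j₀)) = p := by
      rw [← hmeq, hm]
    rw [hmm, inv_pow, inv_eq_one, ← pow_mul] at hdet
    have hdvd := (hω.pow_eq_one_iff_dvd _).mp hdet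
    rcases (Nat.Prime.dvd_mul hr).mp hdvd with h | h
    · exact absurd (Nat.le_of_dvd hj0 h) (not_le.mpr hjr)
    · exact hrp ((Nat.prime_dvd_prime_iff_eq hr hp).mp h)
  · push Not at hJ
    have hm0 : m 0 = n := by
      rw [← hmsum]
      symm
      apply Finset.sum_eq_single 0
      · intro j hj hj0
        exact hJ j (Nat.pos_of_ne_zero hj0) (Finset.mem_range.mp hj)
      · intro h
        exact absurd (Finset.mem_range.mpr hr0) h
    have hχz : χ.1 (z : G) = χ.1 1 := by
      have h1 := htr 1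
      rw [pow_one, pow_one] at h1
      rw [← h1, hAsum, map_sum]
      simp only [map_smul, htrP, smul_eq_mul]
      rw [Finset.sum_eq_single 0]
      · rw [pow_zero, inv_one, one_mul, hm0, hχ1]
      · intro j hj hj0
        rw [hJ j (Nat.pos_of_ne_zero hj0) (Finset.mem_range.mp hj), Nat.cast_zero, mul_zero]
      · intro h
        exact absurd (Finset.mem_range.mpr hr0) h
    have hz1 := hfaith _ hχz
    rw [hz1, orderOf_one] at hzG
    exact hr.one_lt.ne' hzG.symm

end Cfsg.Agent.S4729
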