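import Cfsg.Statements.S4956
import Mathlib
import Cfsg.Agent.Lib.helper8.CoprimeAction

set_option autoImplicit false
open Cfsg

namespace Cfsg.Agent.S4956

universe u
open scoped commutatorElement

/-- the subgroup `{[u, g] : u ∈ V}` for an abelian normal subgroup `V` -/
def commSub {X : Type u} [Group X] (V : Subgroup X) [hV : V.Normal]
    (hab : ∀ a ∈ V, ∀ b ∈ V, a * b = b * a) (g : X) : Subgroup X where
  carrier := {x | ∃ u ∈ V, x = ⁅u, g⁆}
  one_mem' := ⟨1, V.one_mem, by simp⟩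
  mul_mem' := by
    rintro _ _ ⟨u₁, h₁, rfl⟩ ⟨u₂, h₂, rfl⟩
    refine ⟨u₁ * u₂, V.mul_mem h₁ h₂, ?_⟩
    have ha : g * u₁⁻¹ * g⁻¹ ∈ V := hV.conj_mem _ (V.inv_mem h₁) g
    have hb : g * u₂⁻¹ * g⁻¹ ∈ V := hV.conj_mem _ (V.inv_mem h₂) g
    have hcomm1 := hab _ ha _ h₂
    have hcomm2 := hab _ ha _ hb
    simp only [commutatorElement_def]
    calc u₁ * g * u₁⁻¹ * g⁻¹ * (u₂ * g * u₂⁻¹ * g⁻¹)
        = u₁ * ((g * u₁⁻¹ * g⁻¹) * u₂) * (g * u₂⁻¹ * g⁻¹) := by group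
      _ = u₁ * (u₂ * (g * u₁⁻¹ * g⁻¹)) * (g * u₂⁻¹ * g⁻¹) := by rw [hcomm1]
      _ = u₁ * u₂ * ((g * u₁⁻¹ * g⁻¹) * (g * u₂⁻¹ * g⁻¹)) := by group
      _ = u₁ * u₂ * ((g * u₂⁻¹ * g⁻¹) * (g * u₁⁻¹ * g⁻¹)) := by rw [hcomm2]
      _ = u₁ * u₂ * g * (u₁ * u₂)⁻¹ * g⁻¹ := by group
  inv_mem' := by
    rintro _ ⟨u, hu, rfl⟩
    refine ⟨u⁻¹, V.inv_mem hu, ?_⟩
    have ha : g * u * g⁻¹ ∈ V := hV.conj_mem _ hu g
    have hcomm := hab _ ha _ (V.inv_mem hu)
    simp only [commutatorElement_def]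
    calc (u * g * u⁻¹ * g⁻¹)⁻¹ = (g * u * g⁻¹) * u⁻¹ := by group
      _ = u⁻¹ * (g * u * g⁻¹) := hcomm
      _ = u⁻¹ * g * u⁻¹⁻¹ * g⁻¹ := by group

lemma comm_pow_mem {X : Type u} [Group X] (V : Subgroup X) [hV : V.Normal]
    (hab : ∀ a ∈ V, ∀ b ∈ V, a * b = b * a) (g : X) :
    ∀ i : ℕ, ∀ v ∈ V, ⁅v, g ^ i⁆ ∈ commSub V hab g := by
  intro i
  induction i with
  | zero =>
    intro v _
    simp [Subgroup.one_mem]
  | succ i ih =>
    intro v hv
    have hcomm : g ^ i * g = g * g ^ i := (Commute.pow_self g i).eq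
    have h1 : (g ^ i)⁻¹ * g * g ^ i = g := by
      rw [mul_assoc, ← hcomm, inv_mul_cancel_left]
    have h2 : g⁻¹ * (g ^ i)⁻¹ = (g ^ i)⁻¹ * g⁻¹ := by
      rw [← mul_inv_rev, ← mul_inv_rev, hcomm]
    have key : ⁅v, g ^ (i + 1)⁆ = ⁅v, g ^ i⁆ * ⁅g ^ i * v * (g ^ i)⁻¹, g⁆ := by
      rw [pow_succ]
      simp only [commutatorElement_def]
      calc v * (g ^ i * g) * v⁻¹ * (g ^ i * g)⁻¹
          = v * g ^ i * g * v⁻¹ * (g⁻¹ * (g ^ i)⁻¹) := by group
        _ = v * g ^ i * g * v⁻¹ * ((g ^ i)⁻¹ * g⁻¹) := by rw [h2]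
        _ = v * g ^ i * ((g ^ i)⁻¹ * g * g ^ i) * v⁻¹ * (g ^ i)⁻¹ * g⁻¹ := by rw [h1]; group
        _ = v * g ^ i * v⁻¹ * (g ^ i)⁻¹ *
            (g ^ i * v * (g ^ i)⁻¹ * g * (g ^ i * v * (g ^ i)⁻¹)⁻¹ * g⁻¹) := by group
    rw [key]
    exact Subgroup.mul_mem _ (ih v hv) ⟨_, hV.conj_mem v hv (g ^ i), rfl⟩

/-- coprime action of a single element on an abelian normal subgroup -/
theorem decomp {X : Type u} [Group X] [Finite X] (V : Subgroup X) [hV : V.Normal]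
    (hab : ∀ a ∈ V, ∀ b ∈ V, a * b = b * a) (g : X) (hg : (orderOf g).Coprime (Nat.card V)) :
    (∀ v ∈ V, ∃ u ∈ V, ∃ c ∈ V, c * g = g * c ∧ v = ⁅u, g⁆ * c) ∧
    (∀ u ∈ V, (⁅u, g⁆ * g = g * ⁅u, g⁆) → ⁅u, g⁆ = 1) := by
  haveI : IsMulCommutative V := ⟨⟨fun a b => Subtype.ext (hab a a.2 b b.2)⟩⟩
  have hAV : Subgroup.zpowers g ≤ Subgroup.normalizer (V : Set X) := by
    rw [Subgroup.normalizer_eq_top]; exact le_top
  have hcop : (Nat.card (Subgroup.zpowers g)).Coprime (Nat.card V) := by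
    rw [Nat.card_zpowers]; exact hg
  constructor
  · intro v hv
    obtain ⟨m, hm, c, hc, rfl⟩ := Cfsg.Agent.Lib.helper8.exists_commutator_mul_fixed
      (Subgroup.zpowers g) V hAV hcop
      (Or.inr (Cfsg.Agent.Lib.helper8.isSolvable_of_isMulCommutative V)) v hv
    have hle : ⁅V, Subgroup.zpowers g⁆ ≤ commSub V hab g := by
      rw [Subgroup.commutator_le]
      intro w hw a ha
      have ha' : a ∈ Submonoid.powers g := (mem_powers_iff_mem_zpowers).mpr ha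
      obtain ⟨i, rfl⟩ := (Submonoid.mem_powers_iff _ _).mp ha'
      exact comm_pow_mem V hab g i w hw
    obtain ⟨u, hu, rfl⟩ := hle hm
    refine ⟨u, hu, c, hc.1, ?_, rfl⟩
    exact (Subgroup.mem_centralizer_iff.mp hc.2 g (Subgroup.mem_zpowers g)).symm
  · intro u hu hcomm
    have hbot := Cfsg.Agent.Lib.helper8.fixed_inf_commutator_eq_bot (Subgroup.zpowers g) V hAV hcop
    have hm1 : ⁅u, g⁆ ∈ V := by
      have : ⁅u, g⁆ = u * (g * u⁻¹ * g⁻¹) := by rw [commutatorElement_def]; group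
      rw [this]
      exact V.mul_mem hu (hV.conj_mem _ (V.inv_mem hu) g)
    have hm2 : ⁅u, g⁆ ∈ Subgroup.centralizer (Subgroup.zpowers g : Set X) := by
      rw [Subgroup.mem_centralizer_iff]
      intro h hh
      obtain ⟨k, rfl⟩ := Subgroup.mem_zpowers_iff.mp hh
      have hc : Commute g ⁅u, g⁆ := hcomm.symm
      exact (hc.zpow_left k).eq
    have hmem : ⁅u, g⁆ ∈ (V ⊓ Subgroup.centralizer (Subgroup.zpowers g : Set X)) ⊓
        ⁅V, Subgroup.zpowers g⁆ :=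
      Subgroup.mem_inf.mpr ⟨Subgroup.mem_inf.mpr ⟨hm1, hm2⟩,
        Subgroup.commutator_mem_commutator hu (Subgroup.mem_zpowers g)⟩
    rw [hbot] at hmem
    exact Subgroup.mem_bot.mp hmem


/-- Let X be a finite group, V an abelian normal subgroup of X (any two elements of V commute) and G a complement to V in X whose order is coprime to that of V. Let S be a set of representatives of the orbits of G on V under conjugation: S lies in V and every element of V is conjugate under G to exactly one member of S. Then the number of conjugacy classes of X equals the sum, over s in S, of the number of conjugacy classes of the centralizer of s in G. -/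
theorem result {X : Type*} [Group X] [Finite X] (V : Subgroup X) [V.Normal] (hab : ∀ a ∈ V, ∀ b ∈ V, a * b = b * a) (G : Subgroup X) (hGV : Subgroup.IsComplement' V G) (hcop : (Nat.card V).Coprime (Nat.card G)) (S : Finset X) (hSV : ∀ s ∈ S, s ∈ V) (hrep : ∀ v ∈ V, ∃! s, s ∈ S ∧ ∃ g ∈ G, g * v * g⁻¹ = s) : Nat.card (ConjClasses X) = ∑ s ∈ S, Nat.card (ConjClasses ↥(G ⊓ Subgroup.centralizer ({s} : Set X))) := by
  classical
  have huniq : ∀ v ∈ V, ∀ g ∈ G, ∀ v' ∈ V, ∀ g' ∈ G, v * g = v' * g' → v = v' ∧ g = g' := by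
    intro v hv g hg v' hv' g' hg' h
    have := hGV.1 (a₁ := (⟨v, hv⟩, ⟨g, hg⟩)) (a₂ := (⟨v', hv'⟩, ⟨g', hg'⟩)) h
    simp only [Prod.mk.injEq, Subtype.mk.injEq] at this
    exact this
  have hex : ∀ x : X, ∃ v ∈ V, ∃ g ∈ G, x = v * g := by
    intro x
    obtain ⟨⟨v, g⟩, h⟩ := hGV.2 x
    exact ⟨v, v.2, g, g.2, h.symm⟩
  have hordcop : ∀ g ∈ G, (orderOf g).Coprime (Nat.card V) := by
    intro g hg
    have h1 : orderOf g ∣ Nat.card G := by
      have := orderOf_dvd_natCard (⟨g, hg⟩ : G)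
      rwa [Subgroup.orderOf_mk] at this
    exact Nat.Coprime.coprime_dvd_left h1 hcop.symm
  let Φ : (Σ s : {s // s ∈ S}, ConjClasses ↥(G ⊓ Subgroup.centralizer ({(s : X)} : Set X))) →
      ConjClasses X :=
    fun p => Quotient.lift
      (fun c : ↥(G ⊓ Subgroup.centralizer ({(p.1 : X)} : Set X)) =>
        ConjClasses.mk ((p.1 : X) * (c : X))) (by
      intro c c' hcc
      have hcc' : IsConj c c' := hcc
      obtain ⟨t, ht⟩ := isConj_iff.mp hcc'
      apply ConjClasses.mk_eq_mk_iff_isConj.mpr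
      apply isConj_iff.mpr
      refine ⟨(t : X), ?_⟩
      have hts : (t : X) * (p.1 : X) = (p.1 : X) * (t : X) := by
        have := (Subgroup.mem_inf.mp t.2).2
        exact (Subgroup.mem_centralizer_iff.mp this _ rfl).symm
      have ht' : (t : X) * (c : X) * (t : X)⁻¹ = (c' : X) := congrArg Subtype.val ht
      calc (t : X) * ((p.1 : X) * (c : X)) * (t : X)⁻¹
          = ((t : X) * (p.1 : X)) * (c : X) * (t : X)⁻¹ := by group
        _ = (p.1 : X) * ((t : X) * (c : X) * (t : X)⁻¹) := by rw [hts]; group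
        _ = (p.1 : X) * (c' : X) := by rw [ht']) p.2
  have hΦ : ∀ (s : {s // s ∈ S}) (c : ↥(G ⊓ Subgroup.centralizer ({(s : X)} : Set X))),
      Φ ⟨s, ConjClasses.mk c⟩ = ConjClasses.mk ((s : X) * (c : X)) := fun s c => rfl
  have hbij : Function.Bijective Φ := by
    constructor
    · rintro ⟨⟨s, hs⟩, C⟩ ⟨⟨s', hs'⟩, C'⟩ h
      obtain ⟨c, rfl⟩ := ConjClasses.exists_rep C
      obtain ⟨c', rfl⟩ := ConjClasses.exists_rep C'
      rw [hΦ, hΦ, ConjClasses.mk_eq_mk_iff_isConj, isConj_iff] at h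
      obtain ⟨x, hx⟩ := h
      simp only at hx
      obtain ⟨u, hu, t, ht, rfl⟩ := hex x
      have hcG : (c : X) ∈ G := (Subgroup.mem_inf.mp c.2).1
      have hcs : s * (c : X) = (c : X) * s :=
        Subgroup.mem_centralizer_iff.mp (Subgroup.mem_inf.mp c.2).2 s rfl
      have hc'G : (c' : X) ∈ G := (Subgroup.mem_inf.mp c'.2).1
      have hc's : s' * (c' : X) = (c' : X) * s' :=
        Subgroup.mem_centralizer_iff.mp (Subgroup.mem_inf.mp c'.2).2 s' rfl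
      have hs₁V : t * s * t⁻¹ ∈ V := ‹V.Normal›.conj_mem s (hSV s hs) t
      have hc₁G : t * (c : X) * t⁻¹ ∈ G := G.mul_mem (G.mul_mem ht hcG) (G.inv_mem ht)
      have hcommV : ⁅u, t * (c : X) * t⁻¹⁆ ∈ V := by
        have : ⁅u, t * (c : X) * t⁻¹⁆ =
            u * ((t * (c : X) * t⁻¹) * u⁻¹ * (t * (c : X) * t⁻¹)⁻¹) := by
          rw [commutatorElement_def]; group
        rw [this]
        exact V.mul_mem hu (‹V.Normal›.conj_mem _ (V.inv_mem hu) _)
      have hus : u * (t * s * t⁻¹) = (t * s * t⁻¹) * u := hab u hu _ hs₁V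
      have e1 : u * t * (s * (c : X)) * (u * t)⁻¹ =
          ((t * s * t⁻¹) * ⁅u, t * (c : X) * t⁻¹⁆) * (t * (c : X) * t⁻¹) := by
        rw [commutatorElement_def]
        calc u * t * (s * (c : X)) * (u * t)⁻¹
            = (u * (t * s * t⁻¹)) * (t * (c : X) * t⁻¹) * u⁻¹ := by group
          _ = ((t * s * t⁻¹) * u) * (t * (c : X) * t⁻¹) * u⁻¹ := by rw [hus]
          _ = t * s * t⁻¹ * (u * (t * ↑c * t⁻¹) * u⁻¹ * (t * ↑c * t⁻¹)⁻¹) * (t * ↑c * t⁻¹) := by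
              group
      rw [e1] at hx
      obtain ⟨hx1, hx2⟩ := huniq _ (V.mul_mem hs₁V hcommV) _ hc₁G s' (hSV s' hs') _ hc'G hx
      have hs₁c₁ : (t * s * t⁻¹) * (t * (c : X) * t⁻¹) = (t * (c : X) * t⁻¹) * (t * s * t⁻¹) := by
        calc (t * s * t⁻¹) * (t * (c : X) * t⁻¹) = t * (s * (c : X)) * t⁻¹ := by group
          _ = t * ((c : X) * s) * t⁻¹ := by rw [hcs]
          _ = (t * (c : X) * t⁻¹) * (t * s * t⁻¹) := by group
      have hcomm_eq : ⁅u, t * (c : X) * t⁻¹⁆ = (t * s * t⁻¹)⁻¹ * s' := by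
        rw [← hx1]; group
      have hcc : ⁅u, t * (c : X) * t⁻¹⁆ * (t * (c : X) * t⁻¹) =
          (t * (c : X) * t⁻¹) * ⁅u, t * (c : X) * t⁻¹⁆ := by
        rw [hcomm_eq]
        have h3 : s' * (t * (c : X) * t⁻¹) = (t * (c : X) * t⁻¹) * s' := by rw [hx2]; exact hc's
        have h4 : (t * s * t⁻¹)⁻¹ * (t * (c : X) * t⁻¹) = (t * (c : X) * t⁻¹) * (t * s * t⁻¹)⁻¹ := by
          rw [eq_mul_inv_iff_mul_eq, mul_assoc, ← hs₁c₁, ← mul_assoc, inv_mul_cancel, one_mul]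
        calc (t * s * t⁻¹)⁻¹ * s' * (t * (c : X) * t⁻¹)
            = (t * s * t⁻¹)⁻¹ * (s' * (t * (c : X) * t⁻¹)) := by group
          _ = (t * s * t⁻¹)⁻¹ * ((t * (c : X) * t⁻¹) * s') := by rw [h3]
          _ = ((t * s * t⁻¹)⁻¹ * (t * (c : X) * t⁻¹)) * s' := by group
          _ = ((t * (c : X) * t⁻¹) * (t * s * t⁻¹)⁻¹) * s' := by rw [h4]
          _ = t * ↑c * t⁻¹ * ((t * s * t⁻¹)⁻¹ * s') := by group
      have hone := (decomp V hab (t * (c : X) * t⁻¹) (hordcop _ hc₁G)).2 u hu hcc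
      rw [hone, mul_one] at hx1
      have hss : s = s' := by
        obtain ⟨s₀, -, hs₀⟩ := hrep s (hSV s hs)
        have h5 := hs₀ s ⟨hs, 1, G.one_mem, by group⟩
        have h6 := hs₀ s' ⟨hs', t, ht, hx1⟩
        rw [h5, h6]
      subst hss
      have htc0 : t ∈ Subgroup.centralizer ({s} : Set X) := by
        rw [Subgroup.mem_centralizer_iff]
        intro h hh
        rw [Set.mem_singleton_iff] at hh
        subst hh
        calc h * t = (t * h * t⁻¹) * t := by rw [hx1]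
          _ = t * h := by group
      have htc : t ∈ G ⊓ Subgroup.centralizer ({s} : Set X) := Subgroup.mem_inf.mpr ⟨ht, htc0⟩
      refine congrArg (Sigma.mk _) ?_
      rw [ConjClasses.mk_eq_mk_iff_isConj, isConj_iff]
      exact ⟨⟨t, htc⟩, Subtype.ext hx2⟩
    · intro C
      obtain ⟨x, rfl⟩ := ConjClasses.exists_rep C
      obtain ⟨v, hv, g, hg, rfl⟩ := hex x
      obtain ⟨u, hu, c, hc, hcg, rfl⟩ := (decomp V hab g (hordcop g hg)).1 v hv
      obtain ⟨s, ⟨hsS, t, htG, hts⟩, -⟩ := hrep c hc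
      have hmem0 : t * g * t⁻¹ ∈ Subgroup.centralizer ({s} : Set X) := by
        rw [Subgroup.mem_centralizer_iff]
        intro h hh
        rw [Set.mem_singleton_iff] at hh
        subst hh
        rw [← hts]
        calc t * c * t⁻¹ * (t * g * t⁻¹) = t * (c * g) * t⁻¹ := by group
          _ = t * (g * c) * t⁻¹ := by rw [hcg]
          _ = t * g * t⁻¹ * (t * c * t⁻¹) := by group
      have hmem : t * g * t⁻¹ ∈ G ⊓ Subgroup.centralizer ({s} : Set X) :=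
        Subgroup.mem_inf.mpr ⟨G.mul_mem (G.mul_mem htG hg) (G.inv_mem htG), hmem0⟩
      refine ⟨⟨⟨s, hsS⟩, ConjClasses.mk ⟨t * g * t⁻¹, hmem⟩⟩, ?_⟩
      rw [hΦ, ConjClasses.mk_eq_mk_iff_isConj, isConj_iff]
      refine ⟨u * t⁻¹, ?_⟩
      have huc : u⁻¹ * c = c * u⁻¹ := hab _ (V.inv_mem hu) _ hc
      simp only
      rw [← hts, commutatorElement_def]
      calc u * t⁻¹ * (t * c * t⁻¹ * (t * g * t⁻¹)) * (u * t⁻¹)⁻¹
          = u * (c * g) * u⁻¹ := by group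
        _ = u * (g * c) * u⁻¹ := by rw [hcg]
        _ = u * g * (c * u⁻¹) := by group
        _ = u * g * (u⁻¹ * c) := by rw [huc]
        _ = u * g * u⁻¹ * g⁻¹ * (g * c) := by group
        _ = u * g * u⁻¹ * g⁻¹ * (c * g) := by rw [hcg]
        _ = u * g * u⁻¹ * g⁻¹ * c * g := by group
  rw [← Nat.card_congr (Equiv.ofBijective Φ hbij), Nat.card_sigma]
  exact Finset.sum_coe_sort S
    (fun s => Nat.card (ConjClasses ↥(G ⊓ Subgroup.centralizer ({s} : Set X))))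

end Cfsg.Agent.S4956
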