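import Cfsg.Statements.S4964
import Mathlib
import Cfsg.Agent.Lib.helper5.BlockReg
import Cfsg.Agent.Lib.helper5.BlockPCore
import Cfsg.Agent.Lib.helper24.CharVanish
import Cfsg.Agent.Lib.helper8.CoprimeAction
import Cfsg.Agent.Lib.helper1.PGroup

set_option autoImplicit false
open Cfsg

namespace Cfsg.Agent.S4964

open Cfsg.Agent.Lib.helper5 Cfsg.Agent.Lib.helper23 Cfsg.Agent.Lib.helper24
open scoped ComplexConjugate

open scoped commutatorElement

/-- an element of order prime to `p` acting trivially on `D/D'` centralizes the normal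
`p`-subgroup `D` -/
theorem centralizes_of_trivial_on_abelianization {G : Type*} [Group G] [Finite G] {p : ℕ}
    [Fact p.Prime] (D : Subgroup G) [D.Normal] (hD : IsPGroup p D) (x : G)
    (hx : ¬ p ∣ orderOf x)
    (hxD : (QuotientGroup.mk x : G ⧸ ⁅D, D⁆) ∈ Subgroup.centralizer
      ((D.map (QuotientGroup.mk' ⁅D, D⁆) : Subgroup (G ⧸ ⁅D, D⁆)) : Set (G ⧸ ⁅D, D⁆))) :
    x ∈ Subgroup.centralizer (D : Set G) := by
  classical
  have hp : p.Prime := Fact.out
  obtain ⟨A, hA⟩ : ∃ A : Subgroup G, A = Subgroup.zpowers x := ⟨_, rfl⟩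
  have hAK : A ≤ Subgroup.normalizer (D : Set G) := by
    rw [Subgroup.normalizer_eq_top]
    exact le_top
  have hcop : (Nat.card A).Coprime (Nat.card D) := by
    obtain ⟨k, hk⟩ := (IsPGroup.iff_card.mp hD)
    rw [hA, Nat.card_zpowers, hk]
    exact Nat.Coprime.pow_right k ((Nat.Prime.coprime_iff_not_dvd hp).mpr hx).symm
  have hsolv : Group.IsSolvable A := by
    rw [hA]
    apply isSolvable_of_comm
    rintro ⟨a, ha⟩ ⟨b, hb⟩
    obtain ⟨i, rfl⟩ := Subgroup.mem_zpowers_iff.mp ha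
    obtain ⟨j, rfl⟩ := Subgroup.mem_zpowers_iff.mp hb
    apply Subtype.ext
    show x ^ i * x ^ j = x ^ j * x ^ i
    rw [← zpow_add, ← zpow_add, add_comm]
  have h1 := Cfsg.Agent.Lib.helper8.commutator_sup_fixed A D hAK hcop (Or.inl hsolv)
  have h2 : ⁅D, A⁆ ≤ ⁅D, D⁆ := by
    rw [Subgroup.commutator_le]
    intro d hd a ha
    rw [hA] at ha
    obtain ⟨i, rfl⟩ := Subgroup.mem_zpowers_iff.mp ha
    have hmem : (QuotientGroup.mk' ⁅D, D⁆) (x ^ i) ∈ Subgroup.centralizer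
        ((D.map (QuotientGroup.mk' ⁅D, D⁆) : Subgroup (G ⧸ ⁅D, D⁆)) : Set (G ⧸ ⁅D, D⁆)) := by
      rw [map_zpow]
      exact Subgroup.zpow_mem _ hxD i
    have hcomm : (QuotientGroup.mk' ⁅D, D⁆ d) * (QuotientGroup.mk' ⁅D, D⁆ (x ^ i))
        = (QuotientGroup.mk' ⁅D, D⁆ (x ^ i)) * (QuotientGroup.mk' ⁅D, D⁆ d) :=
      Subgroup.mem_centralizer_iff.mp hmem (QuotientGroup.mk' ⁅D, D⁆ d)
        (Subgroup.mem_map_of_mem _ hd)
    rw [← QuotientGroup.eq_one_iff (N := ⁅D, D⁆), commutatorElement_def]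
    show (QuotientGroup.mk' ⁅D, D⁆) (d * x ^ i * d⁻¹ * (x ^ i)⁻¹) = 1
    rw [map_mul, map_mul, map_mul, map_inv, map_inv, hcomm]
    group
  have h3 : ⁅D, D⁆ ⊔ (D ⊓ Subgroup.centralizer (A : Set G)) = D := by
    apply le_antisymm
    · exact sup_le (Subgroup.commutator_le_left D D) inf_le_left
    · calc D = ⁅D, A⁆ ⊔ (D ⊓ Subgroup.centralizer (A : Set G)) := h1.symm
        _ ≤ ⁅D, D⁆ ⊔ (D ⊓ Subgroup.centralizer (A : Set G)) := sup_le_sup_right h2 _
  have hfr : (D ⊓ Subgroup.centralizer (A : Set G)).subgroupOf D = ⊤ := by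
    apply frattini_nongenerating
    rw [eq_top_iff]
    have hcf := Cfsg.Agent.Lib.helper1.commutator_le_frattini p hD
    refine le_trans ?_ (sup_le_sup_left hcf _)
    rw [← Subgroup.map_le_map_iff_of_injective D.subtype_injective, Subgroup.map_sup,
      Subgroup.subgroupOf_map_subtype, Subgroup.map_subtype_commutator,
      ← MonoidHom.range_eq_map, Subgroup.range_subtype,
      inf_eq_left.mpr (inf_le_left : D ⊓ Subgroup.centralizer (A : Set G) ≤ D), sup_comm, h3]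
  have hDC : D ≤ Subgroup.centralizer (A : Set G) := by
    intro d hd
    have h4 : (⟨d, hd⟩ : D) ∈ (D ⊓ Subgroup.centralizer (A : Set G)).subgroupOf D := by
      rw [hfr]; trivial
    exact (Subgroup.mem_inf.mp (Subgroup.mem_subgroupOf.mp h4)).2
  rw [Subgroup.mem_centralizer_iff]
  intro d hd
  have h5 := Subgroup.mem_centralizer_iff.mp (hDC hd) x (by rw [hA]; exact Subgroup.mem_zpowers x)
  exact h5.symm


/-- Let D be a normal p-subgroup of the finite group G, let D′ be its commutator subgroup (normal in G), and fix a maximal ideal M of the algebraic integers containing p. Then (i) two irreducible characters of G ⧸ D′ lie in the same p-block if and only if their inflations to G do, and (ii) every p-block of G contains the inflation of some irreducible character of G ⧸ D′; so inflation induces a bijection between the p-blocks of G ⧸ D′ and the p-blocks of G. -/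
theorem result {G : Type*} [Group G] [Finite G] (p : ℕ) [Fact p.Prime] (M : Ideal Cfsg.AlgInt) (hM : Cfsg.IsPModular p M) (D : Subgroup G) [D.Normal] (hD : IsPGroup p D) : (∀ χ ψ : Cfsg.IrrCharacter (G ⧸ ⁅D, D⁆), Cfsg.SameBlock M (χ : G ⧸ ⁅D, D⁆ → ℂ) (ψ : G ⧸ ⁅D, D⁆ → ℂ) ↔ Cfsg.SameBlock M ((χ : G ⧸ ⁅D, D⁆ → ℂ) ∘ QuotientGroup.mk) ((ψ : G ⧸ ⁅D, D⁆ → ℂ) ∘ QuotientGroup.mk)) ∧ ∀ B : Set (Cfsg.IrrCharacter G), Cfsg.IsPBlock M B → ∃ χ : Cfsg.IrrCharacter (G ⧸ ⁅D, D⁆), ∃ θ ∈ B, (θ : G → ℂ) = (χ : G ⧸ ⁅D, D⁆ → ℂ) ∘ QuotientGroup.mk := by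
  classical
  have := Fintype.ofFinite G
  have := Fintype.ofFinite (Cfsg.IrrCharacter G)
  have := Fintype.ofFinite (G ⧸ ⁅D, D⁆)
  have := Fintype.ofFinite (Cfsg.IrrCharacter (G ⧸ ⁅D, D⁆))
  have hMp := isPModular_isPrime hM
  have hp := hM.1
  have hQ : IsPGroup p ↥⁅D, D⁆ := hD.to_le (Subgroup.commutator_le_left D D)
  have hDbar_normal : (D.map (QuotientGroup.mk' ⁅D, D⁆)).Normal :=
    Subgroup.Normal.map inferInstance _ (QuotientGroup.mk'_surjective _)
  have hDbar_p : IsPGroup p ↥(D.map (QuotientGroup.mk' ⁅D, D⁆)) := hD.map _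
  refine ⟨fun χ ψ => ⟨fun h => sameBlock_comp_mk hMp ⁅D, D⁆ h, fun h => ?_⟩, ?_⟩
  · apply sameBlock_of_p_regular hM χ ψ
    intro q hq
    by_cases hqc : q ∈ Subgroup.centralizer
        ((D.map (QuotientGroup.mk' ⁅D, D⁆) : Subgroup (G ⧸ ⁅D, D⁆)) : Set (G ⧸ ⁅D, D⁆))
    · obtain ⟨x, rfl, hx⟩ := exists_regular_lift hp ⁅D, D⁆ q hq
      have hxD := centralizes_of_trivial_on_abelianization D hD x hx hqc
      have hxC : x ∈ Subgroup.centralizer ((⁅D, D⁆ : Subgroup G) : Set G) :=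
        Subgroup.centralizer_le (Subgroup.commutator_le_left D D) hxD
      rw [← centralChar_comp_mk_of_regular hp ⁅D, D⁆ hQ x hxC hx χ.1,
        ← centralChar_comp_mk_of_regular hp ⁅D, D⁆ hQ x hxC hx ψ.1]
      exact h x
    · haveI := hDbar_normal
      exact memLocalIdeal_sub hMp
        (memLocalIdeal_centralChar_of_not_mem_centralizer hM _ hDbar_p q hqc χ)
        (memLocalIdeal_centralChar_of_not_mem_centralizer hM _ hDbar_p q hqc ψ)
  · rintro B ⟨χ₀, rfl⟩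
    obtain ⟨θ, hθB, hθ⟩ := exists_mem_block_kernel hM ⁅D, D⁆ hQ χ₀
    obtain ⟨θ', hθ'irr, hθ'⟩ := isIrrCharacter_deflate ⁅D, D⁆ θ.2 hθ
    exact ⟨⟨θ', hθ'irr⟩, θ, hθB, (funext hθ').symm⟩

end Cfsg.Agent.S4964
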