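import Cfsg.Statements.S4965
import Mathlib

set_option autoImplicit false
open Cfsg

namespace Cfsg.Agent.S4965

/-- Let X be a finite group with an abelian normal subgroup V (any two elements of V commute), and let φ be the action of X ⧸ V on V induced by conjugation (well defined because V is abelian; the hypothesis hφ says that the class of x acts as conjugation by x). Then X has at most as many conjugacy classes as the semidirect product of V by X ⧸ V formed with this action: the split extension has the largest class number among extensions with the given action. -/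
theorem result {X : Type*} [Group X] [Finite X] (V : Subgroup X) [V.Normal] (hab : ∀ a ∈ V, ∀ b ∈ V, a * b = b * a) (φ : X ⧸ V →* MulAut ↥V) (hφ : ∀ (x : X) (v : ↥V), ((φ (QuotientGroup.mk x) v : ↥V) : X) = x * v * x⁻¹) : Nat.card (ConjClasses X) ≤ Nat.card (ConjClasses (SemidirectProduct ↥V (X ⧸ V) φ)) := by
  classical
  have hmem : ∀ x y : X, (QuotientGroup.mk x : X ⧸ V) = QuotientGroup.mk y → x * y⁻¹ ∈ V := by
    intro x y h
    have h1 : (QuotientGroup.mk (x * y⁻¹) : X ⧸ V) = 1 := by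
      rw [QuotientGroup.mk_mul, QuotientGroup.mk_inv, h, mul_inv_cancel]
    exact (QuotientGroup.eq_one_iff _).mp h1
  obtain ⟨mk, hmk⟩ : ∃ mk : X → X ⧸ V, mk = QuotientGroup.mk := ⟨_, rfl⟩
  have hex : ∀ q : (X ⧸ V) × (X ⧸ V), ∃ b : X × X,
      (∃ p : X × X, Commute p.1 p.2 ∧ mk p.1 = q.1 ∧ mk p.2 = q.2) →
        (Commute b.1 b.2 ∧ mk b.1 = q.1 ∧ mk b.2 = q.2) := by
    intro q
    by_cases h : ∃ p : X × X, Commute p.1 p.2 ∧ mk p.1 = q.1 ∧ mk p.2 = q.2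
    · exact ⟨h.choose, fun _ => h.choose_spec⟩
    · exact ⟨(1, 1), fun h' => absurd h' h⟩
  choose base hbase using hex
  have hb : ∀ x y : X, x * y = y * x →
      (base (mk x, mk y)).1 * (base (mk x, mk y)).2 = (base (mk x, mk y)).2 * (base (mk x, mk y)).1
      ∧ mk (base (mk x, mk y)).1 = mk x ∧ mk (base (mk x, mk y)).2 = mk y := by
    intro x y hxy
    obtain ⟨h1, h2, h3⟩ := hbase (mk x, mk y) ⟨(x, y), hxy, rfl, rfl⟩
    exact ⟨h1.eq, h2, h3⟩
  have key : ∀ x y x₁ y₁ : X, x * y = y * x → x₁ * y₁ = y₁ * x₁ → x * x₁⁻¹ ∈ V → y * y₁⁻¹ ∈ V →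
      x * x₁⁻¹ * (x * (y * y₁⁻¹) * x⁻¹) = y * y₁⁻¹ * (y * (x * x₁⁻¹) * y⁻¹) := by
    intro x y x₁ y₁ hxy hb1 hv hw
    have e : y₁⁻¹ * x₁⁻¹ = x₁⁻¹ * y₁⁻¹ := by
      rw [← mul_inv_rev, ← mul_inv_rev, hb1]
    have hn : ∀ (g u : X), u ∈ V → g * u * g⁻¹ ∈ V := fun g u hu =>
      Subgroup.Normal.conj_mem inferInstance u hu g
    have h1 : x * (y * y₁⁻¹) * x⁻¹ = x₁ * (y * y₁⁻¹) * x₁⁻¹ := by
      calc x * (y * y₁⁻¹) * x⁻¹
          = (x * x₁⁻¹) * (x₁ * (y * y₁⁻¹) * x₁⁻¹) * (x * x₁⁻¹)⁻¹ := by group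
        _ = (x₁ * (y * y₁⁻¹) * x₁⁻¹) * (x * x₁⁻¹) * (x * x₁⁻¹)⁻¹ := by
          rw [hab _ hv _ (hn x₁ _ hw)]
        _ = x₁ * (y * y₁⁻¹) * x₁⁻¹ := by group
    have h2 : y * (x * x₁⁻¹) * y⁻¹ = y₁ * (x * x₁⁻¹) * y₁⁻¹ := by
      calc y * (x * x₁⁻¹) * y⁻¹
          = (y * y₁⁻¹) * (y₁ * (x * x₁⁻¹) * y₁⁻¹) * (y * y₁⁻¹)⁻¹ := by group
        _ = (y₁ * (x * x₁⁻¹) * y₁⁻¹) * (y * y₁⁻¹) * (y * y₁⁻¹)⁻¹ := by
          rw [hab _ hw _ (hn y₁ _ hv)]
        _ = y₁ * (x * x₁⁻¹) * y₁⁻¹ := by group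
    rw [h1, h2]
    calc x * x₁⁻¹ * (x₁ * (y * y₁⁻¹) * x₁⁻¹) = (x * y) * (y₁⁻¹ * x₁⁻¹) := by group
      _ = (y * x) * (x₁⁻¹ * y₁⁻¹) := by rw [hxy, e]
      _ = y * y₁⁻¹ * (y₁ * (x * x₁⁻¹) * y₁⁻¹) := by group
  have hφ' : ∀ (x : X) (v : ↥V), ((φ (mk x) v : ↥V) : X) = x * v * x⁻¹ := by
    rw [hmk]; exact hφ
  have : Finite (SemidirectProduct ↥V (X ⧸ V) φ) :=
    Finite.of_equiv _ SemidirectProduct.equivProd.symm
  let Ψ : {p : X × X // Commute p.1 p.2} →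
      {p : SemidirectProduct ↥V (X ⧸ V) φ × SemidirectProduct ↥V (X ⧸ V) φ // Commute p.1 p.2} :=
    fun p =>
      ⟨(⟨⟨p.1.1 * (base (mk p.1.1, mk p.1.2)).1⁻¹,
            hmem _ _ (by rw [← hmk]; exact (hb p.1.1 p.1.2 p.2.eq).2.1.symm)⟩, mk p.1.1⟩,
        ⟨⟨p.1.2 * (base (mk p.1.1, mk p.1.2)).2⁻¹,
            hmem _ _ (by rw [← hmk]; exact (hb p.1.1 p.1.2 p.2.eq).2.2.symm)⟩, mk p.1.2⟩), by
        obtain ⟨⟨x, y⟩, hxy⟩ := p
        have hxy' : x * y = y * x := hxy.eq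
        obtain ⟨hb1, hb2, hb3⟩ := hb x y hxy'
        show _ * _ = _ * _
        rw [SemidirectProduct.mul_def, SemidirectProduct.mul_def]
        apply SemidirectProduct.ext
        · apply Subtype.ext
          simp only [Subgroup.coe_mul, hφ']
          exact key x y _ _ hxy' hb1 (hmem _ _ (by rw [← hmk]; exact hb2.symm))
            (hmem _ _ (by rw [← hmk]; exact hb3.symm))
        · show mk x * mk y = mk y * mk x
          rw [hmk, ← QuotientGroup.mk_mul, ← QuotientGroup.mk_mul, hxy']⟩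
  have hinj : Function.Injective Ψ := by
    rintro ⟨⟨x, y⟩, hxy⟩ ⟨⟨x', y'⟩, hxy'⟩ h
    have h1 := congrArg (fun t => t.1.1.2) h
    have h2 := congrArg (fun t => t.1.2.2) h
    have h3 := congrArg (fun t => (t.1.1.1 : X)) h
    have h4 := congrArg (fun t => (t.1.2.1 : X)) h
    simp only [Ψ] at h1 h2 h3 h4
    rw [h1, h2] at h3 h4
    have e1 : x = x' := mul_right_cancel h3
    have e2 : y = y' := mul_right_cancel h4
    subst e1 e2
    rfl
  have hle := Nat.card_le_card_of_injective Ψ hinj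
  rw [card_comm_eq_card_conjClasses_mul_card, card_comm_eq_card_conjClasses_mul_card,
    SemidirectProduct.card] at hle
  have hc : Nat.card X = Nat.card ↥V * Nat.card (X ⧸ V) := by
    rw [Subgroup.card_eq_card_quotient_mul_card_subgroup V, mul_comm]
  rw [← hc] at hle
  exact Nat.le_of_mul_le_mul_right hle Nat.card_pos

end Cfsg.Agent.S4965
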