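import Cfsg.Statements.S5015
import Cfsg.Agent.Lib.helper25.RankOne

set_option autoImplicit false
open Cfsg

namespace Cfsg.Agent.S5015

open Cfsg.Agent.S5013 (conjBy_conjBy conjBy_one conjBy_of_mem conjBy_of_mem_normalizer
  mem_normalizer_of_conjBy inf_normalizer_eq_bot)
open Cfsg.Agent.Lib.helper25

section
variable {Y Ω : Type*} [Group Y] [MulAction Y Ω]

theorem conj_wd {α : Ω} {A : Subgroup Y}
    (hAn : ∀ y ∈ MulAction.stabilizer Y α, Cfsg.conjBy A y = A) {g g' : Y} (hg : g • α = g' • α) :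
    Cfsg.conjBy A g = Cfsg.conjBy A g' := by
  have h1 : g'⁻¹ * g ∈ MulAction.stabilizer Y α := by
    rw [MulAction.mem_stabilizer_iff, mul_smul, hg, inv_smul_smul]
  have h2 := hAn _ h1
  have h3 : Cfsg.conjBy (Cfsg.conjBy A (g'⁻¹ * g)) g' = Cfsg.conjBy A g := by
    rw [conjBy_conjBy, mul_inv_cancel_left]
  rw [← h3, h2]

theorem conj_le_stab {α : Ω} {A : Subgroup Y} (hA : A ≤ MulAction.stabilizer Y α) (y : Y) :
    Cfsg.conjBy A y ≤ MulAction.stabilizer Y (y • α) := by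
  rintro _ ⟨a, ha, rfl⟩
  have h1 := MulAction.mem_stabilizer_iff.mp (hA ha)
  rw [MulAction.mem_stabilizer_iff]
  show (y * a * y⁻¹) • y • α = y • α
  rw [mul_smul, mul_smul, inv_smul_smul, h1]

theorem conj_normalized {α : Ω} {A : Subgroup Y}
    (hAn : ∀ y ∈ MulAction.stabilizer Y α, Cfsg.conjBy A y = A) (y : Y) :
    ∀ g ∈ MulAction.stabilizer Y (y • α), Cfsg.conjBy (Cfsg.conjBy A y) g = Cfsg.conjBy A y := by
  intro g hg
  rw [conjBy_conjBy]
  apply conj_wd hAn
  rw [mul_smul]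
  exact MulAction.mem_stabilizer_iff.mp hg

theorem conj_regular {α : Ω} {A : Subgroup Y}
    (hreg : ∀ β γ : Ω, β ≠ α → γ ≠ α → ∃! a : Y, a ∈ A ∧ a • β = γ) (y : Y) :
    ∀ β γ : Ω, β ≠ y • α → γ ≠ y • α → ∃! b : Y, b ∈ Cfsg.conjBy A y ∧ b • β = γ := by
  intro β γ hβ hγ
  have hβ' : y⁻¹ • β ≠ α := fun h => hβ (by rw [← h, smul_inv_smul])
  have hγ' : y⁻¹ • γ ≠ α := fun h => hγ (by rw [← h, smul_inv_smul])
  obtain ⟨a, ⟨ha, hae⟩, hau⟩ := hreg _ _ hβ' hγ'
  refine ⟨y * a * y⁻¹, ⟨⟨a, ha, rfl⟩, ?_⟩, ?_⟩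
  · rw [mul_smul, mul_smul, hae, smul_inv_smul]
  · rintro _ ⟨⟨a', ha', rfl⟩, hb⟩
    have h1 : a' • y⁻¹ • β = y⁻¹ • γ := by
      rw [← hb]
      show a' • y⁻¹ • β = y⁻¹ • (y * a' * y⁻¹) • β
      rw [mul_smul, mul_smul, inv_smul_smul]
    have h2 := hau a' ⟨ha', h1⟩
    show y * a' * y⁻¹ = y * a * y⁻¹
    rw [h2]

theorem cond_of_regular {α : Ω} {A : Subgroup Y} (hA : A ≤ MulAction.stabilizer Y α)
    (hAn : ∀ y ∈ MulAction.stabilizer Y α, Cfsg.conjBy A y = A)
    (hreg : ∀ β γ : Ω, β ≠ α → γ ≠ α → ∃! a : Y, a ∈ A ∧ a • β = γ)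
    {y : Y} (hy : y ∉ MulAction.stabilizer Y α) :
    Cfsg.RankOneCondition A (Cfsg.conjBy A y) := by
  intro a ha ha1
  have hβ : y • α ≠ α := fun h => hy (MulAction.mem_stabilizer_iff.mpr h)
  have haα : a • α = α := MulAction.mem_stabilizer_iff.mp (hA ha)
  have hδ1 : a⁻¹ • y • α ≠ α := by
    intro h
    apply hβ
    rw [inv_smul_eq_iff, haα] at h
    exact h
  have hδ2 : a⁻¹ • y • α ≠ y • α := by
    intro h
    obtain ⟨a₀, -, hu⟩ := hreg _ _ hβ hβ
    have e1 := hu a⁻¹ ⟨A.inv_mem ha, h⟩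
    have e2 := hu 1 ⟨A.one_mem, one_smul _ _⟩
    exact ha1 (inv_eq_one.mp (e1.trans e2.symm))
  have hα' : α ≠ y • α := fun h => hβ h.symm
  obtain ⟨b', ⟨hb', hb'e⟩, -⟩ := conj_regular hreg y α _ hα' hδ2
  refine ⟨b'⁻¹, Subgroup.inv_mem _ hb', ?_, ?_⟩
  · intro h
    rw [inv_eq_one] at h
    rw [h, one_smul] at hb'e
    exact hδ1 hb'e.symm
  · rw [inv_inv, conjBy_conjBy]
    apply conj_wd hAn
    rw [hb'e, mul_smul]

end

/-- Let a group Y act doubly transitively on a set Ω with at least three points, and suppose that the stabilizer of a point α contains a nilpotent subgroup A, normalized by that stabilizer, which acts regularly on the points other than α. Then for any y in Y moving α, the subgroups A and y A y⁻¹ are the unipotent subgroups of a rank one group, and the normal closure of A in Y (the subgroup generated by all conjugates of A) is generated by A and y A y⁻¹ alone. -/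
theorem result {Y Ω : Type*} [Group Y] [MulAction Y Ω]
    (h2 : MulAction.IsMultiplyPretransitive Y Ω 2) (hΩ : 3 ≤ ENat.card Ω) (α : Ω) (A : Subgroup Y)
    (hA : A ≤ MulAction.stabilizer Y α) (hAn : ∀ y ∈ MulAction.stabilizer Y α, Cfsg.conjBy A y = A)
    (hnil : Group.IsNilpotent A) (hreg : ∀ β γ : Ω, β ≠ α → γ ≠ α → ∃! a : Y, a ∈ A ∧ a • β = γ)
    (y : Y) (hy : y ∉ MulAction.stabilizer Y α) :
    Cfsg.IsRankOnePair A (Cfsg.conjBy A y) ∧ Subgroup.normalClosure (A : Set Y) = A ⊔ Cfsg.conjBy A y := by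
  have hβ : y • α ≠ α := fun h => hy (MulAction.mem_stabilizer_iff.mpr h)
  have hy' : y⁻¹ ∉ MulAction.stabilizer Y (y • α) := by
    intro h
    rw [MulAction.mem_stabilizer_iff, inv_smul_smul] at h
    exact hβ h.symm
  have hback : Cfsg.conjBy (Cfsg.conjBy A y) y⁻¹ = A := by
    rw [conjBy_conjBy, inv_mul_cancel, conjBy_one]
  have hregB := conj_regular hreg y
  -- a third point
  have h3 : ∃ γ : Ω, γ ≠ α ∧ γ ≠ y • α := by
    by_contra hcon
    push Not at hcon
    have huniv : (Set.univ : Set Ω) = {α, y • α} := by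
      ext γ
      simp only [Set.mem_univ, Set.mem_insert_iff, Set.mem_singleton_iff, true_iff]
      by_cases hγ : γ = α
      · exact Or.inl hγ
      · exact Or.inr (hcon γ hγ)
    have hcard : ENat.card Ω = 2 := by
      rw [← Set.encard_univ, huniv, Set.encard_pair hβ.symm]
    rw [hcard] at hΩ
    exact absurd hΩ (by decide)
  obtain ⟨γ, hγα, hγβ⟩ := h3
  have hne : A ≠ Cfsg.conjBy A y := by
    intro he
    obtain ⟨b, ⟨hb, hbe⟩, -⟩ := hregB α γ (fun h => hβ h.symm) hγβ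
    rw [← he] at hb
    have := MulAction.mem_stabilizer_iff.mp (hA hb)
    rw [this] at hbe
    exact hγα hbe.symm
  have hnilB : Group.IsNilpotent (Cfsg.conjBy A y) :=
    Group.nilpotent_of_surjective ((MulAut.conj y).toMonoidHom.subgroupMap A)
      (MonoidHom.subgroupMap_surjective _ _)
  refine ⟨⟨hne, hnil, hnilB, cond_of_regular hA hAn hreg hy, ?_⟩, ?_⟩
  · have := cond_of_regular (conj_le_stab hA y) (conj_normalized hAn y) hregB hy'
    rw [hback] at this
    exact this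
  · apply le_antisymm
    · refine (Subgroup.closure_le _).mpr ?_
      intro x hx
      rw [Group.mem_conjugatesOfSet_iff] at hx
      obtain ⟨a', ha', hconj⟩ := hx
      rw [isConj_iff] at hconj
      obtain ⟨g, rfl⟩ := hconj
      have hmem : g * a' * g⁻¹ ∈ Cfsg.conjBy A g := ⟨a', ha', rfl⟩
      by_cases hg : g • α = α
      · rw [hAn g (MulAction.mem_stabilizer_iff.mpr hg)] at hmem
        exact Subgroup.mem_sup_left hmem
      · obtain ⟨a, ⟨ha, hae⟩, -⟩ := hreg _ _ hβ hg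
        have he : Cfsg.conjBy A g = Cfsg.conjBy (Cfsg.conjBy A y) a := by
          rw [conjBy_conjBy]
          apply conj_wd hAn
          rw [mul_smul, hae]
        rw [he] at hmem
        obtain ⟨b, hb, hbe⟩ := hmem
        rw [← hbe]
        exact Subgroup.mul_mem _ (Subgroup.mul_mem _ (Subgroup.mem_sup_left ha)
          (Subgroup.mem_sup_right hb)) (Subgroup.inv_mem _ (Subgroup.mem_sup_left ha))
    · refine sup_le Subgroup.le_normalClosure ?_
      rintro _ ⟨a, ha, rfl⟩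
      exact Subgroup.normalClosure_normal.conj_mem a (Subgroup.le_normalClosure ha) y

end Cfsg.Agent.S5015
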