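import Cfsg.Statements.S5017
import Cfsg.Agent.Lib.helper25.RankOne
import Cfsg.Agent.Lib.helper7.QS

set_option autoImplicit false
open Cfsg

namespace Cfsg.Agent.S5017

open Cfsg.Agent.S5013 (conjBy_conjBy conjBy_one conjBy_of_mem conjBy_of_mem_normalizer
  mem_normalizer_of_conjBy inf_normalizer_eq_bot)
open Cfsg.Agent.Lib.helper25

theorem normalizes_conj_of_normal {X : Type*} [Group X] {A : Subgroup X} {N : Subgroup X} (hN : N.Normal)
    (hNA : ∀ n ∈ N, Cfsg.conjBy A n = A) (x : X) :
    ∀ n ∈ N, Cfsg.conjBy (Cfsg.conjBy A x) n = Cfsg.conjBy A x := by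
  intro n hn
  have h1 : x⁻¹ * n * x ∈ N := by
    have := hN.conj_mem n hn x⁻¹
    simpa using this
  rw [conjBy_conjBy]
  have h2 : n * x = x * (x⁻¹ * n * x) := by group
  rw [h2, ← conjBy_conjBy, hNA _ h1]

theorem comm_of_normalizes {X : Type*} [Group X] {A B N : Subgroup X} (hN : N.Normal)
    (hAB : A ⊓ Subgroup.normalizer (B : Set X) = ⊥)
    (hNA : ∀ n ∈ N, Cfsg.conjBy A n = A) (hNB : ∀ n ∈ N, Cfsg.conjBy B n = B) :
    ∀ n ∈ N, ∀ a ∈ A, a * n = n * a := by
  intro n hn a ha
  have h1 : a * n * a⁻¹ * n⁻¹ ∈ A ⊓ Subgroup.normalizer (B : Set X) := by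
    refine ⟨?_, ?_⟩
    · have h2 : n * a⁻¹ * n⁻¹ ∈ Cfsg.conjBy A n := ⟨a⁻¹, A.inv_mem ha, rfl⟩
      rw [hNA n hn] at h2
      have h3 : a * n * a⁻¹ * n⁻¹ = a * (n * a⁻¹ * n⁻¹) := by group
      rw [h3]
      exact A.mul_mem ha h2
    · have h2 : a * n * a⁻¹ * n⁻¹ ∈ N := N.mul_mem (hN.conj_mem n hn a) (N.inv_mem hn)
      exact mem_normalizer_of_conjBy B (hNB _ h2)
  rw [hAB, Subgroup.mem_bot] at h1
  calc a * n = (a * n * a⁻¹ * n⁻¹) * (n * a) := by group
    _ = n * a := by rw [h1, one_mul]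

theorem normal_dichotomy {X : Type*} [Group X] {A B : Subgroup X} (h : Cfsg.IsRankOneGroup X A B)
    (N : Subgroup X) (hN : N.Normal) : N ⊔ A = ⊤ ∨ N ≤ Subgroup.center X := by
  obtain ⟨htop, hp⟩ := h
  by_cases hNA : ∀ n ∈ N, Cfsg.conjBy A n = A
  · right
    obtain ⟨x, -, hBx⟩ := rankOne_B_conj hp
    have hNB : ∀ n ∈ N, Cfsg.conjBy B n = B := by
      intro n hn
      rw [hBx]
      exact normalizes_conj_of_normal hN hNA x n hn
    have hcA := comm_of_normalizes hN (inf_normalizer_eq_bot hp) hNA hNB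
    have hcB := comm_of_normalizes hN (inf_normalizer_eq_bot (Cfsg.RankOnePair_symm hp)) hNB hNA
    intro n hn
    have hle : A ⊔ B ≤ Subgroup.centralizer ({n} : Set X) := by
      refine sup_le ?_ ?_
      · intro a ha
        rw [Subgroup.mem_centralizer_iff]
        intro m hm
        rw [Set.mem_singleton_iff] at hm
        rw [hm]
        exact (hcA n hn a ha).symm
      · intro b hb
        rw [Subgroup.mem_centralizer_iff]
        intro m hm
        rw [Set.mem_singleton_iff] at hm
        rw [hm]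
        exact (hcB n hn b hb).symm
    rw [Subgroup.mem_center_iff]
    intro g
    have hg : g ∈ Subgroup.centralizer ({n} : Set X) := hle (htop ▸ Subgroup.mem_top g)
    rw [Subgroup.mem_centralizer_iff] at hg
    exact (hg n rfl).symm
  · left
    push Not at hNA
    obtain ⟨n, hn, hne⟩ := hNA
    have hmem : Cfsg.conjBy A n ∈ Cfsg.unipotentSubgroups A B :=
      ⟨n, htop ▸ Subgroup.mem_top n, rfl⟩
    rw [unipotentSubgroups_eq hp] at hmem
    rcases hmem with he | ⟨a, ha, he⟩
    · exact absurd he hne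
    · have hB : B = Cfsg.conjBy A (a⁻¹ * n) := by
        rw [← conjBy_conjBy, he, conjBy_conjBy, inv_mul_cancel, conjBy_one]
      rw [eq_top_iff, ← htop]
      refine sup_le le_sup_right ?_
      intro b hb
      rw [hB] at hb
      obtain ⟨a', ha', rfl⟩ := hb
      have hx : a⁻¹ * n ∈ N ⊔ A :=
        Subgroup.mul_mem _ (Subgroup.mem_sup_right (A.inv_mem ha)) (Subgroup.mem_sup_left hn)
      exact Subgroup.mul_mem _ (Subgroup.mul_mem _ hx (Subgroup.mem_sup_right ha'))
        (Subgroup.inv_mem _ hx)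

theorem nontrivial_of_rankOne {X : Type*} [Group X] {A B : Subgroup X} (hp : Cfsg.IsRankOnePair A B) :
    Nontrivial X := by
  by_contra hn
  rw [not_nontrivial_iff_subsingleton] at hn
  apply hp.ne
  ext x
  rw [Subsingleton.elim x 1]
  simp

/-- Let X be a rank one group with unipotent subgroups A and B and N a normal subgroup of X. Then either X = N A or N lies in the centre of X. Consequently a perfect rank one group is quasisimple. -/
theorem result {X : Type*} [Group X] {A B : Subgroup X} (h : Cfsg.IsRankOneGroup X A B) :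
    (∀ N : Subgroup X, N.Normal → N ⊔ A = ⊤ ∨ N ≤ Subgroup.center X) ∧
    (Group.IsPerfect X → Cfsg.IsQuasisimple X) := by
  refine ⟨fun N hN => normal_dichotomy h N hN, fun hperf => ?_⟩
  rw [Cfsg.Agent.Lib.helper7.qs_iff]
  refine ⟨hperf.commutator_eq_top, nontrivial_of_rankOne h.2, fun N hN => ?_⟩
  rcases normal_dichotomy h N hN with hNA | hc
  · left
    by_contra hne
    have := hN
    have : Nontrivial (X ⧸ N) := QuotientGroup.nontrivial_iff.mpr hne
    have hmap : A.map (QuotientGroup.mk' N) = ⊤ := by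
      have h1 : (N ⊔ A).map (QuotientGroup.mk' N) = ⊤ := by
        rw [hNA]
        exact Subgroup.map_top_of_surjective _ (QuotientGroup.mk'_surjective N)
      have h2 : N.map (QuotientGroup.mk' N) = ⊥ := by
        rw [Subgroup.map_eq_bot_iff, QuotientGroup.ker_mk']
      rw [Subgroup.map_sup, h2, bot_sup_eq] at h1
      exact h1
    have := h.2.nilpotent_left
    have hsurj : Function.Surjective ((QuotientGroup.mk' N).comp A.subtype) := by
      intro q
      have hq : q ∈ A.map (QuotientGroup.mk' N) := hmap ▸ Subgroup.mem_top q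
      obtain ⟨a, ha, rfl⟩ := hq
      exact ⟨⟨a, ha⟩, rfl⟩
    have hnil : Group.IsNilpotent (X ⧸ N) := Group.nilpotent_of_surjective _ hsurj
    exact Group.IsPerfect.not_isNilpotent (X ⧸ N) hnil
  · exact Or.inr hc

end Cfsg.Agent.S5017
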