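import Cfsg.Statements.S5018
import Cfsg.Agent.Lib.helper25.RankOne
import Cfsg.Agent.S5017

set_option autoImplicit false
open Cfsg

namespace Cfsg.Agent.S5018

open Cfsg.Agent.S5013 (conjBy_conjBy conjBy_one conjBy_of_mem conjBy_of_mem_normalizer
  mem_normalizer_of_conjBy inf_normalizer_eq_bot)
open Cfsg.Agent.Lib.helper25
open scoped commutatorElement

theorem not_normal_center_sup {X : Type*} [Group X] {A B : Subgroup X} (h : Cfsg.IsRankOneGroup X A B) :
    ¬ (Subgroup.center X ⊔ A).Normal := by
  intro hM
  obtain ⟨htop, hp⟩ := h
  obtain ⟨x, -, hBx⟩ := rankOne_B_conj hp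
  have hB : B ≤ Subgroup.center X ⊔ A := by
    intro b hb
    rw [hBx] at hb
    obtain ⟨a, ha, rfl⟩ := hb
    exact hM.conj_mem a (Subgroup.mem_sup_right ha) x
  have hMtop : Subgroup.center X ⊔ A = ⊤ := by
    rw [eq_top_iff, ← htop]
    exact sup_le le_sup_right hB
  have hAn : Subgroup.normalizer (A : Set X) = ⊤ := by
    rw [eq_top_iff, ← hMtop]
    exact sup_le (Subgroup.center_le_normalizer _) Subgroup.le_normalizer
  apply hp.ne
  rw [hBx]
  exact (conjBy_of_mem_normalizer A (hAn ▸ Subgroup.mem_top x)).symm

/-- A rank one group is not nilpotent, and its second centre equals its centre. -/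
theorem result {X : Type*} [Group X] {A B : Subgroup X} (h : Cfsg.IsRankOneGroup X A B) :
    Subgroup.upperCentralSeries X 2 = Subgroup.center X ∧ ¬ Group.IsNilpotent X := by
  have hZ : Subgroup.upperCentralSeries X 2 = Subgroup.center X := by
    refine le_antisymm ?_ ?_
    · rcases Cfsg.Agent.S5017.normal_dichotomy h (Subgroup.upperCentralSeries X 2) inferInstance
        with hZA | hc
      · exfalso
        apply not_normal_center_sup h
        rw [← Subgroup.normalizer_eq_top_iff, eq_top_iff, ← hZA]
        refine sup_le ?_ (le_sup_right.trans Subgroup.le_normalizer)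
        rw [Subgroup.le_normalizer_iff]
        intro z hz m hm
        have hc : ⁅z, m⁆ ∈ Subgroup.center X := by
          have := (Subgroup.mem_upperCentralSeries_succ_iff (n := 1)).mp hz m
          rwa [Subgroup.upperCentralSeries_one] at this
        have he : z * m * z⁻¹ = ⁅z, m⁆ * m := by
          rw [commutatorElement_def]
          group
        rw [he]
        exact Subgroup.mul_mem _ (Subgroup.mem_sup_left hc) hm
      · exact hc
    · rw [← Subgroup.upperCentralSeries_one]
      exact Subgroup.upperCentralSeries_mono X (by norm_num)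
  refine ⟨hZ, fun hnil => ?_⟩
  obtain ⟨n, hn⟩ := hnil.nilpotent'
  have hstab : ∀ k, Subgroup.upperCentralSeries X (k + 1) = Subgroup.center X := by
    intro k
    induction k with
    | zero => exact Subgroup.upperCentralSeries_one X
    | succ k ih =>
      ext x
      rw [Subgroup.mem_upperCentralSeries_succ_iff, ih]
      conv_rhs => rw [← hZ]
      rw [show (2 : ℕ) = 1 + 1 from rfl, Subgroup.mem_upperCentralSeries_succ_iff,
        Subgroup.upperCentralSeries_one]
  have hcen : Subgroup.center X = ⊤ := by
    cases n with
    | zero =>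
      rw [Subgroup.upperCentralSeries_zero] at hn
      rw [eq_top_iff, ← hn]
      exact bot_le
    | succ k =>
      rw [← hstab k]
      exact hn
  apply not_normal_center_sup h
  rw [hcen, top_sup_eq]
  infer_instance

end Cfsg.Agent.S5018
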