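import Cfsg.Statements.S5028
import Mathlib
set_option autoImplicit false
open Cfsg
open scoped commutatorElement
namespace Cfsg.Agent.S5028

variable {G : Type*} [Group G]

lemma mem_conjBy {A : Subgroup G} {g y : G} : y ∈ conjBy A g ↔ g⁻¹ * y * g ∈ A := by
  constructor
  · rintro ⟨a, ha, rfl⟩
    have : g⁻¹ * ((MulAut.conj g).toMonoidHom a) * g = a := by
      show g⁻¹ * (g * a * g⁻¹) * g = a
      group
    rw [this]; exact ha
  · intro h
    refine ⟨g⁻¹ * y * g, h, ?_⟩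
    show g * (g⁻¹ * y * g) * g⁻¹ = y
    group

lemma key {A B : Subgroup G} (h : IsRankOnePair A B) {x : G} (hxA : x ∈ A) (hx1 : x ≠ 1)
    (hn : conjBy B x⁻¹ = B) : False := by
  obtain ⟨b, hbB, hb1, hconj⟩ := h.cond_left x hxA hx1
  rw [hn] at hconj
  apply h.ne
  ext y
  have h1 : b⁻¹ * y * b ∈ conjBy A b⁻¹ ↔ y ∈ A := by
    rw [mem_conjBy]
    have : (b⁻¹)⁻¹ * (b⁻¹ * y * b) * b⁻¹ = y := by group
    rw [this]
  rw [hconj] at h1
  rw [← h1]
  constructor
  · intro hy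
    have := B.mul_mem (B.mul_mem hbB hy) (B.inv_mem hbB)
    have e : b * (b⁻¹ * y * b) * b⁻¹ = y := by group
    rwa [e] at this
  · intro hy
    exact B.mul_mem (B.mul_mem (B.inv_mem hbB) hy) hbB

lemma conjBy_of_comm {B : Subgroup G} {x : G} (h : ∀ y ∈ B, x * y = y * x) : conjBy B x⁻¹ = B := by
  ext y
  rw [mem_conjBy]
  have e : (x⁻¹)⁻¹ * y * x⁻¹ = x * y * x⁻¹ := by group
  rw [e]
  constructor
  · intro hy
    have h1 := h _ hy
    have e2 : x * y * x⁻¹ = y := by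
      have : x * (x * y * x⁻¹) = x * y := by rw [h1]; group
      exact mul_left_cancel this
    rwa [e2] at hy
  · intro hy
    have h1 := h y hy
    have e2 : x * y * x⁻¹ = y := by rw [h1]; group
    rw [e2]; exact hy

lemma conjBy_of_mem' {B : Subgroup G} {x : G} (hx : x ∈ B) : conjBy B x⁻¹ = B := by
  ext y
  rw [mem_conjBy]
  constructor
  · intro hy
    have := B.mul_mem (B.mul_mem (B.inv_mem hx) hy) hx
    have e : x⁻¹ * ((x⁻¹)⁻¹ * y * x⁻¹) * x = y := by group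
    rwa [e] at this
  · intro hy
    exact B.mul_mem (B.mul_mem (B.inv_mem (B.inv_mem hx)) hy) (B.inv_mem hx)

lemma comm_of_comm_bot {A B : Subgroup G} (h : ⁅A, B⁆ = ⊥) : ∀ a ∈ A, ∀ b ∈ B, a * b = b * a := by
  intro a ha b hb
  have := Subgroup.commutator_mem_commutator ha hb
  rw [h, Subgroup.mem_bot, commutatorElement_def] at this
  calc a * b = (a * b * a⁻¹ * b⁻¹) * (b * a) := by group
    _ = b * a := by rw [this, one_mul]

theorem result {G : Type*} [Group G] {S : Set (Subgroup G)} (hS : Cfsg.IsRootSubgroupSet S)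
    {A : Subgroup G} (hA : ¬ Cfsg.IsIsolatedIn (Cfsg.FAdj S) S A) (hAS : A ∈ S) : ∀ B ∈ S, A ⊓ B = ⊥ ∨ A = B := by
  have hex : ∃ B₀, B₀ ∈ S ∧ IsRankOnePair A B₀ := by
    by_contra hne
    apply hA
    refine ⟨hAS, fun B => ⟨?_, ?_⟩⟩
    · rintro ⟨_, hB, hp⟩; exact hne ⟨B, hB, hp⟩
    · rintro ⟨hB, _, hp⟩; exact hne ⟨B, hB, RankOnePair_symm hp⟩
  obtain ⟨B₀, hB₀S, hAB₀⟩ := hex
  intro B hBS
  by_contra hcon
  push_neg at hcon
  obtain ⟨hne_bot, hneAB⟩ := hcon
  obtain ⟨x, hx, hx1⟩ : ∃ x ∈ A ⊓ B, x ≠ 1 := by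
    by_contra h
    push_neg at h
    exact hne_bot ((Subgroup.eq_bot_iff_forall _).mpr h)
  have hxA : x ∈ A := hx.1
  have hxB : x ∈ B := hx.2
  haveI := hS.commutative B hBS
  haveI := hS.commutative B₀ hB₀S
  have hBcomm : ∀ u ∈ B, ∀ v ∈ B, u * v = v * u := by
    intro u hu v hv
    have := mul_comm' (⟨u, hu⟩ : B) ⟨v, hv⟩
    exact congrArg Subtype.val this
  have hB₀comm : ∀ u ∈ B₀, ∀ v ∈ B₀, u * v = v * u := by
    intro u hu v hv
    have := mul_comm' (⟨u, hu⟩ : B₀) ⟨v, hv⟩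
    exact congrArg Subtype.val this
  rcases hS.pair A hAS B hBS with h1 | h1 | h1
  · have hAB := comm_of_comm_bot h1
    rcases hS.pair B hBS B₀ hB₀S with h2 | h2 | h2
    · exact key hAB₀ hxA hx1 (conjBy_of_comm (comm_of_comm_bot h2 x hxB))
    · obtain ⟨c, hcB₀, hc1, hconj1⟩ := h2.cond_left x hxB hx1
      obtain ⟨b, hbB₀, hb1, hconj2⟩ := hAB₀.cond_left x hxA hx1
      have h3 : conjBy B c⁻¹ = conjBy A b⁻¹ := hconj1.trans hconj2.symm
      by_cases hg : b * c⁻¹ = 1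
      · have hbc : b = c := mul_inv_eq_one.mp hg
        subst hbc
        apply hneAB
        ext y
        have e1 : b⁻¹ * y * b ∈ conjBy A b⁻¹ ↔ y ∈ A := by
          rw [mem_conjBy]
          have : (b⁻¹)⁻¹ * (b⁻¹ * y * b) * b⁻¹ = y := by group
          rw [this]
        have e2 : b⁻¹ * y * b ∈ conjBy B b⁻¹ ↔ y ∈ B := by
          rw [mem_conjBy]
          have : (b⁻¹)⁻¹ * (b⁻¹ * y * b) * b⁻¹ = y := by group
          rw [this]
        rw [← e1, ← e2, h3]
      · obtain ⟨a, haA, ha1, hconj3⟩ :=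
          hAB₀.cond_right (b * c⁻¹) (B₀.mul_mem hbB₀ (B₀.inv_mem hcB₀)) hg
        have h4 : conjBy A (b * c⁻¹)⁻¹ = B := by
          ext y
          rw [mem_conjBy]
          have e2 : c⁻¹ * y * c ∈ conjBy B c⁻¹ ↔ y ∈ B := by
            rw [mem_conjBy]
            have : (c⁻¹)⁻¹ * (c⁻¹ * y * c) * c⁻¹ = y := by group
            rw [this]
          rw [← e2, h3, mem_conjBy]
          have : (b⁻¹)⁻¹ * (c⁻¹ * y * c) * b⁻¹ = ((b * c⁻¹)⁻¹)⁻¹ * y * (b * c⁻¹)⁻¹ := by group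
          rw [this]
        rw [h4] at hconj3
        apply h2.ne
        ext y
        constructor
        · intro hy
          have hy' := hy
          rw [← hconj3, mem_conjBy] at hy'
          have : (a⁻¹)⁻¹ * y * a⁻¹ = y := by
            rw [inv_inv, hAB a haA y hy]; group
          rwa [this] at hy'
        · intro hy
          have h5 : a⁻¹ * y * a ∈ conjBy B₀ a⁻¹ := by
            rw [mem_conjBy]
            have : (a⁻¹)⁻¹ * (a⁻¹ * y * a) * a⁻¹ = y := by group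
            rw [this]; exact hy
          rw [hconj3] at h5
          have h6 := hAB a haA _ h5
          have h7 : y * a = (a⁻¹ * y * a) * a := by rw [← h6]; group
          have h8 : y = a⁻¹ * y * a := mul_right_cancel h7
          rw [h8]; exact h5
    · obtain ⟨hmem, hcent, hcl1, hcl2⟩ := h2
      obtain ⟨b, hbB₀, hb1, hconj⟩ := hAB₀.cond_left x hxA hx1
      have hc1 : ∀ z ∈ conjBy B₀ x⁻¹, ∀ y ∈ B₀, z * y = y * z := by
        intro z hz y hy
        rw [mem_conjBy] at hz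
        have hz' : z = ⁅x⁻¹, (x⁻¹)⁻¹ * z * x⁻¹⁆ * ((x⁻¹)⁻¹ * z * x⁻¹) := by
          rw [commutatorElement_def]; group
        have hcm : ⁅x⁻¹, (x⁻¹)⁻¹ * z * x⁻¹⁆ ∈ ⁅B, B₀⁆ :=
          Subgroup.commutator_mem_commutator (B.inv_mem hxB) hz
        have hyS : y ∈ B ⊔ B₀ := Subgroup.mem_sup_right hy
        have h8 := hcent _ hcm y hyS
        have h9 : ((x⁻¹)⁻¹ * z * x⁻¹) * y = y * ((x⁻¹)⁻¹ * z * x⁻¹) := hB₀comm _ hz y hy
        rw [hz', mul_assoc, h9, ← mul_assoc, h8, mul_assoc]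
      have hxc : ∀ y ∈ B₀, x * y = y * x := by
        intro y hy
        have h10 : b⁻¹ * x * b ∈ conjBy A b⁻¹ := by
          rw [mem_conjBy]
          have : (b⁻¹)⁻¹ * (b⁻¹ * x * b) * b⁻¹ = x := by group
          rw [this]; exact hxA
        rw [hconj] at h10
        have h11 := hc1 _ h10 (b⁻¹ * y * b) (B₀.mul_mem (B₀.mul_mem (B₀.inv_mem hbB₀) hy) hbB₀)
        have h12 : b⁻¹ * (x * y) * b = b⁻¹ * (y * x) * b := by
          calc b⁻¹ * (x * y) * b = (b⁻¹ * x * b) * (b⁻¹ * y * b) := by group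
            _ = (b⁻¹ * y * b) * (b⁻¹ * x * b) := h11
            _ = b⁻¹ * (y * x) * b := by group
        exact mul_left_cancel (mul_right_cancel h12)
      exact key hAB₀ hxA hx1 (conjBy_of_comm hxc)
  · exact key h1 hxA hx1 (conjBy_of_mem' hxB)
  · obtain ⟨hmem, hcent, hcl1, hcl2⟩ := h1
    have h2 := hcl1 x hxA hx1
    have hbot : Subgroup.closure ((fun b : G => x * b * x⁻¹ * b⁻¹) '' (B : Set G)) = ⊥ := by
      rw [Subgroup.closure_eq_bot_iff]
      rintro _ ⟨b, hb, rfl⟩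
      show x * b * x⁻¹ * b⁻¹ = 1
      rw [hBcomm x hxB b hb]; group
    rw [hbot] at h2
    exact hS.ne_bot _ hmem h2.symm

end Cfsg.Agent.S5028
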