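import Cfsg.Statements.S5019
import Cfsg.Agent.S5017
import Cfsg.Agent.S5028
import Mathlib
set_option autoImplicit false
open Cfsg

namespace Cfsg.Agent.S5019

open Cfsg.Agent.S5028 (mem_conjBy)

variable {X : Type*} [Group X] {N : Type*} [AddCommGroup N] [DistribMulAction X N]

/-- The displacement map `n ↦ x • n - n`. -/
noncomputable def dl (x : X) : N →+ N := DistribSMul.toAddMonoidHom N x - AddMonoidHom.id N

lemma dl_apply (x : X) (n : N) : dl x n = x • n - n := rfl

lemma smul_eq_dl (x : X) (n : N) : x • n = n + dl x n := by rw [dl_apply]; abel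

lemma dl_dl {u : X} (hu : ∀ m : N, u • (u • m - m) = u • m - m) (m : N) : dl u (dl u m) = 0 := by
  rw [dl_apply, dl_apply, hu, sub_self]

lemma inv_smul_eq_dl {u : X} (hu : ∀ m : N, u • (u • m - m) = u • m - m) (m : N) :
    u⁻¹ • m = m - dl u m := by
  have h := congrArg (fun z => u⁻¹ • z) (hu m)
  simp only [smul_sub, inv_smul_smul] at h
  rw [dl_apply, h]; abel

lemma quad_conj {A : Subgroup X} (hq : ∀ a ∈ A, ∀ a' ∈ A, ∀ n : N, a' • (a • n - n) = a • n - n)
    (g : X) {u u' : X} (hu : g⁻¹ * u * g ∈ A) (hu' : g⁻¹ * u' * g ∈ A) (n : N) :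
    u' • (u • n - n) = u • n - n := by
  obtain ⟨a, ha, rfl⟩ : ∃ a ∈ A, u = g * a * g⁻¹ := ⟨g⁻¹ * u * g, hu, by group⟩
  obtain ⟨a', ha', rfl⟩ : ∃ a' ∈ A, u' = g * a' * g⁻¹ := ⟨g⁻¹ * u' * g, hu', by group⟩
  have key := congrArg (fun z => g • z) (hq a ha a' ha' (g⁻¹ • n))
  simp only [smul_sub, smul_inv_smul] at key
  simp only [mul_smul, smul_sub, inv_smul_smul]
  exact key

lemma gen {A B : Subgroup X} (htop : A ⊔ B = ⊤) (T : AddSubgroup N)
    (hA : ∀ a ∈ A, ∀ n : N, a • n - n ∈ T) (hB : ∀ b ∈ B, ∀ n : N, b • n - n ∈ T)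
    (y : X) (n : N) : y • n - n ∈ T := by
  have hy : y ∈ A ⊔ B := htop ▸ Subgroup.mem_top y
  rw [Subgroup.sup_eq_closure] at hy
  revert n
  refine Subgroup.closure_induction (p := fun y _ => ∀ n : N, y • n - n ∈ T) ?_ ?_ ?_ ?_ hy
  · intro x hx n
    rcases hx with hx | hx
    · exact hA x hx n
    · exact hB x hx n
  · intro n
    simp
  · intro x y _ _ hx hy n
    have : (x * y) • n - n = (x • (y • n) - y • n) + (y • n - n) := by rw [mul_smul]; abel
    rw [this]
    exact T.add_mem (hx _) (hy _)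
  · intro x _ hx n
    have : x⁻¹ • n - n = -(x • (x⁻¹ • n) - x⁻¹ • n) := by rw [smul_inv_smul]; abel
    rw [this]
    exact T.neg_mem (hx _)

section core
variable {A B : Subgroup X}

lemma fixA (hq : ∀ a ∈ A, ∀ a' ∈ A, ∀ n : N, a' • (a • n - n) = a • n - n)
    (hqB : ∀ b ∈ B, ∀ b' ∈ B, ∀ n : N, b' • (b • n - n) = b • n - n)
    {a b : X} (ha : a ∈ A) (hb : b ∈ B) (hC : conjBy A b⁻¹ = conjBy B a⁻¹)
    {n : N} (hn : ∀ a' ∈ A, a' • n = n) :
    (b⁻¹ * a * b) • n = (a⁻¹ * b⁻¹ * a) • n := by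
  have hαα : ∀ m : N, dl a (dl a m) = 0 := dl_dl (hq a ha a ha)
  have hββ : ∀ m : N, dl b (dl b m) = 0 := dl_dl (hqB b hb b hb)
  have hai : ∀ m : N, a⁻¹ • m = m - dl a m := inv_smul_eq_dl (hq a ha a ha)
  have hbi : ∀ m : N, b⁻¹ • m = m - dl b m := inv_smul_eq_dl (hqB b hb b hb)
  have han : dl a n = 0 := by rw [dl_apply, hn a ha, sub_self]
  have hmem : b * (a⁻¹ * b * a) * b⁻¹ ∈ A := by
    have h1 : a⁻¹ * b * a ∈ conjBy B a⁻¹ := by
      rw [mem_conjBy]
      have : (a⁻¹)⁻¹ * (a⁻¹ * b * a) * a⁻¹ = b := by group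
      rw [this]; exact hb
    rw [← hC, mem_conjBy, inv_inv] at h1
    exact h1
  have E1 : b • a • b⁻¹ • n = a • b⁻¹ • n := by
    have h := hn _ hmem
    simp only [mul_smul] at h
    have h2 := congrArg (fun z => a • b⁻¹ • z) h
    simp only [inv_smul_smul, smul_inv_smul] at h2
    exact h2
  have E1' : dl b (dl a (dl b n)) = dl b n := by
    have key : dl b n - dl b (dl a (dl b n)) = b • a • b⁻¹ • n - a • b⁻¹ • n := by
      simp only [smul_eq_dl (N := N) a, smul_eq_dl (N := N) b, hbi, map_add, map_sub, hαα, hββ,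
        han, map_zero]
      abel
    rw [sub_eq_zero.mpr E1] at key
    exact (sub_eq_zero.mp key).symm
  simp only [mul_smul, smul_eq_dl (N := N) a, smul_eq_dl (N := N) b, hai, hbi, map_add, map_sub,
    hαα, hββ, han, map_zero, E1']
  abel

lemma fixB (hq : ∀ a ∈ A, ∀ a' ∈ A, ∀ n : N, a' • (a • n - n) = a • n - n)
    (hqB : ∀ b ∈ B, ∀ b' ∈ B, ∀ n : N, b' • (b • n - n) = b • n - n)
    {a b : X} (ha : a ∈ A) (hb : b ∈ B) (hC : conjBy A b⁻¹ = conjBy B a⁻¹)
    {n : N} (hn : ∀ b' ∈ B, b' • n = n) :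
    (b⁻¹ * a * b) • n = (a⁻¹ * b⁻¹ * a) • n := by
  have hαα : ∀ m : N, dl a (dl a m) = 0 := dl_dl (hq a ha a ha)
  have hββ : ∀ m : N, dl b (dl b m) = 0 := dl_dl (hqB b hb b hb)
  have hai : ∀ m : N, a⁻¹ • m = m - dl a m := inv_smul_eq_dl (hq a ha a ha)
  have hbi : ∀ m : N, b⁻¹ • m = m - dl b m := inv_smul_eq_dl (hqB b hb b hb)
  have hbn : dl b n = 0 := by rw [dl_apply, hn b hb, sub_self]
  have hmem : a * (b⁻¹ * a * b) * a⁻¹ ∈ B := by
    have h1 : b⁻¹ * a * b ∈ conjBy A b⁻¹ := by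
      rw [mem_conjBy]
      have : (b⁻¹)⁻¹ * (b⁻¹ * a * b) * b⁻¹ = a := by group
      rw [this]; exact ha
    rw [hC, mem_conjBy, inv_inv] at h1
    exact h1
  have E2 : a • b • a⁻¹ • n = b • a⁻¹ • n := by
    have h := hn _ hmem
    simp only [mul_smul] at h
    have h2 := congrArg (fun z => b • a⁻¹ • z) h
    simp only [inv_smul_smul, smul_inv_smul] at h2
    exact h2
  have E2' : dl a (dl b (dl a n)) = dl a n := by
    have key : dl a n - dl a (dl b (dl a n)) = a • b • a⁻¹ • n - b • a⁻¹ • n := by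
      simp only [smul_eq_dl (N := N) a, smul_eq_dl (N := N) b, hai, map_add, map_sub, hαα, hββ,
        hbn, map_zero]
      abel
    rw [sub_eq_zero.mpr E2] at key
    exact (sub_eq_zero.mp key).symm
  simp only [mul_smul, smul_eq_dl (N := N) a, smul_eq_dl (N := N) b, hai, hbi, map_add, map_sub,
    hαα, hββ, hbn, map_zero, E2']
  abel

end core

/-- Let X be a rank one group with abelian unipotent subgroups A and B, and suppose X acts on an abelian group N (written additively) in such a way that A acts quadratically, meaning a' • (a • n − n) = a • n − n for all a, a' in A and n in N, while X as a whole does not: y • (x • n − n) ≠ x • n − n for some x, y in X and n in N. Then X is a special rank one group. -/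
theorem result {X : Type*} [Group X] {A B : Subgroup X} (h : Cfsg.IsRankOneGroup X A B)
    (hab : Cfsg.HasAbelianUnipotents A B) {N : Type*} [AddCommGroup N] [DistribMulAction X N]
    (hq : ∀ a ∈ A, ∀ a' ∈ A, ∀ n : N, a' • (a • n - n) = a • n - n)
    (hX : ∃ x y : X, ∃ n : N, y • (x • n - n) ≠ x • n - n) : Cfsg.IsSpecialRankOnePair A B := by
  obtain ⟨htop, hp⟩ := h
  refine ⟨hp, ?_⟩
  intro a ha ha1 b hb hb1 hC
  have hBA : ∀ b' ∈ B, (a * b⁻¹)⁻¹ * b' * (a * b⁻¹) ∈ A := by
    intro b' hb'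
    have h1 : a⁻¹ * b' * a ∈ conjBy B a⁻¹ := by
      rw [mem_conjBy]
      have : (a⁻¹)⁻¹ * (a⁻¹ * b' * a) * a⁻¹ = b' := by group
      rw [this]; exact hb'
    rw [← hC, mem_conjBy] at h1
    have : (a * b⁻¹)⁻¹ * b' * (a * b⁻¹) = (b⁻¹)⁻¹ * (a⁻¹ * b' * a) * b⁻¹ := by group
    rw [this]; exact h1
  have hqB : ∀ b₁ ∈ B, ∀ b₂ ∈ B, ∀ n : N, b₂ • (b₁ • n - n) = b₁ • n - n :=
    fun b₁ h₁ b₂ h₂ n => quad_conj hq (a * b⁻¹) (hBA b₁ h₁) (hBA b₂ h₂) n
  let M : Subgroup X :=
    { carrier := {x | ∀ (y : X) (n : N), x • (y • n - n) = y • n - n}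
      one_mem' := fun y n => one_smul _ _
      mul_mem' := by
        intro x x' hx hx' y n
        have hx : ∀ (y : X) (n : N), x • (y • n - n) = y • n - n := hx
        have hx' : ∀ (y : X) (n : N), x' • (y • n - n) = y • n - n := hx'
        show (x * x') • (y • n - n) = y • n - n
        rw [mul_smul, hx' y n, hx y n]
      inv_mem' := by
        intro x hx y n
        have hx : ∀ (y : X) (n : N), x • (y • n - n) = y • n - n := hx
        show x⁻¹ • (y • n - n) = y • n - n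
        rw [inv_smul_eq_iff]; exact (hx y n).symm }
  have hMmem : ∀ x : X, x ∈ M ↔ ∀ (y : X) (n : N), x • (y • n - n) = y • n - n := fun x => Iff.rfl
  have hMn : M.Normal := by
    constructor
    intro x hx g
    rw [hMmem] at hx ⊢
    intro y n
    have h1 := hx (g⁻¹ * y * g) (g⁻¹ • n)
    have h2 := congrArg (fun z => g • z) h1
    simp only [mul_smul, smul_sub, smul_inv_smul] at h2
    simp only [mul_smul, smul_sub]
    exact h2
  have hT : ∀ (y : X) (n : N), (b⁻¹ * a * b) • (y • n - n) = (a⁻¹ * b⁻¹ * a) • (y • n - n) := by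
    let T : AddSubgroup N :=
      { carrier := {m | (b⁻¹ * a * b) • m = (a⁻¹ * b⁻¹ * a) • m}
        zero_mem' := by
          show (b⁻¹ * a * b) • (0:N) = (a⁻¹ * b⁻¹ * a) • (0:N)
          rw [smul_zero, smul_zero]
        add_mem' := by
          intro m m' hm hm'
          have hm : (b⁻¹ * a * b) • m = (a⁻¹ * b⁻¹ * a) • m := hm
          have hm' : (b⁻¹ * a * b) • m' = (a⁻¹ * b⁻¹ * a) • m' := hm'
          show (b⁻¹ * a * b) • (m + m') = (a⁻¹ * b⁻¹ * a) • (m + m')
          rw [smul_add, smul_add, hm, hm']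
        neg_mem' := by
          intro m hm
          have hm : (b⁻¹ * a * b) • m = (a⁻¹ * b⁻¹ * a) • m := hm
          show (b⁻¹ * a * b) • (-m) = (a⁻¹ * b⁻¹ * a) • (-m)
          rw [smul_neg, smul_neg, hm] }
    intro y n
    have := gen htop T
      (fun a' ha' n => fixA hq hqB ha hb hC (fun a'' ha'' => hq a' ha' a'' ha'' n))
      (fun b' hb' n => fixB hq hqB ha hb hC (fun b'' hb'' => hqB b' hb' b'' hb'' n)) y n
    exact this
  have hcM : (a⁻¹ * b⁻¹ * a)⁻¹ * (b⁻¹ * a * b) ∈ M := by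
    rw [hMmem]
    intro y n
    rw [mul_smul, hT y n, inv_smul_smul]
  rcases Cfsg.Agent.S5017.normal_dichotomy ⟨htop, hp⟩ M hMn with hMA | hMZ
  · exfalso
    have hBM : ∀ b' ∈ B, b' ∈ M := by
      intro b' hb'
      have hb'' : b' ∈ M ⊔ A := hMA ▸ Subgroup.mem_top b'
      haveI := hMn
      rw [Subgroup.mem_sup_of_normal_left] at hb''
      obtain ⟨m, hm, a', ha', rfl⟩ := hb''
      rw [hMmem]
      intro y n
      let T2 : AddSubgroup N :=
        { carrier := {w | a' • w = w}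
          zero_mem' := smul_zero a'
          add_mem' := by
            intro w w' hw hw'
            have hw : a' • w = w := hw
            have hw' : a' • w' = w' := hw'
            show a' • (w + w') = w + w'
            rw [smul_add, hw, hw']
          neg_mem' := by
            intro w hw
            have hw : a' • w = w := hw
            show a' • (-w) = -w
            rw [smul_neg, hw] }
      have h2 : a' • (y • n - n) = y • n - n := by
        refine gen htop T2 (fun a'' ha'' n => hq a'' ha'' a' ha' n) ?_ y n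
        intro b'' hb'' n
        show a' • (b'' • n - n) = b'' • n - n
        have e1 : (m * a') • (b'' • n - n) = b'' • n - n := hqB b'' hb'' (m * a') hb' n
        have e2 : m⁻¹ • (b'' • n - n) = b'' • n - n := (hMmem _).mp (M.inv_mem hm) b'' n
        rw [mul_smul] at e1
        have e3 := congrArg (fun z => m⁻¹ • z) e1
        simp only [inv_smul_smul] at e3
        exact e3.trans e2
      rw [mul_smul, h2]
      exact (hMmem _).mp hm y n
    have hAM : ∀ a' ∈ A, a' ∈ M := by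
      intro a' ha'
      have h1 : b⁻¹ * a' * b ∈ conjBy A b⁻¹ := by
        rw [mem_conjBy]
        have : (b⁻¹)⁻¹ * (b⁻¹ * a' * b) * b⁻¹ = a' := by group
        rw [this]; exact ha'
      rw [hC, mem_conjBy] at h1
      have h2 := hMn.conj_mem _ (hBM _ h1) (b * a⁻¹)
      have : b * a⁻¹ * ((a⁻¹)⁻¹ * (b⁻¹ * a' * b) * a⁻¹) * (b * a⁻¹)⁻¹ = a' := by group
      rw [this] at h2; exact h2
    have hMtop : ∀ x : X, x ∈ M := by
      intro x
      have hx : x ∈ A ⊔ B := htop ▸ Subgroup.mem_top x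
      have hle : A ⊔ B ≤ M := sup_le (fun z hz => hAM z hz) (fun z hz => hBM z hz)
      exact hle hx
    obtain ⟨x, y, n, hne⟩ := hX
    exact hne ((hMmem y).mp (hMtop y) x n)
  · have hcZ : (a⁻¹ * b⁻¹ * a)⁻¹ * (b⁻¹ * a * b) ∈ Subgroup.center X := hMZ hcM
    generalize hc : (a⁻¹ * b⁻¹ * a)⁻¹ * (b⁻¹ * a * b) = c at hcZ
    have hcC : c ∈ conjBy A b⁻¹ := by
      have h1 : b⁻¹ * a * b ∈ conjBy A b⁻¹ := by
        rw [mem_conjBy]
        have : (b⁻¹)⁻¹ * (b⁻¹ * a * b) * b⁻¹ = a := by group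
        rw [this]; exact ha
      have h2 : a⁻¹ * b⁻¹ * a ∈ conjBy A b⁻¹ := by
        rw [hC, mem_conjBy]
        have : (a⁻¹)⁻¹ * (a⁻¹ * b⁻¹ * a) * a⁻¹ = b⁻¹ := by group
        rw [this]; exact B.inv_mem hb
      rw [← hc]
      exact Subgroup.mul_mem _ (Subgroup.inv_mem _ h2) h1
    have hcomm : ∀ g : X, g * c = c * g := fun g => (Subgroup.mem_center_iff.mp hcZ g)
    have hcA : c ∈ A := by
      have h1 := hcC
      rw [mem_conjBy] at h1
      have : (b⁻¹)⁻¹ * c * b⁻¹ = c := by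
        rw [inv_inv, hcomm b, mul_assoc, mul_inv_cancel, mul_one]
      rw [this] at h1; exact h1
    have hcB : c ∈ B := by
      have h1 := hcC
      rw [hC, mem_conjBy] at h1
      have : (a⁻¹)⁻¹ * c * a⁻¹ = c := by
        rw [inv_inv, hcomm a, mul_assoc, mul_inv_cancel, mul_one]
      rw [this] at h1; exact h1
    have hbot := Cfsg.Agent.S5013.inf_normalizer_eq_bot hp
    have hc1 : c = 1 := by
      have : c ∈ A ⊓ Subgroup.normalizer (B : Set X) := ⟨hcA, Subgroup.le_normalizer hcB⟩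
      rw [hbot] at this
      exact Subgroup.mem_bot.mp this
    rw [← hc] at hc1
    exact (inv_mul_eq_one.mp hc1).symm

end Cfsg.Agent.S5019
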