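import Cfsg.Statements.S5021
import Cfsg.Agent.Lib.helper25.RankOne
import Mathlib

set_option autoImplicit false
open Cfsg

namespace Cfsg.Agent.S5021

open Cfsg.Agent.S5013 (conjBy_conjBy conjBy_one conjBy_of_mem inf_normalizer_eq_bot eq_of_conjBy_eq)
open Cfsg.Agent.Lib.helper25

variable {G : Type*} [Group G]

/-- the partner relation `b = b(a)` -/
def Par (A B : Subgroup G) (a b : G) : Prop :=
  a ∈ A ∧ a ≠ 1 ∧ b ∈ B ∧ b ≠ 1 ∧ conjBy A b⁻¹ = conjBy B a⁻¹

theorem Par.swap {A B : Subgroup G} {a b : G} (h : Par A B a b) : Par B A b a :=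
  ⟨h.2.2.1, h.2.2.2.1, h.1, h.2.1, h.2.2.2.2.symm⟩

theorem par_exists_left {A B : Subgroup G} (hp : IsRankOnePair A B) {a : G} (ha : a ∈ A)
    (ha1 : a ≠ 1) : ∃ b, Par A B a b := by
  obtain ⟨b, hb, hb1, h⟩ := hp.cond_left a ha ha1
  exact ⟨b, ha, ha1, hb, hb1, h⟩

theorem par_exists_right {A B : Subgroup G} (hp : IsRankOnePair A B) {b : G} (hb : b ∈ B)
    (hb1 : b ≠ 1) : ∃ a, Par A B a b := by
  obtain ⟨a, ha, ha1, h⟩ := hp.cond_right b hb hb1
  exact ⟨a, ha, ha1, hb, hb1, h.symm⟩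

theorem par_unique_right {A B : Subgroup G} (hp : IsRankOnePair A B) {a b b' : G}
    (h : Par A B a b) (h' : Par A B a b') : b = b' :=
  eq_of_conjBy_eq (inf_normalizer_eq_bot (RankOnePair_symm hp)) h.2.2.1 h'.2.2.1
    (h.2.2.2.2.trans h'.2.2.2.2.symm)

theorem par_unique_left {A B : Subgroup G} (hp : IsRankOnePair A B) {a a' b : G}
    (h : Par A B a b) (h' : Par A B a' b) : a = a' :=
  par_unique_right (RankOnePair_symm hp) h.swap h'.swap

theorem braid {A B : Subgroup G} (hs : IsSpecialRankOnePair A B) {a b : G} (h : Par A B a b) :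
    a * b⁻¹ * a = b⁻¹ * a * b⁻¹ := by
  have e := hs.2 a h.1 h.2.1 b h.2.2.1 h.2.2.2.1 h.2.2.2.2
  have : a * (b⁻¹ * a * b) * b⁻¹ = a * (a⁻¹ * b⁻¹ * a) * b⁻¹ := by rw [e]
  simpa [mul_assoc] using this

theorem special_swap {A B : Subgroup G} (hs : IsSpecialRankOnePair A B) :
    IsSpecialRankOnePair B A := by
  refine ⟨RankOnePair_symm hs.1, ?_⟩
  intro b hb hb1 a ha ha1 hconj
  have hpar : Par A B a b := ⟨ha, ha1, hb, hb1, hconj.symm⟩
  have e := braid hs hpar
  have e' : a⁻¹ * (b * a⁻¹) = b * (a⁻¹ * b) := by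
    simpa [mul_assoc] using congrArg (fun t => t⁻¹) e
  calc a⁻¹ * b * a = b⁻¹ * (b * (a⁻¹ * b)) * a := by group
    _ = b⁻¹ * (a⁻¹ * (b * a⁻¹)) * a := by rw [e']
    _ = b⁻¹ * a⁻¹ * b := by group

theorem semi1 {A B : Subgroup G} (hs : IsSpecialRankOnePair A B) {a b : G} (h : Par A B a b) :
    SemiconjBy (a * b⁻¹ * a) a b⁻¹ := by
  unfold SemiconjBy
  have e := braid hs h
  calc a * b⁻¹ * a * a = (b⁻¹ * a * b⁻¹) * a := by rw [e]
    _ = b⁻¹ * (a * b⁻¹ * a) := by group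

theorem semi2 {A B : Subgroup G} (hs : IsSpecialRankOnePair A B) {a b : G} (h : Par A B a b) :
    SemiconjBy (a * b⁻¹ * a) b⁻¹ a := by
  unfold SemiconjBy
  have e := braid hs h
  calc a * b⁻¹ * a * b⁻¹ = a * (b⁻¹ * a * b⁻¹) := by group
    _ = a * (a * b⁻¹ * a) := by rw [← e]

theorem pow_eq_one_of_par {A B : Subgroup G} (hs : IsSpecialRankOnePair A B) {a b : G}
    (h : Par A B a b) (k : ℕ) (hk : b ^ k = 1) : a ^ k = 1 := by
  have s := (semi1 hs h).pow_right k
  have e : (b⁻¹) ^ k = 1 := by rw [inv_pow, hk, inv_one]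
  rw [e] at s
  have := s.eq
  rw [one_mul] at this
  exact mul_left_cancel (this.trans (mul_one _).symm)

theorem par_inv {A B : Subgroup G} (hs : IsSpecialRankOnePair A B) {a b : G} (h : Par A B a b) :
    Par A B a⁻¹ b⁻¹ := by
  obtain ⟨ha, ha1, hb, hb1, hconj⟩ := h
  refine ⟨A.inv_mem ha, inv_ne_one.mpr ha1, B.inv_mem hb, inv_ne_one.mpr hb1, ?_⟩
  rw [inv_inv, inv_inv]
  have e := hs.2 a ha ha1 b hb hb1 hconj
  have hQfix : conjBy (conjBy B (b⁻¹ * a)) a⁻¹ = conjBy B (b⁻¹ * a) := by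
    rw [conjBy_conjBy]
    have e2 : a⁻¹ * (b⁻¹ * a) = (b⁻¹ * a) * b := by rw [← mul_assoc, ← e]
    rw [e2, ← conjBy_conjBy B b (b⁻¹ * a), conjBy_of_mem B hb]
  have hQorb : conjBy B (b⁻¹ * a) ∈ rankOneOrbit A B := by
    have hB0 : B ∈ rankOneOrbit A B := Or.inr ⟨1, A.one_mem, (conjBy_one B).symm⟩
    exact rankOneOrbit_conj hs.1 (Subgroup.mul_mem _ (Subgroup.mem_sup_right (B.inv_mem hb))
      (Subgroup.mem_sup_left ha)) B hB0
  rcases hQorb with hQA | ⟨c, hc, hQc⟩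
  · have h1 : conjBy (conjBy B a) b⁻¹ = A := by rw [conjBy_conjBy]; exact hQA
    have h2 := conjBy_eq_iff.mp h1
    rw [inv_inv] at h2
    exact h2.symm
  · exfalso
    rw [hQc, conjBy_conjBy] at hQfix
    have := rankOne_conjBy_B_inj hs.1 (A.mul_mem (A.inv_mem ha) hc) hc hQfix
    exact ha1 (by simpa using this)

theorem step {A B : Subgroup G} (hs : IsSpecialRankOnePair A B)
    (hcA : ∀ x ∈ A, ∀ y ∈ A, x * y = y * x)
    (k : ℕ) (hT : ∀ x ∈ A, x ^ k = 1 → x = 1)
    (hP : ∀ a b y : G, Par A B a b → Par A B y (b ^ k) → y ^ k = a)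
    {u b u' b' : G} (h : Par A B u b) (h' : Par A B u' b') (hu' : u' = u ^ (k + 1)) :
    b' ^ (k + 1) = b := by
  have hp := hs.1
  obtain ⟨hu, hu1, hb, hb1, hconj⟩ := id h
  obtain ⟨hu'A, hu'1, hb', hb'1, hconj'⟩ := id h'
  have hbk' : b' ^ k ≠ 1 := fun e => hu'1 (hT u' hu'A (pow_eq_one_of_par hs h' k e))
  have hbk : b ^ k ≠ 1 := fun e => hu1 (hT u hu (pow_eq_one_of_par hs h k e))
  obtain ⟨y, hy⟩ := par_exists_right hp (B.pow_mem hb' k) hbk'
  obtain ⟨z, hz⟩ := par_exists_right hp (B.pow_mem hb k) hbk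
  have hyk : y ^ k = u' := hP u' b' y h' hy
  have hzk : z ^ k = u := hP u b z h hz
  have hyA := hy.1
  have hzA := hz.1
  have hyuz : y = u * z := by
    have hc1 : Commute u z := hcA u hu z hzA
    have hc2 : Commute y⁻¹ (u * z) := hcA _ (A.inv_mem hyA) _ (A.mul_mem hu hzA)
    have e : (y⁻¹ * (u * z)) ^ k = 1 := by
      rw [hc2.mul_pow, hc1.mul_pow, inv_pow, hyk, hzk, hu', pow_succ]
      exact inv_mul_cancel _
    have := hT _ (A.mul_mem (A.inv_mem hyA) (A.mul_mem hu hzA)) e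
    exact inv_mul_eq_one.mp this
  have hnnA : conjBy A (u * b⁻¹ * u) = B := by
    rw [← conjBy_conjBy A u (u * b⁻¹), conjBy_of_mem A hu, ← conjBy_conjBy A b⁻¹ u, hconj,
      conjBy_conjBy, mul_inv_cancel, conjBy_one]
  have hnnB : conjBy B (u * b⁻¹ * u)⁻¹ = A := (conjBy_eq_iff.mp hnnA).symm
  have E1 : conjBy A (b' ^ (k + 1) * b'⁻¹) = conjBy B y := by
    have := (par_inv hs hy).2.2.2.2
    rw [inv_inv, inv_inv] at this
    rw [pow_succ, mul_inv_cancel_right]
    exact this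
  have E2 : conjBy A (b * b'⁻¹) = conjBy B (u * z) := by
    have hz' := (par_inv hs hz).2.2.2.2
    rw [inv_inv, inv_inv] at hz'
    have e3 : b * u'⁻¹ = u * (b ^ k * (u * b⁻¹ * u)⁻¹) := by
      have s := (((semi2 hs h).inv_symm_left).inv_right.pow_right k).eq
      rw [inv_inv] at s
      rw [← s, hu', ← inv_pow, pow_succ']
      group
    rw [← conjBy_conjBy A b'⁻¹ b, hconj', conjBy_conjBy, e3,
      ← conjBy_conjBy B (b ^ k * (u * b⁻¹ * u)⁻¹) u, ← conjBy_conjBy B (u * b⁻¹ * u)⁻¹ (b ^ k),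
      hnnB, hz', conjBy_conjBy]
  have hfin : conjBy A (b' ^ (k + 1) * b'⁻¹) = conjBy A (b * b'⁻¹) := by rw [E1, E2, hyuz]
  have := rankOne_conjBy_B_inj (RankOnePair_symm hp)
    (B.mul_mem (B.pow_mem hb' _) (B.inv_mem hb')) (B.mul_mem hb (B.inv_mem hb')) hfin
  exact mul_right_cancel this

/-- `b(a^n)^n = b(a)` -/
def RRn (A B : Subgroup G) (n : ℕ) : Prop :=
  ∀ a b a' b' : G, Par A B a b → Par A B a' b' → a' = a ^ n → b' ^ n = b

theorem rr_all {A B : Subgroup G} (hs : IsSpecialRankOnePair A B)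
    (hcA : ∀ x ∈ A, ∀ y ∈ A, x * y = y * x) (hcB : ∀ x ∈ B, ∀ y ∈ B, x * y = y * x)
    (N : ℕ) (hTA : ∀ m, 0 < m → m < N → ∀ x ∈ A, x ^ m = 1 → x = 1) :
    ∀ n, 0 < n → n ≤ N → RRn A B n ∧ RRn B A n := by
  have hs' := special_swap hs
  have hTB : ∀ m, 0 < m → m < N → ∀ x ∈ B, x ^ m = 1 → x = 1 := by
    intro m hm hmN x hx hxm
    by_contra hx1
    obtain ⟨a, ha⟩ := par_exists_right hs.1 hx hx1
    exact ha.2.1 (hTA m hm hmN a ha.1 (pow_eq_one_of_par hs ha m hxm))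
  intro n
  induction n with
  | zero => intro h0; exact absurd h0 (lt_irrefl 0)
  | succ k ih =>
    intro _ hkN
    rcases Nat.eq_zero_or_pos k with rfl | hk
    · constructor
      · intro a b a' b' h h' e
        rw [zero_add, pow_one] at e ⊢
        subst e
        exact par_unique_right hs.1 h' h
      · intro a b a' b' h h' e
        rw [zero_add, pow_one] at e ⊢
        subst e
        exact par_unique_right hs'.1 h' h
    · obtain ⟨ih1, ih2⟩ := ih hk (by omega)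
      constructor
      · intro a b a' b' h h' e
        refine step hs hcA k (hTA k hk (by omega)) ?_ h h' e
        intro a₀ b₀ y h₀ hy
        exact ih2 b₀ a₀ (b₀ ^ k) y h₀.swap hy.swap rfl
      · intro a b a' b' h h' e
        refine step hs' hcB k (hTB k hk (by omega)) ?_ h h' e
        intro a₀ b₀ y h₀ hy
        exact ih1 b₀ a₀ (b₀ ^ k) y h₀.swap hy.swap rfl

/-- In a special rank one group with abelian unipotent subgroups A and B, either A is an elementary abelian p-group for some prime p, or A is torsion-free and divisible (every element of A has an n-th root in A for every positive n). -/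
theorem result {X : Type*} [Group X] {A B : Subgroup X} (h : Cfsg.IsRankOneGroup X A B)
    (hs : Cfsg.IsSpecialRankOnePair A B) (hab : Cfsg.HasAbelianUnipotents A B) :
    (∃ p : ℕ, p.Prime ∧ Cfsg.IsElementaryAbelian p A) ∨
    ((∀ a ∈ A, a ≠ 1 → ¬ IsOfFinOrder a) ∧ ∀ a ∈ A, ∀ n : ℕ, 0 < n → ∃ c ∈ A, c ^ n = a) := by
  obtain ⟨hA, hB⟩ := hab
  have hcA : ∀ x ∈ A, ∀ y ∈ A, x * y = y * x := by
    intro x hx y hy
    haveI := hA
    exact congrArg Subtype.val (mul_comm' (⟨x, hx⟩ : A) ⟨y, hy⟩)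
  have hcB : ∀ x ∈ B, ∀ y ∈ B, x * y = y * x := by
    intro x hx y hy
    haveI := hB
    exact congrArg Subtype.val (mul_comm' (⟨x, hx⟩ : B) ⟨y, hy⟩)
  by_cases htor : ∃ m, 0 < m ∧ ∃ a ∈ A, a ≠ 1 ∧ a ^ m = 1
  · left
    classical
    obtain ⟨p, ⟨hp0, t, ht, ht1, htp⟩, hpmin⟩ := Nat.findX htor
    have hmin : ∀ m, 0 < m → m < p → ∀ x ∈ A, x ^ m = 1 → x = 1 := by
      intro m hm hmp x hx hxm
      by_contra hx1
      exact hpmin m hmp ⟨hm, x, hx, hx1, hxm⟩
    have hp2 : 2 ≤ p := by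
      by_contra hlt
      have h1 : p = 1 := by omega
      rw [h1, pow_one] at htp
      exact ht1 htp
    have hprime : p.Prime := by
      rw [Nat.prime_def_lt]
      refine ⟨hp2, ?_⟩
      intro m hmp hmd
      obtain ⟨q, hq⟩ := hmd
      by_contra hm1
      have hm0 : 0 < m := by
        rcases Nat.eq_zero_or_pos m with rfl | h0
        · rw [zero_mul] at hq; omega
        · exact h0
      have hq0 : 0 < q := by
        rcases Nat.eq_zero_or_pos q with rfl | h0
        · rw [mul_zero] at hq; omega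
        · exact h0
      have hqp : q < p := by
        have h2 : 2 ≤ m := by omega
        calc q < 2 * q := by omega
          _ ≤ m * q := Nat.mul_le_mul_right q h2
          _ = p := hq.symm
      have h1 : (t ^ m) ^ q = 1 := by rw [← pow_mul, ← hq]; exact htp
      have h2 := hmin q hq0 hqp (t ^ m) (A.pow_mem ht m) h1
      exact ht1 (hmin m hm0 hmp t ht h2)
    refine ⟨p, hprime, hA, ?_⟩
    intro a ha
    by_contra hap
    have ha1 : a ≠ 1 := by rintro rfl; exact hap (one_pow p)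
    have hat : a * t ∈ A := A.mul_mem ha ht
    have hatp : (a * t) ^ p = a ^ p := by
      have hc : Commute a t := hcA a ha t ht
      rw [hc.mul_pow, htp, mul_one]
    have hat1 : a * t ≠ 1 := by
      intro e; rw [e, one_pow] at hatp; exact hap hatp.symm
    obtain ⟨b, hb⟩ := par_exists_left hs.1 ha ha1
    obtain ⟨b', hb'⟩ := par_exists_left hs.1 hat hat1
    obtain ⟨b'', hb''⟩ := par_exists_left hs.1 (A.pow_mem ha p) hap
    have hrr := (rr_all hs hcA hcB p hmin p hp0 le_rfl).1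
    have e1 : b'' ^ p = b := hrr a b (a ^ p) b'' hb hb'' rfl
    have e2 : b'' ^ p = b' := hrr (a * t) b' (a ^ p) b'' hb' hb'' hatp.symm
    have hbb : b = b' := e1.symm.trans e2
    rw [← hbb] at hb'
    have hfin := par_unique_left hs.1 hb hb'
    exact ht1 (by simpa using hfin)
  · right
    have htor' : ∀ m, 0 < m → ∀ a ∈ A, a ≠ 1 → a ^ m ≠ 1 :=
      fun m hm a ha ha1 e => htor ⟨m, hm, a, ha, ha1, e⟩
    have hT : ∀ N m, 0 < m → m < N → ∀ x ∈ A, x ^ m = 1 → x = 1 := by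
      intro N m hm _ x hx hxm
      by_contra hx1
      exact htor' m hm x hx hx1 hxm
    constructor
    · intro a ha ha1 hfin
      obtain ⟨n, hn, hpow⟩ := isOfFinOrder_iff_pow_eq_one.mp hfin
      exact htor' n hn a ha ha1 hpow
    · intro a ha n hn
      by_cases ha1 : a = 1
      · exact ⟨1, A.one_mem, by rw [ha1, one_pow]⟩
      · obtain ⟨b, hb⟩ := par_exists_left hs.1 ha ha1
        have hbn : b ^ n ≠ 1 := by
          intro e
          exact htor' n hn a ha ha1 (pow_eq_one_of_par hs hb n e)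
        obtain ⟨c, hc⟩ := par_exists_right hs.1 (B.pow_mem hb.2.2.1 n) hbn
        have hrr := (rr_all hs hcA hcB (n + 1) (hT (n + 1)) n hn (by omega)).2
        exact ⟨c, hc.1, hrr b a (b ^ n) c hb.swap hc.swap rfl⟩

end Cfsg.Agent.S5021
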