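import Cfsg.Statements.S5023
import Cfsg.Agent.S5019
import Mathlib
set_option autoImplicit false
open Cfsg

namespace Cfsg.Agent.S5023

open Cfsg.Agent.S5028 (mem_conjBy)
open Cfsg.Agent.S5019 (dl dl_apply smul_eq_dl dl_dl inv_smul_eq_dl quad_conj)

variable {X : Type*} [Group X] {V : Type*} [AddCommGroup V] [DistribMulAction X V]

lemma comm_of_quad (hf : ∀ x : X, (∀ v : V, x • v = v) → x = 1) {A : Subgroup X}
    (hq : ∀ a ∈ A, ∀ a' ∈ A, ∀ v : V, a' • (a • v - v) = a • v - v) :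
    ∀ a ∈ A, ∀ a' ∈ A, a * a' = a' * a := by
  intro a ha a' ha'
  have key : ∀ v : V, (a * a') • v = (a' * a) • v := by
    intro v
    have h1 := hq a' ha' a ha v
    have h2 := hq a ha a' ha' v
    rw [smul_sub] at h1 h2
    rw [mul_smul, mul_smul]
    have e1 : a • a' • v = a' • v - v + a • v := by rw [← h1]; abel
    have e2 : a' • a • v = a • v - v + a' • v := by rw [← h2]; abel
    rw [e1, e2]; abel
  have : (a' * a)⁻¹ * (a * a') = 1 := by
    apply hf
    intro v
    rw [mul_smul, key v, inv_smul_smul]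
  exact (inv_mul_eq_one.mp this).symm

lemma smul_nsmul' (x : X) (k : ℕ) (w : V) : x • (k • w) = k • (x • w) :=
  map_nsmul (DistribSMul.toAddMonoidHom V x) k w

lemma pow_smul_eq {u : X} (hu : ∀ m : V, u • (u • m - m) = u • m - m) (j : ℕ) (m : V) :
    (u ^ j) • m = m + j • dl u m := by
  induction j generalizing m with
  | zero => simp
  | succ j ih =>
    rw [pow_succ, mul_smul, smul_eq_dl u m, ih, map_add, dl_dl hu, add_zero, succ_nsmul]
    abel

lemma L1 (p : ℕ) (x : X) (z : V) (hz : p • z = 0) : p • (x • z - z) = 0 := by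
  rw [nsmul_sub, ← smul_nsmul', hz, smul_zero, sub_zero]

/-- Let X be a rank one group with unipotent subgroups A and B that acts faithfully on an abelian group V (written additively) with A acting quadratically: a' • (a • v − v) = a • v − v for all a, a' in A and v in V. Then A is either torsion-free or an elementary abelian p-group for some prime p. -/
theorem result {X : Type*} [Group X] {A B : Subgroup X} (h : Cfsg.IsRankOneGroup X A B)
    {V : Type*} [AddCommGroup V] [DistribMulAction X V] (hf : ∀ x : X, (∀ v : V, x • v = v) → x = 1)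
    (hq : ∀ a ∈ A, ∀ a' ∈ A, ∀ v : V, a' • (a • v - v) = a • v - v) :
    (∀ a ∈ A, a ≠ 1 → ¬ IsOfFinOrder a) ∨ ∃ p : ℕ, p.Prime ∧ Cfsg.IsElementaryAbelian p A := by
  have htop := h.1
  have hp := h.2
  by_cases hfin : ∀ a ∈ A, a ≠ 1 → ¬ IsOfFinOrder a
  · exact Or.inl hfin
  right
  push_neg at hfin
  obtain ⟨a1, ha1, ha1ne, ha1fin⟩ := hfin
  obtain ⟨p, hpp, a0, ha0, ha0ne, ha0p⟩ : ∃ p : ℕ, p.Prime ∧ ∃ a0 ∈ A, a0 ≠ 1 ∧ a0 ^ p = 1 := by
    have hk : 0 < orderOf a1 := ha1fin.orderOf_pos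
    have hk1 : orderOf a1 ≠ 1 := fun h1 => ha1ne (orderOf_eq_one_iff.mp h1)
    refine ⟨(orderOf a1).minFac, Nat.minFac_prime hk1, a1 ^ (orderOf a1 / (orderOf a1).minFac),
      A.pow_mem ha1 _, ?_, ?_⟩
    · apply pow_ne_one_of_lt_orderOf
      · have := Nat.div_pos (Nat.minFac_le hk) (Nat.minFac_pos _)
        omega
      · exact Nat.div_lt_self hk (Nat.minFac_prime hk1).one_lt
    · rw [← pow_mul, Nat.div_mul_cancel (Nat.minFac_dvd _), pow_orderOf_eq_one]
  refine ⟨p, hpp, ?_⟩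
  have hAcomm := comm_of_quad hf hq
  have hAc : IsMulCommutative A := ⟨⟨fun x y => Subtype.ext (hAcomm x.1 x.2 y.1 y.2)⟩⟩
  refine ⟨hAc, ?_⟩
  obtain ⟨g, -, hBg⟩ := Cfsg.Agent.Lib.helper25.rankOne_B_conj hp
  have hBA : ∀ b' ∈ B, g⁻¹ * b' * g ∈ A := by
    intro b' hb'
    rw [hBg, mem_conjBy] at hb'
    exact hb'
  have hqB : ∀ b₁ ∈ B, ∀ b₂ ∈ B, ∀ v : V, b₂ • (b₁ • v - v) = b₁ • v - v :=
    fun b₁ h₁ b₂ h₂ v => quad_conj hq g (hBA b₁ h₁) (hBA b₂ h₂) v
  have hBcomm := comm_of_quad hf hqB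
  have hBc : IsMulCommutative B := ⟨⟨fun x y => Subtype.ext (hBcomm x.1 x.2 y.1 y.2)⟩⟩
  have hX : ∃ x y : X, ∃ v : V, y • (x • v - v) ≠ x • v - v := by
    by_contra hcon
    push_neg at hcon
    have hXq : ∀ x ∈ (⊤ : Subgroup X), ∀ y ∈ (⊤ : Subgroup X), ∀ v : V,
        y • (x • v - v) = x • v - v := fun x _ y _ v => hcon x y v
    have hc := comm_of_quad hf hXq
    apply hp.ne
    rw [hBg]
    ext y
    rw [mem_conjBy]
    have : g⁻¹ * y * g = y := by
      rw [mul_assoc, hc y (Subgroup.mem_top _) g (Subgroup.mem_top _), inv_mul_cancel_left]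
    rw [this]
  have hsp : Cfsg.IsSpecialRankOnePair A B := Cfsg.Agent.S5019.result h ⟨hAc, hBc⟩ hq hX
  let K : Subgroup X :=
    { carrier := {x | ∀ v : V, p • (x • v - v) = 0}
      one_mem' := by intro v; simp
      mul_mem' := by
        intro x y hx hy v
        have hx : ∀ v : V, p • (x • v - v) = 0 := hx
        have hy : ∀ v : V, p • (y • v - v) = 0 := hy
        show p • ((x * y) • v - v) = 0
        have e : (x * y) • v - v = (x • (y • v - v) - (y • v - v)) + (y • v - v) + (x • v - v) := by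
          rw [mul_smul, smul_sub]; abel
        rw [e, nsmul_add, nsmul_add, L1 p x _ (hy v), hy v, hx v, add_zero, add_zero]
      inv_mem' := by
        intro x hx v
        have hx : ∀ v : V, p • (x • v - v) = 0 := hx
        show p • (x⁻¹ • v - v) = 0
        have e : x⁻¹ • v - v = -(x • (x⁻¹ • v) - x⁻¹ • v) := by rw [smul_inv_smul]; abel
        rw [e, neg_nsmul, hx, neg_zero] }
  have hKmem : ∀ x : X, x ∈ K ↔ ∀ v : V, p • (x • v - v) = 0 := fun x => Iff.rfl
  have hKn : K.Normal := by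
    constructor
    intro x hx g
    rw [hKmem] at hx ⊢
    intro v
    have e : (g * x * g⁻¹) • v - v = g • (x • (g⁻¹ • v) - g⁻¹ • v) := by
      rw [mul_smul, mul_smul, smul_sub, smul_inv_smul]
    rw [e, ← smul_nsmul', hx, smul_zero]
  have ha0K : a0 ∈ K := by
    rw [hKmem]
    intro v
    have h1 := pow_smul_eq (hq a0 ha0 a0 ha0) p v
    rw [ha0p, one_smul] at h1
    have h2 : p • dl a0 v = 0 := add_left_cancel (a := v) (by rw [add_zero]; exact h1.symm)
    exact h2
  have hbot := Cfsg.Agent.S5013.inf_normalizer_eq_bot hp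
  have hKA : K ⊔ A = ⊤ := by
    rcases Cfsg.Agent.S5017.normal_dichotomy h K hKn with h1 | h1
    · exact h1
    · exfalso
      have hz := h1 ha0K
      have hn : a0 ∈ Subgroup.normalizer (B : Set X) := by
        rw [Subgroup.mem_normalizer_iff]
        intro y
        rw [← Subgroup.mem_center_iff.mp hz y, mul_inv_cancel_right]
      have : a0 ∈ A ⊓ Subgroup.normalizer (B : Set X) := ⟨ha0, hn⟩
      rw [hbot] at this
      exact ha0ne (Subgroup.mem_bot.mp this)
  have h5 : ∀ (x y : X) (v : V), p • (x • (y • v - v) - (y • v - v)) = 0 := by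
    intro x y v
    have hx : x ∈ K ⊔ A := hKA ▸ Subgroup.mem_top x
    have hy : y ∈ K ⊔ A := hKA ▸ Subgroup.mem_top y
    haveI := hKn
    rw [Subgroup.mem_sup_of_normal_left] at hx hy
    obtain ⟨k, hk, a', ha', rfl⟩ := hx
    obtain ⟨k', hk', a'', ha'', rfl⟩ := hy
    have hk := (hKmem k).mp hk
    have hk' := (hKmem k').mp hk'
    have hau : a' • (a'' • v - v) = a'' • v - v := hq a'' ha'' a' ha' v
    generalize hu : a'' • v - v = u at hau
    have e1 : (k' * a'') • v - v = u + (k' • u - u) + (k' • v - v) := by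
      rw [← hu, mul_smul, smul_sub]; abel
    have e : (k * a') • ((k' * a'') • v - v) - ((k' * a'') • v - v)
        = (k • u - u) + ((k * a') • (k' • u - u) - (k' • u - u))
          + ((k * a') • (k' • v - v) - (k' • v - v)) := by
      rw [e1, smul_add, smul_add, mul_smul k a' u, hau]
      abel
    rw [e, nsmul_add, nsmul_add, hk u, L1 p _ _ (hk' u), L1 p _ _ (hk' v), add_zero, add_zero]
  intro a' ha'
  by_cases hne : a' = 1
  · rw [hne, one_pow]
  obtain ⟨b', hb', hb'ne, hC⟩ := hp.cond_left a' ha' hne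
  have hspec := hsp.2 a' ha' hne b' hb' hb'ne hC
  have hαα : ∀ m : V, dl a' (dl a' m) = 0 := dl_dl (hq a' ha' a' ha')
  have hββ : ∀ m : V, dl b' (dl b' m) = 0 := dl_dl (hqB b' hb' b' hb')
  have hai : ∀ m : V, a'⁻¹ • m = m - dl a' m := inv_smul_eq_dl (hq a' ha' a' ha')
  have hbi : ∀ m : V, b'⁻¹ • m = m - dl b' m := inv_smul_eq_dl (hqB b' hb' b' hb')
  have hrel : ∀ v : V, dl a' v + dl b' v
      = dl a' (dl b' (dl a' v)) + dl b' (dl a' (dl b' v)) := by
    intro v
    have key : dl a' v + dl b' v - (dl a' (dl b' (dl a' v)) + dl b' (dl a' (dl b' v)))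
        = (b'⁻¹ * a' * b') • v - (a'⁻¹ * b'⁻¹ * a') • v := by
      simp only [mul_smul, smul_eq_dl (N := V) a', smul_eq_dl (N := V) b', hai, hbi, map_add,
        map_sub, hαα, hββ, map_zero]
      abel
    rw [hspec, sub_self] at key
    exact sub_eq_zero.mp key
  have h7 : ∀ v : V, p • dl a' v + p • dl b' v = 0 := by
    intro v
    rw [← nsmul_add, hrel v, nsmul_add]
    have t1 : p • dl a' (dl b' (dl a' v)) = 0 := h5 a' b' (dl a' v)
    have t2 : p • dl b' (dl a' (dl b' v)) = 0 := h5 b' a' (dl b' v)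
    rw [t1, t2, add_zero]
  have h8 : ∀ v : V, (b' ^ p * a' ^ p) • v = v := by
    intro v
    rw [mul_smul, pow_smul_eq (hq a' ha' a' ha') p v, pow_smul_eq (hqB b' hb' b' hb') p,
      map_add, map_nsmul]
    have t : p • dl b' (dl a' v) = 0 := h5 b' a' v
    rw [t, add_zero, add_assoc, h7 v, add_zero]
  have h9 : b' ^ p * a' ^ p = 1 := hf _ h8
  have h10 : a' ^ p = (b' ^ p)⁻¹ := eq_inv_of_mul_eq_one_right h9
  have h11 : a' ^ p ∈ B := by
    rw [h10]; exact B.inv_mem (B.pow_mem hb' p)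
  have h12 : a' ^ p ∈ A ⊓ Subgroup.normalizer (B : Set X) :=
    ⟨A.pow_mem ha' p, Subgroup.le_normalizer h11⟩
  rw [hbot] at h12
  exact Subgroup.mem_bot.mp h12

end Cfsg.Agent.S5023
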