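import Cfsg.Statements.S5025
import Cfsg.Agent.S5013
import Cfsg.Agent.S5028
import Mathlib
set_option autoImplicit false
open Cfsg
open scoped commutatorElement
namespace Cfsg.Agent.S5025

open Cfsg.Agent.S5013 (conjBy_conjBy conjBy_one conjBy_of_mem conjBy_of_mem_normalizer
  mem_normalizer_of_conjBy inf_normalizer_eq_bot)
open Cfsg.Agent.S5028 (mem_conjBy comm_of_comm_bot)

variable {G : Type*} [Group G]

lemma nonisolated {S : Set (Subgroup G)} {A B : Subgroup G} (hA : A ∈ S) (hB : B ∈ S)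
    (hp : IsRankOnePair A B) : ¬ IsIsolatedIn (FAdj S) S A :=
  fun h => (h.2 B).1 ⟨hA, hB, hp⟩

lemma mem_normalizer_of_comm {A : Subgroup G} {z : G} (h : ∀ y ∈ A, y * z = z * y) :
    z ∈ Subgroup.normalizer (A : Set G) := by
  rw [Subgroup.mem_normalizer_iff]
  intro y
  constructor
  · intro hy
    have : z * y * z⁻¹ = y := by rw [← h y hy]; group
    rw [this]; exact hy
  · intro hy
    have h1 := h _ hy
    have : z * y * z⁻¹ = y := by
      have h2 : z * (z * y * z⁻¹) = z * y := by rw [← h1]; group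
      exact mul_left_cancel h2
    rwa [this] at hy

lemma eq_of_conj_of_comm {B C : Subgroup G} {a : G} (h : conjBy B a⁻¹ = C)
    (hc : ∀ y ∈ C, y * a = a * y) : B = C := by
  have h1 : conjBy C a = C := conjBy_of_mem_normalizer C (mem_normalizer_of_comm hc)
  rw [← h, conjBy_conjBy, mul_inv_cancel, conjBy_one] at h1
  exact h1.trans h

lemma not_comm_of_pair {S : Set (Subgroup G)} (hS : IsRootSubgroupSet S) {A B : Subgroup G}
    (hA : A ∈ S) (hB : B ∈ S) (hp : IsRankOnePair A B) {a b : G} (ha : a ∈ A) (ha1 : a ≠ 1)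
    (hb : b ∈ B) (hb1 : b ≠ 1) (hab : a * b = b * a) : False := by
  obtain ⟨b', hb'B, hb'1, hc⟩ := hp.cond_left a ha ha1
  have h1 : b ∈ conjBy B a⁻¹ := by
    rw [mem_conjBy]
    have : (a⁻¹)⁻¹ * b * a⁻¹ = b := by rw [inv_inv, hab]; group
    rw [this]; exact hb
  rw [← hc] at h1
  have hkey := inf_normalizer_eq_bot hp
  rcases Cfsg.Agent.S5028.result hS (nonisolated hB hA (RankOnePair_symm hp)) hB _
    (hS.conj_mem A hA b'⁻¹) with h2 | h2
  · have : b ∈ B ⊓ conjBy A b'⁻¹ := ⟨hb, h1⟩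
    rw [h2, Subgroup.mem_bot] at this
    exact hb1 this
  · rw [hc] at h2
    have h3 : a⁻¹ ∈ Subgroup.normalizer (B : Set G) := mem_normalizer_of_conjBy B h2.symm
    have h4 : a ∈ A ⊓ Subgroup.normalizer (B : Set G) := ⟨ha, by simpa using Subgroup.inv_mem _ h3⟩
    rw [hkey, Subgroup.mem_bot] at h4
    exact ha1 h4

lemma comm_case {C B : Subgroup G} (hBc : ∀ u ∈ B, ∀ v ∈ B, u * v = v * u)
    (hcent : ∀ c ∈ ⁅C, B⁆, ∀ y ∈ C ⊔ B, c * y = y * c) {x : G} (hx : x ∈ C) :
    ∀ w ∈ conjBy B x⁻¹, ∀ y ∈ B, w * y = y * w := by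
  intro z hz y hy
  rw [mem_conjBy] at hz
  have hz' : z = ⁅x⁻¹, (x⁻¹)⁻¹ * z * x⁻¹⁆ * ((x⁻¹)⁻¹ * z * x⁻¹) := by
    rw [commutatorElement_def]; group
  have hcm : ⁅x⁻¹, (x⁻¹)⁻¹ * z * x⁻¹⁆ ∈ ⁅C, B⁆ :=
    Subgroup.commutator_mem_commutator (C.inv_mem hx) hz
  have hyS : y ∈ C ⊔ B := Subgroup.mem_sup_right hy
  have h8 := hcent _ hcm y hyS
  have h9 : ((x⁻¹)⁻¹ * z * x⁻¹) * y = y * ((x⁻¹)⁻¹ * z * x⁻¹) := hBc _ hz y hy
  rw [hz', mul_assoc, h9, ← mul_assoc, h8, mul_assoc]

theorem result {G : Type*} [Group G] {S : Set (Subgroup G)} (hS : Cfsg.IsRootSubgroupSet S)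
    {A B : Subgroup G} (hA : A ∈ S) (hB : B ∈ Cfsg.rankOnePartners S A) {z : G}
    (hz : z ∈ Subgroup.centralizer ((A ⊔ B : Subgroup G) : Set G)) (hz1 : z ≠ 1) :
    ∀ a ∈ A, a ≠ 1 → z * a ∉ Cfsg.rootElements S := by
  intro a haA ha1 hroot
  obtain ⟨hx1, C, hCS, hxC⟩ := hroot
  obtain ⟨hBS, hAB⟩ := hB
  have hzc := Subgroup.mem_centralizer_iff.mp hz
  have hzA : ∀ y ∈ A, y * z = z * y := fun y hy => hzc y (Subgroup.mem_sup_left hy)
  have hzB : ∀ y ∈ B, y * z = z * y := fun y hy => hzc y (Subgroup.mem_sup_right hy)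
  have hzNA := mem_normalizer_of_comm hzA
  have hzNB := mem_normalizer_of_comm hzB
  have hkey := inf_normalizer_eq_bot hAB
  haveI := hS.commutative B hBS
  have hBcomm : ∀ u ∈ B, ∀ v ∈ B, u * v = v * u := by
    intro u hu v hv
    have := mul_comm' (⟨u, hu⟩ : B) ⟨v, hv⟩
    exact congrArg Subtype.val this
  have hzA' : z ∉ A := by
    intro h
    have : z ∈ A ⊓ Subgroup.normalizer (B : Set G) := ⟨h, hzNB⟩
    rw [hkey, Subgroup.mem_bot] at this
    exact hz1 this
  have haB : ¬ (∀ y ∈ B, y * a = a * y) := by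
    intro h
    have : a ∈ A ⊓ Subgroup.normalizer (B : Set G) := ⟨haA, mem_normalizer_of_comm h⟩
    rw [hkey, Subgroup.mem_bot] at this
    exact ha1 this
  obtain ⟨b, hbB, hb1, hc2⟩ := hAB.cond_left a haA ha1
  have e1 : conjBy B (z * a)⁻¹ = conjBy B a⁻¹ := by
    rw [mul_inv_rev, ← conjBy_conjBy, conjBy_of_mem_normalizer B (Subgroup.inv_mem _ hzNB)]
  rcases hS.pair C hCS B hBS with h1 | h1 | h1
  · apply haB
    intro y hy
    have h2 := comm_of_comm_bot h1 (z * a) hxC y hy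
    have h3 := hzB y hy
    have h4 : z * (y * a) = z * (a * y) := by
      calc z * (y * a) = (z * y) * a := by group
        _ = (y * z) * a := by rw [h3]
        _ = y * (z * a) := by group
        _ = z * a * y := h2.symm
        _ = z * (a * y) := by group
    exact mul_left_cancel h4
  · obtain ⟨b', hb'B, hb'1, hc1⟩ := h1.cond_left (z * a) hxC hx1
    have e2 : conjBy C b'⁻¹ = conjBy A b⁻¹ := hc1.trans (e1.trans hc2.symm)
    have e3 : C = conjBy A (b' * b⁻¹) := by
      have : conjBy (conjBy C b'⁻¹) b' = conjBy (conjBy A b⁻¹) b' := by rw [e2]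
      rw [conjBy_conjBy, conjBy_conjBy, mul_inv_cancel, conjBy_one] at this
      exact this
    have hgB : b' * b⁻¹ ∈ B := B.mul_mem hb'B (B.inv_mem hbB)
    by_cases hg : b' * b⁻¹ = 1
    · rw [hg, conjBy_one] at e3
      apply hzA'
      rw [e3] at hxC
      have := A.mul_mem hxC (A.inv_mem haA)
      rwa [mul_inv_cancel_right] at this
    · generalize b' * b⁻¹ = g at e3 hgB hg
      have h5 : g⁻¹ * (z * a) * g ∈ A := by
        rw [e3] at hxC; exact mem_conjBy.mp hxC
      have hzg : g * z = z * g := hzB g hgB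
      have hzg' : g⁻¹ * z = z * g⁻¹ := by
        calc g⁻¹ * z = g⁻¹ * (z * g) * g⁻¹ := by group
          _ = g⁻¹ * (g * z) * g⁻¹ := by rw [hzg]
          _ = z * g⁻¹ := by group
      have h6 : g⁻¹ * a * g = z⁻¹ * (g⁻¹ * (z * a) * g) := by
        calc g⁻¹ * a * g = z⁻¹ * (z * g⁻¹) * a * g := by group
          _ = z⁻¹ * (g⁻¹ * z) * a * g := by rw [hzg']
          _ = z⁻¹ * (g⁻¹ * (z * a) * g) := by group
      have h7 : g⁻¹ * a * g ∈ Subgroup.normalizer (A : Set G) := by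
        rw [h6]; exact Subgroup.mul_mem _ (Subgroup.inv_mem _ hzNA) (Subgroup.le_normalizer h5)
      have h8 : conjBy A (g⁻¹ * a * g) = A := conjBy_of_mem_normalizer A h7
      have h9 : conjBy C a = C := by
        rw [e3, conjBy_conjBy]
        have : a * g = g * (g⁻¹ * a * g) := by group
        rw [this, ← conjBy_conjBy, h8]
      have haNC : a ∈ Subgroup.normalizer (C : Set G) := mem_normalizer_of_conjBy C h9
      rcases hS.pair A hA C hCS with h10 | h10 | h10
      · have hg' : g⁻¹ ≠ 1 := by simpa using hg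
        obtain ⟨a', ha'A, ha'1, hc3⟩ := hAB.cond_right g⁻¹ (B.inv_mem hgB) hg'
        rw [inv_inv, ← e3] at hc3
        have hBC : B = C :=
          eq_of_conj_of_comm hc3 (fun y hy => (comm_of_comm_bot h10 a' ha'A y hy).symm)
        exact h1.ne hBC.symm
      · have : a ∈ A ⊓ Subgroup.normalizer (C : Set G) := ⟨haA, haNC⟩
        rw [inf_normalizer_eq_bot h10, Subgroup.mem_bot] at this
        exact ha1 this
      · obtain ⟨hmem, hcent, hcl1, hcl2⟩ := h10
        have hle : ⁅A, C⁆ ≤ C := by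
          rw [← hcl1 a haA ha1, Subgroup.closure_le]
          rintro _ ⟨c, hc, rfl⟩
          show a * c * a⁻¹ * c⁻¹ ∈ C
          exact C.mul_mem ((Subgroup.mem_normalizer_iff.mp haNC c).mp hc) (C.inv_mem hc)
        rcases Cfsg.Agent.S5028.result hS (nonisolated hCS hBS h1) hCS _ hmem with h11 | h11
        · rw [inf_eq_right.mpr hle] at h11
          exact hS.ne_bot _ hmem h11
        · apply hS.ne_bot _ hmem
          rw [Subgroup.commutator_eq_bot_iff_le_centralizer]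
          intro a' ha'
          rw [Subgroup.mem_centralizer_iff]
          intro c hc
          have hc' : c ∈ ⁅A, C⁆ := by rw [← h11]; exact hc
          exact hcent c hc' a' (Subgroup.mem_sup_left ha')
  · obtain ⟨hmem, hcent, hcl1, hcl2⟩ := h1
    have hc := comm_case hBcomm hcent hxC
    rw [e1, ← hc2] at hc
    apply haB
    intro y hy
    have h10 : b⁻¹ * a * b ∈ conjBy A b⁻¹ := by
      rw [mem_conjBy]
      have : (b⁻¹)⁻¹ * (b⁻¹ * a * b) * b⁻¹ = a := by group
      rw [this]; exact haA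
    have h11 := hc _ h10 (b⁻¹ * y * b) (B.mul_mem (B.mul_mem (B.inv_mem hbB) hy) hbB)
    have h12 : b⁻¹ * (y * a) * b = b⁻¹ * (a * y) * b := by
      calc b⁻¹ * (y * a) * b = (b⁻¹ * y * b) * (b⁻¹ * a * b) := by group
        _ = (b⁻¹ * a * b) * (b⁻¹ * y * b) := h11.symm
        _ = b⁻¹ * (a * y) * b := by group
    exact mul_left_cancel (mul_right_cancel h12)

end Cfsg.Agent.S5025
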