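import Cfsg.Statements.S5029
import Cfsg.Agent.S5025
import Mathlib
set_option autoImplicit false
open Cfsg
open scoped commutatorElement
namespace Cfsg.Agent.S5029

open Cfsg.Agent.S5013 (conjBy_conjBy conjBy_one conjBy_of_mem conjBy_of_mem_normalizer
  mem_normalizer_of_conjBy inf_normalizer_eq_bot)
open Cfsg.Agent.S5028 (mem_conjBy comm_of_comm_bot)
open Cfsg.Agent.S5025 (nonisolated mem_normalizer_of_comm eq_of_conj_of_comm not_comm_of_pair)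

variable {G : Type*} [Group G]

lemma exists_partner {S : Set (Subgroup G)} {A : Subgroup G}
    (hA : ¬ IsIsolatedIn (FAdj S) S A) (hAS : A ∈ S) : ∃ D, D ∈ S ∧ IsRankOnePair A D := by
  by_contra hne
  apply hA
  refine ⟨hAS, fun B => ⟨?_, ?_⟩⟩
  · rintro ⟨_, hB, hp⟩; exact hne ⟨B, hB, hp⟩
  · rintro ⟨hB, _, hp⟩; exact hne ⟨B, hB, RankOnePair_symm hp⟩

lemma exists_ne_one {S : Set (Subgroup G)} (hS : IsRootSubgroupSet S) {A : Subgroup G}
    (hAS : A ∈ S) : ∃ a ∈ A, a ≠ 1 := by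
  by_contra h
  push_neg at h
  exact hS.ne_bot A hAS ((Subgroup.eq_bot_iff_forall _).mpr h)

/-- A conjugate of a non-isolated member meets every other member trivially. -/
lemma conj_inf_eq_bot {S : Set (Subgroup G)} (hS : IsRootSubgroupSet S) {A : Subgroup G}
    (hA : ¬ IsIsolatedIn (FAdj S) S A) (hAS : A ∈ S) (g : G) {E : Subgroup G} (hE : E ∈ S)
    (hne : conjBy A g ≠ E) : conjBy A g ⊓ E = ⊥ := by
  rcases Cfsg.Agent.S5028.result hS hA hAS (conjBy E g⁻¹) (hS.conj_mem E hE g⁻¹) with h | h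
  · rw [Subgroup.eq_bot_iff_forall]
    rintro x ⟨hx1, hx2⟩
    have h1b : g⁻¹ * x * g ∈ conjBy E g⁻¹ := by
      rw [mem_conjBy]
      have : (g⁻¹)⁻¹ * (g⁻¹ * x * g) * g⁻¹ = x := by group
      rw [this]; exact hx2
    have h1 : g⁻¹ * x * g ∈ A ⊓ conjBy E g⁻¹ := ⟨mem_conjBy.mp hx1, h1b⟩
    rw [h, Subgroup.mem_bot] at h1
    have : x = g * (g⁻¹ * x * g) * g⁻¹ := by group
    rw [this, h1]; group
  · exfalso
    apply hne
    rw [h, conjBy_conjBy, mul_inv_cancel, conjBy_one]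

lemma kappa_mul_right {A B : Subgroup G} (hcent : ∀ c ∈ ⁅A, B⁆, ∀ x ∈ A ⊔ B, c * x = x * c)
    {a b b' : G} (ha : a ∈ A) (hb : b ∈ B) (hb' : b' ∈ B) :
    a * (b * b') * a⁻¹ * (b * b')⁻¹ = (a * b * a⁻¹ * b⁻¹) * (a * b' * a⁻¹ * b'⁻¹) := by
  have h1 : a * b' * a⁻¹ * b'⁻¹ ∈ ⁅A, B⁆ := Subgroup.commutator_mem_commutator ha hb'
  have h2 := hcent _ h1 b⁻¹ (Subgroup.mem_sup_right (B.inv_mem hb))
  calc a * (b * b') * a⁻¹ * (b * b')⁻¹
      = (a * b * a⁻¹) * ((a * b' * a⁻¹ * b'⁻¹) * b⁻¹) := by group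
    _ = (a * b * a⁻¹) * (b⁻¹ * (a * b' * a⁻¹ * b'⁻¹)) := by rw [h2]
    _ = (a * b * a⁻¹ * b⁻¹) * (a * b' * a⁻¹ * b'⁻¹) := by group

lemma kappa_surj {S : Set (Subgroup G)} {A B : Subgroup G} (hc : RootCommutatorCase S A B)
    {a : G} (ha : a ∈ A) (ha1 : a ≠ 1) :
    ∀ c ∈ ⁅A, B⁆, ∃ b ∈ B, a * b * a⁻¹ * b⁻¹ = c := by
  obtain ⟨hmem, hcent, hcl1, hcl2⟩ := hc
  intro c hcC
  rw [← hcl1 a ha ha1] at hcC
  refine Subgroup.closure_induction (p := fun y _ => ∃ b ∈ B, a * b * a⁻¹ * b⁻¹ = y) ?_ ?_ ?_ ?_ hcC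
  · rintro _ ⟨b, hb, rfl⟩
    exact ⟨b, hb, rfl⟩
  · exact ⟨1, B.one_mem, by group⟩
  · rintro _ _ _ _ ⟨b, hb, rfl⟩ ⟨b', hb', rfl⟩
    exact ⟨b * b', B.mul_mem hb hb', kappa_mul_right hcent ha hb hb'⟩
  · rintro _ _ ⟨b, hb, rfl⟩
    refine ⟨b⁻¹, B.inv_mem hb, ?_⟩
    have h := kappa_mul_right hcent ha hb (B.inv_mem hb)
    have h1 : a * (b * b⁻¹) * a⁻¹ * (b * b⁻¹)⁻¹ = 1 := by group
    rw [h1] at h
    exact eq_inv_of_mul_eq_one_right h.symm

lemma inf_comm_eq_bot {S : Set (Subgroup G)} (hS : IsRootSubgroupSet S) {A B : Subgroup G}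
    (hA : ¬ IsIsolatedIn (FAdj S) S A) (hAS : A ∈ S) (hc : RootCommutatorCase S A B) :
    A ⊓ ⁅A, B⁆ = ⊥ := by
  obtain ⟨hmem, hcent, hcl1, hcl2⟩ := hc
  rcases Cfsg.Agent.S5028.result hS hA hAS _ hmem with h | h
  · exact h
  · exfalso
    apply hS.ne_bot _ hmem
    rw [Subgroup.commutator_eq_bot_iff_le_centralizer]
    intro a ha
    rw [Subgroup.mem_centralizer_iff]
    intro b hb
    have ha' : a ∈ ⁅A, B⁆ := by rw [← h]; exact ha
    exact (hcent a ha' b (Subgroup.mem_sup_right hb)).symm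

lemma kappa_inj {S : Set (Subgroup G)} (hS : IsRootSubgroupSet S) {A B : Subgroup G}
    (hA : ¬ IsIsolatedIn (FAdj S) S A) (hAS : A ∈ S) (hc : RootCommutatorCase S A B)
    {a b : G} (ha : a ∈ A) (ha1 : a ≠ 1) (hb : b ∈ B) (hab : a * b = b * a) : b = 1 := by
  by_contra hb1
  have hinf := inf_comm_eq_bot hS hA hAS hc
  obtain ⟨hmem, hcent, hcl1, hcl2⟩ := hc
  have h1 : a ∈ conjBy A b := by
    rw [mem_conjBy]
    have : b⁻¹ * a * b = a := by rw [mul_assoc, hab]; group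
    rw [this]; exact ha
  have h2 : A = conjBy A b := by
    rcases Cfsg.Agent.S5028.result hS hA hAS _ (hS.conj_mem A hAS b) with h | h
    · exfalso
      have : a ∈ A ⊓ conjBy A b := ⟨ha, h1⟩
      rw [h, Subgroup.mem_bot] at this
      exact ha1 this
    · exact h
  have hbN : b ∈ Subgroup.normalizer (A : Set G) := mem_normalizer_of_conjBy A h2.symm
  have h3 : Subgroup.closure ((fun a : G => a * b * a⁻¹ * b⁻¹) '' (A : Set G)) = ⊥ := by
    rw [Subgroup.closure_eq_bot_iff]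
    rintro _ ⟨a', ha', rfl⟩
    show a' * b * a'⁻¹ * b⁻¹ = 1
    have h4 : a' * b * a'⁻¹ * b⁻¹ ∈ A ⊓ ⁅A, B⁆ := by
      refine ⟨?_, Subgroup.commutator_mem_commutator ha' hb⟩
      have h5 : b * a'⁻¹ * b⁻¹ ∈ A := (Subgroup.mem_normalizer_iff.mp hbN a'⁻¹).mp (A.inv_mem ha')
      have : a' * b * a'⁻¹ * b⁻¹ = a' * (b * a'⁻¹ * b⁻¹) := by group
      rw [this]; exact A.mul_mem ha' h5
    rw [hinf, Subgroup.mem_bot] at h4
    exact h4
  rw [hcl2 b hb hb1] at h3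
  exact hS.ne_bot _ hmem h3

lemma iso_of_case {S : Set (Subgroup G)} (hS : IsRootSubgroupSet S) {A B : Subgroup G}
    (hA : ¬ IsIsolatedIn (FAdj S) S A) (hAS : A ∈ S) (hc : RootCommutatorCase S A B)
    {a : G} (ha : a ∈ A) (ha1 : a ≠ 1) :
    ∃ φ : ↥B ≃* ↥⁅A, B⁆, ∀ b : ↥B, (φ b : G) = a⁻¹ * (b : G)⁻¹ * a * b := by
  have hinj : ∀ b ∈ B, a * b = b * a → b = 1 :=
    fun b hb hab => kappa_inj hS hA hAS hc ha ha1 hb hab
  have hsurj := kappa_surj hc (A.inv_mem ha) (inv_ne_one.mpr ha1)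
  obtain ⟨hmem, hcent, hcl1, hcl2⟩ := hc
  have hθmem : ∀ b ∈ B, a⁻¹ * b⁻¹ * a * b ∈ ⁅A, B⁆ := by
    intro b hb
    have := Subgroup.commutator_mem_commutator (A.inv_mem ha) (B.inv_mem hb)
    rw [commutatorElement_def, inv_inv, inv_inv] at this
    exact this
  have hθmul : ∀ b ∈ B, ∀ b' ∈ B, a⁻¹ * (b * b')⁻¹ * a * (b * b') =
      (a⁻¹ * b⁻¹ * a * b) * (a⁻¹ * b'⁻¹ * a * b') := by
    intro b hb b' hb'
    have h1 := hθmem b hb
    have h2 : a⁻¹ * b'⁻¹ * a ∈ A ⊔ B :=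
      Subgroup.mul_mem _ (Subgroup.mul_mem _ (Subgroup.mem_sup_left (A.inv_mem ha))
        (Subgroup.mem_sup_right (B.inv_mem hb'))) (Subgroup.mem_sup_left ha)
    have h3 := hcent _ h1 _ h2
    calc a⁻¹ * (b * b')⁻¹ * a * (b * b')
        = ((a⁻¹ * b'⁻¹ * a) * (a⁻¹ * b⁻¹ * a * b)) * b' := by group
      _ = ((a⁻¹ * b⁻¹ * a * b) * (a⁻¹ * b'⁻¹ * a)) * b' := by rw [h3]
      _ = (a⁻¹ * b⁻¹ * a * b) * (a⁻¹ * b'⁻¹ * a * b') := by group
  let θ : ↥B →* ↥⁅A, B⁆ := MonoidHom.mk' (fun b => ⟨a⁻¹ * (b : G)⁻¹ * a * b, hθmem b b.2⟩) (by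
    intro b b'
    apply Subtype.ext
    exact hθmul b b.2 b' b'.2)
  have hθinj : Function.Injective θ := by
    rw [injective_iff_map_eq_one]
    intro b hb
    have h1 : a⁻¹ * (b : G)⁻¹ * a * b = 1 := congrArg Subtype.val hb
    have h2 : a * (b : G) = b * a := by
      calc a * (b : G) = (b : G) * a * (a⁻¹ * (b : G)⁻¹ * a * b) := by group
        _ = b * a := by rw [h1, mul_one]
    exact Subtype.ext (hinj b b.2 h2)
  have hθsurj : Function.Surjective θ := by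
    rintro ⟨c, hc⟩
    obtain ⟨b₀, hb₀, hb₀c⟩ := hsurj c hc
    refine ⟨⟨b₀⁻¹, B.inv_mem hb₀⟩, Subtype.ext ?_⟩
    show a⁻¹ * (b₀⁻¹)⁻¹ * a * b₀⁻¹ = c
    rw [← hb₀c]; group
  exact ⟨MulEquiv.ofBijective θ ⟨hθinj, hθsurj⟩, fun b => rfl⟩

lemma mem_sup_comm {A C : Subgroup G} (h : ∀ a ∈ A, ∀ c ∈ C, a * c = c * a) {x : G}
    (hx : x ∈ A ⊔ C) : ∃ a ∈ A, ∃ c ∈ C, x = a * c := by
  rw [Subgroup.sup_eq_closure] at hx
  refine Subgroup.closure_induction (p := fun y _ => ∃ a ∈ A, ∃ c ∈ C, y = a * c) ?_ ?_ ?_ ?_ hx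
  · rintro y (hy | hy)
    · exact ⟨y, hy, 1, C.one_mem, by group⟩
    · exact ⟨1, A.one_mem, y, hy, by group⟩
  · exact ⟨1, A.one_mem, 1, C.one_mem, by group⟩
  · rintro _ _ _ _ ⟨a, ha, c, hc, rfl⟩ ⟨a', ha', c', hc', rfl⟩
    refine ⟨a * a', A.mul_mem ha ha', c * c', C.mul_mem hc hc', ?_⟩
    calc a * c * (a' * c') = a * (c * a') * c' := by group
      _ = a * (a' * c) * c' := by rw [h a' ha' c hc]
      _ = a * a' * (c * c') := by group
  · rintro _ _ ⟨a, ha, c, hc, rfl⟩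
    refine ⟨a⁻¹, A.inv_mem ha, c⁻¹, C.inv_mem hc, ?_⟩
    calc (a * c)⁻¹ = c⁻¹ * a⁻¹ := by group
      _ = a⁻¹ * c⁻¹ := (h a⁻¹ (A.inv_mem ha) c⁻¹ (C.inv_mem hc)).symm

lemma mem_conj_of_case {S : Set (Subgroup G)} {A B : Subgroup G} (hc : RootCommutatorCase S A B)
    {a c : G} (ha : a ∈ A) (ha1 : a ≠ 1) (hcC : c ∈ ⁅A, B⁆) :
    ∃ b ∈ B, a * c = b * a * b⁻¹ := by
  obtain ⟨b, hb, hbc⟩ := kappa_surj hc ha ha1 c⁻¹ (Subgroup.inv_mem _ hcC)
  obtain ⟨hmem, hcent, hcl1, hcl2⟩ := hc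
  refine ⟨b, hb, ?_⟩
  have h1 : c * a = a * c := hcent c hcC a (Subgroup.mem_sup_left ha)
  have h2 : b * a * b⁻¹ = c * a := by
    have : c = (a * b * a⁻¹ * b⁻¹)⁻¹ := by rw [hbc, inv_inv]
    rw [this]; group
  rw [h2, h1]

lemma conj_le_of_case {A B : Subgroup G} {b : G} (hb : b ∈ B) : conjBy A b ≤ A ⊔ ⁅A, B⁆ := by
  intro y hy
  rw [mem_conjBy] at hy
  have h1 : (b⁻¹ * y * b) * b * (b⁻¹ * y * b)⁻¹ * b⁻¹ ∈ ⁅A, B⁆ :=
    Subgroup.commutator_mem_commutator hy hb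
  have h2 : y = ((b⁻¹ * y * b) * b * (b⁻¹ * y * b)⁻¹ * b⁻¹)⁻¹ * (b⁻¹ * y * b) := by group
  rw [h2]
  exact Subgroup.mul_mem _ (Subgroup.mem_sup_right (Subgroup.inv_mem _ h1)) (Subgroup.mem_sup_left hy)

lemma members_of_case {S : Set (Subgroup G)} (hS : IsRootSubgroupSet S) {A B : Subgroup G}
    (hA : ¬ IsIsolatedIn (FAdj S) S A) (hAS : A ∈ S) (hc : RootCommutatorCase S A B)
    {E : Subgroup G} (hE : E ∈ S) (hle : E ≤ A ⊔ ⁅A, B⁆) :
    E = ⁅A, B⁆ ∨ ∃ b ∈ B, E = conjBy A b := by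
  have hinf := inf_comm_eq_bot hS hA hAS hc
  have hcomm : ∀ a ∈ A, ∀ c ∈ ⁅A, B⁆, a * c = c * a :=
    fun a ha c hcC => (hc.2.1 c hcC a (Subgroup.mem_sup_left ha)).symm
  have hkey : ∀ a ∈ A, a ≠ 1 → ∀ c ∈ ⁅A, B⁆, a * c ∈ E → ∃ b ∈ B, E = conjBy A b := by
    intro a ha ha1 c hcC hacE
    obtain ⟨b, hb, hab⟩ := mem_conj_of_case hc ha ha1 hcC
    refine ⟨b, hb, ?_⟩
    by_contra hne
    have h1 := conj_inf_eq_bot hS hA hAS b hE (fun h => hne h.symm)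
    have h2a : a * c ∈ conjBy A b := by
      rw [mem_conjBy, hab]
      have : b⁻¹ * (b * a * b⁻¹) * b = a := by group
      rw [this]; exact ha
    have h2 : a * c ∈ conjBy A b ⊓ E := ⟨h2a, hacE⟩
    rw [h1, Subgroup.mem_bot] at h2
    have h3 : a ∈ A ⊓ ⁅A, B⁆ := ⟨ha, by
      have : a = c⁻¹ := eq_inv_of_mul_eq_one_left h2
      rw [this]; exact Subgroup.inv_mem _ hcC⟩
    rw [hinf, Subgroup.mem_bot] at h3
    exact ha1 h3
  by_cases hex : ∃ a ∈ A, a ≠ 1 ∧ ∃ c ∈ ⁅A, B⁆, a * c ∈ E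
  · obtain ⟨a, ha, ha1, c, hcC, hacE⟩ := hex
    exact Or.inr (hkey a ha ha1 c hcC hacE)
  · left
    have hEC : E ≤ ⁅A, B⁆ := by
      intro e he
      obtain ⟨a, ha, c, hcC, rfl⟩ := mem_sup_comm hcomm (hle he)
      by_cases ha1 : a = 1
      · rw [ha1, one_mul]; exact hcC
      · exact absurd ⟨a, ha, ha1, c, hcC, he⟩ hex
    obtain ⟨e, heE, he1⟩ := exists_ne_one hS hE
    have heC := hEC heE
    obtain ⟨D₀, hD₀S, hAD₀⟩ := exists_partner hA hAS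
    have hF1 : ¬ (∀ d ∈ D₀, d * e = e * d) := by
      intro hed
      obtain ⟨a, haA, ha1⟩ := exists_ne_one hS hAS
      have hez : e ∈ Subgroup.centralizer ((A ⊔ D₀ : Subgroup G) : Set G) := by
        have h1 : A ⊔ D₀ ≤ Subgroup.centralizer {e} := by
          refine sup_le ?_ ?_
          · intro x hx
            rw [Subgroup.mem_centralizer_singleton_iff]
            exact hcomm x hx e heC
          · intro x hx
            rw [Subgroup.mem_centralizer_singleton_iff]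
            exact hed x hx
        rw [Subgroup.mem_centralizer_iff]
        intro x hx
        have := h1 hx
        rw [Subgroup.mem_centralizer_singleton_iff] at this
        exact this
      have h2 := Cfsg.Agent.S5025.result hS hAS ⟨hD₀S, hAD₀⟩ hez he1 a haA ha1
      apply h2
      obtain ⟨b, hb, hab⟩ := mem_conj_of_case hc haA ha1 heC
      have hea : e * a = b * a * b⁻¹ := by rw [← hab]; exact (hcomm a haA e heC).symm
      refine ⟨?_, conjBy A b, hS.conj_mem A hAS b, ?_⟩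
      · rw [hea]
        intro h
        apply ha1
        have : a = b⁻¹ * (b * a * b⁻¹) * b := by group
        rw [this, h]; group
      · rw [hea, mem_conjBy]
        have : b⁻¹ * (b * a * b⁻¹) * b = a := by group
        rw [this]; exact haA
    have hnot_bot : ∀ {K : Subgroup G}, e ∈ K → ⁅D₀, K⁆ ≠ ⊥ := by
      intro K heK h
      exact hF1 (fun d hd => comm_of_comm_bot h d hd e heK)
    have hD₀ni : ¬ IsIsolatedIn (FAdj S) S D₀ := nonisolated hD₀S hAS (RankOnePair_symm hAD₀)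
    have hmem := hc.1
    rcases hS.pair D₀ hD₀S _ hmem with h1 | h1 | h1
    · exact absurd h1 (hnot_bot heC)
    · rcases Cfsg.Agent.S5028.result hS (nonisolated hmem hD₀S (RankOnePair_symm h1)) hmem E hE
        with h2 | h2
      · exfalso
        have : e ∈ ⁅A, B⁆ ⊓ E := ⟨heC, heE⟩
        rw [h2, Subgroup.mem_bot] at this
        exact he1 this
      · exact h2.symm
    · rcases hS.pair D₀ hD₀S E hE with h2 | h2 | h2
      · exact absurd h2 (hnot_bot heE)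
      · rcases Cfsg.Agent.S5028.result hS (nonisolated hE hD₀S (RankOnePair_symm h2)) hE _ hmem
          with h3 | h3
        · exfalso
          have : e ∈ E ⊓ ⁅A, B⁆ := ⟨heE, heC⟩
          rw [h3, Subgroup.mem_bot] at this
          exact he1 this
        · exact h3
      · have hFF : ⁅D₀, ⁅A, B⁆⁆ = ⁅D₀, E⁆ :=
          (h1.2.2.2 e heC he1).symm.trans (h2.2.2.2 e heE he1)
        obtain ⟨d, hd, hd1⟩ := exists_ne_one hS hD₀S
        obtain ⟨φ, hφ⟩ := iso_of_case hS hD₀ni hD₀S h1 hd hd1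
        obtain ⟨φ', hφ'⟩ := iso_of_case hS hD₀ni hD₀S h2 hd hd1
        apply le_antisymm hEC
        intro c hcC
        have h3 : (φ ⟨c, hcC⟩ : G) ∈ ⁅D₀, E⁆ := by rw [← hFF]; exact (φ ⟨c, hcC⟩).2
        obtain ⟨e', he'⟩ := φ'.surjective ⟨_, h3⟩
        have h4 : (φ' e' : G) = (φ ⟨c, hcC⟩ : G) := congrArg Subtype.val he'
        have h4' : d⁻¹ * (e' : G)⁻¹ * d * e' = d⁻¹ * c⁻¹ * d * c :=
          (hφ' e').symm.trans (h4.trans (hφ ⟨c, hcC⟩))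
        have h5 : φ ⟨(e' : G), hEC e'.2⟩ = φ ⟨c, hcC⟩ := by
          apply Subtype.ext
          exact (hφ ⟨(e' : G), hEC e'.2⟩).trans (h4'.trans (hφ ⟨c, hcC⟩).symm)
        have h6 := φ.injective h5
        have h7 : (e' : G) = c := congrArg Subtype.val h6
        rw [← h7]; exact e'.2

theorem main_case {S : Set (Subgroup G)} (hS : IsRootSubgroupSet S) {A B : Subgroup G}
    (hA : ¬ IsIsolatedIn (FAdj S) S A) (hAS : A ∈ S) (hc : RootCommutatorCase S A B) :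
    membersIn S (A ⊔ ⁅A, B⁆) = (fun b : G => conjBy A b) '' (B : Set G) ∪ {⁅A, B⁆} ∧
    IsSubgroupPartition (A ⊔ ⁅A, B⁆) (membersIn S (A ⊔ ⁅A, B⁆)) ∧
    A ∈ linePartners S ⁅A, B⁆ ∧
    ∀ a ∈ A, a ≠ 1 → ∃ φ : ↥B ≃* ↥⁅A, B⁆, ∀ b : ↥B, (φ b : G) = a⁻¹ * (b : G)⁻¹ * a * b := by
  have hinf := inf_comm_eq_bot hS hA hAS hc
  have hcomm : ∀ a ∈ A, ∀ c ∈ ⁅A, B⁆, a * c = c * a :=
    fun a ha c hcC => (hc.2.1 c hcC a (Subgroup.mem_sup_left ha)).symm
  have hmem := hc.1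
  have hmembers : membersIn S (A ⊔ ⁅A, B⁆) =
      (fun b : G => conjBy A b) '' (B : Set G) ∪ {⁅A, B⁆} := by
    ext E
    constructor
    · rintro ⟨hE, hle⟩
      rcases members_of_case hS hA hAS hc hE hle with h | ⟨b, hb, h⟩
      · right; exact h
      · left; exact ⟨b, hb, h.symm⟩
    · rintro (⟨b, hb, rfl⟩ | h)
      · exact ⟨hS.conj_mem A hAS b, conj_le_of_case hb⟩
      · rw [Set.mem_singleton_iff] at h
        rw [h]; exact ⟨hmem, le_sup_right⟩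
  have hpart : IsSubgroupPartition (A ⊔ ⁅A, B⁆) (membersIn S (A ⊔ ⁅A, B⁆)) := by
    refine ⟨fun E hE => hE.2, ?_, ?_⟩
    · intro x hx hx1
      obtain ⟨a, ha, c, hcC, rfl⟩ := mem_sup_comm hcomm hx
      by_cases ha1 : a = 1
      · refine ⟨⁅A, B⁆, ⟨hmem, le_sup_right⟩, ?_⟩
        rw [ha1, one_mul]; exact hcC
      · obtain ⟨b, hb, hab⟩ := mem_conj_of_case hc ha ha1 hcC
        refine ⟨conjBy A b, ⟨hS.conj_mem A hAS b, conj_le_of_case hb⟩, ?_⟩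
        rw [hab, mem_conjBy]
        have : b⁻¹ * (b * a * b⁻¹) * b = a := by group
        rw [this]; exact ha
    · rintro E₁ ⟨hE₁, hle₁⟩ E₂ ⟨hE₂, hle₂⟩ hne
      rcases members_of_case hS hA hAS hc hE₁ hle₁ with h₁ | ⟨b₁, hb₁, h₁⟩
      · rcases members_of_case hS hA hAS hc hE₂ hle₂ with h₂ | ⟨b₂, hb₂, h₂⟩
        · exact absurd (h₁.trans h₂.symm) hne
        · subst h₂
          rw [inf_comm]
          exact conj_inf_eq_bot hS hA hAS b₂ hE₁ (fun h => hne h.symm)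
      · subst h₁
        exact conj_inf_eq_bot hS hA hAS b₁ hE₂ hne
  have hline : A ∈ linePartners S ⁅A, B⁆ := by
    refine ⟨⟨hAS, ?_, ?_⟩, ?_⟩
    · intro h
      apply hS.ne_bot A hAS
      have h2 := hinf
      rw [← h, inf_idem] at h2
      exact h2
    · rw [Subgroup.commutator_eq_bot_iff_le_centralizer]
      intro c hcC
      rw [Subgroup.mem_centralizer_iff]
      intro a ha
      exact hcomm a ha c hcC
    · rw [sup_comm]; exact hpart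
  exact ⟨hmembers, hpart, hline, fun a ha ha1 => iso_of_case hS hA hAS hc ha ha1⟩

lemma conj_mem_comm_left {A B : Subgroup G} {a : G} (ha : a ∈ A) :
    ∀ d ∈ ⁅A, B⁆, a * d * a⁻¹ ∈ ⁅A, B⁆ := by
  intro d hd
  rw [Subgroup.commutator_def] at hd
  refine Subgroup.closure_induction (p := fun y _ => a * y * a⁻¹ ∈ ⁅A, B⁆) ?_ ?_ ?_ ?_ hd
  · rintro _ ⟨a', ha', b, hb, rfl⟩
    have h1 : ⁅a * a', b⁆ ∈ ⁅A, B⁆ := Subgroup.commutator_mem_commutator (A.mul_mem ha ha') hb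
    have h2 : ⁅a, b⁆ ∈ ⁅A, B⁆ := Subgroup.commutator_mem_commutator ha hb
    have h3 : a * ⁅a', b⁆ * a⁻¹ = ⁅a * a', b⁆ * ⁅a, b⁆⁻¹ := by
      simp only [commutatorElement_def]; group
    rw [h3]; exact Subgroup.mul_mem _ h1 (Subgroup.inv_mem _ h2)
  · simp
  · intro x y _ _ hx hy
    have : a * (x * y) * a⁻¹ = (a * x * a⁻¹) * (a * y * a⁻¹) := by group
    rw [this]; exact Subgroup.mul_mem _ hx hy
  · intro x _ hx
    have : a * x⁻¹ * a⁻¹ = (a * x * a⁻¹)⁻¹ := by group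
    rw [this]; exact Subgroup.inv_mem _ hx

lemma mem_normalizer_comm_left {A B : Subgroup G} {a : G} (ha : a ∈ A) :
    a ∈ Subgroup.normalizer ((⁅A, B⁆ : Subgroup G) : Set G) := by
  rw [Subgroup.mem_normalizer_iff]
  intro d
  constructor
  · exact conj_mem_comm_left ha d
  · intro hd
    have := conj_mem_comm_left (B := B) (A.inv_mem ha) _ hd
    have e : a⁻¹ * (a * d * a⁻¹) * a⁻¹⁻¹ = d := by group
    rwa [e] at this

lemma mem_normalizer_comm_right {A B : Subgroup G} {b : G} (hb : b ∈ B) :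
    b ∈ Subgroup.normalizer ((⁅A, B⁆ : Subgroup G) : Set G) := by
  rw [Subgroup.commutator_comm]; exact mem_normalizer_comm_left hb

lemma case_absurd {S : Set (Subgroup G)} (hS : IsRootSubgroupSet S) {A D : Subgroup G}
    (hA : ¬ IsIsolatedIn (FAdj S) S A) (hAS : A ∈ S) (hc : RootCommutatorCase S A D)
    (hN : ∀ a ∈ A, a ∈ Subgroup.normalizer (D : Set G)) : False := by
  have hle : ⁅A, D⁆ ≤ D := by
    rw [Subgroup.commutator_le]
    intro a ha d hd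
    have h1 : a * d * a⁻¹ ∈ D := (Subgroup.mem_normalizer_iff.mp (hN a ha) d).mp hd
    have : ⁅a, d⁆ = (a * d * a⁻¹) * d⁻¹ := by rw [commutatorElement_def]
    rw [this]; exact D.mul_mem h1 (D.inv_mem hd)
  obtain ⟨e, heE, he1⟩ := exists_ne_one hS hc.1
  obtain ⟨a, haA, ha1⟩ := exists_ne_one hS hAS
  have hae : a * e = e * a := (hc.2.1 e heE a (Subgroup.mem_sup_left haA)).symm
  exact he1 (kappa_inj hS hA hAS hc haA ha1 (hle heE) hae)

lemma rank_one_absurd {S : Set (Subgroup G)} (hS : IsRootSubgroupSet S) {A B : Subgroup G}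
    (hAS : A ∈ S) (hBS : B ∈ S) (hp : IsRankOnePair A B) (hD : ⁅A, B⁆ ∈ S) : False := by
  have hAni := nonisolated hAS hBS hp
  have hBni := nonisolated hBS hAS (RankOnePair_symm hp)
  have hkA := inf_normalizer_eq_bot hp
  have hkB := inf_normalizer_eq_bot (RankOnePair_symm hp)
  obtain ⟨a, haA, ha1⟩ := exists_ne_one hS hAS
  obtain ⟨b₀, hb₀B, hb₀1⟩ := exists_ne_one hS hBS
  have hNA : ∀ a ∈ A, a ∈ Subgroup.normalizer ((⁅A, B⁆ : Subgroup G) : Set G) :=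
    fun a ha => mem_normalizer_comm_left ha
  have hNB : ∀ b ∈ B, b ∈ Subgroup.normalizer ((⁅A, B⁆ : Subgroup G) : Set G) :=
    fun b hb => mem_normalizer_comm_right hb
  rcases hS.pair A hAS _ hD with h1 | h1 | h1
  · rcases hS.pair B hBS _ hD with h2 | h2 | h2
    · have hAD := comm_of_comm_bot h1
      have hBD := comm_of_comm_bot h2
      haveI := hS.commutative A hAS
      have hAcomm : ∀ u ∈ A, ∀ v ∈ A, u * v = v * u := by
        intro u hu v hv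
        have := mul_comm' (⟨u, hu⟩ : A) ⟨v, hv⟩
        exact congrArg Subtype.val this
      obtain ⟨b, hbB, hb1, hconj⟩ := hp.cond_left a haA ha1
      have hy : b⁻¹ * a * b ∈ conjBy A b⁻¹ := by
        rw [mem_conjBy]
        have : (b⁻¹)⁻¹ * (b⁻¹ * a * b) * b⁻¹ = a := by group
        rw [this]; exact haA
      rw [hconj, mem_conjBy] at hy
      have hd₀ : b⁻¹ * a * b * a⁻¹ ∈ ⁅A, B⁆ := by
        have h3 : ⁅a, b⁻¹⁆ ∈ ⁅A, B⁆ := Subgroup.commutator_mem_commutator haA (B.inv_mem hbB)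
        have h4 : b⁻¹ * a * b * a⁻¹ = ⁅a, b⁻¹⁆⁻¹ := by rw [commutatorElement_def]; group
        rw [h4]; exact Subgroup.inv_mem _ h3
      have hb₁ : (a⁻¹)⁻¹ * (b⁻¹ * a * b) * a⁻¹ = a * (b⁻¹ * a * b * a⁻¹) := by group
      rw [hb₁] at hy
      have hcommA : ∀ y ∈ A, y * (a * (b⁻¹ * a * b * a⁻¹)) = (a * (b⁻¹ * a * b * a⁻¹)) * y := by
        intro y hyA
        have e1 := hAcomm y hyA a haA
        have e2 := hAD y hyA _ hd₀
        calc y * (a * (b⁻¹ * a * b * a⁻¹)) = (y * a) * (b⁻¹ * a * b * a⁻¹) := by group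
          _ = (a * y) * (b⁻¹ * a * b * a⁻¹) := by rw [e1]
          _ = a * (y * (b⁻¹ * a * b * a⁻¹)) := by group
          _ = a * ((b⁻¹ * a * b * a⁻¹) * y) := by rw [e2]
          _ = (a * (b⁻¹ * a * b * a⁻¹)) * y := by group
      have h5 : a * (b⁻¹ * a * b * a⁻¹) ∈ B ⊓ Subgroup.normalizer (A : Set G) :=
        ⟨hy, mem_normalizer_of_comm hcommA⟩
      rw [hkB, Subgroup.mem_bot] at h5
      have haD : a ∈ ⁅A, B⁆ := by
        have : a = (b⁻¹ * a * b * a⁻¹)⁻¹ := eq_inv_of_mul_eq_one_left h5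
        rw [this]; exact Subgroup.inv_mem _ hd₀
      have h6 : a ∈ A ⊓ Subgroup.normalizer (B : Set G) :=
        ⟨haA, mem_normalizer_of_comm (fun y hyB => hBD y hyB a haD)⟩
      rw [hkA, Subgroup.mem_bot] at h6
      exact ha1 h6
    · have : b₀ ∈ B ⊓ Subgroup.normalizer ((⁅A, B⁆ : Subgroup G) : Set G) := ⟨hb₀B, hNB b₀ hb₀B⟩
      rw [inf_normalizer_eq_bot h2, Subgroup.mem_bot] at this
      exact hb₀1 this
    · exact case_absurd hS hBni hBS h2 hNB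
  · have : a ∈ A ⊓ Subgroup.normalizer ((⁅A, B⁆ : Subgroup G) : Set G) := ⟨haA, hNA a haA⟩
    rw [inf_normalizer_eq_bot h1, Subgroup.mem_bot] at this
    exact ha1 this
  · exact case_absurd hS hAni hAS h1 hNA

theorem result {G : Type*} [Group G] {S : Set (Subgroup G)} (hS : Cfsg.IsRootSubgroupSet S)
    {A B : Subgroup G} (hA : ¬ Cfsg.IsIsolatedIn (Cfsg.FAdj S) S A) (hAS : A ∈ S) (hB : B ∈ S) (hC : ⁅A, B⁆ ∈ S) :
    Cfsg.membersIn S (A ⊔ ⁅A, B⁆) = (fun b : G => Cfsg.conjBy A b) '' (B : Set G) ∪ {⁅A, B⁆} ∧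
    Cfsg.IsSubgroupPartition (A ⊔ ⁅A, B⁆) (Cfsg.membersIn S (A ⊔ ⁅A, B⁆)) ∧
    A ∈ Cfsg.linePartners S ⁅A, B⁆ ∧
    ∀ a ∈ A, a ≠ 1 → ∃ φ : ↥B ≃* ↥⁅A, B⁆, ∀ b : ↥B, (φ b : G) = a⁻¹ * (b : G)⁻¹ * a * b := by
  rcases hS.pair A hAS B hB with h | h | h
  · exact absurd h (hS.ne_bot _ hC)
  · exact (rank_one_absurd hS hAS hB h hC).elim
  · exact main_case hS hA hAS h

end Cfsg.Agent.S5029
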