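import Cfsg.Statements.S5031
import Cfsg.Agent.S5029
import Cfsg.Agent.Lib.helper25.RankOne
import Mathlib
set_option autoImplicit false
open Cfsg
namespace Cfsg.Agent.S5031

open Cfsg.Agent.S5013 (conjBy_conjBy conjBy_one conjBy_of_mem conjBy_of_mem_normalizer
  mem_normalizer_of_conjBy inf_normalizer_eq_bot)
open Cfsg.Agent.S5028 (mem_conjBy comm_of_comm_bot)
open Cfsg.Agent.S5025 (nonisolated mem_normalizer_of_comm comm_case)
open Cfsg.Agent.S5029 (exists_ne_one)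
open Cfsg.Agent.Lib.helper25 (rankOne_left)

variable {G : Type*} [Group G]

lemma core_absurd {A B C : Subgroup G} (hAC : IsRankOnePair A C)
    (hAB : ∀ a ∈ A, ∀ b ∈ B, a * b = b * a) {a b : G} (ha : a ∈ A) (ha1 : a ≠ 1) (hb : b ∈ B)
    (hW : ∀ w ∈ conjBy C b, ∀ y ∈ C, w * y = y * w)
    (hV : ∀ w ∈ conjBy C (a * b), ∀ y ∈ C, w * y = y * w) : False := by
  obtain ⟨c₁, hc₁, hc₁1, hconj⟩ := rankOne_left hAC (A.inv_mem ha) (inv_ne_one.mpr ha1)
  have h1 : ∀ w ∈ conjBy C b, ∀ a' ∈ A, w * a' = a' * w := by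
    intro w hw a' ha'
    have hwc := hW w hw c₁ hc₁
    have hy₀ : a * (c₁ * a' * c₁⁻¹) * a⁻¹ ∈ C := by
      have h2 : c₁ * a' * c₁⁻¹ ∈ conjBy A c₁ := by
        rw [mem_conjBy]
        have : c₁⁻¹ * (c₁ * a' * c₁⁻¹) * c₁ = a' := by group
        rw [this]; exact ha'
      rw [← hconj, mem_conjBy] at h2
      rwa [inv_inv] at h2
    have hw' : a * w * a⁻¹ ∈ conjBy C (a * b) := by
      rw [← conjBy_conjBy, mem_conjBy]
      have : a⁻¹ * (a * w * a⁻¹) * a = w := by group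
      rw [this]; exact hw
    have h3 := hV _ hw' _ hy₀
    have h4 : w * (c₁ * a' * c₁⁻¹) = (c₁ * a' * c₁⁻¹) * w := by
      have h5 : a * (w * (c₁ * a' * c₁⁻¹)) * a⁻¹ = a * ((c₁ * a' * c₁⁻¹) * w) * a⁻¹ := by
        calc a * (w * (c₁ * a' * c₁⁻¹)) * a⁻¹
            = (a * w * a⁻¹) * (a * (c₁ * a' * c₁⁻¹) * a⁻¹) := by group
          _ = (a * (c₁ * a' * c₁⁻¹) * a⁻¹) * (a * w * a⁻¹) := h3
          _ = a * ((c₁ * a' * c₁⁻¹) * w) * a⁻¹ := by group
      exact mul_left_cancel (mul_right_cancel h5)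
    have hwc' : c₁⁻¹ * w = w * c₁⁻¹ := by
      calc c₁⁻¹ * w = c₁⁻¹ * (w * c₁) * c₁⁻¹ := by group
        _ = c₁⁻¹ * (c₁ * w) * c₁⁻¹ := by rw [hwc]
        _ = w * c₁⁻¹ := by group
    have h6 : c₁ * (w * a') * c₁⁻¹ = c₁ * (a' * w) * c₁⁻¹ := by
      calc c₁ * (w * a') * c₁⁻¹ = (c₁ * w) * a' * c₁⁻¹ := by group
        _ = (w * c₁) * a' * c₁⁻¹ := by rw [hwc]
        _ = w * (c₁ * a' * c₁⁻¹) := by group
        _ = (c₁ * a' * c₁⁻¹) * w := h4
        _ = c₁ * a' * (c₁⁻¹ * w) := by group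
        _ = c₁ * a' * (w * c₁⁻¹) := by rw [hwc']
        _ = c₁ * (a' * w) * c₁⁻¹ := by group
    exact mul_left_cancel (mul_right_cancel h6)
  have h7 : ∀ y ∈ C, y * a = a * y := by
    intro c hc
    have hw : b * c * b⁻¹ ∈ conjBy C b := by
      rw [mem_conjBy]
      have : b⁻¹ * (b * c * b⁻¹) * b = c := by group
      rw [this]; exact hc
    have h8 := h1 _ hw a ha
    have h9 := hAB a ha b hb
    have h10 : b * (c * a) * b⁻¹ = b * (a * c) * b⁻¹ := by
      calc b * (c * a) * b⁻¹ = (b * c * b⁻¹) * (b * a) * b⁻¹ := by group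
        _ = (b * c * b⁻¹) * (a * b) * b⁻¹ := by rw [h9]
        _ = ((b * c * b⁻¹) * a) := by group
        _ = a * (b * c * b⁻¹) := h8
        _ = (a * b) * c * b⁻¹ := by group
        _ = (b * a) * c * b⁻¹ := by rw [h9]
        _ = b * (a * c) * b⁻¹ := by group
    exact mul_left_cancel (mul_right_cancel h10)
  have h11 : a ∈ A ⊓ Subgroup.normalizer (C : Set G) := ⟨ha, mem_normalizer_of_comm h7⟩
  rw [inf_normalizer_eq_bot hAC, Subgroup.mem_bot] at h11
  exact ha1 h11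

lemma pair_of_mem {S : Set (Subgroup G)} (hS : IsRootSubgroupSet S) {A B C T : Subgroup G}
    (hBS : B ∈ S) (hCS : C ∈ S) (hTS : T ∈ S) (hAC : IsRankOnePair A C)
    (hAB : ∀ a ∈ A, ∀ b ∈ B, a * b = b * a) (hBC : ¬ IsRankOnePair B C)
    {a b : G} (ha : a ∈ A) (ha1 : a ≠ 1) (hb : b ∈ B) (ht : a * b ∈ T) : IsRankOnePair T C := by
  haveI := hS.commutative C hCS
  have hCc : ∀ u ∈ C, ∀ v ∈ C, u * v = v * u := by
    intro u hu v hv
    have := mul_comm' (⟨u, hu⟩ : C) ⟨v, hv⟩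
    exact congrArg Subtype.val this
  have hW : ∀ w ∈ conjBy C b, ∀ y ∈ C, w * y = y * w := by
    rcases hS.pair B hBS C hCS with h | h | h
    · have hbN : b ∈ Subgroup.normalizer (C : Set G) :=
        mem_normalizer_of_comm (fun y hy => (comm_of_comm_bot h b hb y hy).symm)
      rw [conjBy_of_mem_normalizer C hbN]
      exact hCc
    · exact absurd h hBC
    · have := comm_case hCc h.2.1 (B.inv_mem hb)
      rwa [inv_inv] at this
  rcases hS.pair T hTS C hCS with h | h | h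
  · exfalso
    have htN : a * b ∈ Subgroup.normalizer (C : Set G) :=
      mem_normalizer_of_comm (fun y hy => (comm_of_comm_bot h (a * b) ht y hy).symm)
    have hV : ∀ w ∈ conjBy C (a * b), ∀ y ∈ C, w * y = y * w := by
      rw [conjBy_of_mem_normalizer C htN]
      exact hCc
    exact core_absurd hAC hAB ha ha1 hb hW hV
  · exact h
  · exfalso
    have hV := comm_case hCc h.2.1 (T.inv_mem ht)
    rw [inv_inv] at hV
    exact core_absurd hAC hAB ha ha1 hb hW hV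

lemma rtg_symm {α : Type*} {r : α → α → Prop} (hr : ∀ a b, r a b → r b a) {a b : α}
    (h : Relation.ReflTransGen r a b) : Relation.ReflTransGen r b a := by
  induction h with
  | refl => exact Relation.ReflTransGen.refl
  | tail _ hbc ih => exact Relation.ReflTransGen.head (hr _ _ hbc) ih

lemma fadj_symm {S : Set (Subgroup G)} : ∀ A B : Subgroup G, FAdj S A B → FAdj S B A :=
  fun _ _ h => ⟨h.2.1, h.1, RankOnePair_symm h.2.2⟩

/-- Line partners that both have rank one partners lie in the same component. -/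
theorem line_path {S : Set (Subgroup G)} (hS : IsRootSubgroupSet S) {A B C D : Subgroup G}
    (hA : A ∈ S) (hB : B ∈ linePartners S A) (hC : C ∈ S) (hAC : IsRankOnePair A C)
    (hD : D ∈ S) (hBD : IsRankOnePair B D) : Relation.ReflTransGen (FAdj S) A B := by
  obtain ⟨⟨hBS, hBA, hcomm⟩, hpart⟩ := hB
  have hAB := comm_of_comm_bot hcomm
  by_cases h1 : IsRankOnePair B C
  · exact (Relation.ReflTransGen.single ⟨hA, hC, hAC⟩).tail ⟨hC, hBS, RankOnePair_symm h1⟩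
  by_cases h2 : IsRankOnePair A D
  · exact (Relation.ReflTransGen.single ⟨hA, hD, h2⟩).tail ⟨hD, hBS, RankOnePair_symm hBD⟩
  obtain ⟨a, ha, ha1⟩ := exists_ne_one hS hA
  obtain ⟨b, hb, hb1⟩ := exists_ne_one hS hBS
  have hinf : A ⊓ B = ⊥ := by
    rcases Cfsg.Agent.S5028.result hS (nonisolated hA hC hAC) hA B hBS with h | h
    · exact h
    · exact absurd h.symm hBA
  have ht1 : a * b ≠ 1 := by
    intro h
    have : a ∈ A ⊓ B := ⟨ha, by
      have : a = b⁻¹ := eq_inv_of_mul_eq_one_left h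
      rw [this]; exact B.inv_mem hb⟩
    rw [hinf, Subgroup.mem_bot] at this
    exact ha1 this
  have htAB : a * b ∈ A ⊔ B :=
    Subgroup.mul_mem _ (Subgroup.mem_sup_left ha) (Subgroup.mem_sup_right hb)
  obtain ⟨T, ⟨hTS, hTle⟩, htT⟩ := hpart.2.1 _ htAB ht1
  have hTC : IsRankOnePair T C := pair_of_mem hS hBS hC hTS hAC hAB h1 ha ha1 hb htT
  have hTD : IsRankOnePair T D := by
    have htT' : b * a ∈ T := by rw [← hAB a ha b hb]; exact htT
    exact pair_of_mem hS hA hD hTS hBD (fun b' hb' a' ha' => (hAB a' ha' b' hb').symm) h2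
      hb hb1 ha htT'
  exact (((Relation.ReflTransGen.single ⟨hA, hC, hAC⟩).tail ⟨hC, hTS, RankOnePair_symm hTC⟩).tail
    ⟨hTS, hD, hTD⟩).tail ⟨hD, hBS, RankOnePair_symm hBD⟩

lemma exists_nbr {S : Set (Subgroup G)} {A : Subgroup G}
    (h : ∃ A' ∈ componentOf (FAdj S) S A, A' ≠ A) : ∃ C, C ∈ S ∧ IsRankOnePair A C := by
  obtain ⟨A', ⟨_, hpath⟩, hne⟩ := h
  rcases hpath.cases_head with h1 | ⟨C, hAC, _⟩
  · exact absurd h1.symm hne
  · exact ⟨C, hAC.2.1, hAC.2.2⟩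

theorem result {G : Type*} [Group G] {S : Set (Subgroup G)} (hS : Cfsg.IsRootSubgroupSet S)
    {A B : Subgroup G} (hA : A ∈ S) (hB : B ∈ S)
    (hne : Cfsg.componentOf (Cfsg.FAdj S) S A ≠ Cfsg.componentOf (Cfsg.FAdj S) S B)
    (hA2 : ∃ A' ∈ Cfsg.componentOf (Cfsg.FAdj S) S A, A' ≠ A) (hB2 : ∃ B' ∈ Cfsg.componentOf (Cfsg.FAdj S) S B, B' ≠ B) :
    B ∉ Cfsg.linePartners S A := by
  intro hBl
  obtain ⟨C, hCS, hAC⟩ := exists_nbr hA2
  obtain ⟨D, hDS, hBD⟩ := exists_nbr hB2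
  have hpath := line_path hS hA hBl hCS hAC hDS hBD
  apply hne
  ext X
  constructor
  · rintro ⟨hX, hAX⟩
    exact ⟨hX, (rtg_symm fadj_symm hpath).trans hAX⟩
  · rintro ⟨hX, hBX⟩
    exact ⟨hX, hpath.trans hBX⟩

end Cfsg.Agent.S5031
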