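import Cfsg.Statements.S5035
import Cfsg.Agent.S5013
import Cfsg.Agent.Lib.helper25.RankOne
import Mathlib
set_option autoImplicit false
open Cfsg
namespace Cfsg.Agent.S5035

open Cfsg.Agent.S5013 (conjBy_conjBy conjBy_one conjBy_of_mem)
open Cfsg.Agent.Lib.helper25 (rankOne_B_conj)

variable {G H : Type*} [Group G] [Group H]

lemma map_conjBy (f : G →* H) (A : Subgroup G) (g : G) :
    (conjBy A g).map f = conjBy (A.map f) (f g) := by
  unfold Cfsg.conjBy
  rw [Subgroup.map_map, Subgroup.map_map]
  congr 1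
  ext a
  simp

lemma map_cond (f : G →* H) {A B : Subgroup G} (h : RankOneCondition A B)
    (hne : A.map f ≠ B.map f) : RankOneCondition (A.map f) (B.map f) := by
  rintro _ ⟨a, ha, rfl⟩ ha'1
  have ha1 : a ≠ 1 := by
    rintro rfl
    exact ha'1 (map_one f)
  obtain ⟨b, hb, hb1, hconj⟩ := h a ha ha1
  have hconj' : conjBy (A.map f) (f b)⁻¹ = conjBy (B.map f) (f a)⁻¹ := by
    rw [← map_inv f b, ← map_inv f a, ← map_conjBy, ← map_conjBy, hconj]
  refine ⟨f b, Subgroup.mem_map_of_mem f hb, ?_, hconj'⟩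
  intro hfb
  rw [hfb, inv_one, conjBy_one] at hconj'
  have h2 : conjBy (A.map f) (f a) = A.map f := conjBy_of_mem _ (Subgroup.mem_map_of_mem f ha)
  rw [hconj', conjBy_conjBy, mul_inv_cancel, conjBy_one] at h2
  exact hne (hconj'.trans h2.symm)

lemma map_pair (f : G →* H) {A B : Subgroup G} (hp : IsRankOnePair A B)
    (hne : A.map f ≠ B.map f) : IsRankOnePair (A.map f) (B.map f) := by
  refine ⟨hne, ?_, ?_, map_cond f hp.cond_left hne, map_cond f hp.cond_right (fun h => hne h.symm)⟩
  · haveI := hp.nilpotent_left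
    exact Group.nilpotent_of_surjective (f.subgroupMap A) (f.subgroupMap_surjective A)
  · haveI := hp.nilpotent_right
    exact Group.nilpotent_of_surjective (f.subgroupMap B) (f.subgroupMap_surjective B)

lemma map_case (f : G →* H) {S : Set (Subgroup G)} {A B : Subgroup G}
    (hc : RootCommutatorCase S A B) :
    RootCommutatorCase ((fun A : Subgroup G => A.map f) '' S) (A.map f) (B.map f) := by
  obtain ⟨hmem, hcent, hcl1, hcl2⟩ := hc
  refine ⟨⟨_, hmem, Subgroup.map_commutator _ _ f⟩, ?_, ?_, ?_⟩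
  · intro c hc x hx
    rw [← Subgroup.map_commutator] at hc
    rw [← Subgroup.map_sup] at hx
    obtain ⟨c₀, hc₀, rfl⟩ := hc
    obtain ⟨x₀, hx₀, rfl⟩ := hx
    rw [← map_mul, ← map_mul, hcent c₀ hc₀ x₀ hx₀]
  · rintro _ ⟨a, ha, rfl⟩ ha'1
    have ha1 : a ≠ 1 := by
      rintro rfl
      exact ha'1 (map_one f)
    rw [← Subgroup.map_commutator, ← hcl1 a ha ha1, MonoidHom.map_closure, Subgroup.coe_map,
      Set.image_image, Set.image_image]
    simp only [map_mul, map_inv]
  · rintro _ ⟨b, hb, rfl⟩ hb'1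
    have hb1 : b ≠ 1 := by
      rintro rfl
      exact hb'1 (map_one f)
    rw [← Subgroup.map_commutator, ← hcl2 b hb hb1, MonoidHom.map_closure, Subgroup.coe_map,
      Set.image_image, Set.image_image]
    simp only [map_mul, map_inv]

lemma lift_path (f : G →* H) {S : Set (Subgroup G)} {A B : Subgroup G}
    (h : Relation.ReflTransGen (FAdj S) A B) :
    Relation.ReflTransGen (FAdj ((fun A : Subgroup G => A.map f) '' S)) (A.map f) (B.map f) := by
  induction h with
  | refl => exact Relation.ReflTransGen.refl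
  | @tail b c _ hstep ih =>
    obtain ⟨hb, hc, hp⟩ := hstep
    by_cases heq : b.map f = c.map f
    · rw [← heq]; exact ih
    · exact ih.tail ⟨⟨b, hb, rfl⟩, ⟨c, hc, rfl⟩, map_pair f hp heq⟩

lemma map_bot_of_path (f : G →* H) {S : Set (Subgroup G)} {A B : Subgroup G}
    (h : Relation.ReflTransGen (FAdj S) A B) (hA : A.map f = ⊥) : B.map f = ⊥ := by
  induction h with
  | refl => exact hA
  | @tail b c _ hstep ih =>
    obtain ⟨_, _, hp⟩ := hstep
    obtain ⟨x, -, hx⟩ := rankOne_B_conj hp
    rw [hx, map_conjBy, ih]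
    exact Subgroup.map_bot _

theorem result {G H : Type*} [Group G] [Group H] {S : Set (Subgroup G)} (hS : Cfsg.IsRootSubgroupSet S)
    (hc : Cfsg.IsConnectedFamily (Cfsg.FAdj S) S) (f : G →* H) (hf : Function.Surjective f) :
    (Cfsg.IsRootSubgroupSet ((fun A : Subgroup G => A.map f) '' S) ∧
      Cfsg.IsConnectedFamily (Cfsg.FAdj ((fun A : Subgroup G => A.map f) '' S)) ((fun A : Subgroup G => A.map f) '' S)) ∨
    ∃ A ∈ S, A.map f = ⊤ := by
  by_cases hbot : ∃ A ∈ S, A.map f = ⊥
  · right
    obtain ⟨A₀, hA₀, hA₀bot⟩ := hbot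
    have hall : ∀ B ∈ S, B.map f = ⊥ := fun B hB => map_bot_of_path f (hc A₀ hA₀ B hB) hA₀bot
    have hker : (⊤ : Subgroup G) ≤ f.ker := by
      rw [← hS.generates]
      exact iSup₂_le (fun B hB => (Subgroup.map_eq_bot_iff B).mp (hall B hB))
    refine ⟨A₀, hA₀, ?_⟩
    rw [eq_top_iff]
    intro h _
    obtain ⟨g, rfl⟩ := hf h
    have hg : g ∈ f.ker := hker (Subgroup.mem_top g)
    rw [MonoidHom.mem_ker] at hg
    rw [hg]; exact Subgroup.one_mem _
  · left
    push_neg at hbot
    have hroot : IsRootSubgroupSet ((fun A : Subgroup G => A.map f) '' S) := by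
      refine ⟨?_, ?_, ?_, ?_, ?_⟩
      · rintro _ ⟨A, hA, rfl⟩
        haveI := hS.commutative A hA
        show IsMulCommutative ↥(A.map f)
        infer_instance
      · rintro _ ⟨A, hA, rfl⟩
        exact hbot A hA
      · rw [eq_top_iff]
        intro h _
        obtain ⟨g, rfl⟩ := hf h
        have hle : (⨆ A ∈ S, A) ≤
            (⨆ A' ∈ ((fun A : Subgroup G => A.map f) '' S), A').comap f := by
          refine iSup₂_le (fun A hA => ?_)
          rw [← Subgroup.map_le_iff_le_comap]
          exact le_iSup₂ (f := fun (A' : Subgroup H)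
            (_ : A' ∈ ((fun A : Subgroup G => A.map f) '' S)) => A') (A.map f) ⟨A, hA, rfl⟩
        have hg : g ∈ (⨆ A ∈ S, A) := by rw [hS.generates]; exact Subgroup.mem_top g
        exact hle hg
      · rintro _ ⟨A, hA, rfl⟩ h
        obtain ⟨g, rfl⟩ := hf h
        exact ⟨conjBy A g, hS.conj_mem A hA g, map_conjBy f A g⟩
      · rintro _ ⟨A, hA, rfl⟩ _ ⟨B, hB, rfl⟩
        show ⁅A.map f, B.map f⁆ = ⊥ ∨ IsRankOnePair (A.map f) (B.map f) ∨
          RootCommutatorCase ((fun A : Subgroup G => A.map f) '' S) (A.map f) (B.map f)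
        rcases hS.pair A hA B hB with h | h | h
        · left
          rw [← Subgroup.map_commutator, h, Subgroup.map_bot]
        · by_cases heq : A.map f = B.map f
          · left
            rw [← heq, ← Subgroup.map_commutator]
            have hAA : ⁅A, A⁆ = ⊥ := by
              rw [Subgroup.commutator_eq_bot_iff_le_centralizer]
              intro a ha
              rw [Subgroup.mem_centralizer_iff]
              intro b hb
              haveI := hS.commutative A hA
              have := mul_comm' (⟨b, hb⟩ : A) ⟨a, ha⟩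
              exact congrArg Subtype.val this
            rw [hAA, Subgroup.map_bot]
          · right; left
            exact map_pair f h heq
        · right; right
          exact map_case f h
    refine ⟨hroot, ?_⟩
    rintro _ ⟨A, hA, rfl⟩ _ ⟨B, hB, rfl⟩
    exact lift_path f (hc A hA B hB)

end Cfsg.Agent.S5035
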