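import Cfsg.Statements.S5032
import Cfsg.Agent.S5031
import Cfsg.Agent.S5035
import Mathlib
set_option autoImplicit false
open Cfsg
namespace Cfsg.Agent.S5032

open Cfsg.Agent.S5013 (conjBy_conjBy conjBy_one conjBy_of_mem conjBy_of_mem_normalizer
  mem_normalizer_of_conjBy inf_normalizer_eq_bot)
open Cfsg.Agent.S5028 (mem_conjBy comm_of_comm_bot)
open Cfsg.Agent.S5025 (nonisolated mem_normalizer_of_comm)
open Cfsg.Agent.S5029 (exists_partner)
open Cfsg.Agent.S5031 (rtg_symm fadj_symm line_path)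
open Cfsg.Agent.Lib.helper25 (rankOne_B_conj conjBy_injective)

variable {G : Type*} [Group G]

lemma conj_pair {A B : Subgroup G} (hp : IsRankOnePair A B) (g : G) :
    IsRankOnePair (conjBy A g) (conjBy B g) :=
  Cfsg.Agent.S5035.map_pair (MulAut.conj g).toMonoidHom hp (fun h => hp.ne (conjBy_injective g h))

lemma conj_fadj {S : Set (Subgroup G)} (hS : IsRootSubgroupSet S) {A B : Subgroup G}
    (h : FAdj S A B) (g : G) : FAdj S (conjBy A g) (conjBy B g) :=
  ⟨hS.conj_mem A h.1 g, hS.conj_mem B h.2.1 g, conj_pair h.2.2 g⟩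

lemma conj_path {S : Set (Subgroup G)} (hS : IsRootSubgroupSet S) {A B : Subgroup G}
    (h : Relation.ReflTransGen (FAdj S) A B) (g : G) :
    Relation.ReflTransGen (FAdj S) (conjBy A g) (conjBy B g) := by
  induction h with
  | refl => exact Relation.ReflTransGen.refl
  | tail _ hbc ih => exact ih.tail (conj_fadj hS hbc g)

lemma conj_of_path {S : Set (Subgroup G)} {A B : Subgroup G}
    (h : Relation.ReflTransGen (FAdj S) A B) : ∃ g : G, B = conjBy A g := by
  induction h with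
  | refl => exact ⟨1, (conjBy_one A).symm⟩
  | tail _ hbc ih =>
    obtain ⟨g, rfl⟩ := ih
    obtain ⟨x, -, hx⟩ := rankOne_B_conj hbc.2.2
    exact ⟨x * g, by rw [hx, conjBy_conjBy]⟩

lemma step_path {S : Set (Subgroup G)} (hS : IsRootSubgroupSet S)
    (hni : ∀ A ∈ S, ∃ D, D ∈ S ∧ IsRankOnePair A D) {A B : Subgroup G} (hA : A ∈ S) (hB : B ∈ S)
    {b : G} (hb : b ∈ B) : Relation.ReflTransGen (FAdj S) A (conjBy A b) := by
  rcases hS.pair A hA B hB with h | h | h
  · have hbN : b ∈ Subgroup.normalizer (A : Set G) :=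
      mem_normalizer_of_comm (fun y hy => comm_of_comm_bot h y hy b hb)
    have e := conjBy_of_mem_normalizer A hbN
    rw [e]
  · have h1 : FAdj S B (conjBy A b) := by
      have := conj_fadj hS (⟨hB, hA, RankOnePair_symm h⟩ : FAdj S B A) b
      rwa [conjBy_of_mem B hb] at this
    exact (Relation.ReflTransGen.single ⟨hA, hB, h⟩).tail h1
  · obtain ⟨D, hDS, hAD⟩ := hni A hA
    have hAni := nonisolated hA hDS hAD
    have hline := (Cfsg.Agent.S5029.main_case hS hAni hA h).2.2.1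
    have hCS := h.1
    obtain ⟨D', hD'S, hCD'⟩ := hni _ hCS
    have hpath : Relation.ReflTransGen (FAdj S) ⁅A, B⁆ A :=
      line_path hS hCS hline hD'S hCD' hDS hAD
    have hbN : b ∈ Subgroup.normalizer ((⁅A, B⁆ : Subgroup G) : Set G) :=
      mem_normalizer_of_comm (fun c hc => h.2.1 c hc b (Subgroup.mem_sup_right hb))
    have hpath' := conj_path hS hpath b
    rw [conjBy_of_mem_normalizer _ hbN] at hpath'
    exact (rtg_symm fadj_symm hpath).trans hpath'

lemma all_path {S : Set (Subgroup G)} (hS : IsRootSubgroupSet S)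
    (hni : ∀ A ∈ S, ∃ D, D ∈ S ∧ IsRankOnePair A D) (g : G) :
    ∀ A ∈ S, Relation.ReflTransGen (FAdj S) A (conjBy A g) := by
  have hg : g ∈ (⨆ B ∈ S, B) := by rw [hS.generates]; exact Subgroup.mem_top g
  rw [iSup_subtype'] at hg
  refine Subgroup.iSup_induction
    (C := fun g => ∀ A ∈ S, Relation.ReflTransGen (FAdj S) A (conjBy A g)) _ hg ?_ ?_ ?_
  · rintro ⟨B, hB⟩ b hb A hA
    exact step_path hS hni hA hB hb
  · intro A hA
    have e := conjBy_one A
    rw [e]
  · intro x y hx hy A hA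
    rw [← conjBy_conjBy]
    exact (hy A hA).trans (hx _ (hS.conj_mem A hA y))

theorem result {G : Type*} [Group G] {S : Set (Subgroup G)} (hS : Cfsg.IsRootSubgroupSet S) (h2 : ∃ A ∈ S, ∃ B ∈ S, A ≠ B) :
    Cfsg.IsConnectedFamily (Cfsg.FAdj S) S ↔
      (Cfsg.IsConjClassOfSubgroups S ∧ ∃ A ∈ S, ¬ Cfsg.IsIsolatedIn (Cfsg.FAdj S) S A) := by
  constructor
  · intro hc
    obtain ⟨A, hA, B, hB, hAB⟩ := h2
    refine ⟨⟨⟨A, hA⟩, ?_⟩, ?_⟩
    · intro A' hA' B' hB'
      exact conj_of_path (hc A' hA' B' hB')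
    · refine ⟨A, hA, ?_⟩
      rcases (hc A hA B hB).cases_head with h | ⟨C, hAC, _⟩
      · exact absurd h hAB
      · exact nonisolated hA hAC.2.1 hAC.2.2
  · rintro ⟨⟨_, hconj⟩, A₁, hA₁, hA₁ni⟩
    obtain ⟨D₁, hD₁S, hA₁D₁⟩ := exists_partner hA₁ni hA₁
    have hni : ∀ A ∈ S, ∃ D, D ∈ S ∧ IsRankOnePair A D := by
      intro A hA
      obtain ⟨g, rfl⟩ := hconj A₁ hA₁ A hA
      exact ⟨conjBy D₁ g, hS.conj_mem D₁ hD₁S g, conj_pair hA₁D₁ g⟩
    intro A hA B hB
    obtain ⟨g, rfl⟩ := hconj A hA B hB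
    exact all_path hS hni g A hA

end Cfsg.Agent.S5032
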