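import Cfsg.Statements.S5024
import Cfsg.Agent.S5032
import Mathlib
set_option autoImplicit false
open Cfsg
namespace Cfsg.Agent.S5024

open Cfsg.Agent.S5013 (conjBy_conjBy conjBy_one conjBy_of_mem conjBy_of_mem_normalizer
  mem_normalizer_of_conjBy inf_normalizer_eq_bot eq_of_conjBy_eq)
open Cfsg.Agent.S5028 (mem_conjBy comm_of_comm_bot)
open Cfsg.Agent.S5025 (nonisolated mem_normalizer_of_comm comm_case not_comm_of_pair)
open Cfsg.Agent.S5029 (exists_ne_one case_absurd)
open Cfsg.Agent.S5032 (conj_pair)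
open Cfsg.Agent.Lib.helper25 (rankOne_B_conj unipotentSubgroups_eq unipotentSubgroups_conj
  self_mem_unipotentSubgroups rankOne_regular rankOne_two_transitive rankOneOrbit)

variable {G : Type*} [Group G]

lemma mem_unip {S : Set (Subgroup G)} (hS : IsRootSubgroupSet S) {A B C D : Subgroup G}
    (hA : A ∈ S) (hB : B ∈ S) (hAB : IsRankOnePair A B) (hC : C ∈ S) (hD : D ∈ S)
    (hCD : IsRankOnePair C D) (hle : A ⊔ B ≤ C ⊔ D) : A ∈ unipotentSubgroups C D := by
  have hΩ := unipotentSubgroups_eq hCD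
  have hAni := nonisolated hA hB hAB
  have haY : ∀ a ∈ A, a ∈ C ⊔ D := fun a ha => hle (Subgroup.mem_sup_left ha)
  have hCΩ := self_mem_unipotentSubgroups C D
  have hDΩ : D ∈ unipotentSubgroups C D := by
    obtain ⟨x, hx, hDx⟩ := rankOne_B_conj hCD
    exact ⟨x, hx, hDx⟩
  haveI := hS.commutative C hC
  have hCc : ∀ u ∈ C, ∀ v ∈ C, u * v = v * u := by
    intro u hu v hv
    have := mul_comm' (⟨u, hu⟩ : C) ⟨v, hv⟩
    exact congrArg Subtype.val this
  rcases hS.pair A hA C hC with h | h | h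
  · obtain ⟨a, ha, ha1⟩ := exists_ne_one hS hA
    have hDaΩ : conjBy D a ∈ unipotentSubgroups C D := unipotentSubgroups_conj hDΩ (haY a ha)
    have haC : ∀ y ∈ C, y * a = a * y := fun y hy => (comm_of_comm_bot h a ha y hy).symm
    have haNC : a ∈ Subgroup.normalizer (C : Set G) := mem_normalizer_of_comm haC
    have hDa_ne : conjBy D a ≠ C := by
      intro he
      have h1 : D = conjBy C a⁻¹ := by rw [← he, conjBy_conjBy, inv_mul_cancel, conjBy_one]
      rw [conjBy_of_mem_normalizer C (Subgroup.inv_mem _ haNC)] at h1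
      exact hCD.ne h1.symm
    obtain ⟨c, ⟨hcC, hce⟩, -⟩ := rankOne_regular hCD hDΩ hDaΩ hCD.ne.symm hDa_ne
    obtain ⟨h', hh'⟩ : ∃ h' : G, h' = c⁻¹ * a := ⟨_, rfl⟩
    have hhD : conjBy D h' = D := by
      rw [hh', ← conjBy_conjBy, ← hce, conjBy_conjBy, inv_mul_cancel, conjBy_one]
    have hhC : ∀ y ∈ C, y * h' = h' * y := by
      intro y hy
      have e1 := hCc y hy c⁻¹ (C.inv_mem hcC)
      have e2 := haC y hy
      rw [hh']
      calc y * (c⁻¹ * a) = (y * c⁻¹) * a := by group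
        _ = (c⁻¹ * y) * a := by rw [e1]
        _ = c⁻¹ * (y * a) := by group
        _ = c⁻¹ * (a * y) := by rw [e2]
        _ = (c⁻¹ * a) * y := by group
    have hhNC : h' ∈ Subgroup.normalizer (C : Set G) := mem_normalizer_of_comm hhC
    have hhND : h' ∈ Subgroup.normalizer (D : Set G) := mem_normalizer_of_conjBy D hhD
    have hhDc : ∀ d ∈ D, d * h' = h' * d := by
      intro d hd
      by_cases hd1 : d = 1
      · rw [hd1, one_mul, mul_one]
      obtain ⟨s, hs, hs1, hconj⟩ := hCD.cond_right d hd hd1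
      have hhs : h' * s⁻¹ = s⁻¹ * h' := (hhC s⁻¹ (C.inv_mem hs)).symm
      have e1 : conjBy (conjBy D s⁻¹) h' = conjBy D s⁻¹ := by
        rw [conjBy_conjBy, hhs, ← conjBy_conjBy, hhD]
      have e2 : conjBy (conjBy C d⁻¹) h' = conjBy C (h' * d * h'⁻¹)⁻¹ := by
        rw [conjBy_conjBy]
        have : h' * d⁻¹ = (h' * d * h'⁻¹)⁻¹ * h' := by group
        rw [this, ← conjBy_conjBy, conjBy_of_mem_normalizer C hhNC]
      have e3 : conjBy C d⁻¹ = conjBy C (h' * d * h'⁻¹)⁻¹ := by
        rw [← e2, ← hconj, e1]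
      have hd' : h' * d * h'⁻¹ ∈ D := (Subgroup.mem_normalizer_iff.mp hhND d).mp hd
      have h2 := eq_of_conjBy_eq (inf_normalizer_eq_bot (RankOnePair_symm hCD)) hd hd' e3
      calc d * h' = (h' * d * h'⁻¹) * h' := by rw [← h2]
        _ = h' * d := by group
    have hz : h' ∈ Subgroup.centralizer ((C ⊔ D : Subgroup G) : Set G) := by
      have h1 : C ⊔ D ≤ Subgroup.centralizer {h'} := by
        refine sup_le ?_ ?_
        · intro x hx
          rw [Subgroup.mem_centralizer_singleton_iff]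
          exact hhC x hx
        · intro x hx
          rw [Subgroup.mem_centralizer_singleton_iff]
          exact hhDc x hx
      rw [Subgroup.mem_centralizer_iff]
      intro x hx
      have := h1 hx
      rw [Subgroup.mem_centralizer_singleton_iff] at this
      exact this
    have ha_eq : a = c * h' := by rw [hh']; group
    by_cases hh1 : h' = 1
    · have hac : a = c := by rw [ha_eq, hh1, mul_one]
      rcases Cfsg.Agent.S5028.result hS hAni hA C hC with h2 | h2
      · exfalso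
        have : a ∈ A ⊓ C := ⟨ha, by rw [hac]; exact hcC⟩
        rw [h2, Subgroup.mem_bot] at this
        exact ha1 this
      · rw [h2]; exact hCΩ
    · by_cases hc1 : c = 1
      · exfalso
        have hah : a = h' := by rw [ha_eq, hc1, one_mul]
        have : a ∈ A ⊓ Subgroup.normalizer (B : Set G) := ⟨ha, mem_normalizer_of_comm (fun y hy => by
          have h3 := Subgroup.mem_centralizer_iff.mp hz y (hle (Subgroup.mem_sup_right hy))
          rw [hah]; exact h3)⟩
        rw [inf_normalizer_eq_bot hAB, Subgroup.mem_bot] at this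
        exact ha1 this
      · exfalso
        have h3 := Cfsg.Agent.S5025.result hS hC ⟨hD, hCD⟩ hz hh1 c hcC hc1
        apply h3
        have e : h' * c = a := by rw [ha_eq]; exact (hhC c hcC).symm
        rw [e]; exact ⟨ha1, A, hA, ha⟩
  · obtain ⟨a, ha, ha1⟩ := exists_ne_one hS hA
    obtain ⟨c, hcC, hc1, hconj⟩ := h.cond_left a ha ha1
    have h1 : conjBy C a⁻¹ ∈ unipotentSubgroups C D :=
      unipotentSubgroups_conj hCΩ (haY a⁻¹ (A.inv_mem ha))
    rw [← hconj] at h1
    have h2 := unipotentSubgroups_conj h1 (Subgroup.mem_sup_left hcC : c ∈ C ⊔ D)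
    rwa [conjBy_conjBy, mul_inv_cancel, conjBy_one] at h2
  · exfalso
    have hN : ∀ a ∈ A, a ∈ Subgroup.normalizer (C : Set G) := by
      intro a ha
      have hcomm := comm_case hCc h.2.1 (A.inv_mem ha)
      rw [inv_inv] at hcomm
      have hΩa : conjBy C a ∈ rankOneOrbit C D := by
        rw [← hΩ]; exact unipotentSubgroups_conj hCΩ (haY a ha)
      rcases hΩa with h3 | ⟨c, hcC, h3⟩
      · exact mem_normalizer_of_conjBy C h3
      · exfalso
        have hp : IsRankOnePair C (conjBy D c) := by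
          have := conj_pair hCD c
          rwa [conjBy_of_mem C hcC] at this
        obtain ⟨w, hw, hw1⟩ := exists_ne_one hS (hS.conj_mem D hD c)
        obtain ⟨y, hy, hy1⟩ := exists_ne_one hS hC
        have hwy := hcomm w (by rw [h3]; exact hw) y hy
        exact not_comm_of_pair hS hC (hS.conj_mem D hD c) hp hy hy1 hw hw1 hwy.symm
    exact case_absurd hS hAni hA h hN

theorem result {G : Type*} [Group G] {S : Set (Subgroup G)} (hS : Cfsg.IsRootSubgroupSet S)
    {A B C D : Subgroup G} (hA : A ∈ S) (hC : C ∈ S) (hB : B ∈ Cfsg.rankOnePartners S A) (hD : D ∈ Cfsg.rankOnePartners S C)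
    (hle : A ⊔ B ≤ C ⊔ D) : A ⊔ B = C ⊔ D ∧ C ∈ Cfsg.unipotentSubgroups A B ∧ D ∈ Cfsg.unipotentSubgroups A B := by
  obtain ⟨hBS, hAB⟩ := hB
  obtain ⟨hDS, hCD⟩ := hD
  have hAΩ := mem_unip hS hA hBS hAB hC hDS hCD hle
  have hBΩ := mem_unip hS hBS hA (RankOnePair_symm hAB) hC hDS hCD (by rw [sup_comm]; exact hle)
  have hCΩ := self_mem_unipotentSubgroups C D
  have hDΩ : D ∈ unipotentSubgroups C D := by
    obtain ⟨x, hx, hDx⟩ := rankOne_B_conj hCD
    exact ⟨x, hx, hDx⟩
  obtain ⟨x, hx, hxA, hxB⟩ := rankOne_two_transitive hCD hCΩ hDΩ hAΩ hBΩ hCD.ne hAB.ne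
  have heq : A ⊔ B = C ⊔ D := by
    rw [← hxA, ← hxB]
    have h1 : conjBy (C ⊔ D) x = conjBy C x ⊔ conjBy D x := Subgroup.map_sup C D _
    rw [← h1, conjBy_of_mem _ hx]
  have hx' : x⁻¹ ∈ A ⊔ B := by rw [heq]; exact Subgroup.inv_mem _ hx
  refine ⟨heq, ⟨x⁻¹, hx', ?_⟩, ?_⟩
  · rw [← hxA, conjBy_conjBy, inv_mul_cancel, conjBy_one]
  · obtain ⟨x₀, hx₀, hBx₀⟩ := rankOne_B_conj hAB
    refine ⟨x⁻¹ * x₀, Subgroup.mul_mem _ hx' hx₀, ?_⟩
    rw [← conjBy_conjBy, ← hBx₀, ← hxB, conjBy_conjBy, inv_mul_cancel, conjBy_one]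

end Cfsg.Agent.S5024
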