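import Cfsg.Statements.S5026
import Cfsg.Agent.S5025
import Mathlib
set_option autoImplicit false
open Cfsg
namespace Cfsg.Agent.S5026

open Cfsg.Agent.S5013 (conjBy_conjBy conjBy_one conjBy_of_mem conjBy_of_mem_normalizer
  mem_normalizer_of_conjBy inf_normalizer_eq_bot)
open Cfsg.Agent.S5028 (mem_conjBy comm_of_comm_bot)
open Cfsg.Agent.S5025 (nonisolated mem_normalizer_of_comm eq_of_conj_of_comm not_comm_of_pair)

variable {G : Type*} [Group G]

lemma le_cent_zpowers {C : Subgroup G} {g : G} :
    C ≤ Subgroup.centralizer (Subgroup.zpowers g : Set G) ↔ ∀ c ∈ C, c * g = g * c := by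
  constructor
  · intro h c hc
    have := Subgroup.mem_centralizer_iff.mp (h hc) g (Subgroup.mem_zpowers g)
    exact this.symm
  · intro h c hc
    rw [Subgroup.mem_centralizer_iff]
    rintro _ ⟨k, rfl⟩
    exact (Commute.zpow_right (show Commute c g from h c hc) k).eq.symm

lemma absurd_case {S : Set (Subgroup G)} (hS : IsRootSubgroupSet S) (hdeg : IsDegenerateRootSet S)
    {A B C : Subgroup G} (hA : A ∈ S) (hB : B ∈ S) (hC : C ∈ S)
    (hCA : IsRankOnePair C A) (hCB : IsRankOnePair C B) {a b : G} (ha : a ∈ A) (ha1 : a ≠ 1)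
    (hb : b ∈ B) (hb1 : b ≠ 1) (hab : a * b = b * a) (hab1 : a * b ≠ 1)
    (hcent : ∀ c ∈ C, c * (a * b) = (a * b) * c) : False := by
  have habN : a * b ∈ Subgroup.normalizer (C : Set G) := mem_normalizer_of_comm hcent
  obtain ⟨c, hcC, hc1, e1⟩ := hCA.cond_right a ha ha1
  have hb1' : b⁻¹ ≠ 1 := by simpa using hb1
  obtain ⟨c', hc'C, hc'1, e2⟩ := hCB.cond_right b⁻¹ (B.inv_mem hb) hb1'
  rw [inv_inv] at e2
  have e3 : conjBy C b = conjBy C a⁻¹ := by
    have h1 : conjBy C (a * b)⁻¹ = C := conjBy_of_mem_normalizer C (Subgroup.inv_mem _ habN)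
    have h2 : conjBy (conjBy C (a * b)⁻¹) b = conjBy C b := by rw [h1]
    rw [conjBy_conjBy] at h2
    have h3 : b * (a * b)⁻¹ = a⁻¹ := by group
    rw [h3] at h2
    exact h2.symm
  have e4 : conjBy A c⁻¹ = conjBy B c'⁻¹ := e1.trans (e3.symm.trans e2.symm)
  have e5 : B = conjBy A (c' * c⁻¹) := by
    have : conjBy (conjBy A c⁻¹) c' = conjBy (conjBy B c'⁻¹) c' := by rw [e4]
    rw [conjBy_conjBy, conjBy_conjBy, mul_inv_cancel, conjBy_one] at this
    exact this.symm
  have hgC : c' * c⁻¹ ∈ C := C.mul_mem hc'C (C.inv_mem hcC)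
  by_cases hg : c' * c⁻¹ = 1
  · rw [hg, conjBy_one] at e5
    have habA : a * b ∈ A := A.mul_mem ha (e5 ▸ hb)
    have : a * b ∈ A ⊓ Subgroup.normalizer (C : Set G) := ⟨habA, habN⟩
    rw [inf_normalizer_eq_bot (RankOnePair_symm hCA), Subgroup.mem_bot] at this
    exact hab1 this
  · generalize c' * c⁻¹ = g at e5 hgC hg
    rcases hS.pair A hA B hB with h | h | h
    · have hg' : g⁻¹ ≠ 1 := by simpa using hg
      obtain ⟨a', ha'A, ha'1, e6⟩ := hCA.cond_left g⁻¹ (C.inv_mem hgC) hg'
      rw [inv_inv, ← e5] at e6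
      have : C = B := eq_of_conj_of_comm e6 (fun y hy => (comm_of_comm_bot h a' ha'A y hy).symm)
      exact hCB.ne this
    · exact not_comm_of_pair hS hA hB h ha ha1 hb hb1 hab
    · exact hdeg A hA B hB h

theorem result {G : Type*} [Group G] {S : Set (Subgroup G)} (hS : Cfsg.IsRootSubgroupSet S) (hdeg : Cfsg.IsDegenerateRootSet S)
    {a b : G} (ha : a ∈ Cfsg.rootElements S) (hb : b ∈ Cfsg.rootElements S) (hab : a * b = b * a) (hab1 : a * b ≠ 1) :
    Cfsg.centralizingMembers S (Subgroup.zpowers (a * b)) =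
      Cfsg.centralizingMembers S (Subgroup.zpowers a) ∩ Cfsg.centralizingMembers S (Subgroup.zpowers b) := by
  obtain ⟨ha1, A, hA, haA⟩ := ha
  obtain ⟨hb1, B, hB, hbB⟩ := hb
  ext C
  constructor
  · rintro ⟨hCS, hCle⟩
    rw [le_cent_zpowers] at hCle
    have hboth : (∀ c ∈ C, c * a = a * c) ∧ (∀ c ∈ C, c * b = b * c) := by
      rcases hS.pair C hCS A hA with h1 | h1 | h1
      · have h2 : ∀ c ∈ C, c * a = a * c := fun c hc => comm_of_comm_bot h1 c hc a haA
        refine ⟨h2, fun c hc => ?_⟩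
        have h3 := hCle c hc
        have h4 := h2 c hc
        have h5 : a * (c * b) = a * (b * c) := by
          calc a * (c * b) = (a * c) * b := by group
            _ = (c * a) * b := by rw [h4]
            _ = c * (a * b) := by group
            _ = a * b * c := h3
            _ = a * (b * c) := by group
        exact mul_left_cancel h5
      · rcases hS.pair C hCS B hB with h2 | h2 | h2
        · have h3 : ∀ c ∈ C, c * b = b * c := fun c hc => comm_of_comm_bot h2 c hc b hbB
          refine ⟨fun c hc => ?_, h3⟩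
          have h4 := hCle c hc
          have h5 := h3 c hc
          have h6 : (c * a) * b = (a * c) * b := by
            calc (c * a) * b = c * (a * b) := by group
              _ = a * b * c := h4
              _ = a * (b * c) := by group
              _ = a * (c * b) := by rw [h5]
              _ = (a * c) * b := by group
          exact mul_right_cancel h6
        · exact (absurd_case hS hdeg hA hB hCS h1 h2 haA ha1 hbB hb1 hab hab1 hCle).elim
        · exact (hdeg C hCS B hB h2).elim
      · exact (hdeg C hCS A hA h1).elim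
    exact ⟨⟨hCS, le_cent_zpowers.mpr hboth.1⟩, ⟨hCS, le_cent_zpowers.mpr hboth.2⟩⟩
  · rintro ⟨⟨hCS, h1⟩, ⟨_, h2⟩⟩
    rw [le_cent_zpowers] at h1 h2
    refine ⟨hCS, le_cent_zpowers.mpr fun c hc => ?_⟩
    calc c * (a * b) = (c * a) * b := by group
      _ = (a * c) * b := by rw [h1 c hc]
      _ = a * (c * b) := by group
      _ = a * (b * c) := by rw [h2 c hc]
      _ = a * b * c := by group

end Cfsg.Agent.S5026
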