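import Cfsg.Statements.S5027
import Cfsg.Agent.S5025
import Mathlib
set_option autoImplicit false
open Cfsg
namespace Cfsg.Agent.S5027

theorem result {G : Type*} [Group G] {S : Set (Subgroup G)} (hS : Cfsg.IsRootSubgroupSet S)
    (hF : ∀ A ∈ S, ¬ Cfsg.IsIsolatedIn (Cfsg.FAdj S) S A) : Subgroup.upperCentralSeries G 2 = Subgroup.center G := by
  apply le_antisymm
  · intro z hz
    have hz' : ∀ y, z * y * z⁻¹ * y⁻¹ ∈ Subgroup.center G := by
      intro y
      have := (Subgroup.mem_upperCentralSeries_succ_iff (n := 1)).mp hz y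
      rwa [Subgroup.upperCentralSeries_one] at this
    have hall : ∀ A ∈ S, A ≤ Subgroup.centralizer {z} := by
      intro A hA a haA
      rw [Subgroup.mem_centralizer_singleton_iff]
      by_cases ha1 : a = 1
      · rw [ha1]; simp
      obtain ⟨B, hBS, hAB⟩ : ∃ B, B ∈ S ∧ IsRankOnePair A B := by
        by_contra hne
        apply hF A hA
        refine ⟨hA, fun B => ⟨?_, ?_⟩⟩
        · rintro ⟨_, hB, hp⟩; exact hne ⟨B, hB, hp⟩
        · rintro ⟨hB, _, hp⟩; exact hne ⟨B, hB, RankOnePair_symm hp⟩
      by_contra hcomm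
      have hc1 : z * a * z⁻¹ * a⁻¹ ≠ 1 := by
        intro h
        apply hcomm
        have : z * a = (z * a * z⁻¹ * a⁻¹) * (a * z) := by group
        rw [h, one_mul] at this
        exact this.symm
      have hcc : z * a * z⁻¹ * a⁻¹ ∈ Subgroup.centralizer ((A ⊔ B : Subgroup G) : Set G) :=
        Subgroup.center_le_centralizer _ (hz' a)
      have := Cfsg.Agent.S5025.result hS hA ⟨hBS, hAB⟩ hcc hc1 a haA ha1
      apply this
      have e : z * a * z⁻¹ * a⁻¹ * a = z * a * z⁻¹ := by group
      rw [e]
      refine ⟨?_, conjBy A z, hS.conj_mem A hA z, ?_⟩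
      · intro h
        apply ha1
        have : a = z⁻¹ * (z * a * z⁻¹) * z := by group
        rw [this, h]; group
      · rw [Cfsg.Agent.S5028.mem_conjBy]
        have : z⁻¹ * (z * a * z⁻¹) * z = a := by group
        rw [this]; exact haA
    have htop : (⊤ : Subgroup G) ≤ Subgroup.centralizer {z} := by
      rw [← hS.generates]
      exact iSup₂_le hall
    rw [Subgroup.mem_center_iff]
    intro g
    have := htop (Subgroup.mem_top g)
    rw [Subgroup.mem_centralizer_singleton_iff] at this
    exact this
  · rw [← Subgroup.upperCentralSeries_one]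
    exact Subgroup.upperCentralSeries_mono G (by norm_num)

end Cfsg.Agent.S5027
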