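import Cfsg.Statements.S5036
import Cfsg.Agent.S5032
import Mathlib
set_option autoImplicit false
open Cfsg
open scoped commutatorElement
namespace Cfsg.Agent.S5036

open Cfsg.Agent.S5013 (conjBy_conjBy conjBy_one conjBy_of_mem conjBy_of_mem_normalizer
  mem_normalizer_of_conjBy inf_normalizer_eq_bot eq_of_conjBy_eq)
open Cfsg.Agent.S5028 (mem_conjBy comm_of_comm_bot)
open Cfsg.Agent.S5025 (nonisolated mem_normalizer_of_comm comm_case not_comm_of_pair)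
open Cfsg.Agent.S5029 (exists_ne_one case_absurd kappa_surj kappa_inj mem_sup_comm
  mem_conj_of_case conj_le_of_case rank_one_absurd)
open Cfsg.Agent.S5032 (conj_pair)
open Cfsg.Agent.Lib.helper25 (rankOne_B_conj unipotentSubgroups_eq unipotentSubgroups_conj
  self_mem_unipotentSubgroups rankOneOrbit)

variable {G : Type*} [Group G]

lemma closure_swap (K : Subgroup G) (x : G) :
    Subgroup.closure ((fun y : G => x * y * x⁻¹ * y⁻¹) '' (K : Set G)) =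
      Subgroup.closure ((fun y : G => y * x * y⁻¹ * x⁻¹) '' (K : Set G)) := by
  apply le_antisymm
  · rw [Subgroup.closure_le]
    rintro _ ⟨y, hy, rfl⟩
    have h1 : y * x * y⁻¹ * x⁻¹ ∈
        Subgroup.closure ((fun y : G => y * x * y⁻¹ * x⁻¹) '' (K : Set G)) :=
      Subgroup.subset_closure ⟨y, hy, rfl⟩
    have h2 : x * y * x⁻¹ * y⁻¹ = (y * x * y⁻¹ * x⁻¹)⁻¹ := by group
    show x * y * x⁻¹ * y⁻¹ ∈ _
    rw [h2]; exact Subgroup.inv_mem _ h1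
  · rw [Subgroup.closure_le]
    rintro _ ⟨y, hy, rfl⟩
    have h1 : x * y * x⁻¹ * y⁻¹ ∈
        Subgroup.closure ((fun y : G => x * y * x⁻¹ * y⁻¹) '' (K : Set G)) :=
      Subgroup.subset_closure ⟨y, hy, rfl⟩
    have h2 : y * x * y⁻¹ * x⁻¹ = (x * y * x⁻¹ * y⁻¹)⁻¹ := by group
    show y * x * y⁻¹ * x⁻¹ ∈ _
    rw [h2]; exact Subgroup.inv_mem _ h1

lemma case_symm {S : Set (Subgroup G)} {A B : Subgroup G} (h : RootCommutatorCase S A B) :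
    RootCommutatorCase S B A := by
  obtain ⟨hmem, hcent, hcl1, hcl2⟩ := h
  refine ⟨?_, ?_, ?_, ?_⟩
  · rw [Subgroup.commutator_comm]; exact hmem
  · intro c hc x hx
    rw [Subgroup.commutator_comm] at hc
    rw [sup_comm] at hx
    exact hcent c hc x hx
  · intro b hb hb1
    rw [closure_swap A b, hcl2 b hb hb1, Subgroup.commutator_comm]
  · intro a ha ha1
    rw [← closure_swap B a, hcl1 a ha ha1, Subgroup.commutator_comm]

/-- the configuration of the statement: data extracted once -/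
structure Conf (S : Set (Subgroup G)) (A B D : Subgroup G) : Prop where
  hS : IsRootSubgroupSet S
  hA : A ∈ S
  hB : B ∈ S
  hD : D ∈ S
  hAB : RootCommutatorCase S A B
  hDC : RootCommutatorCase S D ⁅A, B⁆
  hDCA : ⁅D, ⁅A, B⁆⁆ = A

namespace Conf

variable {S : Set (Subgroup G)} {A B D : Subgroup G}

lemma cA (h : Conf S A B D) : ∀ c ∈ ⁅A, B⁆, ∀ a ∈ A, c * a = a * c :=
  fun c hc a ha => h.hAB.2.1 c hc a (Subgroup.mem_sup_left ha)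

lemma cB (h : Conf S A B D) : ∀ c ∈ ⁅A, B⁆, ∀ b ∈ B, c * b = b * c :=
  fun c hc b hb => h.hAB.2.1 c hc b (Subgroup.mem_sup_right hb)

lemma aD (h : Conf S A B D) : ∀ a ∈ A, ∀ d ∈ D, a * d = d * a := by
  intro a ha d hd
  have ha' : a ∈ ⁅D, ⁅A, B⁆⁆ := by rw [h.hDCA]; exact ha
  exact h.hDC.2.1 a ha' d (Subgroup.mem_sup_left hd)

lemma inf_bot (h : Conf S A B D) : A ⊓ ⁅A, B⁆ = ⊥ := by
  rw [Subgroup.eq_bot_iff_forall]
  rintro x ⟨hxA, hxC⟩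
  by_contra hx1
  have h1 := h.hAB.2.2.1 x hxA hx1
  have h2 : Subgroup.closure ((fun b : G => x * b * x⁻¹ * b⁻¹) '' (B : Set G)) = ⊥ := by
    rw [Subgroup.closure_eq_bot_iff]
    rintro _ ⟨b, hb, rfl⟩
    show x * b * x⁻¹ * b⁻¹ = 1
    rw [h.cB x hxC b hb]; group
  rw [h2] at h1
  exact h.hS.ne_bot _ h.hAB.1 h1.symm

/-- `B` normalizes `N = A ⊔ C`. -/
lemma bN (h : Conf S A B D) : ∀ b ∈ B, ∀ n ∈ A ⊔ ⁅A, B⁆, b * n * b⁻¹ ∈ A ⊔ ⁅A, B⁆ := by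
  intro b hb n hn
  obtain ⟨a, ha, c, hc, rfl⟩ := mem_sup_comm (fun a ha c hc => (h.cA c hc a ha).symm) hn
  have h1 : b * a * b⁻¹ ∈ A ⊔ ⁅A, B⁆ := by
    apply conj_le_of_case hb
    rw [mem_conjBy]
    have : b⁻¹ * (b * a * b⁻¹) * b = a := by group
    rw [this]; exact ha
  have h2 : b * (a * c) * b⁻¹ = (b * a * b⁻¹) * c := by
    calc b * (a * c) * b⁻¹ = (b * a * b⁻¹) * (b * c) * b⁻¹ := by group
      _ = (b * a * b⁻¹) * (c * b) * b⁻¹ := by rw [h.cB c hc b hb]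
      _ = (b * a * b⁻¹) * c := by group
  rw [h2]
  exact Subgroup.mul_mem _ h1 (Subgroup.mem_sup_right hc)

/-- `D` normalizes `N = A ⊔ C`. -/
lemma dN (h : Conf S A B D) : ∀ d ∈ D, ∀ n ∈ A ⊔ ⁅A, B⁆, d * n * d⁻¹ ∈ A ⊔ ⁅A, B⁆ := by
  intro d hd n hn
  obtain ⟨a, ha, c, hc, rfl⟩ := mem_sup_comm (fun a ha c hc => (h.cA c hc a ha).symm) hn
  have h1 : d * c * d⁻¹ ∈ A ⊔ ⁅A, B⁆ := by
    have h3 : conjBy ⁅A, B⁆ d ≤ ⁅A, B⁆ ⊔ ⁅⁅A, B⁆, D⁆ := conj_le_of_case hd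
    rw [Subgroup.commutator_comm ⁅A, B⁆ D, h.hDCA, sup_comm] at h3
    apply h3
    rw [mem_conjBy]
    have : d⁻¹ * (d * c * d⁻¹) * d = c := by group
    rw [this]; exact hc
  have h2 : d * (a * c) * d⁻¹ = a * (d * c * d⁻¹) := by
    calc d * (a * c) * d⁻¹ = (d * a) * c * d⁻¹ := by group
      _ = (a * d) * c * d⁻¹ := by rw [h.aD a ha d hd]
      _ = a * (d * c * d⁻¹) := by group
  rw [h2]
  exact Subgroup.mul_mem _ (Subgroup.mem_sup_left ha) h1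

/-- `κ(d, n) ∈ A` for `n ∈ N`. -/
lemma kdN (h : Conf S A B D) : ∀ d ∈ D, ∀ n ∈ A ⊔ ⁅A, B⁆, d * n * d⁻¹ * n⁻¹ ∈ A := by
  intro d hd n hn
  obtain ⟨a, ha, c, hc, rfl⟩ := mem_sup_comm (fun a ha c hc => (h.cA c hc a ha).symm) hn
  have h1 : d * c * d⁻¹ * c⁻¹ ∈ A := by
    have : d * c * d⁻¹ * c⁻¹ ∈ ⁅D, ⁅A, B⁆⁆ := Subgroup.commutator_mem_commutator hd hc
    rwa [h.hDCA] at this
  have h2 : d * (a * c) * d⁻¹ * (a * c)⁻¹ = a * (d * c * d⁻¹ * c⁻¹) * a⁻¹ := by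
    calc d * (a * c) * d⁻¹ * (a * c)⁻¹ = (d * a) * c * d⁻¹ * c⁻¹ * a⁻¹ := by group
      _ = (a * d) * c * d⁻¹ * c⁻¹ * a⁻¹ := by rw [h.aD a ha d hd]
      _ = a * (d * c * d⁻¹ * c⁻¹) * a⁻¹ := by group
  rw [h2]
  exact A.mul_mem (A.mul_mem ha h1) (A.inv_mem ha)

/-- The pair `(B, D)` is not in the commutator case. -/
lemma not_case (h : Conf S A B D) (hBD : RootCommutatorCase S B D) : False := by
  obtain ⟨b, hb, hb1⟩ := exists_ne_one h.hS h.hB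
  obtain ⟨d, hd, hd1⟩ := exists_ne_one h.hS h.hD
  have he : b * d * b⁻¹ * d⁻¹ ∈ ⁅B, D⁆ := Subgroup.commutator_mem_commutator hb hd
  have hed : (b * d * b⁻¹ * d⁻¹) * d = d * (b * d * b⁻¹ * d⁻¹) :=
    hBD.2.1 _ he d (Subgroup.mem_sup_right hd)
  obtain ⟨e, hee⟩ : ∃ e : G, e = b * d * b⁻¹ * d⁻¹ := ⟨_, rfl⟩
  rw [← hee] at hed
  -- `e` normalizes `N`
  have heN : ∀ n ∈ A ⊔ ⁅A, B⁆, e * n * e⁻¹ ∈ A ⊔ ⁅A, B⁆ := by
    intro n hn
    have h1 := h.dN d⁻¹ (D.inv_mem hd) n hn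
    have h2 := h.bN b⁻¹ (B.inv_mem hb) _ h1
    have h3 := h.dN d hd _ h2
    have h4 := h.bN b hb _ h3
    have e1 : e * n * e⁻¹ = b * (d * (b⁻¹ * (d⁻¹ * n * d⁻¹⁻¹) * b⁻¹⁻¹) * d⁻¹) * b⁻¹ := by
      rw [hee]; group
    rw [e1]; exact h4
  -- `e` normalizes `A`
  have heA : ∀ a ∈ A, e * a * e⁻¹ ∈ A := by
    intro a ha
    have ha' : a ∈ ⁅D, ⁅A, B⁆⁆ := by rw [h.hDCA]; exact ha
    obtain ⟨c, hc, hca⟩ := kappa_surj h.hDC hd hd1 a ha'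
    have h1 := h.kdN d hd _ (heN c (Subgroup.mem_sup_right hc))
    have hed' : e * d⁻¹ = d⁻¹ * e := by
      calc e * d⁻¹ = d⁻¹ * (d * e) * d⁻¹ := by group
        _ = d⁻¹ * (e * d) * d⁻¹ := by rw [hed]
        _ = d⁻¹ * e := by group
    have e1 : e * a * e⁻¹ = d * (e * c * e⁻¹) * d⁻¹ * (e * c * e⁻¹)⁻¹ := by
      rw [← hca]
      calc e * (d * c * d⁻¹ * c⁻¹) * e⁻¹ = (e * d) * c * d⁻¹ * c⁻¹ * e⁻¹ := by group
        _ = (d * e) * c * d⁻¹ * c⁻¹ * e⁻¹ := by rw [hed]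
        _ = d * e * c * (e⁻¹ * (e * d⁻¹)) * c⁻¹ * e⁻¹ := by group
        _ = d * e * c * (e⁻¹ * (d⁻¹ * e)) * c⁻¹ * e⁻¹ := by rw [hed']
        _ = d * (e * c * e⁻¹) * d⁻¹ * (e * c * e⁻¹)⁻¹ := by group
    rw [e1]; exact h1
  -- `b d b⁻¹` normalizes `A`
  have hbdA : ∀ a ∈ A, (b * d * b⁻¹) * a * (b * d * b⁻¹)⁻¹ ∈ A := by
    intro a ha
    have e1 : (b * d * b⁻¹) * a * (b * d * b⁻¹)⁻¹ = e * (d * a * d⁻¹) * e⁻¹ := by
      rw [hee]; group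
    have e2 : d * a * d⁻¹ = a := by rw [← h.aD a ha d hd]; group
    rw [e1, e2]; exact heA a ha
  -- every element of `A` lies in `conjBy A b⁻¹`
  have hall : ∀ a₀ ∈ A, b * a₀ * b⁻¹ ∈ A := by
    intro a₀ ha₀
    have ha₀' : a₀ ∈ ⁅D, ⁅A, B⁆⁆ := by rw [h.hDCA]; exact ha₀
    obtain ⟨c, hc, hca⟩ := kappa_surj h.hDC hd hd1 a₀ ha₀'
    have hc' : c ∈ ⁅B, A⁆ := by rw [Subgroup.commutator_comm]; exact hc
    obtain ⟨a, ha, hac⟩ := kappa_surj (case_symm h.hAB) (B.inv_mem hb) (inv_ne_one.mpr hb1) c hc'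
    rw [inv_inv] at hac
    -- hac : b⁻¹ * a * b * a⁻¹ = c ; hca : d * c * d⁻¹ * c⁻¹ = a₀
    have h1 := hbdA a ha
    have h2 : b * a₀ * b⁻¹ = ((b * d * b⁻¹) * a * (b * d * b⁻¹)⁻¹) * a⁻¹ := by
      rw [← hca, ← hac]
      have e3 : d * a = a * d := (h.aD a ha d hd).symm
      have e4 : d⁻¹ * a⁻¹ = a⁻¹ * d⁻¹ := by
        calc d⁻¹ * a⁻¹ = (a * d)⁻¹ := by group
          _ = (d * a)⁻¹ := by rw [e3]
          _ = a⁻¹ * d⁻¹ := by group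
      calc b * (d * (b⁻¹ * a * b * a⁻¹) * d⁻¹ * (b⁻¹ * a * b * a⁻¹)⁻¹) * b⁻¹
          = b * d * b⁻¹ * a * b * (a⁻¹ * d⁻¹) * a * b⁻¹ * a⁻¹ := by group
        _ = b * d * b⁻¹ * a * b * (d⁻¹ * a⁻¹) * a * b⁻¹ * a⁻¹ := by rw [e4]
        _ = ((b * d * b⁻¹) * a * (b * d * b⁻¹)⁻¹) * a⁻¹ := by group
    rw [h2]; exact A.mul_mem h1 (A.inv_mem ha)
  -- hence `b` centralizes `A`
  have hbA : ∀ a ∈ A, a * b * a⁻¹ * b⁻¹ = 1 := by
    intro a ha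
    have h1 : a * b * a⁻¹ * b⁻¹ ∈ A ⊓ ⁅A, B⁆ := by
      refine ⟨?_, Subgroup.commutator_mem_commutator ha hb⟩
      have h2 := hall a⁻¹ (A.inv_mem ha)
      have : a * b * a⁻¹ * b⁻¹ = a * (b * a⁻¹ * b⁻¹) := by group
      rw [this]; exact A.mul_mem ha h2
    rw [h.inf_bot, Subgroup.mem_bot] at h1
    exact h1
  have h3 : Subgroup.closure ((fun a : G => a * b * a⁻¹ * b⁻¹) '' (A : Set G)) = ⊥ := by
    rw [Subgroup.closure_eq_bot_iff]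
    rintro _ ⟨a, ha, rfl⟩
    exact hbA a ha
  rw [h.hAB.2.2.2 b hb hb1] at h3
  exact h.hS.ne_bot _ h.hAB.1 h3


lemma pairBD (h : Conf S A B D) : IsRankOnePair B D := by
  rcases h.hS.pair B h.hB D h.hD with h1 | h1 | h1
  · exfalso
    obtain ⟨a, ha, ha1⟩ := exists_ne_one h.hS h.hA
    obtain ⟨c, hc, hc1⟩ := exists_ne_one h.hS h.hAB.1
    obtain ⟨b, hb, hbc⟩ := kappa_surj h.hAB ha ha1 c hc
    have ha' : a ∈ ⁅⁅A, B⁆, D⁆ := by rw [Subgroup.commutator_comm, h.hDCA]; exact ha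
    obtain ⟨d, hd, hda⟩ := kappa_surj (case_symm h.hDC) hc hc1 a ha'
    apply ha1
    rw [← hda]
    have c1 : Commute a d := h.aD a ha d hd
    have c2 : Commute b d := comm_of_comm_bot h1 b hb d hd
    have e3 : c * d = d * c := by
      rw [← hbc]
      exact (((c1.mul_left c2).mul_left c1.inv_left).mul_left c2.inv_left).eq
    rw [e3]; group
  · exact h1
  · exact (h.not_case h1).elim

lemma inj1 (h : Conf S A B D) (hp : IsRankOnePair B D) :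
    ∀ b ∈ B, b ≠ 1 → ∀ a ∈ A, b * a = a * b → a = 1 :=
  fun _ hb hb1 _ ha hab =>
    kappa_inj h.hS (nonisolated h.hB h.hD hp) h.hB (case_symm h.hAB) hb hb1 ha hab

lemma inj2 (h : Conf S A B D) (hp : IsRankOnePair B D) :
    ∀ d ∈ D, d ≠ 1 → ∀ c ∈ ⁅A, B⁆, d * c = c * d → c = 1 :=
  fun _ hd hd1 _ hc hdc =>
    kappa_inj h.hS (nonisolated h.hD h.hB (RankOnePair_symm hp)) h.hD h.hDC hd hd1 hc hdc

end Conf

lemma half_rel {P Q F F' : Subgroup G}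
    (hFF' : ∀ f ∈ F, ∀ f' ∈ F', f * f' = f' * f)
    (hPF' : ∀ p ∈ P, ∀ f' ∈ F', p * f' = f' * p)
    (hQF : ∀ q ∈ Q, ∀ f ∈ F, q * f = f * q)
    (hPN : ∀ p ∈ P, ∀ n ∈ F ⊔ F', p * n * p⁻¹ ∈ F ⊔ F')
    (hQN : ∀ q ∈ Q, ∀ n ∈ F ⊔ F', q * n * q⁻¹ ∈ F ⊔ F')
    (hI : ∀ p ∈ P, p ≠ 1 → ∀ f ∈ F, p * f = f * p → f = 1)
    {p q : G} (hp : p ∈ P) (hp1 : p ≠ 1) (hq : q ∈ Q) (hrel : conjBy P q⁻¹ = conjBy Q p⁻¹) :
    conjBy F p⁻¹ ≤ conjBy F' q⁻¹ := by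
  intro x hx
  rw [mem_conjBy, inv_inv] at hx ⊢
  have hxN : x ∈ F ⊔ F' := by
    have := hPN p⁻¹ (P.inv_mem hp) _ (Subgroup.mem_sup_left hx)
    have e : p⁻¹ * (p * x * p⁻¹) * p⁻¹⁻¹ = x := by group
    rwa [e] at this
  have hnN := hQN q hq x hxN
  obtain ⟨f₁, hf₁, f₁', hf₁', hn⟩ := mem_sup_comm hFF' hnN
  have hq₁ : p * (q⁻¹ * p * q) * p⁻¹ ∈ Q := by
    have h1 : q⁻¹ * p * q ∈ conjBy P q⁻¹ := by
      rw [mem_conjBy]
      have : (q⁻¹)⁻¹ * (q⁻¹ * p * q) * q⁻¹ = p := by group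
      rw [this]; exact hp
    rw [hrel, mem_conjBy, inv_inv] at h1
    exact h1
  have h2 := hQF _ hq₁ _ hx
  have h4 : (q⁻¹ * p * q) * x = x * (q⁻¹ * p * q) := by
    have h5 : p * ((q⁻¹ * p * q) * x) * p⁻¹ = p * (x * (q⁻¹ * p * q)) * p⁻¹ := by
      calc p * ((q⁻¹ * p * q) * x) * p⁻¹
          = (p * (q⁻¹ * p * q) * p⁻¹) * (p * x * p⁻¹) := by group
        _ = (p * x * p⁻¹) * (p * (q⁻¹ * p * q) * p⁻¹) := h2
        _ = p * (x * (q⁻¹ * p * q)) * p⁻¹ := by group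
    exact mul_left_cancel (mul_right_cancel h5)
  have h3 : (q * x * q⁻¹) * p = p * (q * x * q⁻¹) := by
    calc (q * x * q⁻¹) * p = q * (x * (q⁻¹ * p * q)) * q⁻¹ := by group
      _ = q * ((q⁻¹ * p * q) * x) * q⁻¹ := by rw [h4]
      _ = p * (q * x * q⁻¹) := by group
  have h6 : p * f₁ = f₁ * p := by
    have e1 := hPF' p hp f₁' hf₁'
    rw [hn] at h3
    have h7 : (p * f₁) * f₁' = (f₁ * p) * f₁' := by
      calc (p * f₁) * f₁' = p * (f₁ * f₁') := by group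
        _ = (f₁ * f₁') * p := h3.symm
        _ = f₁ * (f₁' * p) := by group
        _ = f₁ * (p * f₁') := by rw [e1]
        _ = (f₁ * p) * f₁' := by group
    exact mul_right_cancel h7
  have hf₁1 : f₁ = 1 := hI p hp hp1 f₁ hf₁ h6
  rw [hn, hf₁1, one_mul]
  exact hf₁'

lemma central_aux {P Q F F' : Subgroup G} (hPQ : IsRankOnePair P Q)
    (hPF : ∀ p ∈ P, ∀ f ∈ F, p * f = f * p)
    (hJ : ∀ q ∈ Q, q ≠ 1 → ∀ f ∈ F, q * f = f * q → f = 1)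
    (hK : ∀ p ∈ P, p ≠ 1 → ∀ f' ∈ F', p * f' = f' * p → f' = 1)
    (hF : ∃ f ∈ F, f ≠ 1) (hF' : ∃ f' ∈ F', f' ≠ 1) (hQ : ∃ q ∈ Q, q ≠ 1)
    (hPN : ∀ p ∈ P, ∀ n ∈ F ⊔ F', p * n * p⁻¹ ∈ F ⊔ F')
    {x : G} (hx : x ∈ P ⊔ Q) (hxN : ∀ n ∈ F ⊔ F', x * n = n * x) :
    ∀ p ∈ P, x * p = p * x := by
  have hxP : conjBy P x = P := by
    have h1 : conjBy P x ∈ rankOneOrbit P Q := by
      rw [← unipotentSubgroups_eq hPQ]
      exact unipotentSubgroups_conj (self_mem_unipotentSubgroups P Q) hx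
    rcases h1 with h1 | ⟨p', hp', h1⟩
    · exact h1
    · exfalso
      obtain ⟨f, hf, hf1⟩ := hF
      obtain ⟨q, hq, hq1⟩ := hQ
      have h2 : p' * q * p'⁻¹ ∈ conjBy P x := by
        rw [h1, mem_conjBy]
        have : p'⁻¹ * (p' * q * p'⁻¹) * p' = q := by group
        rw [this]; exact hq
      rw [mem_conjBy] at h2
      have c1 : Commute x f := hxN f (Subgroup.mem_sup_left hf)
      have c2 : Commute p' f := hPF p' hp' f hf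
      have c3 : Commute (x⁻¹ * (p' * q * p'⁻¹) * x) f := hPF _ h2 f hf
      have c4 : Commute (p' * q * p'⁻¹) f := by
        have e : p' * q * p'⁻¹ = x * (x⁻¹ * (p' * q * p'⁻¹) * x) * x⁻¹ := by group
        rw [e]
        exact (c1.mul_left c3).mul_left c1.inv_left
      have c5 : Commute (p'⁻¹ * (p' * q * p'⁻¹) * p') f := (c2.inv_left.mul_left c4).mul_left c2
      have e5 : p'⁻¹ * (p' * q * p'⁻¹) * p' = q := by group
      rw [e5] at c5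
      exact hf1 (hJ q hq hq1 f hf c5.eq)
  intro p hp
  obtain ⟨f', hf', hf'1⟩ := hF'
  have hp₀ : x * p * x⁻¹ * p⁻¹ ∈ P := by
    have h1 : x * p * x⁻¹ ∈ conjBy P x := by
      rw [mem_conjBy]
      have : x⁻¹ * (x * p * x⁻¹) * x = p := by group
      rw [this]; exact hp
    rw [hxP] at h1
    exact P.mul_mem h1 (P.inv_mem hp)
  have hn' : p⁻¹ * f' * p⁻¹⁻¹ ∈ F ⊔ F' := hPN p⁻¹ (P.inv_mem hp) f' (Subgroup.mem_sup_right hf')
  have c6 : Commute x⁻¹ (p⁻¹ * f' * p⁻¹⁻¹) :=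
    (show Commute x (p⁻¹ * f' * p⁻¹⁻¹) from hxN _ hn').inv_left
  have c7 : Commute (p * x⁻¹ * p⁻¹) f' := by
    have e := c6.eq
    show p * x⁻¹ * p⁻¹ * f' = f' * (p * x⁻¹ * p⁻¹)
    calc p * x⁻¹ * p⁻¹ * f' = p * (x⁻¹ * (p⁻¹ * f' * p⁻¹⁻¹)) * p⁻¹ := by group
      _ = p * ((p⁻¹ * f' * p⁻¹⁻¹) * x⁻¹) * p⁻¹ := by rw [e]
      _ = f' * (p * x⁻¹ * p⁻¹) := by group
  have c8 : Commute (x * p * x⁻¹ * p⁻¹) f' := by
    have e : x * p * x⁻¹ * p⁻¹ = x * (p * x⁻¹ * p⁻¹) := by group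
    rw [e]
    exact (show Commute x f' from hxN f' (Subgroup.mem_sup_right hf')).mul_left c7
  have hp₀1 : x * p * x⁻¹ * p⁻¹ = 1 := by
    by_contra hne
    exact hf'1 (hK _ hp₀ hne f' hf' c8.eq)
  calc x * p = (x * p * x⁻¹ * p⁻¹) * (p * x) := by group
    _ = p * x := by rw [hp₀1, one_mul]

/-- the family `A^B ∪ {C}` -/
abbrev LL (A B : Subgroup G) : Set (Subgroup G) :=
  (fun b : G => conjBy A b) '' (B : Set G) ∪ {⁅A, B⁆}

/-- the family `C^D ∪ {A}` -/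
abbrev LL' (A B D : Subgroup G) : Set (Subgroup G) :=
  (fun d : G => conjBy ⁅A, B⁆ d) '' (D : Set G) ∪ {A}

namespace Conf

variable {S : Set (Subgroup G)} {A B D : Subgroup G}

lemma key_rel (h : Conf S A B D) (hp : IsRankOnePair B D) {b d : G} (hb : b ∈ B) (hb1 : b ≠ 1)
    (hd : d ∈ D) (hd1 : d ≠ 1) (hrel : conjBy B d⁻¹ = conjBy D b⁻¹) :
    conjBy A b⁻¹ = conjBy ⁅A, B⁆ d⁻¹ := by
  apply le_antisymm
  · exact half_rel (P := B) (Q := D) (F := A) (F' := ⁅A, B⁆)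
      (fun a ha c hc => (h.cA c hc a ha).symm)
      (fun b hb c hc => (h.cB c hc b hb).symm)
      (fun d hd a ha => (h.aD a ha d hd).symm)
      h.bN h.dN (h.inj1 hp) hb hb1 hd hrel
  · have hN' : ∀ (K : Subgroup G),
        (∀ k ∈ K, ∀ n ∈ A ⊔ ⁅A, B⁆, k * n * k⁻¹ ∈ A ⊔ ⁅A, B⁆) →
        ∀ k ∈ K, ∀ n ∈ ⁅A, B⁆ ⊔ A, k * n * k⁻¹ ∈ ⁅A, B⁆ ⊔ A := by
      intro K hK k hk n hn
      rw [sup_comm] at hn ⊢
      exact hK k hk n hn
    exact half_rel (P := D) (Q := B) (F := ⁅A, B⁆) (F' := A)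
      (fun c hc a ha => h.cA c hc a ha)
      (fun d hd a ha => (h.aD a ha d hd).symm)
      (fun b hb c hc => (h.cB c hc b hb).symm)
      (hN' D h.dN) (hN' B h.bN) (h.inj2 hp) hd hd1 hb hrel.symm

lemma L_eq (h : Conf S A B D) (hp : IsRankOnePair B D) : LL A B = LL' A B D := by
  ext T
  constructor
  · rintro (⟨b, hb, rfl⟩ | hT)
    · by_cases hb1 : b = 1
      · right
        show conjBy A b = A
        rw [hb1, conjBy_one]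
      · obtain ⟨d, hd, hd1, hrel⟩ := hp.cond_left b⁻¹ (B.inv_mem hb) (inv_ne_one.mpr hb1)
        have h1 := h.key_rel hp (B.inv_mem hb) (inv_ne_one.mpr hb1) hd hd1 hrel
        rw [inv_inv] at h1
        left
        exact ⟨d⁻¹, D.inv_mem hd, h1.symm⟩
    · left
      rw [Set.mem_singleton_iff] at hT
      exact ⟨1, D.one_mem, by rw [hT]; exact conjBy_one _⟩
  · rintro (⟨d, hd, rfl⟩ | hT)
    · by_cases hd1 : d = 1
      · right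
        show conjBy ⁅A, B⁆ d = ⁅A, B⁆
        rw [hd1, conjBy_one]
      · obtain ⟨b, hb, hb1, hrel⟩ := hp.cond_right d⁻¹ (D.inv_mem hd) (inv_ne_one.mpr hd1)
        have h1 := h.key_rel hp hb hb1 (D.inv_mem hd) (inv_ne_one.mpr hd1) hrel.symm
        rw [inv_inv] at h1
        left
        exact ⟨b⁻¹, B.inv_mem hb, h1⟩
    · left
      rw [Set.mem_singleton_iff] at hT
      exact ⟨1, B.one_mem, by rw [hT]; exact conjBy_one _⟩

lemma C_conj (h : Conf S A B D) (hp : IsRankOnePair B D) :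
    ∃ x ∈ B ⊔ D, ⁅A, B⁆ = conjBy A x := by
  obtain ⟨b, hb, hb1⟩ := exists_ne_one h.hS h.hB
  obtain ⟨d, hd, hd1, hrel⟩ := hp.cond_left b hb hb1
  have h1 := h.key_rel hp hb hb1 hd hd1 hrel
  refine ⟨d * b⁻¹, Subgroup.mul_mem _ (Subgroup.mem_sup_right hd)
    (Subgroup.mem_sup_left (B.inv_mem hb)), ?_⟩
  rw [← conjBy_conjBy, h1, conjBy_conjBy, mul_inv_cancel, conjBy_one]

lemma orbit_eq (h : Conf S A B D) (hp : IsRankOnePair B D) :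
    {E | ∃ x ∈ B ⊔ D, E = conjBy A x} = LL A B := by
  have hBinv : ∀ x ∈ B, ∀ T ∈ LL A B, conjBy T x ∈ LL A B := by
    rintro x hx T (⟨b, hb, rfl⟩ | hT)
    · left
      exact ⟨x * b, B.mul_mem hx hb, (conjBy_conjBy A b x).symm⟩
    · right
      rw [Set.mem_singleton_iff] at hT ⊢
      rw [hT]
      exact conjBy_of_mem_normalizer _ (mem_normalizer_of_comm (fun c hc => h.cB c hc x hx))
  have hDinv : ∀ x ∈ D, ∀ T ∈ LL A B, conjBy T x ∈ LL A B := by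
    intro x hx T hT
    rw [h.L_eq hp] at hT ⊢
    rcases hT with ⟨d, hd, rfl⟩ | hT
    · left
      exact ⟨x * d, D.mul_mem hx hd, (conjBy_conjBy _ d x).symm⟩
    · right
      rw [Set.mem_singleton_iff] at hT ⊢
      rw [hT]
      exact conjBy_of_mem_normalizer _ (mem_normalizer_of_comm (fun a ha => h.aD a ha x hx))
  have hinv : ∀ x ∈ B ⊔ D, ∀ T ∈ LL A B, conjBy T x ∈ LL A B ∧ conjBy T x⁻¹ ∈ LL A B := by
    intro x hx
    rw [Subgroup.sup_eq_closure] at hx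
    refine Subgroup.closure_induction
      (p := fun x _ => ∀ T ∈ LL A B, conjBy T x ∈ LL A B ∧ conjBy T x⁻¹ ∈ LL A B) ?_ ?_ ?_ ?_ hx
    · rintro y (hy | hy) T hT
      · exact ⟨hBinv y hy T hT, hBinv y⁻¹ (B.inv_mem hy) T hT⟩
      · exact ⟨hDinv y hy T hT, hDinv y⁻¹ (D.inv_mem hy) T hT⟩
    · intro T hT
      rw [inv_one, conjBy_one]
      exact ⟨hT, hT⟩
    · intro y z _ _ hy hz T hT
      refine ⟨?_, ?_⟩
      · rw [← conjBy_conjBy]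
        exact (hy _ (hz T hT).1).1
      · rw [mul_inv_rev, ← conjBy_conjBy]
        exact (hz _ (hy T hT).2).2
    · intro y _ hy T hT
      rw [inv_inv]
      exact ⟨(hy T hT).2, (hy T hT).1⟩
  ext E
  constructor
  · rintro ⟨x, hx, rfl⟩
    exact (hinv x hx A (Or.inl ⟨1, B.one_mem, conjBy_one A⟩)).1
  · rintro (⟨b, hb, rfl⟩ | hE)
    · exact ⟨b, Subgroup.mem_sup_left hb, rfl⟩
    · rw [Set.mem_singleton_iff] at hE
      rw [hE]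
      exact h.C_conj hp

lemma orbit_C (h : Conf S A B D) (hp : IsRankOnePair B D) :
    {E | ∃ x ∈ B ⊔ D, E = conjBy A x} = {E | ∃ x ∈ B ⊔ D, E = conjBy ⁅A, B⁆ x} := by
  obtain ⟨x₀, hx₀, hC⟩ := h.C_conj hp
  ext E
  constructor
  · rintro ⟨x, hx, rfl⟩
    refine ⟨x * x₀⁻¹, Subgroup.mul_mem _ hx (Subgroup.inv_mem _ hx₀), ?_⟩
    rw [hC, conjBy_conjBy, inv_mul_cancel_right]
  · rintro ⟨x, hx, rfl⟩
    refine ⟨x * x₀, Subgroup.mul_mem _ hx hx₀, ?_⟩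
    rw [hC, conjBy_conjBy]

lemma part (h : Conf S A B D) (hp : IsRankOnePair B D) :
    IsSubgroupPartition (A ⊔ ⁅A, B⁆) (LL A B) := by
  have hcomm : ∀ a ∈ A, ∀ c ∈ ⁅A, B⁆, a * c = c * a := fun a ha c hc => (h.cA c hc a ha).symm
  refine ⟨?_, ?_, ?_⟩
  · rintro T (⟨b, hb, rfl⟩ | hT)
    · exact conj_le_of_case hb
    · rw [Set.mem_singleton_iff] at hT
      rw [hT]; exact le_sup_right
  · intro x hx hx1
    obtain ⟨a, ha, c, hc, rfl⟩ := mem_sup_comm hcomm hx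
    by_cases ha1 : a = 1
    · refine ⟨⁅A, B⁆, Or.inr rfl, ?_⟩
      rw [ha1, one_mul]; exact hc
    · obtain ⟨b, hb, hab⟩ := mem_conj_of_case h.hAB ha ha1 hc
      refine ⟨conjBy A b, Or.inl ⟨b, hb, rfl⟩, ?_⟩
      rw [hab, mem_conjBy]
      have : b⁻¹ * (b * a * b⁻¹) * b = a := by group
      rw [this]; exact ha
  · have h1 : ∀ b ∈ B, conjBy A b ⊓ ⁅A, B⁆ = ⊥ := by
      intro b hb
      rw [Subgroup.eq_bot_iff_forall]
      rintro x ⟨hx1, hx2⟩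
      have hx1' := mem_conjBy.mp hx1
      have e : b⁻¹ * x * b = x := by
        rw [mul_assoc, h.cB x hx2 b hb]; group
      rw [e] at hx1'
      have : x ∈ A ⊓ ⁅A, B⁆ := ⟨hx1', hx2⟩
      rw [h.inf_bot, Subgroup.mem_bot] at this
      exact this
    have h2 : ∀ b₁ ∈ B, ∀ b₂ ∈ B, conjBy A b₁ ≠ conjBy A b₂ →
        conjBy A b₁ ⊓ conjBy A b₂ = ⊥ := by
      intro b₁ hb₁ b₂ hb₂ hne
      rw [Subgroup.eq_bot_iff_forall]
      rintro x ⟨hx1, hx2⟩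
      have hx1' := mem_conjBy.mp hx1
      have hx2' := mem_conjBy.mp hx2
      by_contra hx
      have hg : b₂⁻¹ * b₁ ∈ B := B.mul_mem (B.inv_mem hb₂) hb₁
      have ha₁ : b₁⁻¹ * x * b₁ ≠ 1 := by
        intro h0
        apply hx
        have : x = b₁ * (b₁⁻¹ * x * b₁) * b₁⁻¹ := by group
        rw [this, h0]; group
      have hkA : (b₂⁻¹ * b₁) * (b₁⁻¹ * x * b₁) * (b₂⁻¹ * b₁)⁻¹ * (b₁⁻¹ * x * b₁)⁻¹ ∈ A := by
        have e : (b₂⁻¹ * b₁) * (b₁⁻¹ * x * b₁) * (b₂⁻¹ * b₁)⁻¹ = b₂⁻¹ * x * b₂ := by group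
        rw [e]; exact A.mul_mem hx2' (A.inv_mem hx1')
      have hkC : (b₂⁻¹ * b₁) * (b₁⁻¹ * x * b₁) * (b₂⁻¹ * b₁)⁻¹ * (b₁⁻¹ * x * b₁)⁻¹ ∈ ⁅A, B⁆ := by
        have := Subgroup.commutator_mem_commutator hg hx1'
        rw [Subgroup.commutator_comm] at this
        exact this
      have hk : (b₂⁻¹ * b₁) * (b₁⁻¹ * x * b₁) * (b₂⁻¹ * b₁)⁻¹ * (b₁⁻¹ * x * b₁)⁻¹ ∈
          A ⊓ ⁅A, B⁆ := ⟨hkA, hkC⟩
      rw [h.inf_bot, Subgroup.mem_bot] at hk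
      have hcomm' : (b₂⁻¹ * b₁) * (b₁⁻¹ * x * b₁) = (b₁⁻¹ * x * b₁) * (b₂⁻¹ * b₁) := by
        calc (b₂⁻¹ * b₁) * (b₁⁻¹ * x * b₁)
            = ((b₂⁻¹ * b₁) * (b₁⁻¹ * x * b₁) * (b₂⁻¹ * b₁)⁻¹ * (b₁⁻¹ * x * b₁)⁻¹) *
                ((b₁⁻¹ * x * b₁) * (b₂⁻¹ * b₁)) := by group
          _ = (b₁⁻¹ * x * b₁) * (b₂⁻¹ * b₁) := by rw [hk, one_mul]
      by_cases hg1 : b₂⁻¹ * b₁ = 1
      · apply hne
        have : b₂ = b₁ := inv_mul_eq_one.mp hg1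
        rw [this]
      · exact ha₁ (h.inj1 hp _ hg hg1 _ hx1' hcomm')
    rintro T₁ (⟨b₁, hb₁, rfl⟩ | hT₁) T₂ (⟨b₂, hb₂, rfl⟩ | hT₂) hne
    · exact h2 b₁ hb₁ b₂ hb₂ hne
    · rw [Set.mem_singleton_iff] at hT₂
      rw [hT₂]; exact h1 b₁ hb₁
    · rw [Set.mem_singleton_iff] at hT₁
      rw [hT₁, inf_comm]; exact h1 b₂ hb₂
    · rw [Set.mem_singleton_iff] at hT₁ hT₂
      exact absurd (hT₁.trans hT₂.symm) hne

lemma central (h : Conf S A B D) (hp : IsRankOnePair B D) :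
    ∀ x ∈ (B ⊔ D) ⊓ Subgroup.centralizer ((A ⊔ ⁅A, B⁆ : Subgroup G) : Set G),
      ∀ y ∈ B ⊔ D, x * y = y * x := by
  rintro x ⟨hx, hxc⟩
  have hxN : ∀ n ∈ A ⊔ ⁅A, B⁆, x * n = n * x :=
    fun n hn => (Subgroup.mem_centralizer_iff.mp hxc n hn).symm
  have hxN' : ∀ n ∈ ⁅A, B⁆ ⊔ A, x * n = n * x := by
    intro n hn
    rw [sup_comm] at hn
    exact hxN n hn
  have hbN' : ∀ k ∈ B, ∀ n ∈ ⁅A, B⁆ ⊔ A, k * n * k⁻¹ ∈ ⁅A, B⁆ ⊔ A := by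
    intro k hk n hn
    rw [sup_comm] at hn ⊢
    exact h.bN k hk n hn
  have hAne := exists_ne_one h.hS h.hA
  have hBne := exists_ne_one h.hS h.hB
  have hCne := exists_ne_one h.hS h.hAB.1
  have hDne := exists_ne_one h.hS h.hD
  have hB' : ∀ p ∈ B, x * p = p * x :=
    central_aux (P := B) (Q := D) (F := ⁅A, B⁆) (F' := A) hp
      (fun b hb c hc => (h.cB c hc b hb).symm) (h.inj2 hp) (h.inj1 hp) hCne hAne hDne hbN' hx hxN'
  have hD' : ∀ p ∈ D, x * p = p * x :=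
    central_aux (P := D) (Q := B) (F := A) (F' := ⁅A, B⁆) (RankOnePair_symm hp)
      (fun d hd a ha => (h.aD a ha d hd).symm) (h.inj1 hp) (h.inj2 hp) hAne hCne hBne h.dN
      (by rw [sup_comm]; exact hx) hxN
  have hle : B ⊔ D ≤ Subgroup.centralizer {x} := by
    refine sup_le ?_ ?_
    · intro y hy
      rw [Subgroup.mem_centralizer_singleton_iff]
      exact (hB' y hy).symm
    · intro y hy
      rw [Subgroup.mem_centralizer_singleton_iff]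
      exact (hD' y hy).symm
  intro y hy
  have := hle hy
  rw [Subgroup.mem_centralizer_singleton_iff] at this
  exact this.symm

end Conf

theorem result {G : Type*} [Group G] {S : Set (Subgroup G)} (hS : Cfsg.IsRootSubgroupSet S)
    {A B D : Subgroup G} (hA : A ∈ S) (hB : B ∈ S) (hC : ⁅A, B⁆ ∈ S) (hD : D ∈ S) (hDC : ⁅D, ⁅A, B⁆⁆ = A) :
    Cfsg.IsRankOnePair B D ∧
    {E | ∃ x ∈ B ⊔ D, E = Cfsg.conjBy A x} = {E | ∃ x ∈ B ⊔ D, E = Cfsg.conjBy ⁅A, B⁆ x} ∧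
    {E | ∃ x ∈ B ⊔ D, E = Cfsg.conjBy A x} = (fun b : G => Cfsg.conjBy A b) '' (B : Set G) ∪ {⁅A, B⁆} ∧
    {E | ∃ x ∈ B ⊔ D, E = Cfsg.conjBy A x} = (fun d : G => Cfsg.conjBy ⁅A, B⁆ d) '' (D : Set G) ∪ {A} ∧
    Cfsg.IsSubgroupPartition (A ⊔ ⁅A, B⁆) {E | ∃ x ∈ B ⊔ D, E = Cfsg.conjBy A x} ∧
    ∀ x ∈ (B ⊔ D) ⊓ Subgroup.centralizer ((A ⊔ ⁅A, B⁆ : Subgroup G) : Set G), ∀ y ∈ B ⊔ D, x * y = y * x := by
  have hAB : RootCommutatorCase S A B := by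
    rcases hS.pair A hA B hB with h | h | h
    · exact absurd h (hS.ne_bot _ hC)
    · exact (rank_one_absurd hS hA hB h hC).elim
    · exact h
  have hDCc : RootCommutatorCase S D ⁅A, B⁆ := by
    rcases hS.pair D hD _ hC with h | h | h
    · rw [hDC] at h; exact absurd h (hS.ne_bot _ hA)
    · exact (rank_one_absurd hS hD hC h (by rw [hDC]; exact hA)).elim
    · exact h
  have h : Conf S A B D := ⟨hS, hA, hB, hD, hAB, hDCc, hDC⟩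
  have hp := h.pairBD
  refine ⟨hp, h.orbit_C hp, h.orbit_eq hp, ?_, ?_, h.central hp⟩
  · rw [h.orbit_eq hp]; exact h.L_eq hp
  · rw [h.orbit_eq hp]; exact h.part hp

end Cfsg.Agent.S5036
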