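import Cfsg.Statements.S5030
import Cfsg.Agent.S5013
import Cfsg.Agent.S5025
import Cfsg.Agent.S5029
import Cfsg.Agent.S5036
import Mathlib
set_option autoImplicit false
open Cfsg
open scoped commutatorElement

namespace Cfsg.Agent.S5030

open Cfsg.Agent.S5028 (mem_conjBy conjBy_of_comm comm_of_comm_bot)
open Cfsg.Agent.S5029 (kappa_surj mem_sup_comm conj_le_of_case rank_one_absurd exists_ne_one)
open Cfsg.Agent.S5036 (case_symm)

variable {G : Type*} [Group G]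

/-- Elementwise commuting subgroups. -/
def CM (H K : Subgroup G) : Prop := ∀ h ∈ H, ∀ k ∈ K, h * k = k * h

lemma CM.symm {H K : Subgroup G} (h : CM H K) : CM K H := fun k hk x hx => (h x hx k hk).symm

lemma CM.sup_left {H₁ H₂ K : Subgroup G} (h₁ : CM H₁ K) (h₂ : CM H₂ K) : CM (H₁ ⊔ H₂) K := by
  intro x hx k hk
  have hle : H₁ ⊔ H₂ ≤ Subgroup.centralizer {k} :=
    sup_le (fun y hy => Subgroup.mem_centralizer_singleton_iff.mpr (h₁ y hy k hk))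
      (fun y hy => Subgroup.mem_centralizer_singleton_iff.mpr (h₂ y hy k hk))
  exact Subgroup.mem_centralizer_singleton_iff.mp (hle hx)

lemma CM.sup_right {H K₁ K₂ : Subgroup G} (h₁ : CM H K₁) (h₂ : CM H K₂) : CM H (K₁ ⊔ K₂) :=
  (CM.sup_left h₁.symm h₂.symm).symm

lemma CM.mono {H K H' K' : Subgroup G} (h : CM H K) (hH : H' ≤ H) (hK : K' ≤ K) : CM H' K' :=
  fun x hx y hy => h x (hH hx) y (hK hy)

lemma CM.of_bot {H K : Subgroup G} (h : H = ⊥) : CM H K := by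
  intro x hx k hk
  rw [h, Subgroup.mem_bot] at hx
  rw [hx, one_mul, mul_one]

lemma CM.comm_bot {H K : Subgroup G} (h : CM H K) : ⁅H, K⁆ = ⊥ := by
  rw [Subgroup.commutator_eq_bot_iff_le_centralizer]
  intro x hx
  rw [Subgroup.mem_centralizer_iff]
  intro k hk
  exact (h x hx k hk).symm

lemma CM.of_comm_bot {H K : Subgroup G} (h : ⁅H, K⁆ = ⊥) : CM H K := comm_of_comm_bot h

lemma CM.conj {H K : Subgroup G} (h : CM H K) (g : G) : CM (conjBy H g) (conjBy K g) := by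
  intro x hx y hy
  rw [mem_conjBy] at hx hy
  have := h _ hx _ hy
  calc x * y = g * ((g⁻¹ * x * g) * (g⁻¹ * y * g)) * g⁻¹ := by group
    _ = g * ((g⁻¹ * y * g) * (g⁻¹ * x * g)) * g⁻¹ := by rw [this]
    _ = y * x := by group

lemma CM.commutator {K H₁ H₂ : Subgroup G} (h₁ : CM K H₁) (h₂ : CM K H₂) : CM K ⁅H₁, H₂⁆ := by
  intro k hk w hw
  have hle : ⁅H₁, H₂⁆ ≤ Subgroup.centralizer {k} := by
    rw [Subgroup.commutator_le]
    intro x hx y hy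
    rw [Subgroup.mem_centralizer_singleton_iff, commutatorElement_def]
    have c1 : Commute k x := h₁ k hk x hx
    have c2 : Commute k y := h₂ k hk y hy
    exact (((c1.mul_right c2).mul_right c1.inv_right).mul_right c2.inv_right).eq.symm
  exact (Subgroup.mem_centralizer_singleton_iff.mp (hle hw)).symm

lemma commutator_le_sup' (H K : Subgroup G) : ⁅H, K⁆ ≤ H ⊔ K := by
  rw [Subgroup.commutator_le]
  intro x hx y hy
  rw [commutatorElement_def]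
  exact Subgroup.mul_mem _ (Subgroup.mul_mem _ (Subgroup.mul_mem _ (Subgroup.mem_sup_left hx)
    (Subgroup.mem_sup_right hy)) (Subgroup.inv_mem _ (Subgroup.mem_sup_left hx)))
    (Subgroup.inv_mem _ (Subgroup.mem_sup_right hy))

lemma isMulComm_of_CM {X : Subgroup G} (h : CM X X) : IsMulCommutative ↥X :=
  ⟨⟨fun x y => Subtype.ext (h x.1 x.2 y.1 y.2)⟩⟩

lemma CM_of_isMulComm {X : Subgroup G} (h : IsMulCommutative ↥X) : CM X X := by
  intro x hx y hy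
  exact congrArg Subtype.val (mul_comm' (⟨x, hx⟩ : ↥X) ⟨y, hy⟩)

lemma conjBy_sup (H K : Subgroup G) (g : G) : conjBy (H ⊔ K) g = conjBy H g ⊔ conjBy K g :=
  Subgroup.map_sup H K _

lemma conj_cancel {a k : G} (h : Commute a k) : a * k * a⁻¹ = k := by
  rw [h.eq, mul_inv_cancel_right]

lemma case_of_mem {S : Set (Subgroup G)} (hS : IsRootSubgroupSet S) {A B : Subgroup G}
    (hA : A ∈ S) (hB : B ∈ S) (hAB : ⁅A, B⁆ ∈ S) : RootCommutatorCase S A B := by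
  rcases hS.pair A hA B hB with h | h | h
  · exact absurd h (hS.ne_bot _ hAB)
  · exact (rank_one_absurd hS hA hB h hAB).elim
  · exact h

lemma comm_mem_of_gens {s : Set G} {Z : Subgroup G}
    (hZ : ∀ z ∈ Z, ∀ x ∈ Subgroup.closure s, z * x = x * z)
    (hs : ∀ x ∈ s, ∀ y ∈ s, x * y * x⁻¹ * y⁻¹ ∈ Z) :
    ∀ x ∈ Subgroup.closure s, ∀ y ∈ Subgroup.closure s, x * y * x⁻¹ * y⁻¹ ∈ Z := by
  have step1 : ∀ y ∈ s, ∀ x ∈ Subgroup.closure s, x * y * x⁻¹ * y⁻¹ ∈ Z := by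
    intro y hy x hx
    refine Subgroup.closure_induction (p := fun x _ => x * y * x⁻¹ * y⁻¹ ∈ Z) ?_ ?_ ?_ ?_ hx
    · intro x hx; exact hs x hx y hy
    · have : (1 : G) * y * 1⁻¹ * y⁻¹ = 1 := by group
      rw [this]; exact Z.one_mem
    · intro x1 x2 h1 h2 ih1 ih2
      have e : (x1 * x2) * y * (x1 * x2)⁻¹ * y⁻¹
          = x1 * (x2 * y * x2⁻¹ * y⁻¹) * x1⁻¹ * (x1 * y * x1⁻¹ * y⁻¹) := by group
      rw [e, conj_cancel (hZ _ ih2 x1 h1).symm]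
      exact Z.mul_mem ih2 ih1
    · intro x1 h1 ih1
      have e : x1⁻¹ * y * x1⁻¹⁻¹ * y⁻¹ = x1⁻¹ * (x1 * y * x1⁻¹ * y⁻¹)⁻¹ * x1 := by group
      have c : Commute x1 (x1 * y * x1⁻¹ * y⁻¹)⁻¹ := (hZ _ (Z.inv_mem ih1) x1 h1).symm
      rw [e, c.inv_mul_cancel]
      exact Z.inv_mem ih1
  intro x hx y hy
  refine Subgroup.closure_induction (p := fun y _ => x * y * x⁻¹ * y⁻¹ ∈ Z) ?_ ?_ ?_ ?_ hy
  · intro y hy; exact step1 y hy x hx
  · have : x * 1 * x⁻¹ * 1⁻¹ = 1 := by group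
    rw [this]; exact Z.one_mem
  · intro y1 y2 h1 h2 ih1 ih2
    have e : x * (y1 * y2) * x⁻¹ * (y1 * y2)⁻¹
        = (x * y1 * x⁻¹ * y1⁻¹) * (y1 * (x * y2 * x⁻¹ * y2⁻¹) * y1⁻¹) := by group
    rw [e, conj_cancel (hZ _ ih2 y1 h1).symm]
    exact Z.mul_mem ih1 ih2
  · intro y1 h1 ih1
    have e : x * y1⁻¹ * x⁻¹ * y1⁻¹⁻¹ = y1⁻¹ * (x * y1 * x⁻¹ * y1⁻¹)⁻¹ * y1 := by group
    have c : Commute y1 (x * y1 * x⁻¹ * y1⁻¹)⁻¹ := (hZ _ (Z.inv_mem ih1) y1 h1).symm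
    rw [e, c.inv_mul_cancel]
    exact Z.inv_mem ih1

lemma class_two {A C F X : Subgroup G} (cAA : CM A A) (cCC : CM C C) (cFF : CM F F)
    (cAC : CM A C) (cCF : CM C F) (hcent : ∀ w ∈ ⁅A, F⁆, ∀ x ∈ A ⊔ F, w * x = x * w)
    (hX : X ≤ A ⊔ C ⊔ F) : ⁅⁅X, X⁆, X⁆ = ⊥ := by
  have hT : A ⊔ C ⊔ F = Subgroup.closure ((A : Set G) ∪ C ∪ F) := by
    rw [Subgroup.closure_union, Subgroup.closure_union, Subgroup.closure_eq, Subgroup.closure_eq,
      Subgroup.closure_eq]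
  have cWA : CM ⁅A, F⁆ A := fun w hw a ha => hcent w hw a (Subgroup.mem_sup_left ha)
  have cWF : CM ⁅A, F⁆ F := fun w hw f hf => hcent w hw f (Subgroup.mem_sup_right hf)
  have cWC : CM ⁅A, F⁆ C := (CM.commutator cAC.symm cCF).symm
  have cWT : CM ⁅A, F⁆ (A ⊔ C ⊔ F) := CM.sup_right (CM.sup_right cWA cWC) cWF
  have hgen : ∀ x ∈ ((A : Set G) ∪ C ∪ F), ∀ y ∈ ((A : Set G) ∪ C ∪ F),
      x * y * x⁻¹ * y⁻¹ ∈ ⁅A, F⁆ := by
    have one_of : ∀ {x y : G}, x * y = y * x → x * y * x⁻¹ * y⁻¹ ∈ ⁅A, F⁆ := by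
      intro x y h
      have : x * y * x⁻¹ * y⁻¹ = 1 := by rw [h]; group
      rw [this]; exact Subgroup.one_mem _
    rintro x ((hx | hx) | hx) y ((hy | hy) | hy)
    · exact one_of (cAA x hx y hy)
    · exact one_of (cAC x hx y hy)
    · exact Subgroup.commutator_mem_commutator hx hy
    · exact one_of (cAC y hy x hx).symm
    · exact one_of (cCC x hx y hy)
    · exact one_of (cCF x hx y hy)
    · have h := Subgroup.commutator_mem_commutator hy hx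
      have e : x * y * x⁻¹ * y⁻¹ = (y * x * y⁻¹ * x⁻¹)⁻¹ := by group
      rw [e]; exact Subgroup.inv_mem _ h
    · exact one_of (cCF y hy x hx).symm
    · exact one_of (cFF x hx y hy)
  have hTT : ⁅A ⊔ C ⊔ F, A ⊔ C ⊔ F⁆ ≤ ⁅A, F⁆ := by
    rw [Subgroup.commutator_le]
    intro x hx y hy
    rw [hT] at hx hy
    exact comm_mem_of_gens (fun z hz t ht => cWT z hz t (by rw [hT]; exact ht)) hgen x hx y hy
  have h1 : ⁅⁅X, X⁆, X⁆ ≤ ⁅⁅A, F⁆, A ⊔ C ⊔ F⁆ :=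
    Subgroup.commutator_mono ((Subgroup.commutator_mono hX hX).trans hTT) hX
  rw [cWT.comm_bot] at h1
  exact le_bot_iff.mp h1

lemma not_rank_one {S : Set (Subgroup G)} (hS : IsRootSubgroupSet S) {A B C : Subgroup G}
    (hA : A ∈ S) (hB : B ∈ S) (hC : C ∈ S) (hcBC : RootCommutatorCase S B C) (cAC : CM A C) :
    ¬ IsRankOnePair ⁅B, C⁆ A := by
  intro hp
  obtain ⟨hFS, hcent, hcl1, hcl2⟩ := hcBC
  obtain ⟨b, hb, hb1⟩ := exists_ne_one hS hB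
  have hex : ∃ c ∈ C, b * c ≠ c * b := by
    by_contra hcon
    push_neg at hcon
    have h1 := hcl1 b hb hb1
    have h2 : Subgroup.closure ((fun c : G => b * c * b⁻¹ * c⁻¹) '' (C : Set G)) = ⊥ := by
      rw [Subgroup.closure_eq_bot_iff]
      rintro _ ⟨c, hc, rfl⟩
      show b * c * b⁻¹ * c⁻¹ = 1
      rw [hcon c hc]; group
    rw [h2] at h1
    exact hS.ne_bot _ hFS h1.symm
  obtain ⟨c, hc, hbc⟩ := hex
  have hc1 : c ≠ 1 := by
    rintro rfl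
    exact hbc (by rw [mul_one, one_mul])
  have hf : c⁻¹ * b⁻¹ * c * b ∈ ⁅B, C⁆ := by
    have := Subgroup.commutator_mem_commutator (B.inv_mem hb) (C.inv_mem hc)
    have e : c⁻¹ * b⁻¹ * c * b = (b⁻¹ * c⁻¹ * b⁻¹⁻¹ * c⁻¹⁻¹)⁻¹ := by group
    rw [e]; exact Subgroup.inv_mem _ this
  have hf1 : c⁻¹ * b⁻¹ * c * b ≠ 1 := by
    intro h
    apply hbc
    calc b * c = b * c * (c⁻¹ * b⁻¹ * c * b) := by rw [h, mul_one]
      _ = c * b := by group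
  have hz : c ∈ Subgroup.centralizer ((⁅B, C⁆ ⊔ A : Subgroup G) : Set G) := by
    rw [Subgroup.mem_centralizer_iff]
    intro y hy
    have cm : CM (⁅B, C⁆ ⊔ A) C :=
      CM.sup_left (fun w hw k hk => hcent w hw k (Subgroup.mem_sup_right hk)) cAC
    exact cm y hy c hc
  have := Cfsg.Agent.S5025.result hS hFS (⟨hA, hp⟩ : A ∈ rankOnePartners S ⁅B, C⁆) hz hc1 _ hf hf1
  apply this
  refine ⟨?_, conjBy C b⁻¹, hS.conj_mem C hC b⁻¹, ?_⟩
  · intro h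
    apply hc1
    have e : c * (c⁻¹ * b⁻¹ * c * b) = b⁻¹ * c * b := by group
    rw [e] at h
    calc c = b * (b⁻¹ * c * b) * b⁻¹ := by group
      _ = 1 := by rw [h]; group
  · rw [mem_conjBy]
    have e : (b⁻¹)⁻¹ * (c * (c⁻¹ * b⁻¹ * c * b)) * b⁻¹ = c := by group
    rw [e]; exact hc

lemma key_identity {a c e f : G} (hac : a * c = c * a) (hea : e * a = a * e) (hfc : f * c = c * f)
    (ha2 : Commute a (e * c * e⁻¹ * c⁻¹)) (hc2 : Commute c (e * c * e⁻¹ * c⁻¹))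
    (ha1 : Commute a (f * a * f⁻¹ * a⁻¹)) (hc1 : Commute c (f * a * f⁻¹ * a⁻¹))
    (hrel : (e * a) * (f * c) = (f * c) * (e * a)) :
    e * f * e⁻¹ * f⁻¹ = (e * c * e⁻¹ * c⁻¹)⁻¹ * (f * a * f⁻¹ * a⁻¹) := by
  rw [hea, hfc] at hrel
  have h1 : e * c = (e * c * e⁻¹ * c⁻¹) * c * e := by group
  have h2 : f * a = (f * a * f⁻¹ * a⁻¹) * a * f := by group
  generalize e * c * e⁻¹ * c⁻¹ = w2 at ha2 hc2 h1 ⊢
  generalize f * a * f⁻¹ * a⁻¹ = w1 at ha1 hc1 h2 ⊢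
  have E1 : w2 * a * c * e * f = w1 * a * c * f * e := by
    calc w2 * a * c * e * f = a * (w2 * c * e) * f := by rw [← ha2.eq]; group
      _ = a * e * (c * f) := by rw [← h1]; group
      _ = c * f * (a * e) := hrel
      _ = c * (w1 * a * f) * e := by rw [← h2]; group
      _ = w1 * c * a * f * e := by rw [← hc1.eq]; group
      _ = w1 * a * c * f * e := by rw [mul_assoc w1 c a, ← hac]; group
  have cm : Commute (a * c) (w2⁻¹ * w1) :=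
    (ha2.inv_right.mul_right ha1).mul_left (hc2.inv_right.mul_right hc1)
  calc e * f * e⁻¹ * f⁻¹ = (a * c)⁻¹ * w2⁻¹ * (w2 * a * c * e * f) * e⁻¹ * f⁻¹ := by group
    _ = (a * c)⁻¹ * w2⁻¹ * (w1 * a * c * f * e) * e⁻¹ * f⁻¹ := by rw [E1]
    _ = (a * c)⁻¹ * ((w2⁻¹ * w1) * (a * c)) := by group
    _ = (a * c)⁻¹ * ((a * c) * (w2⁻¹ * w1)) := by rw [cm.eq]
    _ = w2⁻¹ * w1 := by group

section nilp

/-- The image in `G` of the upper central series of the subgroup `R`. -/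
noncomputable def ucs (R : Subgroup G) (n : ℕ) : Subgroup G :=
  (Subgroup.upperCentralSeries ↥R n).map R.subtype

lemma mem_ucs_succ {R : Subgroup G} {n : ℕ} {x : G} (hx : x ∈ R)
    (h : ∀ y ∈ R, x * y * x⁻¹ * y⁻¹ ∈ ucs R n) : x ∈ ucs R (n + 1) := by
  refine ⟨⟨x, hx⟩, ?_, rfl⟩
  show (⟨x, hx⟩ : ↥R) ∈ Subgroup.upperCentralSeries ↥R (n + 1)
  rw [Subgroup.mem_upperCentralSeries_succ_iff]
  intro y
  obtain ⟨z, hz, hzeq⟩ := h y.1 y.2
  have : z = ⟨x, hx⟩ * y * (⟨x, hx⟩ : ↥R)⁻¹ * y⁻¹ := Subtype.ext hzeq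
  rw [commutatorElement_def, ← this]; exact hz

lemma ucs_conj {R : Subgroup G} {n : ℕ} {z r : G} (hz : z ∈ ucs R n) (hr : r ∈ R) :
    r * z * r⁻¹ ∈ ucs R n := by
  obtain ⟨z', hz', rfl⟩ := hz
  have hn : (Subgroup.upperCentralSeries ↥R n).Normal := inferInstance
  exact ⟨⟨r, hr⟩ * z' * (⟨r, hr⟩ : ↥R)⁻¹, hn.conj_mem z' hz' ⟨r, hr⟩, rfl⟩

lemma ucs_gens {A B C R : Subgroup G} (hR : R = A ⊔ B ⊔ C) {n : ℕ} {x : G} (hx : x ∈ R)
    (hA : ∀ y ∈ A, x * y * x⁻¹ * y⁻¹ ∈ ucs R n) (hB : ∀ y ∈ B, x * y * x⁻¹ * y⁻¹ ∈ ucs R n)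
    (hC : ∀ y ∈ C, x * y * x⁻¹ * y⁻¹ ∈ ucs R n) : x ∈ ucs R (n + 1) := by
  apply mem_ucs_succ hx
  intro y hy
  have hcl : A ⊔ B ⊔ C = Subgroup.closure ((A : Set G) ∪ B ∪ C) := by
    rw [Subgroup.closure_union, Subgroup.closure_union, Subgroup.closure_eq, Subgroup.closure_eq,
      Subgroup.closure_eq]
  have hsub : ∀ t ∈ Subgroup.closure ((A : Set G) ∪ B ∪ C), t ∈ R := fun t ht => by
    rw [hR, hcl]; exact ht
  have hy' : y ∈ Subgroup.closure ((A : Set G) ∪ B ∪ C) := by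
    rw [← hcl, ← hR]; exact hy
  refine Subgroup.closure_induction (p := fun y _ => x * y * x⁻¹ * y⁻¹ ∈ ucs R n) ?_ ?_ ?_ ?_ hy'
  · rintro y ((hy | hy) | hy)
    · exact hA y hy
    · exact hB y hy
    · exact hC y hy
  · have : x * 1 * x⁻¹ * 1⁻¹ = 1 := by group
    rw [this]; exact Subgroup.one_mem _
  · intro y1 y2 h1 h2 ih1 ih2
    have e : x * (y1 * y2) * x⁻¹ * (y1 * y2)⁻¹
        = (x * y1 * x⁻¹ * y1⁻¹) * (y1 * (x * y2 * x⁻¹ * y2⁻¹) * y1⁻¹) := by group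
    rw [e]
    exact Subgroup.mul_mem _ ih1 (ucs_conj ih2 (hsub y1 h1))
  · intro y1 h1 ih1
    have e : x * y1⁻¹ * x⁻¹ * y1⁻¹⁻¹ = y1⁻¹ * (x * y1 * x⁻¹ * y1⁻¹)⁻¹ * y1⁻¹⁻¹ := by group
    rw [e]
    exact ucs_conj (Subgroup.inv_mem _ ih1) (R.inv_mem (hsub y1 h1))

lemma nilp_aux {A B C R : Subgroup G} (hR : R = A ⊔ B ⊔ C)
    (cAA : CM A A) (cBB : CM B B) (cCC : CM C C) (cAC : CM A C)
    (cEA : CM ⁅A, B⁆ A) (cEB : CM ⁅A, B⁆ B) (cFB : CM ⁅B, C⁆ B) (cFC : CM ⁅B, C⁆ C)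
    (h1 : CM ⁅A, ⁅B, C⁆⁆ A) (h2 : CM ⁅A, ⁅B, C⁆⁆ C) (h3 : CM ⁅C, ⁅A, B⁆⁆ A) (h4 : CM ⁅C, ⁅A, B⁆⁆ C)
    (h5 : CM ⁅⁅A, ⁅B, C⁆⁆, B⁆ A) (h6 : CM ⁅⁅A, ⁅B, C⁆⁆, B⁆ B) (h7 : CM ⁅⁅A, ⁅B, C⁆⁆, B⁆ C)
    (h8 : CM ⁅⁅C, ⁅A, B⁆⁆, B⁆ A) (h9 : CM ⁅⁅C, ⁅A, B⁆⁆, B⁆ B) (h10 : CM ⁅⁅C, ⁅A, B⁆⁆, B⁆ C) :
    Group.IsNilpotent ↥R := by
  have hAR : A ≤ R := by rw [hR]; exact le_sup_of_le_left le_sup_left
  have hBR : B ≤ R := by rw [hR]; exact le_sup_of_le_left le_sup_right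
  have hCR : C ≤ R := by rw [hR]; exact le_sup_right
  have hER : ⁅A, B⁆ ≤ R := (commutator_le_sup' A B).trans (sup_le hAR hBR)
  have hFR : ⁅B, C⁆ ≤ R := (commutator_le_sup' B C).trans (sup_le hBR hCR)
  have hW1R : ⁅A, ⁅B, C⁆⁆ ≤ R := (commutator_le_sup' _ _).trans (sup_le hAR hFR)
  have hW2R : ⁅C, ⁅A, B⁆⁆ ≤ R := (commutator_le_sup' _ _).trans (sup_le hCR hER)
  have hV1R : ⁅⁅A, ⁅B, C⁆⁆, B⁆ ≤ R := (commutator_le_sup' _ _).trans (sup_le hW1R hBR)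
  have hV2R : ⁅⁅C, ⁅A, B⁆⁆, B⁆ ≤ R := (commutator_le_sup' _ _).trans (sup_le hW2R hBR)
  have one_of : ∀ {n : ℕ} {x y : G}, x * y = y * x → x * y * x⁻¹ * y⁻¹ ∈ ucs R n := by
    intro n x y h
    have : x * y * x⁻¹ * y⁻¹ = 1 := by rw [h]; group
    rw [this]; exact Subgroup.one_mem _
  have L1a : ⁅⁅A, ⁅B, C⁆⁆, B⁆ ≤ ucs R 1 := fun v hv =>
    ucs_gens hR (hV1R hv) (fun y hy => one_of (h5 v hv y hy)) (fun y hy => one_of (h6 v hv y hy))
      (fun y hy => one_of (h7 v hv y hy))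
  have L1b : ⁅⁅C, ⁅A, B⁆⁆, B⁆ ≤ ucs R 1 := fun v hv =>
    ucs_gens hR (hV2R hv) (fun y hy => one_of (h8 v hv y hy)) (fun y hy => one_of (h9 v hv y hy))
      (fun y hy => one_of (h10 v hv y hy))
  have L2a : ⁅A, ⁅B, C⁆⁆ ≤ ucs R 2 := fun w hw =>
    ucs_gens hR (hW1R hw) (fun y hy => one_of (h1 w hw y hy))
      (fun y hy => L1a (Subgroup.commutator_mem_commutator hw hy))
      (fun y hy => one_of (h2 w hw y hy))
  have L2b : ⁅C, ⁅A, B⁆⁆ ≤ ucs R 2 := fun w hw =>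
    ucs_gens hR (hW2R hw) (fun y hy => one_of (h3 w hw y hy))
      (fun y hy => L1b (Subgroup.commutator_mem_commutator hw hy))
      (fun y hy => one_of (h4 w hw y hy))
  have L3a : ⁅A, B⁆ ≤ ucs R 3 := fun e he =>
    ucs_gens hR (hER he) (fun y hy => one_of (cEA e he y hy)) (fun y hy => one_of (cEB e he y hy))
      (fun y hy => by
        have h := Subgroup.commutator_mem_commutator hy he
        have e' : e * y * e⁻¹ * y⁻¹ = (y * e * y⁻¹ * e⁻¹)⁻¹ := by group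
        rw [e']; exact Subgroup.inv_mem _ (L2b h))
  have L3b : ⁅B, C⁆ ≤ ucs R 3 := fun f hf =>
    ucs_gens hR (hFR hf)
      (fun y hy => by
        have h := Subgroup.commutator_mem_commutator hy hf
        have e' : f * y * f⁻¹ * y⁻¹ = (y * f * y⁻¹ * f⁻¹)⁻¹ := by group
        rw [e']; exact Subgroup.inv_mem _ (L2a h))
      (fun y hy => one_of (cFB f hf y hy)) (fun y hy => one_of (cFC f hf y hy))
  have L4a : A ≤ ucs R 4 := fun a ha =>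
    ucs_gens hR (hAR ha) (fun y hy => one_of (cAA a ha y hy))
      (fun y hy => L3a (Subgroup.commutator_mem_commutator ha hy))
      (fun y hy => one_of (cAC a ha y hy))
  have L4b : B ≤ ucs R 4 := fun b hb =>
    ucs_gens hR (hBR hb)
      (fun y hy => by
        have h := Subgroup.commutator_mem_commutator hy hb
        have e' : b * y * b⁻¹ * y⁻¹ = (y * b * y⁻¹ * b⁻¹)⁻¹ := by group
        rw [e']; exact Subgroup.inv_mem _ (L3a h))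
      (fun y hy => one_of (cBB b hb y hy))
      (fun y hy => L3b (Subgroup.commutator_mem_commutator hb hy))
  have L4c : C ≤ ucs R 4 := fun c hc =>
    ucs_gens hR (hCR hc) (fun y hy => one_of (cAC y hy c hc).symm)
      (fun y hy => by
        have h := Subgroup.commutator_mem_commutator hy hc
        have e' : c * y * c⁻¹ * y⁻¹ = (y * c * y⁻¹ * c⁻¹)⁻¹ := by group
        rw [e']; exact Subgroup.inv_mem _ (L3b h))
      (fun y hy => one_of (cCC c hc y hy))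
  have hle : R ≤ ucs R 4 := by
    intro x hx
    have hx' : x ∈ A ⊔ B ⊔ C := by rw [← hR]; exact hx
    exact (sup_le (sup_le L4a L4b) L4c) hx'
  refine ⟨⟨4, ?_⟩⟩
  rw [eq_top_iff]
  intro x _
  obtain ⟨z, hz, hzx⟩ := hle x.2
  have : z = x := Subtype.ext hzx
  rw [← this]; exact hz

end nilp

lemma central_V {S : Set (Subgroup G)} (hS : IsRootSubgroupSet S) {A B C W' W : Subgroup G}
    (hW'S : W' ∈ S) (hBS : B ∈ S) (hW'W : W' ≤ W) (cWA : CM W A) (cWC : CM W C)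
    (hN : ∀ b' ∈ B, conjBy W' b' ≤ W) (hAB : ¬ CM A B) :
    CM ⁅W', B⁆ A ∧ CM ⁅W', B⁆ B ∧ CM ⁅W', B⁆ C := by
  rcases hS.pair W' hW'S B hBS with h | h | h
  · exact ⟨CM.of_bot h, CM.of_bot h, CM.of_bot h⟩
  · exfalso
    apply hAB
    obtain ⟨b, hb, hb1⟩ := exists_ne_one hS hBS
    obtain ⟨w, hw, hw1, hconj⟩ := h.cond_right b hb hb1
    intro a ha b' hb'
    have h1 : w⁻¹ * b' * w ∈ conjBy B w⁻¹ := by
      rw [mem_conjBy]
      have e : (w⁻¹)⁻¹ * (w⁻¹ * b' * w) * w⁻¹ = b' := by group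
      rw [e]; exact hb'
    rw [hconj] at h1
    have h2 : w⁻¹ * b' * w ∈ W := hN b⁻¹ (B.inv_mem hb) h1
    have c1 : Commute a (w⁻¹ * b' * w) := (cWA _ h2 a ha).symm
    have c2 : Commute a w := (cWA w (hW'W hw) a ha).symm
    have c3 : Commute a (w * (w⁻¹ * b' * w) * w⁻¹) := (c2.mul_right c1).mul_right c2.inv_right
    have e : w * (w⁻¹ * b' * w) * w⁻¹ = b' := by group
    rw [e] at c3
    exact c3.eq
  · obtain ⟨hVS, hcent, hcl1, hcl2⟩ := h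
    have hVW : ⁅W', B⁆ ≤ W := by
      rw [Subgroup.commutator_le]
      intro w hw b' hb'
      rw [commutatorElement_def]
      have h1 : b' * w⁻¹ * b'⁻¹ ∈ conjBy W' b' := by
        rw [mem_conjBy]
        have e : b'⁻¹ * (b' * w⁻¹ * b'⁻¹) * b' = w⁻¹ := by group
        rw [e]; exact W'.inv_mem hw
      have e : w * b' * w⁻¹ * b'⁻¹ = w * (b' * w⁻¹ * b'⁻¹) := by group
      rw [e]
      exact W.mul_mem (hW'W hw) (hN b' hb' h1)
    exact ⟨cWA.mono hVW le_rfl, fun v hv b' hb' => hcent v hv b' (Subgroup.mem_sup_right hb'),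
      cWC.mono hVW le_rfl⟩

theorem core {S : Set (Subgroup G)} (hS : IsRootSubgroupSet S)
    {A B C : Subgroup G} (hA : A ∈ S) (hB : B ∈ S) (hC : C ∈ S) (hAB : ⁅A, B⁆ ∈ S)
    (hBC : ⁅B, C⁆ ∈ S) (hAC : C ∈ commutingPartners S A) {b : G} (hb : b ∈ B) (hb1 : b ≠ 1)
    {X Y : Subgroup G} (hX : X = A ⊔ conjBy C b⁻¹) (hY : Y = conjBy A b⁻¹ ⊔ C) :
    ((IsMulCommutative ↥X ∧ IsMulCommutative ↥Y) ∨
      ((¬ IsMulCommutative ↥X ∧ ⁅⁅X, X⁆, X⁆ = ⊥) ∧ (¬ IsMulCommutative ↥Y ∧ ⁅⁅Y, Y⁆, Y⁆ = ⊥))) ∧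
    ⁅X, Y⁆ = ⊥ ∧ (∀ r ∈ A ⊔ B ⊔ C, conjBy (X ⊔ Y) r = X ⊔ Y) ∧ (X ⊔ Y) ⊔ B = A ⊔ B ⊔ C ∧
    Group.IsNilpotent ↥(A ⊔ B ⊔ C) := by
  obtain ⟨hCS, hCA, hACbot⟩ := hAC
  have hcAB := case_of_mem hS hA hB hAB
  have hcBC := case_of_mem hS hB hC hBC
  have cAC : CM A C := CM.of_comm_bot hACbot
  have cAA : CM A A := CM_of_isMulComm (hS.commutative A hA)
  have cBB : CM B B := CM_of_isMulComm (hS.commutative B hB)
  have cCC : CM C C := CM_of_isMulComm (hS.commutative C hC)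
  have cEE : CM ⁅A, B⁆ ⁅A, B⁆ := CM_of_isMulComm (hS.commutative _ hAB)
  have cFF : CM ⁅B, C⁆ ⁅B, C⁆ := CM_of_isMulComm (hS.commutative _ hBC)
  have cEA : CM ⁅A, B⁆ A := fun e he a ha => hcAB.2.1 e he a (Subgroup.mem_sup_left ha)
  have cEB : CM ⁅A, B⁆ B := fun e he b' hb' => hcAB.2.1 e he b' (Subgroup.mem_sup_right hb')
  have cFB : CM ⁅B, C⁆ B := fun f hf b' hb' => hcBC.2.1 f hf b' (Subgroup.mem_sup_left hb')
  have cFC : CM ⁅B, C⁆ C := fun f hf c hc => hcBC.2.1 f hf c (Subgroup.mem_sup_right hc)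
  have hbi : b⁻¹ ∈ B := B.inv_mem hb
  have hbi1 : b⁻¹ ≠ 1 := fun h => hb1 (inv_eq_one.mp h)
  have hAb : conjBy A b⁻¹ ≤ A ⊔ ⁅A, B⁆ := conj_le_of_case hbi
  have hCb : conjBy C b⁻¹ ≤ C ⊔ ⁅B, C⁆ := by
    have h := conj_le_of_case (A := C) (B := B) hbi
    rwa [Subgroup.commutator_comm C B] at h
  have hAX : A ≤ X := by rw [hX]; exact le_sup_left
  have hCbX : conjBy C b⁻¹ ≤ X := by rw [hX]; exact le_sup_right
  have hAbY : conjBy A b⁻¹ ≤ Y := by rw [hY]; exact le_sup_left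
  have hCY : C ≤ Y := by rw [hY]; exact le_sup_right
  have cXY : CM X Y := by
    have c1 : CM A (conjBy A b⁻¹) := (CM.sup_right cAA cEA.symm).mono le_rfl hAb
    have c3 : CM (conjBy C b⁻¹) (conjBy A b⁻¹) := cAC.symm.conj b⁻¹
    have c4 : CM (conjBy C b⁻¹) C := (CM.sup_left cCC cFC).mono hCb le_rfl
    rw [hX, hY]
    exact CM.sup_left (CM.sup_right c1 cAC) (CM.sup_right c3 c4)
  have hEM : ⁅A, B⁆ ≤ X ⊔ Y := by
    rw [← hcAB.2.2.2 b⁻¹ hbi hbi1, Subgroup.closure_le]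
    rintro _ ⟨a, ha, rfl⟩
    show a * b⁻¹ * a⁻¹ * (b⁻¹)⁻¹ ∈ X ⊔ Y
    have h1 : b⁻¹ * a⁻¹ * (b⁻¹)⁻¹ ∈ conjBy A b⁻¹ := by
      rw [mem_conjBy]
      have e : (b⁻¹)⁻¹ * (b⁻¹ * a⁻¹ * (b⁻¹)⁻¹) * b⁻¹ = a⁻¹ := by group
      rw [e]; exact A.inv_mem ha
    have e : a * b⁻¹ * a⁻¹ * (b⁻¹)⁻¹ = a * (b⁻¹ * a⁻¹ * (b⁻¹)⁻¹) := by group
    rw [e]
    exact Subgroup.mul_mem _ (Subgroup.mem_sup_left (hAX ha)) (Subgroup.mem_sup_right (hAbY h1))
  have hFM : ⁅B, C⁆ ≤ X ⊔ Y := by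
    rw [← hcBC.2.2.1 b⁻¹ hbi hbi1, Subgroup.closure_le]
    rintro _ ⟨c, hc, rfl⟩
    show b⁻¹ * c * (b⁻¹)⁻¹ * c⁻¹ ∈ X ⊔ Y
    have h1 : b⁻¹ * c * (b⁻¹)⁻¹ ∈ conjBy C b⁻¹ := by
      rw [mem_conjBy]
      have e : (b⁻¹)⁻¹ * (b⁻¹ * c * (b⁻¹)⁻¹) * b⁻¹ = c := by group
      rw [e]; exact hc
    exact Subgroup.mul_mem _ (Subgroup.mem_sup_left (hCbX h1))
      (Subgroup.mem_sup_right (hCY (C.inv_mem hc)))
  have hM : X ⊔ Y = A ⊔ C ⊔ ⁅A, B⁆ ⊔ ⁅B, C⁆ := by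
    apply le_antisymm
    · rw [hX, hY]
      refine sup_le (sup_le ?_ ?_) (sup_le ?_ ?_)
      · exact le_sup_of_le_left (le_sup_of_le_left le_sup_left)
      · exact hCb.trans (sup_le (le_sup_of_le_left (le_sup_of_le_left le_sup_right)) le_sup_right)
      · exact hAb.trans (sup_le (le_sup_of_le_left (le_sup_of_le_left le_sup_left))
          (le_sup_of_le_left le_sup_right))
      · exact le_sup_of_le_left (le_sup_of_le_left le_sup_right)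
    · refine sup_le (sup_le (sup_le ?_ ?_) hEM) hFM
      · exact hAX.trans le_sup_left
      · exact hCY.trans le_sup_right
  have hEconj : ∀ b' ∈ B, conjBy ⁅A, B⁆ b' = ⁅A, B⁆ := by
    intro b' hb'
    have := conjBy_of_comm (B := ⁅A, B⁆) (x := b'⁻¹)
      (fun y hy => (cEB y hy b'⁻¹ (B.inv_mem hb')).symm)
    rwa [inv_inv] at this
  have hFconj : ∀ b' ∈ B, conjBy ⁅B, C⁆ b' = ⁅B, C⁆ := by
    intro b' hb'
    have := conjBy_of_comm (B := ⁅B, C⁆) (x := b'⁻¹)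
      (fun y hy => (cFB y hy b'⁻¹ (B.inv_mem hb')).symm)
    rwa [inv_inv] at this
  have hCb' : ∀ b' ∈ B, conjBy C b' ≤ C ⊔ ⁅B, C⁆ := by
    intro b' hb'
    have h := conj_le_of_case (A := C) (B := B) hb'
    rwa [Subgroup.commutator_comm C B] at h
  have hnorm : A ⊔ B ⊔ C ≤ Subgroup.normalizer ((X ⊔ Y : Subgroup G) : Set G) := by
    refine sup_le (sup_le ?_ ?_) ?_
    · exact (hAX.trans le_sup_left).trans Subgroup.le_normalizer
    · intro b' hb'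
      apply Cfsg.Agent.S5013.mem_normalizer_of_conjBy
      have hle : ∀ b'' ∈ B, conjBy (X ⊔ Y) b'' ≤ X ⊔ Y := by
        intro b'' hb''
        rw [hM, conjBy_sup, conjBy_sup, conjBy_sup]
        refine sup_le (sup_le (sup_le ?_ ?_) ?_) ?_
        · exact (conj_le_of_case hb'').trans
            (sup_le (le_sup_of_le_left (le_sup_of_le_left le_sup_left))
              (le_sup_of_le_left le_sup_right))
        · exact (hCb' b'' hb'').trans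
            (sup_le (le_sup_of_le_left (le_sup_of_le_left le_sup_right)) le_sup_right)
        · exact (hEconj b'' hb'').le.trans (le_sup_of_le_left le_sup_right)
        · exact (hFconj b'' hb'').le.trans le_sup_right
      apply le_antisymm (hle b' hb')
      intro y hy
      have h1 := hle b'⁻¹ (B.inv_mem hb')
      rw [mem_conjBy]
      have h2 : b'⁻¹ * y * b' ∈ conjBy (X ⊔ Y) b'⁻¹ := by
        rw [mem_conjBy]
        have e : (b'⁻¹)⁻¹ * (b'⁻¹ * y * b') * b'⁻¹ = y := by group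
        rw [e]; exact hy
      exact h1 h2
    · exact (hCY.trans le_sup_right).trans Subgroup.le_normalizer
  have hconj : ∀ r ∈ A ⊔ B ⊔ C, conjBy (X ⊔ Y) r = X ⊔ Y := fun r hr =>
    Cfsg.Agent.S5013.conjBy_of_mem_normalizer _ (hnorm hr)
  have h4 : (X ⊔ Y) ⊔ B = A ⊔ B ⊔ C := by
    apply le_antisymm
    · rw [hM]
      refine sup_le (sup_le (sup_le (sup_le ?_ ?_) ?_) ?_) ?_
      · exact le_sup_of_le_left le_sup_left
      · exact le_sup_right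
      · exact (commutator_le_sup' A B).trans le_sup_left
      · exact (commutator_le_sup' B C).trans (sup_le (le_sup_of_le_left le_sup_right) le_sup_right)
      · exact le_sup_of_le_left le_sup_right
    · refine sup_le (sup_le ?_ le_sup_right) ?_
      · exact (hAX.trans le_sup_left).trans le_sup_left
      · exact (hCY.trans le_sup_right).trans le_sup_left
  have hnotAB : ¬ CM A B := fun h => hS.ne_bot _ hAB h.comm_bot
  rcases hS.pair A hA ⁅B, C⁆ hBC with hAF | hAF | hAF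
  · -- the commuting case
    have cAF : CM A ⁅B, C⁆ := CM.of_comm_bot hAF
    have hCE : ⁅C, ⁅A, B⁆⁆ = ⊥ := by
      rw [Subgroup.commutator_comm C ⁅A, B⁆]
      apply Subgroup.commutator_commutator_eq_bot_of_rotate
      · rw [Subgroup.commutator_comm ⁅B, C⁆ A]; exact hAF
      · have : ⁅C, A⁆ = ⊥ := by rw [Subgroup.commutator_comm C A]; exact hACbot
        rw [this, Subgroup.commutator_bot_left]
    have cCE : CM C ⁅A, B⁆ := CM.of_comm_bot hCE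
    refine ⟨Or.inl ⟨?_, ?_⟩, cXY.comm_bot, hconj, h4, ?_⟩
    · apply isMulComm_of_CM
      rw [hX]
      have c1 : CM A (conjBy C b⁻¹) := (CM.sup_right cAC cAF).mono le_rfl hCb
      have c2 : CM (conjBy C b⁻¹) (conjBy C b⁻¹) := cCC.conj b⁻¹
      exact CM.sup_left (CM.sup_right cAA c1) (CM.sup_right c1.symm c2)
    · apply isMulComm_of_CM
      rw [hY]
      have c1 : CM C (conjBy A b⁻¹) := (CM.sup_right cAC.symm cCE).mono le_rfl hAb
      have c2 : CM (conjBy A b⁻¹) (conjBy A b⁻¹) := cAA.conj b⁻¹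
      exact CM.sup_left (CM.sup_right c2 c1.symm) (CM.sup_right c1 cCC)
    · have hV1 : ⁅⁅A, ⁅B, C⁆⁆, B⁆ = ⊥ := by rw [hAF, Subgroup.commutator_bot_left]
      have hV2 : ⁅⁅C, ⁅A, B⁆⁆, B⁆ = ⊥ := by rw [hCE, Subgroup.commutator_bot_left]
      exact nilp_aux rfl cAA cBB cCC cAC cEA cEB cFB cFC (CM.of_bot hAF) (CM.of_bot hAF)
        (CM.of_bot hCE) (CM.of_bot hCE) (CM.of_bot hV1) (CM.of_bot hV1) (CM.of_bot hV1)
        (CM.of_bot hV2) (CM.of_bot hV2) (CM.of_bot hV2)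
  · exfalso
    exact not_rank_one hS hA hB hCS hcBC cAC (RankOnePair_symm hAF)
  · -- the commutator case
    have hW1S : ⁅A, ⁅B, C⁆⁆ ∈ S := hAF.1
    have hCEne : ⁅C, ⁅A, B⁆⁆ ≠ ⊥ := by
      intro h
      apply hS.ne_bot _ hW1S
      rw [Subgroup.commutator_comm A ⁅B, C⁆]
      apply Subgroup.commutator_commutator_eq_bot_of_rotate
      · have : ⁅C, A⁆ = ⊥ := by rw [Subgroup.commutator_comm C A]; exact hACbot
        rw [this, Subgroup.commutator_bot_left]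
      · rw [Subgroup.commutator_comm ⁅A, B⁆ C]; exact h
    have hcCE : RootCommutatorCase S C ⁅A, B⁆ := by
      rcases hS.pair C hCS ⁅A, B⁆ hAB with h | h | h
      · exact absurd h hCEne
      · exfalso
        have := not_rank_one hS hCS hB hA (case_symm hcAB) cAC.symm
        rw [Subgroup.commutator_comm B A] at this
        exact this (RankOnePair_symm h)
      · exact h
    have hW2S : ⁅C, ⁅A, B⁆⁆ ∈ S := hcCE.1
    have cW1A : CM ⁅A, ⁅B, C⁆⁆ A := fun w hw a ha => hAF.2.1 w hw a (Subgroup.mem_sup_left ha)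
    have cW1C : CM ⁅A, ⁅B, C⁆⁆ C := (CM.commutator cAC.symm cFC.symm).symm
    have cW2C : CM ⁅C, ⁅A, B⁆⁆ C := fun w hw c hc => hcCE.2.1 w hw c (Subgroup.mem_sup_left hc)
    have cW2A : CM ⁅C, ⁅A, B⁆⁆ A := (CM.commutator cAC cEA.symm).symm
    have hEF : ∀ e ∈ ⁅A, B⁆, ∀ f ∈ ⁅B, C⁆,
        e * f * e⁻¹ * f⁻¹ ∈ ⁅A, ⁅B, C⁆⁆ ⊔ ⁅C, ⁅A, B⁆⁆ := by
      intro e he f hf
      have he' : e ∈ ⁅B, A⁆ := by rw [Subgroup.commutator_comm B A]; exact he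
      obtain ⟨a, ha, hae⟩ := kappa_surj (case_symm hcAB) hb hb1 e he'
      obtain ⟨c, hc, hcf⟩ := kappa_surj hcBC hb hb1 f hf
      have h1 : e * a = b * a * b⁻¹ := by rw [← hae]; group
      have h2 : f * c = b * c * b⁻¹ := by rw [← hcf]; group
      have hrel : (e * a) * (f * c) = (f * c) * (e * a) := by
        rw [h1, h2]
        calc (b * a * b⁻¹) * (b * c * b⁻¹) = b * (a * c) * b⁻¹ := by group
          _ = b * (c * a) * b⁻¹ := by rw [cAC a ha c hc]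
          _ = (b * c * b⁻¹) * (b * a * b⁻¹) := by group
      have hw2 : e * c * e⁻¹ * c⁻¹ ∈ ⁅C, ⁅A, B⁆⁆ := by
        have h := Subgroup.commutator_mem_commutator hc he
        have e' : e * c * e⁻¹ * c⁻¹ = (c * e * c⁻¹ * e⁻¹)⁻¹ := by group
        rw [e']; exact Subgroup.inv_mem _ h
      have hw1 : f * a * f⁻¹ * a⁻¹ ∈ ⁅A, ⁅B, C⁆⁆ := by
        have h := Subgroup.commutator_mem_commutator ha hf
        have e' : f * a * f⁻¹ * a⁻¹ = (a * f * a⁻¹ * f⁻¹)⁻¹ := by group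
        rw [e']; exact Subgroup.inv_mem _ h
      have key := key_identity (cAC a ha c hc) (cEA e he a ha) (cFC f hf c hc)
        (cW2A _ hw2 a ha).symm (cW2C _ hw2 c hc).symm (cW1A _ hw1 a ha).symm
        (cW1C _ hw1 c hc).symm hrel
      rw [key]
      exact Subgroup.mul_mem _ (Subgroup.mem_sup_right (Subgroup.inv_mem _ hw2))
        (Subgroup.mem_sup_left hw1)
    have cWA : CM (⁅A, ⁅B, C⁆⁆ ⊔ ⁅C, ⁅A, B⁆⁆) A := CM.sup_left cW1A cW2A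
    have cWC : CM (⁅A, ⁅B, C⁆⁆ ⊔ ⁅C, ⁅A, B⁆⁆) C := CM.sup_left cW1C cW2C
    have hN1 : ∀ b' ∈ B, conjBy ⁅A, ⁅B, C⁆⁆ b' ≤ ⁅A, ⁅B, C⁆⁆ ⊔ ⁅C, ⁅A, B⁆⁆ := by
      intro b' hb'
      have hmap : conjBy ⁅A, ⁅B, C⁆⁆ b' = ⁅conjBy A b', conjBy ⁅B, C⁆ b'⁆ :=
        Subgroup.map_commutator _ _ _
      rw [hmap, hFconj b' hb', Subgroup.commutator_le]
      intro x hx f hf
      obtain ⟨a, ha, e, he, rfl⟩ :=
        mem_sup_comm (fun a ha e he => (cEA e he a ha).symm) (conj_le_of_case hb' hx)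
      rw [commutatorElement_def]
      have e1 : a * e * f * (a * e)⁻¹ * f⁻¹
          = a * (e * f * e⁻¹ * f⁻¹) * a⁻¹ * (a * f * a⁻¹ * f⁻¹) := by group
      have hk := hEF e he f hf
      have hc : Commute a (e * f * e⁻¹ * f⁻¹) := (cWA _ hk a ha).symm
      rw [e1, conj_cancel hc]
      exact Subgroup.mul_mem _ hk
        (Subgroup.mem_sup_left (Subgroup.commutator_mem_commutator ha hf))
    have hN2 : ∀ b' ∈ B, conjBy ⁅C, ⁅A, B⁆⁆ b' ≤ ⁅A, ⁅B, C⁆⁆ ⊔ ⁅C, ⁅A, B⁆⁆ := by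
      intro b' hb'
      have hmap : conjBy ⁅C, ⁅A, B⁆⁆ b' = ⁅conjBy C b', conjBy ⁅A, B⁆ b'⁆ :=
        Subgroup.map_commutator _ _ _
      rw [hmap, hEconj b' hb', Subgroup.commutator_le]
      intro x hx e he
      obtain ⟨c, hc, f, hf, rfl⟩ :=
        mem_sup_comm (fun c hc f hf => (cFC f hf c hc).symm) (hCb' b' hb' hx)
      rw [commutatorElement_def]
      have e1 : c * f * e * (c * f)⁻¹ * e⁻¹
          = c * (e * f * e⁻¹ * f⁻¹)⁻¹ * c⁻¹ * (c * e * c⁻¹ * e⁻¹) := by group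
      have hk := Subgroup.inv_mem _ (hEF e he f hf)
      have hcm : Commute c (e * f * e⁻¹ * f⁻¹)⁻¹ := (cWC _ hk c hc).symm
      rw [e1, conj_cancel hcm]
      exact Subgroup.mul_mem _ hk
        (Subgroup.mem_sup_right (Subgroup.commutator_mem_commutator hc he))
    obtain ⟨h5, h6, h7⟩ := central_V hS hW1S hB le_sup_left cWA cWC hN1 hnotAB
    obtain ⟨h8, h9, h10⟩ := central_V hS hW2S hB le_sup_right cWA cWC hN2 hnotAB
    refine ⟨Or.inr ⟨⟨?_, ?_⟩, ⟨?_, ?_⟩⟩, cXY.comm_bot, hconj, h4, ?_⟩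
    · intro hcomm
      have cXX := CM_of_isMulComm hcomm
      apply hS.ne_bot _ hW1S
      have cAF : CM A ⁅B, C⁆ := by
        intro a ha f hf
        have hle : ⁅B, C⁆ ≤ Subgroup.centralizer {a} := by
          rw [← hcBC.2.2.1 b⁻¹ hbi hbi1, Subgroup.closure_le]
          rintro _ ⟨c, hc, rfl⟩
          show b⁻¹ * c * (b⁻¹)⁻¹ * c⁻¹ ∈ Subgroup.centralizer {a}
          rw [Subgroup.mem_centralizer_singleton_iff]
          have h1 : b⁻¹ * c * (b⁻¹)⁻¹ ∈ conjBy C b⁻¹ := by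
            rw [mem_conjBy]
            have e : (b⁻¹)⁻¹ * (b⁻¹ * c * (b⁻¹)⁻¹) * b⁻¹ = c := by group
            rw [e]; exact hc
          have c1 : Commute a (b⁻¹ * c * (b⁻¹)⁻¹) := cXX a (hAX ha) _ (hCbX h1)
          have c2 : Commute a c⁻¹ := (show Commute a c from cAC a ha c hc).inv_right
          exact (c1.mul_right c2).eq.symm
        exact (Subgroup.mem_centralizer_singleton_iff.mp (hle hf)).symm
      exact cAF.comm_bot
    · exact class_two cAA cCC cFF cAC cFC.symm hAF.2.1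
        (by rw [hX]; exact sup_le (le_sup_of_le_left le_sup_left)
              (hCb.trans (sup_le (le_sup_of_le_left le_sup_right) le_sup_right)))
    · intro hcomm
      have cYY := CM_of_isMulComm hcomm
      apply hS.ne_bot _ hW2S
      have cCE : CM C ⁅A, B⁆ := by
        intro c hc e he
        have hle : ⁅A, B⁆ ≤ Subgroup.centralizer {c} := by
          rw [← hcAB.2.2.2 b⁻¹ hbi hbi1, Subgroup.closure_le]
          rintro _ ⟨a, ha, rfl⟩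
          show a * b⁻¹ * a⁻¹ * (b⁻¹)⁻¹ ∈ Subgroup.centralizer {c}
          rw [Subgroup.mem_centralizer_singleton_iff]
          have h1 : b⁻¹ * a⁻¹ * (b⁻¹)⁻¹ ∈ conjBy A b⁻¹ := by
            rw [mem_conjBy]
            have e' : (b⁻¹)⁻¹ * (b⁻¹ * a⁻¹ * (b⁻¹)⁻¹) * b⁻¹ = a⁻¹ := by group
            rw [e']; exact A.inv_mem ha
          have c1 : Commute c (b⁻¹ * a⁻¹ * (b⁻¹)⁻¹) := cYY c (hCY hc) _ (hAbY h1)
          have c2 : Commute c a := (cAC a ha c hc).symm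
          have e' : a * b⁻¹ * a⁻¹ * (b⁻¹)⁻¹ = a * (b⁻¹ * a⁻¹ * (b⁻¹)⁻¹) := by group
          rw [e']
          exact (c2.mul_right c1).eq.symm
        exact (Subgroup.mem_centralizer_singleton_iff.mp (hle he)).symm
      exact cCE.comm_bot
    · exact class_two cCC cAA cEE cAC.symm cEA.symm hcCE.2.1
        (by rw [hY]; exact sup_le
              (hAb.trans (sup_le (le_sup_of_le_left le_sup_right) le_sup_right))
              (le_sup_of_le_left le_sup_left))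
    · exact nilp_aux rfl cAA cBB cCC cAC cEA cEB cFB cFC cW1A cW1C cW2A cW2C h5 h6 h7 h8 h9 h10

/-- Let S be a set of abstract root subgroups of G and A, B, C ∈ S with ⁅A, B⁆ ∈ S and ⁅B, C⁆ ∈ S, where A and C are different and commute. For a non-identity b ∈ B put X = ⟨A, b⁻¹ C b⟩ and Y = ⟨b⁻¹ A b, C⟩ and R = ⟨A, B, C⟩. Then X and Y are either both abelian or both nilpotent of class exactly two; X and Y commute elementwise; XY is normal in R with R = (XY) B; and R is nilpotent. -/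
theorem result {G : Type*} [Group G] {S : Set (Subgroup G)} (hS : Cfsg.IsRootSubgroupSet S)
    {A B C : Subgroup G} (hA : A ∈ S) (hB : B ∈ S) (hC : C ∈ S) (hAB : ⁅A, B⁆ ∈ S) (hBC : ⁅B, C⁆ ∈ S)
    (hAC : C ∈ Cfsg.commutingPartners S A)
    {b : G} (hb : b ∈ B) (hb1 : b ≠ 1) :
    ((IsMulCommutative ↥(A ⊔ Cfsg.conjBy C b⁻¹) ∧ IsMulCommutative ↥(Cfsg.conjBy A b⁻¹ ⊔ C)) ∨
      ((¬ IsMulCommutative ↥(A ⊔ Cfsg.conjBy C b⁻¹) ∧
          ⁅⁅A ⊔ Cfsg.conjBy C b⁻¹, A ⊔ Cfsg.conjBy C b⁻¹⁆, A ⊔ Cfsg.conjBy C b⁻¹⁆ = ⊥) ∧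
        (¬ IsMulCommutative ↥(Cfsg.conjBy A b⁻¹ ⊔ C) ∧
          ⁅⁅Cfsg.conjBy A b⁻¹ ⊔ C, Cfsg.conjBy A b⁻¹ ⊔ C⁆, Cfsg.conjBy A b⁻¹ ⊔ C⁆ = ⊥))) ∧
    ⁅A ⊔ Cfsg.conjBy C b⁻¹, Cfsg.conjBy A b⁻¹ ⊔ C⁆ = ⊥ ∧
    (∀ r ∈ A ⊔ B ⊔ C, Cfsg.conjBy ((A ⊔ Cfsg.conjBy C b⁻¹) ⊔ (Cfsg.conjBy A b⁻¹ ⊔ C)) r =
      (A ⊔ Cfsg.conjBy C b⁻¹) ⊔ (Cfsg.conjBy A b⁻¹ ⊔ C)) ∧
    ((A ⊔ Cfsg.conjBy C b⁻¹) ⊔ (Cfsg.conjBy A b⁻¹ ⊔ C)) ⊔ B = A ⊔ B ⊔ C ∧
    Group.IsNilpotent ↥(A ⊔ B ⊔ C) := by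
  exact core hS hA hB hC hAB hBC hAC hb hb1 rfl rfl

end Cfsg.Agent.S5030
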