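import Cfsg.Statements.S5034
import Cfsg.Agent.S5019
import Cfsg.Agent.S5030
import Mathlib
set_option autoImplicit false
open Cfsg
open scoped commutatorElement

namespace Cfsg.Agent.S5034

open Cfsg.Agent.S5013 (conjBy_conjBy conjBy_one conjBy_of_mem conjBy_of_mem_normalizer)
open Cfsg.Agent.S5028 (mem_conjBy conjBy_of_comm conjBy_of_mem' comm_of_comm_bot)
open Cfsg.Agent.S5025 (nonisolated not_comm_of_pair)
open Cfsg.Agent.S5029 (exists_ne_one kappa_surj mem_sup_comm mem_conj_of_case conj_le_of_case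
  members_of_case inf_comm_eq_bot mem_normalizer_comm_right)
open Cfsg.Agent.S5030 (CM conjBy_sup case_of_mem CM_of_isMulComm conj_cancel)
open Cfsg.Agent.S5032 (conj_pair)
open Cfsg.Agent.S5036 (case_symm Conf)
open Cfsg.Agent.Lib.helper25 (conjBy_injective)

variable {G : Type*} [Group G]

/-! ### Transfer to the subgroup `A ⊔ B` -/

lemma mem_conjBy_subgroupOf {X H : Subgroup G} {x y : ↥X} :
    y ∈ conjBy (H.subgroupOf X) x ↔ (y : G) ∈ conjBy H (x : G) := by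
  rw [mem_conjBy, mem_conjBy, Subgroup.mem_subgroupOf]
  rfl

lemma conjBy_subgroupOf_eq {X H K : Subgroup G} {x y : ↥X} (h : conjBy H (x : G) = conjBy K (y : G)) :
    conjBy (H.subgroupOf X) x = conjBy (K.subgroupOf X) y := by
  ext z
  rw [mem_conjBy_subgroupOf, mem_conjBy_subgroupOf, h]

lemma pair_subgroupOf {A B : Subgroup G} (hp : IsRankOnePair A B) :
    IsRankOnePair (A.subgroupOf (A ⊔ B)) (B.subgroupOf (A ⊔ B)) := by
  refine ⟨?_, ?_, ?_, ?_, ?_⟩
  · intro h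
    rw [Subgroup.subgroupOf_inj, inf_eq_left.mpr le_sup_left, inf_eq_left.mpr le_sup_right] at h
    exact hp.ne h
  · haveI := hp.nilpotent_left
    exact Group.nilpotent_of_mulEquiv (Subgroup.subgroupOfEquivOfLe (le_sup_left : A ≤ A ⊔ B)).symm
  · haveI := hp.nilpotent_right
    exact Group.nilpotent_of_mulEquiv (Subgroup.subgroupOfEquivOfLe (le_sup_right : B ≤ A ⊔ B)).symm
  · intro a ha ha1
    obtain ⟨b, hb, hb1, hc⟩ := hp.cond_left (a : G) (Subgroup.mem_subgroupOf.mp ha)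
      (fun h => ha1 (Subtype.ext h))
    refine ⟨⟨b, Subgroup.mem_sup_right hb⟩, Subgroup.mem_subgroupOf.mpr hb,
      fun h => hb1 (congrArg Subtype.val h), conjBy_subgroupOf_eq ?_⟩
    exact hc
  · intro b hb hb1
    obtain ⟨a, ha, ha1, hc⟩ := hp.cond_right (b : G) (Subgroup.mem_subgroupOf.mp hb)
      (fun h => hb1 (Subtype.ext h))
    refine ⟨⟨a, Subgroup.mem_sup_left ha⟩, Subgroup.mem_subgroupOf.mpr ha,
      fun h => ha1 (congrArg Subtype.val h), conjBy_subgroupOf_eq ?_⟩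
    exact hc

/-- A group-level form of S5019: a rank one pair normalizing an abelian subgroup `M`, with `A`
acting quadratically by conjugation and `A ⊔ B` not, is special. -/
theorem special_of_action {A B M : Subgroup G} (hp : IsRankOnePair A B)
    (cAA : CM A A) (cBB : CM B B)
    (hM : ∀ m ∈ M, ∀ m' ∈ M, m * m' = m' * m)
    (hN : ∀ x ∈ A ⊔ B, ∀ m ∈ M, x * m * x⁻¹ ∈ M)
    (hq : ∀ a ∈ A, ∀ a' ∈ A, ∀ m ∈ M, a' * (a * m * a⁻¹ * m⁻¹) * a'⁻¹ = a * m * a⁻¹ * m⁻¹)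
    (hX : ∃ x ∈ A ⊔ B, ∃ y ∈ A ⊔ B, ∃ m ∈ M,
      y * (x * m * x⁻¹ * m⁻¹) * y⁻¹ ≠ x * m * x⁻¹ * m⁻¹) :
    IsSpecialRankOnePair A B := by
  letI cg : CommGroup ↥M :=
    { (inferInstance : Group ↥M) with mul_comm := fun a b => Subtype.ext (hM a.1 a.2 b.1 b.2) }
  letI act : DistribMulAction ↥(A ⊔ B) (Additive ↥M) :=
    { smul := fun x m => Additive.ofMul (⟨(x : G) * ((Additive.toMul m : ↥M) : G) * (x : G)⁻¹,
        hN x.1 x.2 _ (Additive.toMul m).2⟩ : ↥M)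
      one_smul := fun m => by
        apply Additive.toMul.injective
        apply Subtype.ext
        show (1 : G) * ((Additive.toMul m : ↥M) : G) * (1 : G)⁻¹ = ((Additive.toMul m : ↥M) : G)
        group
      mul_smul := fun x y m => by
        apply Additive.toMul.injective
        apply Subtype.ext
        show ((x : G) * (y : G)) * ((Additive.toMul m : ↥M) : G) * ((x : G) * (y : G))⁻¹ =
          (x : G) * ((y : G) * ((Additive.toMul m : ↥M) : G) * (y : G)⁻¹) * (x : G)⁻¹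
        group
      smul_zero := fun x => by
        apply Additive.toMul.injective
        apply Subtype.ext
        show (x : G) * (1 : G) * (x : G)⁻¹ = 1
        group
      smul_add := fun x m n => by
        apply Additive.toMul.injective
        apply Subtype.ext
        show (x : G) * (((Additive.toMul m : ↥M) : G) * ((Additive.toMul n : ↥M) : G)) * (x : G)⁻¹ =
          ((x : G) * ((Additive.toMul m : ↥M) : G) * (x : G)⁻¹) *
            ((x : G) * ((Additive.toMul n : ↥M) : G) * (x : G)⁻¹)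
        group }
  have hs : IsSpecialRankOnePair (A.subgroupOf (A ⊔ B)) (B.subgroupOf (A ⊔ B)) := by
    refine Cfsg.Agent.S5019.result (N := Additive ↥M) ⟨?_, pair_subgroupOf hp⟩ ⟨?_, ?_⟩ ?_ ?_
    · rw [← Subgroup.subgroupOf_sup le_sup_left le_sup_right, Subgroup.subgroupOf_self]
    · exact ⟨⟨fun x y => Subtype.ext (Subtype.ext (cAA x.1.1 x.2 y.1.1 y.2))⟩⟩
    · exact ⟨⟨fun x y => Subtype.ext (Subtype.ext (cBB x.1.1 x.2 y.1.1 y.2))⟩⟩
    · intro a ha a' ha' n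
      apply Additive.toMul.injective
      apply Subtype.ext
      show (a' : G) * ((a : G) * ((Additive.toMul n : ↥M) : G) * (a : G)⁻¹ /
          ((Additive.toMul n : ↥M) : G)) * (a' : G)⁻¹ =
        (a : G) * ((Additive.toMul n : ↥M) : G) * (a : G)⁻¹ / ((Additive.toMul n : ↥M) : G)
      rw [div_eq_mul_inv]
      exact hq a.1 ha a'.1 ha' _ (Additive.toMul n).2
    · obtain ⟨x, hx, y, hy, m, hm, hne⟩ := hX
      refine ⟨⟨x, hx⟩, ⟨y, hy⟩, Additive.ofMul (⟨m, hm⟩ : ↥M), fun h => hne ?_⟩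
      have h1 := congrArg (fun z : Additive ↥M => ((Additive.toMul z : ↥M) : G)) h
      have h2 : y * (x * m * x⁻¹ / m) * y⁻¹ = x * m * x⁻¹ / m := h1
      rwa [div_eq_mul_inv] at h2
  refine ⟨hp, ?_⟩
  intro a ha ha1 b hb hb1 hc
  have h := hs.2 ⟨a, Subgroup.mem_sup_left ha⟩ (Subgroup.mem_subgroupOf.mpr ha)
    (fun h => ha1 (congrArg Subtype.val h)) ⟨b, Subgroup.mem_sup_right hb⟩
    (Subgroup.mem_subgroupOf.mpr hb) (fun h => hb1 (congrArg Subtype.val h))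
    (conjBy_subgroupOf_eq hc)
  exact congrArg Subtype.val h

/-! ### Small tools -/

lemma conj_back (H : Subgroup G) (g : G) : conjBy (conjBy H g) g⁻¹ = H := by
  rw [conjBy_conjBy, inv_mul_cancel, conjBy_one]

lemma conj_back' (H : Subgroup G) (g : G) : conjBy (conjBy H g⁻¹) g = H := by
  rw [conjBy_conjBy, mul_inv_cancel, conjBy_one]

lemma conjBy_mono {H K : Subgroup G} (h : H ≤ K) (g : G) : conjBy H g ≤ conjBy K g :=
  Subgroup.map_mono h

lemma conjBy_of_comm' {B : Subgroup G} {x : G} (h : ∀ y ∈ B, x * y = y * x) : conjBy B x = B := by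
  have h' : ∀ y ∈ B, x⁻¹ * y = y * x⁻¹ := by
    intro y hy
    have := h y hy
    calc x⁻¹ * y = x⁻¹ * (y * x) * x⁻¹ := by group
      _ = x⁻¹ * (x * y) * x⁻¹ := by rw [this]
      _ = y * x⁻¹ := by group
  have := conjBy_of_comm h'
  rwa [inv_inv] at this

lemma ti {S : Set (Subgroup G)} (hS : IsRootSubgroupSet S)
    (hni : ∀ T ∈ S, ¬ IsIsolatedIn (FAdj S) S T) {P Q : Subgroup G} (hP : P ∈ S) (hQ : Q ∈ S)
    {x : G} (hxP : x ∈ P) (hxQ : x ∈ Q) (hx1 : x ≠ 1) : P = Q := by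
  rcases Cfsg.Agent.S5028.result hS (hni P hP) hP Q hQ with h | h
  · exfalso
    have : x ∈ P ⊓ Q := ⟨hxP, hxQ⟩
    rw [h, Subgroup.mem_bot] at this
    exact hx1 this
  · exact h

lemma mk_root {S : Set (Subgroup G)} {T : Subgroup G} (hT : T ∈ S) {x : G} (hx : x ∈ T)
    (hx1 : x ≠ 1) : x ∈ rootElements S := by
  show x ≠ 1 ∧ ∃ A ∈ S, x ∈ A
  exact ⟨hx1, T, hT, hx⟩

lemma comm_rewrite {c e y x : G} (hc : c = e * y) (hyx : y * x = x * y) :
    c * x * c⁻¹ * x⁻¹ = (x * e * x⁻¹ * e⁻¹)⁻¹ := by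
  subst hc
  have : y * x * y⁻¹ = x := by rw [hyx]; group
  calc e * y * x * (e * y)⁻¹ * x⁻¹ = e * (y * x * y⁻¹) * e⁻¹ * x⁻¹ := by group
    _ = e * x * e⁻¹ * x⁻¹ := by rw [this]
    _ = (x * e * x⁻¹ * e⁻¹)⁻¹ := by group

/-- A line partner of `A` never centralizes a rank one partner of `A`. -/
lemma no_central {S : Set (Subgroup G)} (hS : IsRootSubgroupSet S)
    (hni : ∀ T ∈ S, ¬ IsIsolatedIn (FAdj S) S T) {A B C : Subgroup G} (hA : A ∈ S) (hBS : B ∈ S)
    (hp : IsRankOnePair A B) (hCl : C ∈ linePartners S A) : ¬ CM C B := by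
  intro hCB
  obtain ⟨⟨hCS, hCne, hAC⟩, hpart⟩ := hCl
  have cAC : CM A C := CM.of_comm_bot hAC
  obtain ⟨c, hc, hc1⟩ := exists_ne_one hS hCS
  obtain ⟨a, ha, ha1⟩ := exists_ne_one hS hA
  have hz : c ∈ Subgroup.centralizer ((A ⊔ B : Subgroup G) : Set G) := by
    rw [Subgroup.mem_centralizer_iff]
    intro x hx
    exact (CM.sup_left cAC hCB.symm) x hx c hc
  have hno := Cfsg.Agent.S5025.result hS hA ⟨hBS, hp⟩ hz hc1 a ha ha1
  apply hno
  have hne : c * a ≠ 1 := by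
    intro h
    have hcA : c ∈ A := by
      have : c = a⁻¹ := eq_inv_of_mul_eq_one_left h
      rw [this]; exact A.inv_mem ha
    exact hCne (ti hS hni hCS hA hc hcA hc1)
  obtain ⟨T, ⟨hTS, -⟩, hxT⟩ := hpart.2.1 _
    (Subgroup.mul_mem _ (Subgroup.mem_sup_right hc) (Subgroup.mem_sup_left ha)) hne
  exact mk_root hTS hxT hne

/-- The points `A1^b` of the line `A1 ⊔ ⁅A1, B1⁆` are line partners of `⁅A1, B1⁆`. -/
lemma line_point {S : Set (Subgroup G)} (hS : IsRootSubgroupSet S)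
    (hni : ∀ T ∈ S, ¬ IsIsolatedIn (FAdj S) S T) {A1 B1 : Subgroup G} (hA1 : A1 ∈ S)
    (hB1 : B1 ∈ S) (hC : ⁅A1, B1⁆ ∈ S) {b1 : G} (hb1 : b1 ∈ B1) :
    conjBy A1 b1 ∈ linePartners S ⁅A1, B1⁆ := by
  obtain ⟨-, -, r3, -⟩ := Cfsg.Agent.S5029.result hS (hni A1 hA1) hA1 hB1 hC
  obtain ⟨⟨-, hne, hcomm⟩, hpart⟩ := r3
  have hAn : ∀ b ∈ B1, conjBy ⁅A1, B1⁆ b = ⁅A1, B1⁆ := fun b hb =>
    conjBy_of_mem_normalizer _ (mem_normalizer_comm_right hb)
  have hle : ∀ b ∈ B1, conjBy (⁅A1, B1⁆ ⊔ A1) b ≤ ⁅A1, B1⁆ ⊔ A1 := by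
    intro b hb
    rw [conjBy_sup, hAn b hb]
    exact sup_le le_sup_left ((conj_le_of_case hb).trans (le_of_eq (sup_comm _ _)))
  have heq : conjBy (⁅A1, B1⁆ ⊔ A1) b1 = ⁅A1, B1⁆ ⊔ A1 := by
    apply le_antisymm (hle b1 hb1)
    have := conjBy_mono (hle b1⁻¹ (B1.inv_mem hb1)) b1
    rwa [conj_back' (⁅A1, B1⁆ ⊔ A1) b1] at this
  have hN' : ⁅A1, B1⁆ ⊔ conjBy A1 b1 = ⁅A1, B1⁆ ⊔ A1 := by
    have e1 : conjBy (⁅A1, B1⁆ ⊔ A1) b1 = conjBy ⁅A1, B1⁆ b1 ⊔ conjBy A1 b1 := conjBy_sup _ _ _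
    rw [hAn b1 hb1] at e1
    exact e1.symm.trans heq
  have hPne : conjBy A1 b1 ≠ ⁅A1, B1⁆ := by
    intro h0
    exact hne (conjBy_injective b1 (h0.trans (hAn b1 hb1).symm))
  show (conjBy A1 b1 ∈ S ∧ conjBy A1 b1 ≠ ⁅A1, B1⁆ ∧ ⁅⁅A1, B1⁆, conjBy A1 b1⁆ = ⊥) ∧
    IsSubgroupPartition (⁅A1, B1⁆ ⊔ conjBy A1 b1) (membersIn S (⁅A1, B1⁆ ⊔ conjBy A1 b1))
  refine ⟨⟨hS.conj_mem A1 hA1 b1, hPne, ?_⟩, ?_⟩
  · have := (CM.of_comm_bot hcomm).conj b1
    rw [hAn b1 hb1] at this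
    exact this.comm_bot
  · rw [hN']; exact hpart

/-- Some line partner of `A = ⁅A1, B1⁆` is in the commutator case with `B`. -/
lemma exists_C {S : Set (Subgroup G)} (hS : IsRootSubgroupSet S)
    (hni : ∀ T ∈ S, ¬ IsIsolatedIn (FAdj S) S T) {A1 B1 B : Subgroup G} (hA1 : A1 ∈ S)
    (hB1 : B1 ∈ S) (hC : ⁅A1, B1⁆ ∈ S) (hBS : B ∈ S) (hp : IsRankOnePair ⁅A1, B1⁆ B) :
    ∃ C, C ∈ linePartners S ⁅A1, B1⁆ ∧ RootCommutatorCase S C B := by
  obtain ⟨r1, -, r3, -⟩ := Cfsg.Agent.S5029.result hS (hni A1 hA1) hA1 hB1 hC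
  have hA1l : A1 ∈ linePartners S ⁅A1, B1⁆ := r3
  obtain ⟨⟨-, hne, hcomm⟩, hpart⟩ := r3
  rcases hS.pair A1 hA1 B hBS with h | h | h
  · exact absurd (CM.of_comm_bot h) (no_central hS hni hC hBS hp hA1l)
  · obtain ⟨b, hbB, hbne⟩ := exists_ne_one hS hBS
    obtain ⟨a, ha, ha1, hca⟩ := hp.cond_right b hbB hbne
    obtain ⟨a1, ha1m, ha11, hca1⟩ := h.cond_right b hbB hbne
    have cAA1 : CM ⁅A1, B1⁆ A1 := CM.of_comm_bot hcomm
    have c1 : CM (conjBy B a⁻¹) (conjBy B a1⁻¹) := by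
      rw [hca, hca1]; exact cAA1.conj b⁻¹
    have c2 : CM B (conjBy B (a * a1⁻¹)) := by
      have := c1.conj a
      rwa [conj_back' B a, conjBy_conjBy] at this
    have hgN : a * a1⁻¹ ∈ ⁅A1, B1⁆ ⊔ A1 :=
      Subgroup.mul_mem _ (Subgroup.mem_sup_left ha) (Subgroup.mem_sup_right (A1.inv_mem ha1m))
    have hgA : a * a1⁻¹ ∉ ⁅A1, B1⁆ := by
      intro hmem
      have h1 : a1⁻¹ ∈ ⁅A1, B1⁆ := by
        have := Subgroup.mul_mem _ (Subgroup.inv_mem _ ha) hmem
        rwa [inv_mul_cancel_left] at this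
      have h2 : a1 ∈ ⁅A1, B1⁆ := by
        have := Subgroup.inv_mem _ h1
        rwa [inv_inv] at this
      exact hne (ti hS hni hA1 hC ha1m h2 ha11)
    have hg1 : a * a1⁻¹ ≠ 1 := fun h0 => hgA (by rw [h0]; exact Subgroup.one_mem _)
    obtain ⟨P, hP, hgP⟩ := hpart.2.1 _ hgN hg1
    have hPne : P ≠ ⁅A1, B1⁆ := by
      intro h0
      rw [h0] at hgP
      exact hgA hgP
    rw [sup_comm, r1] at hP
    rcases hP with ⟨b1, hb1m, rfl⟩ | hP
    · have hPl : conjBy A1 b1 ∈ linePartners S ⁅A1, B1⁆ := line_point hS hni hA1 hB1 hC hb1m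
      have hPS := hS.conj_mem A1 hA1 b1
      have hnc := no_central hS hni hC hBS hp hPl
      rcases hS.pair _ hPS B hBS with h3 | h3 | h3
      · exact absurd (CM.of_comm_bot h3) hnc
      · exfalso
        obtain ⟨b', hb', hb'1, hcb'⟩ := h3.cond_left _ hgP hg1
        have c3 : CM (conjBy B (a * a1⁻¹)⁻¹) B := by
          have := c2.conj (a * a1⁻¹)⁻¹
          rwa [conj_back B (a * a1⁻¹)] at this
        rw [← hcb'] at c3
        have c4 := c3.conj b'
        rw [conj_back' (conjBy A1 b1) b', conjBy_of_mem B hb'] at c4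
        exact hnc c4
      · exact ⟨_, hPl, h3⟩
    · exact absurd (Set.mem_singleton_iff.mp hP) hPne
  · exact ⟨A1, hA1l, h⟩

/-- The key equation: `⁅A, ⁅C, B⁆⁆ = C`. -/
lemma comm_eq {S : Set (Subgroup G)} (hS : IsRootSubgroupSet S)
    (hni : ∀ T ∈ S, ¬ IsIsolatedIn (FAdj S) S T) {A B C : Subgroup G} (hA : A ∈ S) (hBS : B ∈ S)
    (hp : IsRankOnePair A B) (hCl : C ∈ linePartners S A) (hcB : RootCommutatorCase S C B) :
    ⁅A, ⁅C, B⁆⁆ = C := by
  obtain ⟨E, hE⟩ : ∃ E : Subgroup G, E = ⁅C, B⁆ := ⟨_, rfl⟩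
  rw [← hE]
  have hCl' := hCl
  obtain ⟨⟨hCS, hCne, hAC⟩, hpart⟩ := hCl
  have cAC : CM A C := CM.of_comm_bot hAC
  have hES : E ∈ S := by rw [hE]; exact hcB.1
  have cEC : CM E C := by
    intro e he c hc
    rw [hE] at he
    exact hcB.2.1 e he c (Subgroup.mem_sup_left hc)
  have cEB : CM E B := by
    intro e he b hb
    rw [hE] at he
    exact hcB.2.1 e he b (Subgroup.mem_sup_right hb)
  have cEE : CM E E := CM_of_isMulComm (hS.commutative E hES)
  have hEbot : E ≠ ⊥ := hS.ne_bot E hES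
  have hCb : ∀ b ∈ B, conjBy C b ≤ C ⊔ E := by
    intro b hb
    have := conj_le_of_case (A := C) (B := B) hb
    rwa [← hE] at this
  -- (3a) `A` does not commute with `E`
  have h3a : ¬ CM A E := by
    intro cAE
    obtain ⟨b, hb, hb1⟩ := exists_ne_one hS hBS
    obtain ⟨a0, ha0, ha01, hc0⟩ := hp.cond_right b hb hb1
    have c1 : CM A (conjBy C b) := (CM.sup_right cAC cAE).mono le_rfl (hCb b hb)
    have c2 : CM (conjBy A b⁻¹) C := by
      have := c1.conj b⁻¹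
      rwa [conj_back C b] at this
    rw [← hc0] at c2
    have c3 := c2.conj a0
    rw [conj_back' B a0, conjBy_of_comm' (fun y hy => cAC a0 ha0 y hy)] at c3
    have : ⁅C, B⁆ = ⊥ := c3.symm.comm_bot
    rw [← hE] at this
    exact hEbot this
  -- (3b), (3c) the pair `(A, E)` is in the commutator case
  have hAE : RootCommutatorCase S A E := by
    rcases hS.pair A hA E hES with h | h | h
    · exact absurd (CM.of_comm_bot h) h3a
    · exact absurd cEC.symm (no_central hS hni hA hES h hCl')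
    · exact h
  obtain ⟨D, hD⟩ : ∃ D : Subgroup G, D = ⁅A, E⁆ := ⟨_, rfl⟩
  rw [← hD]
  have hDS : D ∈ S := by rw [hD]; exact hAE.1
  have cDA : CM D A := by
    intro d hd a ha
    rw [hD] at hd
    exact hAE.2.1 d hd a (Subgroup.mem_sup_left ha)
  have cDE : CM D E := by
    intro d hd e he
    rw [hD] at hd
    exact hAE.2.1 d hd e (Subgroup.mem_sup_right he)
  have cDD : CM D D := CM_of_isMulComm (hS.commutative D hDS)
  have hDbot : D ≠ ⊥ := hS.ne_bot D hDS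
  have hEa : ∀ a ∈ A, conjBy E a ≤ E ⊔ D := by
    intro a ha
    have := conj_le_of_case (A := E) (B := A) ha
    rwa [Subgroup.commutator_comm E A, ← hD] at this
  -- (3d)
  have h3d : ∀ a0 ∈ A, ∀ b ∈ B, conjBy B a0⁻¹ = conjBy A b⁻¹ →
      conjBy E a0⁻¹ = conjBy D b⁻¹ := by
    intro a0 ha0 b hb hc0
    have hle : conjBy E a0⁻¹ ≤ conjBy D b⁻¹ := by
      have e1 : conjBy E a0⁻¹ = ⁅C, conjBy A b⁻¹⁆ := by
        have h1 : conjBy ⁅C, B⁆ a0⁻¹ = ⁅conjBy C a0⁻¹, conjBy B a0⁻¹⁆ :=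
          Subgroup.map_commutator _ _ _
        rw [← hE, hc0, conjBy_of_comm (fun y hy => cAC a0 ha0 y hy)] at h1
        exact h1
      have e2 : conjBy D b⁻¹ = ⁅conjBy A b⁻¹, E⁆ := by
        have h1 : conjBy ⁅A, E⁆ b⁻¹ = ⁅conjBy A b⁻¹, conjBy E b⁻¹⁆ :=
          Subgroup.map_commutator _ _ _
        rw [← hD, conjBy_of_comm (fun y hy => (cEB y hy b hb).symm)] at h1
        exact h1
      rw [e1, e2, Subgroup.commutator_le]
      intro c hc x hx
      have he0 : b * c * b⁻¹ * c⁻¹ ∈ E := by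
        rw [hE, Subgroup.commutator_comm]
        exact Subgroup.commutator_mem_commutator hb hc
      have hy : b⁻¹ * c * b ∈ conjBy C b⁻¹ := by
        rw [mem_conjBy]
        have : (b⁻¹)⁻¹ * (b⁻¹ * c * b) * b⁻¹ = c := by group
        rw [this]; exact hc
      have cyx : (b⁻¹ * c * b) * x = x * (b⁻¹ * c * b) := cAC.symm.conj b⁻¹ _ hy _ hx
      have hb_e0 : (b * c * b⁻¹ * c⁻¹) * b = b * (b * c * b⁻¹ * c⁻¹) := cEB _ he0 b hb
      have hceq : c = (b * c * b⁻¹ * c⁻¹) * (b⁻¹ * c * b) := by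
        calc c = b⁻¹ * ((b * c * b⁻¹ * c⁻¹) * b) * (b⁻¹ * c * b) := by group
          _ = b⁻¹ * (b * (b * c * b⁻¹ * c⁻¹)) * (b⁻¹ * c * b) := by rw [hb_e0]
          _ = (b * c * b⁻¹ * c⁻¹) * (b⁻¹ * c * b) := by group
      have hfin : c * x * c⁻¹ * x⁻¹ =
          (x * (b * c * b⁻¹ * c⁻¹) * x⁻¹ * (b * c * b⁻¹ * c⁻¹)⁻¹)⁻¹ := comm_rewrite hceq cyx
      rw [commutatorElement_def, hfin]
      exact Subgroup.inv_mem _ (Subgroup.commutator_mem_commutator hx he0)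
    obtain ⟨x, hx, hx1⟩ := exists_ne_one hS (hS.conj_mem E hES a0⁻¹)
    exact ti hS hni (hS.conj_mem E hES a0⁻¹) (hS.conj_mem D hDS b⁻¹) hx (hle hx) hx1
  -- (3e) `B` maps `D` into `E ⊔ D`
  have hDb : ∀ b ∈ B, conjBy D b ≤ E ⊔ D := by
    intro b hb
    by_cases hb1 : b = 1
    · rw [hb1, conjBy_one]; exact le_sup_right
    · obtain ⟨a0, ha0, -, hc0⟩ := hp.cond_right b⁻¹ (B.inv_mem hb) (inv_ne_one.mpr hb1)
      have := h3d a0 ha0 b⁻¹ (B.inv_mem hb) hc0
      rw [inv_inv] at this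
      rw [← this]
      exact hEa a0⁻¹ (A.inv_mem ha0)
  have hDB : RootCommutatorCase S D B := by
    rcases hS.pair D hDS B hBS with h | h | h
    · exfalso
      have cDB : CM D B := CM.of_comm_bot h
      obtain ⟨b, hb, hb1⟩ := exists_ne_one hS hBS
      obtain ⟨a0, ha0, ha01, hc0⟩ := hp.cond_right b hb hb1
      have e1 := h3d a0 ha0 b hb hc0
      rw [conjBy_of_comm (fun y hy => (cDB y hy b hb).symm)] at e1
      have e2 : conjBy D a0⁻¹ = D := conjBy_of_comm (fun y hy => (cDA y hy a0 ha0).symm)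
      have e3 : E = D := conjBy_injective a0⁻¹ (e1.trans e2.symm)
      apply h3a
      intro a ha e he
      rw [e3] at he
      exact (cDA e he a ha).symm
    · exfalso
      obtain ⟨b, hb, hb1⟩ := exists_ne_one hS hBS
      obtain ⟨d, hd, hd1, hc0⟩ := h.cond_right b hb hb1
      have h1 : conjBy B d⁻¹ ≤ E ⊔ D := by rw [hc0]; exact hDb b⁻¹ (B.inv_mem hb)
      have cM : CM (E ⊔ D) (E ⊔ D) :=
        CM.sup_left (CM.sup_right cEE cDE.symm) (CM.sup_right cDE cDD)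
      have h2 : d⁻¹ * b * d ∈ conjBy B d⁻¹ := by
        rw [mem_conjBy]
        have : (d⁻¹)⁻¹ * (d⁻¹ * b * d) * d⁻¹ = b := by group
        rw [this]; exact hb
      have h3 : (d⁻¹ * b * d) * d = d * (d⁻¹ * b * d) :=
        cM _ (h1 h2) d (Subgroup.mem_sup_right hd)
      have h5 : d⁻¹ * b * d = b := by
        have e : d * (d⁻¹ * b * d) = b * d := by group
        rw [e] at h3
        exact mul_right_cancel h3
      have h4 : d * b = b * d := by
        calc d * b = d * (d⁻¹ * b * d) := by rw [h5]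
          _ = b * d := by group
      exact not_comm_of_pair hS hDS hBS h hd hd1 hb hb1 h4
    · exact h
  have hE' : ⁅D, B⁆ = E := by
    have hle : ⁅D, B⁆ ≤ E ⊔ ⁅E, A⁆ := by
      rw [Subgroup.commutator_comm E A, ← hD, Subgroup.commutator_le]
      intro d hd b hb
      rw [commutatorElement_def]
      have h1 : b * d⁻¹ * b⁻¹ ∈ conjBy D b := by
        rw [mem_conjBy]
        have : b⁻¹ * (b * d⁻¹ * b⁻¹) * b = d⁻¹ := by group
        rw [this]; exact D.inv_mem hd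
      have h2 : d * b * d⁻¹ * b⁻¹ = d * (b * d⁻¹ * b⁻¹) := by group
      rw [h2]
      exact Subgroup.mul_mem _ (Subgroup.mem_sup_right hd) (hDb b hb h1)
    rcases members_of_case hS (hni E hES) hES (case_symm hAE) hDB.1 hle with h | ⟨a, ha, h⟩
    · exfalso
      rw [Subgroup.commutator_comm E A, ← hD] at h
      have h0 := inf_comm_eq_bot hS (hni D hDS) hDS hDB
      rw [h, inf_idem] at h0
      exact hDbot h0
    · by_cases ha1 : a = 1
      · rw [h, ha1, conjBy_one]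
      · exfalso
        obtain ⟨b0, hb0, hb01, hcb⟩ := hp.cond_left a⁻¹ (A.inv_mem ha) (inv_ne_one.mpr ha1)
        rw [inv_inv] at hcb
        have c1 : CM (conjBy E a) (conjBy B a) := cEB.conj a
        rw [← hcb, ← h] at c1
        have cE'B : CM ⁅D, B⁆ B := fun c hc x hx => hDB.2.1 c hc x (Subgroup.mem_sup_right hx)
        have c2 := c1.conj b0
        rw [conj_back' A b0, conjBy_of_comm' (fun y hy => (cE'B y hy b0 hb0).symm)] at c2
        rw [h] at c2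
        have c3 := c2.conj a⁻¹
        rw [conj_back E a, conjBy_of_mem' ha] at c3
        exact h3a c3.symm
  -- (3f)
  obtain ⟨c, hc, hc1⟩ := exists_ne_one hS hCS
  obtain ⟨b, hb, hb1⟩ := exists_ne_one hS hBS
  have hbc : b * c * b⁻¹ * c⁻¹ ∈ ⁅B, D⁆ := by
    rw [Subgroup.commutator_comm B D, hE', hE, Subgroup.commutator_comm C B]
    exact Subgroup.commutator_mem_commutator hb hc
  obtain ⟨d, hd, hdeq⟩ := kappa_surj (case_symm hDB) hb hb1 _ hbc
  have hgb : Commute (c⁻¹ * d) b := by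
    have h1 : d * b * d⁻¹ = c * b * c⁻¹ := by
      calc d * b * d⁻¹ = (b⁻¹ * (b * d * b⁻¹ * d⁻¹))⁻¹ := by group
        _ = (b⁻¹ * (b * c * b⁻¹ * c⁻¹))⁻¹ := by rw [hdeq]
        _ = c * b * c⁻¹ := by group
    show (c⁻¹ * d) * b = b * (c⁻¹ * d)
    calc (c⁻¹ * d) * b = c⁻¹ * (d * b * d⁻¹) * d := by group
      _ = c⁻¹ * (c * b * c⁻¹) * d := by rw [h1]
      _ = b * (c⁻¹ * d) := by group
  have hgA : ∀ x ∈ A, Commute (c⁻¹ * d) x := fun x hx =>
    (show Commute c x from (cAC x hx c hc).symm).inv_left.mul_left (cDA d hd x hx)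
  have hgE : ∀ e ∈ E, Commute (c⁻¹ * d) e := fun e he =>
    (show Commute c e from (cEC e he c hc).symm).inv_left.mul_left (cDE d hd e he)
  obtain ⟨a0, ha0, ha01, hc0⟩ := hp.cond_right b hb hb1
  have hgB : ∀ y ∈ B, Commute (c⁻¹ * d) y := by
    intro y hy
    have h1 : a0⁻¹ * y * a0 ∈ conjBy B a0⁻¹ := by
      rw [mem_conjBy]
      have : (a0⁻¹)⁻¹ * (a0⁻¹ * y * a0) * a0⁻¹ = y := by group
      rw [this]; exact hy
    rw [hc0, mem_conjBy, inv_inv] at h1
    have k1 : Commute (c⁻¹ * d) (b * (a0⁻¹ * y * a0) * b⁻¹) := hgA _ h1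
    have k3 : Commute (c⁻¹ * d) a0 := hgA a0 ha0
    have e : y = a0 * (b⁻¹ * (b * (a0⁻¹ * y * a0) * b⁻¹) * b) * a0⁻¹ := by group
    have key : Commute (c⁻¹ * d) (a0 * (b⁻¹ * (b * (a0⁻¹ * y * a0) * b⁻¹) * b) * a0⁻¹) :=
      (k3.mul_right ((hgb.inv_right.mul_right k1).mul_right hgb)).mul_right k3.inv_right
    rw [e]; exact key
  have hz : (c⁻¹ * d)⁻¹ ∈ Subgroup.centralizer ((A ⊔ B : Subgroup G) : Set G) := by
    rw [Subgroup.mem_centralizer_iff]
    intro x hx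
    have hle : A ⊔ B ≤ Subgroup.centralizer {c⁻¹ * d} := sup_le
      (fun y hy => Subgroup.mem_centralizer_singleton_iff.mpr (hgA y hy).eq.symm)
      (fun y hy => Subgroup.mem_centralizer_singleton_iff.mpr (hgB y hy).eq.symm)
    have k : Commute x (c⁻¹ * d) := Subgroup.mem_centralizer_singleton_iff.mp (hle hx)
    exact k.inv_right.eq
  by_cases hg1 : c⁻¹ * d = 1
  · have hcd : c = d := inv_mul_eq_one.mp hg1
    have hcD : c ∈ D := by rw [hcd]; exact hd
    exact (ti hS hni hCS hDS hc hcD hc1).symm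
  · exfalso
    obtain ⟨a, ha, ha1⟩ := exists_ne_one hS hA
    have hno := Cfsg.Agent.S5025.result hS hA ⟨hBS, hp⟩ hz (inv_ne_one.mpr hg1) a ha ha1
    apply hno
    have hdAE : d ∈ ⁅A, E⁆ := by rw [← hD]; exact hd
    obtain ⟨e, he, hae⟩ := mem_conj_of_case hAE ha ha1 hdAE
    have hac1 : a * c ≠ 1 := by
      intro h0
      have hcA : c ∈ A := by
        have : c = a⁻¹ := eq_inv_of_mul_eq_one_right h0
        rw [this]; exact A.inv_mem ha
      exact hCne (ti hS hni hCS hA hc hcA hc1)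
    obtain ⟨T, ⟨hTS, -⟩, hacT⟩ := hpart.2.1 _
      (Subgroup.mul_mem _ (Subgroup.mem_sup_left ha) (Subgroup.mem_sup_right hc)) hac1
    have kga : Commute (c⁻¹ * d) a := hgA a ha
    have kge : Commute (c⁻¹ * d) e := hgE e he
    have key : (c⁻¹ * d)⁻¹ * a = e⁻¹ * (a * c) * e := by
      calc (c⁻¹ * d)⁻¹ * a = a * (c⁻¹ * d)⁻¹ := kga.inv_left.eq
        _ = a * (e⁻¹ * (c⁻¹ * d)⁻¹ * e) := by rw [kge.symm.inv_right.inv_mul_cancel]
        _ = e⁻¹ * (e * a * e⁻¹) * (c⁻¹ * d)⁻¹ * e := by group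
        _ = e⁻¹ * (a * d) * (c⁻¹ * d)⁻¹ * e := by rw [hae]
        _ = e⁻¹ * (a * c) * e := by group
    rw [key]
    apply mk_root (hS.conj_mem T hTS e⁻¹)
    · rw [mem_conjBy]
      have : (e⁻¹)⁻¹ * (e⁻¹ * (a * c) * e) * e⁻¹ = a * c := by group
      rw [this]; exact hacT
    · intro h0
      apply hac1
      calc a * c = e * (e⁻¹ * (a * c) * e) * e⁻¹ := by group
        _ = 1 := by rw [h0]; group

/-- The rank one pair is special. -/
theorem core {S : Set (Subgroup G)} (hS : IsRootSubgroupSet S)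
    (hni : ∀ T ∈ S, ¬ IsIsolatedIn (FAdj S) S T) {A B C : Subgroup G} (hA : A ∈ S) (hBS : B ∈ S)
    (hp : IsRankOnePair A B) (hCl : C ∈ linePartners S A) (hcB : RootCommutatorCase S C B) :
    IsSpecialRankOnePair A B := by
  have hDCA : ⁅A, ⁅C, B⁆⁆ = C := comm_eq hS hni hA hBS hp hCl hcB
  obtain ⟨⟨hCS, -, -⟩, -⟩ := hCl
  have hconf : Conf S C B A :=
    { hS := hS, hA := hCS, hB := hBS, hD := hA, hAB := hcB,
      hDC := case_of_mem hS hA hcB.1 (by rw [hDCA]; exact hCS), hDCA := hDCA }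
  have hpBA : IsRankOnePair B A := RankOnePair_symm hp
  apply special_of_action (M := C ⊔ ⁅C, B⁆) hp (CM_of_isMulComm (hS.commutative A hA))
    (CM_of_isMulComm (hS.commutative B hBS))
  · have cCC : CM C C := CM_of_isMulComm (hS.commutative C hCS)
    have cEE : CM ⁅C, B⁆ ⁅C, B⁆ := CM_of_isMulComm (hS.commutative _ hcB.1)
    have cEC : CM ⁅C, B⁆ C := fun e he c hc => hconf.cA e he c hc
    exact CM.sup_left (CM.sup_right cCC cEC.symm) (CM.sup_right cEC cEE)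
  · have hle : A ⊔ B ≤ Subgroup.normalizer ((C ⊔ ⁅C, B⁆ : Subgroup G) : Set G) := by
      apply sup_le
      · intro a ha
        rw [Subgroup.mem_normalizer_iff]
        intro n
        constructor
        · exact hconf.dN a ha n
        · intro hn
          have := hconf.dN a⁻¹ (A.inv_mem ha) _ hn
          have e : a⁻¹ * (a * n * a⁻¹) * a⁻¹⁻¹ = n := by group
          rwa [e] at this
      · intro b hb
        rw [Subgroup.mem_normalizer_iff]
        intro n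
        constructor
        · exact hconf.bN b hb n
        · intro hn
          have := hconf.bN b⁻¹ (B.inv_mem hb) _ hn
          have e : b⁻¹ * (b * n * b⁻¹) * b⁻¹⁻¹ = n := by group
          rwa [e] at this
    intro x hx m hm
    exact (Subgroup.mem_normalizer_iff.mp (hle hx) m).mp hm
  · intro a ha a' ha' m hm
    have h1 : a * m * a⁻¹ * m⁻¹ ∈ C := hconf.kdN a ha m hm
    exact conj_cancel (show Commute a' (a * m * a⁻¹ * m⁻¹) from (hconf.aD _ h1 a' ha').symm)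
  · obtain ⟨b, hb, hb1⟩ := exists_ne_one hS hBS
    obtain ⟨c, hc, hc1⟩ := exists_ne_one hS hCS
    obtain ⟨a, ha, ha1⟩ := exists_ne_one hS hA
    have he : b * c * b⁻¹ * c⁻¹ ∈ ⁅C, B⁆ := by
      rw [Subgroup.commutator_comm]
      exact Subgroup.commutator_mem_commutator hb hc
    have he1 : b * c * b⁻¹ * c⁻¹ ≠ 1 := by
      intro h0
      apply hc1
      apply hconf.inj1 hpBA b hb hb1 c hc
      calc b * c = (b * c * b⁻¹ * c⁻¹) * (c * b) := by group
        _ = c * b := by rw [h0, one_mul]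
    refine ⟨b, Subgroup.mem_sup_right hb, a, Subgroup.mem_sup_left ha, c,
      Subgroup.mem_sup_left hc, ?_⟩
    intro h0
    apply he1
    apply hconf.inj2 hpBA a ha ha1 _ he
    calc a * (b * c * b⁻¹ * c⁻¹) = (a * (b * c * b⁻¹ * c⁻¹) * a⁻¹) * a := by group
      _ = (b * c * b⁻¹ * c⁻¹) * a := by rw [h0]

/-- Let S be a non-degenerate class of abstract root subgroups of G, A ∈ S and B a rank one partner of A. Then some line partner C of A has ⁅B, C⁆ ∈ S, and the rank one pair A, B is special. -/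
theorem result {G : Type*} [Group G] {S : Set (Subgroup G)} (hS : Cfsg.IsRootSubgroupClass S) (hnd : Cfsg.IsNondegenerateRootSet S)
    {A B : Subgroup G} (hA : A ∈ S) (hB : B ∈ Cfsg.rankOnePartners S A) :
    (∃ C ∈ Cfsg.linePartners S A, C ∈ Cfsg.commutatorPartners S B) ∧ Cfsg.IsSpecialRankOnePair A B := by
  obtain ⟨hS1, hS2⟩ := hS
  obtain ⟨hBS, hp⟩ := hB
  have hni : ∀ T ∈ S, ¬ IsIsolatedIn (FAdj S) S T := by
    intro T hT
    obtain ⟨g, rfl⟩ := hS2.2 A hA T hT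
    exact nonisolated (hS1.conj_mem A hA g) (hS1.conj_mem B hBS g) (conj_pair hp g)
  obtain ⟨-, -, A1', hA1', B1', hB1', hcase⟩ := hnd
  obtain ⟨g, hg⟩ := hS2.2 _ hcase.1 A hA
  have hcomm : ⁅conjBy A1' g, conjBy B1' g⁆ = A := by
    have h1 : conjBy ⁅A1', B1'⁆ g = ⁅conjBy A1' g, conjBy B1' g⁆ := Subgroup.map_commutator _ _ _
    rw [hg, h1]
  have hA1 := hS1.conj_mem A1' hA1' g
  have hB1 := hS1.conj_mem B1' hB1' g
  subst hcomm
  obtain ⟨C, hCl, hcB⟩ := exists_C hS1 hni hA1 hB1 hA hBS hp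
  have hCp : C ∈ commutatorPartners S B := by
    obtain ⟨⟨hCS, -, -⟩, -⟩ := hCl
    show C ∈ S ∧ ⁅B, C⁆ ∈ S
    refine ⟨hCS, ?_⟩
    rw [Subgroup.commutator_comm]; exact hcB.1
  exact ⟨⟨C, hCl, hCp⟩, core hS1 hni hA hBS hp hCl hcB⟩

end Cfsg.Agent.S5034
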