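import Cfsg.Statements.S5041
import Cfsg.Agent.S5034
import Mathlib
set_option autoImplicit false
open Cfsg
open scoped commutatorElement

namespace Cfsg.Agent.S5041

open Cfsg.Agent.S5013 (conjBy_conjBy conjBy_one conjBy_of_mem conjBy_of_mem_normalizer)
open Cfsg.Agent.S5028 (mem_conjBy conjBy_of_comm conjBy_of_mem' comm_of_comm_bot)
open Cfsg.Agent.S5025 (nonisolated not_comm_of_pair)
open Cfsg.Agent.S5029 (exists_ne_one inf_comm_eq_bot)
open Cfsg.Agent.S5030 (CM conjBy_sup case_of_mem)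
open Cfsg.Agent.S5032 (conj_pair)
open Cfsg.Agent.S5034 (conjBy_mono conjBy_of_comm' line_point)
open Cfsg.Agent.S5036 (case_symm)
open Cfsg.Agent.Lib.helper25 (conjBy_injective)

variable {G : Type*} [Group G]

/-- Being line partners is symmetric. -/
lemma line_symm {S : Set (Subgroup G)} {A B : Subgroup G} (hB : B ∈ linePartners S A)
    (hA : A ∈ S) : A ∈ linePartners S B := by
  obtain ⟨⟨hBS, hne, hcomm⟩, hpart⟩ := hB
  show (A ∈ S ∧ A ≠ B ∧ ⁅B, A⁆ = ⊥) ∧ IsSubgroupPartition (B ⊔ A) (membersIn S (B ⊔ A))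
  refine ⟨⟨hA, hne.symm, ?_⟩, ?_⟩
  · rw [Subgroup.commutator_comm]; exact hcomm
  · rw [sup_comm]; exact hpart

/-- Line partners are preserved by conjugation. -/
lemma line_conj {S : Set (Subgroup G)} (hS : IsRootSubgroupSet S)
    (hni : ∀ T ∈ S, ¬ IsIsolatedIn (FAdj S) S T) {A B : Subgroup G}
    (hB : B ∈ linePartners S A) (g : G) : conjBy B g ∈ linePartners S (conjBy A g) := by
  obtain ⟨⟨hBS, hne, hcomm⟩, hpart⟩ := hB
  show (conjBy B g ∈ S ∧ conjBy B g ≠ conjBy A g ∧ ⁅conjBy A g, conjBy B g⁆ = ⊥) ∧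
    IsSubgroupPartition (conjBy A g ⊔ conjBy B g) (membersIn S (conjBy A g ⊔ conjBy B g))
  refine ⟨⟨hS.conj_mem B hBS g, fun h => hne (conjBy_injective g h),
    ((CM.of_comm_bot hcomm).conj g).comm_bot⟩, ?_⟩
  rw [← conjBy_sup]
  refine ⟨fun T hT => hT.2, ?_, ?_⟩
  · intro x hx hx1
    rw [mem_conjBy] at hx
    have hne1 : g⁻¹ * x * g ≠ 1 := by
      intro h0; apply hx1
      calc x = g * (g⁻¹ * x * g) * g⁻¹ := by group
        _ = 1 := by rw [h0]; group
    obtain ⟨T, ⟨hTS, hTle⟩, hxT⟩ := hpart.2.1 _ hx hne1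
    refine ⟨conjBy T g, ⟨hS.conj_mem T hTS g, conjBy_mono hTle g⟩, ?_⟩
    rw [mem_conjBy]; exact hxT
  · intro T hT T' hT' hTT'
    rcases Cfsg.Agent.S5028.result hS (hni T hT.1) hT.1 T' hT'.1 with h | h
    · exact h
    · exact absurd h hTT'

/-- If every conjugation by an element of a member is a path, then every conjugation is. -/
lemma all_path_gen {S : Set (Subgroup G)} (hS : IsRootSubgroupSet S)
    {r : Subgroup G → Subgroup G → Prop}
    (hstep : ∀ A ∈ S, ∀ B ∈ S, ∀ b ∈ B, Relation.ReflTransGen r A (conjBy A b)) (g : G) :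
    ∀ A ∈ S, Relation.ReflTransGen r A (conjBy A g) := by
  have hg : g ∈ (⨆ B ∈ S, B) := by rw [hS.generates]; exact Subgroup.mem_top g
  rw [iSup_subtype'] at hg
  refine Subgroup.iSup_induction
    (C := fun g => ∀ A ∈ S, Relation.ReflTransGen r A (conjBy A g)) _ hg ?_ ?_ ?_
  · rintro ⟨B, hB⟩ b hb A hA
    exact hstep A hA B hB b hb
  · intro A hA
    have e := conjBy_one A
    rw [e]
  · intro x y hx hy A hA
    rw [← conjBy_conjBy]
    exact (hy A hA).trans (hx _ (hS.conj_mem A hA y))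

lemma dadj_of_case {S : Set (Subgroup G)} (hS1 : IsRootSubgroupSet S)
    (hni : ∀ T ∈ S, ¬ IsIsolatedIn (FAdj S) S T) {A B : Subgroup G} (hA : A ∈ S) (hB : B ∈ S)
    (h : RootCommutatorCase S A B) : DAdj S A ⁅A, B⁆ ∧ DAdj S ⁅A, B⁆ B := by
  have hE : ⁅A, B⁆ ∈ S := h.1
  have cEA : CM ⁅A, B⁆ A := fun e he a ha => h.2.1 e he a (Subgroup.mem_sup_left ha)
  have cEB : CM ⁅A, B⁆ B := fun e he b hb => h.2.1 e he b (Subgroup.mem_sup_right hb)
  have h1 : A ≠ ⁅A, B⁆ := by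
    intro h0
    have := inf_comm_eq_bot hS1 (hni A hA) hA h
    rw [← h0, inf_idem] at this
    exact hS1.ne_bot A hA this
  have h2 : ⁅A, B⁆ ≠ B := by
    intro h0
    have := inf_comm_eq_bot hS1 (hni B hB) hB (case_symm h)
    rw [Subgroup.commutator_comm B A, h0, inf_idem] at this
    exact hS1.ne_bot B hB this
  exact ⟨⟨hA, hE, h1, cEA.symm.comm_bot⟩, ⟨hE, hB, h2, cEB.comm_bot⟩⟩

lemma eadj_symm {S : Set (Subgroup G)} {A B : Subgroup G} (h : EAdj S S A B) : EAdj S S B A :=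
  ⟨h.2.1, h.1, line_symm h.2.2 h.1⟩

lemma eadj_of_case {S : Set (Subgroup G)} (hS : IsRootSubgroupSet S)
    (hni : ∀ T ∈ S, ¬ IsIsolatedIn (FAdj S) S T) {A B : Subgroup G} (hA : A ∈ S) (hB : B ∈ S)
    (hC : ⁅A, B⁆ ∈ S) {b : G} (hb : b ∈ B) : EAdj S S ⁅A, B⁆ (conjBy A b) :=
  ⟨hC, hS.conj_mem A hA b, line_point hS hni hA hB hC hb⟩

lemma eadj_of_case' {S : Set (Subgroup G)} (hS : IsRootSubgroupSet S)
    (hni : ∀ T ∈ S, ¬ IsIsolatedIn (FAdj S) S T) {A B : Subgroup G} (hA : A ∈ S) (hB : B ∈ S)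
    (hC : ⁅A, B⁆ ∈ S) : EAdj S S ⁅A, B⁆ A := by
  have := eadj_of_case hS hni hA hB hC B.one_mem
  rwa [conjBy_one] at this

/-- Conjugating by an element of a member stays in the same component of the line graph. -/
lemma step_E {S : Set (Subgroup G)} (hS : IsRootSubgroupClass S) (hnd : IsNondegenerateRootSet S)
    (hni : ∀ T ∈ S, ¬ IsIsolatedIn (FAdj S) S T) :
    ∀ A ∈ S, ∀ B ∈ S, ∀ b ∈ B, Relation.ReflTransGen (EAdj S S) A (conjBy A b) := by
  intro A hA B hB b hb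
  have hS1 := hS.1
  rcases hS1.pair A hA B hB with h | h | h
  · have e : conjBy A b = A :=
      conjBy_of_comm' (fun y hy => (CM.of_comm_bot h y hy b hb).symm)
    rw [e]
  · obtain ⟨⟨C, hCl, hCp⟩, -⟩ := Cfsg.Agent.S5034.result hS hnd hA ⟨hB, h⟩
    have hCl' := hCl
    obtain ⟨⟨hCS, -, -⟩, -⟩ := hCl'
    obtain ⟨-, hBC⟩ := hCp
    have hCB : ⁅C, B⁆ ∈ S := by rw [Subgroup.commutator_comm]; exact hBC
    have e1 : EAdj S S A C := ⟨hA, hCS, hCl⟩
    have e2 : EAdj S S ⁅C, B⁆ C := eadj_of_case' hS1 hni hCS hB hCB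
    have e3 : EAdj S S ⁅C, B⁆ (conjBy C b) := eadj_of_case hS1 hni hCS hB hCB hb
    have e4 : EAdj S S (conjBy A b) (conjBy C b) :=
      ⟨hS1.conj_mem A hA b, hS1.conj_mem C hCS b, line_conj hS1 hni hCl b⟩
    exact (((Relation.ReflTransGen.single e1).tail (eadj_symm e2)).tail e3).tail (eadj_symm e4)
  · have e2 : EAdj S S ⁅A, B⁆ A := eadj_of_case' hS1 hni hA hB h.1
    have e3 := eadj_of_case hS1 hni hA hB h.1 hb
    exact (Relation.ReflTransGen.single (eadj_symm e2)).tail e3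

lemma d_path {S : Set (Subgroup G)} (hS : IsRootSubgroupClass S) (hnd : IsNondegenerateRootSet S)
    (hni : ∀ T ∈ S, ¬ IsIsolatedIn (FAdj S) S T) {A B : Subgroup G} (hA : A ∈ S) (hB : B ∈ S) :
    Relation.ReflTransGen (DAdj S) A B := by
  have hS1 := hS.1
  by_cases hAB : A = B
  · rw [hAB]
  rcases hS1.pair A hA B hB with h | h | h
  · exact Relation.ReflTransGen.single ⟨hA, hB, hAB, h⟩
  · obtain ⟨⟨C, hCl, hCp⟩, -⟩ := Cfsg.Agent.S5034.result hS hnd hA ⟨hB, h⟩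
    obtain ⟨⟨hCS, hCne, hAC⟩, -⟩ := hCl
    obtain ⟨-, hBC⟩ := hCp
    have hcase : RootCommutatorCase S B C := case_of_mem hS1 hB hCS hBC
    obtain ⟨d1, d2⟩ := dadj_of_case hS1 hni hB hCS hcase
    have d0 : DAdj S A C := ⟨hA, hCS, hCne.symm, hAC⟩
    have d2' : DAdj S C ⁅B, C⁆ := ⟨d2.2.1, d2.1, d2.2.2.1.symm, by
      rw [Subgroup.commutator_comm]; exact d2.2.2.2⟩
    have d1' : DAdj S ⁅B, C⁆ B := ⟨d1.2.1, d1.1, d1.2.2.1.symm, by
      rw [Subgroup.commutator_comm]; exact d1.2.2.2⟩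
    exact ((Relation.ReflTransGen.single d0).tail d2').tail d1'
  · obtain ⟨d1, d2⟩ := dadj_of_case hS1 hni hA hB h
    exact (Relation.ReflTransGen.single d1).tail d2

/-- Let S be a non-degenerate class of abstract root subgroups of G. Then the graph on S joining A to its line partners, and the commuting graph on S, are both connected. -/
theorem result {G : Type*} [Group G] {S : Set (Subgroup G)} (hS : Cfsg.IsRootSubgroupClass S) (hnd : Cfsg.IsNondegenerateRootSet S) :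
    Cfsg.IsConnectedFamily (Cfsg.EAdj S S) S ∧ Cfsg.IsConnectedFamily (Cfsg.DAdj S) S := by
  have hS1 := hS.1
  have hS2 := hS.2
  have hni : ∀ T ∈ S, ¬ IsIsolatedIn (FAdj S) S T := by
    obtain ⟨A0, hA0, B0, hB0, hp0⟩ := hnd.2.1
    intro T hT
    obtain ⟨g, rfl⟩ := hS2.2 A0 hA0 T hT
    exact nonisolated (hS1.conj_mem A0 hA0 g) (hS1.conj_mem B0 hB0 g) (conj_pair hp0 g)
  constructor
  · intro A hA B hB
    obtain ⟨g, rfl⟩ := hS2.2 A hA B hB
    exact all_path_gen hS1 (step_E hS hnd hni) g A hA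
  · intro A hA B hB
    exact d_path hS hnd hni hA hB

end Cfsg.Agent.S5041
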