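import Cfsg.Statements.S5042
import Cfsg.Agent.S5041
import Mathlib
set_option autoImplicit false
open Cfsg
open scoped commutatorElement

namespace Cfsg.Agent.S5042

open Cfsg.Agent.S5013 (conjBy_conjBy conjBy_one conjBy_of_mem conjBy_of_mem_normalizer)
open Cfsg.Agent.S5028 (mem_conjBy conjBy_of_comm conjBy_of_mem' comm_of_comm_bot)
open Cfsg.Agent.S5025 (nonisolated not_comm_of_pair)
open Cfsg.Agent.S5029 (exists_ne_one exists_partner inf_comm_eq_bot kappa_inj conj_le_of_case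
  members_of_case)
open Cfsg.Agent.S5030 (CM conjBy_sup case_of_mem CM_of_isMulComm commutator_le_sup')
open Cfsg.Agent.S5032 (conj_pair)
open Cfsg.Agent.S5034 (conjBy_mono conjBy_of_comm' line_point conj_back conj_back' ti no_central
  comm_eq)
open Cfsg.Agent.S5036 (case_symm)
open Cfsg.Agent.S5041 (line_symm line_conj)
open Cfsg.Agent.Lib.helper25 (conjBy_injective rankOne_B_conj)

variable {G : Type*} [Group G]

lemma conj_le {K R : Subgroup G} (hK : K ≤ R) {r : G} (hr : r ∈ R) : conjBy K r ≤ R := by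
  intro y hy
  rw [mem_conjBy] at hy
  have h1 := R.mul_mem (R.mul_mem hr (hK hy)) (R.inv_mem hr)
  have e : r * (r⁻¹ * y * r) * r⁻¹ = y := by group
  rwa [e] at h1

/-- Some point `A1^b1` of the line through `⁅A1, B1⁆` and `A1` is in the commutator case
with a given rank one partner `B` of `⁅A1, B1⁆`. -/
lemma exists_C' {S : Set (Subgroup G)} (hS : IsRootSubgroupSet S)
    (hni : ∀ T ∈ S, ¬ IsIsolatedIn (FAdj S) S T) {A1 B1 B : Subgroup G} (hA1 : A1 ∈ S)
    (hB1 : B1 ∈ S) (hC : ⁅A1, B1⁆ ∈ S) (hBS : B ∈ S) (hp : IsRankOnePair ⁅A1, B1⁆ B) :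
    ∃ C, C ∈ linePartners S ⁅A1, B1⁆ ∧ RootCommutatorCase S C B ∧
      ∃ b1 ∈ B1, C = conjBy A1 b1 := by
  obtain ⟨r1, -, r3, -⟩ := Cfsg.Agent.S5029.result hS (hni A1 hA1) hA1 hB1 hC
  have hA1l : A1 ∈ linePartners S ⁅A1, B1⁆ := r3
  obtain ⟨⟨-, hne, hcomm⟩, hpart⟩ := r3
  rcases hS.pair A1 hA1 B hBS with h | h | h
  · exact absurd (CM.of_comm_bot h) (no_central hS hni hC hBS hp hA1l)
  · obtain ⟨b, hbB, hbne⟩ := exists_ne_one hS hBS
    obtain ⟨a, ha, ha1, hca⟩ := hp.cond_right b hbB hbne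
    obtain ⟨a1, ha1m, ha11, hca1⟩ := h.cond_right b hbB hbne
    have cAA1 : CM ⁅A1, B1⁆ A1 := CM.of_comm_bot hcomm
    have c1 : CM (conjBy B a⁻¹) (conjBy B a1⁻¹) := by
      rw [hca, hca1]; exact cAA1.conj b⁻¹
    have c2 : CM B (conjBy B (a * a1⁻¹)) := by
      have := c1.conj a
      rwa [conj_back' B a, conjBy_conjBy] at this
    have hgN : a * a1⁻¹ ∈ ⁅A1, B1⁆ ⊔ A1 :=
      Subgroup.mul_mem _ (Subgroup.mem_sup_left ha) (Subgroup.mem_sup_right (A1.inv_mem ha1m))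
    have hgA : a * a1⁻¹ ∉ ⁅A1, B1⁆ := by
      intro hmem
      have h1 : a1⁻¹ ∈ ⁅A1, B1⁆ := by
        have := Subgroup.mul_mem _ (Subgroup.inv_mem _ ha) hmem
        rwa [inv_mul_cancel_left] at this
      have h2 : a1 ∈ ⁅A1, B1⁆ := by
        have := Subgroup.inv_mem _ h1
        rwa [inv_inv] at this
      exact hne (ti hS hni hA1 hC ha1m h2 ha11)
    have hg1 : a * a1⁻¹ ≠ 1 := fun h0 => hgA (by rw [h0]; exact Subgroup.one_mem _)
    obtain ⟨P, hP, hgP⟩ := hpart.2.1 _ hgN hg1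
    have hPne : P ≠ ⁅A1, B1⁆ := by
      intro h0
      rw [h0] at hgP
      exact hgA hgP
    rw [sup_comm, r1] at hP
    rcases hP with ⟨b1, hb1m, rfl⟩ | hP
    · have hPl : conjBy A1 b1 ∈ linePartners S ⁅A1, B1⁆ := line_point hS hni hA1 hB1 hC hb1m
      have hPS := hS.conj_mem A1 hA1 b1
      have hnc := no_central hS hni hC hBS hp hPl
      rcases hS.pair _ hPS B hBS with h3 | h3 | h3
      · exact absurd (CM.of_comm_bot h3) hnc
      · exfalso
        obtain ⟨b', hb', hb'1, hcb'⟩ := h3.cond_left _ hgP hg1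
        have c3 : CM (conjBy B (a * a1⁻¹)⁻¹) B := by
          have := c2.conj (a * a1⁻¹)⁻¹
          rwa [conj_back B (a * a1⁻¹)] at this
        rw [← hcb'] at c3
        have c4 := c3.conj b'
        rw [conj_back' (conjBy A1 b1) b', conjBy_of_mem B hb'] at c4
        exact hnc c4
      · exact ⟨_, hPl, h3, b1, hb1m, rfl⟩
    · exact absurd (Set.mem_singleton_iff.mp hP) hPne
  · exact ⟨A1, hA1l, h, 1, B1.one_mem, (conjBy_one A1).symm⟩

/-- If `C = ⁅A, E⁆` is a line partner of `A`, the conjugates `A^e`, `e ≠ 1` in `E`, are line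
partners of `A`. -/
lemma conj_line_partner {S : Set (Subgroup G)} (hS1 : IsRootSubgroupSet S)
    (hni : ∀ T ∈ S, ¬ IsIsolatedIn (FAdj S) S T) {A E C : Subgroup G} (hA : A ∈ S)
    (hAE : RootCommutatorCase S A E) (hC : ⁅A, E⁆ = C) (hCl : C ∈ linePartners S A) {e : G}
    (he : e ∈ E) (he1 : e ≠ 1) : conjBy A e ∈ linePartners S A := by
  obtain ⟨⟨hCS, hCne, hAC⟩, hpart⟩ := hCl
  have cAC : CM A C := CM.of_comm_bot hAC
  have cAA : CM A A := CM_of_isMulComm (hS1.commutative A hA)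
  have hle : conjBy A e ≤ A ⊔ C := by
    have := conj_le_of_case (A := A) (B := E) he
    rwa [hC] at this
  have hne : conjBy A e ≠ A := by
    intro h0
    obtain ⟨a, ha, ha1⟩ := exists_ne_one hS1 hA
    have h1 : e * a * e⁻¹ ∈ A := by
      have : e * a * e⁻¹ ∈ conjBy A e := by
        rw [mem_conjBy]
        have : e⁻¹ * (e * a * e⁻¹) * e = a := by group
        rw [this]; exact ha
      rwa [h0] at this
    have h2 : a * e * a⁻¹ * e⁻¹ ∈ A := by
      have : a * e * a⁻¹ * e⁻¹ = a * (e * a * e⁻¹)⁻¹ := by group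
      rw [this]; exact A.mul_mem ha (A.inv_mem h1)
    have h3 : a * e * a⁻¹ * e⁻¹ ∈ ⁅A, E⁆ := Subgroup.commutator_mem_commutator ha he
    have h4 : a * e * a⁻¹ * e⁻¹ = 1 := by
      have h5 := inf_comm_eq_bot hS1 (hni A hA) hA hAE
      have : a * e * a⁻¹ * e⁻¹ ∈ A ⊓ ⁅A, E⁆ := ⟨h2, h3⟩
      rwa [h5, Subgroup.mem_bot] at this
    have h6 : a * e = e * a := by
      calc a * e = (a * e * a⁻¹ * e⁻¹) * (e * a) := by group
        _ = e * a := by rw [h4, one_mul]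
    exact he1 (kappa_inj hS1 (hni A hA) hA hAE ha ha1 he h6)
  have hsup : A ⊔ conjBy A e = A ⊔ C := by
    apply le_antisymm (sup_le le_sup_left hle)
    apply sup_le le_sup_left
    rw [← hC, ← hAE.2.2.2 e he he1, Subgroup.closure_le]
    rintro _ ⟨a, ha, rfl⟩
    have h1 : e * a⁻¹ * e⁻¹ ∈ conjBy A e := by
      rw [mem_conjBy]
      have : e⁻¹ * (e * a⁻¹ * e⁻¹) * e = a⁻¹ := by group
      rw [this]; exact A.inv_mem ha
    have h2 : a * e * a⁻¹ * e⁻¹ = a * (e * a⁻¹ * e⁻¹) := by group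
    show a * e * a⁻¹ * e⁻¹ ∈ A ⊔ conjBy A e
    rw [h2]
    exact Subgroup.mul_mem _ (Subgroup.mem_sup_left ha) (Subgroup.mem_sup_right h1)
  show (conjBy A e ∈ S ∧ conjBy A e ≠ A ∧ ⁅A, conjBy A e⁆ = ⊥) ∧
    IsSubgroupPartition (A ⊔ conjBy A e) (membersIn S (A ⊔ conjBy A e))
  refine ⟨⟨hS1.conj_mem A hA e, hne, ?_⟩, ?_⟩
  · exact ((CM.sup_right cAA cAC).mono le_rfl hle).comm_bot
  · rw [hsup]; exact hpart

/-- A line partner `C` of `A` in the commutator case with `B` is conjugate to `A` under any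
subgroup containing the line partners of `A` and `B`. -/
lemma conj_of_line_case {S : Set (Subgroup G)} (hS1 : IsRootSubgroupSet S)
    (hni : ∀ T ∈ S, ¬ IsIsolatedIn (FAdj S) S T) {A B C : Subgroup G} (hA : A ∈ S) (hBS : B ∈ S)
    (hp : IsRankOnePair A B) (hCl : C ∈ linePartners S A) (hcB : RootCommutatorCase S C B)
    {R : Subgroup G} (hΛ : ∀ C' ∈ linePartners S A, C' ≤ R) (hBR : B ≤ R) :
    ∃ r ∈ R, C = conjBy A r := by
  have hCl' := hCl
  obtain ⟨⟨hCS, hCne, hAC⟩, hpart⟩ := hCl'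
  obtain ⟨E, hE⟩ : ∃ E : Subgroup G, E = ⁅C, B⁆ := ⟨_, rfl⟩
  have hES : E ∈ S := by rw [hE]; exact hcB.1
  have hER : E ≤ R := by
    rw [hE]; exact (commutator_le_sup' C B).trans (sup_le (hΛ C hCl) hBR)
  have hDCA : ⁅A, E⁆ = C := by rw [hE]; exact comm_eq hS1 hni hA hBS hp hCl hcB
  have hAE : RootCommutatorCase S A E := case_of_mem hS1 hA hES (by rw [hDCA]; exact hCS)
  obtain ⟨B', hB'S, hp'⟩ := exists_partner (hni C hCS) hCS
  have hp'' : IsRankOnePair ⁅A, E⁆ B' := by rw [hDCA]; exact hp'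
  have hCmem : ⁅A, E⁆ ∈ S := by rw [hDCA]; exact hCS
  obtain ⟨P, hPl, hPB', e0, he0, hPe⟩ := exists_C' hS1 hni hA hES hCmem hB'S hp''
  rw [hDCA] at hPl
  have hPS : P ∈ S := by rw [hPe]; exact hS1.conj_mem A hA e0
  have hF : ⁅C, ⁅P, B'⁆⁆ = P := comm_eq hS1 hni hCS hB'S hp' hPl hPB'
  obtain ⟨r1, -, r3, -⟩ := Cfsg.Agent.S5029.result hS1 (hni P hPS) hPS hB'S hPB'.1
  obtain ⟨F, hFdef⟩ : ∃ F : Subgroup G, F = ⁅P, B'⁆ := ⟨_, rfl⟩
  rw [← hFdef] at hF r3
  have hFS : F ∈ S := by rw [hFdef]; exact hPB'.1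
  have hCF : RootCommutatorCase S C F := case_of_mem hS1 hCS hFS (by rw [hF]; exact hPS)
  have hFR : F ≤ R := by
    have hFP : F ∈ linePartners S P := line_symm r3 hFS
    have h1 : conjBy F e0⁻¹ ∈ linePartners S (conjBy P e0⁻¹) := line_conj hS1 hni hFP e0⁻¹
    rw [hPe, conj_back A e0] at h1
    have h2 := conj_le (hΛ _ h1) (hER he0)
    rwa [conj_back' F e0] at h2
  obtain ⟨e1, he1, he11⟩ := exists_ne_one hS1 hES
  have hQS : conjBy A (e0 * e1) ∈ S := hS1.conj_mem A hA _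
  have hAle : A ≤ C ⊔ P := by
    intro a ha
    have h3 : e0 * a * e0⁻¹ ∈ P := by
      rw [hPe, mem_conjBy]
      have : e0⁻¹ * (e0 * a * e0⁻¹) * e0 = a := by group
      rw [this]; exact ha
    have h4 : a * e0 * a⁻¹ * e0⁻¹ ∈ C := by
      rw [← hDCA]; exact Subgroup.commutator_mem_commutator ha he0
    have h5 : a = (a * e0 * a⁻¹ * e0⁻¹) * (e0 * a * e0⁻¹) := by group
    rw [h5]
    exact Subgroup.mul_mem _ (Subgroup.mem_sup_left h4) (Subgroup.mem_sup_right h3)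
  have hQle : conjBy A (e0 * e1) ≤ C ⊔ ⁅C, F⁆ := by
    rw [hF]
    have h1 : conjBy A (e0 * e1) ≤ A ⊔ C := by
      have := conj_le_of_case (A := A) (B := E) (E.mul_mem he0 he1)
      rwa [hDCA] at this
    exact h1.trans (sup_le hAle le_sup_left)
  rcases members_of_case hS1 (hni C hCS) hCS hCF hQS hQle with h | ⟨f, hf, h⟩
  · exfalso
    rw [hF, hPe] at h
    have h' : conjBy (conjBy A e1) e0 = conjBy A e0 := by
      rw [conjBy_conjBy]; exact h
    have h'' : conjBy A e1 = A := conjBy_injective e0 h'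
    obtain ⟨⟨-, hne1, -⟩, -⟩ := conj_line_partner hS1 hni hA hAE hDCA hCl he1 he11
    exact hne1 h''
  · refine ⟨f⁻¹ * (e0 * e1), R.mul_mem (R.inv_mem (hFR hf)) (hER (E.mul_mem he0 he1)), ?_⟩
    have e1' : conjBy (conjBy A (e0 * e1)) f⁻¹ = conjBy A (f⁻¹ * (e0 * e1)) :=
      conjBy_conjBy A (e0 * e1) f⁻¹
    rw [← e1', h, conj_back C f]

theorem core42 {S : Set (Subgroup G)} (hS : IsRootSubgroupClass S)
    (hnd : IsNondegenerateRootSet S) {A B : Subgroup G} (hA : A ∈ S) (hBS : B ∈ S)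
    (hp : IsRankOnePair A B) {R : Subgroup G} (hΛ : ∀ C ∈ linePartners S A, C ≤ R)
    (hBR : B ≤ R) : R = ⊤ := by
  have hS1 := hS.1
  have hS2 := hS.2
  have hni : ∀ T ∈ S, ¬ IsIsolatedIn (FAdj S) S T := by
    intro T hT
    obtain ⟨g, rfl⟩ := hS2.2 A hA T hT
    exact nonisolated (hS1.conj_mem A hA g) (hS1.conj_mem B hBS g) (conj_pair hp g)
  -- `A ≤ R`
  have hAR : A ≤ R := by
    obtain ⟨⟨C, hCl, hCp⟩, -⟩ := Cfsg.Agent.S5034.result hS hnd hA ⟨hBS, hp⟩
    have hCl' := hCl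
    obtain ⟨⟨hCS, -, -⟩, -⟩ := hCl'
    obtain ⟨-, hBC⟩ := hCp
    have hCB : ⁅C, B⁆ ∈ S := by rw [Subgroup.commutator_comm]; exact hBC
    have hcB : RootCommutatorCase S C B := case_of_mem hS1 hCS hBS hCB
    have hER : ⁅C, B⁆ ≤ R := (commutator_le_sup' C B).trans (sup_le (hΛ C hCl) hBR)
    have hDCA : ⁅A, ⁅C, B⁆⁆ = C := comm_eq hS1 hni hA hBS hp hCl hcB
    have hAE : RootCommutatorCase S A ⁅C, B⁆ :=
      case_of_mem hS1 hA hCB (by rw [hDCA]; exact hCS)
    obtain ⟨e, he, he1⟩ := exists_ne_one hS1 hCB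
    have hP := conj_line_partner hS1 hni hA hAE hDCA hCl he he1
    have h2 := conj_le (hΛ _ hP) (R.inv_mem (hER he))
    rwa [conj_back A e] at h2
  -- every line partner of `A` is an `R`-conjugate of `A`
  have hF4 : ∀ C ∈ linePartners S A, ∃ r ∈ R, C = conjBy A r := by
    intro C hCl
    have hCl' := hCl
    obtain ⟨⟨hCS, -, -⟩, -⟩ := hCl'
    have hnc := no_central hS1 hni hA hBS hp hCl
    rcases hS1.pair C hCS B hBS with h | h | h
    · exact absurd (CM.of_comm_bot h) hnc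
    · obtain ⟨x, hx, hxe⟩ := rankOne_B_conj h
      obtain ⟨y, hy, hye⟩ := rankOne_B_conj hp
      refine ⟨x⁻¹ * y, R.mul_mem (R.inv_mem (sup_le (hΛ C hCl) hBR hx))
        (sup_le hAR hBR hy), ?_⟩
      have e1 : conjBy (conjBy A y) x⁻¹ = conjBy A (x⁻¹ * y) := conjBy_conjBy A y x⁻¹
      rw [← e1, ← hye]
      have e2 : conjBy (conjBy C x) x⁻¹ = C := conj_back C x
      rw [← hxe] at e2
      exact e2.symm
    · exact conj_of_line_case hS1 hni hA hBS hp hCl h hΛ hBR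
  -- every member is an `R`-conjugate of `A`
  have hE := (Cfsg.Agent.S5041.result hS hnd).1
  have key : ∀ T, Relation.ReflTransGen (EAdj S S) A T → ∃ r ∈ R, T = conjBy A r := by
    intro T hpath
    induction hpath with
    | refl => exact ⟨1, R.one_mem, (conjBy_one A).symm⟩
    | @tail b c _ hbc ih =>
      obtain ⟨r, hr, rfl⟩ := ih
      obtain ⟨-, hcS, hcl⟩ := hbc
      have h1 := line_conj hS1 hni hcl r⁻¹
      rw [conj_back A r] at h1
      obtain ⟨r', hr', h2⟩ := hF4 _ h1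
      refine ⟨r * r', R.mul_mem hr hr', ?_⟩
      apply conjBy_injective r⁻¹
      show conjBy c r⁻¹ = conjBy (conjBy A (r * r')) r⁻¹
      rw [h2, conjBy_conjBy, inv_mul_cancel_left]
  have hall : ∀ T ∈ S, T ≤ R := by
    intro T hT
    obtain ⟨r, hr, rfl⟩ := key T (hE A hA T hT)
    exact conj_le hAR hr
  rw [eq_top_iff, ← hS1.generates]
  exact iSup₂_le hall

/-- Let S be a non-degenerate class of abstract root subgroups of G, A ∈ S and B a rank one partner of A. Then G is generated by the line partners of A together with B. -/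
theorem result {G : Type*} [Group G] {S : Set (Subgroup G)} (hS : Cfsg.IsRootSubgroupClass S) (hnd : Cfsg.IsNondegenerateRootSet S)
    {A B : Subgroup G} (hA : A ∈ S) (hB : B ∈ Cfsg.rankOnePartners S A) :
    (⨆ C ∈ Cfsg.linePartners S A, C) ⊔ B = ⊤ := by
  obtain ⟨hBS, hp⟩ := hB
  apply core42 hS hnd hA hBS hp
  · intro C hC
    exact le_sup_of_le_left (le_biSup (fun C : Subgroup G => C) hC)
  · exact le_sup_right

end Cfsg.Agent.S5042
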