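import Cfsg.Statements.S5038
import Cfsg.Agent.S5042
import Mathlib
set_option autoImplicit false
open Cfsg
open scoped commutatorElement

namespace Cfsg.Agent.S5038

open Cfsg.Agent.S5013 (conjBy_conjBy conjBy_one conjBy_of_mem conjBy_of_mem_normalizer
  mem_normalizer_of_conjBy)
open Cfsg.Agent.S5028 (mem_conjBy conjBy_of_comm conjBy_of_mem' comm_of_comm_bot)
open Cfsg.Agent.S5025 (nonisolated not_comm_of_pair)
open Cfsg.Agent.S5029 (exists_ne_one exists_partner kappa_surj kappa_inj mem_sup_comm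
  mem_conj_of_case conj_le_of_case members_of_case inf_comm_eq_bot mem_normalizer_comm_right)
open Cfsg.Agent.S5030 (CM conjBy_sup case_of_mem CM_of_isMulComm conj_cancel)
open Cfsg.Agent.S5034 (conjBy_mono conjBy_of_comm' conj_back conj_back' ti mk_root comm_rewrite)
open Cfsg.Agent.S5036 (case_symm)
open Cfsg.Agent.Lib.helper25 (conjBy_injective)

variable {G : Type*} [Group G]

/-- A point `C ≠ A` of a line through `A` all of whose non-identity elements are root elements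
never centralizes a rank one partner of `A`. -/
lemma no_central' {S : Set (Subgroup G)} (hS : IsRootSubgroupSet S)
    (hni : ∀ T ∈ S, ¬ IsIsolatedIn (FAdj S) S T) {A B C : Subgroup G} (hA : A ∈ S) (hBS : B ∈ S)
    (hp : IsRankOnePair A B) (hCS : C ∈ S) (hCne : C ≠ A) (cAC : CM A C)
    (hroot : ∀ x ∈ A ⊔ C, x ≠ 1 → x ∈ rootElements S) : ¬ CM C B := by
  intro hCB
  obtain ⟨c, hc, hc1⟩ := exists_ne_one hS hCS
  obtain ⟨a, ha, ha1⟩ := exists_ne_one hS hA
  have hz : c ∈ Subgroup.centralizer ((A ⊔ B : Subgroup G) : Set G) := by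
    rw [Subgroup.mem_centralizer_iff]
    intro x hx
    exact (CM.sup_left cAC hCB.symm) x hx c hc
  have hno := Cfsg.Agent.S5025.result hS hA ⟨hBS, hp⟩ hz hc1 a ha ha1
  apply hno
  have hne : c * a ≠ 1 := by
    intro h
    have hcA : c ∈ A := by
      have : c = a⁻¹ := eq_inv_of_mul_eq_one_left h
      rw [this]; exact A.inv_mem ha
    exact hCne (ti hS hni hCS hA hc hcA hc1)
  exact hroot _ (Subgroup.mul_mem _ (Subgroup.mem_sup_right hc) (Subgroup.mem_sup_left ha)) hne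

/-- The key equation `⁅A, ⁅C, B⁆⁆ = C`, for a point `C` of a partitioned line through `A`. -/
lemma comm_eq' {S : Set (Subgroup G)} (hS : IsRootSubgroupSet S)
    (hni : ∀ T ∈ S, ¬ IsIsolatedIn (FAdj S) S T) {A B C : Subgroup G} (hA : A ∈ S) (hBS : B ∈ S)
    (hp : IsRankOnePair A B) (hCS : C ∈ S) (hCne : C ≠ A) (cAC : CM A C)
    (hroot : ∀ x ∈ A ⊔ C, x ≠ 1 → x ∈ rootElements S) (hcB : RootCommutatorCase S C B) :
    ⁅A, ⁅C, B⁆⁆ = C := by
  obtain ⟨E, hE⟩ : ∃ E : Subgroup G, E = ⁅C, B⁆ := ⟨_, rfl⟩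
  rw [← hE]
  have hES : E ∈ S := by rw [hE]; exact hcB.1
  have cEC : CM E C := by
    intro e he c hc
    rw [hE] at he
    exact hcB.2.1 e he c (Subgroup.mem_sup_left hc)
  have cEB : CM E B := by
    intro e he b hb
    rw [hE] at he
    exact hcB.2.1 e he b (Subgroup.mem_sup_right hb)
  have cEE : CM E E := CM_of_isMulComm (hS.commutative E hES)
  have hEbot : E ≠ ⊥ := hS.ne_bot E hES
  have hCb : ∀ b ∈ B, conjBy C b ≤ C ⊔ E := by
    intro b hb
    have := conj_le_of_case (A := C) (B := B) hb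
    rwa [← hE] at this
  -- (3a) `A` does not commute with `E`
  have h3a : ¬ CM A E := by
    intro cAE
    obtain ⟨b, hb, hb1⟩ := exists_ne_one hS hBS
    obtain ⟨a0, ha0, ha01, hc0⟩ := hp.cond_right b hb hb1
    have c1 : CM A (conjBy C b) := (CM.sup_right cAC cAE).mono le_rfl (hCb b hb)
    have c2 : CM (conjBy A b⁻¹) C := by
      have := c1.conj b⁻¹
      rwa [conj_back C b] at this
    rw [← hc0] at c2
    have c3 := c2.conj a0
    rw [conj_back' B a0, conjBy_of_comm' (fun y hy => cAC a0 ha0 y hy)] at c3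
    have : ⁅C, B⁆ = ⊥ := c3.symm.comm_bot
    rw [← hE] at this
    exact hEbot this
  -- (3b), (3c) the pair `(A, E)` is in the commutator case
  have hAE : RootCommutatorCase S A E := by
    rcases hS.pair A hA E hES with h | h | h
    · exact absurd (CM.of_comm_bot h) h3a
    · exact absurd cEC.symm (no_central' hS hni hA hES h hCS hCne cAC hroot)
    · exact h
  obtain ⟨D, hD⟩ : ∃ D : Subgroup G, D = ⁅A, E⁆ := ⟨_, rfl⟩
  rw [← hD]
  have hDS : D ∈ S := by rw [hD]; exact hAE.1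
  have cDA : CM D A := by
    intro d hd a ha
    rw [hD] at hd
    exact hAE.2.1 d hd a (Subgroup.mem_sup_left ha)
  have cDE : CM D E := by
    intro d hd e he
    rw [hD] at hd
    exact hAE.2.1 d hd e (Subgroup.mem_sup_right he)
  have cDD : CM D D := CM_of_isMulComm (hS.commutative D hDS)
  have hDbot : D ≠ ⊥ := hS.ne_bot D hDS
  have hEa : ∀ a ∈ A, conjBy E a ≤ E ⊔ D := by
    intro a ha
    have := conj_le_of_case (A := E) (B := A) ha
    rwa [Subgroup.commutator_comm E A, ← hD] at this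
  -- (3d)
  have h3d : ∀ a0 ∈ A, ∀ b ∈ B, conjBy B a0⁻¹ = conjBy A b⁻¹ →
      conjBy E a0⁻¹ = conjBy D b⁻¹ := by
    intro a0 ha0 b hb hc0
    have hle : conjBy E a0⁻¹ ≤ conjBy D b⁻¹ := by
      have e1 : conjBy E a0⁻¹ = ⁅C, conjBy A b⁻¹⁆ := by
        have h1 : conjBy ⁅C, B⁆ a0⁻¹ = ⁅conjBy C a0⁻¹, conjBy B a0⁻¹⁆ :=
          Subgroup.map_commutator _ _ _
        rw [← hE, hc0, conjBy_of_comm (fun y hy => cAC a0 ha0 y hy)] at h1
        exact h1
      have e2 : conjBy D b⁻¹ = ⁅conjBy A b⁻¹, E⁆ := by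
        have h1 : conjBy ⁅A, E⁆ b⁻¹ = ⁅conjBy A b⁻¹, conjBy E b⁻¹⁆ :=
          Subgroup.map_commutator _ _ _
        rw [← hD, conjBy_of_comm (fun y hy => (cEB y hy b hb).symm)] at h1
        exact h1
      rw [e1, e2, Subgroup.commutator_le]
      intro c hc x hx
      have he0 : b * c * b⁻¹ * c⁻¹ ∈ E := by
        rw [hE, Subgroup.commutator_comm]
        exact Subgroup.commutator_mem_commutator hb hc
      have hy : b⁻¹ * c * b ∈ conjBy C b⁻¹ := by
        rw [mem_conjBy]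
        have : (b⁻¹)⁻¹ * (b⁻¹ * c * b) * b⁻¹ = c := by group
        rw [this]; exact hc
      have cyx : (b⁻¹ * c * b) * x = x * (b⁻¹ * c * b) := cAC.symm.conj b⁻¹ _ hy _ hx
      have hb_e0 : (b * c * b⁻¹ * c⁻¹) * b = b * (b * c * b⁻¹ * c⁻¹) := cEB _ he0 b hb
      have hceq : c = (b * c * b⁻¹ * c⁻¹) * (b⁻¹ * c * b) := by
        calc c = b⁻¹ * ((b * c * b⁻¹ * c⁻¹) * b) * (b⁻¹ * c * b) := by group
          _ = b⁻¹ * (b * (b * c * b⁻¹ * c⁻¹)) * (b⁻¹ * c * b) := by rw [hb_e0]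
          _ = (b * c * b⁻¹ * c⁻¹) * (b⁻¹ * c * b) := by group
      have hfin : c * x * c⁻¹ * x⁻¹ =
          (x * (b * c * b⁻¹ * c⁻¹) * x⁻¹ * (b * c * b⁻¹ * c⁻¹)⁻¹)⁻¹ := comm_rewrite hceq cyx
      rw [commutatorElement_def, hfin]
      exact Subgroup.inv_mem _ (Subgroup.commutator_mem_commutator hx he0)
    obtain ⟨x, hx, hx1⟩ := exists_ne_one hS (hS.conj_mem E hES a0⁻¹)
    exact ti hS hni (hS.conj_mem E hES a0⁻¹) (hS.conj_mem D hDS b⁻¹) hx (hle hx) hx1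
  -- (3e) `B` maps `D` into `E ⊔ D`
  have hDb : ∀ b ∈ B, conjBy D b ≤ E ⊔ D := by
    intro b hb
    by_cases hb1 : b = 1
    · rw [hb1, conjBy_one]; exact le_sup_right
    · obtain ⟨a0, ha0, -, hc0⟩ := hp.cond_right b⁻¹ (B.inv_mem hb) (inv_ne_one.mpr hb1)
      have := h3d a0 ha0 b⁻¹ (B.inv_mem hb) hc0
      rw [inv_inv] at this
      rw [← this]
      exact hEa a0⁻¹ (A.inv_mem ha0)
  have hDB : RootCommutatorCase S D B := by
    rcases hS.pair D hDS B hBS with h | h | h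
    · exfalso
      have cDB : CM D B := CM.of_comm_bot h
      obtain ⟨b, hb, hb1⟩ := exists_ne_one hS hBS
      obtain ⟨a0, ha0, ha01, hc0⟩ := hp.cond_right b hb hb1
      have e1 := h3d a0 ha0 b hb hc0
      rw [conjBy_of_comm (fun y hy => (cDB y hy b hb).symm)] at e1
      have e2 : conjBy D a0⁻¹ = D := conjBy_of_comm (fun y hy => (cDA y hy a0 ha0).symm)
      have e3 : E = D := conjBy_injective a0⁻¹ (e1.trans e2.symm)
      apply h3a
      intro a ha e he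
      rw [e3] at he
      exact (cDA e he a ha).symm
    · exfalso
      obtain ⟨b, hb, hb1⟩ := exists_ne_one hS hBS
      obtain ⟨d, hd, hd1, hc0⟩ := h.cond_right b hb hb1
      have h1 : conjBy B d⁻¹ ≤ E ⊔ D := by rw [hc0]; exact hDb b⁻¹ (B.inv_mem hb)
      have cM : CM (E ⊔ D) (E ⊔ D) :=
        CM.sup_left (CM.sup_right cEE cDE.symm) (CM.sup_right cDE cDD)
      have h2 : d⁻¹ * b * d ∈ conjBy B d⁻¹ := by
        rw [mem_conjBy]
        have : (d⁻¹)⁻¹ * (d⁻¹ * b * d) * d⁻¹ = b := by group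
        rw [this]; exact hb
      have h3 : (d⁻¹ * b * d) * d = d * (d⁻¹ * b * d) :=
        cM _ (h1 h2) d (Subgroup.mem_sup_right hd)
      have h5 : d⁻¹ * b * d = b := by
        have e : d * (d⁻¹ * b * d) = b * d := by group
        rw [e] at h3
        exact mul_right_cancel h3
      have h4 : d * b = b * d := by
        calc d * b = d * (d⁻¹ * b * d) := by rw [h5]
          _ = b * d := by group
      exact not_comm_of_pair hS hDS hBS h hd hd1 hb hb1 h4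
    · exact h
  have hE' : ⁅D, B⁆ = E := by
    have hle : ⁅D, B⁆ ≤ E ⊔ ⁅E, A⁆ := by
      rw [Subgroup.commutator_comm E A, ← hD, Subgroup.commutator_le]
      intro d hd b hb
      rw [commutatorElement_def]
      have h1 : b * d⁻¹ * b⁻¹ ∈ conjBy D b := by
        rw [mem_conjBy]
        have : b⁻¹ * (b * d⁻¹ * b⁻¹) * b = d⁻¹ := by group
        rw [this]; exact D.inv_mem hd
      have h2 : d * b * d⁻¹ * b⁻¹ = d * (b * d⁻¹ * b⁻¹) := by group
      rw [h2]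
      exact Subgroup.mul_mem _ (Subgroup.mem_sup_right hd) (hDb b hb h1)
    rcases members_of_case hS (hni E hES) hES (case_symm hAE) hDB.1 hle with h | ⟨a, ha, h⟩
    · exfalso
      rw [Subgroup.commutator_comm E A, ← hD] at h
      have h0 := inf_comm_eq_bot hS (hni D hDS) hDS hDB
      rw [h, inf_idem] at h0
      exact hDbot h0
    · by_cases ha1 : a = 1
      · rw [h, ha1, conjBy_one]
      · exfalso
        obtain ⟨b0, hb0, hb01, hcb⟩ := hp.cond_left a⁻¹ (A.inv_mem ha) (inv_ne_one.mpr ha1)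
        rw [inv_inv] at hcb
        have c1 : CM (conjBy E a) (conjBy B a) := cEB.conj a
        rw [← hcb, ← h] at c1
        have cE'B : CM ⁅D, B⁆ B := fun c hc x hx => hDB.2.1 c hc x (Subgroup.mem_sup_right hx)
        have c2 := c1.conj b0
        rw [conj_back' A b0, conjBy_of_comm' (fun y hy => (cE'B y hy b0 hb0).symm)] at c2
        rw [h] at c2
        have c3 := c2.conj a⁻¹
        rw [conj_back E a, conjBy_of_mem' ha] at c3
        exact h3a c3.symm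
  -- (3f)
  obtain ⟨c, hc, hc1⟩ := exists_ne_one hS hCS
  obtain ⟨b, hb, hb1⟩ := exists_ne_one hS hBS
  have hbc : b * c * b⁻¹ * c⁻¹ ∈ ⁅B, D⁆ := by
    rw [Subgroup.commutator_comm B D, hE', hE, Subgroup.commutator_comm C B]
    exact Subgroup.commutator_mem_commutator hb hc
  obtain ⟨d, hd, hdeq⟩ := kappa_surj (case_symm hDB) hb hb1 _ hbc
  have hgb : Commute (c⁻¹ * d) b := by
    have h1 : d * b * d⁻¹ = c * b * c⁻¹ := by
      calc d * b * d⁻¹ = (b⁻¹ * (b * d * b⁻¹ * d⁻¹))⁻¹ := by group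
        _ = (b⁻¹ * (b * c * b⁻¹ * c⁻¹))⁻¹ := by rw [hdeq]
        _ = c * b * c⁻¹ := by group
    show (c⁻¹ * d) * b = b * (c⁻¹ * d)
    calc (c⁻¹ * d) * b = c⁻¹ * (d * b * d⁻¹) * d := by group
      _ = c⁻¹ * (c * b * c⁻¹) * d := by rw [h1]
      _ = b * (c⁻¹ * d) := by group
  have hgA : ∀ x ∈ A, Commute (c⁻¹ * d) x := fun x hx =>
    (show Commute c x from (cAC x hx c hc).symm).inv_left.mul_left (cDA d hd x hx)
  have hgE : ∀ e ∈ E, Commute (c⁻¹ * d) e := fun e he =>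
    (show Commute c e from (cEC e he c hc).symm).inv_left.mul_left (cDE d hd e he)
  obtain ⟨a0, ha0, ha01, hc0⟩ := hp.cond_right b hb hb1
  have hgB : ∀ y ∈ B, Commute (c⁻¹ * d) y := by
    intro y hy
    have h1 : a0⁻¹ * y * a0 ∈ conjBy B a0⁻¹ := by
      rw [mem_conjBy]
      have : (a0⁻¹)⁻¹ * (a0⁻¹ * y * a0) * a0⁻¹ = y := by group
      rw [this]; exact hy
    rw [hc0, mem_conjBy, inv_inv] at h1
    have k1 : Commute (c⁻¹ * d) (b * (a0⁻¹ * y * a0) * b⁻¹) := hgA _ h1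
    have k3 : Commute (c⁻¹ * d) a0 := hgA a0 ha0
    have e : y = a0 * (b⁻¹ * (b * (a0⁻¹ * y * a0) * b⁻¹) * b) * a0⁻¹ := by group
    have key : Commute (c⁻¹ * d) (a0 * (b⁻¹ * (b * (a0⁻¹ * y * a0) * b⁻¹) * b) * a0⁻¹) :=
      (k3.mul_right ((hgb.inv_right.mul_right k1).mul_right hgb)).mul_right k3.inv_right
    rw [e]; exact key
  have hz : (c⁻¹ * d)⁻¹ ∈ Subgroup.centralizer ((A ⊔ B : Subgroup G) : Set G) := by
    rw [Subgroup.mem_centralizer_iff]
    intro x hx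
    have hle : A ⊔ B ≤ Subgroup.centralizer {c⁻¹ * d} := sup_le
      (fun y hy => Subgroup.mem_centralizer_singleton_iff.mpr (hgA y hy).eq.symm)
      (fun y hy => Subgroup.mem_centralizer_singleton_iff.mpr (hgB y hy).eq.symm)
    have k : Commute x (c⁻¹ * d) := Subgroup.mem_centralizer_singleton_iff.mp (hle hx)
    exact k.inv_right.eq
  by_cases hg1 : c⁻¹ * d = 1
  · have hcd : c = d := inv_mul_eq_one.mp hg1
    have hcD : c ∈ D := by rw [hcd]; exact hd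
    exact (ti hS hni hCS hDS hc hcD hc1).symm
  · exfalso
    obtain ⟨a, ha, ha1⟩ := exists_ne_one hS hA
    have hno := Cfsg.Agent.S5025.result hS hA ⟨hBS, hp⟩ hz (inv_ne_one.mpr hg1) a ha ha1
    apply hno
    have hdAE : d ∈ ⁅A, E⁆ := by rw [← hD]; exact hd
    obtain ⟨e, he, hae⟩ := mem_conj_of_case hAE ha ha1 hdAE
    have hac1 : a * c ≠ 1 := by
      intro h0
      have hcA : c ∈ A := by
        have : c = a⁻¹ := eq_inv_of_mul_eq_one_right h0
        rw [this]; exact A.inv_mem ha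
      exact hCne (ti hS hni hCS hA hc hcA hc1)
    obtain ⟨-, T, hTS, hacT⟩ := hroot _
      (Subgroup.mul_mem _ (Subgroup.mem_sup_left ha) (Subgroup.mem_sup_right hc)) hac1
    have kga : Commute (c⁻¹ * d) a := hgA a ha
    have kge : Commute (c⁻¹ * d) e := hgE e he
    have key : (c⁻¹ * d)⁻¹ * a = e⁻¹ * (a * c) * e := by
      calc (c⁻¹ * d)⁻¹ * a = a * (c⁻¹ * d)⁻¹ := kga.inv_left.eq
        _ = a * (e⁻¹ * (c⁻¹ * d)⁻¹ * e) := by rw [kge.symm.inv_right.inv_mul_cancel]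
        _ = e⁻¹ * (e * a * e⁻¹) * (c⁻¹ * d)⁻¹ * e := by group
        _ = e⁻¹ * (a * d) * (c⁻¹ * d)⁻¹ * e := by rw [hae]
        _ = e⁻¹ * (a * c) * e := by group
    rw [key]
    apply mk_root (hS.conj_mem T hTS e⁻¹)
    · rw [mem_conjBy]
      have : (e⁻¹)⁻¹ * (e⁻¹ * (a * c) * e) * e⁻¹ = a * c := by group
      rw [this]; exact hacT
    · intro h0
      apply hac1
      calc a * c = e * (e⁻¹ * (a * c) * e) * e⁻¹ := by group
        _ = 1 := by rw [h0]; group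

/-- In the commutator case no non-identity element of `E` normalizes `A`. -/
lemma conj_ne {S : Set (Subgroup G)} (hS1 : IsRootSubgroupSet S)
    (hni : ∀ T ∈ S, ¬ IsIsolatedIn (FAdj S) S T) {A E : Subgroup G} (hA : A ∈ S)
    (hAE : RootCommutatorCase S A E) {e : G} (he : e ∈ E) (he1 : e ≠ 1) : conjBy A e ≠ A := by
  intro h0
  obtain ⟨a, ha, ha1⟩ := exists_ne_one hS1 hA
  have h1 : e * a * e⁻¹ ∈ A := by
    have : e * a * e⁻¹ ∈ conjBy A e := by
      rw [mem_conjBy]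
      have : e⁻¹ * (e * a * e⁻¹) * e = a := by group
      rw [this]; exact ha
    rwa [h0] at this
  have h2 : a * e * a⁻¹ * e⁻¹ ∈ A := by
    have : a * e * a⁻¹ * e⁻¹ = a * (e * a * e⁻¹)⁻¹ := by group
    rw [this]; exact A.mul_mem ha (A.inv_mem h1)
  have h3 : a * e * a⁻¹ * e⁻¹ ∈ ⁅A, E⁆ := Subgroup.commutator_mem_commutator ha he
  have h4 : a * e * a⁻¹ * e⁻¹ = 1 := by
    have h5 := inf_comm_eq_bot hS1 (hni A hA) hA hAE
    have : a * e * a⁻¹ * e⁻¹ ∈ A ⊓ ⁅A, E⁆ := ⟨h2, h3⟩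
    rwa [h5, Subgroup.mem_bot] at this
  have h6 : a * e = e * a := by
    calc a * e = (a * e * a⁻¹ * e⁻¹) * (e * a) := by group
      _ = e * a := by rw [h4, one_mul]
  exact he1 (kappa_inj hS1 (hni A hA) hA hAE ha ha1 he h6)

/-- `E` is a member of `S` normalizing the line `ℓ`, fixing the point `P` and moving the point
`T0` to every other point. -/
structure Mover (S : Set (Subgroup G)) (ℓ T0 P E : Subgroup G) : Prop where
  hE : E ∈ S
  hnorm : E ≤ Subgroup.normalizer (ℓ : Set G)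
  hfix : ∀ e ∈ E, conjBy P e = P
  hPne : P ≠ T0
  hPS : P ∈ S
  hPle : P ≤ ℓ
  hpts : ∀ Q ∈ membersIn S ℓ, Q ≠ P → ∃ e ∈ E, Q = conjBy T0 e
  hmove : ∀ e ∈ E, e ≠ 1 → conjBy T0 e ≠ T0
  hsup : T0 ⊔ P = ℓ

lemma mover_mk {S : Set (Subgroup G)} (hS : IsRootSubgroupSet S)
    (hni : ∀ T ∈ S, ¬ IsIsolatedIn (FAdj S) S T) {ℓ T0 E P : Subgroup G} (hT0 : T0 ∈ S)
    (hES : E ∈ S) (hAE : RootCommutatorCase S T0 E) (hP : ⁅T0, E⁆ = P) (hsup : T0 ⊔ P = ℓ)
    (hnorm : ∀ e ∈ E, conjBy ℓ e ≤ ℓ) : Mover S ℓ T0 P E := by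
  have hPS : P ∈ S := by rw [← hP]; exact hAE.1
  refine ⟨hES, ?_, ?_, ?_, hPS, ?_, ?_, ?_, hsup⟩
  · intro e he
    apply mem_normalizer_of_conjBy
    apply le_antisymm (hnorm e he)
    have := conjBy_mono (hnorm e⁻¹ (E.inv_mem he)) e
    rwa [conj_back' ℓ e] at this
  · intro e he
    apply conjBy_of_comm'
    intro y hy
    rw [← hP] at hy
    exact (hAE.2.1 y hy e (Subgroup.mem_sup_right he)).symm
  · intro h0
    have h1 := inf_comm_eq_bot hS (hni T0 hT0) hT0 hAE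
    rw [hP, h0, inf_idem] at h1
    exact hS.ne_bot T0 hT0 h1
  · rw [← hsup]; exact le_sup_right
  · intro Q hQ hQP
    obtain ⟨hQS, hQl⟩ := hQ
    have hle : Q ≤ T0 ⊔ ⁅T0, E⁆ := by rw [hP, hsup]; exact hQl
    rcases members_of_case hS (hni T0 hT0) hT0 hAE hQS hle with h | h
    · exact absurd (h.trans hP) hQP
    · exact h
  · intro e he he1
    exact conj_ne hS hni hT0 hAE he he1

lemma Mover.trans {S : Set (Subgroup G)} {ℓ T0 P E : Subgroup G} (h : Mover S ℓ T0 P E)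
    {Q Q' : Subgroup G} (hQ : Q ∈ membersIn S ℓ) (hQP : Q ≠ P) (hQ' : Q' ∈ membersIn S ℓ)
    (hQ'P : Q' ≠ P) : ∃ e ∈ E, conjBy Q e = Q' := by
  obtain ⟨e, he, rfl⟩ := h.hpts Q hQ hQP
  obtain ⟨e', he', rfl⟩ := h.hpts Q' hQ' hQ'P
  refine ⟨e' * e⁻¹, E.mul_mem he' (E.inv_mem he), ?_⟩
  rw [conjBy_conjBy, inv_mul_cancel_right]

lemma Mover.moved {S : Set (Subgroup G)} (hS : IsRootSubgroupSet S) {ℓ T0 P E : Subgroup G}
    (h : Mover S ℓ T0 P E) {Q : Subgroup G} (hQ : Q ∈ membersIn S ℓ) (hQP : Q ≠ P) {e : G}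
    (he : e ∈ E) (he1 : e ≠ 1) : conjBy Q e ≠ Q := by
  obtain ⟨eQ, heQ, rfl⟩ := h.hpts Q hQ hQP
  intro h0
  rw [conjBy_conjBy] at h0
  have hcomm : e * eQ = eQ * e := CM_of_isMulComm (hS.commutative E h.hE) e he eQ heQ
  rw [hcomm, ← conjBy_conjBy] at h0
  exact h.hmove e he he1 (conjBy_injective eQ h0)

/-- For a point `T0` of a partitioned line `ℓ = T0 ⊔ T1` and a rank one partner `C` of `T0` there
is a member of `S` normalizing `ℓ`, fixing one point and moving `T0` to every other point. -/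
lemma stepA {S : Set (Subgroup G)} (hS : IsRootSubgroupSet S)
    (hni : ∀ T ∈ S, ¬ IsIsolatedIn (FAdj S) S T) {ℓ T0 T1 C : Subgroup G} (cℓ : CM ℓ ℓ)
    (hpart : IsSubgroupPartition ℓ (membersIn S ℓ)) (hT0 : T0 ∈ S) (hT1 : T1 ∈ S)
    (hne : T1 ≠ T0) (hsup : T0 ⊔ T1 = ℓ) (hCS : C ∈ S) (hp : IsRankOnePair T0 C) :
    ∃ P E, Mover S ℓ T0 P E := by
  have hT0l : T0 ≤ ℓ := by rw [← hsup]; exact le_sup_left
  have hT1l : T1 ≤ ℓ := by rw [← hsup]; exact le_sup_right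
  have hrootℓ : ∀ x ∈ ℓ, x ≠ 1 → x ∈ rootElements S := by
    intro x hx hx1
    obtain ⟨T, ⟨hTS, -⟩, hxT⟩ := hpart.2.1 x hx hx1
    exact mk_root hTS hxT hx1
  have c01 : CM T0 T1 := cℓ.mono hT0l hT1l
  have hroot01 : ∀ x ∈ T0 ⊔ T1, x ≠ 1 → x ∈ rootElements S := by rw [hsup]; exact hrootℓ
  have hnc1 : ¬ CM T1 C := no_central' hS hni hT0 hCS hp hT1 hne c01 hroot01
  rcases hS.pair T1 hT1 C hCS with h | h | h
  · exact absurd (CM.of_comm_bot h) hnc1
  · obtain ⟨c, hc, hc1⟩ := exists_ne_one hS hCS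
    obtain ⟨a, ha, ha1, hca⟩ := hp.cond_right c hc hc1
    obtain ⟨a1, ha1m, ha11, hca1⟩ := h.cond_right c hc hc1
    have c1 : CM (conjBy C a⁻¹) (conjBy C a1⁻¹) := by
      rw [hca, hca1]; exact c01.conj c⁻¹
    have c2 : CM C (conjBy C (a * a1⁻¹)) := by
      have := c1.conj a
      rwa [conj_back' C a, conjBy_conjBy] at this
    have hgl : a * a1⁻¹ ∈ ℓ := ℓ.mul_mem (hT0l ha) (ℓ.inv_mem (hT1l ha1m))
    have hg0 : a * a1⁻¹ ∉ T0 := by
      intro hmem
      have h1 : a1⁻¹ ∈ T0 := by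
        have := T0.mul_mem (T0.inv_mem ha) hmem
        rwa [inv_mul_cancel_left] at this
      have h2 : a1 ∈ T0 := by
        have := T0.inv_mem h1
        rwa [inv_inv] at this
      exact hne (ti hS hni hT1 hT0 ha1m h2 ha11)
    have hg1 : a * a1⁻¹ ≠ 1 := fun h0 => hg0 (by rw [h0]; exact T0.one_mem)
    obtain ⟨P, ⟨hPS, hPl⟩, hgP⟩ := hpart.2.1 _ hgl hg1
    have hP0 : P ≠ T0 := by
      intro h0
      rw [h0] at hgP
      exact hg0 hgP
    have hP1 : P ≠ T1 := by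
      intro h0
      rw [h0] at hgP
      have h2 : a ∈ T1 := by
        have := T1.mul_mem hgP ha1m
        rwa [inv_mul_cancel_right] at this
      exact hne (ti hS hni hT0 hT1 ha h2 ha1).symm
    have c0P : CM T0 P := cℓ.mono hT0l hPl
    have c1P : CM T1 P := cℓ.mono hT1l hPl
    have hroot0P : ∀ x ∈ T0 ⊔ P, x ≠ 1 → x ∈ rootElements S :=
      fun x hx => hrootℓ x (sup_le hT0l hPl hx)
    have hroot1P : ∀ x ∈ T1 ⊔ P, x ≠ 1 → x ∈ rootElements S :=
      fun x hx => hrootℓ x (sup_le hT1l hPl hx)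
    have hncP : ¬ CM P C := no_central' hS hni hT0 hCS hp hPS hP0 c0P hroot0P
    rcases hS.pair P hPS C hCS with h3 | h3 | h3
    · exact absurd (CM.of_comm_bot h3) hncP
    · exfalso
      obtain ⟨c', hc', hc'1, hcc'⟩ := h3.cond_left _ hgP hg1
      have c3 : CM (conjBy C (a * a1⁻¹)⁻¹) C := by
        have := c2.conj (a * a1⁻¹)⁻¹
        rwa [conj_back C (a * a1⁻¹)] at this
      rw [← hcc'] at c3
      have c4 := c3.conj c'
      rw [conj_back' P c', conjBy_of_mem C hc'] at c4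
      exact hncP c4
    · have hE0 : ⁅T0, ⁅P, C⁆⁆ = P := comm_eq' hS hni hT0 hCS hp hPS hP0 c0P hroot0P h3
      have hE1 : ⁅T1, ⁅P, C⁆⁆ = P := comm_eq' hS hni hT1 hCS h hPS hP1 c1P hroot1P h3
      have hES : ⁅P, C⁆ ∈ S := h3.1
      have hAE : RootCommutatorCase S T0 ⁅P, C⁆ :=
        case_of_mem hS hT0 hES (by rw [hE0]; exact hPS)
      have hPl' : T0 ⊔ P ≤ T0 ⊔ T1 := by rw [hsup]; exact sup_le hT0l hPl
      have hPl'' : T1 ⊔ P ≤ T0 ⊔ T1 := by rw [hsup]; exact sup_le hT1l hPl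
      have hsup' : T0 ⊔ P = ℓ := by
        apply le_antisymm (sup_le hT0l hPl)
        rw [← hsup]
        apply sup_le le_sup_left
        obtain ⟨-, r2, -, -⟩ := Cfsg.Agent.S5029.result hS (hni T0 hT0) hT0 hES hAE.1
        rw [hE0] at r2
        have ha1mem : a1 ∈ T0 ⊔ P := by
          have e : a1 = (a * a1⁻¹)⁻¹ * a := by group
          rw [e]
          exact Subgroup.mul_mem _ (Subgroup.inv_mem _ (Subgroup.mem_sup_right hgP))
            (Subgroup.mem_sup_left ha)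
        obtain ⟨T', ⟨hT'S, hT'le⟩, ha1T'⟩ := r2.2.1 _ ha1mem ha11
        have : T' = T1 := ti hS hni hT'S hT1 ha1T' ha1m ha11
        rw [← this]; exact hT'le
      refine ⟨P, ⁅P, C⁆, mover_mk hS hni hT0 hES hAE hE0 hsup' ?_⟩
      intro e he
      rw [← hsup, conjBy_sup]
      apply sup_le
      · have := conj_le_of_case (A := T0) (B := ⁅P, C⁆) he
        rw [hE0] at this
        exact this.trans hPl'
      · have := conj_le_of_case (A := T1) (B := ⁅P, C⁆) he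
        rw [hE1] at this
        exact this.trans hPl''
  · have hE0 : ⁅T0, ⁅T1, C⁆⁆ = T1 := comm_eq' hS hni hT0 hCS hp hT1 hne c01 hroot01 h
    have hES : ⁅T1, C⁆ ∈ S := h.1
    have hAE : RootCommutatorCase S T0 ⁅T1, C⁆ :=
      case_of_mem hS hT0 hES (by rw [hE0]; exact hT1)
    refine ⟨T1, ⁅T1, C⁆, mover_mk hS hni hT0 hES hAE hE0 hsup ?_⟩
    intro e he
    rw [← hsup, conjBy_sup]
    apply sup_le
    · have := conj_le_of_case (A := T0) (B := ⁅T1, C⁆) he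
      rwa [hE0] at this
    · have e1 : conjBy T1 e = T1 :=
        conjBy_of_comm' (fun y hy => h.2.1 e he y (Subgroup.mem_sup_left hy))
      rw [e1]; exact le_sup_right

/-- Let S be a set of abstract root subgroups of G in which every member has a rank one partner, A ∈ S and B a line partner of A. Then the subgroup generated by the members of S normalizing AB permutes the members of S inside AB doubly transitively by conjugation. -/
theorem result {G : Type*} [Group G] {S : Set (Subgroup G)} (hS : Cfsg.IsRootSubgroupSet S)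
    (hF : ∀ A ∈ S, ¬ Cfsg.IsIsolatedIn (Cfsg.FAdj S) S A) {A B : Subgroup G} (hA : A ∈ S) (hB : B ∈ Cfsg.linePartners S A) :
    ∀ C₁ ∈ Cfsg.membersIn S (A ⊔ B), ∀ C₂ ∈ Cfsg.membersIn S (A ⊔ B), ∀ D₁ ∈ Cfsg.membersIn S (A ⊔ B),
      ∀ D₂ ∈ Cfsg.membersIn S (A ⊔ B), C₁ ≠ C₂ → D₁ ≠ D₂ →
        ∃ x ∈ ⨆ E ∈ Cfsg.normalizingMembers S (A ⊔ B), E, Cfsg.conjBy C₁ x = D₁ ∧ Cfsg.conjBy C₂ x = D₂ := by
  have hB' := hB
  obtain ⟨⟨hBS, hBne, hAB⟩, hpart⟩ := hB'
  have cℓ : CM (A ⊔ B) (A ⊔ B) := by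
    have cAA := CM_of_isMulComm (hS.commutative A hA)
    have cBB := CM_of_isMulComm (hS.commutative B hBS)
    have cAB : CM A B := CM.of_comm_bot hAB
    exact CM.sup_left (CM.sup_right cAA cAB) (CM.sup_right cAB.symm cBB)
  obtain ⟨C, hCS, hpC⟩ := exists_partner (hF A hA) hA
  obtain ⟨P0, E0, m0⟩ := stepA hS hF cℓ hpart hA hBS hBne rfl hCS hpC
  obtain ⟨C', hC'S, hpC'⟩ := exists_partner (hF P0 m0.hPS) m0.hPS
  obtain ⟨P1, E1, m1⟩ := stepA hS hF cℓ hpart m0.hPS hA m0.hPne.symm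
    ((sup_comm P0 A).trans m0.hsup) hC'S hpC'
  have hNnorm : (⨆ E ∈ normalizingMembers S (A ⊔ B), E) ≤
      Subgroup.normalizer ((A ⊔ B : Subgroup G) : Set G) := iSup₂_le (fun E hE => hE.2)
  have hE0N : E0 ≤ ⨆ E ∈ normalizingMembers S (A ⊔ B), E :=
    le_biSup (fun E : Subgroup G => E) (⟨m0.hE, m0.hnorm⟩ : E0 ∈ normalizingMembers S (A ⊔ B))
  have hE1N : E1 ≤ ⨆ E ∈ normalizingMembers S (A ⊔ B), E :=
    le_biSup (fun E : Subgroup G => E) (⟨m1.hE, m1.hnorm⟩ : E1 ∈ normalizingMembers S (A ⊔ B))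
  have hpt : ∀ x ∈ (⨆ E ∈ normalizingMembers S (A ⊔ B), E), ∀ Q ∈ membersIn S (A ⊔ B),
      conjBy Q x ∈ membersIn S (A ⊔ B) := by
    intro x hx Q hQ
    exact ⟨hS.conj_mem Q hQ.1 x,
      (conjBy_mono hQ.2 x).trans (le_of_eq (conjBy_of_mem_normalizer _ (hNnorm hx)))⟩
  have hP0pt : P0 ∈ membersIn S (A ⊔ B) := ⟨m0.hPS, m0.hPle⟩
  have hP1pt : P1 ∈ membersIn S (A ⊔ B) := ⟨m1.hPS, m1.hPle⟩
  have hP1P0 : P1 ≠ P0 := m1.hPne
  have hT : ∀ Q ∈ membersIn S (A ⊔ B),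
      ∃ x ∈ (⨆ E ∈ normalizingMembers S (A ⊔ B), E), conjBy Q x = P0 := by
    intro Q hQ
    by_cases h0 : Q = P0
    · exact ⟨1, Subgroup.one_mem _, by rw [h0, conjBy_one]⟩
    by_cases h1 : Q = P1
    · obtain ⟨e0, he0, he01⟩ := exists_ne_one hS m0.hE
      have hQ'pt := hpt e0 (hE0N he0) P1 hP1pt
      have hQ'1 : conjBy P1 e0 ≠ P1 := m0.moved hS hP1pt hP1P0 he0 he01
      have hQ'0 : conjBy P1 e0 ≠ P0 := by
        intro h2
        have h3 : conjBy P1 e0 = conjBy P0 e0 := h2.trans (m0.hfix e0 he0).symm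
        exact hP1P0 (conjBy_injective e0 h3)
      obtain ⟨e, he, hee⟩ := m1.trans hQ'pt hQ'1 hP0pt hP1P0.symm
      refine ⟨e * e0, Subgroup.mul_mem _ (hE1N he) (hE0N he0), ?_⟩
      rw [h1, ← conjBy_conjBy]; exact hee
    · obtain ⟨e, he, hee⟩ := m1.trans hQ h1 hP0pt hP1P0.symm
      exact ⟨e, hE1N he, hee⟩
  intro C1 hC1 C2 hC2 D1 hD1 D2 hD2 hC12 hD12
  obtain ⟨x1, hx1, hx1e⟩ := hT C1 hC1
  obtain ⟨y1, hy1, hy1e⟩ := hT D1 hD1
  have hC2' := hpt x1 hx1 C2 hC2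
  have hD2' := hpt y1 hy1 D2 hD2
  have hC2ne : conjBy C2 x1 ≠ P0 := by
    intro h2
    rw [← hx1e] at h2
    exact hC12 (conjBy_injective x1 h2).symm
  have hD2ne : conjBy D2 y1 ≠ P0 := by
    intro h2
    rw [← hy1e] at h2
    exact hD12 (conjBy_injective y1 h2).symm
  obtain ⟨e, he, hee⟩ := m0.trans hC2' hC2ne hD2' hD2ne
  refine ⟨y1⁻¹ * (e * x1), Subgroup.mul_mem _ (Subgroup.inv_mem _ hy1)
    (Subgroup.mul_mem _ (hE0N he) hx1), ?_, ?_⟩
  · rw [← conjBy_conjBy, ← conjBy_conjBy, hx1e, m0.hfix e he, ← hy1e, conj_back D1 y1]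
  · rw [← conjBy_conjBy, ← conjBy_conjBy, hee, conj_back D2 y1]

end Cfsg.Agent.S5038
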