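import Cfsg.Statements.S5040
import Cfsg.Agent.S5042
import Mathlib
set_option autoImplicit false
open Cfsg
open scoped commutatorElement

namespace Cfsg.Agent.S5040

open Cfsg.Agent.S5013 (conjBy_conjBy conjBy_one conjBy_of_mem conjBy_of_mem_normalizer)
open Cfsg.Agent.S5028 (mem_conjBy comm_of_comm_bot)
open Cfsg.Agent.S5025 (nonisolated)
open Cfsg.Agent.S5029 (exists_ne_one exists_partner mem_normalizer_comm_right)
open Cfsg.Agent.S5030 (CM case_of_mem)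
open Cfsg.Agent.S5032 (conj_pair)
open Cfsg.Agent.S5034 (conjBy_of_comm' conj_back conj_back' mk_root comm_eq)
open Cfsg.Agent.S5042 (exists_C' core42)
open Cfsg.Agent.Lib.helper25 (conjBy_injective rankOne_B_conj)

variable {G : Type*} [Group G]

/-- The stabilizer of a family of subgroups under conjugation. -/
def stab (Δ : Set (Subgroup G)) : Subgroup G where
  carrier := {g | ∀ T, T ∈ Δ ↔ conjBy T g ∈ Δ}
  one_mem' := fun T => by rw [conjBy_one]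
  mul_mem' := by
    intro g h hg hh T
    have hg : ∀ T, T ∈ Δ ↔ conjBy T g ∈ Δ := hg
    have hh : ∀ T, T ∈ Δ ↔ conjBy T h ∈ Δ := hh
    rw [← conjBy_conjBy]
    exact (hh T).trans (hg _)
  inv_mem' := by
    intro g hg T
    have hg : ∀ T, T ∈ Δ ↔ conjBy T g ∈ Δ := hg
    have := hg (conjBy T g⁻¹)
    rw [conj_back' T g] at this
    exact this.symm

lemma mem_stab {Δ : Set (Subgroup G)} {g : G} :
    g ∈ stab Δ ↔ ∀ T, T ∈ Δ ↔ conjBy T g ∈ Δ := Iff.rfl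

lemma mem_stab_of_TI {S Δ : Set (Subgroup G)} (hΔ : IsWeakTISubset S Δ) {d : G}
    (hd : d ∈ rootElements S) {T : Subgroup G} (hT : T ∈ Δ) (hTd : conjBy T d ∈ Δ) :
    d ∈ stab Δ := by
  rw [mem_stab]
  rcases hΔ.2.2.2 d hd with h | h
  · intro T'
    constructor
    · intro hT'
      rw [← h]
      exact ⟨T', hT', rfl⟩
    · intro hT'
      rw [← h] at hT'
      obtain ⟨T'', hT'', he⟩ := hT'
      have : T'' = T' := conjBy_injective d he
      rw [← this]; exact hT''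
  · exfalso
    exact Set.disjoint_left.mp h ⟨T, hT, rfl⟩ hTd

lemma le_stab_of_fix {S Δ : Set (Subgroup G)} (hΔ : IsWeakTISubset S Δ) {D T : Subgroup G}
    (hD : D ∈ S) (hT : T ∈ Δ) (h : ∀ d ∈ D, conjBy T d = T) : D ≤ stab Δ := by
  intro d hd
  by_cases hd1 : d = 1
  · rw [hd1]; exact (stab Δ).one_mem
  · apply mem_stab_of_TI hΔ (mk_root hD hd hd1) hT
    rw [h d hd]; exact hT

lemma stab_ne_top {S Δ : Set (Subgroup G)} (hS2 : IsConjClassOfSubgroups S)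
    (hΔ : IsWeakTISubset S Δ) : stab Δ ≠ ⊤ := by
  intro htop
  obtain ⟨A0, hA0, -⟩ := hΔ.2.1
  apply hΔ.2.2.1
  apply Set.Subset.antisymm hΔ.1
  intro T hT
  obtain ⟨g, rfl⟩ := hS2.2 A0 (hΔ.1 hA0) T hT
  have hg : g ∈ stab Δ := by rw [htop]; exact Subgroup.mem_top g
  exact (mem_stab.mp hg A0).mp hA0

lemma rank_one_absurd' {S Δ : Set (Subgroup G)} (hS : IsRootSubgroupClass S)
    (hnd : IsNondegenerateRootSet S) (hΔ : IsWeakTISubset S Δ) {A B : Subgroup G} (hA : A ∈ Δ)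
    (hB : B ∈ Δ) (hp : IsRankOnePair A B) : False := by
  apply stab_ne_top hS.2 hΔ
  apply core42 hS hnd (hΔ.1 hA) (hΔ.1 hB) hp
  · intro C hC
    obtain ⟨⟨hCS, -, hAC⟩, -⟩ := hC
    exact le_stab_of_fix hΔ hCS hA
      (fun d hd => conjBy_of_comm' (fun y hy => (CM.of_comm_bot hAC y hy d hd).symm))
  · exact le_stab_of_fix hΔ (hΔ.1 hB) hB (fun d hd => conjBy_of_mem B hd)

lemma case_absurd' {S Δ : Set (Subgroup G)} (hS : IsRootSubgroupClass S)
    (hnd : IsNondegenerateRootSet S) (hni : ∀ T ∈ S, ¬ IsIsolatedIn (FAdj S) S T)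
    (hΔ : IsWeakTISubset S Δ) {A B : Subgroup G} (hA : A ∈ Δ) (hB : B ∈ Δ)
    (hc : RootCommutatorCase S A B) : False := by
  have hS1 := hS.1
  have hAS := hΔ.1 hA
  have hBS := hΔ.1 hB
  have hCS : ⁅A, B⁆ ∈ S := hc.1
  obtain ⟨B', hB'S, hp'⟩ := exists_partner (hni _ hCS) hCS
  obtain ⟨P, hPl, hPB', b1, hb1, hPe⟩ := exists_C' hS1 hni hAS hBS hCS hB'S hp'
  have hF : ⁅⁅A, B⁆, ⁅P, B'⁆⁆ = P := comm_eq hS1 hni hCS hB'S hp' hPl hPB'
  obtain ⟨D', hD'⟩ : ∃ D' : Subgroup G, D' = ⁅P, B'⁆ := ⟨_, rfl⟩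
  rw [← hD'] at hF
  have hD'S : D' ∈ S := by rw [hD']; exact hPB'.1
  have hDS : conjBy D' b1⁻¹ ∈ S := hS1.conj_mem D' hD'S b1⁻¹
  have hDC : ⁅conjBy D' b1⁻¹, ⁅A, B⁆⁆ = A := by
    have h1 : conjBy ⁅D', ⁅A, B⁆⁆ b1⁻¹ = ⁅conjBy D' b1⁻¹, conjBy ⁅A, B⁆ b1⁻¹⁆ :=
      Subgroup.map_commutator _ _ _
    have h2 : conjBy ⁅A, B⁆ b1⁻¹ = ⁅A, B⁆ :=
      conjBy_of_mem_normalizer _ (mem_normalizer_comm_right (B.inv_mem hb1))
    rw [h2, Subgroup.commutator_comm D' ⁅A, B⁆, hF, hPe, conj_back A b1] at h1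
    exact h1.symm
  obtain ⟨hpBD, -⟩ := Cfsg.Agent.S5036.result hS1 hAS hBS hCS hDS hDC
  have hcase : RootCommutatorCase S (conjBy D' b1⁻¹) ⁅A, B⁆ :=
    case_of_mem hS1 hDS hCS (by rw [hDC]; exact hAS)
  have cAD : CM A (conjBy D' b1⁻¹) := by
    intro a ha d hd
    have ha' : a ∈ ⁅conjBy D' b1⁻¹, ⁅A, B⁆⁆ := by rw [hDC]; exact ha
    exact hcase.2.1 a ha' d (Subgroup.mem_sup_left hd)
  have hDle : conjBy D' b1⁻¹ ≤ stab Δ :=
    le_stab_of_fix hΔ hDS hA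
      (fun d hd => conjBy_of_comm' (fun y hy => (cAD y hy d hd).symm))
  have hBle : B ≤ stab Δ := le_stab_of_fix hΔ hBS hB (fun d hd => conjBy_of_mem B hd)
  obtain ⟨x, hx, hxe⟩ := rankOne_B_conj hpBD
  have hxs : x ∈ stab Δ := sup_le hBle hDle hx
  have hDΔ : conjBy D' b1⁻¹ ∈ Δ := by rw [hxe]; exact (mem_stab.mp hxs B).mp hB
  exact rank_one_absurd' hS hnd hΔ hB hDΔ hpBD

/-- Let S be a non-degenerate class of abstract root subgroups of G and Δ a weak TI-subset of S. Then the members of Δ commute with one another elementwise. -/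
theorem result {G : Type*} [Group G] {S : Set (Subgroup G)} (hS : Cfsg.IsRootSubgroupClass S) (hnd : Cfsg.IsNondegenerateRootSet S)
    {Δ : Set (Subgroup G)} (hΔ : Cfsg.IsWeakTISubset S Δ) : Cfsg.IsAbelianFamily Δ := by
  have hS1 := hS.1
  have hS2 := hS.2
  have hni : ∀ T ∈ S, ¬ IsIsolatedIn (FAdj S) S T := by
    obtain ⟨A0, hA0, B0, hB0, hp0⟩ := hnd.2.1
    intro T hT
    obtain ⟨g, rfl⟩ := hS2.2 A0 hA0 T hT
    exact nonisolated (hS1.conj_mem A0 hA0 g) (hS1.conj_mem B0 hB0 g) (conj_pair hp0 g)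
  intro A hA B hB a ha b hb
  rcases hS1.pair A (hΔ.1 hA) B (hΔ.1 hB) with h | h | h
  · exact comm_of_comm_bot h a ha b hb
  · exact (rank_one_absurd' hS hnd hΔ hA hB h).elim
  · exact (case_absurd' hS hnd hni hΔ hA hB h).elim

end Cfsg.Agent.S5040
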