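import Cfsg.Statements.S5045
import Cfsg.Agent.Lib.helper20.BaerSuzuki
import Mathlib

set_option autoImplicit false
open Cfsg

namespace Cfsg.Agent.S5045

variable {G : Type*} [Group G]

theorem ord_conj (g x : G) : orderOf (g * x * g⁻¹) = orderOf x := by
  have := (MulAut.conj g).orderOf_eq x
  rwa [MulAut.conj_apply] at this

theorem ord_comm (a b : G) : orderOf (b * a) = orderOf (a * b) := by
  have h := ord_conj b (a * b)
  have e : b * (a * b) * b⁻¹ = b * a := by group
  rw [e] at h; exact h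

theorem sq_one {D : Set G} (hD : IsRootInvolutionSet D) {d : G} (hd : d ∈ D) : d * d = 1 := by
  have h := pow_orderOf_eq_one d
  rw [hD.orderOf_eq d hd, pow_two] at h
  exact h

theorem inv_self {D : Set G} (hD : IsRootInvolutionSet D) {d : G} (hd : d ∈ D) : d⁻¹ = d :=
  inv_eq_of_mul_eq_one_right (sq_one hD hd)

theorem ne_one_of_mem {D : Set G} (hD : IsRootInvolutionSet D) {d : G} (hd : d ∈ D) : d ≠ 1 := by
  intro h
  have := hD.orderOf_eq d hd
  rw [h, orderOf_one] at this
  omega

theorem conj_mem' {D : Set G} (hD : IsRootInvolutionSet D) {d g : G} (hd : d ∈ D) (hg : g ∈ D) :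
    g * d * g ∈ D := by
  have := hD.conj_mem d hd g
  rwa [inv_self hD hg] at this

theorem oddAdj_symm {D : Set G} {a b : G} (h : OddAdj D a b) : OddAdj D b a := by
  obtain ⟨ha, hb, hne, hodd⟩ := h
  refine ⟨hb, ha, fun h => hne h.symm, ?_⟩
  rw [ord_comm a b]; exact hodd

theorem rtg_symm {D : Set G} {a b : G} (h : Relation.ReflTransGen (OddAdj D) a b) :
    Relation.ReflTransGen (OddAdj D) b a := by
  induction h with
  | refl => exact Relation.ReflTransGen.refl
  | tail _ hbc ih => exact Relation.ReflTransGen.head (oddAdj_symm hbc) ih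

theorem comp_eq {D : Set G} {a b : G} (h : Relation.ReflTransGen (OddAdj D) a b) :
    elemComponentOf (OddAdj D) D a = elemComponentOf (OddAdj D) D b := by
  ext x
  constructor
  · rintro ⟨hx, hax⟩
    exact ⟨hx, (rtg_symm h).trans hax⟩
  · rintro ⟨hx, hbx⟩
    exact ⟨hx, h.trans hbx⟩

theorem isolated_iff {D : Set G} {w : G} :
    IsIsolatedElem (OddAdj D) D w ↔ w ∈ D ∧ ∀ b ∈ D, b ≠ w → ¬ Odd (orderOf (w * b)) := by
  constructor
  · rintro ⟨hw, h⟩
    exact ⟨hw, fun b hb hne hodd => (h b).1 ⟨hw, hb, fun e => hne e.symm, hodd⟩⟩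
  · rintro ⟨hw, h⟩
    refine ⟨hw, fun b => ⟨?_, ?_⟩⟩
    · rintro ⟨_, hb, hne, hodd⟩
      exact h b hb (fun e => hne e.symm) hodd
    · intro hba
      obtain ⟨_, hb, hne, hodd⟩ := oddAdj_symm hba
      exact h b hb (fun e => hne e.symm) hodd

theorem odd_dvd_two_pow {n j : ℕ} (ho : Odd n) (hd : n ∣ 2 ^ j) : n = 1 := by
  obtain ⟨k, _, rfl⟩ := (Nat.dvd_prime_pow Nat.prime_two).mp hd
  rcases Nat.eq_zero_or_pos k with rfl | hk
  · simp
  · exfalso
    have : Even (2 ^ k) := Nat.even_pow.mpr ⟨even_two, hk.ne'⟩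
    exact (Nat.not_odd_iff_even.mpr this) ho

theorem comm_sq {D : Set G} (hD : IsRootInvolutionSet D) {a b : G} (ha : a ∈ D) (hb : b ∈ D)
    (h : a * b = b * a) : (a * b) ^ 2 = 1 := by
  rw [pow_two]
  calc a * b * (a * b) = a * (b * a) * b := by simp only [mul_assoc]
    _ = a * (a * b) * b := by rw [h]
    _ = (a * a) * (b * b) := by simp only [mul_assoc]
    _ = 1 := by rw [sq_one hD ha, sq_one hD hb, mul_one]

theorem pair_absurd {D : Set G} (hD : IsRootInvolutionSet D) {u v r t : G} (hu : u ∈ D) (hv : v ∈ D)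
    (huv : u * v = r * t) (hc : Commute r t) (hr : Odd (orderOf r)) (hr1 : r ≠ 1)
    (ht : orderOf t = 2) : False := by
  have hcop : (orderOf r).Coprime (orderOf t) := by rw [ht]; exact hr.coprime_two_right
  have hord : orderOf (u * v) = orderOf r * 2 := by
    rw [huv, hc.orderOf_mul_eq_mul_orderOf_of_coprime hcop, ht]
  have hr3 : orderOf r ≠ 1 := fun h => hr1 (orderOf_eq_one_iff.mp h)
  have hrpos : 0 < orderOf r := hr.pos
  rcases hD.pair u hu v hv with h | h | ⟨h, _⟩
  · have h2 : (u * v) ^ 2 = 1 := comm_sq hD hu hv h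
    have h3 := orderOf_dvd_of_pow_eq_one h2
    rw [hord] at h3
    have h4 : orderOf r * 2 ≤ 2 := Nat.le_of_dvd (by norm_num) h3
    omega
  · rw [hord] at h
    exact (Nat.not_odd_iff_even.mpr (even_two.mul_left _)) h
  · rw [hord] at h
    obtain ⟨k, hk⟩ := hr
    omega

theorem no_comm {D : Set G} (hD : IsRootInvolutionSet D) {a e x : G} (ha : a ∈ D) (he : e ∈ D)
    (hx : x ∈ D) (hae : e * a = a * e) (hf : e * a ∈ D) (hodd : Odd (orderOf (e * x)))
    (hne : x ≠ e) : a * x ≠ x * a := by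
  intro hax
  have huv : e * a * x = e * x * a := by rw [mul_assoc, hax, mul_assoc]
  have hc : Commute (e * x) a := by
    show e * x * a = a * (e * x)
    rw [mul_assoc, ← hax, ← mul_assoc, hae, mul_assoc]
  have hr1 : e * x ≠ 1 := by
    intro h
    apply hne
    have : x = e⁻¹ := eq_inv_of_mul_eq_one_right h
    rw [this, inv_self hD he]
  exact pair_absurd hD hf hx huv hc hodd hr1 (hD.orderOf_eq a ha)

theorem not_both_four {D : Set G} (hD : IsRootInvolutionSet D) {a f x : G} (ha : a ∈ D) (hf : f ∈ D)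
    (hx : x ∈ D) (hfa : f * a = a * f) (hodd : Odd (orderOf (f * a * x))) (hne : x ≠ f * a)
    (hz1 : a * x * (a * x) ∈ D) (hz2 : f * x * (f * x) ∈ D) (he : f * a ∈ D) : False := by
  have haa := sq_one hD ha
  have hff := sq_one hD hf
  have hxx := sq_one hD hx
  have haa' : ∀ y, a * (a * y) = y := fun y => by rw [← mul_assoc, haa, one_mul]
  have hff' : ∀ y, f * (f * y) = y := fun y => by rw [← mul_assoc, hff, one_mul]
  have hxx' : ∀ y, x * (x * y) = y := fun y => by rw [← mul_assoc, hxx, one_mul]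
  have hfa' : ∀ y, f * (a * y) = a * (f * y) := fun y => by rw [← mul_assoc, hfa, mul_assoc]
  have hz2' : x * f * (x * f) = f * x * (f * x) := by
    have h := inv_self hD hz2
    rw [mul_inv_rev, mul_inv_rev, inv_self hD hx, inv_self hD hf] at h
    exact h
  obtain ⟨z, hz⟩ : ∃ z, z = f * x * (f * x) := ⟨_, rfl⟩
  obtain ⟨ρ, hρ⟩ : ∃ ρ, ρ = f * a * x * (f * a * x) := ⟨_, rfl⟩
  rw [← hz] at hz2 hz2'
  have hzz := sq_one hD hz2
  have hzz' : ∀ y, z * (z * y) = y := fun y => by rw [← mul_assoc, hzz, one_mul]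
  have hxz : x * z = z * x := by
    calc x * z = x * (f * x * (f * x)) := by rw [hz]
      _ = x * f * (x * f) * x := by simp only [mul_assoc]
      _ = z * x := by rw [hz2']
  have hw : f * (a * x * (a * x)) * f ∈ D := conj_mem' hD hz1 hf
  have hwz : f * (a * x * (a * x)) * f * z = ρ := by
    rw [hz, hρ]
    simp only [mul_assoc, hff', hxx', hfa']
  have hw_eq : f * (a * x * (a * x)) * f = ρ * z := by
    calc f * (a * x * (a * x)) * f = f * (a * x * (a * x)) * f * z * z := by
          rw [mul_assoc _ z z, hzz, mul_one]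
      _ = ρ * z := by rw [hwz]
  rw [hw_eq] at hw
  have hww := sq_one hD hw
  have hzρ : z * ρ = ρ⁻¹ * z := by
    have h1 : z * ρ * z = ρ⁻¹ := by
      apply eq_inv_of_mul_eq_one_right
      calc ρ * (z * ρ * z) = ρ * z * (ρ * z) := by simp only [mul_assoc]
        _ = 1 := hww
    calc z * ρ = z * ρ * z * z := by rw [mul_assoc (z * ρ), hzz, mul_one]
      _ = ρ⁻¹ * z := by rw [h1]
  have hxρ : x * ρ * x = ρ⁻¹ := by
    apply eq_inv_of_mul_eq_one_right
    rw [hρ]
    simp only [mul_assoc, hxx', hff', haa', hfa', hxx, hff, haa, hfa, mul_one]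
  have hx_inv : x * ρ = ρ⁻¹ * x := by
    calc x * ρ = x * ρ * x * x := by rw [mul_assoc (x * ρ), hxx, mul_one]
      _ = ρ⁻¹ * x := by rw [hxρ]
  have hx_inv' : x * ρ⁻¹ = ρ * x := by
    calc x * ρ⁻¹ = ρ * (ρ⁻¹ * x) * ρ⁻¹ := by group
      _ = ρ * (x * ρ) * ρ⁻¹ := by rw [hx_inv]
      _ = ρ * x := by group
  have hv : f * a * x * (f * a) ∈ D := conj_mem' hD hx he
  have hv_eq : f * a * x * (f * a) = ρ * x := by
    rw [hρ]; simp only [mul_assoc, hxx, mul_one]
  rw [hv_eq] at hv
  have huv : z * (ρ * x) = ρ⁻¹ * (z * x) := by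
    rw [← mul_assoc, hzρ, mul_assoc]
  have hc : Commute ρ⁻¹ (z * x) := by
    show ρ⁻¹ * (z * x) = z * x * ρ⁻¹
    rw [mul_assoc z, hx_inv', ← mul_assoc z, hzρ, mul_assoc]
  have hρsq : ρ = (f * a * x) ^ 2 := by rw [hρ, pow_two]
  have hρodd : Odd (orderOf ρ⁻¹) := by
    rw [orderOf_inv]
    have : orderOf ρ ∣ orderOf (f * a * x) := by
      rw [hρsq]; exact orderOf_pow_dvd 2
    exact Odd.of_dvd_nat hodd this
  have hρ1 : ρ⁻¹ ≠ 1 := by
    intro h
    rw [inv_eq_one] at h
    have h2 : (f * a * x) ^ 2 = 1 := by rw [← hρsq, h]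
    have hd : orderOf (f * a * x) ∣ 2 ^ 1 := by
      rw [pow_one]; exact orderOf_dvd_of_pow_eq_one h2
    have h1 := odd_dvd_two_pow hodd hd
    have h3 : f * a * x = 1 := orderOf_eq_one_iff.mp h1
    apply hne
    have : x = (f * a)⁻¹ := eq_inv_of_mul_eq_one_right h3
    rw [this, inv_self hD he]
  have ht : orderOf (z * x) = 2 := by
    apply orderOf_eq_prime
    · rw [pow_two]
      calc z * x * (z * x) = z * (x * z) * x := by simp only [mul_assoc]
        _ = z * (z * x) * x := by rw [hxz]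
        _ = 1 := by rw [hzz', hxx]
    · intro h
      have hzx : z = x := by
        have : z = x⁻¹ := eq_inv_of_mul_eq_one_left h
        rw [this, inv_self hD hx]
      have h6 : f * x * f = 1 := by
        have h5 : f * x * (f * x) = x := by rw [← hz, hzx]
        calc f * x * f = f * x * (f * x) * x := by simp only [mul_assoc, hxx, mul_one]
          _ = 1 := by rw [h5, hxx]
      apply ne_one_of_mem hD hx
      calc x = f * (f * x * f) * f := by simp only [mul_assoc, hff', hff, mul_one]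
        _ = 1 := by rw [h6, mul_one, hff]
  exact pair_absurd hD hz2 hv huv hc hρodd hρ1 ht

theorem key_adj {D : Set G} (hD : IsRootInvolutionSet D) {a e f x : G} (ha : a ∈ D) (he : e ∈ D)
    (hf : f ∈ D) (hx : x ∈ D) (hfa : f * a = a * f) (hef : f * a = e)
    (hodd : Odd (orderOf (e * x))) (hne : x ≠ e) : OddAdj D a x ∨ OddAdj D f x := by
  subst hef
  have haa := sq_one hD ha
  have hff := sq_one hD hf
  have haa' : ∀ y, a * (a * y) = y := fun y => by rw [← mul_assoc, haa, one_mul]
  have hff' : ∀ y, f * (f * y) = y := fun y => by rw [← mul_assoc, hff, one_mul]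
  have hfa' : ∀ y, f * (a * y) = a * (f * y) := fun y => by rw [← mul_assoc, hfa, mul_assoc]
  have hea : f * a * a = a * (f * a) := by
    simp only [mul_assoc, haa, haa', hff, hff', hfa, hfa', mul_one]
  have hfaa : f * a * a = f := by rw [mul_assoc, haa, mul_one]
  have hef' : f * a * f = f * (f * a) := by
    simp only [mul_assoc, haa, haa', hff, hff', hfa, hfa', mul_one]
  have hfaf : f * a * f = a := by
    simp only [mul_assoc, haa, haa', hff, hff', hfa, hfa', mul_one]
  have hax : a * x ≠ x * a := no_comm hD ha he hx hea (by rw [hfaa]; exact hf) hodd hne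
  have hfx : f * x ≠ x * f := no_comm hD hf he hx hef' (by rw [hfaf]; exact ha) hodd hne
  rcases hD.pair a ha x hx with h | h | ⟨_, h⟩
  · exact absurd h hax
  · left
    exact ⟨ha, hx, fun hh => hax (by rw [hh]), h⟩
  · rcases hD.pair f hf x hx with h' | h' | ⟨_, h'⟩
    · exact absurd h' hfx
    · right
      exact ⟨hf, hx, fun hh => hfx (by rw [hh]), h'⟩
    · exfalso
      rw [pow_two] at h h'
      exact not_both_four hD ha hf hx hfa hodd hne h h' he

theorem partner_in_comp {D : Set G} (hD : IsRootInvolutionSet D) {a e : G} (ha : a ∈ D)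
    (hnt : ∃ a' ∈ elemComponentOf (OddAdj D) D a, a' ≠ a) (he : e ∈ productPartners D a)
    (hni : ¬ IsIsolatedElem (OddAdj D) D e) : e ∈ elemComponentOf (OddAdj D) D a := by
  obtain ⟨⟨heD, hea, hne⟩, hf⟩ := he
  have haa := sq_one hD ha
  have hee := sq_one hD heD
  obtain ⟨a', ⟨_, hpath⟩, hne'⟩ := hnt
  obtain ⟨u, hau⟩ : ∃ u, OddAdj D a u := by
    rcases hpath.cases_head with h | ⟨c, hc, _⟩
    · exact absurd h.symm hne'
    · exact ⟨c, hc⟩
  obtain ⟨y, hey⟩ : ∃ y, OddAdj D e y := by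
    by_contra hcon
    apply hni
    rw [isolated_iff]
    exact ⟨heD, fun b hb hbne hodd => hcon ⟨b, heD, hb, fun h => hbne h.symm, hodd⟩⟩
  obtain ⟨_, huD, hau_ne, hau_odd⟩ := hau
  obtain ⟨_, hyD, hey_ne, hey_odd⟩ := hey
  have hfa : e * a * a = a * (e * a) := by
    rw [mul_assoc, haa, mul_one, ← mul_assoc, ← hea, mul_assoc, haa, mul_one]
  have hef : e * a * a = e := by rw [mul_assoc, haa, mul_one]
  have hfe' : e * a * e = a := by rw [hea, mul_assoc, hee, mul_one]
  have hfe : e * a * e = e * (e * a) := by rw [hfe', ← mul_assoc, hee, one_mul]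
  have hye : OddAdj D y e := oddAdj_symm ⟨heD, hyD, hey_ne, hey_odd⟩
  have hau' : OddAdj D a u := ⟨ha, huD, hau_ne, hau_odd⟩
  refine ⟨heD, ?_⟩
  rcases key_adj hD ha heD hf hyD hfa hef hey_odd (Ne.symm hey_ne) with h | h
  · exact (Relation.ReflTransGen.single h).tail hye
  · rcases key_adj hD heD ha hf huD hfe hfe' hau_odd (Ne.symm hau_ne) with h' | h'
    · exact (Relation.ReflTransGen.single hau').tail (oddAdj_symm h')
    · exact (((Relation.ReflTransGen.single hau').tail (oddAdj_symm h')).tail h).tail hye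

theorem sq_partner {D : Set G} (hD : IsRootInvolutionSet D) {a b : G} (ha : a ∈ D) (hb : b ∈ D)
    (hz : a * b * (a * b) ∈ D) :
    a * b * (a * b) ∈ productPartners D a ∧ a * b * (a * b) ∈ productPartners D b := by
  have haa := sq_one hD ha
  have hbb := sq_one hD hb
  have haa' : ∀ y, a * (a * y) = y := fun y => by rw [← mul_assoc, haa, one_mul]
  have hbb' : ∀ y, b * (b * y) = y := fun y => by rw [← mul_assoc, hbb, one_mul]
  have hinv : b * a * (b * a) = a * b * (a * b) := by
    have h := inv_self hD hz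
    rw [mul_inv_rev, mul_inv_rev, inv_self hD ha, inv_self hD hb] at h
    exact h
  refine ⟨⟨⟨hz, ?_, ?_⟩, ?_⟩, ⟨⟨hz, ?_, ?_⟩, ?_⟩⟩
  · calc a * b * (a * b) * a = a * (b * a * (b * a)) := by simp only [mul_assoc]
      _ = a * (a * b * (a * b)) := by rw [hinv]
  · intro h
    apply ne_one_of_mem hD ha
    have h1 : b * a * b = 1 := by
      calc b * a * b = a * (a * b * (a * b)) := by simp only [mul_assoc, haa']
        _ = 1 := by rw [h, haa]
    calc a = b * (b * a * b) * b := by simp only [mul_assoc, hbb', hbb, mul_one]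
      _ = 1 := by rw [h1, mul_one, hbb]
  · have h := hD.conj_mem a ha (a * b)
    have e : a * b * a * (a * b)⁻¹ = a * b * (a * b) * a := by
      rw [mul_inv_rev, inv_self hD ha, inv_self hD hb]; simp only [mul_assoc]
    rw [e] at h; exact h
  · calc a * b * (a * b) * b = b * a * (b * a) * b := by rw [hinv]
      _ = b * (a * b * (a * b)) := by simp only [mul_assoc]
  · intro h
    apply ne_one_of_mem hD hb
    have h1 : a * b * a = 1 := by
      calc a * b * a = a * b * (a * b) * b := by simp only [mul_assoc, hbb, mul_one]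
        _ = 1 := by rw [h, hbb]
    calc b = a * (a * b * a) * a := by simp only [mul_assoc, haa', haa, mul_one]
      _ = 1 := by rw [h1, mul_one, haa]
  · have h := hD.conj_mem b hb a
    have e : a * b * a⁻¹ = a * b * (a * b) * b := by
      rw [inv_self hD ha]; simp only [mul_assoc, hbb, mul_one]
    rw [e] at h; exact h

theorem isolated_conj {D : Set G} (hD : IsRootInvolutionSet D) {w : G}
    (hw : IsIsolatedElem (OddAdj D) D w) (g : G) : IsIsolatedElem (OddAdj D) D (g * w * g⁻¹) := by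
  rw [isolated_iff] at hw ⊢
  obtain ⟨hwD, h⟩ := hw
  refine ⟨hD.conj_mem w hwD g, fun b hb hne hodd => ?_⟩
  have hb' : g⁻¹ * b * g ∈ D := by
    have := hD.conj_mem b hb g⁻¹
    rwa [inv_inv] at this
  have hne' : g⁻¹ * b * g ≠ w := by
    intro e
    apply hne
    rw [← e]; group
  apply h _ hb' hne'
  have e : w * (g⁻¹ * b * g) = g⁻¹ * (g * w * g⁻¹ * b) * g⁻¹⁻¹ := by group
  rw [e, ord_conj]
  exact hodd

theorem closure_normal_of_conj {W : Set G} (h : ∀ w ∈ W, ∀ g : G, g * w * g⁻¹ ∈ W) :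
    (Subgroup.closure W).Normal := by
  constructor
  intro n hn g
  refine Subgroup.closure_induction (p := fun y _ => g * y * g⁻¹ ∈ Subgroup.closure W) ?_ ?_ ?_ ?_ hn
  · intro x hx; exact Subgroup.subset_closure (h x hx g)
  · simp
  · intro x y _ _ hx hy
    have e : g * (x * y) * g⁻¹ = (g * x * g⁻¹) * (g * y * g⁻¹) := by group
    rw [e]; exact mul_mem hx hy
  · intro x _ hx
    have e : g * x⁻¹ * g⁻¹ = (g * x * g⁻¹)⁻¹ := by group
    rw [e]; exact inv_mem hx

theorem zpowers_two_group {g : G} {k : ℕ} (h : g ^ 2 ^ k = 1) : IsPGroup 2 ↥(Subgroup.zpowers g) := by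
  rintro ⟨x, hx⟩
  obtain ⟨i, rfl⟩ := Subgroup.mem_zpowers_iff.mp hx
  refine ⟨k, Subtype.ext ?_⟩
  show (g ^ i) ^ 2 ^ k = 1
  calc (g ^ i) ^ 2 ^ k = (g ^ i) ^ ((2 ^ k : ℕ) : ℤ) := (zpow_natCast _ _).symm
    _ = (g ^ ((2 ^ k : ℕ) : ℤ)) ^ i := zpow_comm g i _
    _ = 1 := by rw [zpow_natCast, h, one_zpow]

theorem dihedral_two_group {a b : G} (ha : a * a = 1) (hb : b * b = 1) (h4 : (a * b) ^ 4 = 1) :
    IsPGroup 2 ↥(Subgroup.closure ({a, b} : Set G)) := by
  have hainv : a⁻¹ = a := inv_eq_of_mul_eq_one_right ha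
  have hbinv : b⁻¹ = b := inv_eq_of_mul_eq_one_right hb
  have e : a * (a * b) * a⁻¹ = (a * b)⁻¹ := by
    rw [mul_inv_rev, hbinv, hainv, ← mul_assoc, ha, one_mul]
  have hconj : ∀ i : ℤ, a * (a * b) ^ i * a⁻¹ = (a * b) ^ (-i) := by
    intro i
    rw [← conj_zpow, e, inv_zpow, zpow_neg]
  have hH : IsPGroup 2 ↥(Subgroup.zpowers a) :=
    zpowers_two_group (k := 1) (by rw [pow_one, pow_two]; exact ha)
  have hK : IsPGroup 2 ↥(Subgroup.zpowers (a * b)) := zpowers_two_group (k := 2) h4
  have hnorm : Subgroup.zpowers a ≤ Subgroup.normalizer (Subgroup.zpowers (a * b) : Set G) := by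
    rw [Subgroup.zpowers_le, Subgroup.mem_normalizer_iff]
    intro h
    constructor
    · intro hh
      obtain ⟨i, rfl⟩ := Subgroup.mem_zpowers_iff.mp hh
      rw [hconj]
      exact Subgroup.zpow_mem_zpowers _ _
    · intro hh
      obtain ⟨i, hi⟩ := Subgroup.mem_zpowers_iff.mp hh
      have hh2 : h = a * (a * b) ^ i * a⁻¹ := by
        rw [hi, hainv]
        simp only [mul_assoc]
        rw [ha, mul_one, ← mul_assoc, ha, one_mul]
      rw [hh2, hconj]
      exact Subgroup.zpow_mem_zpowers _ _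
  have hsup := hH.to_sup_of_normal_right' hK hnorm
  refine hsup.to_le ?_
  rw [Subgroup.closure_le]
  intro x hx
  rcases hx with hx | hx
  · rw [hx]
    exact Subgroup.mem_sup_left (Subgroup.mem_zpowers a)
  · rw [Set.mem_singleton_iff] at hx
    rw [hx]
    have hb' : a⁻¹ * (a * b) ∈ Subgroup.zpowers a ⊔ Subgroup.zpowers (a * b) :=
      mul_mem (inv_mem (Subgroup.mem_sup_left (Subgroup.mem_zpowers a)))
        (Subgroup.mem_sup_right (Subgroup.mem_zpowers (a * b)))
    rwa [inv_mul_cancel_left] at hb'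

theorem eq_one_of_odd_of_two_group {N : Subgroup G} (hN : IsPGroup 2 ↥N) {y : G} (hy : y ∈ N)
    (hodd : Odd (orderOf y)) : y = 1 := by
  obtain ⟨k, hk⟩ := hN ⟨y, hy⟩
  have h1 : y ^ 2 ^ k = 1 := by
    have := congrArg Subtype.val hk
    simpa using this
  have hd : orderOf y ∣ 2 ^ k := orderOf_dvd_of_pow_eq_one h1
  exact orderOf_eq_one_iff.mp (odd_dvd_two_pow hodd hd)

/-- Let G be a finite group generated by a set D of root involutions, and W the set of members of D whose product with every other member of D has even order or is trivial (the isolated vertices of the odd-order-product graph on D). Then W is conjugation-invariant and generates a normal 2-subgroup of G meeting D in exactly W; the commutator of two members of D lying in different connected components of that graph, each with more than one member, lies in the subgroup generated by W; and for a in such a component, every member of D commuting with a, different from a and with product with a in D, lies in that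 component or in W. -/
theorem result {G : Type*} [Group G] [Finite G] {D : Set G} (hD : Cfsg.IsRootInvolutionSet D) :
    (∀ w ∈ {w | Cfsg.IsIsolatedElem (Cfsg.OddAdj D) D w}, ∀ g : G, g * w * g⁻¹ ∈ {w | Cfsg.IsIsolatedElem (Cfsg.OddAdj D) D w}) ∧
    (Subgroup.closure {w | Cfsg.IsIsolatedElem (Cfsg.OddAdj D) D w}).Normal ∧
    IsPGroup 2 ↥(Subgroup.closure {w | Cfsg.IsIsolatedElem (Cfsg.OddAdj D) D w}) ∧
    (Subgroup.closure {w | Cfsg.IsIsolatedElem (Cfsg.OddAdj D) D w} : Set G) ∩ D = {w | Cfsg.IsIsolatedElem (Cfsg.OddAdj D) D w} ∧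
    (∀ a ∈ D, ∀ b ∈ D, (∃ a' ∈ Cfsg.elemComponentOf (Cfsg.OddAdj D) D a, a' ≠ a) →
      (∃ b' ∈ Cfsg.elemComponentOf (Cfsg.OddAdj D) D b, b' ≠ b) →
      Cfsg.elemComponentOf (Cfsg.OddAdj D) D a ≠ Cfsg.elemComponentOf (Cfsg.OddAdj D) D b →
        a * b * a⁻¹ * b⁻¹ ∈ Subgroup.closure {w | Cfsg.IsIsolatedElem (Cfsg.OddAdj D) D w}) ∧
    (∀ a ∈ D, (∃ a' ∈ Cfsg.elemComponentOf (Cfsg.OddAdj D) D a, a' ≠ a) →
      Cfsg.productPartners D a ⊆ Cfsg.elemComponentOf (Cfsg.OddAdj D) D a ∪ {w | Cfsg.IsIsolatedElem (Cfsg.OddAdj D) D w}) := by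
  classical
  obtain ⟨W, hW⟩ : ∃ W : Set G, W = {w | IsIsolatedElem (OddAdj D) D w} := ⟨_, rfl⟩
  rw [← hW]
  have memW : ∀ w, w ∈ W ↔ IsIsolatedElem (OddAdj D) D w := fun w => by rw [hW]; exact Iff.rfl
  have h1 : ∀ w ∈ W, ∀ g : G, g * w * g⁻¹ ∈ W :=
    fun w hw g => (memW _).mpr (isolated_conj hD ((memW w).mp hw) g)
  have h2 : (Subgroup.closure W).Normal := closure_normal_of_conj h1
  have h3 : IsPGroup 2 ↥(Subgroup.closure W) := by
    have hK2 : ∀ a ∈ W, ∀ b ∈ W, IsPGroup 2 ↥(Subgroup.closure ({a, b} : Set G)) := by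
      intro a ha b hb
      obtain ⟨haD, hai⟩ := isolated_iff.mp ((memW a).mp ha)
      obtain ⟨hbD, _⟩ := isolated_iff.mp ((memW b).mp hb)
      apply dihedral_two_group (sq_one hD haD) (sq_one hD hbD)
      rcases hD.pair a haD b hbD with h | h | ⟨h, _⟩
      · have h2' : (a * b) ^ 2 = 1 := comm_sq hD haD hbD h
        calc (a * b) ^ 4 = ((a * b) ^ 2) ^ 2 := pow_mul (a * b) 2 2
          _ = 1 := by rw [h2', one_pow]
      · by_cases hab : b = a
        · rw [hab, sq_one hD haD, one_pow]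
        · exact absurd h (hai b hbD hab)
      · rw [← h]; exact pow_orderOf_eq_one _
    have hsub := Cfsg.Agent.Lib.helper20.baer_suzuki_set (p := 2) W (fun g a ha => h1 a ha g) hK2
      (default : Sylow 2 G)
    exact (default : Sylow 2 G).isPGroup'.to_le ((Subgroup.closure_le _).mpr hsub)
  have h4 : (↑(Subgroup.closure W) : Set G) ∩ D = W := by
    ext d
    constructor
    · rintro ⟨hdN, hdD⟩
      rw [memW, isolated_iff]
      refine ⟨hdD, fun b hb hne hodd => ?_⟩
      have hy : (d * b) ^ 2 ∈ Subgroup.closure W := by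
        have e : (d * b) ^ 2 = d * (b * d * b⁻¹) := by
          rw [pow_two, inv_self hD hb]; simp only [mul_assoc]
        rw [e]
        exact mul_mem hdN (h2.conj_mem d hdN b)
      have hy1 : (d * b) ^ 2 = 1 :=
        eq_one_of_odd_of_two_group h3 hy (Odd.of_dvd_nat hodd (orderOf_pow_dvd 2))
      have hd2 : orderOf (d * b) ∣ 2 ^ 1 := by
        rw [pow_one]; exact orderOf_dvd_of_pow_eq_one hy1
      have h1' := orderOf_eq_one_iff.mp (odd_dvd_two_pow hodd hd2)
      apply hne
      have : b = d⁻¹ := eq_inv_of_mul_eq_one_right h1'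
      rw [this, inv_self hD hdD]
    · intro hd
      obtain ⟨hdD, _⟩ := (memW d).mp hd
      exact ⟨Subgroup.subset_closure hd, hdD⟩
  have h6 : ∀ a ∈ D, (∃ a' ∈ elemComponentOf (OddAdj D) D a, a' ≠ a) →
      productPartners D a ⊆ elemComponentOf (OddAdj D) D a ∪ W := by
    intro a ha hnt e he
    by_cases heW : e ∈ W
    · exact Or.inr heW
    · exact Or.inl (partner_in_comp hD ha hnt he (fun h => heW ((memW e).mpr h)))
  have h5 : ∀ a ∈ D, ∀ b ∈ D, (∃ a' ∈ elemComponentOf (OddAdj D) D a, a' ≠ a) →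
      (∃ b' ∈ elemComponentOf (OddAdj D) D b, b' ≠ b) →
      elemComponentOf (OddAdj D) D a ≠ elemComponentOf (OddAdj D) D b →
        a * b * a⁻¹ * b⁻¹ ∈ Subgroup.closure W := by
    intro a ha b hb hnta hntb hne
    rw [inv_self hD ha, inv_self hD hb]
    rcases hD.pair a ha b hb with h | h | ⟨_, h⟩
    · have e : a * b * a * b = 1 := by
        have h' := comm_sq hD ha hb h
        rw [pow_two] at h'
        rw [← h']; simp only [mul_assoc]
      rw [e]; exact one_mem _
    · exfalso
      by_cases hab : a = b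
      · exact hne (by rw [hab])
      · exact hne (comp_eq (Relation.ReflTransGen.single ⟨ha, hb, hab, h⟩))
    · rw [pow_two] at h
      obtain ⟨hza, hzb⟩ := sq_partner hD ha hb h
      have e : a * b * a * b = a * b * (a * b) := by simp only [mul_assoc]
      rw [e]
      rcases h6 a ha hnta hza with h1' | h1'
      · rcases h6 b hb hntb hzb with h2' | h2'
        · exfalso
          obtain ⟨_, p1⟩ := h1'
          obtain ⟨_, p2⟩ := h2'
          exact hne ((comp_eq p1).trans (comp_eq p2).symm)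
        · exact Subgroup.subset_closure h2'
      · exact Subgroup.subset_closure h1'
  exact ⟨h1, h2, h3, h4, h5, h6⟩

end Cfsg.Agent.S5045
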