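import Cfsg.Statements.S5048
import Cfsg.Agent.S5045
import Cfsg.Agent.Lib.helper1.Fitting
import Cfsg.Agent.Lib.helper20.BaerSuzuki
import Mathlib

set_option autoImplicit false
open Cfsg

namespace Cfsg.Agent.S5048

open Cfsg.Agent.S5045

variable {G : Type*} [Group G]

theorem conj_of_odd {D : Set G} (hD : IsRootInvolutionSet D) {a b : G} (ha : a ∈ D) (hb : b ∈ D)
    (hodd : Odd (orderOf (a * b))) : ∃ g : G, b = g * a * g⁻¹ := by
  obtain ⟨k, hk⟩ := hodd
  have haa := sq_one hD ha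
  have haa' : ∀ y, a * (a * y) = y := fun y => by rw [← mul_assoc, haa, one_mul]
  have hr : a * (a * b) * a⁻¹ = (a * b)⁻¹ := by
    rw [mul_inv_rev, inv_self hD hb, inv_self hD ha, ← mul_assoc, haa, one_mul]
  obtain ⟨g, hg⟩ : ∃ g, g = (a * b) ^ k := ⟨_, rfl⟩
  have h1 : a * g * a⁻¹ = g⁻¹ := by rw [hg, ← conj_pow, hr, inv_pow]
  have h3 : g * g * (a * b) = 1 := by
    have h2 := pow_orderOf_eq_one (a * b)
    rw [hk] at h2
    rw [hg, ← pow_add, ← pow_succ]
    have e : k + k + 1 = 2 * k + 1 := by omega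
    rw [e]; exact h2
  have h4 : g * g = b * a := by
    have h5 : g * g = (a * b)⁻¹ := eq_inv_of_mul_eq_one_left h3
    rw [h5, mul_inv_rev, inv_self hD ha, inv_self hD hb]
  refine ⟨g, ?_⟩
  rw [← h1, inv_self hD ha]
  calc b = b * a * a := by rw [mul_assoc, haa, mul_one]
    _ = g * g * a := by rw [h4]
    _ = g * a * (a * g * a) := by simp only [mul_assoc, haa']

theorem conj_of_path {D : Set G} (hD : IsRootInvolutionSet D) {a b : G}
    (h : Relation.ReflTransGen (OddAdj D) a b) : ∃ g : G, b = g * a * g⁻¹ := by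
  induction h with
  | refl => exact ⟨1, by simp⟩
  | tail _ hbc ih =>
    obtain ⟨g1, hg1⟩ := ih
    obtain ⟨hb, hc, _, hodd⟩ := hbc
    obtain ⟨g2, hg2⟩ := conj_of_odd hD hb hc hodd
    exact ⟨g2 * g1, by rw [hg2, hg1]; group⟩

theorem mem_of_path {D : Set G} (hD : IsRootInvolutionSet D) (N : Subgroup G) [N.Normal] {a b : G}
    (h : Relation.ReflTransGen (OddAdj D) a b) (ha : a ∈ N) : b ∈ N := by
  obtain ⟨g, hg⟩ := conj_of_path hD h
  rw [hg]
  exact Subgroup.Normal.conj_mem inferInstance a ha g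

theorem exists_partner {D : Set G} (hD : IsRootInvolutionSet D) (hc : IsConnectedSet (OddAdj D) D)
    (hDD : (D ∩ commutingProducts D).Nonempty) {d : G} (hd : d ∈ D) :
    ∃ b ∈ D, b * d = d * b ∧ d * b ∈ D := by
  obtain ⟨x, hxD, a0, ha0, b0, hb0, hab, _, hx⟩ := hDD
  rw [hx] at hxD
  obtain ⟨g, hg⟩ := conj_of_path hD (hc a0 ha0 d hd)
  rw [hg]
  refine ⟨g * b0 * g⁻¹, hD.conj_mem b0 hb0 g, ?_, ?_⟩
  · calc g * b0 * g⁻¹ * (g * a0 * g⁻¹) = g * (b0 * a0) * g⁻¹ := by group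
      _ = g * (a0 * b0) * g⁻¹ := by rw [hab]
      _ = g * a0 * g⁻¹ * (g * b0 * g⁻¹) := by group
  · have e : g * a0 * g⁻¹ * (g * b0 * g⁻¹) = g * (a0 * b0) * g⁻¹ := by group
    rw [e]
    exact hD.conj_mem _ hxD g

theorem mem_of_odd (N : Subgroup G) [N.Normal] {u v : G} (huv : u⁻¹ * v ∈ N)
    (hodd : Odd (orderOf u)) (hsq : v * v = 1) : v ∈ N := by
  obtain ⟨j, hj⟩ := hodd
  have h1 : ((u : G) : G ⧸ N) = (v : G ⧸ N) := QuotientGroup.eq.mpr huv
  have h2 : ((v : G) : G ⧸ N) ^ (2 * j + 1) = 1 := by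
    rw [← h1, ← QuotientGroup.mk_pow, ← hj, pow_orderOf_eq_one, QuotientGroup.mk_one]
  have h3 : ((v : G) : G ⧸ N) ^ 2 = 1 := by
    rw [← QuotientGroup.mk_pow, pow_two, hsq, QuotientGroup.mk_one]
  have h5 : ((v : G) : G ⧸ N) ^ (2 * j + 1) = (v : G ⧸ N) := by
    rw [pow_succ, pow_mul, h3, one_pow, one_mul]
  have h4 : ((v : G) : G ⧸ N) = 1 := h5.symm.trans h2
  exact (QuotientGroup.eq_one_iff v).mp h4

theorem comm_conj {D : Set G} (hD : IsRootInvolutionSet D) (hc : IsConnectedSet (OddAdj D) D)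
    (hDD : (D ∩ commutingProducts D).Nonempty) (N : Subgroup G) [N.Normal] (hN : ∀ e ∈ D, e ∉ N)
    {d n : G} (hd : d ∈ D) (hn : n ∈ N) : d * (n * d * n⁻¹) = n * d * n⁻¹ * d := by
  obtain ⟨y, hy⟩ : ∃ y, y = n * d * n⁻¹ := ⟨_, rfl⟩
  rw [← hy]
  have hyD : y ∈ D := by rw [hy]; exact hD.conj_mem d hd n
  have hdyN : d * y ∈ N := by
    have h1 : d * n * d⁻¹ ∈ N := Subgroup.Normal.conj_mem inferInstance n hn d
    have h2 : d * n * d⁻¹ * n⁻¹ ∈ N := mul_mem h1 (inv_mem hn)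
    have e : d * y = d * n * d⁻¹ * n⁻¹ := by rw [hy, inv_self hD hd]; simp only [mul_assoc]
    rw [e]; exact h2
  have hydN : y * d ∈ N := by
    have h := inv_mem hdyN
    rw [mul_inv_rev, inv_self hD hd, inv_self hD hyD] at h
    exact h
  rcases hD.pair d hd y hyD with h | h | ⟨_, h⟩
  · exact h
  · by_cases hyd : y = d
    · rw [hyd]
    · exfalso
      obtain ⟨b, hb, hbd, hf⟩ := exists_partner hD hc hDD hd
      have hbb := sq_one hD hb
      have hbb' : ∀ t, b * (b * t) = t := fun t => by rw [← mul_assoc, hbb, one_mul]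
      have hbd' : ∀ t, b * (d * t) = d * (b * t) := fun t => by rw [← mul_assoc, hbd, mul_assoc]
      have hfa : d * b * b = b * (d * b) := by simp only [mul_assoc, hbb, hbd', mul_one]
      have hef : d * b * b = d := by rw [mul_assoc, hbb, mul_one]
      rcases key_adj hD hb hd hf hyD hfa hef h hyd with h' | h'
      · obtain ⟨_, _, _, hodd⟩ := h'
        have huv : (b * y)⁻¹ * (b * d) ∈ N := by
          have e : (b * y)⁻¹ * (b * d) = y * d := by
            rw [mul_inv_rev, inv_self hD hyD, inv_self hD hb]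
            simp only [mul_assoc, hbb']
          rw [e]; exact hydN
        have hsq : b * d * (b * d) = 1 := by
          have h6 := comm_sq hD hb hd hbd
          rwa [pow_two] at h6
        have hmem := mem_of_odd N huv hodd hsq
        rw [hbd] at hmem
        exact hN _ hf hmem
      · obtain ⟨_, _, _, hodd⟩ := h'
        have huv : (d * b * y)⁻¹ * b ∈ N := by
          have e : (d * b * y)⁻¹ * b = y * d := by
            rw [mul_inv_rev, mul_inv_rev, inv_self hD hyD, inv_self hD hb, inv_self hD hd, hbd]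
            simp only [mul_assoc, hbb, mul_one]
          rw [e]; exact hydN
        exact hN _ hb (mem_of_odd N huv hodd hbb)
  · exfalso
    exact hN _ h (pow_mem hdyN 2)

theorem four_sq {w x y z : G} (hw : w * w = 1) (hx : x * x = 1) (hy : y * y = 1) (hz : z * z = 1)
    (hwx : Commute w x) (hwy : Commute w y) (hwz : Commute w z) (hxy : Commute x y)
    (hxz : Commute x z) (hyz : Commute y z) : (w * x * y * z) ^ 2 = 1 := by
  have h1 : Commute (w * x) y := hwy.mul_left hxy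
  have h2 : Commute (w * x * y) z := (hwz.mul_left hxz).mul_left hyz
  rw [h2.mul_pow, h1.mul_pow, hwx.mul_pow]
  simp only [pow_two, hw, hx, hy, hz, mul_one]

theorem pow4 {D : Set G} (hD : IsRootInvolutionSet D) (hc : IsConnectedSet (OddAdj D) D)
    (hDD : (D ∩ commutingProducts D).Nonempty) (N : Subgroup G) [N.Normal] (hN : ∀ e ∈ D, e ∉ N)
    {d n m : G} (hd : d ∈ D) (hn : n ∈ N) (hm : m ∈ N) (hmm : m * m = 1) :
    (n * d * n⁻¹ * d * m) ^ 4 = 1 := by
  have hminv : m⁻¹ = m := inv_eq_of_mul_eq_one_right hmm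
  have cc : ∀ n1 ∈ N, ∀ n2 ∈ N, Commute (n1 * d * n1⁻¹) (n2 * d * n2⁻¹) := by
    intro n1 h1 n2 h2
    have hy : n1 * d * n1⁻¹ ∈ D := hD.conj_mem d hd n1
    have h := comm_conj hD hc hDD N hN hy (mul_mem h2 (inv_mem h1))
    have e : n2 * n1⁻¹ * (n1 * d * n1⁻¹) * (n2 * n1⁻¹)⁻¹ = n2 * d * n2⁻¹ := by group
    rw [e] at h
    exact h
  have sq : ∀ n1 : G, (n1 * d * n1⁻¹) * (n1 * d * n1⁻¹) = 1 :=
    fun n1 => sq_one hD (hD.conj_mem d hd n1)
  have hmn : m * n ∈ N := mul_mem hm hn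
  have h1N : (1 : G) ∈ N := one_mem _
  have hfour := four_sq (sq n) (sq 1) (sq (m * n)) (sq m) (cc n hn 1 h1N) (cc n hn (m * n) hmn)
    (cc n hn m hm) (cc 1 h1N (m * n) hmn) (cc 1 h1N m hm) (cc (m * n) hmn m hm)
  have e : (n * d * n⁻¹ * d * m) ^ 2 =
      n * d * n⁻¹ * (1 * d * 1⁻¹) * ((m * n) * d * (m * n)⁻¹) * (m * d * m⁻¹) := by
    calc (n * d * n⁻¹ * d * m) ^ 2 = n * d * n⁻¹ * d * m * (n * d * n⁻¹ * d * m) := pow_two _
      _ = n * d * n⁻¹ * d * m * (n * d * n⁻¹ * d * m⁻¹) := by rw [hminv]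
      _ = n * d * n⁻¹ * (1 * d * 1⁻¹) * ((m * n) * d * (m * n)⁻¹) * (m * d * m⁻¹) := by group
  calc (n * d * n⁻¹ * d * m) ^ 4 = ((n * d * n⁻¹ * d * m) ^ 2) ^ 2 := pow_mul _ 2 2
    _ = 1 := by rw [e]; exact hfour

theorem comm_mem_pCore [Finite G] {D : Set G} (hD : IsRootInvolutionSet D)
    (hc : IsConnectedSet (OddAdj D) D) (hDD : (D ∩ commutingProducts D).Nonempty)
    (N : Subgroup G) [N.Normal] (hN : ∀ e ∈ D, e ∉ N)
    {d n : G} (hd : d ∈ D) (hn : n ∈ N) : n * d * n⁻¹ * d ∈ pCore 2 G := by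
  classical
  obtain ⟨K, hK⟩ : ∃ K : Set G, K = {c | ∃ n ∈ N, ∃ d ∈ D, c = n * d * n⁻¹ * d} := ⟨_, rfl⟩
  have memK : ∀ c, c ∈ K ↔ ∃ n ∈ N, ∃ d ∈ D, c = n * d * n⁻¹ * d := fun c => by
    rw [hK]; exact Iff.rfl
  have hKn : ∀ g : G, ∀ c ∈ K, g * c * g⁻¹ ∈ K := by
    intro g c hcK
    obtain ⟨n, hn, d, hd, hcd⟩ := (memK c).mp hcK
    refine (memK _).mpr ⟨g * n * g⁻¹, Subgroup.Normal.conj_mem inferInstance n hn g,
      g * d * g⁻¹, hD.conj_mem d hd g, ?_⟩
    rw [hcd]; group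
  have csq : ∀ n ∈ N, ∀ d ∈ D, (n * d * n⁻¹ * d) * (n * d * n⁻¹ * d) = 1 := by
    intro n hn d hd
    have h := comm_conj hD hc hDD N hN hd hn
    have h6 := comm_sq hD (hD.conj_mem d hd n) hd h.symm
    rwa [pow_two] at h6
  have cN : ∀ n ∈ N, ∀ d ∈ D, n * d * n⁻¹ * d ∈ N := by
    intro n hn d hd
    have h1 : d * n⁻¹ * d⁻¹ ∈ N := Subgroup.Normal.conj_mem inferInstance _ (inv_mem hn) d
    have h2 := mul_mem hn h1
    rw [inv_self hD hd] at h2
    have e : n * (d * n⁻¹ * d) = n * d * n⁻¹ * d := by simp only [mul_assoc]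
    rw [e] at h2; exact h2
  have hK2 : ∀ a ∈ K, ∀ b ∈ K, IsPGroup 2 ↥(Subgroup.closure ({a, b} : Set G)) := by
    intro a ha b hb
    obtain ⟨n1, hn1, d1, hd1, rfl⟩ := (memK a).mp ha
    obtain ⟨n2, hn2, d2, hd2, rfl⟩ := (memK b).mp hb
    exact dihedral_two_group (csq n1 hn1 d1 hd1) (csq n2 hn2 d2 hd2)
      (pow4 hD hc hDD N hN hd1 hn1 (cN n2 hn2 d2 hd2) (csq n2 hn2 d2 hd2))
  have hsub := Cfsg.Agent.Lib.helper20.baer_suzuki_set (p := 2) K hKn hK2 (default : Sylow 2 G)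
  have hp : IsPGroup 2 ↥(Subgroup.closure K) :=
    (default : Sylow 2 G).isPGroup'.to_le ((Subgroup.closure_le _).mpr hsub)
  have hnorm : (Subgroup.closure K).Normal := closure_normal_of_conj (fun w hw g => hKn g w hw)
  exact Cfsg.Agent.Lib.helper1.le_pCore hnorm hp
    (Subgroup.subset_closure ((memK _).mpr ⟨n, hn, d, hd, rfl⟩))

theorem exists_pi (G : Type*) [Group G] : ∃ π : G →* G ⧸ pCore 2 G, Function.Surjective π ∧
    (∀ x, π x = 1 ↔ x ∈ pCore 2 G) ∧
    (∀ x, x ∈ twoZCore G ↔ π x ∈ Subgroup.center (G ⧸ pCore 2 G)) :=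
  ⟨QuotientGroup.mk' (pCore 2 G), QuotientGroup.mk'_surjective _,
    fun x => QuotientGroup.eq_one_iff x, fun _ => Iff.rfl⟩

theorem comm_of {Q : Type*} [Group Q] (a b : Q) (h1 : a * b * a⁻¹ * b = 1) (h2 : b * b = 1) :
    a * b = b * a := by
  have h3 : a * b * a⁻¹ = b⁻¹ := eq_inv_of_mul_eq_one_left h1
  rw [inv_eq_of_mul_eq_one_right h2] at h3
  exact mul_inv_eq_iff_eq_mul.mp h3

theorem le_twoZCore [Finite G] {D : Set G} (hD : IsRootInvolutionSet D)
    (hc : IsConnectedSet (OddAdj D) D) (hDD : (D ∩ commutingProducts D).Nonempty)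
    (N : Subgroup G) [N.Normal] (hN : ∀ e ∈ D, e ∉ N) : N ≤ twoZCore G := by
  obtain ⟨π, hsurj, hker, hZ⟩ := exists_pi G
  intro n hn
  rw [hZ, Subgroup.mem_center_iff]
  have hDC : D ⊆ ((Subgroup.centralizer {π n}).comap π : Subgroup G) := by
    intro d hd
    show π d ∈ Subgroup.centralizer {π n}
    rw [Subgroup.mem_centralizer_iff]
    intro h hh
    rw [Set.mem_singleton_iff] at hh
    rw [hh]
    apply comm_of
    · have h1 := (hker _).mpr (comm_mem_pCore hD hc hDD N hN hd hn)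
      rw [map_mul, map_mul, map_mul, map_inv] at h1
      exact h1
    · rw [← map_mul, sq_one hD hd, map_one]
  have htop : (⊤ : Subgroup G) ≤ (Subgroup.centralizer {π n}).comap π := by
    rw [← hD.generates, Subgroup.closure_le]
    exact hDC
  intro q
  obtain ⟨g, rfl⟩ := hsurj q
  have hg : π g ∈ Subgroup.centralizer {π n} := htop (Subgroup.mem_top g)
  rw [Subgroup.mem_centralizer_iff] at hg
  exact (hg (π n) rfl).symm

theorem not_mem_twoZCore [Finite G] {D : Set G} (hD : IsRootInvolutionSet D)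
    (hc : IsConnectedSet (OddAdj D) D) (hDD : (D ∩ commutingProducts D).Nonempty) :
    ∀ e ∈ D, e ∉ twoZCore G := by
  intro e he heZ
  obtain ⟨π, hsurj, hker, hZ⟩ := exists_pi G
  obtain ⟨x, hxD, a0, ha0, b0, hb0, hab, hne1, hx⟩ := hDD
  have hne : a0 ≠ b0 := by
    intro h; apply hne1; rw [← h]; exact sq_one hD ha0
  obtain ⟨c, hc1⟩ : ∃ c, OddAdj D a0 c := by
    rcases (hc a0 ha0 b0 hb0).cases_head with h | ⟨c, hc1, _⟩
    · exact absurd h hne
    · exact ⟨c, hc1⟩
  obtain ⟨_, hcD, hac, hodd⟩ := hc1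
  have ha0Z : a0 ∈ twoZCore G := mem_of_path hD (twoZCore G) (hc e he a0 ha0) heZ
  obtain ⟨g, hg⟩ := conj_of_odd hD ha0 hcD hodd
  have hcen : ∀ q : G ⧸ pCore 2 G, q * π a0 = π a0 * q := Subgroup.mem_center_iff.mp ((hZ a0).mp ha0Z)
  have h1 : π (a0 * c) = 1 := by
    rw [hg, map_mul, map_mul, map_mul, map_inv, hcen (π g), mul_assoc (π a0), mul_inv_cancel,
      mul_one, ← map_mul, sq_one hD ha0, map_one]
  have h2 : a0 * c ∈ pCore 2 G := (hker _).mp h1
  have h3 := eq_one_of_odd_of_two_group (Cfsg.Agent.Lib.helper1.pCore_isPGroup 2 G) h2 hodd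
  apply hac
  have h4 : c = a0⁻¹ := eq_inv_of_mul_eq_one_right h3
  rw [h4, inv_self hD ha0]

theorem twoZCore_solvable (G : Type*) [Group G] [Finite G] : Group.IsSolvable ↥(twoZCore G) := by
  have hle : pCore 2 G ≤ twoZCore G := by
    intro x hx
    show (QuotientGroup.mk' (pCore 2 G)) x ∈ Subgroup.center (G ⧸ pCore 2 G)
    have h1 : (QuotientGroup.mk' (pCore 2 G)) x = 1 := (QuotientGroup.eq_one_iff x).mpr hx
    rw [h1]; exact one_mem _
  haveI : Group.IsSolvable ↥(pCore 2 G) := by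
    haveI : Group.IsNilpotent ↥(pCore 2 G) :=
      (Cfsg.Agent.Lib.helper1.pCore_isPGroup 2 G).isNilpotent
    infer_instance
  haveI : Group.IsSolvable ↥(Subgroup.center (G ⧸ pCore 2 G)) :=
    Group.isSolvable_of_comm (fun a b => Subtype.ext ((Subgroup.mem_center_iff.mp b.2) (a : G ⧸ pCore 2 G)))
  let g : ↥(twoZCore G) →* ↥(Subgroup.center (G ⧸ pCore 2 G)) :=
    ((QuotientGroup.mk' (pCore 2 G)).comp (twoZCore G).subtype).codRestrict _ (fun x => x.2)
  refine Group.isSolvable_of_ker_le_range (Subgroup.inclusion hle) g ?_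
  intro x hx
  have hx1 : (QuotientGroup.mk' (pCore 2 G)) (x : G) = 1 := by
    have h1 := (MonoidHom.mem_ker).mp hx
    exact congrArg Subtype.val h1
  have hx2 : (x : G) ∈ pCore 2 G := (QuotientGroup.eq_one_iff _).mp hx1
  exact ⟨⟨x, hx2⟩, Subtype.ext rfl⟩

/-- Let G be a finite group generated by a set D of root involutions whose odd-order-product graph is connected, with some product of two different commuting members of D again in D. Then the largest solvable normal subgroup of G is the preimage of the centre of G/O₂(G), and the quotient of G by it is a simple group. -/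
theorem result {G : Type*} [Group G] [Finite G] {D : Set G} (hD : Cfsg.IsRootInvolutionSet D)
    (hc : Cfsg.IsConnectedSet (Cfsg.OddAdj D) D) (hDD : (D ∩ Cfsg.commutingProducts D).Nonempty) :
    Cfsg.solvableRadical G = Cfsg.twoZCore G ∧ IsSimpleGroup (G ⧸ Cfsg.twoZCore G) := by
  classical
  have hnotZ := not_mem_twoZCore hD hc hDD
  have hdich : ∀ (N : Subgroup G), N.Normal → (∃ e ∈ D, e ∈ N) → N = ⊤ := by
    intro N hN ⟨e, he, heN⟩
    haveI := hN
    rw [eq_top_iff, ← hD.generates, Subgroup.closure_le]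
    intro d hd
    exact mem_of_path hD N (hc e he d hd) heN
  have hsmall : ∀ (N : Subgroup G), N.Normal → N ≠ ⊤ → N ≤ twoZCore G := by
    intro N hN hne
    haveI := hN
    apply le_twoZCore hD hc hDD N
    intro e he heN
    exact hne (hdich N hN ⟨e, he, heN⟩)
  obtain ⟨x0, hx0D, a0, ha0, b0, hb0, hab, hne1, hx0⟩ := hDD
  have hnt : Nontrivial (G ⧸ twoZCore G) :=
    ⟨⟨((a0 : G) : G ⧸ twoZCore G), 1, fun h => hnotZ a0 ha0 ((QuotientGroup.eq_one_iff a0).mp h)⟩⟩
  have hsimple : IsSimpleGroup (G ⧸ twoZCore G) := by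
    refine @IsSimpleGroup.mk _ _ hnt ?_
    intro H hH
    by_cases hM : H.comap (QuotientGroup.mk' (twoZCore G)) = ⊤
    · right
      rw [eq_top_iff]
      intro q _
      obtain ⟨g, rfl⟩ := QuotientGroup.mk_surjective q
      have h1 : g ∈ H.comap (QuotientGroup.mk' (twoZCore G)) := by rw [hM]; trivial
      exact h1
    · left
      have hle := hsmall _ (hH.comap _) hM
      rw [eq_bot_iff]
      intro q hq
      obtain ⟨g, rfl⟩ := QuotientGroup.mk_surjective q
      have hg : g ∈ twoZCore G := hle hq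
      exact Subgroup.mem_bot.mpr ((QuotientGroup.eq_one_iff g).mpr hg)
  refine ⟨?_, hsimple⟩
  apply le_antisymm
  · apply sSup_le
    rintro N ⟨hNn, hNs⟩
    by_cases hNt : N = ⊤
    · exfalso
      haveI := hNs
      haveI : Group.IsSolvable G := by
        have hs : Function.Surjective (N.subtype) := by
          intro g
          exact ⟨⟨g, by rw [hNt]; trivial⟩, rfl⟩
        exact Group.isSolvable_of_surjective hs
      have hcomm : ∀ a b : G ⧸ twoZCore G, a * b = b * a :=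
        (IsSimpleGroup.comm_iff_isSolvable).mpr inferInstance
      obtain ⟨g, hg⟩ := conj_of_path hD (hc a0 ha0 b0 hb0)
      have e1 : ((b0 : G) : G ⧸ twoZCore G) = (a0 : G ⧸ twoZCore G) := by
        rw [hg, QuotientGroup.mk_mul, QuotientGroup.mk_mul, QuotientGroup.mk_inv,
          hcomm (g : G ⧸ twoZCore G) (a0 : G ⧸ twoZCore G), mul_assoc, mul_inv_cancel, mul_one]
      have e2 : ((a0 * b0 : G) : G ⧸ twoZCore G) = 1 := by
        rw [QuotientGroup.mk_mul, e1, ← QuotientGroup.mk_mul, sq_one hD ha0, QuotientGroup.mk_one]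
      rw [hx0] at hx0D
      exact hnotZ _ hx0D ((QuotientGroup.eq_one_iff _).mp e2)
    · exact hsmall N hNn hNt
  · apply le_sSup
    exact ⟨inferInstance, twoZCore_solvable G⟩

end Cfsg.Agent.S5048
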