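import Cfsg.Statements.S5057
import Mathlib

set_option autoImplicit false
open Cfsg

namespace Cfsg.Agent.S5057

open Equiv

/-- the reference involution -/
def d0 : Perm (Fin 6) := swap 0 1 * swap 2 3

set_option maxRecDepth 1000000 in
theorem conc : ∀ i j k l : Fin 6, i ≠ j → i ≠ k → i ≠ l → j ≠ k → j ≠ l → k ≠ l →
    (d0 * (swap i j * swap k l) = (swap i j * swap k l) * d0) ∨
    (d0 * (swap i j * swap k l)) ^ 3 = 1 ∨ (d0 * (swap i j * swap k l)) ^ 5 = 1 ∨
    ((d0 * (swap i j * swap k l)) ^ 4 = 1 ∧ (d0 * (swap i j * swap k l)) ^ 2 ≠ 1) := by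
  unfold d0; decide

theorem d0_mem : d0 ∈ alternatingGroup (Fin 6) := by
  rw [Equiv.Perm.mem_alternatingGroup, d0, Equiv.Perm.sign_mul, Equiv.Perm.sign_swap (by decide),
    Equiv.Perm.sign_swap (by decide)]
  rfl

theorem d0_sq : d0 * d0 = 1 := by unfold d0; decide

theorem d0_ne : d0 ≠ 1 := by unfold d0; decide

theorem d0_comm : swap (0 : Fin 6) 1 * d0 * (swap (0 : Fin 6) 1)⁻¹ = d0 := by unfold d0; decide

theorem d0_cycleType : d0.cycleType = {2, 2} := by
  unfold d0
  rw [(Equiv.Perm.disjoint_swap_swap (by decide)).cycleType_mul,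
    (Equiv.Perm.isCycle_swap (by decide)).cycleType,
    (Equiv.Perm.isCycle_swap (by decide)).cycleType, Equiv.Perm.card_support_swap (by decide),
    Equiv.Perm.card_support_swap (by decide)]
  rfl

theorem invol_cycleType (σ : Perm (Fin 6)) (hσ : orderOf σ = 2)
    (hmem : σ ∈ alternatingGroup (Fin 6)) : σ.cycleType = {2, 2} := by
  obtain ⟨n, hn⟩ := Equiv.Perm.cycleType_prime_order (σ := σ) (by rw [hσ]; exact Nat.prime_two)
  rw [hσ] at hn
  have h1 := Equiv.Perm.sum_cycleType_le σ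
  rw [hn, Multiset.sum_replicate, Fintype.card_fin] at h1
  have h2 : Equiv.Perm.sign σ = 1 := Equiv.Perm.mem_alternatingGroup.mp hmem
  rw [Equiv.Perm.sign_of_cycleType, hn, Multiset.sum_replicate, Multiset.card_replicate] at h2
  have hn2 : n ≤ 2 := by
    simp at h1; omega
  interval_cases n
  · exfalso; revert h2; decide
  · rw [hn]; rfl
  · exfalso; revert h2; decide

theorem conj_d0 (σ : Perm (Fin 6)) (hσ : orderOf σ = 2) (hmem : σ ∈ alternatingGroup (Fin 6)) :
    ∃ g : Perm (Fin 6), g ∈ alternatingGroup (Fin 6) ∧ σ = g * d0 * g⁻¹ := by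
  have h1 : IsConj d0 σ := by
    rw [Equiv.Perm.isConj_iff_cycleType_eq, d0_cycleType, invol_cycleType σ hσ hmem]
  obtain ⟨g, hg⟩ := isConj_iff.mp h1
  by_cases hs : Equiv.Perm.sign g = 1
  · exact ⟨g, Equiv.Perm.mem_alternatingGroup.mpr hs, hg.symm⟩
  · refine ⟨g * swap 0 1, ?_, ?_⟩
    · rw [Equiv.Perm.mem_alternatingGroup, Equiv.Perm.sign_mul, Equiv.Perm.sign_swap (by decide)]
      rcases Int.units_eq_one_or (Equiv.Perm.sign g) with h | h
      · exact absurd h hs
      · rw [h]; rfl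
    · rw [← hg]
      calc g * d0 * g⁻¹ = g * (swap 0 1 * d0 * (swap 0 1)⁻¹) * g⁻¹ := by rw [d0_comm]
        _ = g * swap 0 1 * d0 * (g * swap 0 1)⁻¹ := by group

theorem invol_form (σ : Perm (Fin 6)) (hσ : orderOf σ = 2) (hmem : σ ∈ alternatingGroup (Fin 6)) :
    ∃ i j k l : Fin 6, i ≠ j ∧ i ≠ k ∧ i ≠ l ∧ j ≠ k ∧ j ≠ l ∧ k ≠ l ∧
      σ = swap i j * swap k l := by
  obtain ⟨g, -, hg⟩ := conj_d0 σ hσ hmem
  refine ⟨g 0, g 1, g 2, g 3, ?_, ?_, ?_, ?_, ?_, ?_, ?_⟩
  · exact fun h => absurd (g.injective h) (by decide)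
  · exact fun h => absurd (g.injective h) (by decide)
  · exact fun h => absurd (g.injective h) (by decide)
  · exact fun h => absurd (g.injective h) (by decide)
  · exact fun h => absurd (g.injective h) (by decide)
  · exact fun h => absurd (g.injective h) (by decide)
  · rw [hg, Equiv.swap_apply_apply, Equiv.swap_apply_apply]; unfold d0; group

theorem conc' (σ : Perm (Fin 6)) (hσ : orderOf σ = 2) (hmem : σ ∈ alternatingGroup (Fin 6)) :
    (d0 * σ = σ * d0) ∨ (d0 * σ) ^ 3 = 1 ∨ (d0 * σ) ^ 5 = 1 ∨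
      ((d0 * σ) ^ 4 = 1 ∧ (d0 * σ) ^ 2 ≠ 1) := by
  obtain ⟨i, j, k, l, h1, h2, h3, h4, h5, h6, rfl⟩ := invol_form σ hσ hmem
  exact conc i j k l h1 h2 h3 h4 h5 h6

/-- the pair property together with the order bound -/
def PP (a b : ↥(alternatingGroup (Fin 6))) : Prop :=
  (a * b = b * a ∨ Odd (orderOf (a * b)) ∨
    (orderOf (a * b) = 4 ∧ orderOf ((a * b) ^ 2) = 2)) ∧ orderOf (a * b) ≤ 5

theorem PP_d0 (b : ↥(alternatingGroup (Fin 6))) (hb : orderOf b = 2) :
    PP ⟨d0, d0_mem⟩ b := by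
  have hb' : orderOf (b : Perm (Fin 6)) = 2 := by rw [← hb]; exact Subgroup.orderOf_coe b
  have hbb : (b : Perm (Fin 6)) * b = 1 := by
    rw [← pow_two, ← hb']; exact pow_orderOf_eq_one _
  obtain ⟨x, hx⟩ : ∃ x : ↥(alternatingGroup (Fin 6)), x = ⟨d0, d0_mem⟩ * b := ⟨_, rfl⟩
  have hxv : (x : Perm (Fin 6)) = d0 * b := by rw [hx]; rfl
  have hpow : ∀ n : ℕ, x ^ n = 1 ↔ (d0 * (b : Perm (Fin 6))) ^ n = 1 := by
    intro n
    rw [Subtype.ext_iff, Subgroup.coe_pow, Subgroup.coe_one, hxv]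
  unfold PP
  rw [← hx]
  rcases conc' b.1 hb' b.2 with h | h | h | ⟨h4, h2⟩
  · have hc : x = b * ⟨d0, d0_mem⟩ := by
      rw [hx]; exact Subtype.ext h
    have hx2 : x ^ 2 = 1 := by
      rw [hpow]
      calc (d0 * (b : Perm (Fin 6))) ^ 2 = d0 * ((b : Perm (Fin 6)) * d0) * b := by
            rw [pow_two]; group
        _ = d0 * (d0 * (b : Perm (Fin 6))) * b := by rw [h]
        _ = (d0 * d0) * ((b : Perm (Fin 6)) * b) := by group
        _ = 1 := by rw [d0_sq, hbb, mul_one]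
    refine ⟨Or.inl hc, ?_⟩
    have := Nat.le_of_dvd (by norm_num) (orderOf_dvd_of_pow_eq_one hx2)
    omega
  · have hx3 : x ^ 3 = 1 := (hpow 3).mpr h
    have hd := orderOf_dvd_of_pow_eq_one hx3
    rcases (Nat.dvd_prime Nat.prime_three).mp hd with h1 | h1
    · rw [h1]; exact ⟨Or.inr (Or.inl (by decide)), by norm_num⟩
    · rw [h1]; exact ⟨Or.inr (Or.inl (by decide)), by norm_num⟩
  · have hx5 : x ^ 5 = 1 := (hpow 5).mpr h
    have hd := orderOf_dvd_of_pow_eq_one hx5
    rcases (Nat.dvd_prime Nat.prime_five).mp hd with h1 | h1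
    · rw [h1]; exact ⟨Or.inr (Or.inl (by decide)), by norm_num⟩
    · rw [h1]; exact ⟨Or.inr (Or.inl (by decide)), by norm_num⟩
  · have hx4 : x ^ 4 = 1 := (hpow 4).mpr h4
    have hx2 : x ^ 2 ≠ 1 := fun h => h2 ((hpow 2).mp h)
    have ho : orderOf x = 4 := by
      have := orderOf_eq_prime_pow (p := 2) (n := 1) (x := x) (by simpa using hx2)
        (by simpa using hx4)
      simpa using this
    have ho2 : orderOf (x ^ 2) = 2 := by
      haveI : Fact (Nat.Prime 2) := ⟨Nat.prime_two⟩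
      apply orderOf_eq_prime
      · rw [← pow_mul]; exact hx4
      · exact hx2
    exact ⟨Or.inr (Or.inr ⟨ho, ho2⟩), by rw [ho]; norm_num⟩

theorem ord_conj (g x : ↥(alternatingGroup (Fin 6))) : orderOf (g * x * g⁻¹) = orderOf x := by
  have h := MulEquiv.orderOf_eq (MulAut.conj g) x
  rwa [MulAut.conj_apply] at h

theorem PP_conj (g a b : ↥(alternatingGroup (Fin 6))) (h : PP a b) :
    PP (g * a * g⁻¹) (g * b * g⁻¹) := by
  have e : g * a * g⁻¹ * (g * b * g⁻¹) = g * (a * b) * g⁻¹ := by group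
  have e' : g * b * g⁻¹ * (g * a * g⁻¹) = g * (b * a) * g⁻¹ := by group
  unfold PP at h ⊢
  rw [e, e', ord_conj, conj_pow, ord_conj]
  obtain ⟨h1, h2⟩ := h
  refine ⟨?_, h2⟩
  rcases h1 with h1 | h1 | h1
  · left; rw [h1]
  · right; left; exact h1
  · right; right; exact h1

/-- The involutions of the alternating group of degree 6 form a class of root involutions (a single conjugacy class of involutions generating the group, any two of which commute, have product of odd order, or have product of order 4 whose square is again an involution of the class), and the product of any two of them has order at most 5. -/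
theorem result :
    Cfsg.IsRootInvolutionClass {g : ↥(alternatingGroup (Fin 6)) | orderOf g = 2} ∧
    ∀ d ∈ {g : ↥(alternatingGroup (Fin 6)) | orderOf g = 2}, ∀ e ∈ {g : ↥(alternatingGroup (Fin 6)) | orderOf g = 2},
      orderOf (d * e) ≤ 5 := by
  have hd0 : orderOf (⟨d0, d0_mem⟩ : ↥(alternatingGroup (Fin 6))) = 2 := by
    haveI : Fact (Nat.Prime 2) := ⟨Nat.prime_two⟩
    apply orderOf_eq_prime
    · rw [pow_two]; exact Subtype.ext d0_sq
    · intro h; exact d0_ne (congrArg Subtype.val h)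
  have hconj : ∀ a : ↥(alternatingGroup (Fin 6)), orderOf a = 2 →
      ∃ g : ↥(alternatingGroup (Fin 6)), a = g * ⟨d0, d0_mem⟩ * g⁻¹ := by
    intro a ha
    have ha' : orderOf (a : Perm (Fin 6)) = 2 := by rw [← ha]; exact Subgroup.orderOf_coe a
    obtain ⟨g, hg, hag⟩ := conj_d0 a.1 ha' a.2
    exact ⟨⟨g, hg⟩, Subtype.ext hag⟩
  have hPP : ∀ a b : ↥(alternatingGroup (Fin 6)), orderOf a = 2 → orderOf b = 2 → PP a b := by
    intro a b ha hb
    obtain ⟨g, hg⟩ := hconj a ha
    have hb' : orderOf (g⁻¹ * b * g) = 2 := by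
      have := ord_conj g⁻¹ b
      rw [inv_inv] at this
      rw [this, hb]
    have h1 := PP_conj g _ _ (PP_d0 (g⁻¹ * b * g) hb')
    have e : g * (g⁻¹ * b * g) * g⁻¹ = b := by group
    rw [e, ← hg] at h1
    exact h1
  refine ⟨⟨⟨fun d hd => hd, ?_, ?_, ?_⟩, ⟨_, hd0⟩, ?_⟩, ?_⟩
  · -- generation
    haveI := alternatingGroup.isSimpleGroup (α := Fin 6) (by simp)
    have hnorm : (Subgroup.closure
        {g : ↥(alternatingGroup (Fin 6)) | orderOf g = 2}).Normal := by
      refine ⟨fun x hx g => ?_⟩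
      refine Subgroup.closure_induction (p := fun x _ => g * x * g⁻¹ ∈ Subgroup.closure
        {g : ↥(alternatingGroup (Fin 6)) | orderOf g = 2}) ?_ ?_ ?_ ?_ hx
      · intro y hy
        apply Subgroup.subset_closure
        show orderOf (g * y * g⁻¹) = 2
        rw [ord_conj]; exact hy
      · simp
      · intro y z _ _ hy hz
        have e : g * (y * z) * g⁻¹ = (g * y * g⁻¹) * (g * z * g⁻¹) := by group
        rw [e]; exact Subgroup.mul_mem _ hy hz
      · intro y _ hy
        have e : g * y⁻¹ * g⁻¹ = (g * y * g⁻¹)⁻¹ := by group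
        rw [e]; exact Subgroup.inv_mem _ hy
    refine (hnorm.eq_bot_or_eq_top).resolve_left ?_
    intro h
    have h1 : (⟨d0, d0_mem⟩ : ↥(alternatingGroup (Fin 6))) ∈ Subgroup.closure
        {g : ↥(alternatingGroup (Fin 6)) | orderOf g = 2} := Subgroup.subset_closure hd0
    rw [h, Subgroup.mem_bot] at h1
    exact d0_ne (congrArg Subtype.val h1)
  · intro d hd g
    show orderOf (g * d * g⁻¹) = 2
    rw [ord_conj]; exact hd
  · intro a ha b hb
    obtain ⟨h1, -⟩ := hPP a b ha hb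
    rcases h1 with h1 | h1 | ⟨h1, h2⟩
    · exact Or.inl h1
    · exact Or.inr (Or.inl h1)
    · exact Or.inr (Or.inr ⟨h1, h2⟩)
  · intro a ha b hb
    obtain ⟨g, hg⟩ := hconj a ha
    obtain ⟨h, hh⟩ := hconj b hb
    refine ⟨h * g⁻¹, ?_⟩
    rw [hh, hg]; group
  · intro d hd e he
    exact (hPP d e hd he).2

end Cfsg.Agent.S5057
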