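import Cfsg.Statements.S5059
import Mathlib

set_option autoImplicit false
universe u
open Cfsg

namespace Cfsg.Agent.S5059

theorem one_add_mul {A : Type*} [Ring A] (a b : A) :
    (1 + a) * (1 + b) = 1 + (a + b) + a * b := by noncomm_ring

section
variable {k : Type*} [Field k] {M : Type*} [AddCommGroup M] [Module k M]

theorem nil_mul {C R : Submodule k M} (hRC : R ≤ C) {N₁ N₂ : M →ₗ[k] M}
    (h1 : C ≤ LinearMap.ker N₁) (h2 : LinearMap.range N₂ ≤ R) : N₁ * N₂ = 0 := by
  ext m
  have h : N₂ m ∈ LinearMap.ker N₁ := h1 (hRC (h2 (LinearMap.mem_range_self N₂ m)))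
  simpa using h

theorem exists_unit (N : M →ₗ[k] M) (h : N * N = 0) :
    ∃ u : LinearMap.GeneralLinearGroup k M, (u : M →ₗ[k] M) = 1 + N := by
  have h1 : (1 + N) * (1 + -N) = 1 := by
    rw [one_add_mul, mul_neg, h]; simp
  have h2 : (1 + -N) * (1 + N) = 1 := by
    rw [one_add_mul, neg_mul, h]; simp
  exact ⟨⟨1 + N, 1 + -N, h1, h2⟩, rfl⟩

/-- the auxiliary set -/
def InS (G : Subgroup (LinearMap.GeneralLinearGroup k M)) (C R : Submodule k M)
    (x : LinearMap.GeneralLinearGroup k M) : Prop :=
  ∃ N : M →ₗ[k] M, (x : M →ₗ[k] M) = 1 + N ∧ C ≤ LinearMap.ker N ∧ LinearMap.range N ≤ R ∧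
    ∀ c : k, ∀ y : LinearMap.GeneralLinearGroup k M, (y : M →ₗ[k] M) = 1 + c • N → y ∈ G

theorem inS_one (G : Subgroup (LinearMap.GeneralLinearGroup k M)) (C R : Submodule k M) :
    InS G C R 1 := by
  refine ⟨0, by simp, by simp, by simp, ?_⟩
  intro c y hy
  have h : y = 1 := by
    apply Units.ext; rw [hy]; simp
  rw [h]; exact G.one_mem

theorem inS_mul {G : Subgroup (LinearMap.GeneralLinearGroup k M)} {C R : Submodule k M}
    (hRC : R ≤ C) {x y : LinearMap.GeneralLinearGroup k M}
    (hx : InS G C R x) (hy : InS G C R y) : InS G C R (x * y) := by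
  obtain ⟨N₁, e1, k1, r1, s1⟩ := hx
  obtain ⟨N₂, e2, k2, r2, s2⟩ := hy
  have h12 : N₁ * N₂ = 0 := nil_mul hRC k1 r2
  refine ⟨N₁ + N₂, ?_, ?_, ?_, ?_⟩
  · rw [Units.val_mul, e1, e2, one_add_mul, h12, add_zero]
  · intro m hm
    rw [LinearMap.mem_ker, LinearMap.add_apply, LinearMap.mem_ker.mp (k1 hm),
      LinearMap.mem_ker.mp (k2 hm), add_zero]
  · rintro _ ⟨m, rfl⟩
    rw [LinearMap.add_apply]
    exact R.add_mem (r1 (LinearMap.mem_range_self N₁ m)) (r2 (LinearMap.mem_range_self N₂ m))
  · intro c z hz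
    obtain ⟨u, hu⟩ := exists_unit (c • N₁)
      (by rw [smul_mul_smul_comm, nil_mul hRC k1 r1, smul_zero])
    obtain ⟨v, hv⟩ := exists_unit (c • N₂)
      (by rw [smul_mul_smul_comm, nil_mul hRC k2 r2, smul_zero])
    have huG := s1 c u hu
    have hvG := s2 c v hv
    have hzuv : z = u * v := by
      apply Units.ext
      rw [Units.val_mul, hu, hv, hz, one_add_mul, smul_mul_smul_comm, h12, smul_zero, add_zero,
        smul_add]
    rw [hzuv]; exact G.mul_mem huG hvG

theorem inS_inv {G : Subgroup (LinearMap.GeneralLinearGroup k M)} {C R : Submodule k M}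
    (hRC : R ≤ C) {x : LinearMap.GeneralLinearGroup k M}
    (hx : InS G C R x) : InS G C R x⁻¹ := by
  obtain ⟨N, e1, k1, r1, s1⟩ := hx
  have hNN : N * N = 0 := nil_mul hRC k1 r1
  obtain ⟨w, hw⟩ := exists_unit (-N) (by rw [neg_mul_neg, hNN])
  have hxw : x * w = 1 := by
    apply Units.ext
    rw [Units.val_mul, e1, hw, one_add_mul, mul_neg, hNN]
    simp
  have hw' : x⁻¹ = w := (eq_inv_of_mul_eq_one_right hxw).symm
  rw [hw']
  refine ⟨-N, hw, ?_, ?_, ?_⟩
  · intro m hm
    rw [LinearMap.mem_ker, LinearMap.neg_apply, LinearMap.mem_ker.mp (k1 hm), neg_zero]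
  · rintro _ ⟨m, rfl⟩
    rw [LinearMap.neg_apply]
    exact R.neg_mem (r1 (LinearMap.mem_range_self N m))
  · intro c z hz
    apply s1 (-c) z
    rw [hz, smul_neg, neg_smul]

end

/-- Let k be a field of characteristic not 2 with k not of order 3, M a finite-dimensional k-vector space and G ≤ GL(M) such that (G, M) is a quadratic pair (M irreducible for G, and G generated by its quadratically acting elements σ whose scalar family 1 + c(σ − 1), c ∈ k, lies in G). Write 𝒬_d for the quadratic elements of G of minimal commutator rank, E(σ) for the subgroup generated by the members of 𝒬_d with the same fixed space and commutator space as σ, and Σ for the set of these subgroups. Then for σ ∈ 𝒬_d the subgroup E(σ) consists exactly of those members together with the identity, it is abelian, and if k has prime characteristic p every element of E(σ) has order dividing p. -/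
theorem result {k : Type u} [Field k] (hk2 : ringChar k ≠ 2) (hk3 : Nat.card k ≠ 3)
    {M : Type u} [AddCommGroup M] [Module k M] [FiniteDimensional k M]
    {G : Subgroup (LinearMap.GeneralLinearGroup k M)} (hG : Cfsg.IsQuadraticPair G)
    {σ : LinearMap.GeneralLinearGroup k M} (hσ : σ ∈ Cfsg.minimalQuadraticElements G) :
    (Cfsg.sameActionSubgroup G σ : Set (LinearMap.GeneralLinearGroup k M)) = Cfsg.sameActionClass G σ ∪ {1} ∧
    IsMulCommutative ↥(Cfsg.sameActionSubgroup G σ) ∧
    (∀ p : ℕ, p.Prime → ringChar k = p → ∀ x ∈ Cfsg.sameActionSubgroup G σ, x ^ p = 1) := by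
  classical
  obtain ⟨⟨hσG, ⟨hσq, hσne⟩, hσsc⟩, hσmin⟩ := hσ
  obtain ⟨C, hC⟩ : ∃ C, C = LinearMap.ker ((σ : M →ₗ[k] M) - 1) := ⟨_, rfl⟩
  obtain ⟨R, hR⟩ : ∃ R, R = LinearMap.range ((σ : M →ₗ[k] M) - 1) := ⟨_, rfl⟩
  have hRC : R ≤ C := by
    rw [hR, hC]
    rintro _ ⟨m, rfl⟩
    rw [LinearMap.mem_ker]
    have h := congrArg (fun f : M →ₗ[k] M => f m) hσq
    simpa using h
  have hgen : ∀ τ ∈ Cfsg.sameActionClass G σ, InS G C R τ := by
    rintro τ ⟨⟨⟨hτG, hτq, hτsc⟩, hτmin⟩, hker, hrange⟩
    refine ⟨(τ : M →ₗ[k] M) - 1, by abel, ?_, ?_, ?_⟩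
    · rw [hC, hker]
    · rw [hR, hrange]
    · intro c y hy
      exact hτsc ⟨c, hy⟩
  have hall : ∀ x ∈ Cfsg.sameActionSubgroup G σ, InS G C R x := by
    intro x hx
    refine Subgroup.closure_induction (p := fun x _ => InS G C R x) ?_ ?_ ?_ ?_ hx
    · intro x hx; exact hgen x hx
    · exact inS_one G C R
    · intro x y _ _ hx hy; exact inS_mul hRC hx hy
    · intro x _ hx; exact inS_inv hRC hx
  refine ⟨?_, ?_, ?_⟩
  · ext x
    constructor
    · intro hx
      obtain ⟨N, e1, k1, r1, s1⟩ := hall x hx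
      by_cases hN : N = 0
      · right
        rw [Set.mem_singleton_iff]
        apply Units.ext; rw [e1, hN, add_zero]; rfl
      · left
        have hNN : N * N = 0 := nil_mul hRC k1 r1
        have hxN : (x : M →ₗ[k] M) - 1 = N := by rw [e1]; abel
        have hxQ : x ∈ Cfsg.quadraticElements G := by
          refine ⟨s1 1 x (by rw [one_smul, e1]), ⟨by rw [hxN, hNN], by rw [hxN]; exact hN⟩, ?_⟩
          rintro y ⟨c, hy⟩
          rw [hxN] at hy
          exact s1 c y hy
        have hrk1 : Cfsg.commutatorRank σ ≤ Cfsg.commutatorRank x := hσmin x hxQ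
        have hrk2 : Module.finrank k (LinearMap.range N) ≤ Module.finrank k R :=
          Submodule.finrank_mono r1
        have hrk3 : Module.finrank k (LinearMap.range N) = Module.finrank k R := by
          unfold Cfsg.commutatorRank at hrk1
          rw [hxN, ← hR] at hrk1
          exact le_antisymm hrk2 hrk1
        have hrange : LinearMap.range N = R := Submodule.eq_of_le_of_finrank_eq r1 hrk3
        have hker : LinearMap.ker N = C := by
          symm
          apply Submodule.eq_of_le_of_finrank_eq k1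
          have h1 := LinearMap.finrank_range_add_finrank_ker N
          have h2 := LinearMap.finrank_range_add_finrank_ker ((σ : M →ₗ[k] M) - 1)
          rw [← hR, ← hC] at h2
          omega
        refine ⟨⟨hxQ, ?_⟩, ?_, ?_⟩
        · intro τ hτ
          have h3 : Cfsg.commutatorRank x = Cfsg.commutatorRank σ := by
            unfold Cfsg.commutatorRank; rw [hxN, hrange, hR]
          rw [h3]; exact hσmin τ hτ
        · rw [hxN, hker, hC]
        · rw [hxN, hrange, hR]
    · rintro (hx | hx)
      · exact Subgroup.subset_closure hx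
      · rw [Set.mem_singleton_iff] at hx; rw [hx]; exact Subgroup.one_mem _
  · refine ⟨⟨fun a b => ?_⟩⟩
    obtain ⟨N₁, e1, k1, r1, s1⟩ := hall a.1 a.2
    obtain ⟨N₂, e2, k2, r2, s2⟩ := hall b.1 b.2
    apply Subtype.ext
    apply Units.ext
    show ((a.1 * b.1 : LinearMap.GeneralLinearGroup k M) : M →ₗ[k] M) =
      ((b.1 * a.1 : LinearMap.GeneralLinearGroup k M) : M →ₗ[k] M)
    rw [Units.val_mul, Units.val_mul, e1, e2, one_add_mul, one_add_mul, nil_mul hRC k1 r2,
      nil_mul hRC k2 r1, add_comm N₂ N₁]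
  · intro p hp hchar x hx
    obtain ⟨N, e1, k1, r1, s1⟩ := hall x hx
    have hNN : N * N = 0 := nil_mul hRC k1 r1
    have hpow : ∀ n : ℕ, ((x ^ n : LinearMap.GeneralLinearGroup k M) : M →ₗ[k] M) =
        1 + (n : k) • N := by
      intro n
      induction n with
      | zero => simp
      | succ n ih =>
        rw [pow_succ, Units.val_mul, ih, e1, one_add_mul, smul_mul_assoc, hNN, smul_zero, add_zero]
        push_cast
        rw [add_smul, one_smul]
    apply Units.ext
    rw [hpow p]
    have h0 : ((p : ℕ) : k) = 0 := by rw [ringChar.spec, hchar]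
    rw [h0, zero_smul, add_zero]; rfl

end Cfsg.Agent.S5059
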