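import Cfsg.Statements.S5061
-- import your own Cfsg.Agent.* helpers here
import Mathlib

set_option autoImplicit false
open Cfsg

namespace Cfsg.Agent.S5061

section
variable {k : Type*} [Field k] {M : Type*} [AddCommGroup M] [Module k M]

/-- the endomorphisms `w - 1`, `w ∈ H` -/
def dl (H : Subgroup (LinearMap.GeneralLinearGroup k M)) : Set (M →ₗ[k] M) :=
  {x | ∃ w ∈ H, x = (w : M →ₗ[k] M) - 1}

def NilS (T : Set (M →ₗ[k] M)) : Prop :=
  ∃ n : ℕ, ∀ l : List (M →ₗ[k] M), l.length = n → (∀ x ∈ l, x ∈ T) → l.prod = 0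

theorem nil_mono {T T' : Set (M →ₗ[k] M)} (h : T ⊆ T') (hT : NilS T') : NilS T := by
  obtain ⟨n, hn⟩ := hT
  exact ⟨n, fun l hl hlT => hn l hl (fun x hx => h (hlT x hx))⟩

theorem mulmono {A B C D : Submodule k (M →ₗ[k] M)} (h : A ≤ B) (h' : C ≤ D) : A * C ≤ B * D :=
  Submodule.mul_le.mpr (fun a ha c hc => Submodule.mul_mem_mul (h ha) (h' hc))

theorem prod_mem_of_inv (T : Set (M →ₗ[k] M)) (K : Submodule k M)
    (hK : ∀ t ∈ T, ∀ m ∈ K, t m ∈ K) :
    ∀ l : List (M →ₗ[k] M), (∀ x ∈ l, x ∈ T) → ∀ m ∈ K, l.prod m ∈ K := by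
  intro l
  induction l with
  | nil => intro _ m hm; simpa using hm
  | cons a l ih =>
    intro hl m hm
    rw [List.prod_cons, Module.End.mul_apply]
    exact hK a (hl a List.mem_cons_self) _
      (ih (fun x hx => hl x (List.mem_cons_of_mem _ hx)) m hm)

theorem fixvec (T : Set (M →ₗ[k] M)) (hT : NilS T) (K M' : Submodule k M)
    (hK : ∀ t ∈ T, ∀ m ∈ K, t m ∈ K) (hne : ∃ m ∈ K, m ∉ M') :
    ∃ m ∈ K, m ∉ M' ∧ ∀ t ∈ T, t m ∈ M' := by
  obtain ⟨n, hn⟩ := hT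
  have key : ∀ n : ℕ, (∀ l : List (M →ₗ[k] M), l.length = n → (∀ x ∈ l, x ∈ T) →
      ∀ m ∈ K, l.prod m ∈ M') → ∃ m ∈ K, m ∉ M' ∧ ∀ t ∈ T, t m ∈ M' := by
    intro n
    induction n with
    | zero =>
      intro h
      exfalso
      obtain ⟨m, hm, hm'⟩ := hne
      have h1 := h [] rfl (by simp) m hm
      rw [List.prod_nil] at h1
      exact hm' h1
    | succ n ih =>
      intro h
      by_cases h' : ∀ l : List (M →ₗ[k] M), l.length = n → (∀ x ∈ l, x ∈ T) →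
          ∀ m ∈ K, l.prod m ∈ M'
      · exact ih h'
      · push Not at h'
        obtain ⟨l, hl, hlT, m, hm, hm'⟩ := h'
        refine ⟨l.prod m, prod_mem_of_inv T K hK l hlT m hm, hm', ?_⟩
        intro t ht
        have h1 := h (t :: l) (by simp [hl]) (by
          intro x hx
          rcases List.mem_cons.mp hx with rfl | hx
          · exact ht
          · exact hlT x hx) m hm
        rw [List.prod_cons, Module.End.mul_apply] at h1
        exact h1
  apply key n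
  intro l hl hlT m _
  rw [hn l hl hlT, LinearMap.zero_apply]
  exact M'.zero_mem

def nextF (T : Set (M →ₗ[k] M)) (P : Submodule k M) : Submodule k M where
  carrier := {m | ∀ t ∈ T, t m ∈ P}
  add_mem' := by
    intro a b ha hb t ht
    rw [map_add]; exact P.add_mem (ha t ht) (hb t ht)
  zero_mem' := by
    intro t ht
    rw [map_zero]; exact P.zero_mem
  smul_mem' := by
    intro c a ha t ht
    rw [map_smul]; exact P.smul_mem c (ha t ht)

theorem mem_nextF (T : Set (M →ₗ[k] M)) (P : Submodule k M) (m : M) :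
    m ∈ nextF T P ↔ ∀ t ∈ T, t m ∈ P := Iff.rfl

def flagF (T : Set (M →ₗ[k] M)) : ℕ → Submodule k M
  | 0 => ⊥
  | j + 1 => nextF T (flagF T j)

theorem flagF_zero (T : Set (M →ₗ[k] M)) : flagF T 0 = ⊥ := rfl
theorem flagF_succ (T : Set (M →ₗ[k] M)) (j : ℕ) : flagF T (j + 1) = nextF T (flagF T j) := rfl

theorem flagF_mono_inv (T : Set (M →ₗ[k] M)) (j : ℕ) :
    flagF T j ≤ flagF T (j + 1) ∧ ∀ t ∈ T, ∀ m ∈ flagF T j, t m ∈ flagF T j := by
  induction j with
  | zero =>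
    refine ⟨by rw [flagF_zero]; exact bot_le, ?_⟩
    intro t _ m hm
    rw [flagF_zero, Submodule.mem_bot] at hm
    rw [hm, map_zero]; exact Submodule.zero_mem _
  | succ j ih =>
    have h1 : flagF T (j + 1) ≤ flagF T (j + 1 + 1) := by
      intro m hm
      rw [flagF_succ, mem_nextF] at hm
      rw [flagF_succ T (j + 1), mem_nextF]
      intro t ht
      exact ih.1 (hm t ht)
    refine ⟨h1, ?_⟩
    intro t ht m hm
    rw [flagF_succ, mem_nextF] at hm
    exact ih.1 (hm t ht)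

theorem flagF_top [FiniteDimensional k M] (T : Set (M →ₗ[k] M))
    (hyp : ∀ M' : Submodule k M, M' ≠ ⊤ → (∀ t ∈ T, ∀ m ∈ M', t m ∈ M') →
      ∃ m, m ∉ M' ∧ ∀ t ∈ T, t m ∈ M') : ∃ N, flagF T N = ⊤ := by
  by_contra hcon
  push Not at hcon
  have hlt : ∀ j, flagF T j < flagF T (j + 1) := by
    intro j
    obtain ⟨m, hm, hm'⟩ := hyp (flagF T j) (hcon j) (flagF_mono_inv T j).2
    refine lt_of_le_of_ne (flagF_mono_inv T j).1 (fun h => hm ?_)
    rw [h, flagF_succ, mem_nextF]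
    exact hm'
  have hr : ∀ j, j ≤ Module.finrank k (flagF T j) := by
    intro j
    induction j with
    | zero => exact Nat.zero_le _
    | succ j ih => exact lt_of_le_of_lt ih (Submodule.finrank_lt_finrank_of_lt (hlt j))
  have h1 := hr (Module.finrank k M + 1)
  have h2 := Submodule.finrank_le (flagF T (Module.finrank k M + 1))
  omega

def flagAlg (T : Set (M →ₗ[k] M)) : Submodule k (M →ₗ[k] M) where
  carrier := {a | ∀ j, ∀ m ∈ flagF T (j + 1), a m ∈ flagF T j}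
  add_mem' := by
    intro a b ha hb j m hm
    rw [LinearMap.add_apply]; exact Submodule.add_mem _ (ha j m hm) (hb j m hm)
  zero_mem' := by
    intro j m hm
    rw [LinearMap.zero_apply]; exact Submodule.zero_mem _
  smul_mem' := by
    intro c a ha j m hm
    rw [LinearMap.smul_apply]; exact Submodule.smul_mem _ c (ha j m hm)

theorem mem_flagAlg (T : Set (M →ₗ[k] M)) (a : M →ₗ[k] M) :
    a ∈ flagAlg T ↔ ∀ j, ∀ m ∈ flagF T (j + 1), a m ∈ flagF T j := Iff.rfl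

theorem flagAlg_mul (T : Set (M →ₗ[k] M)) : flagAlg T * flagAlg T ≤ flagAlg T := by
  rw [Submodule.mul_le]
  intro a ha b hb
  rw [mem_flagAlg] at *
  intro j m hm
  rw [Module.End.mul_apply]
  exact ha j _ ((flagF_mono_inv T j).1 (hb j m hm))

theorem flagAlg_prod (T : Set (M →ₗ[k] M)) : ∀ l : List (M →ₗ[k] M),
    (∀ x ∈ l, x ∈ flagAlg T) → ∀ j, ∀ m ∈ flagF T (j + l.length), l.prod m ∈ flagF T j := by
  intro l
  induction l with
  | nil => intro _ j m hm; simpa using hm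
  | cons a l ih =>
    intro hl j m hm
    rw [List.prod_cons, Module.End.mul_apply]
    have h1 : l.prod m ∈ flagF T (j + 1) := by
      apply ih (fun x hx => hl x (List.mem_cons_of_mem _ hx)) (j + 1) m
      have e : j + 1 + l.length = j + (a :: l).length := by
        rw [List.length_cons]; omega
      rw [e]; exact hm
    exact (mem_flagAlg T a).mp (hl a List.mem_cons_self) j _ h1

theorem flag_alg [FiniteDimensional k M] (T : Set (M →ₗ[k] M))
    (hyp : ∀ M' : Submodule k M, M' ≠ ⊤ → (∀ t ∈ T, ∀ m ∈ M', t m ∈ M') →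
      ∃ m, m ∉ M' ∧ ∀ t ∈ T, t m ∈ M') :
    ∃ A : Submodule k (M →ₗ[k] M), A * A ≤ A ∧ NilS (A : Set (M →ₗ[k] M)) ∧
      T ⊆ (A : Set (M →ₗ[k] M)) := by
  refine ⟨flagAlg T, flagAlg_mul T, ?_, ?_⟩
  · obtain ⟨N, hN⟩ := flagF_top T hyp
    refine ⟨N, fun l hl hlT => ?_⟩
    ext m
    have h1 := flagAlg_prod T l hlT 0 m (by rw [zero_add, hl, hN]; exact Submodule.mem_top)
    rw [flagF_zero, Submodule.mem_bot] at h1
    rw [h1, LinearMap.zero_apply]
  · intro t ht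
    rw [SetLike.mem_coe, mem_flagAlg]
    intro j m hm
    rw [flagF_succ, mem_nextF] at hm
    exact hm t ht

theorem good_of_nil [FiniteDimensional k M] (T : Set (M →ₗ[k] M)) (hT : NilS T) :
    ∃ A : Submodule k (M →ₗ[k] M), A * A ≤ A ∧ NilS (A : Set (M →ₗ[k] M)) ∧
      T ⊆ (A : Set (M →ₗ[k] M)) := by
  apply flag_alg
  intro M' hM' _
  have hne : ∃ m ∈ (⊤ : Submodule k M), m ∉ M' := by
    by_contra h
    push Not at h
    exact hM' (eq_top_iff.mpr (fun m hm => h m hm))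
  obtain ⟨m, _, hm, hm2⟩ := fixvec T hT ⊤ M' (fun _ _ _ _ => Submodule.mem_top) hne
  exact ⟨m, hm, hm2⟩

theorem good_of_normalized [FiniteDimensional k M] (D : Submodule k (M →ₗ[k] M))
    (hDn : NilS (D : Set (M →ₗ[k] M)))
    (X : Subgroup (LinearMap.GeneralLinearGroup k M)) (hX : NilS (dl X))
    (hnorm : ∀ g ∈ X, ∀ d ∈ D, (g : M →ₗ[k] M) * d *
      ((g⁻¹ : LinearMap.GeneralLinearGroup k M) : M →ₗ[k] M) ∈ D) :
    ∃ A : Submodule k (M →ₗ[k] M), A * A ≤ A ∧ NilS (A : Set (M →ₗ[k] M)) ∧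
      (D : Set (M →ₗ[k] M)) ∪ dl X ⊆ (A : Set (M →ₗ[k] M)) := by
  apply flag_alg
  intro M' hM' hinv
  have hgM' : ∀ g ∈ X, ∀ m ∈ M', (g : M →ₗ[k] M) m ∈ M' := by
    intro g hg m hm
    have h1 := hinv ((g : M →ₗ[k] M) - 1) (Or.inr ⟨g, hg, rfl⟩) m hm
    have h2 : (g : M →ₗ[k] M) m = ((g : M →ₗ[k] M) - 1) m + m := by
      rw [LinearMap.sub_apply, Module.End.one_apply, sub_add_cancel]
    rw [h2]; exact M'.add_mem h1 hm
  have hKinv : ∀ t ∈ dl X, ∀ m ∈ nextF (D : Set (M →ₗ[k] M)) M',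
      t m ∈ nextF (D : Set (M →ₗ[k] M)) M' := by
    rintro _ ⟨g, hg, rfl⟩ m hm
    rw [mem_nextF] at hm ⊢
    intro d hd
    have h1 : d (((g : M →ₗ[k] M) - 1) m) = d ((g : M →ₗ[k] M) m) - d m := by
      rw [LinearMap.sub_apply, Module.End.one_apply, map_sub]
    rw [h1]
    refine M'.sub_mem ?_ (hm d hd)
    have h2 := hnorm g⁻¹ (X.inv_mem hg) d hd
    rw [inv_inv] at h2
    have h3 := hm _ h2
    have h4 := hgM' g hg _ h3
    have h5 : (g : M →ₗ[k] M) * ((g⁻¹ : LinearMap.GeneralLinearGroup k M) : M →ₗ[k] M) = 1 := by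
      rw [← Units.val_mul, mul_inv_cancel, Units.val_one]
    have h6 : (g : M →ₗ[k] M) ((((g⁻¹ : LinearMap.GeneralLinearGroup k M) : M →ₗ[k] M) * d *
        (g : M →ₗ[k] M)) m) = d ((g : M →ₗ[k] M) m) := by
      rw [← Module.End.mul_apply, ← mul_assoc, ← mul_assoc, h5, one_mul, Module.End.mul_apply]
    rw [← h6]; exact h4
  have hne : ∃ m ∈ (⊤ : Submodule k M), m ∉ M' := by
    by_contra h
    push Not at h
    exact hM' (eq_top_iff.mpr (fun m hm => h m hm))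
  obtain ⟨m1, _, hm1, hm1'⟩ := fixvec (D : Set (M →ₗ[k] M)) hDn ⊤ M'
    (fun _ _ _ _ => Submodule.mem_top) hne
  obtain ⟨m2, hm2K, hm2, hm2'⟩ := fixvec (dl X) hX (nextF (D : Set (M →ₗ[k] M)) M') M' hKinv
    ⟨m1, (mem_nextF _ _ _).mpr hm1', hm1⟩
  refine ⟨m2, hm2, ?_⟩
  rintro t (ht | ht)
  · exact (mem_nextF _ _ _).mp hm2K t ht
  · exact hm2' t ht

def gen (S : Set (Subgroup (LinearMap.GeneralLinearGroup k M))) : Submodule k (M →ₗ[k] M) :=
  sInf {B | B * B ≤ B ∧ ∀ H ∈ S, dl H ⊆ (B : Set (M →ₗ[k] M))}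

theorem gen_mul (S : Set (Subgroup (LinearMap.GeneralLinearGroup k M))) :
    gen S * gen S ≤ gen S := by
  rw [Submodule.mul_le]
  intro a ha b hb
  rw [gen, Submodule.mem_sInf] at ha hb ⊢
  intro B hB
  exact hB.1 (Submodule.mul_mem_mul (ha B hB) (hb B hB))

theorem gen_le (S : Set (Subgroup (LinearMap.GeneralLinearGroup k M)))
    (B : Submodule k (M →ₗ[k] M)) (h1 : B * B ≤ B)
    (h2 : ∀ H ∈ S, dl H ⊆ (B : Set (M →ₗ[k] M))) : gen S ≤ B := sInf_le ⟨h1, h2⟩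

theorem dl_sub_gen (S : Set (Subgroup (LinearMap.GeneralLinearGroup k M)))
    (H : Subgroup (LinearMap.GeneralLinearGroup k M)) (hH : H ∈ S) :
    dl H ⊆ (gen S : Set (M →ₗ[k] M)) := by
  intro x hx
  rw [SetLike.mem_coe, gen, Submodule.mem_sInf]
  intro B hB
  exact hB.2 H hH hx

theorem gen_mono {S S' : Set (Subgroup (LinearMap.GeneralLinearGroup k M))} (h : S ⊆ S') :
    gen S ≤ gen S' :=
  gen_le S _ (gen_mul S') (fun H hH => dl_sub_gen S' H (h hH))

def WW (W : Set (Subgroup (LinearMap.GeneralLinearGroup k M))) (A : Submodule k (M →ₗ[k] M)) :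
    Set (Subgroup (LinearMap.GeneralLinearGroup k M)) :=
  {H | H ∈ W ∧ dl H ⊆ (A : Set (M →ₗ[k] M))}

def InN (W : Set (Subgroup (LinearMap.GeneralLinearGroup k M))) (A : Submodule k (M →ₗ[k] M)) :
    Prop :=
  A * A ≤ A ∧ NilS (A : Set (M →ₗ[k] M)) ∧ A = gen (WW W A)

def IsMx (W : Set (Subgroup (LinearMap.GeneralLinearGroup k M))) (A : Submodule k (M →ₗ[k] M)) :
    Prop :=
  InN W A ∧ ∀ A', InN W A' → A ≤ A' → A' = A

theorem inN_gen (W : Set (Subgroup (LinearMap.GeneralLinearGroup k M)))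
    (B : Submodule k (M →ₗ[k] M)) (hB1 : B * B ≤ B) (hB2 : NilS (B : Set (M →ₗ[k] M)))
    (S : Set (Subgroup (LinearMap.GeneralLinearGroup k M))) (hS : S ⊆ WW W B) :
    InN W (gen S) ∧ gen S ≤ B ∧ S ⊆ WW W (gen S) := by
  have hle : gen S ≤ B := gen_le S B hB1 (fun H hH => (hS hH).2)
  have hsub : S ⊆ WW W (gen S) := fun H hH => ⟨(hS hH).1, dl_sub_gen S H hH⟩
  refine ⟨⟨gen_mul S, nil_mono (fun x hx => hle hx) hB2, ?_⟩, hle, hsub⟩
  apply le_antisymm
  · exact gen_mono hsub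
  · exact gen_le _ _ (gen_mul S) (fun H hH => hH.2)

theorem exists_max [FiniteDimensional k M]
    (W : Set (Subgroup (LinearMap.GeneralLinearGroup k M))) :
    ∀ c : ℕ, ∀ A : Submodule k (M →ₗ[k] M), InN W A →
      Module.finrank k (M →ₗ[k] M) ≤ Module.finrank k A + c → ∃ A', IsMx W A' ∧ A ≤ A' := by
  intro c
  induction c with
  | zero =>
    intro A hA hc
    refine ⟨A, ⟨hA, fun A' _ hle => ?_⟩, le_refl _⟩
    have htop : A = ⊤ :=
      Submodule.eq_top_of_finrank_eq (le_antisymm (Submodule.finrank_le A) (by simpa using hc))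
    rw [htop] at hle ⊢
    exact top_le_iff.mp hle
  | succ c ih =>
    intro A hA hc
    by_cases hmx : IsMx W A
    · exact ⟨A, hmx, le_refl _⟩
    · have hex : ∃ A', InN W A' ∧ A ≤ A' ∧ A' ≠ A := by
        by_contra hcon
        push Not at hcon
        exact hmx ⟨hA, fun A' hA' hle => hcon A' hA' hle⟩
      obtain ⟨A', hA', hle, hne⟩ := hex
      have hlt : A < A' := lt_of_le_of_ne hle (Ne.symm hne)
      have h1 := Submodule.finrank_lt_finrank_of_lt hlt
      obtain ⟨A'', h2, h3⟩ := ih A' hA' (by omega)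
      exact ⟨A'', h2, hle.trans h3⟩

theorem pow_eq_bot_of_nil (A : Submodule k (M →ₗ[k] M)) (hA : NilS (A : Set (M →ₗ[k] M))) :
    ∃ N : ℕ, A ^ (N + 1) = ⊥ := by
  obtain ⟨n, hn⟩ := hA
  refine ⟨n, ?_⟩
  have h1 : A ^ n = ⊥ := by
    rw [Submodule.pow_eq_span_pow_set, Submodule.span_eq_bot]
    intro x hx
    rw [Set.mem_pow] at hx
    obtain ⟨f, rfl⟩ := hx
    apply hn
    · rw [List.length_ofFn]
    · intro y hy
      rw [List.mem_ofFn] at hy
      obtain ⟨i, rfl⟩ := hy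
      exact (f i).2
  rw [pow_succ, h1, Submodule.bot_mul]

theorem pow_anti (A : Submodule k (M →ₗ[k] M)) (hA : A * A ≤ A) :
    ∀ a b : ℕ, 1 ≤ a → a ≤ b → A ^ b ≤ A ^ a := by
  intro a b ha hab
  induction b, hab using Nat.le_induction with
  | base => exact le_refl _
  | succ b hb ih =>
    refine le_trans ?_ ih
    obtain ⟨c, rfl⟩ : ∃ c, b = c + 1 := ⟨b - 1, by omega⟩
    rw [pow_succ A (c + 1), pow_succ A c, mul_assoc]
    exact mulmono (le_refl _) hA

theorem exists_last (P : ℕ → Prop) (N : ℕ) (h1 : P 1) (hN : ¬ P (N + 1)) :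
    ∃ i, 1 ≤ i ∧ P i ∧ ¬ P (i + 1) := by
  by_contra hcon
  push Not at hcon
  have hall : ∀ i, 1 ≤ i → P i := by
    intro i hi
    induction i, hi using Nat.le_induction with
    | base => exact h1
    | succ i hi ih => exact hcon i hi ih
  exact hN (hall (N + 1) (by omega))

theorem val_mul_inv (w : LinearMap.GeneralLinearGroup k M) :
    (w : M →ₗ[k] M) * ((w⁻¹ : LinearMap.GeneralLinearGroup k M) : M →ₗ[k] M) = 1 := by
  rw [← Units.val_mul, mul_inv_cancel, Units.val_one]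

theorem val_inv_mul (w : LinearMap.GeneralLinearGroup k M) :
    ((w⁻¹ : LinearMap.GeneralLinearGroup k M) : M →ₗ[k] M) * (w : M →ₗ[k] M) = 1 := by
  rw [← Units.val_mul, inv_mul_cancel, Units.val_one]

theorem conj_dl (w v : LinearMap.GeneralLinearGroup k M) :
    ((MulAut.conj w).toMonoidHom v : M →ₗ[k] M) - 1 =
      (w : M →ₗ[k] M) * ((v : M →ₗ[k] M) - 1) *
        ((w⁻¹ : LinearMap.GeneralLinearGroup k M) : M →ₗ[k] M) := by
  show ((w * v * w⁻¹ : LinearMap.GeneralLinearGroup k M) : M →ₗ[k] M) - 1 = _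
  rw [Units.val_mul, Units.val_mul, mul_sub, sub_mul, mul_one, val_mul_inv]

def conjSub (w : LinearMap.GeneralLinearGroup k M) (D : Submodule k (M →ₗ[k] M)) :
    Submodule k (M →ₗ[k] M) where
  carrier := {d | (w : M →ₗ[k] M) * d *
    ((w⁻¹ : LinearMap.GeneralLinearGroup k M) : M →ₗ[k] M) ∈ D}
  add_mem' := by
    intro a b ha hb
    show _ * (a + b) * _ ∈ D
    rw [mul_add, add_mul]; exact D.add_mem ha hb
  zero_mem' := by
    show _ * (0 : M →ₗ[k] M) * _ ∈ D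
    rw [mul_zero, zero_mul]; exact D.zero_mem
  smul_mem' := by
    intro c a ha
    show _ * (c • a) * _ ∈ D
    rw [mul_smul_comm, smul_mul_assoc]; exact D.smul_mem c ha

theorem mem_conjSub (w : LinearMap.GeneralLinearGroup k M) (D : Submodule k (M →ₗ[k] M))
    (d : M →ₗ[k] M) : d ∈ conjSub w D ↔ (w : M →ₗ[k] M) * d *
      ((w⁻¹ : LinearMap.GeneralLinearGroup k M) : M →ₗ[k] M) ∈ D := Iff.rfl

theorem conjSub_mul (w : LinearMap.GeneralLinearGroup k M) (D : Submodule k (M →ₗ[k] M))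
    (hD : D * D ≤ D) : conjSub w D * conjSub w D ≤ conjSub w D := by
  rw [Submodule.mul_le]
  intro a ha b hb
  rw [mem_conjSub] at ha hb ⊢
  have e : ((w : M →ₗ[k] M) * a * ((w⁻¹ : LinearMap.GeneralLinearGroup k M) : M →ₗ[k] M)) *
      ((w : M →ₗ[k] M) * b * ((w⁻¹ : LinearMap.GeneralLinearGroup k M) : M →ₗ[k] M)) =
      (w : M →ₗ[k] M) * (a * b) * ((w⁻¹ : LinearMap.GeneralLinearGroup k M) : M →ₗ[k] M) := by
    calc _ = (w : M →ₗ[k] M) * a * (((w⁻¹ : LinearMap.GeneralLinearGroup k M) : M →ₗ[k] M) *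
          (w : M →ₗ[k] M)) * b * ((w⁻¹ : LinearMap.GeneralLinearGroup k M) : M →ₗ[k] M) := by
          simp only [mul_assoc]
      _ = _ := by rw [val_inv_mul, mul_one]; simp only [mul_assoc]
  rw [← e]
  exact hD (Submodule.mul_mem_mul ha hb)

def nrm (D : Submodule k (M →ₗ[k] M)) : Subgroup (LinearMap.GeneralLinearGroup k M) where
  carrier := {g | (∀ d ∈ D, (g : M →ₗ[k] M) * d *
      ((g⁻¹ : LinearMap.GeneralLinearGroup k M) : M →ₗ[k] M) ∈ D) ∧
    (∀ d ∈ D, ((g⁻¹ : LinearMap.GeneralLinearGroup k M) : M →ₗ[k] M) * d * (g : M →ₗ[k] M) ∈ D)}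
  mul_mem' := by
    rintro a b ⟨ha1, ha2⟩ ⟨hb1, hb2⟩
    refine ⟨fun d hd => ?_, fun d hd => ?_⟩
    · have h := ha1 _ (hb1 d hd)
      rw [mul_inv_rev, Units.val_mul, Units.val_mul]
      simpa only [mul_assoc] using h
    · have h := hb2 _ (ha2 d hd)
      rw [mul_inv_rev, Units.val_mul, Units.val_mul]
      simpa only [mul_assoc] using h
  one_mem' := by
    refine ⟨fun d hd => ?_, fun d hd => ?_⟩
    · rw [inv_one, Units.val_one, one_mul, mul_one]; exact hd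
    · rw [inv_one, Units.val_one, one_mul, mul_one]; exact hd
  inv_mem' := by
    rintro a ⟨ha1, ha2⟩
    refine ⟨fun d hd => ?_, fun d hd => ?_⟩
    · rw [inv_inv]; exact ha2 d hd
    · rw [inv_inv]; exact ha1 d hd

theorem mem_nrm (D : Submodule k (M →ₗ[k] M)) (g : LinearMap.GeneralLinearGroup k M) :
    g ∈ nrm D ↔ (∀ d ∈ D, (g : M →ₗ[k] M) * d *
      ((g⁻¹ : LinearMap.GeneralLinearGroup k M) : M →ₗ[k] M) ∈ D) ∧
    (∀ d ∈ D, ((g⁻¹ : LinearMap.GeneralLinearGroup k M) : M →ₗ[k] M) * d * (g : M →ₗ[k] M) ∈ D) :=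
  Iff.rfl

def subK (A : Submodule k (M →ₗ[k] M)) (hA : A * A ≤ A) :
    Subgroup (LinearMap.GeneralLinearGroup k M) where
  carrier := {g | (g : M →ₗ[k] M) - 1 ∈ A ∧
    ((g⁻¹ : LinearMap.GeneralLinearGroup k M) : M →ₗ[k] M) - 1 ∈ A}
  mul_mem' := by
    rintro a b ⟨ha1, ha2⟩ ⟨hb1, hb2⟩
    refine ⟨?_, ?_⟩
    · have e : ((a * b : LinearMap.GeneralLinearGroup k M) : M →ₗ[k] M) - 1 =
          ((a : M →ₗ[k] M) - 1) * ((b : M →ₗ[k] M) - 1) + ((a : M →ₗ[k] M) - 1) +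
            ((b : M →ₗ[k] M) - 1) := by
        rw [Units.val_mul]; noncomm_ring
      rw [e]
      exact A.add_mem (A.add_mem (hA (Submodule.mul_mem_mul ha1 hb1)) ha1) hb1
    · have e : (((a * b)⁻¹ : LinearMap.GeneralLinearGroup k M) : M →ₗ[k] M) - 1 =
          (((b⁻¹ : LinearMap.GeneralLinearGroup k M) : M →ₗ[k] M) - 1) *
            (((a⁻¹ : LinearMap.GeneralLinearGroup k M) : M →ₗ[k] M) - 1) +
          (((b⁻¹ : LinearMap.GeneralLinearGroup k M) : M →ₗ[k] M) - 1) +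
            (((a⁻¹ : LinearMap.GeneralLinearGroup k M) : M →ₗ[k] M) - 1) := by
        rw [mul_inv_rev, Units.val_mul]; noncomm_ring
      rw [e]
      exact A.add_mem (A.add_mem (hA (Submodule.mul_mem_mul hb2 ha2)) hb2) ha2
  one_mem' := by
    refine ⟨?_, ?_⟩
    · rw [Units.val_one, sub_self]; exact A.zero_mem
    · rw [inv_one, Units.val_one, sub_self]; exact A.zero_mem
  inv_mem' := by
    rintro a ⟨ha1, ha2⟩
    exact ⟨ha2, by rw [inv_inv]; exact ha1⟩

theorem dl_mono {H1 H2 : Subgroup (LinearMap.GeneralLinearGroup k M)} (h : H1 ≤ H2) :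
    dl H1 ⊆ dl H2 := by
  rintro x ⟨w, hw, rfl⟩
  exact ⟨w, h hw, rfl⟩

theorem exists_normalizing
    (G : Subgroup (LinearMap.GeneralLinearGroup k M))
    (W : Set (Subgroup (LinearMap.GeneralLinearGroup k M))) (hWG : ∀ A ∈ W, A ≤ G)
    (hWconj : ∀ A ∈ W, ∀ g ∈ G, Cfsg.conjBy A g ∈ W)
    (A D : Submodule k (M →ₗ[k] M)) (hA : InN W A) (hD : InN W D) (hDA : D ≤ A) (hne : D ≠ A) :
    ∃ H ∈ WW W A, H ∉ WW W D ∧ ∀ w ∈ H, ∀ d ∈ D,
      (w : M →ₗ[k] M) * d * ((w⁻¹ : LinearMap.GeneralLinearGroup k M) : M →ₗ[k] M) ∈ D := by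
  obtain ⟨N, hN⟩ := pow_eq_bot_of_nil A hA.2.1
  have hex : ∃ H ∈ WW W A, H ∉ WW W D := by
    by_contra hcon
    push Not at hcon
    apply hne
    apply le_antisymm hDA
    rw [hA.2.2, hD.2.2]
    exact gen_mono (fun H hH => hcon H hH)
  obtain ⟨H1, hH1A, hH1D⟩ := hex
  obtain ⟨i, hi1, ⟨H, hHW, hHD, hHi⟩, hi2⟩ := exists_last
    (fun i => ∃ H ∈ W, H ∉ WW W D ∧
      dl H ⊆ ((D ⊔ A ^ i : Submodule k (M →ₗ[k] M)) : Set (M →ₗ[k] M)))
    N ⟨H1, hH1A.1, hH1D, fun x hx =>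
      (le_sup_right : A ^ 1 ≤ D ⊔ A ^ 1) (by rw [pow_one]; exact hH1A.2 hx)⟩
    (by
      rintro ⟨H, hHW, hHD, hH⟩
      rw [hN, sup_bot_eq] at hH
      exact hHD ⟨hHW, hH⟩)
  have hAi : A ^ i ≤ A := by
    have h := pow_anti A hA.1 1 i (le_refl _) hi1
    rwa [pow_one] at h
  have hm1 : (D ⊔ A ^ i) * (D ⊔ A ^ (i + 1)) ≤ D ⊔ A ^ (i + 1) := by
    rw [Submodule.sup_mul, Submodule.mul_sup, Submodule.mul_sup]
    refine sup_le (sup_le ?_ ?_) (sup_le ?_ ?_)
    · exact le_trans hD.1 le_sup_left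
    · refine le_trans (mulmono hDA (le_refl _)) (le_trans ?_ le_sup_right)
      rw [← pow_succ']
      exact pow_anti A hA.1 (i + 1) (i + 1 + 1) (by omega) (by omega)
    · refine le_trans (mulmono (le_refl _) hDA) (le_trans ?_ le_sup_right)
      rw [← pow_succ]
    · refine le_trans ?_ le_sup_right
      rw [← pow_add]
      exact pow_anti A hA.1 (i + 1) (i + (i + 1)) (by omega) (by omega)
  have hm2 : (D ⊔ A ^ (i + 1)) * (D ⊔ A ^ i) ≤ D ⊔ A ^ (i + 1) := by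
    rw [Submodule.sup_mul, Submodule.mul_sup, Submodule.mul_sup]
    refine sup_le (sup_le ?_ ?_) (sup_le ?_ ?_)
    · exact le_trans hD.1 le_sup_left
    · refine le_trans (mulmono hDA (le_refl _)) (le_trans ?_ le_sup_right)
      rw [← pow_succ']
    · refine le_trans (mulmono (le_refl _) hDA) (le_trans ?_ le_sup_right)
      rw [← pow_succ]
      exact pow_anti A hA.1 (i + 1) (i + 1 + 1) (by omega) (by omega)
    · refine le_trans ?_ le_sup_right
      rw [← pow_add]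
      exact pow_anti A hA.1 (i + 1) (i + 1 + i) (by omega) (by omega)
  have hconj : ∀ w ∈ H, ∀ d ∈ D ⊔ A ^ (i + 1),
      (w : M →ₗ[k] M) * d * ((w⁻¹ : LinearMap.GeneralLinearGroup k M) : M →ₗ[k] M) ∈
        D ⊔ A ^ (i + 1) := by
    intro w hw d hd
    have hx : (w : M →ₗ[k] M) - 1 ∈ D ⊔ A ^ i := hHi ⟨w, hw, rfl⟩
    have hx' : ((w⁻¹ : LinearMap.GeneralLinearGroup k M) : M →ₗ[k] M) - 1 ∈ D ⊔ A ^ i :=
      hHi ⟨w⁻¹, H.inv_mem hw, rfl⟩
    have e : (w : M →ₗ[k] M) * d * ((w⁻¹ : LinearMap.GeneralLinearGroup k M) : M →ₗ[k] M) =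
        d + ((w : M →ₗ[k] M) - 1) * d +
          d * (((w⁻¹ : LinearMap.GeneralLinearGroup k M) : M →ₗ[k] M) - 1) +
          ((w : M →ₗ[k] M) - 1) * d *
            (((w⁻¹ : LinearMap.GeneralLinearGroup k M) : M →ₗ[k] M) - 1) := by
      noncomm_ring
    rw [e]
    have h1 := hm1 (Submodule.mul_mem_mul hx hd)
    have h2 := hm2 (Submodule.mul_mem_mul hd hx')
    have h3 := hm2 (Submodule.mul_mem_mul h1 hx')
    exact Submodule.add_mem _ (Submodule.add_mem _ (Submodule.add_mem _ hd h1) h2) h3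
  refine ⟨H, ⟨hHW, fun x hx => (sup_le hDA hAi) (hHi hx)⟩, hHD, ?_⟩
  intro w hw
  have hwG : w ∈ G := hWG H hHW hw
  have hstay : ∀ H' ∈ WW W D, dl (Cfsg.conjBy H' w) ⊆ (D : Set (M →ₗ[k] M)) := by
    intro H' hH'
    have hmem : Cfsg.conjBy H' w ∈ W := hWconj H' hH'.1 w hwG
    have hsub : dl (Cfsg.conjBy H' w) ⊆
        ((D ⊔ A ^ (i + 1) : Submodule k (M →ₗ[k] M)) : Set (M →ₗ[k] M)) := by
      rintro x ⟨u, hu, rfl⟩
      obtain ⟨v, hv, rfl⟩ := Subgroup.mem_map.mp hu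
      rw [SetLike.mem_coe, conj_dl]
      exact hconj w hw _ ((le_sup_left : D ≤ D ⊔ A ^ (i + 1)) (hH'.2 ⟨v, hv, rfl⟩))
    by_contra hnot
    exact hi2 ⟨Cfsg.conjBy H' w, hmem, fun h => hnot h.2, hsub⟩
  have hle : D ≤ conjSub w D := by
    have h1 : gen (WW W D) ≤ conjSub w D := by
      apply gen_le _ _ (conjSub_mul w D hD.1)
      rintro H' hH' x ⟨v, hv, rfl⟩
      rw [SetLike.mem_coe, mem_conjSub, ← conj_dl]
      exact hstay H' hH' ⟨(MulAut.conj w).toMonoidHom v, Subgroup.mem_map.mpr ⟨v, hv, rfl⟩, rfl⟩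
    rw [← hD.2.2] at h1
    exact h1
  intro d hd
  exact (mem_conjSub w D d).mp (hle hd)

theorem unip_iff (H : Subgroup (LinearMap.GeneralLinearGroup k M)) : Cfsg.IsUnipotentOn H ↔
    ∃ n : ℕ, ∀ l : List (LinearMap.GeneralLinearGroup k M), (∀ g ∈ l, g ∈ H) → l.length = n →
      (l.map fun g : LinearMap.GeneralLinearGroup k M => (g : M →ₗ[k] M) - 1).prod = 0 := by
  have h2 : ∀ l : List (LinearMap.GeneralLinearGroup k M),
      List.map (fun g : M →ₗ[k] M => g - 1) (do let a ← l; pure (a : M →ₗ[k] M)) =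
        l.map (fun a : LinearMap.GeneralLinearGroup k M => (a : M →ₗ[k] M) - 1) := by
    intro l
    induction l with
    | nil => rfl
    | cons a l ih =>
      simp only [List.bind_eq_flatMap, List.flatMap_cons, List.map_append, List.map_cons] at ih ⊢
      rw [ih]
      rfl
  unfold Cfsg.IsUnipotentOn
  simp only [h2]

theorem nil_of_unip (H : Subgroup (LinearMap.GeneralLinearGroup k M))
    (h : Cfsg.IsUnipotentOn H) : NilS (dl H) := by
  obtain ⟨n, hn⟩ := (unip_iff H).mp h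
  refine ⟨n, fun l hl hlT => ?_⟩
  have key : ∀ l : List (M →ₗ[k] M), (∀ x ∈ l, x ∈ dl H) →
      ∃ l' : List (LinearMap.GeneralLinearGroup k M), (∀ g ∈ l', g ∈ H) ∧
        l'.map (fun g : LinearMap.GeneralLinearGroup k M => (g : M →ₗ[k] M) - 1) = l := by
    intro l
    induction l with
    | nil => intro _; exact ⟨[], by simp, rfl⟩
    | cons a l ih =>
      intro h
      obtain ⟨l', h1, h2⟩ := ih (fun x hx => h x (List.mem_cons_of_mem _ hx))
      obtain ⟨w, hw, rfl⟩ := h a List.mem_cons_self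
      refine ⟨w :: l', ?_, by rw [List.map_cons, h2]⟩
      intro g hg
      rcases List.mem_cons.mp hg with rfl | hg
      · exact hw
      · exact h1 g hg
  obtain ⟨l', h1, h2⟩ := key l hlT
  rw [← h2]
  apply hn l' h1
  rw [← hl, ← h2, List.length_map]

theorem unip_of_sub (H : Subgroup (LinearMap.GeneralLinearGroup k M))
    (A : Submodule k (M →ₗ[k] M)) (hA : NilS (A : Set (M →ₗ[k] M)))
    (h : ∀ g ∈ H, (g : M →ₗ[k] M) - 1 ∈ A) : Cfsg.IsUnipotentOn H := by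
  obtain ⟨n, hn⟩ := hA
  refine (unip_iff H).mpr ⟨n, fun l hl hlen => ?_⟩
  apply hn
  · rw [List.length_map, hlen]
  · intro x hx
    obtain ⟨g, hg, rfl⟩ := List.mem_map.mp hx
    exact h g (hl g hg)

theorem uniq [FiniteDimensional k M]
    (G : Subgroup (LinearMap.GeneralLinearGroup k M))
    (W : Set (Subgroup (LinearMap.GeneralLinearGroup k M))) (hWG : ∀ A ∈ W, A ≤ G)
    (hWW : ∀ A ∈ W, ∀ B ∈ W, NilS (dl (A ⊔ B)))
    (hWconj : ∀ A ∈ W, ∀ g ∈ G, Cfsg.conjBy A g ∈ W) :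
    ∀ c : ℕ, ∀ A B : Submodule k (M →ₗ[k] M), IsMx W A → IsMx W B →
      Module.finrank k (M →ₗ[k] M) ≤ Module.finrank k (gen (WW W A ∩ WW W B)) + c → A = B := by
  intro c
  induction c with
  | zero =>
    intro A B hA hB hc
    have hD := inN_gen W A hA.1.1 hA.1.2.1 (WW W A ∩ WW W B) Set.inter_subset_left
    have hD' := inN_gen W B hB.1.1 hB.1.2.1 (WW W A ∩ WW W B) Set.inter_subset_right
    have htop : gen (WW W A ∩ WW W B) = ⊤ :=
      Submodule.eq_top_of_finrank_eq (le_antisymm (Submodule.finrank_le _) (by simpa using hc))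
    have h1 := hD.2.1
    have h2 := hD'.2.1
    rw [htop] at h1 h2
    rw [top_le_iff.mp h1, top_le_iff.mp h2]
  | succ c ih =>
    intro A B hA hB hc
    by_contra hAB
    have hD := inN_gen W A hA.1.1 hA.1.2.1 (WW W A ∩ WW W B) Set.inter_subset_left
    have hD' := inN_gen W B hB.1.1 hB.1.2.1 (WW W A ∩ WW W B) Set.inter_subset_right
    obtain ⟨D, hDdef⟩ : ∃ D, D = gen (WW W A ∩ WW W B) := ⟨_, rfl⟩
    rw [← hDdef] at hD hD' hc
    have hDA : D ≤ A := hD.2.1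
    have hDB : D ≤ B := hD'.2.1
    have hneA : D ≠ A := by
      intro h
      rw [h] at hDB
      exact hAB (hA.2 B hB.1 hDB).symm
    have hneB : D ≠ B := by
      intro h
      rw [h] at hDA
      exact hAB (hB.2 A hA.1 hDA)
    obtain ⟨Hy, hHyA, hHyD, hHyn⟩ := exists_normalizing G W hWG hWconj A D hA.1 hD.1 hDA hneA
    obtain ⟨Hz, hHzB, hHzD, hHzn⟩ := exists_normalizing G W hWG hWconj B D hB.1 hD.1 hDB hneB
    have hX : NilS (dl (Hy ⊔ Hz)) := hWW Hy hHyA.1 Hz hHzB.1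
    have hnorm : ∀ g ∈ Hy ⊔ Hz, ∀ d ∈ D, (g : M →ₗ[k] M) * d *
        ((g⁻¹ : LinearMap.GeneralLinearGroup k M) : M →ₗ[k] M) ∈ D := by
      have hle : Hy ⊔ Hz ≤ nrm D := by
        refine sup_le (fun w hw => ?_) (fun w hw => ?_)
        · refine (mem_nrm D w).mpr ⟨hHyn w hw, fun d hd => ?_⟩
          have h := hHyn w⁻¹ (Hy.inv_mem hw) d hd
          rwa [inv_inv] at h
        · refine (mem_nrm D w).mpr ⟨hHzn w hw, fun d hd => ?_⟩
          have h := hHzn w⁻¹ (Hz.inv_mem hw) d hd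
          rwa [inv_inv] at h
      intro g hg
      exact ((mem_nrm D g).mp (hle hg)).1
    obtain ⟨R0, hR0m, hR0n, hR0s⟩ := good_of_normalized D hD.1.2.1 (Hy ⊔ Hz) hX hnorm
    have hR1 := inN_gen W R0 hR0m hR0n (WW W R0) subset_rfl
    obtain ⟨R, hR, hR1R⟩ := exists_max W (Module.finrank k (M →ₗ[k] M)) (gen (WW W R0)) hR1.1
      (Nat.le_add_left _ _)
    have hin : ∀ H ∈ W, dl H ⊆ (R0 : Set (M →ₗ[k] M)) → H ∈ WW W R :=
      fun H hH hs => ⟨hH, fun x hx => hR1R (dl_sub_gen (WW W R0) H ⟨hH, hs⟩ hx)⟩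
    have hHyR : Hy ∈ WW W R :=
      hin Hy hHyA.1 (fun x hx => hR0s (Or.inr (dl_mono le_sup_left hx)))
    have hHzR : Hz ∈ WW W R :=
      hin Hz hHzB.1 (fun x hx => hR0s (Or.inr (dl_mono le_sup_right hx)))
    have hDR : ∀ H ∈ WW W A ∩ WW W B, H ∈ WW W R := by
      intro H hH
      refine hin H hH.1.1 (fun x hx => hR0s (Or.inl ?_))
      rw [hDdef]
      exact dl_sub_gen _ H hH hx
    have hRA : R = A := by
      apply ih R A hR hA
      have hlt : D < gen (WW W R ∩ WW W A) := by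
        refine lt_of_le_of_ne ?_ ?_
        · rw [hDdef]; exact gen_mono (fun H hH => ⟨hDR H hH, hH.1⟩)
        · intro h
          apply hHyD
          refine ⟨hHyA.1, ?_⟩
          rw [h]
          exact dl_sub_gen _ Hy ⟨hHyR, hHyA⟩
      have h1 := Submodule.finrank_lt_finrank_of_lt hlt
      omega
    have hRB : R = B := by
      apply ih R B hR hB
      have hlt : D < gen (WW W R ∩ WW W B) := by
        refine lt_of_le_of_ne ?_ ?_
        · rw [hDdef]; exact gen_mono (fun H hH => ⟨hDR H hH, hH.2⟩)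
        · intro h
          apply hHzD
          refine ⟨hHzB.1, ?_⟩
          rw [h]
          exact dl_sub_gen _ Hz ⟨hHzR, hHzB⟩
      have h1 := Submodule.finrank_lt_finrank_of_lt hlt
      omega
    exact hAB (hRA.symm.trans hRB)

theorem main [FiniteDimensional k M]
    {G : Subgroup (LinearMap.GeneralLinearGroup k M)}
    {W : Set (Subgroup (LinearMap.GeneralLinearGroup k M))} (hWG : ∀ A ∈ W, A ≤ G)
    (hWW : ∀ A ∈ W, ∀ B ∈ W, Cfsg.IsUnipotentOn (A ⊔ B))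
    (hWconj : ∀ A ∈ W, ∀ g ∈ G, Cfsg.conjBy A g ∈ W) :
    Cfsg.IsUnipotentOn (⨆ A ∈ W, A) ∧
      ∀ g ∈ G, Cfsg.conjBy (⨆ A ∈ W, A) g = ⨆ A ∈ W, A := by
  constructor
  · have hWW' : ∀ A ∈ W, ∀ B ∈ W, NilS (dl (A ⊔ B)) :=
      fun A hA B hB => nil_of_unip _ (hWW A hA B hB)
    have hex : ∀ H ∈ W, ∃ A, IsMx W A ∧ dl H ⊆ (A : Set (M →ₗ[k] M)) := by
      intro H hH
      have h1 : NilS (dl H) := by
        have h := hWW' H hH H hH
        rwa [sup_idem] at h
      obtain ⟨A0, hA0m, hA0n, hA0s⟩ := good_of_nil (dl H) h1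
      have hA1 := inN_gen W A0 hA0m hA0n (WW W A0) subset_rfl
      obtain ⟨A, hA, hle⟩ := exists_max W (Module.finrank k (M →ₗ[k] M)) (gen (WW W A0)) hA1.1
        (Nat.le_add_left _ _)
      exact ⟨A, hA, fun x hx => hle (dl_sub_gen (WW W A0) H ⟨hH, hA0s⟩ hx)⟩
    by_cases hemp : ∃ H0, H0 ∈ W
    · obtain ⟨H0, hH0⟩ := hemp
      obtain ⟨A, hA, _⟩ := hex H0 hH0
      have hall : ∀ H ∈ W, dl H ⊆ (A : Set (M →ₗ[k] M)) := by
        intro H hH
        obtain ⟨B, hB, hHB⟩ := hex H hH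
        have hAB := uniq G W hWG hWW' hWconj (Module.finrank k (M →ₗ[k] M)) A B hA hB
          (Nat.le_add_left _ _)
        rw [hAB]; exact hHB
      apply unip_of_sub _ A hA.1.2.1
      have hle : (⨆ H ∈ W, H) ≤ subK A hA.1.1 :=
        iSup₂_le (fun H hH w hw =>
          ⟨hall H hH ⟨w, hw, rfl⟩, hall H hH ⟨w⁻¹, H.inv_mem hw, rfl⟩⟩)
      intro g hg
      exact (hle hg).1
    · have hbot : (⨆ H ∈ W, H) = ⊥ := by
        apply le_antisymm _ bot_le
        exact iSup₂_le (fun H hH => absurd ⟨H, hH⟩ hemp)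
      rw [hbot]
      refine (unip_iff _).mpr ⟨1, fun l hl hlen => ?_⟩
      obtain ⟨g, rfl⟩ := List.length_eq_one_iff.mp hlen
      have hg : g = 1 := Subgroup.mem_bot.mp (hl g (by simp))
      simp [hg]
  · intro g hg
    show Subgroup.map _ _ = _
    simp only [Subgroup.map_iSup]
    apply le_antisymm
    · exact iSup₂_le (fun A hA => le_iSup₂_of_le (Cfsg.conjBy A g) (hWconj A hA g hg) le_rfl)
    · refine iSup₂_le (fun B hB => ?_)
      refine le_iSup₂_of_le (Cfsg.conjBy B g⁻¹) (hWconj B hB g⁻¹ (G.inv_mem hg)) ?_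
      intro x hx
      refine Subgroup.mem_map.mpr ⟨g⁻¹ * x * g, Subgroup.mem_map.mpr ⟨x, hx, ?_⟩, ?_⟩
      · simp
      · simp [MulAut.conj_apply, mul_assoc]

end


/-- Let M be a finite-dimensional vector space over a field k, G ≤ GL(M), and 𝒲 a set of subgroups of G, invariant under conjugation by G, such that any two members of 𝒲 generate a subgroup acting unipotently on M (for some n all products of n endomorphisms g − 1 from it vanish). Then the subgroup generated by all members of 𝒲 acts unipotently on M and is normal in G. -/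
theorem result {k : Type*} [Field k] {M : Type*} [AddCommGroup M] [Module k M] [FiniteDimensional k M]
    {G : Subgroup (LinearMap.GeneralLinearGroup k M)} {W : Set (Subgroup (LinearMap.GeneralLinearGroup k M))} (hWG : ∀ A ∈ W, A ≤ G)
    (hWW : ∀ A ∈ W, ∀ B ∈ W, Cfsg.IsUnipotentOn (A ⊔ B)) (hWconj : ∀ A ∈ W, ∀ g ∈ G, Cfsg.conjBy A g ∈ W) :
    Cfsg.IsUnipotentOn (⨆ A ∈ W, A) ∧ ∀ g ∈ G, Cfsg.conjBy (⨆ A ∈ W, A) g = ⨆ A ∈ W, A := by
  exact main hWG hWW hWconj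

end Cfsg.Agent.S5061
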