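import Cfsg.Statements.S5067
import Mathlib

set_option autoImplicit false
open Cfsg

namespace Cfsg.Agent.S5067

open scoped commutatorElement

theorem key {P : Type*} [Group P] [Group.IsNilpotent P] (hna : ¬ IsMulCommutative P)
    (E : Subgroup P) (hE : IsMulCommutative ↥E) :
    Group.nilpotencyClass ↥(Subgroup.normalClosure (E : Set P)) < Group.nilpotencyClass P := by
  classical
  obtain ⟨N, hN⟩ : ∃ N : Subgroup P, N = Subgroup.normalClosure (E : Set P) := ⟨_, rfl⟩
  rw [← hN]
  have hbase : ⁅N, N⁆ ≤ (⊤ : Subgroup P).lowerCentralSeries 2 := by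
    obtain ⟨Γ, hΓ⟩ : ∃ Γ : Subgroup P, Γ = (⊤ : Subgroup P).lowerCentralSeries 2 := ⟨_, rfl⟩
    rw [← hΓ]
    have hΓdef : Γ = ⁅(⁅(⊤ : Subgroup P), (⊤ : Subgroup P)⁆ : Subgroup P), ⊤⁆ := hΓ
    haveI : Γ.Normal := by rw [hΓ]; infer_instance
    obtain ⟨A, hA⟩ : ∃ A : Subgroup P, A = E ⊔ (⁅(⊤ : Subgroup P), (⊤ : Subgroup P)⁆ : Subgroup P) := ⟨_, rfl⟩
    haveI hAn : A.Normal := by
      refine ⟨fun n hn g => ?_⟩
      have h1 : g * n * g⁻¹ = ⁅g, n⁆ * n := by rw [commutatorElement_def]; group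
      rw [h1]
      refine mul_mem ?_ hn
      rw [hA]
      exact Subgroup.mem_sup_right
        (Subgroup.commutator_mem_commutator (Subgroup.mem_top g) (Subgroup.mem_top n))
    have hNA : N ≤ A := by
      rw [hN]; exact Subgroup.normalClosure_le_normal (by rw [hA]; exact SetLike.coe_subset_coe.mpr le_sup_left)
    refine (Subgroup.commutator_mono hNA hNA).trans ?_
    have hker : (QuotientGroup.mk' Γ).ker = Γ := QuotientGroup.ker_mk' Γ
    rw [← hker, ← Subgroup.map_eq_bot_iff, Subgroup.map_commutator,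
      Subgroup.commutator_eq_bot_iff_le_centralizer]
    have hmapA : A.map (QuotientGroup.mk' Γ) = E.map (QuotientGroup.mk' Γ) ⊔
        ((⁅(⊤ : Subgroup P), (⊤ : Subgroup P)⁆ : Subgroup P)).map (QuotientGroup.mk' Γ) := by
      rw [hA]; exact Subgroup.map_sup _ _ _
    obtain ⟨X, hX⟩ : ∃ X : Subgroup (P ⧸ Γ), X = E.map (QuotientGroup.mk' Γ) := ⟨_, rfl⟩
    obtain ⟨Y, hY⟩ : ∃ Y : Subgroup (P ⧸ Γ),
      Y = ((⁅(⊤ : Subgroup P), (⊤ : Subgroup P)⁆ : Subgroup P)).map (QuotientGroup.mk' Γ) := ⟨_, rfl⟩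
    rw [← hX, ← hY] at hmapA
    have hYc : Y ≤ Subgroup.center (P ⧸ Γ) := by
      rw [← Subgroup.centralizer_univ, ← Subgroup.coe_top,
        ← Subgroup.commutator_eq_bot_iff_le_centralizer, hY,
        ← Subgroup.map_top_of_surjective (QuotientGroup.mk' Γ) (QuotientGroup.mk'_surjective Γ),
        ← Subgroup.map_commutator, Subgroup.map_eq_bot_iff, hker, hΓdef]
    haveI : IsMulCommutative ↥X := by rw [hX]; exact Subgroup.map_isMulCommutative _ _
    have hXc : X ≤ Subgroup.centralizer (X : Set (P ⧸ Γ)) := Subgroup.le_centralizer X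
    have h1 : X ⊔ Y ≤ Subgroup.centralizer (X : Set (P ⧸ Γ)) :=
      sup_le hXc (hYc.trans (Subgroup.center_le_centralizer _))
    have h2 : X ≤ Subgroup.centralizer ((X ⊔ Y : Subgroup (P ⧸ Γ)) : Set (P ⧸ Γ)) :=
      Subgroup.le_centralizer_iff.mp h1
    rw [hmapA]
    exact sup_le h2 (hYc.trans (Subgroup.center_le_centralizer _))
  have hstep : ∀ i : ℕ, N.lowerCentralSeries (i + 1) ≤ (⊤ : Subgroup P).lowerCentralSeries (i + 2) := by
    intro i
    induction i with
    | zero => exact hbase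
    | succ k ih =>
      rw [Subgroup.lowerCentralSeries_succ, Subgroup.lowerCentralSeries_succ ⊤ (k + 2)]
      exact Subgroup.commutator_mono ih le_top
  have hc2 : 2 ≤ Group.nilpotencyClass P := by
    by_contra hlt
    have h1 : Group.nilpotencyClass P ≤ 1 := by omega
    have h2 := Subgroup.lowerCentralSeries_eq_bot_iff_nilpotencyClass_le.mpr h1
    apply hna
    refine ⟨⟨fun a b => ?_⟩⟩
    have h3 : ⁅a, b⁆ ∈ (⊤ : Subgroup P).lowerCentralSeries 1 :=
      Subgroup.commutator_mem_commutator (Subgroup.mem_top a) (Subgroup.mem_top b)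
    rw [h2, Subgroup.mem_bot] at h3
    exact commutatorElement_eq_one_iff_mul_comm.mp h3
  obtain ⟨c, hc⟩ : ∃ c, Group.nilpotencyClass P = c + 2 := ⟨Group.nilpotencyClass P - 2, by omega⟩
  have h4 : N.lowerCentralSeries (c + 1) = ⊥ := by
    rw [eq_bot_iff]
    refine (hstep c).trans ?_
    rw [← hc, Subgroup.lowerCentralSeries_nilpotencyClass]
  have h5 : Group.nilpotencyClass ↥N ≤ c + 1 := by
    rw [← Subgroup.lowerCentralSeries_eq_bot_iff_nilpotencyClass_le,
      ← (Subgroup.map_injective N.subtype_injective).eq_iff, Subgroup.map_bot,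
      Subgroup.top_subtype_lowerCentralSeries]
    exact h4
  omega

/-- Let P be a non-abelian nilpotent p-group (every element of p-power order; P possibly infinite) generated by two abelian subgroups E and F. Then the normal closure of E in P, and likewise that of F, has nilpotency class strictly smaller than that of P. -/
theorem result {P : Type*} [Group P] {p : ℕ} [Fact p.Prime] (hP : IsPGroup p P) [Group.IsNilpotent P]
    (hna : ¬ IsMulCommutative P) {E F : Subgroup P} (hE : IsMulCommutative ↥E) (hF : IsMulCommutative ↥F) (hgen : E ⊔ F = ⊤) :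
    Group.nilpotencyClass ↥(Subgroup.normalClosure (E : Set P)) < Group.nilpotencyClass P ∧
    Group.nilpotencyClass ↥(Subgroup.normalClosure (F : Set P)) < Group.nilpotencyClass P := by
  exact ⟨key hna E hE, key hna F hF⟩

end Cfsg.Agent.S5067
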