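import Cfsg.Statements.S5078
import Cfsg.Agent.Lib.helper25.FusionBasic

set_option autoImplicit false
open Cfsg

namespace Cfsg.Agent.S5078

/-- In any fusion system over a finite subgroup S, a receptive subgroup is fully centralized. -/
theorem result {Ω : Type*} [Group Ω] {S : Subgroup Ω} [Finite S] (F : Cfsg.FusionSystem S) (P : Subgroup Ω) (hP : F.IsReceptive P) : F.IsFullyCentralized P := by
  obtain ⟨hPS, hrec⟩ := hP
  refine ⟨hPS, ?_⟩
  intro Q hQ
  obtain ⟨φ, hφ, hrange⟩ := Cfsg.Agent.Lib.helper25.isConj_symm F hQ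
  have hQS : Q ≤ S := Cfsg.Agent.Lib.helper25.hom_le F hφ
  obtain ⟨ψ, hψ, hagree⟩ := hrec Q φ hφ hrange
  have hψinj := F.injective_of_mem hψ
  have hQE : Q ≤ Cfsg.FusionSystem.extender S Q φ := by
    intro g hg
    apply Subgroup.subset_closure
    refine ⟨hQS hg, Subgroup.le_normalizer hg, φ ⟨g, hg⟩, Cfsg.Agent.Lib.helper25.hom_mem F hφ _, ?_⟩
    intro x hx
    have : (⟨g * (x : Ω) * g⁻¹, hx⟩ : Q) = ⟨g, hg⟩ * x * (⟨g, hg⟩ : Q)⁻¹ := Subtype.ext rfl
    rw [this, map_mul, map_mul, map_inv]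
  have hCE : Cfsg.FusionSystem.centralizerIn S Q ≤ Cfsg.FusionSystem.extender S Q φ := by
    intro g hg
    obtain ⟨hgS, hgC⟩ := Subgroup.mem_inf.mp hg
    apply Subgroup.subset_closure
    refine ⟨hgS, Subgroup.centralizer_le_normalizer _ hgC, 1, S.one_mem, ?_⟩
    intro x hx
    have hcomm : (x : Ω) * g = g * (x : Ω) := (Subgroup.mem_centralizer_iff.mp hgC) x x.2
    have : (⟨g * (x : Ω) * g⁻¹, hx⟩ : Q) = x := by
      apply Subtype.ext
      show g * (x : Ω) * g⁻¹ = x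
      rw [← hcomm]
      group
    rw [this]
    simp
  have hfinS : ∀ H : Subgroup Ω, H ≤ S → Finite ↥H := fun H hH =>
    Finite.of_injective (Subgroup.inclusion hH) (Subgroup.inclusion_injective hH)
  have hfinCP : Finite ↥(Cfsg.FusionSystem.centralizerIn S P) := hfinS _ inf_le_left
  have hmap : ∀ c : ↥(Cfsg.FusionSystem.centralizerIn S Q),
      ψ ⟨(c : Ω), hCE c.2⟩ ∈ Cfsg.FusionSystem.centralizerIn S P := by
    intro c
    refine Subgroup.mem_inf.mpr ⟨Cfsg.Agent.Lib.helper25.hom_mem F hψ _, ?_⟩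
    rw [Subgroup.mem_centralizer_iff]
    intro y hy
    rw [← hrange] at hy
    obtain ⟨x, rfl⟩ := hy
    rw [← hagree (x : Ω) x.2 (hQE x.2)]
    rw [← map_mul, ← map_mul]
    congr 1
    apply Subtype.ext
    show (x : Ω) * (c : Ω) = (c : Ω) * (x : Ω)
    exact (Subgroup.mem_centralizer_iff.mp (Subgroup.mem_inf.mp c.2).2) x x.2
  refine Nat.card_le_card_of_injective (fun c => ⟨ψ ⟨(c : Ω), hCE c.2⟩, hmap c⟩) ?_
  intro c c' hcc
  have h2 : ψ ⟨(c : Ω), hCE c.2⟩ = ψ ⟨(c' : Ω), hCE c'.2⟩ := congrArg Subtype.val hcc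
  have h3 := hψinj h2
  exact Subtype.ext (congrArg (fun t : ↥(Cfsg.FusionSystem.extender S Q φ) => (t : Ω)) h3)

end Cfsg.Agent.S5078
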