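import Cfsg.Statements.S5081
import Cfsg.Agent.Lib.helper25.AlperinGoldschmidt
import Cfsg.Agent.Lib.helper9.StrEmb2

set_option autoImplicit false
open Cfsg

namespace Cfsg.Agent.S5081

open Cfsg.FusionSystem

/-- Let F be a saturated fusion system over a finite p-group S, P a proper subgroup of S that is fully normalized, and H the subgroup of Aut_F(P) generated by the automorphisms that extend to maps of the system defined on strictly larger subgroups of S. Then either P is not essential and H is all of Aut_F(P), or P is essential and the image of H in Out_F(P) = Aut_F(P)/Inn(P) is strongly p-embedded there. -/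
theorem result {Ω : Type*} [Group Ω] {S : Subgroup Ω} [Finite S] (p : ℕ) [Fact p.Prime] (hS : IsPGroup p S) (F : Cfsg.FusionSystem S) (hF : F.IsSaturated p) (P : Subgroup Ω) (hPS : P < S) (hPn : F.IsFullyNormalized P) (H : Subgroup (MulAut P)) (hH : H = Subgroup.closure {α : MulAut P | ∃ (Q : Subgroup Ω) (hPQ : P < Q) (φ : Q →* Ω), φ ∈ F.Hom Q ∧ ∀ x : P, φ (Subgroup.inclusion hPQ.le x) = α x}) : (¬ F.IsEssential p P ∧ H = F.autGroup P) ∨ (F.IsEssential p P ∧ ∃ _ : ((Cfsg.Inn P).subgroupOf (F.autGroup P)).Normal, Cfsg.IsStronglyPEmbedded p ((H.subgroupOf (F.autGroup P)).map (QuotientGroup.mk' ((Cfsg.Inn P).subgroupOf (F.autGroup P))))) := by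
  classical
  have hP := hPn.1
  have hPS' : P ≠ S := hPS.ne
  have hrec := Cfsg.Agent.Lib.helper26.receptive_of_fullyNormalized hS F hF hPn
  have hfa := Cfsg.Agent.Lib.helper26.fullyAutomized_of_fullyNormalized hS F hF hPn
  haveI : Finite P := Cfsg.Agent.Lib.helper26.finite_of_le hP
  obtain ⟨Ext, hExt⟩ : ∃ Ext : Set (MulAut P), Ext = {α : MulAut P | ∃ (Q : Subgroup Ω)
      (hPQ : P < Q) (φ : Q →* Ω), φ ∈ F.Hom Q ∧
        ∀ x : P, φ (Subgroup.inclusion hPQ.le x) = α x} := ⟨_, rfl⟩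
  rw [← hExt] at hH
  have hExtA : Ext ⊆ F.autGroup P := by
    rw [hExt]
    rintro α ⟨Q, hPQ, φ, hφ, hx⟩
    rw [SetLike.mem_coe, Cfsg.Agent.Lib.helper26.mem_autGroup_iff F hP]
    have h1 := Cfsg.Agent.Lib.helper26.restrict_mem F hφ hPQ.le
    have h2 : P.subtype.comp α.toMonoidHom = φ.comp (Subgroup.inclusion hPQ.le) := by
      ext x; exact (hx x).symm
    rw [h2]; exact h1
  have hHA : H ≤ F.autGroup P := by rw [hH]; exact (Subgroup.closure_le _).2 hExtA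
  have hHext : ∀ β : MulAut P, β ∈ Ext → β ∈ H := by
    intro β hβ
    rw [hH]
    exact Subgroup.subset_closure hβ
  -- an automorphism whose extender is larger than `P` is extendable
  have good_of_ext : ∀ β : MulAut P, P.subtype.comp β.toMonoidHom ∈ F.Hom P →
      (∃ g ∈ extender S P (P.subtype.comp β.toMonoidHom), g ∉ P) → β ∈ Ext := by
    rintro β hβ ⟨g, hg, hgP⟩
    have hrange : (P.subtype.comp β.toMonoidHom).range = P := by
      ext y
      constructor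
      · rintro ⟨x, rfl⟩
        exact (β x).2
      · intro hy
        exact ⟨β.symm ⟨y, hy⟩, by simp⟩
    obtain ⟨ψ, hψ, hψx⟩ := hrec.2 P _ hβ hrange
    have hle : P ≤ extender S P (P.subtype.comp β.toMonoidHom) :=
      Cfsg.Agent.Lib.helper26.le_extender hP (fun x => hP (β x).2)
    have hlt : P < extender S P (P.subtype.comp β.toMonoidHom) := by
      refine lt_of_le_not_ge hle (fun h => hgP (h hg))
    rw [hExt]
    exact ⟨_, hlt, ψ, hψ, fun x => hψx x x.2 (hle x.2)⟩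
  by_cases hcen : F.IsCentric P
  swap
  · left
    refine ⟨fun hess => hcen hess.1, le_antisymm hHA ?_⟩
    intro α hα
    have hnot : ¬ centralizerIn S P ≤ P :=
      fun h => hcen (Cfsg.Agent.Lib.helper25.centric_of_centralizerIn_le hS F hF hPn h)
    obtain ⟨g, hg, hgP⟩ := SetLike.not_le_iff_exists.1 hnot
    exact hHext α (good_of_ext α ((Cfsg.Agent.Lib.helper26.mem_autGroup_iff F hP α).1 hα)
      ⟨g, Cfsg.Agent.Lib.helper26.centralizerIn_le_extender hg, hgP⟩)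
  -- centric case
  have hInn : ((Inn P).subgroupOf (F.autGroup P)).Normal :=
    (Cfsg.Agent.Lib.helper25.inn_normal P).subgroupOf _
  obtain ⟨-, R, hR⟩ := hfa
  have hπs : Function.Surjective (QuotientGroup.mk' ((Inn P).subgroupOf (F.autGroup P))) :=
    QuotientGroup.mk'_surjective _
  obtain ⟨g₀, hg₀, hg₀P⟩ := Cfsg.Agent.Lib.helper26.exists_normalizerIn_not_mem hS hP hPS'
  have good_inn : ∀ a : F.autGroup P, a ∈ (Inn P).subgroupOf (F.autGroup P) →
      (a : MulAut P) ∈ Ext := by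
    intro a ha
    obtain ⟨w, hw⟩ := Subgroup.mem_subgroupOf.1 ha
    apply good_of_ext (a : MulAut P) ((Cfsg.Agent.Lib.helper26.mem_autGroup_iff F hP _).1 a.2)
    refine ⟨g₀, Cfsg.Agent.Lib.helper26.mem_extender_of hg₀.1 hg₀.2 (w * g₀ * (w : Ω)⁻¹)
      (S.mul_mem (S.mul_mem (hP w.2) hg₀.1) (S.inv_mem (hP w.2))) (fun x hx => ?_), hg₀P⟩
    show (((a : MulAut P) ⟨g₀ * x * g₀⁻¹, hx⟩ : P) : Ω)
      = (w * g₀ * (w : Ω)⁻¹) * (((a : MulAut P) x : P) : Ω) * (w * g₀ * (w : Ω)⁻¹)⁻¹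
    rw [← hw]
    simp only [MulAut.conj_apply, Subgroup.coe_mul, Subgroup.coe_inv]
    group
  let π := QuotientGroup.mk' ((Inn P).subgroupOf (F.autGroup P))
  let T : Sylow p (F.autGroup P ⧸ (Inn P).subgroupOf (F.autGroup P)) := R.mapSurjective hπs
  have hTmem : ∀ y, y ∈ (T : Subgroup (F.autGroup P ⧸ (Inn P).subgroupOf (F.autGroup P))) ↔
      ∃ r : F.autGroup P, (r : MulAut P) ∈ autInducedBy S P ∧ π r = y := by
    intro y
    show y ∈ (R : Subgroup (F.autGroup P)).map π ↔ _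
    rw [hR]
    constructor
    · rintro ⟨r, hr, rfl⟩
      exact ⟨r, Subgroup.mem_subgroupOf.1 hr, rfl⟩
    · rintro ⟨r, hr, rfl⟩
      exact ⟨r, Subgroup.mem_subgroupOf.2 hr, rfl⟩
  have hπ1 : ∀ a : F.autGroup P, π a = 1 ↔ (a : MulAut P) ∈ Inn P := by
    intro a
    show (QuotientGroup.mk a : F.autGroup P ⧸ (Inn P).subgroupOf (F.autGroup P)) = 1 ↔ _
    rw [QuotientGroup.eq_one_iff, Subgroup.mem_subgroupOf]
  -- an element of `N_S(P)` inducing an inner automorphism lies in `P`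
  have hker : ∀ g : normalizerIn S P, Cfsg.Agent.Lib.helper26.conjAut S P g ∈ Inn P →
      (g : Ω) ∈ P := by
    intro g hg
    obtain ⟨w, hw⟩ := hg
    have hc : (w : Ω)⁻¹ * g ∈ centralizerIn S P := by
      refine ⟨S.mul_mem (S.inv_mem (hP w.2)) g.2.1, ?_⟩
      show _ ∈ Subgroup.centralizer (P : Set Ω)
      rw [Subgroup.mem_centralizer_iff]
      intro y hy
      have h2 := congrArg (fun β : MulAut P => ((β ⟨y, hy⟩ : P) : Ω)) hw
      simp only [MulAut.conj_apply, Subgroup.coe_mul, Subgroup.coe_inv,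
        Cfsg.Agent.Lib.helper26.conjAut_apply] at h2
      calc y * ((w : Ω)⁻¹ * g) = (w : Ω)⁻¹ * ((w : Ω) * y * (w : Ω)⁻¹) * g := by group
        _ = (w : Ω)⁻¹ * ((g : Ω) * y * (g : Ω)⁻¹) * g := by rw [h2]
        _ = (w : Ω)⁻¹ * g * y := by group
    have h3 := hcen.2 P (Cfsg.Agent.Lib.helper26.isConj_refl F hP) hc
    have h4 : (g : Ω) = w * ((w : Ω)⁻¹ * g) := by group
    rw [h4]
    exact P.mul_mem w.2 h3
  -- nontrivial elements of the Sylow subgroup have order divisible by `p`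
  have hTord : ∀ v : F.autGroup P ⧸ (Inn P).subgroupOf (F.autGroup P),
      v ∈ (T : Subgroup (F.autGroup P ⧸ (Inn P).subgroupOf (F.autGroup P))) → v ≠ 1 →
      p ∣ orderOf v := by
    intro v hvT hv1
    obtain ⟨k, hk⟩ := T.2 ⟨_, hvT⟩
    have hk' : v ^ p ^ k = 1 := by
      have := congrArg Subtype.val hk
      simpa using this
    have hdvd := orderOf_dvd_of_pow_eq_one hk'
    obtain ⟨j, -, hj⟩ := (Nat.dvd_prime_pow (Fact.out : p.Prime)).1 hdvd
    have hj0 : j ≠ 0 := by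
      rintro rfl
      rw [pow_zero, orderOf_eq_one_iff] at hj
      exact hv1 hj
    rw [hj]
    exact dvd_pow_self p hj0
  have hpdvd : p ∣ Nat.card (F.autGroup P ⧸ (Inn P).subgroupOf (F.autGroup P)) := by
    have hmem : Cfsg.Agent.Lib.helper26.conjAut S P ⟨g₀, hg₀⟩ ∈ F.autGroup P :=
      Cfsg.Agent.Lib.helper26.autInducedBy_le_autGroup F hP
        (Cfsg.Agent.Lib.helper26.conjAut_mem_autInducedBy S P _)
    have hq1 : π ⟨_, hmem⟩ ≠ 1 := fun h => hg₀P (hker _ ((hπ1 _).1 h))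
    have hqT : π ⟨_, hmem⟩ ∈ (T : Subgroup (F.autGroup P ⧸ (Inn P).subgroupOf (F.autGroup P))) :=
      (hTmem _).2 ⟨_, Cfsg.Agent.Lib.helper26.conjAut_mem_autInducedBy S P _, rfl⟩
    exact (hTord _ hqT hq1).trans (orderOf_dvd_natCard _)
  have stepa : ∀ (Q : Subgroup (F.autGroup P ⧸ (Inn P).subgroupOf (F.autGroup P))),
      Q ≤ (T : Subgroup (F.autGroup P ⧸ (Inn P).subgroupOf (F.autGroup P))) → ¬ PRankLE p 0 Q →
      ∀ a : F.autGroup P, π a ∈ Subgroup.normalizer (Q : Set _) → (a : MulAut P) ∈ Ext := by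
    intro Q hQT hQr a ha
    obtain ⟨q, hqQ, hq1⟩ := Cfsg.Agent.Lib.helper25.exists_ne_one_of_not_pRankLE_zero hQr
    obtain ⟨r, hrS, rfl⟩ := (hTmem _).1 (hQT hqQ)
    obtain ⟨g, hg⟩ := (Cfsg.Agent.Lib.helper26.mem_autInducedBy_iff_conjAut _).1 hrS
    have hgP : (g : Ω) ∉ P := by
      intro hgP
      apply hq1
      rw [hπ1, ← hg]
      exact ⟨⟨g, hgP⟩, by ext x; rfl⟩
    have h1 : π a * π r * (π a)⁻¹ ∈ Q := (Subgroup.mem_normalizer_iff.1 ha _).1 hqQ
    obtain ⟨r', hr'S, hr'⟩ := (hTmem _).1 (hQT h1)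
    have h3 : ((r'⁻¹ * (a * r * a⁻¹) : F.autGroup P) : MulAut P) ∈ Inn P := by
      rw [← hπ1, map_mul, map_inv, hr', map_mul, map_mul, map_inv, inv_mul_cancel]
    have h4 : ((a * r * a⁻¹ : F.autGroup P) : MulAut P) ∈ autInducedBy S P := by
      have h5 := Subgroup.mul_mem _ hr'S (Cfsg.Agent.Lib.helper25.inn_le_autInducedBy hP h3)
      simpa using h5
    obtain ⟨h, hh, hhy⟩ := (Cfsg.Agent.Lib.helper26.mem_autInducedBy_iff _ _ _).1 h4
    apply good_of_ext (a : MulAut P) ((Cfsg.Agent.Lib.helper26.mem_autGroup_iff F hP _).1 a.2)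
    refine ⟨g, Cfsg.Agent.Lib.helper26.mem_extender_of g.2.1 g.2.2 h hh (fun x hx => ?_), hgP⟩
    have h6 := hhy ((a : MulAut P) x)
    show (((a : MulAut P) ⟨g * x * (g : Ω)⁻¹, hx⟩ : P) : Ω)
      = h * (((a : MulAut P) x : P) : Ω) * h⁻¹
    rw [← h6]
    have h7 : (r : MulAut P) x = ⟨g * x * (g : Ω)⁻¹, hx⟩ := by
      rw [← hg]
      rfl
    simp only [Subgroup.coe_mul, Subgroup.coe_inv, MulAut.mul_apply, MulAut.inv_apply_self, h7]
  obtain ⟨Hbar, hHbar⟩ : ∃ Hbar : Subgroup (F.autGroup P ⧸ (Inn P).subgroupOf (F.autGroup P)),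
      Hbar = (H.subgroupOf (F.autGroup P)).map
        (QuotientGroup.mk' ((Inn P).subgroupOf (F.autGroup P))) := ⟨_, rfl⟩
  have hΓle : kGeneratedCore p 1
      (T : Subgroup (F.autGroup P ⧸ (Inn P).subgroupOf (F.autGroup P))) ≤ Hbar := by
    unfold kGeneratedCore
    apply iSup_le
    rintro ⟨Q, hQT, hQr⟩
    intro y hy
    obtain ⟨a, rfl⟩ := hπs y
    rw [hHbar]
    exact ⟨a, Subgroup.mem_subgroupOf.2 (hHext _ (stepa Q hQT hQr a hy)), rfl⟩
  by_cases hess : F.IsEssential p P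
  · right
    refine ⟨hess, hInn, ?_⟩
    rw [← hHbar]
    refine ⟨hpdvd, ?_, T, hΓle⟩
    obtain ⟨-, -, hInn', E, hE⟩ := hess
    obtain ⟨T', hT'E, -⟩ := Cfsg.Agent.Lib.helper9.se_exists_sylow_le hE
    obtain ⟨y, hy⟩ := MulAction.exists_smul_eq
      (F.autGroup P ⧸ (Inn P).subgroupOf (F.autGroup P)) T' T
    have hNP := Cfsg.Agent.Lib.helper9.normProp_conj (Cfsg.Agent.Lib.helper9.normProp_of_se hE) y
    obtain ⟨E₁, hE₁⟩ : ∃ E₁ : Subgroup (F.autGroup P ⧸ (Inn P).subgroupOf (F.autGroup P)),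
        E₁ = E.map (MulAut.conj y).toMonoidHom := ⟨_, rfl⟩
    rw [← hE₁] at hNP
    have hTE₁ : (T : Subgroup (F.autGroup P ⧸ (Inn P).subgroupOf (F.autGroup P))) ≤ E₁ := by
      intro t ht
      have h1 := Cfsg.Agent.Lib.helper9.sylow_smul_mem' y⁻¹ T T'
        (by rw [← hy, inv_smul_smul]) t ht
      rw [hE₁, Cfsg.Agent.Lib.helper9.mem_map_conj']
      have h2 := hT'E h1
      simpa using h2
    have hE₁top : E₁ ≠ ⊤ := by
      intro h
      apply hE.2.1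
      rw [eq_top_iff]
      intro x _
      have h2 : y * x * y⁻¹ ∈ E₁ := by rw [h]; trivial
      rw [hE₁, Cfsg.Agent.Lib.helper9.mem_map_conj'] at h2
      simpa [mul_assoc] using h2
    have hmain : ∀ α ∈ Ext, ∀ hα : α ∈ F.autGroup P, π ⟨α, hα⟩ ∈ E₁ := by
      intro α hαE hα
      rw [hExt] at hαE
      obtain ⟨Q, hPQ, φ, hφ, hφx⟩ := hαE
      by_contra hx
      have hQS : Q ≤ S := (F.le_of_mem hφ).1
      haveI : Finite Q := Cfsg.Agent.Lib.helper26.finite_of_le hQS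
      obtain ⟨g, hg, hgP⟩ := Cfsg.Agent.Lib.helper26.exists_normalizerIn_not_mem (S := Q)
        (hS.to_le hQS) hPQ.le hPQ.ne
      have hgQ : g ∈ Q := hg.1
      have hgN : g ∈ normalizerIn S P := ⟨hQS hgQ, hg.2⟩
      have hφS : ∀ q : Q, φ q ∈ S := (F.le_of_mem hφ).2
      obtain ⟨r, hr⟩ : ∃ r : MulAut P, r = Cfsg.Agent.Lib.helper26.conjAut S P ⟨g, hgN⟩ :=
        ⟨_, rfl⟩
      have hβx : ∀ x : P, (((α * r * α⁻¹) x : P) : Ω) =
          φ ⟨g, hgQ⟩ * x * (φ ⟨g, hgQ⟩)⁻¹ := by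
        intro x
        have h1 : ((α * r * α⁻¹) x) = α (r (α⁻¹ x)) := rfl
        rw [h1, ← hφx (r (α⁻¹ x))]
        have h2 : Subgroup.inclusion hPQ.le (r (α⁻¹ x)) =
            ⟨g, hgQ⟩ * Subgroup.inclusion hPQ.le (α⁻¹ x) * ⟨g, hgQ⟩⁻¹ := by
          rw [hr]; apply Subtype.ext; rfl
        rw [h2, map_mul, map_mul, map_inv, hφx, MulAut.apply_inv_self]
      have hφgN : φ ⟨g, hgQ⟩ ∈ normalizerIn S P :=
        ⟨hφS _, Cfsg.Agent.Lib.helper26.mem_normalizer_of_conj_aut _ hβx⟩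
      have hβr' : α * r * α⁻¹ = Cfsg.Agent.Lib.helper26.conjAut S P ⟨_, hφgN⟩ := by
        ext x
        rw [hβx]
        rfl
      have hrA : r ∈ F.autGroup P := by
        rw [hr]
        exact Cfsg.Agent.Lib.helper26.autInducedBy_le_autGroup F hP
          (Cfsg.Agent.Lib.helper26.conjAut_mem_autInducedBy S P _)
      have hr'A : Cfsg.Agent.Lib.helper26.conjAut S P ⟨_, hφgN⟩ ∈ F.autGroup P :=
        Cfsg.Agent.Lib.helper26.autInducedBy_le_autGroup F hP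
          (Cfsg.Agent.Lib.helper26.conjAut_mem_autInducedBy S P _)
      have hrS : r ∈ autInducedBy S P := by
        rw [hr]; exact Cfsg.Agent.Lib.helper26.conjAut_mem_autInducedBy S P _
      have huT : π ⟨r, hrA⟩ ∈ (T : Subgroup (F.autGroup P ⧸ (Inn P).subgroupOf (F.autGroup P))) :=
        (hTmem _).2 ⟨⟨r, hrA⟩, hrS, rfl⟩
      have hu1 : π ⟨r, hrA⟩ ≠ 1 := by
        intro h
        have h2 := (hπ1 _).1 h
        have h3 : Cfsg.Agent.Lib.helper26.conjAut S P ⟨g, hgN⟩ ∈ Inn P := by rw [← hr]; exact h2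
        exact hgP (hker _ h3)
      have hvT : π ⟨α, hα⟩ * π ⟨r, hrA⟩ * (π ⟨α, hα⟩)⁻¹ ∈
          (T : Subgroup (F.autGroup P ⧸ (Inn P).subgroupOf (F.autGroup P))) := by
        have h1 : π ⟨α, hα⟩ * π ⟨r, hrA⟩ * (π ⟨α, hα⟩)⁻¹ = π ⟨_, hr'A⟩ := by
          rw [← map_inv, ← map_mul, ← map_mul]
          congr 1
          exact Subtype.ext hβr'
        rw [h1]
        exact (hTmem _).2 ⟨_, Cfsg.Agent.Lib.helper26.conjAut_mem_autInducedBy S P _, rfl⟩
      have hv1 : π ⟨α, hα⟩ * π ⟨r, hrA⟩ * (π ⟨α, hα⟩)⁻¹ ≠ 1 := by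
        intro h
        apply hu1
        have h2 : π ⟨r, hrA⟩ = (π ⟨α, hα⟩)⁻¹ * (π ⟨α, hα⟩ * π ⟨r, hrA⟩ * (π ⟨α, hα⟩)⁻¹) *
            π ⟨α, hα⟩ := by group
        rw [h2, h, mul_one, inv_mul_cancel]
      have hvD : π ⟨α, hα⟩ * π ⟨r, hrA⟩ * (π ⟨α, hα⟩)⁻¹ ∈
          E₁ ⊓ E₁.map (MulAut.conj (π ⟨α, hα⟩)).toMonoidHom := by
        refine ⟨hTE₁ hvT, (Cfsg.Agent.Lib.helper9.mem_map_conj' _ _ _).2 ?_⟩
        have h2 : (π ⟨α, hα⟩)⁻¹ * (π ⟨α, hα⟩ * π ⟨r, hrA⟩ * (π ⟨α, hα⟩)⁻¹) * π ⟨α, hα⟩ =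
            π ⟨r, hrA⟩ := by group
        rw [h2]
        exact hTE₁ huT
      apply Cfsg.Agent.Lib.helper9.normProp_inter hNP hx
      have h5 := hTord _ hvT hv1
      have h6 : orderOf (⟨_, hvD⟩ : ↥(E₁ ⊓ E₁.map (MulAut.conj (π ⟨α, hα⟩)).toMonoidHom)) =
          orderOf (π ⟨α, hα⟩ * π ⟨r, hrA⟩ * (π ⟨α, hα⟩)⁻¹) := Subgroup.orderOf_mk _ _
      rw [← h6] at h5
      exact h5.trans (orderOf_dvd_natCard _)
    have hHK : H ≤ (E₁.comap π).map (F.autGroup P).subtype := by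
      rw [hH, Subgroup.closure_le]
      intro α hα
      exact ⟨⟨α, hExtA hα⟩, hmain α hα (hExtA hα), rfl⟩
    have hHE : Hbar ≤ E₁ := by
      rw [hHbar]
      rintro _ ⟨a, ha, rfl⟩
      obtain ⟨b, hb, hba⟩ := hHK (Subgroup.mem_subgroupOf.1 ha)
      have hba' : b = a := Subtype.ext hba
      rw [← hba']
      exact hb
    intro htop
    apply hE₁top
    rw [eq_top_iff, ← htop]
    exact hHE
  · left
    refine ⟨hess, le_antisymm hHA ?_⟩
    have hΓ : kGeneratedCore p 1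
        (T : Subgroup (F.autGroup P ⧸ (Inn P).subgroupOf (F.autGroup P))) = ⊤ := by
      by_contra hne
      exact hess ⟨hcen, hPn, hInn, _, ⟨hpdvd, hne, T, le_rfl⟩⟩
    intro α hα
    have h1 : π ⟨α, hα⟩ ∈ Hbar := hΓle (by rw [hΓ]; trivial)
    rw [hHbar] at h1
    obtain ⟨m, hm, hmα⟩ := h1
    have h8 : m⁻¹ * ⟨α, hα⟩ ∈ (Inn P).subgroupOf (F.autGroup P) := by
      rw [Subgroup.mem_subgroupOf, ← hπ1, map_mul, map_inv]
      show (π m)⁻¹ * π ⟨α, hα⟩ = 1
      rw [← hmα, inv_mul_cancel]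
    have h9 := H.mul_mem (Subgroup.mem_subgroupOf.1 hm) (hHext _ (good_inn _ h8))
    have h10 : ((m : MulAut P)) * ((m⁻¹ * ⟨α, hα⟩ : F.autGroup P) : MulAut P) = α := by
      rw [Subgroup.coe_mul, Subgroup.coe_inv, mul_inv_cancel_left]
    rw [h10] at h9
    exact h9

end Cfsg.Agent.S5081
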