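import Cfsg.Statements.S5082
import Cfsg.Agent.Lib.helper25.AlperinGoldschmidt

set_option autoImplicit false
open Cfsg

namespace Cfsg.Agent.S5082

/-- Alperin–Goldschmidt fusion Theorem for fusion systems: a saturated fusion system F over a finite p-group S is generated by the automorphism groups Aut_F(P) for P = S and for P essential — every fusion system over S whose automorphism groups of these subgroups contain those of F contains every map of F. -/
theorem result {Ω : Type*} [Group Ω] {S : Subgroup Ω} [Finite S] (p : ℕ) [Fact p.Prime] (hS : IsPGroup p S) (F : Cfsg.FusionSystem S) (hF : F.IsSaturated p) (E : Cfsg.FusionSystem S) (hE : ∀ P : Subgroup Ω, (P = S ∨ F.IsEssential p P) → F.autGroup P ≤ E.autGroup P) : F ≤ E := by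
  intro P φ hφ
  revert P φ hφ
  apply Cfsg.Agent.Lib.helper25.alperin_goldschmidt_induction hS F hF (fun U φ => φ ∈ E.Hom U)
  · intro U V φ hUV _ hφ
    exact Cfsg.Agent.Lib.helper26.restrict_mem E hφ hUV
  · intro U V φ ψ hφV _ _ hφ hψ
    exact E.comp_mem hφ hψ hφV
  · intro W hW α hα
    have hWS : W ≤ S := (F.le_of_mem hα).1
    have h1 : α ∈ F.autGroup W := (Cfsg.Agent.Lib.helper26.mem_autGroup_iff F hWS α).2 hα
    exact (Cfsg.Agent.Lib.helper26.mem_autGroup_iff E hWS α).1 (hE W hW h1)

end Cfsg.Agent.S5082
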