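import Cfsg.Statements.S5083
import Cfsg.Agent.Lib.helper26.Alperin
import Cfsg.Agent.Lib.helper25.SubgroupFusion

set_option autoImplicit false
open Cfsg

namespace Cfsg.Agent.S5083

/-- If F is a saturated fusion system over a finite p-group S in which Aut_F(P) is a p-group for every P ≤ S, then F is the inner fusion system of S (all its maps are conjugations by elements of S). -/
theorem result {Ω : Type*} [Group Ω] {S : Subgroup Ω} [Finite S] (p : ℕ) [Fact p.Prime] (hS : IsPGroup p S) (F : Cfsg.FusionSystem S) (hF : F.IsSaturated p) (h : ∀ P : Subgroup Ω, P ≤ S → IsPGroup p (F.autGroup P)) : F = Cfsg.innerFusionSystem S := by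
  have hle : ∀ (U : Subgroup Ω) (φ : U →* Ω), φ ∈ F.Hom U → φ ∈ (Cfsg.innerFusionSystem S).Hom U := by
    apply Cfsg.Agent.Lib.helper26.alperin_induction hS F hF
      (fun U φ => φ ∈ (Cfsg.innerFusionSystem S).Hom U)
    · intro U V φ hUV _ hφ
      exact Cfsg.Agent.Lib.helper26.restrict_mem (Cfsg.innerFusionSystem S) hφ hUV
    · intro U V φ ψ hφV _ _ hφ hψ
      exact (Cfsg.innerFusionSystem S).comp_mem hφ hψ hφV
    · intro W hW _ α hα
      have hWS : W ≤ S := hW.1
      obtain ⟨-, R, hR⟩ := Cfsg.Agent.Lib.helper26.fullyAutomized_of_fullyNormalized hS F hF hW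
      have htop : (⊤ : Subgroup (F.autGroup W)) = (R : Subgroup (F.autGroup W)) :=
        R.is_maximal' ((h W hWS).to_subgroup ⊤) le_top
      have hαmem : α ∈ F.autGroup W := (Cfsg.Agent.Lib.helper26.mem_autGroup_iff F hWS α).mpr hα
      have h1 : (⟨α, hαmem⟩ : F.autGroup W) ∈ (R : Subgroup (F.autGroup W)) := by
        rw [← htop]
        exact Subgroup.mem_top _
      rw [hR, Subgroup.mem_subgroupOf] at h1
      obtain ⟨g, hg, hgα⟩ := (Cfsg.Agent.Lib.helper26.mem_autInducedBy_iff S W α).mp h1
      exact ⟨hWS, g, hg, fun x => hgα x⟩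
  apply Cfsg.Agent.Lib.helper25.fusionSystem_ext
  intro P
  apply Set.Subset.antisymm
  · intro φ hφ
    exact hle P φ hφ
  · rintro φ ⟨hP, g, hg, hφ⟩
    have : φ = Cfsg.conjHom P g := by
      ext x
      exact hφ x
    rw [this]
    exact F.conj_mem hP hg

end Cfsg.Agent.S5083
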