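import Cfsg.Statements.S5085
import Cfsg.Agent.Lib.helper25.FusionBasic

set_option autoImplicit false
open Cfsg

namespace Cfsg.Agent.S5085

/-- In any fusion system, a characteristic subgroup of a subgroup that is normal in the system is itself normal in the system. -/
theorem result {Ω : Type*} [Group Ω] {S : Subgroup Ω} (F : Cfsg.FusionSystem S) (Q U : Subgroup Ω) (hQ : F.IsNormal Q) (hUQ : U ≤ Q) (hU : (U.subgroupOf Q).Characteristic) : F.IsNormal U := by
  obtain ⟨hQS, hext⟩ := hQ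
  refine ⟨hUQ.trans hQS, ?_⟩
  intro P φ hφ
  obtain ⟨ψ, hψ, hagree, hmap⟩ := hext P φ hφ
  have hinj := F.injective_of_mem hψ
  have hle : P ⊔ U ≤ P ⊔ Q := sup_le_sup_left hUQ P
  -- the automorphism of Q induced by ψ
  have hQval : ∀ q : Q, ψ (Subgroup.inclusion (le_sup_right : Q ≤ P ⊔ Q) q) ∈ Q := by
    intro q
    exact (le_of_eq hmap) ((Cfsg.Agent.Lib.helper25.mem_map_subgroupOf ψ).mpr ⟨_, q.2, rfl⟩)
  let f : Q →* Q := (ψ.comp (Subgroup.inclusion (le_sup_right : Q ≤ P ⊔ Q))).codRestrict Q hQval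
  have hf : ∀ q : Q, ((f q : Q) : Ω) = ψ (Subgroup.inclusion (le_sup_right : Q ≤ P ⊔ Q) q) :=
    fun q => rfl
  have hfbij : Function.Bijective f := by
    constructor
    · intro a b hab
    -- injectivity from that of ψ
      have h1 : ψ (Subgroup.inclusion (le_sup_right : Q ≤ P ⊔ Q) a) =
          ψ (Subgroup.inclusion (le_sup_right : Q ≤ P ⊔ Q) b) := by
        rw [← hf, ← hf, hab]
      have h2 := hinj h1
      exact Subgroup.inclusion_injective _ h2
    · intro q
      have hq : (q : Ω) ∈ (Q.subgroupOf (P ⊔ Q)).map ψ := (ge_of_eq hmap) q.2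
      obtain ⟨x, hx, hxq⟩ := (Cfsg.Agent.Lib.helper25.mem_map_subgroupOf ψ).mp hq
      refine ⟨⟨(x : Ω), hx⟩, ?_⟩
      apply Subtype.ext
      rw [hf]
      rw [← hxq]
      rfl
  let α : Q ≃* Q := MulEquiv.ofBijective f hfbij
  have hα : (U.subgroupOf Q).map α.toMonoidHom = U.subgroupOf Q :=
    Subgroup.characteristic_iff_map_eq.mp hU α
  refine ⟨ψ.comp (Subgroup.inclusion hle), Cfsg.Agent.Lib.helper25.hom_restrict F hle hψ, ?_, ?_⟩
  · intro x
    exact hagree x
  · ext y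
    rw [Cfsg.Agent.Lib.helper25.mem_map_subgroupOf]
    constructor
    · rintro ⟨x, hx, rfl⟩
      have h1 : α ⟨(x : Ω), hUQ hx⟩ ∈ (U.subgroupOf Q).map α.toMonoidHom :=
        ⟨⟨(x : Ω), hUQ hx⟩, Subgroup.mem_subgroupOf.mpr hx, rfl⟩
      rw [hα] at h1
      exact Subgroup.mem_subgroupOf.mp h1
    · intro hy
      have h1 : (⟨y, hUQ hy⟩ : Q) ∈ (U.subgroupOf Q).map α.toMonoidHom := by
        rw [hα]
        exact Subgroup.mem_subgroupOf.mpr hy
      obtain ⟨u, hu, huy⟩ := h1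
      have hu' : (u : Ω) ∈ U := Subgroup.mem_subgroupOf.mp hu
      refine ⟨⟨(u : Ω), Subgroup.mem_sup_right hu'⟩, hu', ?_⟩
      have := congrArg Subtype.val huy
      exact this

end Cfsg.Agent.S5085
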