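import Cfsg.Statements.S5086
import Cfsg.Agent.Lib.helper25.FusionRadical

set_option autoImplicit false
open Cfsg

namespace Cfsg.Agent.S5086

/-- In a saturated fusion system over a finite p-group, a subgroup Q is normal in the system if and only if Q is strongly closed in the system and is contained in every centric-radical subgroup. -/
theorem result {Ω : Type*} [Group Ω] {S : Subgroup Ω} [Finite S] (p : ℕ) [Fact p.Prime] (hS : IsPGroup p S) (F : Cfsg.FusionSystem S) (hF : F.IsSaturated p) (Q : Subgroup Ω) : F.IsNormal Q ↔ (F.StronglyClosed Q ∧ ∀ P : Subgroup Ω, F.IsCentric P → F.IsRadical p P → Q ≤ P) := by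
  constructor
  · intro hQ
    exact ⟨Cfsg.Agent.Lib.helper25.stronglyClosed_of_isNormal F hQ,
      fun P hc hr => Cfsg.Agent.Lib.helper25.le_of_isNormal_of_centric_radical hS F hQ hc hr⟩
  · rintro ⟨hsc, hcr⟩
    apply Cfsg.Agent.Lib.helper25.isNormal_of_essential_invariant hS F hF
    intro P hP
    have hPS : P ≤ S := by
      rcases hP with rfl | hP
      · exact le_rfl
      · exact hP.1.1
    refine ⟨?_, fun α hα => Cfsg.Agent.Lib.helper25.map_aut_eq_of_stronglyClosed F hsc hPS hα⟩
    rcases hP with rfl | hP
    · exact hsc.1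
    · exact hcr P hP.1 (Cfsg.Agent.Lib.helper25.isRadical_of_isEssential hS F hP)

end Cfsg.Agent.S5086
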