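import Cfsg.Statements.S5089
import Cfsg.Agent.Lib.helper25.FusionStab
import Cfsg.Agent.S5088

set_option autoImplicit false
open Cfsg

namespace Cfsg.Agent.S5089

open Cfsg.FusionSystem
open scoped commutatorElement

/-- A saturated fusion system over a finite p-group has a nontrivial subgroup that is normal in the system (O_p(F) ≠ 1) if and only if some nontrivial abelian subgroup is strongly closed in the system. -/
theorem result {Ω : Type*} [Group Ω] {S : Subgroup Ω} [Finite S] (p : ℕ) [Fact p.Prime] (hS : IsPGroup p S) (F : Cfsg.FusionSystem S) (hF : F.IsSaturated p) : F.core ≠ ⊥ ↔ ∃ Q : Subgroup Ω, Q ≠ ⊥ ∧ IsMulCommutative Q ∧ F.StronglyClosed Q := by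
  constructor
  · intro hne
    have hQ : F.IsNormal F.core := Cfsg.Agent.Lib.helper25.isNormal_core F
    have hQS : F.core ≤ S := hQ.1
    have hfin : Finite F.core := Cfsg.Agent.Lib.helper26.finite_of_le hQS
    have hnt : Nontrivial F.core := by
      rw [← Subgroup.nontrivial_iff_ne_bot] at hne
      exact hne
    have hZnt : Nontrivial (Subgroup.center F.core) := (hS.to_le hQS).center_nontrivial
    obtain ⟨z, hz1⟩ := exists_ne (1 : Subgroup.center F.core)
    refine ⟨(Subgroup.center F.core).map F.core.subtype, ?_, ?_,
      Cfsg.Agent.Lib.helper25.stronglyClosed_of_characteristic F hQ _⟩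
    · intro hbot
      have h1 : ((z : F.core) : Ω) ∈ (Subgroup.center F.core).map F.core.subtype := ⟨z, z.2, rfl⟩
      rw [hbot, Subgroup.mem_bot] at h1
      apply hz1
      apply Subtype.ext
      apply Subtype.ext
      exact h1
    · rw [isMulCommutative_iff]
      rintro ⟨_, a, ha, rfl⟩ ⟨_, b, hb, rfl⟩
      apply Subtype.ext
      show ((a : F.core) : Ω) * (b : F.core) = (b : F.core) * (a : F.core)
      have h2 := (Subgroup.mem_center_iff.1 ha) b
      have h3 := congrArg (fun y : F.core => (y : Ω)) h2
      exact h3.symm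
  · rintro ⟨Q, hQne, hcomm, hsc⟩
    have hcom : ∀ a ∈ Q, ∀ b ∈ Q, a * b = b * a := by
      intro a ha b hb
      have h1 := (isMulCommutative_iff.1 hcomm) ⟨a, ha⟩ ⟨b, hb⟩
      exact congrArg Subtype.val h1
    have hQn : F.IsNormal Q := by
      rw [Cfsg.Agent.S5088.result p hS F hF Q]
      refine ⟨1, fun i => if i = 0 then ⊥ else Q, by simp, by simp [Fin.last], ?_, ?_⟩
      · intro i j hij
        by_cases hi : i = 0
        · simp [hi]
        · have hj : j ≠ 0 := by
            intro hj
            rw [hj] at hij
            exact hi (Fin.le_zero_iff.1 hij)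
          simp [hi, hj]
      · intro i
        have hi : i = 0 := Subsingleton.elim _ _
        subst hi
        refine ⟨by simpa using hsc, ?_⟩
        simp only [Fin.succ_zero_eq_one, Fin.castSucc_zero, if_true]
        rw [Subgroup.commutator_le]
        intro g₁ hg₁ g₂ hg₂
        have hg₂' : g₂ ∈ Q := by simpa using hg₂
        rw [Subgroup.mem_bot, commutatorElement_def, hcom g₁ hg₁ g₂ hg₂']
        group
    intro hbot
    apply hQne
    have hle : Q ≤ F.core := le_sSup hQn
    rw [hbot] at hle
    exact le_bot_iff.1 hle

end Cfsg.Agent.S5089
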