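import Cfsg.Statements.S5094
import Mathlib
import Cfsg.Agent.Lib.helper16.ZStar3

set_option autoImplicit false
open Cfsg

namespace Cfsg.Agent.S5094

open Cfsg.Agent.Lib.helper16.ZStar

/-- Glauberman's Z*-Theorem in fusion language: for a finite group G with Sylow 2-subgroup S, the centre of the fusion system of G on S is the set of elements of S whose image in G/O(G) is central, O(G) being the largest normal subgroup of odd order. -/
theorem result {G : Type*} [Group G] [Finite G] (S : Sylow 2 G) : (Cfsg.groupFusionSystem (S : Subgroup G)).center = (S : Subgroup G) ⊓ (Subgroup.center (G ⧸ Cfsg.oddCore G)).comap (QuotientGroup.mk' (Cfsg.oddCore G)) := by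
  classical
  have : Fact (Nat.Prime 2) := ⟨Nat.prime_two⟩
  have hOn : (Cfsg.pPrimeCore 2 G).Normal := inferInstance
  apply le_antisymm
  · unfold FusionSystem.center
    apply sSup_le
    intro Q hQ
    obtain ⟨hQS, hQc⟩ := hQ
    have hiso : ∀ q ∈ Q, ∀ g : G, g * q * g⁻¹ ∈ (S : Subgroup G) → g * q * g⁻¹ = q := by
      intro q hq g hg
      have hPS : Subgroup.zpowers q ≤ (S : Subgroup G) := by
        rw [Subgroup.zpowers_le]; exact hQS hq
      have hφ : Cfsg.conjHom (Subgroup.zpowers q) g ∈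
          (Cfsg.groupFusionSystem (S : Subgroup G)).Hom (Subgroup.zpowers q) := by
        refine ⟨hPS, ?_, g, fun x => rfl⟩
        rintro ⟨x, hx⟩
        obtain ⟨k, rfl⟩ := Subgroup.mem_zpowers_iff.mp hx
        show g * q ^ k * g⁻¹ ∈ (S : Subgroup G)
        have e : g * q ^ k * g⁻¹ = (g * q * g⁻¹) ^ k := by rw [conj_zpow]
        rw [e]; exact Subgroup.zpow_mem _ hg k
      obtain ⟨ψ, hψ, h1, h2⟩ := hQc _ _ hφ
      have e1 := h1 ⟨q, Subgroup.mem_zpowers q⟩
      have e2 := h2 ⟨q, hq⟩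
      have e3 : (Subgroup.inclusion le_sup_left ⟨q, Subgroup.mem_zpowers q⟩ :
          ↥(Subgroup.zpowers q ⊔ Q)) = Subgroup.inclusion le_sup_right ⟨q, hq⟩ := rfl
      rw [e3, e2] at e1
      exact e1.symm
    intro q hq
    refine ⟨hQS hq, ?_⟩
    show q ∈ (Subgroup.center (G ⧸ Cfsg.oddCore G)).comap (QuotientGroup.mk' (Cfsg.oddCore G))
    rw [Subgroup.mem_comap, Subgroup.mem_center_iff]
    intro y
    obtain ⟨g, rfl⟩ := QuotientGroup.mk_surjective y
    have h := iso_central S Q hQS hiso q hq g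
    have h1 : (QuotientGroup.mk' (Cfsg.oddCore G)) (q * g * q⁻¹ * g⁻¹) = 1 :=
      (QuotientGroup.eq_one_iff _).mpr h
    show (QuotientGroup.mk' (Cfsg.oddCore G)) g * (QuotientGroup.mk' (Cfsg.oddCore G)) q =
      (QuotientGroup.mk' (Cfsg.oddCore G)) q * (QuotientGroup.mk' (Cfsg.oddCore G)) g
    rw [map_mul, map_mul, map_mul, map_inv, map_inv] at h1
    calc (QuotientGroup.mk' (Cfsg.oddCore G)) g * (QuotientGroup.mk' (Cfsg.oddCore G)) q
        = ((QuotientGroup.mk' (Cfsg.oddCore G)) q * (QuotientGroup.mk' (Cfsg.oddCore G)) g *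
          ((QuotientGroup.mk' (Cfsg.oddCore G)) q)⁻¹ *
          ((QuotientGroup.mk' (Cfsg.oddCore G)) g)⁻¹)⁻¹ *
          ((QuotientGroup.mk' (Cfsg.oddCore G)) q * (QuotientGroup.mk' (Cfsg.oddCore G)) g) := by
          group
      _ = _ := by rw [h1, inv_one, one_mul]
  · apply le_sSup
    refine ⟨inf_le_left, ?_⟩
    intro P φ hφ
    obtain ⟨hPS, hφS, g, hg⟩ := hφ
    obtain ⟨Q₀, hQ₀⟩ : ∃ Q₀, Q₀ = (S : Subgroup G) ⊓ (Subgroup.center (G ⧸ Cfsg.oddCore G)).comap
      (QuotientGroup.mk' (Cfsg.oddCore G)) := ⟨_, rfl⟩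
    rw [← hQ₀]
    have hQ₀S : Q₀ ≤ (S : Subgroup G) := by rw [hQ₀]; exact inf_le_left
    have hQ₀c : ∀ q ∈ Q₀, ∀ h : G, h * q * h⁻¹ * q⁻¹ ∈ Cfsg.pPrimeCore 2 G := by
      intro q hq h
      rw [hQ₀] at hq
      exact comm_mem_of_central (Cfsg.pPrimeCore 2 G) hq.2 h
    have hRS : P ⊔ Q₀ ≤ (S : Subgroup G) := sup_le hPS hQ₀S
    have hT : IsPGroup 2 ((P ⊔ Q₀).map (MulAut.conj g).toMonoidHom) :=
      (S.isPGroup'.to_le hRS).map _
    have hTle : (P ⊔ Q₀).map (MulAut.conj g).toMonoidHom ≤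
        (S : Subgroup G) ⊔ Cfsg.pPrimeCore 2 G := by
      rw [Subgroup.map_sup]
      apply sup_le
      · rintro _ ⟨x, hx, rfl⟩
        have := hφS ⟨x, hx⟩
        rw [hg] at this
        exact le_sup_left (a := (S : Subgroup G)) this
      · rintro _ ⟨q, hq, rfl⟩
        have e : (MulAut.conj g).toMonoidHom q = (g * q * g⁻¹ * q⁻¹) * q := by
          show g * q * g⁻¹ = _
          group
        rw [e]
        exact Subgroup.mul_mem _ (le_sup_right (a := (S : Subgroup G)) (hQ₀c q hq g))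
          (le_sup_left (a := (S : Subgroup G)) (hQ₀S hq))
    obtain ⟨a, ha, hax⟩ := conj_into S (Cfsg.pPrimeCore 2 G) _ hT hTle
    have hψS : ∀ x : ↥(P ⊔ Q₀), a * g * (x : G) * (a * g)⁻¹ ∈ (S : Subgroup G) := by
      intro x
      have := hax (g * (x : G) * g⁻¹) ⟨x, x.2, rfl⟩
      have e : a * g * (x : G) * (a * g)⁻¹ = a * (g * (x : G) * g⁻¹) * a⁻¹ := by group
      rw [e]; exact this
    refine ⟨Cfsg.conjHom (P ⊔ Q₀) (a * g), ⟨hRS, hψS, a * g, fun x => rfl⟩, ?_, ?_⟩
    · intro x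
      show a * g * (x : G) * (a * g)⁻¹ = φ x
      rw [hg]
      have h1 : g * (x : G) * g⁻¹ ∈ (S : Subgroup G) := by rw [← hg]; exact hφS x
      have h2 := hψS (Subgroup.inclusion le_sup_left x)
      have h3 : a * g * (x : G) * (a * g)⁻¹ * (g * (x : G) * g⁻¹)⁻¹ = 1 := by
        apply sylow_inf_core S
        · exact (S : Subgroup G).mul_mem h2 ((S : Subgroup G).inv_mem h1)
        · have e : a * g * (x : G) * (a * g)⁻¹ * (g * (x : G) * g⁻¹)⁻¹ =
              a * ((g * (x : G) * g⁻¹) * a⁻¹ * (g * (x : G) * g⁻¹)⁻¹) := by group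
          rw [e]
          exact Subgroup.mul_mem _ ha (hOn.conj_mem _ (Subgroup.inv_mem _ ha) _)
      exact mul_inv_eq_one.mp h3
    · intro x
      show a * g * (x : G) * (a * g)⁻¹ = x
      have h2 := hψS (Subgroup.inclusion le_sup_right x)
      have h3 : a * g * (x : G) * (a * g)⁻¹ * (x : G)⁻¹ = 1 := by
        apply sylow_inf_core S
        · exact (S : Subgroup G).mul_mem h2 ((S : Subgroup G).inv_mem (hQ₀S x.2))
        · exact hQ₀c x x.2 (a * g)
      exact mul_inv_eq_one.mp h3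

end Cfsg.Agent.S5094
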