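import Cfsg.Statements.S5100
import Cfsg.Agent.Lib.helper25.SubgroupFusion

set_option autoImplicit false
open Cfsg

namespace Cfsg.Agent.S5100

/-- In the fusion system of a finite group G on a Sylow p-subgroup S, a subgroup P ≤ S is fully normalized if and only if N_S(P) is a Sylow p-subgroup of N_G(P). -/
theorem result {G : Type*} [Group G] [Finite G] (p : ℕ) [Fact p.Prime] (S : Sylow p G) (P : Subgroup G) (hP : P ≤ S) : (Cfsg.groupFusionSystem (S : Subgroup G)).IsFullyNormalized P ↔ ∃ R : Sylow p ↥(Subgroup.normalizer (P : Set G)), (R : Subgroup ↥(Subgroup.normalizer (P : Set G))) = (Cfsg.FusionSystem.normalizerIn (S : Subgroup G) P).subgroupOf (Subgroup.normalizer (P : Set G)) := by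
  have hT : Nat.card (S : Subgroup G) = p ^ (Nat.card (⊤ : Subgroup G)).factorization p := by
    rw [Subgroup.card_top]
    exact S.card_eq_multiplicity
  rw [Cfsg.Agent.Lib.helper25.groupFusionSystem_eq,
    Cfsg.Agent.Lib.helper25.subFusion_fullyNormalized_iff le_top hT hP, top_inf_eq]
  exact (Cfsg.Agent.Lib.helper25.exists_sylow_subgroupOf_iff
    (K := Cfsg.FusionSystem.normalizerIn (S : Subgroup G) P) inf_le_right).symm

end Cfsg.Agent.S5100
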