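import Cfsg.Statements.S5102
import Cfsg.Agent.Lib.helper25.FusionBasic

set_option autoImplicit false
open Cfsg

namespace Cfsg.Agent.S5102

/-- A normal p-subgroup of a finite group G is normal in the fusion system of G on a Sylow p-subgroup. -/
theorem result {G : Type*} [Group G] [Finite G] (p : ℕ) [Fact p.Prime] (S : Sylow p G) (R : Subgroup G) [R.Normal] (hR : IsPGroup p R) : (Cfsg.groupFusionSystem (S : Subgroup G)).IsNormal R := by
  have hRS : R ≤ (S : Subgroup G) := hR.le_sylow_of_normal S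
  refine ⟨hRS, ?_⟩
  rintro P φ ⟨hPS, hφS, g, hg⟩
  have hval : ∀ y : ↥(P ⊔ R), g * (y : G) * g⁻¹ ∈ (S : Subgroup G) := by
    have hle : P ⊔ R ≤ (S : Subgroup G).comap (MulAut.conj g).toMonoidHom := by
      apply sup_le
      · intro x hx
        rw [Subgroup.mem_comap]
        have := hφS ⟨x, hx⟩
        rw [hg] at this
        exact this
      · intro x hx
        rw [Subgroup.mem_comap]
        exact hRS (‹R.Normal›.conj_mem x hx g)
    intro y
    exact hle y.2
  refine ⟨Cfsg.conjHom (P ⊔ R) g, ⟨sup_le hPS hRS, hval, g, fun x => rfl⟩, ?_, ?_⟩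
  · intro x
    rw [hg]
    rfl
  · ext y
    rw [Cfsg.Agent.Lib.helper25.mem_map_subgroupOf]
    constructor
    · rintro ⟨x, hx, rfl⟩
      exact ‹R.Normal›.conj_mem _ hx g
    · intro hy
      refine ⟨⟨g⁻¹ * y * g, Subgroup.mem_sup_right ?_⟩, ?_, ?_⟩
      · have := ‹R.Normal›.conj_mem y hy g⁻¹
        simpa using this
      · have := ‹R.Normal›.conj_mem y hy g⁻¹
        simpa using this
      · show g * (g⁻¹ * y * g) * g⁻¹ = y
        group

end Cfsg.Agent.S5102
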