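import Cfsg.Statements.S5104
-- import your own Cfsg.Agent.* helpers here

set_option autoImplicit false
open Cfsg

namespace Cfsg.Agent.S5104

/-- In a saturated fusion system over a finite p-group S, a fully centralized subgroup U with C_S(U) ≤ U is centric. -/
theorem result {Ω : Type*} [Group Ω] {S : Subgroup Ω} [Finite S] (p : ℕ) [Fact p.Prime] (hS : IsPGroup p S) (F : Cfsg.FusionSystem S) (hF : F.IsSaturated p) (U : Subgroup Ω) (hU : F.IsFullyCentralized U) (hC : Cfsg.FusionSystem.centralizerIn S U ≤ U) : F.IsCentric U := by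
  obtain ⟨hUS, hfc⟩ := hU
  refine ⟨hUS, ?_⟩
  intro Q hQ
  have hcard := hfc Q hQ
  obtain ⟨φ, hφ, hrange⟩ := hQ
  have hφS := (F.le_of_mem hφ).2
  have hinj := F.injective_of_mem hφ
  have hQS : Q ≤ S := by
    rw [← hrange]
    rintro _ ⟨x, rfl⟩
    exact hφS x
  have hfinS : ∀ H : Subgroup Ω, H ≤ S → Finite ↥H := fun H hH =>
    Finite.of_injective (Subgroup.inclusion hH) (Subgroup.inclusion_injective hH)
  have hZQ_le : Q ⊓ Subgroup.centralizer (Q : Set Ω) ≤ Cfsg.FusionSystem.centralizerIn S Q := by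
    intro x hx
    exact Subgroup.mem_inf.mpr ⟨hQS (Subgroup.mem_inf.mp hx).1, (Subgroup.mem_inf.mp hx).2⟩
  have hCU_le : Cfsg.FusionSystem.centralizerIn S U ≤ U ⊓ Subgroup.centralizer (U : Set Ω) := by
    intro x hx
    exact Subgroup.mem_inf.mpr ⟨hC hx, (Subgroup.mem_inf.mp hx).2⟩
  have hfinCQ : Finite ↥(Cfsg.FusionSystem.centralizerIn S Q) := hfinS _ inf_le_left
  have hfinZU : Finite ↥(U ⊓ Subgroup.centralizer (U : Set Ω)) := hfinS _ (inf_le_left.trans hUS)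
  have hfinZQ : Finite ↥(Q ⊓ Subgroup.centralizer (Q : Set Ω)) := hfinS _ (inf_le_left.trans hQS)
  have hmap : ∀ z : ↥(U ⊓ Subgroup.centralizer (U : Set Ω)),
      φ ⟨(z : Ω), z.2.1⟩ ∈ Q ⊓ Subgroup.centralizer (Q : Set Ω) := by
    intro z
    refine Subgroup.mem_inf.mpr ⟨?_, ?_⟩
    · rw [← hrange]
      exact ⟨_, rfl⟩
    · rw [Subgroup.mem_centralizer_iff]
      intro y hy
      rw [← hrange] at hy
      obtain ⟨u, rfl⟩ := hy
      have hzu : (u : Ω) * (z : Ω) = (z : Ω) * (u : Ω) := by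
        have := (Subgroup.mem_inf.mp z.2).2
        rw [Subgroup.mem_centralizer_iff] at this
        exact this u u.2
      have : u * (⟨(z : Ω), z.2.1⟩ : ↥U) = (⟨(z : Ω), z.2.1⟩ : ↥U) * u := Subtype.ext hzu
      rw [← map_mul, ← map_mul, this]
  have h1 : Nat.card ↥(U ⊓ Subgroup.centralizer (U : Set Ω)) ≤
      Nat.card ↥(Q ⊓ Subgroup.centralizer (Q : Set Ω)) := by
    refine Nat.card_le_card_of_injective (fun z => ⟨φ ⟨(z : Ω), z.2.1⟩, hmap z⟩) ?_
    intro z z' hzz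
    have h2 : φ ⟨(z : Ω), z.2.1⟩ = φ ⟨(z' : Ω), z'.2.1⟩ := congrArg Subtype.val hzz
    have h3 := hinj h2
    exact Subtype.ext (congrArg (fun t : ↥U => (t : Ω)) h3)
  have h2 : Nat.card ↥(Cfsg.FusionSystem.centralizerIn S U) ≤
      Nat.card ↥(U ⊓ Subgroup.centralizer (U : Set Ω)) := Subgroup.card_le_of_le hCU_le
  have h3 : Nat.card ↥(Cfsg.FusionSystem.centralizerIn S Q) ≤
      Nat.card ↥(Q ⊓ Subgroup.centralizer (Q : Set Ω)) := le_trans hcard (le_trans h2 h1)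
  have heq := Subgroup.eq_of_le_of_card_ge hZQ_le h3
  rw [← heq]
  exact inf_le_left

end Cfsg.Agent.S5104
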