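import Cfsg.Statements.S5105
import Cfsg.Agent.Lib.helper10.Cocycle
import Cfsg.Agent.Lib.helper26.Centric

set_option autoImplicit false
open Cfsg

namespace Cfsg.Agent.S5105

/-- Model Theorem, rigidity: if G is a model of a constrained fusion system over a finite p-group S (through ι : S → G), then every automorphism of G fixing ι(S) elementwise is conjugation by ι(z) for some z in the centre of S. -/
theorem result {Ω : Type*} [Group Ω] {S : Subgroup Ω} [Finite S] (p : ℕ) [Fact p.Prime] (hS : IsPGroup p S) (F : Cfsg.FusionSystem S) (hF : F.IsConstrained p) {G : Type*} [Group G] (ι : S →* G) (hG : F.IsModel p G ι) (ψ : G ≃* G) (hψ : ∀ x : S, ψ (ι x) = ι x) : ∃ z : S, z ∈ Subgroup.center S ∧ ∀ g : G, ψ g = ι z * g * (ι z)⁻¹ := by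
  obtain ⟨hfin, hr, ⟨T, hT⟩, hC⟩ := hG
  have hι := hr.1
  have hO : pCore p G ≤ ι.range := hT ▸ Cfsg.Agent.Lib.helper26.pCore_le_sylow T
  have hOn : (pCore p G).Normal := Cfsg.Agent.Lib.helper26.pCore_normal p G
  have hψO : ∀ q ∈ pCore p G, ψ q = q := by
    intro q hq
    obtain ⟨s, rfl⟩ := hO hq
    exact hψ s
  have hcomm : IsMulCommutative ↥(Subgroup.centralizer ((pCore p G : Subgroup G) : Set G)) := by
    refine ⟨⟨fun a b => ?_⟩⟩
    apply Subtype.ext
    have h1 := Subgroup.mem_centralizer_iff.1 a.2 (b : G) (hC b.2)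
    exact h1.symm
  have hZn : ∀ g : G, ∀ z ∈ Subgroup.centralizer ((pCore p G : Subgroup G) : Set G),
      g * z * g⁻¹ ∈ Subgroup.centralizer ((pCore p G : Subgroup G) : Set G) := by
    intro g z hz
    rw [Subgroup.mem_centralizer_iff]
    intro q hq
    have h1 : g⁻¹ * q * g ∈ pCore p G := by
      have h2 := hOn.conj_mem _ hq g⁻¹
      simpa using h2
    have h3 := Subgroup.mem_centralizer_iff.1 hz _ h1
    calc q * (g * z * g⁻¹) = g * ((g⁻¹ * q * g) * z) * g⁻¹ := by group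
      _ = g * (z * (g⁻¹ * q * g)) * g⁻¹ := by rw [h3]
      _ = g * z * g⁻¹ * q := by group
  have hZp : IsPGroup p ↥(Subgroup.centralizer ((pCore p G : Subgroup G) : Set G)) :=
    T.isPGroup'.to_le (hC.trans (Cfsg.Agent.Lib.helper26.pCore_le_sylow T))
  have hidx : ¬ p ∣ (T : Subgroup G).index := T.not_dvd_index
  have hε : ∀ g : G, ψ g * g⁻¹ ∈ Subgroup.centralizer ((pCore p G : Subgroup G) : Set G) := by
    intro g
    rw [Subgroup.mem_centralizer_iff]
    intro q hq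
    have h1 : g⁻¹ * q * g ∈ pCore p G := by
      have h2 := hOn.conj_mem _ hq g⁻¹
      simpa using h2
    have h3 := hψO _ h1
    rw [map_mul, map_mul, hψO q hq, map_inv] at h3
    calc q * (ψ g * g⁻¹) = ψ g * ((ψ g)⁻¹ * q * ψ g) * g⁻¹ := by group
      _ = ψ g * (g⁻¹ * q * g) * g⁻¹ := by rw [h3]
      _ = ψ g * g⁻¹ * q := by group
  have hεT : ∀ g : G, ∀ t ∈ (T : Subgroup G), ψ (g * t) * (g * t)⁻¹ = ψ g * g⁻¹ := by
    intro g t ht
    rw [hT] at ht
    obtain ⟨s, rfl⟩ := ht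
    rw [map_mul, hψ s]
    group
  have hεmul : ∀ h g : G, ψ (h * g) * (h * g)⁻¹ = ψ h * h⁻¹ * (h * (ψ g * g⁻¹) * h⁻¹) := by
    intro h g
    rw [map_mul]
    group
  obtain ⟨u, hu, huψ⟩ := Cfsg.Agent.Lib.helper10.cocycle_split
    (Subgroup.centralizer ((pCore p G : Subgroup G) : Set G)) (T : Subgroup G) hZn hZp hidx
    (fun g => ψ g * g⁻¹) hε hεT hεmul
  obtain ⟨z, rfl⟩ := hO (hC hu)
  have hconj : ∀ g : G, ψ g = ι z * g * (ι z)⁻¹ := by
    intro g
    have h1 := huψ g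
    calc ψ g = ψ g * g⁻¹ * g := by group
      _ = ι z * (g * (ι z)⁻¹ * g⁻¹) * g := by rw [h1]
      _ = ι z * g * (ι z)⁻¹ := by group
  refine ⟨z, ?_, hconj⟩
  rw [Subgroup.mem_center_iff]
  intro s
  apply hι
  have h1 := hconj (ι s)
  rw [hψ s] at h1
  rw [map_mul, map_mul]
  calc ι s * ι z = ι z * ι s * (ι z)⁻¹ * ι z := by rw [← h1]
    _ = ι z * ι s := by group

end Cfsg.Agent.S5105
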