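import Cfsg.Statements.S5107
import Cfsg.Agent.Lib.helper25.FusionStab
import Cfsg.Agent.Lib.helper25.SubgroupFusion

set_option autoImplicit false
open Cfsg

namespace Cfsg.Agent.S5107


open Cfsg.FusionSystem
open scoped commutatorElement

/-- If a Sylow p-subgroup S of a finite group G has nilpotency class at most two and its centre is strongly closed in S with respect to G, then every map of the fusion system of G on S is conjugation by an element of N_G(S), and S is the largest subgroup normal in that fusion system. -/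
theorem result {G : Type*} [Group G] [Finite G] (p : ℕ) [Fact p.Prime] (S : Sylow p G) (hcl : ⁅(S : Subgroup G), (S : Subgroup G)⁆ ≤ (S : Subgroup G) ⊓ Subgroup.centralizer ((S : Subgroup G) : Set G)) (hZ : Cfsg.IsStronglyClosed ((S : Subgroup G) ⊓ Subgroup.centralizer ((S : Subgroup G) : Set G)) (S : Subgroup G)) : (∀ (P : Subgroup G) (φ : P →* G), φ ∈ (Cfsg.groupFusionSystem (S : Subgroup G)).Hom P → ∃ g ∈ Subgroup.normalizer ((S : Subgroup G) : Set G), ∀ x : P, φ x = g * (x : G) * g⁻¹) ∧ (Cfsg.groupFusionSystem (S : Subgroup G)).core = S := by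
  have hSp : IsPGroup p (S : Subgroup G) := S.isPGroup'
  have hF := Cfsg.Agent.Lib.helper25.groupFusion_saturated S
  have hscS : (Cfsg.groupFusionSystem (S : Subgroup G)).StronglyClosed (S : Subgroup G) :=
    ⟨le_rfl, fun R hR φ hφ x => ((Cfsg.groupFusionSystem (S : Subgroup G)).le_of_mem hφ).2 x⟩
  have hscZ : (Cfsg.groupFusionSystem (S : Subgroup G)).StronglyClosed
      ((S : Subgroup G) ⊓ Subgroup.centralizer ((S : Subgroup G) : Set G)) := by
    refine ⟨hZ.1, fun R hR φ hφ x => ?_⟩
    obtain ⟨-, hφS, g, hg⟩ := hφ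
    have h1 := hZ.2 x (hR x.2) g (by rw [← hg]; exact hφS x)
    rw [hg]
    exact h1
  have hnorm : (Cfsg.groupFusionSystem (S : Subgroup G)).IsNormal (S : Subgroup G) := by
    apply Cfsg.Agent.Lib.helper25.isNormal_of_stronglyClosed_of_mem hSp _ hF hscS
    intro P hcen hrad t htS htN
    have hPS : P ≤ (S : Subgroup G) := hcen.1
    have hinvZ : ∀ β ∈ (Cfsg.groupFusionSystem (S : Subgroup G)).autGroup P, ∀ x : P,
        (x : G) ∈ (S : Subgroup G) ⊓ Subgroup.centralizer ((S : Subgroup G) : Set G) →
        ((β x : P) : G) ∈ (S : Subgroup G) ⊓ Subgroup.centralizer ((S : Subgroup G) : Set G) :=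
      fun β hβ x hx => Cfsg.Agent.Lib.helper26.stronglyClosed_aut_mem _ hscZ
        ((Cfsg.Agent.Lib.helper26.mem_autGroup_iff _ hPS β).1 hβ) hx
    let K : Subgroup ((Cfsg.groupFusionSystem (S : Subgroup G)).autGroup P) :=
      { carrier := {a | ∀ x : P,
          (x : G) ∈ (S : Subgroup G) ⊓ Subgroup.centralizer ((S : Subgroup G) : Set G) →
          (a : MulAut P) x = x}
        mul_mem' := by
          intro a b ha hb x hx
          rw [Subgroup.coe_mul, MulAut.mul_apply, hb x hx, ha x hx]
        one_mem' := fun x _ => rfl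
        inv_mem' := by
          intro a ha x hx
          have h1 := ha x hx
          rw [Subgroup.coe_inv, MulAut.inv_apply, MulEquiv.symm_apply_eq]
          exact h1.symm }
    have hKmem : ∀ a : (Cfsg.groupFusionSystem (S : Subgroup G)).autGroup P, a ∈ K ↔ ∀ x : P,
          (x : G) ∈ (S : Subgroup G) ⊓ Subgroup.centralizer ((S : Subgroup G) : Set G) →
          (a : MulAut P) x = x := fun a => Iff.rfl
    have hKn : K.Normal := by
      constructor
      intro a ha c
      rw [hKmem] at ha ⊢
      intro x hx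
      have h1 := hinvZ _ (c⁻¹).2 x hx
      have h2 := ha _ h1
      show (c : MulAut P) ((a : MulAut P) (((c⁻¹ : (Cfsg.groupFusionSystem (S : Subgroup G)).autGroup P) : MulAut P) x)) = x
      rw [h2]
      simp
    let D : ℕ → Subgroup G := fun i =>
      if i = 0 then (S : Subgroup G) ⊓ Subgroup.centralizer ((S : Subgroup G) : Set G) else ⊤
    have hD0 : D 0 = (S : Subgroup G) ⊓ Subgroup.centralizer ((S : Subgroup G) : Set G) := if_pos rfl
    have hD1 : D 1 = ⊤ := if_neg one_ne_zero
    refine Cfsg.Agent.Lib.helper25.mem_of_stab_chain hSp _ hcen hrad 1 D K hKn ?_ ?_ ?_ htN ?_ ?_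
    · intro a ha m _ _ x hx
      rw [hD0] at hx
      exact ha x hx
    · intro x
      rw [hD1]
      exact Subgroup.mem_top _
    · intro i β hβ x hx
      by_cases hi : i = 0
      · subst hi
        rw [hD0] at hx ⊢
        exact hinvZ β hβ x hx
      · have : D i = ⊤ := if_neg hi
        rw [this]
        exact Subgroup.mem_top _
    · intro h
      rw [hKmem]
      intro x hx
      apply Subtype.ext
      show t * (x : G) * t⁻¹ = x
      have h1 := Subgroup.mem_centralizer_iff.1 hx.2 t htS
      rw [h1]
      group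
    · intro i hi x _
      have hi0 : i = 0 := by omega
      subst hi0
      rw [hD0]
      apply hcl
      have h1 : (x : G)⁻¹ * (t * x * t⁻¹) = ⁅(x : G)⁻¹, t⁆ := by
        rw [commutatorElement_def]
        group
      rw [h1]
      exact Subgroup.commutator_mem_commutator ((S : Subgroup G).inv_mem (hPS x.2)) htS
  constructor
  · intro P φ hφ
    have hPS : P ≤ (S : Subgroup G) := ((Cfsg.groupFusionSystem (S : Subgroup G)).le_of_mem hφ).1
    obtain ⟨e, he, hex⟩ := Cfsg.Agent.Lib.helper25.exists_aut_of_isNormal _ hnorm hPS hφ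
    obtain ⟨-, -, g, hg⟩ := (Cfsg.Agent.Lib.helper26.mem_autGroup_iff _ le_rfl e).1 he
    have hg' : ∀ y : (S : Subgroup G), ((e y : (S : Subgroup G)) : G) = g * (y : G) * g⁻¹ := hg
    refine ⟨g, ?_, fun x => ?_⟩
    · rw [Subgroup.mem_normalizer_iff]
      intro h
      constructor
      · intro hh
        have h1 := hg' ⟨h, hh⟩
        rw [← h1]
        exact (e _).2
      · intro hh
        have h1 := hg' (e.symm ⟨g * h * g⁻¹, hh⟩)
        rw [MulEquiv.apply_symm_apply] at h1
        have h2 : h = ((e.symm ⟨g * h * g⁻¹, hh⟩ : (S : Subgroup G)) : G) := by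
          have h3 : g * h * g⁻¹ = g * ((e.symm ⟨g * h * g⁻¹, hh⟩ : (S : Subgroup G)) : G) * g⁻¹ := h1
          exact mul_left_cancel (mul_right_cancel h3)
        rw [h2]
        exact (e.symm _).2
    · rw [← hex x]
      exact hg' _
  · apply le_antisymm
    · apply sSup_le
      intro Q hQ
      exact hQ.1
    · exact le_sSup hnorm

end Cfsg.Agent.S5107
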