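import Cfsg.Statements.S5114
import Cfsg.Agent.Lib.helper7.PPrimeIdx
import Cfsg.Agent.Lib.helper9.StrEmb

set_option autoImplicit false
open Cfsg

namespace Cfsg.Agent.S5114

open Cfsg.FusionSystem Cfsg.Agent.Lib.helper26 Cfsg.Agent.Lib.helper7.PPrimeIdx

/-- Let F be a saturated fusion system over a finite p-group S and E a fusion system over S contained in F. If Aut_E(P) contains the subgroup of Aut_F(P) generated by its elements of p-power order for every subgroup P that is centric in F, then the same holds for every subgroup of S (E has index prime to p in F), every map of F with source a subgroup P of S is an element of Aut_F(S) composed with a map of E, and a subgroup is centric in E exactly when it is centric in F. -/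
theorem result {Ω : Type*} [Group Ω] {S : Subgroup Ω} [Finite S] (p : ℕ) [Fact p.Prime] (hS : IsPGroup p S) (F : Cfsg.FusionSystem S) (hF : F.IsSaturated p) (E : Cfsg.FusionSystem S) (hEF : E.IsSubsystemOf F) (h : ∀ P : Subgroup Ω, F.IsCentric P → (Subgroup.closure {α : ↥(F.autGroup P) | ∃ k : ℕ, orderOf α = p ^ k}).map (F.autGroup P).subtype ≤ E.autGroup P) : E.HasPrimeToPIndexIn F p ∧ (∀ (P : Subgroup Ω) (φ : P →* Ω), φ ∈ F.Hom P → ∃ α ∈ F.autGroup S, ∃ φ₀ ∈ E.Hom P, ∀ (x : P) (hx : φ₀ x ∈ S), φ x = ((α ⟨φ₀ x, hx⟩ : S) : Ω)) ∧ ∀ P : Subgroup Ω, E.IsCentric P ↔ F.IsCentric P := by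
  classical
  have hdec := dec_all hS F hF E h
  have hA : ∀ (P : Subgroup Ω) (φ : P →* Ω), φ ∈ F.Hom P → ∃ α ∈ F.autGroup S,
      ∃ φ₀ ∈ E.Hom P, ∀ x : P, ∃ hx : φ₀ x ∈ S, φ x = ((α ⟨φ₀ x, hx⟩ : S) : Ω) := by
    intro P φ hφ
    have hP := (F.le_of_mem hφ).1
    obtain ⟨α', hα', φ₀, hφ₀, hx⟩ := hdec P φ hφ 1 (Subgroup.one_mem _) P hP (fun y => y.2)
    exact ⟨α', hα', φ₀, hφ₀, fun x => hx x⟩
  refine ⟨⟨hEF, fun P hP => ?_⟩, fun P φ hφ => ?_, fun P => ⟨fun hc => ?_, fun hc => ?_⟩⟩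
  · -- index prime to p
    rw [Subgroup.map_le_iff_le_comap, Subgroup.closure_le]
    rintro γ ⟨k, hk⟩
    show (γ : MulAut P) ∈ E.autGroup P
    rw [mem_autGroup_iff E hP]
    obtain ⟨Q, hconj, ⟨hQS, R, hR⟩, -⟩ := hF P hP
    obtain ⟨e₁, he₁⟩ := (isConj_iff_exists_iso F).1 hconj
    have hγ'A := he₁.congr_mem γ.2
    haveI : Finite Q := finite_of_le hQS
    haveI : Finite (MulAut Q) := Finite.of_injective (fun e : MulAut Q => (e : Q → Q))
      (fun a b hab => MulEquiv.ext (congrFun hab))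
    have hpg : IsPGroup p (Subgroup.zpowers (⟨_, hγ'A⟩ : F.autGroup Q)) := by
      apply IsPGroup.of_card (n := k)
      rw [Nat.card_zpowers, Subgroup.orderOf_mk, MulEquiv.orderOf_eq, Subgroup.orderOf_coe, hk]
    obtain ⟨R', hR'⟩ := hpg.exists_le_sylow
    obtain ⟨χ, hχ⟩ := MulAction.exists_smul_eq (F.autGroup Q) R' R
    have h1 : χ * ⟨_, hγ'A⟩ * χ⁻¹ ∈ (R : Subgroup (F.autGroup Q)) :=
      Cfsg.Agent.Lib.helper9.sylow_smul_mem' χ R' R hχ _ (hR' (Subgroup.mem_zpowers _))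
    rw [hR] at h1
    obtain ⟨g, hg, hgx⟩ := (mem_autInducedBy_iff _ _ _).1 (Subgroup.mem_subgroupOf.1 h1)
    obtain ⟨ψ, hψdef⟩ : ∃ ψ : P →* Ω,
        ψ = Q.subtype.comp ((χ : MulAut Q).toMonoidHom.comp e₁.toMonoidHom) := ⟨_, rfl⟩
    have hψ : ψ ∈ F.Hom P := by
      rw [hψdef]
      exact comp_mem' F he₁ ((mem_autGroup_iff F hQS _).1 χ.2) (fun x => (e₁ x).2) _
        (fun x => rfl)
    have hψγ : ∀ x : P, ψ ((γ : MulAut P) x) = g * ψ x * g⁻¹ := by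
      intro x
      have h2 := hgx ((χ : MulAut Q) (e₁ x))
      rw [hψdef]
      show (((χ : MulAut Q) (e₁ ((γ : MulAut P) x)) : Q) : Ω) =
        g * (((χ : MulAut Q) (e₁ x) : Q) : Ω) * g⁻¹
      rw [← h2]
      show _ = ((((χ : MulAut Q) * MulAut.congr e₁ (γ : MulAut P) * (χ : MulAut Q)⁻¹)
        ((χ : MulAut Q) (e₁ x)) : Q) : Ω)
      rw [MulAut.mul_apply, MulAut.mul_apply, MulAut.inv_apply_self]
      show _ = (((χ : MulAut Q) (e₁ ((γ : MulAut P) (e₁.symm (e₁ x)))) : Q) : Ω)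
      rw [MulEquiv.symm_apply_apply]
    obtain ⟨α', hα', φ₀, hφ₀, hx⟩ := hA P ψ hψ
    have hφ₀S : ∀ x : P, φ₀ x ∈ S := (E.le_of_mem hφ₀).2
    obtain ⟨g', hg'⟩ : ∃ g' : S, g' = α'.symm ⟨g, hg⟩ := ⟨_, rfl⟩
    have key : ∀ x : P, φ₀ ((γ : MulAut P) x) = (g' : Ω) * φ₀ x * (g' : Ω)⁻¹ := by
      intro x
      obtain ⟨h3, e3⟩ := hx ((γ : MulAut P) x)
      obtain ⟨h4, e4⟩ := hx x
      have h5 := hψγ x
      rw [e3, e4] at h5
      have h6 : α' ⟨φ₀ ((γ : MulAut P) x), h3⟩ = α' (g' * ⟨φ₀ x, h4⟩ * g'⁻¹) := by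
        apply Subtype.ext
        rw [h5, map_mul, map_mul, map_inv, hg', MulEquiv.apply_symm_apply]
        rfl
      have h7 := α'.injective h6
      exact congrArg Subtype.val h7
    have hrS : φ₀.range ≤ S := by
      rintro _ ⟨y, rfl⟩
      exact hφ₀S y
    obtain ⟨φ₀i, hφ₀i, hinv, -⟩ := Cfsg.Agent.Lib.helper25.exists_inv E hφ₀ rfl
    have hc := E.conj_mem (P := φ₀.range) (g := (g' : Ω)) hrS g'.2
    have hcr : ∀ z : φ₀.range, conjHom φ₀.range (g' : Ω) z ∈ φ₀.range := by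
      rintro ⟨_, x, rfl⟩
      exact ⟨(γ : MulAut P) x, key x⟩
    refine comp_mem' E hφ₀ (E.comp_mem hc hφ₀i hcr) (fun x => ⟨x, rfl⟩)
      (P.subtype.comp (γ : MulAut P).toMonoidHom) (fun x => ?_)
    have h8 := hinv ((γ : MulAut P) x) ⟨_, rfl⟩
    show (((γ : MulAut P) x : P) : Ω) = φ₀i ⟨(g' : Ω) * φ₀ x * (g' : Ω)⁻¹, _⟩
    rw [← h8]
    congr 1
    apply Subtype.ext
    exact key x
  · -- decomposition
    obtain ⟨α', hα', φ₀, hφ₀, hx⟩ := hA P φ hφ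
    refine ⟨α', hα', φ₀, hφ₀, fun x hx' => ?_⟩
    obtain ⟨h3, e3⟩ := hx x
    exact e3
  · -- E-centric implies F-centric
    refine ⟨hc.1, fun Q hQ => ?_⟩
    obtain ⟨φ, hφ, hr⟩ := hQ
    obtain ⟨α', hα', φ₀, hφ₀, hx⟩ := hA P φ hφ
    have hφ₀S : ∀ x : P, φ₀ x ∈ S := (E.le_of_mem hφ₀).2
    have h0 := hc.2 φ₀.range ⟨φ₀, hφ₀, rfl⟩
    intro c hcQ
    have hcS : c ∈ S := hcQ.1
    have hcc : c ∈ Subgroup.centralizer (Q : Set Ω) := hcQ.2
    rw [Subgroup.mem_centralizer_iff] at hcc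
    have h1 : ((α'.symm ⟨c, hcS⟩ : S) : Ω) ∈ centralizerIn S φ₀.range := by
      refine ⟨(α'.symm ⟨c, hcS⟩).2, ?_⟩
      show _ ∈ Subgroup.centralizer (φ₀.range : Set Ω)
      rw [Subgroup.mem_centralizer_iff]
      rintro _ ⟨x, rfl⟩
      obtain ⟨h3, e3⟩ := hx x
      have h4 : φ x ∈ Q := by rw [← hr]; exact ⟨x, rfl⟩
      have h5 := hcc (φ x) h4
      rw [e3] at h5
      have h6 : α' (⟨φ₀ x, h3⟩ * α'.symm ⟨c, hcS⟩) = α' (α'.symm ⟨c, hcS⟩ * ⟨φ₀ x, h3⟩) := by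
        rw [map_mul, map_mul, MulEquiv.apply_symm_apply]
        exact Subtype.ext h5
      exact congrArg Subtype.val (α'.injective h6)
    obtain ⟨x₀, hx₀⟩ := h0 h1
    obtain ⟨h3, e3⟩ := hx x₀
    rw [← hr]
    refine ⟨x₀, ?_⟩
    rw [e3]
    have h7 : (⟨φ₀ x₀, h3⟩ : S) = α'.symm ⟨c, hcS⟩ := Subtype.ext hx₀
    rw [h7, MulEquiv.apply_symm_apply]
  · -- F-centric implies E-centric
    refine ⟨hc.1, fun Q hQ => hc.2 Q ?_⟩
    obtain ⟨φ, hφ, hr⟩ := hQ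
    exact ⟨φ, hEF P hφ, hr⟩

end Cfsg.Agent.S5114
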