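import Cfsg.Statements.S5128
import Cfsg.Agent.Lib.helper25.FusionQuot

set_option autoImplicit false
open Cfsg

namespace Cfsg.Agent.S5128

/-- In a saturated fusion system over a finite p-group S, the product of two strongly closed subgroups is strongly closed. -/
theorem result {Ω : Type*} [Group Ω] {S : Subgroup Ω} [Finite S] (p : ℕ) [Fact p.Prime] (hS : IsPGroup p S) (F : Cfsg.FusionSystem S) (hF : F.IsSaturated p) (T₁ T₂ : Subgroup Ω) (h₁ : F.StronglyClosed T₁) (h₂ : F.StronglyClosed T₂) : F.StronglyClosed (T₁ ⊔ T₂) := by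
  refine ⟨sup_le h₁.1 h₂.1, fun R hR φ hφ x => ?_⟩
  obtain ⟨ψ, hψ, hmod⟩ := Cfsg.Agent.Lib.helper25.modExt_of_stronglyClosed hS F hF h₁ R φ hφ
  have hx : (x : Ω) ∈ T₁ ⊔ T₂ := hR x.2
  obtain ⟨t₁, ht₁, t₂, ht₂, hxt⟩ := Cfsg.Agent.Lib.helper26.mem_sup_of_normalizes (H := T₁) (K := T₂)
    (fun k hk h hh => Cfsg.Agent.Lib.helper26.stronglyClosed_conj_mem F h₁ (h₂.1 hk) hh) hx
  have ht₁' : t₁ ∈ R ⊔ T₁ := Subgroup.mem_sup_right ht₁
  have ht₂' : t₂ ∈ R ⊔ T₁ := by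
    have h0 : t₂ = t₁⁻¹ * x := by
      rw [hxt]
      group
    rw [h0]
    exact Subgroup.mul_mem _ (Subgroup.inv_mem _ ht₁') (Subgroup.mem_sup_left x.2)
  have h3 : ψ (Subgroup.inclusion le_sup_left x) = ψ ⟨t₁, ht₁'⟩ * ψ ⟨t₂, ht₂'⟩ := by
    rw [← map_mul]
    congr 1
    exact Subtype.ext hxt
  have h4 : ψ ⟨t₁, ht₁'⟩ ∈ T₁ := Cfsg.Agent.Lib.helper25.stronglyClosed_map_mem F h₁ hψ _ ht₁
  have h5 : ψ ⟨t₂, ht₂'⟩ ∈ T₂ := Cfsg.Agent.Lib.helper25.stronglyClosed_map_mem F h₂ hψ _ ht₂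
  have h6 : φ x = ψ (Subgroup.inclusion le_sup_left x)
      * ((φ x)⁻¹ * ψ (Subgroup.inclusion le_sup_left x))⁻¹ := by group
  have h7 : ψ (Subgroup.inclusion le_sup_left x) ∈ T₁ ⊔ T₂ := by
    rw [h3]
    exact Subgroup.mul_mem _ (Subgroup.mem_sup_left h4) (Subgroup.mem_sup_right h5)
  rw [h6]
  exact Subgroup.mul_mem _ h7 (Subgroup.inv_mem _ (Subgroup.mem_sup_left (hmod x)))

end Cfsg.Agent.S5128
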