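import Cfsg.Statements.S5139
import Cfsg.Agent.Lib.helper7.PPowUniq

set_option autoImplicit false
open Cfsg

namespace Cfsg.Agent.S5139

open Cfsg.FusionSystem Cfsg.Agent.Lib.helper25 Cfsg.Agent.Lib.helper7.PPowIdx

/-- Let G be a finite group with Sylow p-subgroup S and O^p(G) the subgroup generated by the elements of order prime to p. Then the p-residual subsystem of the fusion system of G on S — the saturated subsystem of p-power index over the hyperfocal subgroup — is the fusion system of O^p(G) on S ∩ O^p(G): its maps are exactly the conjugation maps by elements of O^p(G) between subgroups of S ∩ O^p(G). -/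
theorem result {G : Type*} [Group G] [Finite G] (p : ℕ) [Fact p.Prime] (S : Sylow p G) (E : Cfsg.FusionSystem ((Cfsg.groupFusionSystem (S : Subgroup G)).hyperfocalSubgroup p)) (hE : (Cfsg.groupFusionSystem (S : Subgroup G)).IsPResidual p E) : ∃ h : (S : Subgroup G) ⊓ Cfsg.pResidual p G ≤ Cfsg.pResidual p G, ∀ P : Subgroup G, E.Hom P = (Cfsg.fusionSystemOfSubgroup (Cfsg.pResidual p G) ((S : Subgroup G) ⊓ Cfsg.pResidual p G) h).Hom P := by
  haveI hKn : (Cfsg.pResidual p G).Normal := Cfsg.Agent.Lib.helper14.pResidual_normal' p G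
  refine ⟨inf_le_right, fun P => ?_⟩
  have hhyp := hyperfocal_groupFusionSystem p S
  have hD := subFusion_isNormalIn (p := p) S (Cfsg.pResidual p G)
  have hDs := hD.1.1
  have hDF := hD.1.2.2.1
  have hSp : IsPGroup p (S : Subgroup G) := S.isPGroup'
  apply Set.Subset.antisymm
  · intro φ hφ
    refine ppow_le hSp (Cfsg.groupFusionSystem (S : Subgroup G))
      (T₁ := (Cfsg.groupFusionSystem (S : Subgroup G)).hyperfocalSubgroup p)
      (T₂ := (S : Subgroup G) ⊓ Cfsg.pResidual p G) (hyperfocal_le _ p) hhyp.le E hE.1 hE.2.1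
      _ ?_ P φ hφ
    rintro Q hQ β ⟨ρ, hρ, rfl⟩
    have hQS : Q ≤ (S : Subgroup G) := hQ.trans (hyperfocal_le _ p)
    obtain ⟨n, hn, hnx⟩ := exists_conj_of_mem_pResidual_autGroup hQS ρ hρ
    apply Subgroup.subset_closure
    have hQT : Q ≤ (S : Subgroup G) ⊓ Cfsg.pResidual p G := hQ.trans hhyp.le
    exact ⟨hQT, fun x => hQT ((ρ : MulAut Q) x).2, n, hn, fun x => hnx x⟩
  · intro φ hφ
    refine ppow_le hSp (Cfsg.groupFusionSystem (S : Subgroup G))
      (T₁ := (S : Subgroup G) ⊓ Cfsg.pResidual p G)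
      (T₂ := (Cfsg.groupFusionSystem (S : Subgroup G)).hyperfocalSubgroup p)
      inf_le_left hhyp.ge _ hDs hDF E ?_ P φ hφ
    intro Q hQ
    exact hE.2.2.2 Q (hQ.trans hhyp.ge)

end Cfsg.Agent.S5139
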