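import Cfsg.Statements.S5344
-- import your own Cfsg.Agent.* helpers here

set_option autoImplicit false
open Cfsg

namespace Cfsg.Agent.S5344

open Equiv

section Gen

variable {K : Type*} [Group K] (a b c : K)

def W1 : Fin 2 → K := ![1, a]
def W2 : Fin 3 → K := ![1, b, b * a]
def W3 : Fin 4 → K := ![1, c, c * b, c * b * a]

def ev (t : Fin 2 × Fin 3 × Fin 4) : K := W1 a t.1 * W2 a b t.2.1 * W3 a b c t.2.2

def La (t : Fin 2 × Fin 3 × Fin 4) : Fin 2 × Fin 3 × Fin 4 := (![1, 0] t.1, t.2)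

def Lb (t : Fin 2 × Fin 3 × Fin 4) : Fin 2 × Fin 3 × Fin 4 :=
  ((![![((0 : Fin 2), (1 : Fin 3)), (0, 0), (1, 0)], ![(0, 2), (1, 2), (1, 1)]] t.1 t.2.1).1,
   (![![((0 : Fin 2), (1 : Fin 3)), (0, 0), (1, 0)], ![(0, 2), (1, 2), (1, 1)]] t.1 t.2.1).2, t.2.2)

def Lc (t : Fin 2 × Fin 3 × Fin 4) : Fin 2 × Fin 3 × Fin 4 :=
  (t.1, ![![((0 : Fin 3), (1 : Fin 4)), (0, 0), (1, 0), (2, 0)], ![(0, 2), (1, 2), (1, 1), (2, 1)],
      ![(0, 3), (1, 3), (2, 3), (2, 2)]] t.2.1 t.2.2)

variable {a b c}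

theorem rel_bab (haa : a * a = 1) (hbb : b * b = 1) (hab : (a * b) ^ 3 = 1) :
    b * (a * b) = a * (b * a) := by
  have h1 : a * b * (a * b) * (a * b) = 1 := by rw [← hab]; simp [pow_succ]
  calc b * (a * b) = (a * a) * (b * (a * b)) * ((a * b) * (b * a)) := by
        rw [haa, one_mul]
        have : a * b * (b * a) = 1 := by rw [mul_assoc, ← mul_assoc b b a, hbb, one_mul, haa]
        rw [this, mul_one]
    _ = a * (a * b * (a * b) * (a * b)) * (b * a) := by group
    _ = a * (b * a) := by rw [h1, mul_one]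

theorem ev_La (haa : a * a = 1) (t : Fin 2 × Fin 3 × Fin 4) : ev a b c (La t) = a * ev a b c t := by
  obtain ⟨i, j, k⟩ := t
  have haa' : ∀ x : K, a * (a * x) = x := fun x => by rw [← mul_assoc, haa, one_mul]
  fin_cases i <;> simp [ev, La, W1, mul_assoc, haa']

theorem ev_Lb (haa : a * a = 1) (hbb : b * b = 1) (hab : (a * b) ^ 3 = 1)
    (t : Fin 2 × Fin 3 × Fin 4) : ev a b c (Lb t) = b * ev a b c t := by
  obtain ⟨i, j, k⟩ := t
  have haa' : ∀ x : K, a * (a * x) = x := fun x => by rw [← mul_assoc, haa, one_mul]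
  have hbb' : ∀ x : K, b * (b * x) = x := fun x => by rw [← mul_assoc, hbb, one_mul]
  have hbab := rel_bab haa hbb hab
  have hbab' : ∀ x : K, b * (a * (b * x)) = a * (b * (a * x)) := fun x => by
    rw [← mul_assoc a b, ← mul_assoc b, hbab]; simp [mul_assoc]
  fin_cases i <;> fin_cases j <;>
    simp [ev, Lb, W1, W2, mul_assoc, haa, hbb, haa', hbb', hbab, hbab']

theorem ev_Lc (haa : a * a = 1) (hbb : b * b = 1) (hcc : c * c = 1) (hca : c * a = a * c)
    (hab : (a * b) ^ 3 = 1)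
    (hbc : (b * c) ^ 3 = 1) (t : Fin 2 × Fin 3 × Fin 4) : ev a b c (Lc t) = c * ev a b c t := by
  have hbab := rel_bab haa hbb hab
  have hbab' : ∀ x : K, b * (a * (b * x)) = a * (b * (a * x)) := fun x => by
    rw [← mul_assoc a b, ← mul_assoc b, hbab]; simp [mul_assoc]
  obtain ⟨i, j, k⟩ := t
  have haa' : ∀ x : K, a * (a * x) = x := fun x => by rw [← mul_assoc, haa, one_mul]
  have hbb' : ∀ x : K, b * (b * x) = x := fun x => by rw [← mul_assoc, hbb, one_mul]
  have hcc' : ∀ x : K, c * (c * x) = x := fun x => by rw [← mul_assoc, hcc, one_mul]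
  have hca' : ∀ x : K, c * (a * x) = a * (c * x) := fun x => by rw [← mul_assoc, hca, mul_assoc]
  have hcbc := rel_bab hbb hcc hbc
  have hcbc' : ∀ x : K, c * (b * (c * x)) = b * (c * (b * x)) := fun x => by
    rw [← mul_assoc b c, ← mul_assoc c, hcbc]; simp [mul_assoc]
  have hcbac : c * (b * (a * c)) = b * (c * (b * a)) := by
    rw [← hca, hcbc']
  have hcbac' : ∀ x : K, c * (b * (a * (c * x))) = b * (c * (b * (a * x))) := fun x => by
    rw [← hca', hcbc']
  fin_cases i <;> fin_cases j <;> fin_cases k <;>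
    simp [ev, Lc, W1, W2, W3, mul_assoc, haa, hbb, hcc, hca, haa', hbb', hcc', hca', hcbc, hcbc',
      hcbac, hcbac', hbab, hbab']

end Gen

abbrev s0 : Perm (Fin 4) := swap 0 1
abbrev s1 : Perm (Fin 4) := swap 1 2
abbrev s2 : Perm (Fin 4) := swap 2 3

set_option maxRecDepth 100000 in
theorem evS_inj : Function.Injective (ev s0 s1 s2) := by decide

set_option maxRecDepth 100000 in
theorem evS_surj : Function.Surjective (ev s0 s1 s2) := by decide

set_option maxRecDepth 100000 in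
theorem ker_test : ∀ σ : Perm (Fin 4), σ ≠ 1 →
    ∃ τ₁ τ₂ : Perm (Fin 4), τ₁ * σ * τ₁⁻¹ * (τ₂ * σ * τ₂⁻¹) = s0 * s2 := by decide

theorem s_rels : s0 * s0 = 1 ∧ s1 * s1 = 1 ∧ s2 * s2 = 1 ∧ s2 * s0 = s0 * s2 ∧ (s0 * s1) ^ 3 = 1 ∧
    (s1 * s2) ^ 3 = 1 := by decide

noncomputable def eS : (Fin 2 × Fin 3 × Fin 4) ≃ Perm (Fin 4) :=
  Equiv.ofBijective (ev s0 s1 s2) ⟨evS_inj, evS_surj⟩

section Main

variable {G : Type*} [Group G] (a b c : G)

noncomputable def phiFun (σ : Perm (Fin 4)) : G := ev a b c (eS.symm σ)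

variable {a b c}

theorem eS_apply (t : Fin 2 × Fin 3 × Fin 4) : eS t = ev s0 s1 s2 t := rfl

theorem phi_s0 (haa : a * a = 1) (σ : Perm (Fin 4)) : phiFun a b c (s0 * σ) = a * phiFun a b c σ := by
  unfold phiFun
  have h : eS.symm (s0 * σ) = La (eS.symm σ) := by
    rw [Equiv.symm_apply_eq, eS_apply, ev_La s_rels.1, ← eS_apply, Equiv.apply_symm_apply]
  rw [h, ev_La haa]

theorem phi_s1 (haa : a * a = 1) (hbb : b * b = 1) (hab : (a * b) ^ 3 = 1) (σ : Perm (Fin 4)) :
    phiFun a b c (s1 * σ) = b * phiFun a b c σ := by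
  unfold phiFun
  have h : eS.symm (s1 * σ) = Lb (eS.symm σ) := by
    rw [Equiv.symm_apply_eq, eS_apply, ev_Lb s_rels.1 s_rels.2.1 s_rels.2.2.2.2.1, ← eS_apply,
      Equiv.apply_symm_apply]
  rw [h, ev_Lb haa hbb hab]

theorem phi_s2 (haa : a * a = 1) (hbb : b * b = 1) (hcc : c * c = 1) (hca : c * a = a * c)
    (hab : (a * b) ^ 3 = 1) (hbc : (b * c) ^ 3 = 1) (σ : Perm (Fin 4)) :
    phiFun a b c (s2 * σ) = c * phiFun a b c σ := by
  unfold phiFun
  have h : eS.symm (s2 * σ) = Lc (eS.symm σ) := by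
    rw [Equiv.symm_apply_eq, eS_apply,
      ev_Lc s_rels.1 s_rels.2.1 s_rels.2.2.1 s_rels.2.2.2.1 s_rels.2.2.2.2.1 s_rels.2.2.2.2.2,
      ← eS_apply,
      Equiv.apply_symm_apply]
  rw [h, ev_Lc haa hbb hcc hca hab hbc]

theorem phi_one : phiFun a b c 1 = 1 := by
  unfold phiFun
  have h : eS.symm 1 = (0, 0, 0) := by
    rw [Equiv.symm_apply_eq, eS_apply]
    simp [ev, W1, W2, W3]
  rw [h]
  simp [ev, W1, W2, W3]

theorem phi_ev (haa : a * a = 1) (hbb : b * b = 1) (hcc : c * c = 1) (hca : c * a = a * c)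
    (hab : (a * b) ^ 3 = 1) (hbc : (b * c) ^ 3 = 1) (t : Fin 2 × Fin 3 × Fin 4) (σ : Perm (Fin 4)) :
    phiFun a b c (ev s0 s1 s2 t * σ) = ev a b c t * phiFun a b c σ := by
  obtain ⟨i, j, k⟩ := t
  have k0 := phi_s0 (b := b) (c := c) haa
  have k1 := phi_s1 (c := c) haa hbb hab
  have k2 := phi_s2 haa hbb hcc hca hab hbc
  fin_cases i <;> fin_cases j <;> fin_cases k <;>
    simp [ev, W1, W2, W3, mul_assoc, k0, k1, k2]

theorem phi_mul (haa : a * a = 1) (hbb : b * b = 1) (hcc : c * c = 1) (hca : c * a = a * c)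
    (hab : (a * b) ^ 3 = 1) (hbc : (b * c) ^ 3 = 1) (τ σ : Perm (Fin 4)) :
    phiFun a b c (τ * σ) = phiFun a b c τ * phiFun a b c σ := by
  have h1 : ev s0 s1 s2 (eS.symm τ) = τ := by rw [← eS_apply, Equiv.apply_symm_apply]
  have h2 : phiFun a b c τ = ev a b c (eS.symm τ) := rfl
  rw [h2, ← phi_ev haa hbb hcc hca hab hbc, h1]

end Main

theorem sq_one_of_order_two {G : Type*} [Group G] {d : G} (h : orderOf d = 2) : d * d = 1 := by
  rw [← pow_two, ← h, pow_orderOf_eq_one]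

theorem cube_of_not_commute {G : Type*} [Group G] {a b : G} (haa : a * a = 1) (hbb : b * b = 1)
    (h : (a * b) ^ 2 = 1 ∨ (a * b) ^ 3 = 1) (hnc : ¬ Commute a b) : (a * b) ^ 3 = 1 := by
  rcases h with h | h
  · exfalso
    apply hnc
    have hainv : a⁻¹ = a := inv_eq_of_mul_eq_one_right haa
    have hbinv : b⁻¹ = b := inv_eq_of_mul_eq_one_right hbb
    have h3 : a * b = (a * b)⁻¹ := by
      rw [pow_two] at h
      exact eq_inv_of_mul_eq_one_left h
    show a * b = b * a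
    rw [h3, mul_inv_rev, hainv, hbinv]
  · exact h

/-- In a set of 3-transpositions, let a, b, c be members with a and c different and commuting, while neither a nor c commutes with b (a 3-string). Then there is an injective homomorphism from the symmetric group of degree 4 into the ambient group sending the transpositions (0 1), (1 2), (2 3) to a, b, c; so a, b, c generate a copy of the symmetric group of degree 4 in which they are transpositions. -/
theorem result {G : Type*} [Group G] {D : Set G} (hD : Cfsg.IsThreeTranspositionSet D) {a b c : G} (ha : a ∈ D) (hb : b ∈ D) (hc : c ∈ D) (hac : a ≠ c) (hac' : Commute a c) (hab : ¬ Commute a b) (hbc : ¬ Commute b c) : ∃ φ : Equiv.Perm (Fin 4) →* G, Function.Injective φ ∧ φ (Equiv.swap 0 1) = a ∧ φ (Equiv.swap 1 2) = b ∧ φ (Equiv.swap 2 3) = c := by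
  have haa : a * a = 1 := sq_one_of_order_two (hD.1 a ha)
  have hbb : b * b = 1 := sq_one_of_order_two (hD.1 b hb)
  have hcc : c * c = 1 := sq_one_of_order_two (hD.1 c hc)
  have hca : c * a = a * c := hac'.eq.symm
  have hab3 : (a * b) ^ 3 = 1 := cube_of_not_commute haa hbb (hD.2 a ha b hb) hab
  have hbc3 : (b * c) ^ 3 = 1 := cube_of_not_commute hbb hcc (hD.2 b hb c hc) hbc
  let φ : Equiv.Perm (Fin 4) →* G := MonoidHom.mk' (phiFun a b c) (phi_mul haa hbb hcc hca hab3 hbc3)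
  have hφ : ∀ σ, φ σ = phiFun a b c σ := fun σ => rfl
  have h0 : φ (Equiv.swap 0 1) = a := by
    have := phi_s0 (b := b) (c := c) haa 1
    rw [mul_one, phi_one, mul_one] at this
    exact this
  have h1 : φ (Equiv.swap 1 2) = b := by
    have := phi_s1 (c := c) haa hbb hab3 1
    rw [mul_one, phi_one, mul_one] at this
    exact this
  have h2 : φ (Equiv.swap 2 3) = c := by
    have := phi_s2 haa hbb hcc hca hab3 hbc3 1
    rw [mul_one, phi_one, mul_one] at this
    exact this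
  refine ⟨φ, ?_, h0, h1, h2⟩
  rw [injective_iff_map_eq_one]
  intro σ hσ
  by_contra hne
  obtain ⟨τ₁, τ₂, hτ⟩ := ker_test σ hne
  have h3 : φ (s0 * s2) = 1 := by
    rw [← hτ]
    simp [map_mul, hσ]
  rw [map_mul, h0, h2] at h3
  apply hac
  have hcinv : c⁻¹ = c := inv_eq_of_mul_eq_one_right hcc
  rw [← hcinv]
  exact eq_inv_of_mul_eq_one_left h3

end Cfsg.Agent.S5344
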