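import Cfsg.Statements.S5345
-- import your own Cfsg.Agent.* helpers here

set_option autoImplicit false
open Cfsg

namespace Cfsg.Agent.S5345

theorem sq_one_of_order_two {G : Type*} [Group G] {d : G} (h : orderOf d = 2) : d * d = 1 := by
  rw [← pow_two, ← h, pow_orderOf_eq_one]

theorem comm_in_sylow {G : Type*} [Group G] [Finite G] {D : Set G} (hD : Cfsg.IsThreeTranspositionSet D)
    (T : Sylow 2 G) (d e : G) (hd : d ∈ D) (he : e ∈ D) (hdT : d ∈ T) (heT : e ∈ T) : d * e = e * d := by
  have hd2 : d * d = 1 := sq_one_of_order_two (hD.1 d hd)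
  have he2 : e * e = 1 := sq_one_of_order_two (hD.1 e he)
  have hdinv : d⁻¹ = d := inv_eq_of_mul_eq_one_right hd2
  have heinv : e⁻¹ = e := inv_eq_of_mul_eq_one_right he2
  have hsq : (d * e) ^ 2 = 1 := by
    rcases hD.2 d hd e he with h | h
    · exact h
    · have hmem : d * e ∈ (T : Subgroup G) := (T : Subgroup G).mul_mem hdT heT
      obtain ⟨k, hk⟩ := T.isPGroup' ⟨_, hmem⟩
      have hk' : (d * e) ^ (2 ^ k) = 1 := by
        have := congrArg Subtype.val hk
        simpa using this
      have h1 : orderOf (d * e) ∣ 2 ^ k := orderOf_dvd_of_pow_eq_one hk'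
      have h2 : orderOf (d * e) ∣ 3 := orderOf_dvd_of_pow_eq_one h
      have hcop : Nat.Coprime 3 (2 ^ k) := Nat.Coprime.pow_right _ (by decide)
      have h3 := Nat.eq_one_of_dvd_coprimes hcop h2 h1
      rw [orderOf_eq_one_iff.mp h3, one_pow]
  have h3 : d * e = (d * e)⁻¹ := by
    rw [pow_two] at hsq
    exact eq_inv_of_mul_eq_one_left hsq
  rw [h3, mul_inv_rev, hdinv, heinv]

open scoped Pointwise in
theorem width_le {G : Type*} [Group G] [Finite G] {D : Set G} (hD : Cfsg.IsThreeTranspositionGroup D)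
    (T : Sylow 2 G) (E : Set G) (hED : E ⊆ D) (hcomm : ∀ a ∈ E, ∀ b ∈ E, Commute a b) :
    E.ncard ≤ {d : G | d ∈ D ∧ d ∈ T}.ncard := by
  haveI : IsMulCommutative (Subgroup.closure E) :=
    Subgroup.isMulCommutative_closure (fun x hx y hy => (hcomm x hx y hy).eq)
  have hexp : ∀ x ∈ Subgroup.closure E, x * x = 1 := by
    intro x hx
    induction hx using Subgroup.closure_induction with
    | mem x hx => exact sq_one_of_order_two (hD.1.1 x (hED hx))
    | one => simp
    | mul x y hx hy ihx ihy =>
      have hxy : x * y = y * x := Subgroup.mul_comm_of_mem_isMulCommutative (H := Subgroup.closure E) hx hy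
      calc x * y * (x * y) = x * (y * x) * y := by group
        _ = x * (x * y) * y := by rw [hxy]
        _ = (x * x) * (y * y) := by group
        _ = 1 := by rw [ihx, ihy, one_mul]
    | inv x hx ihx =>
      have : x⁻¹ = x := inv_eq_of_mul_eq_one_right ihx
      rw [this, ihx]
  have hp : IsPGroup 2 (Subgroup.closure E) := by
    intro g
    refine ⟨1, ?_⟩
    apply Subtype.ext
    have := hexp g g.2
    simp [pow_two, this]
  obtain ⟨Q, hQ⟩ := hp.exists_le_sylow
  obtain ⟨g, hg⟩ := MulAction.exists_smul_eq G Q T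
  have hmem : ∀ e ∈ E, g * e * g⁻¹ ∈ (T : Subgroup G) := by
    intro e he
    have h1 : e ∈ (Q : Subgroup G) := hQ (Subgroup.subset_closure he)
    have h2 : MulAut.conj g • e ∈ MulAut.conj g • (Q : Subgroup G) :=
      Subgroup.smul_mem_pointwise_smul _ _ _ h1
    have h3 : MulAut.conj g • (Q : Subgroup G) = (T : Subgroup G) := by
      rw [← hg]; rfl
    rw [h3] at h2
    simpa using h2
  apply Set.ncard_le_ncard_of_injOn (fun e => g * e * g⁻¹)
  · intro e he
    exact ⟨hD.2.1 g e (hED he), hmem e he⟩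
  · intro a _ b _ hab
    have hab' : g * a * g⁻¹ = g * b * g⁻¹ := hab
    exact mul_left_cancel (mul_right_cancel hab')

/-- Let D be a conjugation-invariant generating set of 3-transpositions of a finite group G and T a Sylow 2-subgroup of G. Then the members of D lying in T generate an abelian subgroup, and their number is the width of D (the largest number of pairwise commuting members of D). -/
theorem result {G : Type*} [Group G] [Finite G] {D : Set G} (hD : Cfsg.IsThreeTranspositionGroup D) (T : Sylow 2 G) : IsMulCommutative (Subgroup.closure {d : G | d ∈ D ∧ d ∈ T}) ∧ {d : G | d ∈ D ∧ d ∈ T}.ncard = Cfsg.commutingWidth D := by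
  have hc : ∀ a ∈ {d : G | d ∈ D ∧ d ∈ T}, ∀ b ∈ {d : G | d ∈ D ∧ d ∈ T}, a * b = b * a :=
    fun a ha b hb => comm_in_sylow hD.1 T a b ha.1 hb.1 ha.2 hb.2
  refine ⟨Subgroup.isMulCommutative_closure hc, ?_⟩
  unfold Cfsg.commutingWidth
  apply le_antisymm
  · apply le_csSup
    · refine ⟨Nat.card G, ?_⟩
      rintro n ⟨E, -, -, -, rfl⟩
      exact Set.ncard_le_card E
    · exact ⟨_, fun x hx => hx.1, Set.toFinite _, fun a ha b hb => hc a ha b hb, rfl⟩
  · apply csSup_le
    · exact ⟨0, ∅, Set.empty_subset _, Set.finite_empty, fun a ha => absurd ha (Set.notMem_empty a), Set.ncard_empty G⟩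
    · rintro n ⟨E, hED, -, hcomm, rfl⟩
      exact width_le hD T E hED hcomm

end Cfsg.Agent.S5345
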