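import Cfsg.Statements.S5346
-- import your own Cfsg.Agent.* helpers here
import Cfsg.Agent.Lib.helper26.TTZ

set_option autoImplicit false
open Cfsg

namespace Cfsg.Agent.S5346

section
open Cfsg.Agent.Lib.helper26 Cfsg
open Cfsg.Agent.Lib.helper14 (isPGroup_pCore pCore_normal')

variable {G : Type*} [Group G]

theorem commute_of_sq {D : Set G} (hS : IsThreeTranspositionSet D) {a b : G} (ha : a ∈ D)
    (hb : b ∈ D) (h : (a * b) ^ 2 = 1) : Commute a b := by
  have h1 : a * b * (a * b) = 1 := by rw [← pow_two]; exact h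
  have h2 : a * b = (a * b)⁻¹ := eq_inv_of_mul_eq_one_left h1
  rw [mul_inv_rev, tt_inv hS ha, tt_inv hS hb] at h2
  exact h2

/-- an element of a `3`-group squaring to `1` is trivial -/
theorem eq_one_of_sq_of_mem_pCore {x : G} (hx : x ∈ pCore 3 G) (hxx : x * x = 1) : x = 1 := by
  obtain ⟨k, hk⟩ := isPGroup_pCore 3 G ⟨x, hx⟩
  have hk' : x ^ 3 ^ k = 1 := by simpa using congrArg Subtype.val hk
  have h2 : x ^ 2 = 1 := by rw [pow_two]; exact hxx
  have h3 := pow_gcd_eq_one.2 ⟨hk', h2⟩
  rwa [Nat.Coprime.pow_left k (by norm_num : Nat.Coprime 3 2), pow_one] at h3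

/-- if `G = ⟨d⟩ O₃(G)` then no two distinct members of `D` commute -/
theorem no_commute_of_top {D : Set G} (hS : IsThreeTranspositionSet D) {d : G} (hd : d ∈ D)
    (htop : Subgroup.zpowers d ⊔ pCore 3 G = ⊤) :
    ∀ a ∈ D, ∀ b ∈ D, Commute a b → a = b := by
  haveI := pCore_normal' 3 G
  have hkey : ∀ a ∈ D, d * a ∈ pCore 3 G := by
    intro a ha
    have ham : a ∈ Subgroup.zpowers d ⊔ pCore 3 G := by rw [htop]; trivial
    obtain ⟨z, hz, o, ho, rfl⟩ := Subgroup.mem_sup_of_normal_right.1 ham
    obtain ⟨j, rfl⟩ := Subgroup.mem_zpowers_iff.1 hz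
    rcases Int.even_or_odd j with ⟨m, hm⟩ | ⟨m, hm⟩
    · exfalso
      have hz1 : d ^ j = 1 := by
        rw [hm, ← two_mul, zpow_mul, zpow_two, tt_sq hS hd, one_zpow]
      rw [hz1, one_mul] at ha
      have h1 := eq_one_of_sq_of_mem_pCore ho (tt_sq hS ha)
      have h2 := hS.1 o ha
      rw [h1, orderOf_one] at h2
      exact absurd h2 (by norm_num)
    · have hz1 : d ^ j = d := by
        rw [hm, zpow_add, zpow_mul, zpow_two, tt_sq hS hd, one_zpow, one_mul, zpow_one]
      rw [hz1, ← mul_assoc, tt_sq hS hd, one_mul]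
      exact ho
  intro a ha b hb hab
  have ha2 := tt_sq hS ha
  have hb2 := tt_sq hS hb
  have hab' : a * b ∈ pCore 3 G := by
    have e : a * b = (d * a)⁻¹ * (d * b) := by
      rw [mul_inv_rev, mul_assoc, inv_mul_cancel_left, tt_inv hS ha]
    rw [e]
    exact Subgroup.mul_mem _ (Subgroup.inv_mem _ (hkey a ha)) (hkey b hb)
  have hsq : a * b * (a * b) = 1 := by
    calc a * b * (a * b) = a * (b * a) * b := by group
      _ = a * (a * b) * b := by rw [hab.eq]
      _ = (a * a) * (b * b) := by group
      _ = 1 := by rw [ha2, hb2, one_mul]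
  have h1 := eq_one_of_sq_of_mem_pCore hab' hsq
  have h2 := eq_inv_of_mul_eq_one_left h1
  rw [tt_inv hS hb] at h2
  exact h2

theorem main [Finite G] {D : Set G} (hD : Cfsg.IsThreeTranspositionGroup D) {d : G}
    (hd : d ∈ D) : Cfsg.commutingWidth D = 1 ↔ Subgroup.zpowers d ⊔ Cfsg.pCore 3 G = ⊤ := by
  have hS := hD.1
  obtain ⟨S, hSdef⟩ : ∃ S : Set ℕ, S = {n : ℕ | ∃ E : Set G, E ⊆ D ∧ E.Finite ∧
      (∀ a ∈ E, ∀ b ∈ E, Commute a b) ∧ E.ncard = n} := ⟨_, rfl⟩
  have hw : commutingWidth D = sSup S := by rw [hSdef]; rfl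
  have hbdd : BddAbove S := by
    refine ⟨Nat.card G, ?_⟩
    rw [hSdef]
    rintro n ⟨E, -, -, -, rfl⟩
    exact Set.ncard_le_card E
  have h1mem : 1 ∈ S := by
    rw [hSdef]
    refine ⟨{d}, by simpa using hd, Set.finite_singleton d, ?_, Set.ncard_singleton d⟩
    intro a ha b hb
    rw [Set.mem_singleton_iff] at ha hb
    rw [ha, hb]
  constructor
  · intro hw1
    have hno : ∀ a ∈ D, ∀ b ∈ D, Commute a b → a = b := by
      intro a ha b hb hab
      by_contra hne
      have h2 : 2 ∈ S := by
        rw [hSdef]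
        refine ⟨{a, b}, ?_, Set.toFinite _, ?_, Set.ncard_pair hne⟩
        · intro x hx
          rcases hx with rfl | rfl
          · exact ha
          · exact hb
        · intro x hx y hy
          rcases hx with rfl | rfl <;> rcases hy with rfl | rfl
          · exact Commute.refl _
          · exact hab
          · exact hab.symm
          · exact Commute.refl _
      have h3 := le_csSup hbdd h2
      rw [← hw, hw1] at h3
      omega
    have hc : ∀ a ∈ D, ∀ b ∈ D, (a * b) ^ 3 = 1 := by
      intro a ha b hb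
      rcases hS.2 a ha b hb with h | h
      · have h1 := hno a ha b hb (commute_of_sq hS ha hb h)
        subst h1
        rw [tt_sq hS ha, one_pow]
      · exact h
    exact tt_odd_main hD hc hd
  · intro htop
    have hno := no_commute_of_top hS hd htop
    have hle : ∀ n ∈ S, n ≤ 1 := by
      rw [hSdef]
      rintro n ⟨E, hED, hEf, hEc, rfl⟩
      by_contra hlt
      push Not at hlt
      obtain ⟨a, b, ha, hb, hne⟩ := (Set.one_lt_ncard_iff hEf).1 hlt
      exact hne (hno a (hED ha) b (hED hb) (hEc a ha b hb))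
    rw [hw]
    exact le_antisymm (csSup_le ⟨1, h1mem⟩ hle) (le_csSup hbdd h1mem)

end

/-- Let D be a conjugation-invariant generating set of 3-transpositions of a finite group G and d a member of D. Then D has width 1 (no two different members of D commute) if and only if G is the product of the subgroup generated by d with the largest normal 3-subgroup of G. -/
theorem result {G : Type*} [Group G] [Finite G] {D : Set G} (hD : Cfsg.IsThreeTranspositionGroup D) {d : G} (hd : d ∈ D) : Cfsg.commutingWidth D = 1 ↔ Subgroup.zpowers d ⊔ Cfsg.pCore 3 G = ⊤ := by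
  exact main hD hd

end Cfsg.Agent.S5346
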