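import Cfsg.Statements.S5349
-- import your own Cfsg.Agent.* helpers here
import Cfsg.Agent.Lib.helper26.ThreeTrans

set_option autoImplicit false
open Cfsg

namespace Cfsg.Agent.S5349

section

open Cfsg.Agent.Lib.helper26 Cfsg
open Cfsg.Agent.Lib.helper20 (baer_suzuki_set)
open Cfsg.Agent.Lib.helper14 (isPGroup_pCore pCore_normal')

variable {G : Type*} [Group G] {D : Set G}

/-- products of two "equivalent" transpositions generate `2`-groups pairwise -/
theorem pair_pow_four (hD : Cfsg.IsThreeTranspositionClass D) {x y x' y' : G} (hx : x ∈ D)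
    (hy : y ∈ D) (hx' : x' ∈ D) (hy' : y' ∈ D)
    (hxy : ∀ e ∈ D, Commute y e ↔ Commute x e) (hxy' : ∀ e ∈ D, Commute y' e ↔ Commute x' e) :
    ((x * y) * (x' * y')) ^ 4 = 1 := by
  have hS := hD.1
  have hx2 := tt_sq hS hx
  have hy2 := tt_sq hS hy
  have hx'2 := tt_sq hS hx'
  have hy'2 := tt_sq hS hy'
  have cxy : Commute x y := ((hxy x hx).2 (Commute.refl x)).symm
  have cxy' : Commute x' y' := ((hxy' x' hx').2 (Commute.refl x')).symm
  have ht2 : (x * y) * (x * y) = 1 := by
    calc (x * y) * (x * y) = x * (y * x) * y := by group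
      _ = x * (x * y) * y := by rw [cxy.eq]
      _ = (x * x) * (y * y) := by group
      _ = 1 := by rw [hx2, hy2, one_mul]
  have hb2 : (x' * y') * (x' * y') = 1 := by
    calc (x' * y') * (x' * y') = x' * (y' * x') * y' := by group
      _ = x' * (x' * y') * y' := by rw [cxy'.eq]
      _ = (x' * x') * (y' * y') := by group
      _ = 1 := by rw [hx'2, hy'2, one_mul]
  by_cases hc : Commute x x'
  · have c1 : Commute y x' := (hxy x' hx').2 hc
    have c2 : Commute x y' := ((hxy' x hx).2 hc.symm).symm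
    have c3 : Commute y y' := (hxy y' hy').2 c2
    have hcomm : Commute (x * y) (x' * y') :=
      (hc.mul_right c2).mul_left (c1.mul_right c3)
    have h2 : ((x * y) * (x' * y')) ^ 2 = 1 := by
      rw [hcomm.mul_pow, pow_two, pow_two, ht2, hb2, one_mul]
    have h4 : ((x * y) * (x' * y')) ^ 4 = (((x * y) * (x' * y')) ^ 2) ^ 2 := by rw [← pow_mul]
    rw [h4, h2, one_pow]
  · -- the non-commuting case
    have n1 : ¬ Commute y x' := fun h => hc ((hxy x' hx').1 h)
    have n2 : ¬ Commute x y' := fun h => hc ((hxy' x hx).1 h.symm).symm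
    have n3 : ¬ Commute y y' := fun h => n2 ((hxy y' hy').1 h)
    have b1 : x * x' * x = x' * x * x' := (tt_braid hS hx hx').resolve_left hc
    have b2 : y * x' * y = x' * y * x' := (tt_braid hS hy hx').resolve_left n1
    have b3 : x * y' * x = y' * x * y' := (tt_braid hS hx hy').resolve_left n2
    have b4 : y * y' * y = y' * y * y' := (tt_braid hS hy hy').resolve_left n3
    have htinv : (x * y)⁻¹ = x * y := inv_eq_of_mul_eq_one_left ht2
    -- the conjugates
    have hs1D : x * y * x' * y * x ∈ D := by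
      have h := tt_conj_mem hD hx' (x * y)
      rw [htinv] at h
      have h2 : x * y * x' * (x * y) = x * y * x' * y * x := by
        rw [cxy.eq]
        group
      rw [h2] at h
      exact h
    have hs2D : x * y * y' * y * x ∈ D := by
      have h := tt_conj_mem hD hy' (x * y)
      rw [htinv] at h
      have h2 : x * y * y' * (x * y) = x * y * y' * y * x := by
        rw [cxy.eq]
        group
      rw [h2] at h
      exact h
    have e1 := tt_conj_commute hx2 cxy.eq b1 b2
    have e2 := tt_conj_commute hx2 cxy.eq b3 b4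
    have comm_of : ∀ a s : G, a * a = 1 → a * s * a = s → Commute a s := by
      intro a s ha h
      show a * s = s * a
      calc a * s = a * s * (a * a) := by rw [ha, mul_one]
        _ = (a * s * a) * a := by group
        _ = s * a := by rw [h]
    have k1 : Commute x' (x * y * x' * y * x) := comm_of _ _ hx'2 e1
    have k2 : Commute y' (x * y * y' * y * x) := comm_of _ _ hy'2 e2
    have k3 : Commute y' (x * y * x' * y * x) := (hxy' _ hs1D).2 k1
    have k4 : Commute x' (x * y * y' * y * x) := (hxy' _ hs2D).1 k2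
    -- c = t b t
    have hc_eq : (x * y) * (x' * y') * (x * y) = (x * y * x' * y * x) * (x * y * y' * y * x) := by
      calc (x * y) * (x' * y') * (x * y) = x * y * x' * y' * (x * y) := by group
        _ = x * y * x' * y' * (y * x) := by rw [cxy.eq]
        _ = x * y * x' * 1 * y' * y * x := by group
        _ = x * y * x' * ((y * x) * (x * y)) * y' * y * x := by
            have : (y * x) * (x * y) = 1 := by
              calc (y * x) * (x * y) = y * (x * x) * y := by group
                _ = 1 := by rw [hx2, mul_one, hy2]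
            rw [this]
        _ = (x * y * x' * y * x) * (x * y * y' * y * x) := by group
    have kb : Commute (x' * y') ((x * y) * (x' * y') * (x * y)) := by
      rw [hc_eq]
      exact (k1.mul_right k4).mul_left (k3.mul_right k2)
    have hc2 : ((x * y) * (x' * y') * (x * y)) * ((x * y) * (x' * y') * (x * y)) = 1 := by
      calc ((x * y) * (x' * y') * (x * y)) * ((x * y) * (x' * y') * (x * y))
          = (x * y) * (x' * y') * ((x * y) * (x * y)) * (x' * y') * (x * y) := by group
        _ = (x * y) * ((x' * y') * (x' * y')) * (x * y) := by rw [ht2]; group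
        _ = 1 := by rw [hb2, mul_one, ht2]
    have h2 : ((x * y) * (x' * y')) ^ 2 = ((x * y) * (x' * y') * (x * y)) * (x' * y') := by
      rw [pow_two]
      group
    have h4 : ((x * y) * (x' * y')) ^ 4 = (((x * y) * (x' * y')) ^ 2) ^ 2 := by rw [← pow_mul]
    rw [h4, h2, kb.symm.mul_pow, pow_two, pow_two, hc2, hb2, one_mul]

/-- the product of two equivalent transpositions lies in `O₂(G)` -/
theorem mul_mem_pCore [Finite G] (hD : Cfsg.IsThreeTranspositionClass D) {x y : G} (hx : x ∈ D)
    (hy : y ∈ D) (hxy : ∀ e ∈ D, Commute y e ↔ Commute x e) : x * y ∈ Cfsg.pCore 2 G := by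
  haveI : Fact (Nat.Prime 2) := ⟨Nat.prime_two⟩
  have hS := hD.1
  obtain ⟨K, hKdef⟩ : ∃ K : Set G, K = {z | ∃ x ∈ D, ∃ y ∈ D,
      (∀ e ∈ D, Commute y e ↔ Commute x e) ∧ z = x * y} := ⟨_, rfl⟩
  have hKn : ∀ g : G, ∀ a ∈ K, g * a * g⁻¹ ∈ K := by
    intro g a ha
    rw [hKdef] at ha ⊢
    obtain ⟨x, hx, y, hy, hxy, rfl⟩ := ha
    refine ⟨g * x * g⁻¹, tt_conj_mem hD hx g, g * y * g⁻¹, tt_conj_mem hD hy g, ?_, by group⟩
    intro e he
    have he' : g⁻¹ * e * g⁻¹⁻¹ ∈ D := tt_conj_mem hD he g⁻¹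
    have h1 := hxy _ he'
    have tr : ∀ u : G, Commute (g * u * g⁻¹) e ↔ Commute u (g⁻¹ * e * g⁻¹⁻¹) := by
      intro u
      constructor
      · intro h
        show u * (g⁻¹ * e * g⁻¹⁻¹) = (g⁻¹ * e * g⁻¹⁻¹) * u
        have h' : g * u * g⁻¹ * e = e * (g * u * g⁻¹) := h
        calc u * (g⁻¹ * e * g⁻¹⁻¹) = g⁻¹ * (g * u * g⁻¹ * e) * g := by group
          _ = g⁻¹ * (e * (g * u * g⁻¹)) * g := by rw [h']
          _ = (g⁻¹ * e * g⁻¹⁻¹) * u := by group
      · intro h
        show g * u * g⁻¹ * e = e * (g * u * g⁻¹)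
        have h' : u * (g⁻¹ * e * g⁻¹⁻¹) = (g⁻¹ * e * g⁻¹⁻¹) * u := h
        calc g * u * g⁻¹ * e = g * (u * (g⁻¹ * e * g⁻¹⁻¹)) * g⁻¹ := by group
          _ = g * ((g⁻¹ * e * g⁻¹⁻¹) * u) * g⁻¹ := by rw [h']
          _ = e * (g * u * g⁻¹) := by group
    rw [tr, tr]
    exact h1
  have hK2 : ∀ a ∈ K, ∀ b ∈ K, IsPGroup 2 (Subgroup.closure ({a, b} : Set G)) := by
    intro a ha b hb
    rw [hKdef] at ha hb
    obtain ⟨x, hx, y, hy, hxy, rfl⟩ := ha
    obtain ⟨x', hx', y', hy', hxy', rfl⟩ := hb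
    have sq : ∀ u v : G, u ∈ D → v ∈ D → (∀ e ∈ D, Commute v e ↔ Commute u e) →
        (u * v) * (u * v) = 1 := by
      intro u v hu hv huv
      have c : Commute u v := ((huv u hu).2 (Commute.refl u)).symm
      calc (u * v) * (u * v) = u * (v * u) * v := by group
        _ = u * (u * v) * v := by rw [c.eq]
        _ = (u * u) * (v * v) := by group
        _ = 1 := by rw [tt_sq hS hu, tt_sq hS hv, one_mul]
    exact isPGroup_closure_pair (sq x y hx hy hxy) (sq x' y' hx' hy' hxy')
      (pair_pow_four hD hx hy hx' hy' hxy hxy')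
  obtain ⟨P⟩ : Nonempty (Sylow 2 G) := inferInstance
  have hKP := baer_suzuki_set K hKn hK2 P
  have hmemK : x * y ∈ K := by
    rw [hKdef]
    exact ⟨x, hx, y, hy, hxy, rfl⟩
  have hcore : x * y ∈ (P : Subgroup G).normalCore := by
    intro g
    exact hKP (hKn g _ hmemK)
  have hle : (P : Subgroup G).normalCore ≤ Cfsg.pCore 2 G :=
    Cfsg.Agent.Lib.helper14.le_pCore inferInstance
      (P.isPGroup'.to_le (Subgroup.normalCore_le _))
  exact hle hcore

/-- a member of `D` congruent to `d` modulo `O₂(G)` commutes with the same members of `D` -/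
theorem commute_of_mem_pCore [Finite G] (hD : Cfsg.IsThreeTranspositionClass D) {d v e : G}
    (hd : d ∈ D) (hv : v ∈ D) (he : e ∈ D) (hdv : d⁻¹ * v ∈ Cfsg.pCore 2 G)
    (hc : Commute v e) : Commute d e := by
  have hS := hD.1
  haveI := pCore_normal' 2 G
  rcases hS.2 d hd e he with h | h
  · have h1 : d * e * (d * e) = 1 := by rw [← pow_two]; exact h
    have h2 : d * e = (d * e)⁻¹ := eq_inv_of_mul_eq_one_left h1
    rw [mul_inv_rev, tt_inv hS hd, tt_inv hS he] at h2
    exact h2
  · -- `(d e)² ∈ O₂(G)` and `(d e)³ = 1`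
    have hq : (QuotientGroup.mk d : G ⧸ Cfsg.pCore 2 G) = QuotientGroup.mk v := by
      rw [QuotientGroup.eq]
      exact hdv
    have hve2 : (v * e) * (v * e) = 1 := by
      calc (v * e) * (v * e) = v * (e * v) * e := by group
        _ = v * (v * e) * e := by rw [hc.eq]
        _ = (v * v) * (e * e) := by group
        _ = 1 := by rw [tt_sq hS hv, tt_sq hS he, one_mul]
    have hmem : (d * e) * (d * e) ∈ Cfsg.pCore 2 G := by
      rw [← QuotientGroup.eq_one_iff]
      rw [QuotientGroup.mk_mul, QuotientGroup.mk_mul, hq, ← QuotientGroup.mk_mul,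
        ← QuotientGroup.mk_mul, hve2]
      rfl
    obtain ⟨k, hk⟩ := (isPGroup_pCore 2 G) ⟨_, hmem⟩
    have hk' : ((d * e) * (d * e)) ^ 2 ^ k = 1 := congrArg Subtype.val hk
    have h3 : ((d * e) * (d * e)) ^ 3 = 1 := by
      rw [← pow_two, ← pow_mul, mul_comm, pow_mul, h, one_pow]
    have h4 : orderOf ((d * e) * (d * e)) = 1 :=
      Nat.eq_one_of_dvd_coprimes (by
        show Nat.Coprime (2 ^ k) 3
        exact Nat.Coprime.pow_left k (by norm_num))
        (orderOf_dvd_of_pow_eq_one hk') (orderOf_dvd_of_pow_eq_one h3)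
    rw [orderOf_eq_one_iff] at h4
    have h2 : d * e = (d * e)⁻¹ := eq_inv_of_mul_eq_one_left h4
    rw [mul_inv_rev, tt_inv hS hd, tt_inv hS he] at h2
    exact h2

theorem main [Finite G] (hD : Cfsg.IsThreeTranspositionClass D) (hD2 : ∃ a ∈ D, ∃ b ∈ D, a ≠ b)
    {d : G} (hd : d ∈ D) :
    {v : G | v ∈ D ∧ ∀ e ∈ D, Commute v e ↔ Commute d e} =
      {v : G | v ∈ D ∧ d⁻¹ * v ∈ Cfsg.pCore 2 G} ∧
    {v : G | v ∈ D ∧ ∀ e ∈ D, Commute v e ↔ Commute d e} =
      {v : G | ∃ g ∈ Cfsg.pCore 2 G, v = g * d * g⁻¹} := by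
  have hS := hD.1
  haveI hN := pCore_normal' 2 G
  have hdi := tt_inv hS hd
  have hd2 := tt_sq hS hd
  have first : {v : G | v ∈ D ∧ ∀ e ∈ D, Commute v e ↔ Commute d e} =
      {v : G | v ∈ D ∧ d⁻¹ * v ∈ Cfsg.pCore 2 G} := by
    ext v
    constructor
    · rintro ⟨hv, hve⟩
      refine ⟨hv, ?_⟩
      rw [hdi]
      exact mul_mem_pCore hD hd hv hve
    · rintro ⟨hv, hdv⟩
      refine ⟨hv, fun e he => ⟨fun h => commute_of_mem_pCore hD hd hv he hdv h, fun h => ?_⟩⟩
      have hvd : v⁻¹ * d ∈ Cfsg.pCore 2 G := by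
        have := (Cfsg.pCore 2 G).inv_mem hdv
        rw [mul_inv_rev, inv_inv] at this
        exact this
      exact commute_of_mem_pCore hD hv hd he hvd h
  refine ⟨first, ?_⟩
  rw [first]
  ext v
  constructor
  · rintro ⟨hv, hdv⟩
    have hv' : v ∈ {v : G | v ∈ D ∧ ∀ e ∈ D, Commute v e ↔ Commute d e} := by
      rw [first]
      exact ⟨hv, hdv⟩
    obtain ⟨-, hve⟩ := hv'
    obtain ⟨a, ha, hnc⟩ := tt_exists_not_commute hD hD2 hd
    have ha2 := tt_sq hS ha
    have hai := tt_inv hS ha
    have hnc' : ¬ Commute v a := fun h => hnc ((hve a ha).1 h).symm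
    have cdv : Commute d v := ((hve d hd).2 (Commute.refl d)).symm
    have b1 : d * a * d = a * d * a :=
      (tt_braid hS hd ha).resolve_left (fun h => hnc h.symm)
    have b2 : v * a * v = a * v * a := (tt_braid hS hv ha).resolve_left hnc'
    have key := tt_conj_eq hd2 ha2 cdv.eq b1 b2
    have hdvN : d * v ∈ Cfsg.pCore 2 G := by
      rw [hdi] at hdv
      exact hdv
    refine ⟨a * d * v * a * d * v, ?_, ?_⟩
    · have h1 : a * d * v * a * d * v = (a * (d * v) * a⁻¹) * (d * v) := by
        rw [hai]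
        group
      rw [h1]
      exact (Cfsg.pCore 2 G).mul_mem (hN.conj_mem _ hdvN a) hdvN
    · rw [key]
      group
  · rintro ⟨g, hg, rfl⟩
    refine ⟨tt_conj_mem hD hd g, ?_⟩
    have h1 : d⁻¹ * (g * d * g⁻¹) = (d⁻¹ * g * d⁻¹⁻¹) * g⁻¹ := by group
    rw [h1]
    exact (Cfsg.pCore 2 G).mul_mem (hN.conj_mem _ hg d⁻¹) ((Cfsg.pCore 2 G).inv_mem hg)

end

/-- Let D be a conjugacy class of 3-transpositions generating the finite group G, with at least two members, and d a member of D. Then the set of members of D commuting with exactly the same members of D as d coincides with the set of members of D lying in the coset of d modulo the largest normal 2-subgroup of G, and also with the orbit of d under conjugation by that normal 2-subgroup. -/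
theorem result {G : Type*} [Group G] [Finite G] {D : Set G} (hD : Cfsg.IsThreeTranspositionClass D) (hD2 : ∃ a ∈ D, ∃ b ∈ D, a ≠ b) {d : G} (hd : d ∈ D) : {v : G | v ∈ D ∧ ∀ e ∈ D, Commute v e ↔ Commute d e} = {v : G | v ∈ D ∧ d⁻¹ * v ∈ Cfsg.pCore 2 G} ∧ {v : G | v ∈ D ∧ ∀ e ∈ D, Commute v e ↔ Commute d e} = {v : G | ∃ g ∈ Cfsg.pCore 2 G, v = g * d * g⁻¹} := by
  exact main hD hD2 hd

end Cfsg.Agent.S5349
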