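import Cfsg.Statements.S5351
-- import your own Cfsg.Agent.* helpers here
import Cfsg.Agent.Lib.helper26.TTZ
import Cfsg.Agent.Lib.helper7.FStar
import Cfsg.Agent.Lib.helper7.Derived
import Cfsg.Agent.Lib.helper1.Fitting

set_option autoImplicit false
open Cfsg

namespace Cfsg.Agent.S5351

section
open Cfsg.Agent.Lib.helper26 Cfsg
open Cfsg.Agent.Lib.helper14 (isPGroup_pCore pCore_normal')
open scoped commutatorElement

variable {G : Type*} [Group G]

theorem commute_of_sq {D : Set G} (hS : IsThreeTranspositionSet D) {a b : G} (ha : a ∈ D)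
    (hb : b ∈ D) (h : (a * b) ^ 2 = 1) : Commute a b := by
  have h1 : a * b * (a * b) = 1 := by rw [← pow_two]; exact h
  have h2 : a * b = (a * b)⁻¹ := eq_inv_of_mul_eq_one_left h1
  rw [mul_inv_rev, tt_inv hS ha, tt_inv hS hb] at h2
  exact h2

theorem eq_one_of_pows {x : G} {p k m : ℕ} (h1 : x ^ p ^ k = 1) (h2 : x ^ m = 1)
    (hc : Nat.Coprime p m) : x = 1 := by
  have h3 := pow_gcd_eq_one.2 ⟨h1, h2⟩
  rwa [Nat.Coprime.pow_left k hc, pow_one] at h3

theorem exists_pow_of_mem_pCore {p : ℕ} {x : G} (hx : x ∈ pCore p G) : ∃ k : ℕ, x ^ p ^ k = 1 := by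
  obtain ⟨k, hk⟩ := isPGroup_pCore p G ⟨x, hx⟩
  exact ⟨k, by simpa using congrArg Subtype.val hk⟩

theorem eq_one_of_mem_two_three {x : G} (h2 : x ∈ pCore 2 G) (h3 : x ∈ pCore 3 G) : x = 1 := by
  obtain ⟨k, hk⟩ := exists_pow_of_mem_pCore h2
  obtain ⟨m, hm⟩ := exists_pow_of_mem_pCore h3
  exact eq_one_of_pows hk hm (Nat.Coprime.pow_right m (by norm_num))

theorem closure_conj_mem {S T : Set G}
    (h : ∀ g ∈ S, ∀ t ∈ T, g * t * g⁻¹ ∈ T ∧ g⁻¹ * t * g ∈ T) :
    ∀ g ∈ Subgroup.closure S, ∀ t ∈ T, g * t * g⁻¹ ∈ T ∧ g⁻¹ * t * g ∈ T := by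
  intro g hg
  induction hg using Subgroup.closure_induction with
  | mem x hx => exact h x hx
  | one =>
    intro t ht
    simpa using ht
  | mul x y _ _ hx hy =>
    intro t ht
    constructor
    · have e : x * y * t * (x * y)⁻¹ = x * (y * t * y⁻¹) * x⁻¹ := by group
      rw [e]
      exact (hx _ (hy t ht).1).1
    · have e : (x * y)⁻¹ * t * (x * y) = y⁻¹ * (x⁻¹ * t * x) * y := by group
      rw [e]
      exact (hy _ (hx t ht).2).2
  | inv x _ hx =>
    intro t ht
    constructor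
    · have := (hx t ht).2
      rwa [inv_inv]
    · have := (hx t ht).1
      rwa [inv_inv]

theorem conj_closure_mem {S : Set G} {k : G} (h : ∀ s ∈ S, k * s * k⁻¹ ∈ Subgroup.closure S) :
    ∀ m ∈ Subgroup.closure S, k * m * k⁻¹ ∈ Subgroup.closure S := by
  intro m hm
  induction hm using Subgroup.closure_induction with
  | mem x hx => exact h x hx
  | one =>
    have e : k * 1 * k⁻¹ = 1 := by group
    rw [e]
    exact Subgroup.one_mem _
  | mul x y _ _ hx hy =>
    have e : k * (x * y) * k⁻¹ = (k * x * k⁻¹) * (k * y * k⁻¹) := by group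
    rw [e]
    exact Subgroup.mul_mem _ hx hy
  | inv x _ hx =>
    have e : k * x⁻¹ * k⁻¹ = (k * x * k⁻¹)⁻¹ := by group
    rw [e]
    exact Subgroup.inv_mem _ hx

/-- for a prime `p > 3` the `p`-core of a `3`-transposition group is central -/
theorem pCore_le_center_of_gt {D : Set G} (hD : IsThreeTranspositionClass D) {p : ℕ}
    (hp : p.Prime) (h3 : 3 < p) : pCore p G ≤ Subgroup.center G := by
  have hS := hD.1
  haveI := pCore_normal' p G
  intro x hx
  have hle : Subgroup.closure D ≤ Subgroup.centralizer ({x} : Set G) := by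
    rw [Subgroup.closure_le]
    intro a ha
    refine Subgroup.mem_centralizer_iff.2 ?_
    intro y hy
    rw [Set.mem_singleton_iff] at hy
    subst hy
    have hz : a * y * a⁻¹ * y⁻¹ ∈ pCore p G :=
      Subgroup.mul_mem _ (Subgroup.Normal.conj_mem inferInstance y hx a) (Subgroup.inv_mem _ hx)
    have e : a * y * a⁻¹ * y⁻¹ = a * (y * a * y⁻¹) := by
      rw [tt_inv hS ha]
      group
    obtain ⟨k, hk⟩ := exists_pow_of_mem_pCore hz
    have hz1 : a * y * a⁻¹ * y⁻¹ = 1 := by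
      rcases hS.2 a ha (y * a * y⁻¹) (tt_conj_mem hD ha y) with h | h
      · rw [← e] at h
        exact eq_one_of_pows hk h ((Nat.coprime_primes hp Nat.prime_two).2 (by omega))
      · rw [← e] at h
        exact eq_one_of_pows hk h ((Nat.coprime_primes hp Nat.prime_three).2 (by omega))
    calc y * a = (a * y * a⁻¹ * y⁻¹)⁻¹ * (a * y) := by group
      _ = a * y := by rw [hz1, inv_one, one_mul]
  rw [hD.2.2] at hle
  rw [Subgroup.mem_center_iff]
  intro g
  exact (Subgroup.mem_centralizer_iff.1 (hle (Subgroup.mem_top g))) x rfl |>.symm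

theorem exists_conj {D : Set G} (hD : IsThreeTranspositionClass D) {d a : G} (hd : d ∈ D)
    (ha : a ∈ D) : ∃ c : G, c * d * c⁻¹ = a := by
  obtain ⟨d₀, -, hD0⟩ := hD.2.1
  have h1 : IsConj d a := by
    have ha' : IsConj d₀ a := by rw [hD0] at ha; exact ha
    have hd' : IsConj d₀ d := by rw [hD0] at hd; exact hd
    exact hd'.symm.trans ha'
  exact isConj_iff.1 h1

/-- a non-central normal subgroup is not centralised by any member of the class -/
theorem exists_noncomm {D : Set G} (hD : IsThreeTranspositionClass D) {N : Subgroup G}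
    [hN : N.Normal] (h : ¬ N ≤ Subgroup.center G) {d : G} (hd : d ∈ D) :
    ∃ x ∈ N, d * x ≠ x * d := by
  by_contra hcon
  push Not at hcon
  apply h
  intro x hx
  have hle : Subgroup.closure D ≤ Subgroup.centralizer ({x} : Set G) := by
    rw [Subgroup.closure_le]
    intro a ha
    refine Subgroup.mem_centralizer_iff.2 ?_
    intro y hy
    rw [Set.mem_singleton_iff] at hy
    subst hy
    obtain ⟨c, rfl⟩ := exists_conj hD hd ha
    have h1 := hcon (c⁻¹ * y * c) (by
      have := hN.conj_mem y hx c⁻¹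
      rwa [inv_inv] at this)
    calc y * (c * d * c⁻¹) = c * ((c⁻¹ * y * c) * d) * c⁻¹ := by group
      _ = c * (d * (c⁻¹ * y * c)) * c⁻¹ := by rw [h1]
      _ = c * d * c⁻¹ * y := by group
  rw [hD.2.2] at hle
  rw [Subgroup.mem_center_iff]
  intro g
  exact (Subgroup.mem_centralizer_iff.1 (hle (Subgroup.mem_top g))) x rfl |>.symm

/-- (4): not all of `O₂`, `O₃` central and the layer trivial -/
theorem layer_ne_bot_of_central [Finite G] {D : Set G} (hD : IsThreeTranspositionClass D)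
    (hD2 : ∃ a ∈ D, ∃ b ∈ D, a ≠ b) (h2 : pCore 2 G ≤ Subgroup.center G)
    (h3 : pCore 3 G ≤ Subgroup.center G) : layer G ≠ ⊥ := by
  intro hE
  have hF : fittingSubgroup G ≤ Subgroup.center G := by
    rw [Cfsg.Agent.Lib.helper1.fitting_eq_iSup_pCore]
    apply iSup_le
    intro p
    by_cases hp2 : (p : ℕ) = 2
    · rw [hp2]; exact h2
    by_cases hp3 : (p : ℕ) = 3
    · rw [hp3]; exact h3
    have hp := p.2
    have h2le := hp.two_le
    have hne4 : (p : ℕ) ≠ 4 := by
      intro h4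
      rw [h4] at hp
      exact absurd hp (by decide)
    exact pCore_le_center_of_gt hD hp (by omega)
  have hFs : generalizedFittingSubgroup G ≤ Subgroup.center G := by
    unfold generalizedFittingSubgroup
    rw [hE, bot_sup_eq]
    exact hF
  have hC := Cfsg.Agent.Lib.helper7.centralizer_genFitting_le G
  have htop : Subgroup.centralizer (generalizedFittingSubgroup G : Set G) = ⊤ := by
    rw [Subgroup.centralizer_eq_top_iff_subset]
    exact hFs
  rw [htop] at hC
  obtain ⟨a, ha, b, hb, hab⟩ := hD2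
  obtain ⟨c, hc, hca⟩ := tt_exists_not_commute hD ⟨a, ha, b, hb, hab⟩ ha
  apply hca
  have hcen : a ∈ Subgroup.center G := hFs (hC (Subgroup.mem_top a))
  rw [Subgroup.mem_center_iff] at hcen
  exact hcen c

/-- (1): `O₂` and `O₃` are not both non-central -/
theorem not_two_three [Finite G] {D : Set G} (hD : IsThreeTranspositionClass D)
    (h2 : ¬ pCore 2 G ≤ Subgroup.center G) (h3 : ¬ pCore 3 G ≤ Subgroup.center G) : False := by
  have hS := hD.1
  haveI := pCore_normal' 2 G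
  haveI := pCore_normal' 3 G
  obtain ⟨d, hd, -⟩ := hD.2.1
  have hdi := tt_inv hS hd
  have hd2 := tt_sq hS hd
  obtain ⟨x, hx, hdx⟩ := exists_noncomm hD h2 hd
  obtain ⟨y, hy, hdy⟩ := exists_noncomm hD h3 hd
  have haD : x * d * x⁻¹ ∈ D := tt_conj_mem hD hd x
  have hbD : y * d * y⁻¹ ∈ D := tt_conj_mem hD hd y
  obtain ⟨z₂, hz₂⟩ : ∃ z, z = d * (x * d * x⁻¹) := ⟨_, rfl⟩
  obtain ⟨z₃, hz₃⟩ : ∃ z, z = d * (y * d * y⁻¹) := ⟨_, rfl⟩
  have hz₂m : z₂ ∈ pCore 2 G := by
    have e : z₂ = (d * x * d⁻¹) * x⁻¹ := by rw [hz₂, hdi]; group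
    rw [e]
    exact Subgroup.mul_mem _ (Subgroup.Normal.conj_mem inferInstance x hx d)
      (Subgroup.inv_mem _ hx)
  have hz₃m : z₃ ∈ pCore 3 G := by
    have e : z₃ = (d * y * d⁻¹) * y⁻¹ := by rw [hz₃, hdi]; group
    rw [e]
    exact Subgroup.mul_mem _ (Subgroup.Normal.conj_mem inferInstance y hy d)
      (Subgroup.inv_mem _ hy)
  have hz₂1 : z₂ ≠ 1 := by
    intro h
    apply hdx
    rw [hz₂] at h
    have h4 : d * x * d * x⁻¹ = 1 := by rw [← h]; group
    calc d * x = d * x * d * x⁻¹ * x * d⁻¹ := by group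
      _ = x * d := by rw [h4, hdi, one_mul]
  have hz₃1 : z₃ ≠ 1 := by
    intro h
    apply hdy
    rw [hz₃] at h
    have h4 : d * y * d * y⁻¹ = 1 := by rw [← h]; group
    calc d * y = d * y * d * y⁻¹ * y * d⁻¹ := by group
      _ = y * d := by rw [h4, hdi, one_mul]
  have hcomm : Commute z₂ z₃ := by
    have hc : z₂ * z₃ * z₂⁻¹ * z₃⁻¹ = 1 := by
      apply eq_one_of_mem_two_three
      · have e : z₂ * z₃ * z₂⁻¹ * z₃⁻¹ = z₂ * (z₃ * z₂⁻¹ * z₃⁻¹) := by group
        rw [e]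
        exact Subgroup.mul_mem _ hz₂m
          (Subgroup.Normal.conj_mem inferInstance _ (Subgroup.inv_mem _ hz₂m) z₃)
      · exact Subgroup.mul_mem _ (Subgroup.Normal.conj_mem inferInstance _ hz₃m z₂)
          (Subgroup.inv_mem _ hz₃m)
    show z₂ * z₃ = z₃ * z₂
    calc z₂ * z₃ = (z₂ * z₃ * z₂⁻¹ * z₃⁻¹) * z₃ * z₂ := by group
      _ = z₃ * z₂ := by rw [hc, one_mul]
  have hab : (x * d * x⁻¹) * (y * d * y⁻¹) = z₂⁻¹ * z₃ := by
    rw [hz₂, hz₃, mul_inv_rev, tt_inv hS haD, hdi]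
    calc (x * d * x⁻¹) * (y * d * y⁻¹) = (x * d * x⁻¹) * (d * d) * (y * d * y⁻¹) := by
          rw [hd2, mul_one]
      _ = (x * d * x⁻¹) * d * (d * (y * d * y⁻¹)) := by group
  have hpow : ∀ n : ℕ, ((x * d * x⁻¹) * (y * d * y⁻¹)) ^ n = 1 → z₃ ^ n = z₂ ^ n := by
    intro n hn
    rw [hab, (hcomm.inv_left).mul_pow, inv_pow, inv_mul_eq_one] at hn
    exact hn.symm
  rcases hS.2 _ haD _ hbD with h | h
  · have h5 := hpow 2 h
    have h6 : z₃ ^ 2 = 1 := by
      apply eq_one_of_mem_two_three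
      · rw [h5]; exact Subgroup.pow_mem _ hz₂m 2
      · exact Subgroup.pow_mem _ hz₃m 2
    obtain ⟨k, hk⟩ := exists_pow_of_mem_pCore hz₃m
    exact hz₃1 (eq_one_of_pows hk h6 (by norm_num))
  · have h5 := hpow 3 h
    have h6 : z₂ ^ 3 = 1 := by
      apply eq_one_of_mem_two_three
      · exact Subgroup.pow_mem _ hz₂m 3
      · rw [← h5]; exact Subgroup.pow_mem _ hz₃m 3
    obtain ⟨k, hk⟩ := exists_pow_of_mem_pCore hz₂m
    exact hz₂1 (eq_one_of_pows hk h6 (by norm_num))

theorem comm_mul_left' {z g k : G} (h1 : Commute z g) (h2 : Commute z k) :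
    (z * g) * k * (z * g)⁻¹ * k⁻¹ = g * k * g⁻¹ * k⁻¹ := by
  have hc : Commute z (g * k * g⁻¹ * k⁻¹) :=
    ((h1.mul_right h2).mul_right h1.inv_right).mul_right h2.inv_right
  calc (z * g) * k * (z * g)⁻¹ * k⁻¹ = z * (g * k * g⁻¹) * (z⁻¹ * k⁻¹) := by group
    _ = z * (g * k * g⁻¹) * (k⁻¹ * z⁻¹) := by rw [(h2.inv_left.inv_right).eq]
    _ = z * (g * k * g⁻¹ * k⁻¹) * z⁻¹ := by group
    _ = (g * k * g⁻¹ * k⁻¹) * z * z⁻¹ := by rw [hc.eq]
    _ = g * k * g⁻¹ * k⁻¹ := by group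

theorem comm_mul_right' {w g h : G} (h1 : Commute w g) (h2 : Commute w h) :
    g * (w * h) * g⁻¹ * (w * h)⁻¹ = g * h * g⁻¹ * h⁻¹ := by
  have hc : Commute w (g * h * g⁻¹ * h⁻¹) :=
    ((h1.mul_right h2).mul_right h1.inv_right).mul_right h2.inv_right
  calc g * (w * h) * g⁻¹ * (w * h)⁻¹ = (g * w) * (h * g⁻¹ * h⁻¹) * w⁻¹ := by group
    _ = (w * g) * (h * g⁻¹ * h⁻¹) * w⁻¹ := by rw [h1.eq]
    _ = w * (g * h * g⁻¹ * h⁻¹) * w⁻¹ := by group
    _ = (g * h * g⁻¹ * h⁻¹) * w * w⁻¹ := by rw [hc.eq]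
    _ = g * h * g⁻¹ * h⁻¹ := by group

/-- an element whose commutators with the layer generate a solvable group centralises the layer -/
theorem layer_centralized [Finite G] {d : G}
    (hsolv : Group.IsSolvable
      (Subgroup.closure {y : G | ∃ g ∈ layer G, y = d * g * d⁻¹ * g⁻¹})) :
    ∀ g ∈ layer G, d * g = g * d := by
  haveI : (layer G).Normal := Cfsg.Agent.Lib.helper7.layer_normal
  obtain ⟨N, hNdef⟩ : ∃ N : Subgroup G,
      N = Subgroup.closure {y : G | ∃ g ∈ layer G, y = d * g * d⁻¹ * g⁻¹} := ⟨_, rfl⟩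
  rw [← hNdef] at hsolv
  have hconjN : ∀ h ∈ layer G, ∀ n ∈ N, h * n * h⁻¹ ∈ N := by
    intro h hh n hn
    rw [hNdef] at hn ⊢
    refine conj_closure_mem ?_ n hn
    rintro s ⟨g, hg, rfl⟩
    have e : h * (d * g * d⁻¹ * g⁻¹) * h⁻¹ =
        (d * h * d⁻¹ * h⁻¹)⁻¹ * (d * (h * g) * d⁻¹ * (h * g)⁻¹) := by group
    rw [e]
    exact Subgroup.mul_mem _ (Subgroup.inv_mem _ (Subgroup.subset_closure ⟨h, hh, rfl⟩))
      (Subgroup.subset_closure ⟨h * g, Subgroup.mul_mem _ hh hg, rfl⟩)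
  have hnorm : layer G ≤ Subgroup.normalizer (N : Set G) := by
    intro h hh
    rw [Subgroup.mem_normalizer_iff]
    intro n
    constructor
    · exact hconjN h hh n
    · intro hn
      have h1 := hconjN h⁻¹ (Subgroup.inv_mem _ hh) _ hn
      have e : h⁻¹ * (h * n * h⁻¹) * h⁻¹⁻¹ = n := by group
      rwa [e] at h1
  have hcent : layer G ≤ Subgroup.centralizer (N : Set G) := by
    unfold layer
    apply sSup_le
    intro K hK
    rw [← Subgroup.commutator_eq_bot_iff_le_centralizer]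
    exact Cfsg.Agent.Lib.helper7.comp_comm_of_solvable K N hK hsolv
      ((Cfsg.Agent.Lib.helper7.comp_le_layer hK).trans hnorm)
  have hcomm : ∀ e ∈ layer G, ∀ n ∈ N, Commute n e := by
    intro e he n hn
    exact (Subgroup.mem_centralizer_iff.1 (hcent he)) n hn
  have hφ : ∀ g ∈ layer G, d * g * d⁻¹ * g⁻¹ ∈ N := by
    intro g hg
    rw [hNdef]
    exact Subgroup.subset_closure ⟨g, hg, rfl⟩
  have hφE : ∀ g ∈ layer G, d * g * d⁻¹ * g⁻¹ ∈ layer G := by
    intro g hg
    exact Subgroup.mul_mem _ (Subgroup.Normal.conj_mem inferInstance g hg d)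
      (Subgroup.inv_mem _ hg)
  have hle : ⁅layer G, layer G⁆ ≤ Subgroup.centralizer ({d} : Set G) := by
    rw [Subgroup.commutator_le]
    intro g hg h hh
    refine Subgroup.mem_centralizer_iff.2 ?_
    intro y hy
    rw [Set.mem_singleton_iff] at hy
    subst hy
    rw [commutatorElement_def]
    have hz := hφ g hg
    have hw := hφ h hh
    have e1 : y * g * y⁻¹ = (y * g * y⁻¹ * g⁻¹) * g := by group
    have e2 : y * h * y⁻¹ = (y * h * y⁻¹ * h⁻¹) * h := by group
    have key : y * (g * h * g⁻¹ * h⁻¹) * y⁻¹ = g * h * g⁻¹ * h⁻¹ := by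
      calc y * (g * h * g⁻¹ * h⁻¹) * y⁻¹
          = (y * g * y⁻¹) * (y * h * y⁻¹) * (y * g * y⁻¹)⁻¹ * (y * h * y⁻¹)⁻¹ := by group
        _ = ((y * g * y⁻¹ * g⁻¹) * g) * (y * h * y⁻¹) *
            ((y * g * y⁻¹ * g⁻¹) * g)⁻¹ * (y * h * y⁻¹)⁻¹ := by rw [← e1]
        _ = g * (y * h * y⁻¹) * g⁻¹ * (y * h * y⁻¹)⁻¹ := by
            apply comm_mul_left' (hcomm g hg _ hz)
            rw [e2]
            exact (hcomm _ (hφE h hh) _ hz).mul_right (hcomm h hh _ hz)
        _ = g * ((y * h * y⁻¹ * h⁻¹) * h) * g⁻¹ * ((y * h * y⁻¹ * h⁻¹) * h)⁻¹ := by rw [← e2]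
        _ = g * h * g⁻¹ * h⁻¹ := comm_mul_right' (hcomm g hg _ hw) (hcomm h hh _ hw)
    calc y * (g * h * g⁻¹ * h⁻¹) = (y * (g * h * g⁻¹ * h⁻¹) * y⁻¹) * y := by group
      _ = g * h * g⁻¹ * h⁻¹ * y := by rw [key]
  rw [Cfsg.Agent.Lib.helper7.layer_perfect] at hle
  intro g hg
  exact (Subgroup.mem_centralizer_iff.1 (hle hg)) d rfl

/-- if one member of the class centralises the layer, the layer is trivial -/
theorem layer_eq_bot_of_centralized {D : Set G} (hD : IsThreeTranspositionClass D) {d : G}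
    (hd : d ∈ D) (h : ∀ g ∈ layer G, d * g = g * d) : layer G = ⊥ := by
  haveI : (layer G).Normal := Cfsg.Agent.Lib.helper7.layer_normal
  have hcen : layer G ≤ Subgroup.center G := by
    intro e he
    have hle : Subgroup.closure D ≤ Subgroup.centralizer ({e} : Set G) := by
      rw [Subgroup.closure_le]
      intro a ha
      refine Subgroup.mem_centralizer_iff.2 ?_
      intro y hy
      rw [Set.mem_singleton_iff] at hy
      subst hy
      obtain ⟨c, rfl⟩ := exists_conj hD hd ha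
      have h1 := h (c⁻¹ * y * c) (by
        have := Subgroup.Normal.conj_mem (inferInstance : (layer G).Normal) y he c⁻¹
        rwa [inv_inv] at this)
      calc y * (c * d * c⁻¹) = c * ((c⁻¹ * y * c) * d) * c⁻¹ := by group
        _ = c * (d * (c⁻¹ * y * c)) * c⁻¹ := by rw [h1]
        _ = c * d * c⁻¹ * y := by group
    rw [hD.2.2] at hle
    rw [Subgroup.mem_center_iff]
    intro g
    exact (Subgroup.mem_centralizer_iff.1 (hle (Subgroup.mem_top g))) e rfl |>.symm
  have hab : ⁅layer G, layer G⁆ = ⊥ := by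
    rw [Subgroup.commutator_eq_bot_iff_le_centralizer]
    intro e he
    refine Subgroup.mem_centralizer_iff.2 ?_
    intro y _
    have := hcen he
    rw [Subgroup.mem_center_iff] at this
    exact this y
  rw [Cfsg.Agent.Lib.helper7.layer_perfect] at hab
  exact hab

/-- the common setup of (2) and (3): a member `d`, a conjugate `a` under `O_p` -/
theorem layer_commutes_pCore [Finite G] (p : ℕ) [Fact p.Prime] :
    ∀ e ∈ layer G, ∀ u ∈ pCore p G, Commute u e := by
  haveI := pCore_normal' p G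
  have hsolv : Group.IsSolvable (pCore p G) := by
    have := (isPGroup_pCore p G).isNilpotent
    infer_instance
  have h := Cfsg.Agent.Lib.helper7.layer_comm_solvable_normal (pCore p G) hsolv
  rw [Subgroup.commutator_eq_bot_iff_le_centralizer] at h
  intro e he u hu
  exact (Subgroup.mem_centralizer_iff.1 (h he)) u hu

/-- (2): if `O₂` is not central, the layer is trivial -/
theorem layer_eq_bot_of_two [Finite G] {D : Set G} (hD : IsThreeTranspositionClass D)
    (h2 : ¬ pCore 2 G ≤ Subgroup.center G) : layer G = ⊥ := by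
  haveI : Fact (Nat.Prime 2) := ⟨Nat.prime_two⟩
  have hS := hD.1
  haveI := pCore_normal' 2 G
  haveI : (layer G).Normal := Cfsg.Agent.Lib.helper7.layer_normal
  obtain ⟨d, hd, -⟩ := hD.2.1
  have hdi := tt_inv hS hd
  have hd2 := tt_sq hS hd
  obtain ⟨x, hx, hdx⟩ := exists_noncomm hD h2 hd
  have haD : x * d * x⁻¹ ∈ D := tt_conj_mem hD hd x
  obtain ⟨z, hz⟩ : ∃ z, z = d * (x * d * x⁻¹) := ⟨_, rfl⟩
  have hzm : z ∈ pCore 2 G := by
    have e : z = (d * x * d⁻¹) * x⁻¹ := by rw [hz, hdi]; group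
    rw [e]
    exact Subgroup.mul_mem _ (Subgroup.Normal.conj_mem inferInstance x hx d)
      (Subgroup.inv_mem _ hx)
  have hz1 : z ≠ 1 := by
    intro h
    apply hdx
    rw [hz] at h
    have h4 : d * x * d * x⁻¹ = 1 := by rw [← h]; group
    calc d * x = d * x * d * x⁻¹ * x * d⁻¹ := by group
      _ = x * d := by rw [h4, hdi, one_mul]
  obtain ⟨kz, hkz⟩ := exists_pow_of_mem_pCore hzm
  have hcE := layer_commutes_pCore (G := G) 2
  -- every commutator `d g d⁻¹ g⁻¹` with `g` in the layer squares to `1`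
  have hsq : ∀ g ∈ layer G, (d * (g * d * g⁻¹)) ^ 2 = 1 := by
    intro g hg
    have hbD : g * d * g⁻¹ ∈ D := tt_conj_mem hD hd g
    have hyE : d * (g * d * g⁻¹) ∈ layer G := by
      have e : d * (g * d * g⁻¹) = (d * g * d⁻¹) * g⁻¹ := by rw [hdi]; group
      rw [e]
      exact Subgroup.mul_mem _ (Subgroup.Normal.conj_mem inferInstance g hg d)
        (Subgroup.inv_mem _ hg)
    have hcomm : Commute z (d * (g * d * g⁻¹)) := hcE _ hyE z hzm
    have hab : (x * d * x⁻¹) * (g * d * g⁻¹) = z⁻¹ * (d * (g * d * g⁻¹)) := by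
      rw [hz, mul_inv_rev, tt_inv hS haD, hdi]
      calc (x * d * x⁻¹) * (g * d * g⁻¹) = (x * d * x⁻¹) * (d * d) * (g * d * g⁻¹) := by
            rw [hd2, mul_one]
        _ = (x * d * x⁻¹) * d * (d * (g * d * g⁻¹)) := by group
    have hpow : ∀ n : ℕ, ((x * d * x⁻¹) * (g * d * g⁻¹)) ^ n = 1 →
        (d * (g * d * g⁻¹)) ^ n = z ^ n := by
      intro n hn
      rw [hab, (hcomm.inv_left).mul_pow, inv_pow, inv_mul_eq_one] at hn
      exact hn.symm
    rcases hS.2 _ haD _ hbD with h | h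
    · have h5 := hpow 2 h
      rcases hS.2 d hd _ hbD with h' | h'
      · exact h'
      · -- y³ = 1 and y² = z² ∈ O₂, so y ∈ O₂ and y = 1
        have hy2 : (d * (g * d * g⁻¹)) ^ 2 ∈ pCore 2 G := by
          rw [h5]; exact Subgroup.pow_mem _ hzm 2
        have hy : d * (g * d * g⁻¹) ∈ pCore 2 G := by
          have e : d * (g * d * g⁻¹) =
              (d * (g * d * g⁻¹)) ^ 3 * ((d * (g * d * g⁻¹)) ^ 2)⁻¹ := by
            group
          rw [e, h', one_mul]
          exact Subgroup.inv_mem _ hy2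
        obtain ⟨k, hk⟩ := exists_pow_of_mem_pCore hy
        rw [eq_one_of_pows hk h' (by norm_num), one_pow]
    · have h5 := hpow 3 h
      rcases hS.2 d hd _ hbD with h' | h'
      · exact h'
      · exfalso
        rw [h'] at h5
        exact hz1 (eq_one_of_pows hkz h5.symm (by norm_num))
  apply layer_eq_bot_of_centralized hD hd
  apply layer_centralized
  -- the commutators pairwise commute
  have hform : ∀ g : G, d * g * d⁻¹ * g⁻¹ = d * (g * d * g⁻¹) := by
    intro g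
    rw [hdi]
    group
  have hdb : ∀ g ∈ layer G, Commute d (g * d * g⁻¹) := fun g hg =>
    commute_of_sq hS hd (tt_conj_mem hD hd g) (hsq g hg)
  have hbb : ∀ g ∈ layer G, ∀ h ∈ layer G, Commute (g * d * g⁻¹) (h * d * h⁻¹) := by
    intro g hg h hh
    have h1 := hdb (g⁻¹ * h) (Subgroup.mul_mem _ (Subgroup.inv_mem _ hg) hh)
    have h2 := (Commute.conj_iff g).2 h1
    have e : g * ((g⁻¹ * h) * d * (g⁻¹ * h)⁻¹) * g⁻¹ = h * d * h⁻¹ := by group
    rw [e] at h2
    exact h2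
  have hpair : ∀ s ∈ {y : G | ∃ g ∈ layer G, y = d * g * d⁻¹ * g⁻¹},
      ∀ t ∈ {y : G | ∃ g ∈ layer G, y = d * g * d⁻¹ * g⁻¹}, Commute s t := by
    rintro s ⟨g, hg, rfl⟩ t ⟨h, hh, rfl⟩
    rw [hform, hform]
    exact ((Commute.refl d).mul_right (hdb h hh)).mul_left
      (((hdb g hg).symm).mul_right (hbb g hg h hh))
  have hle1 : Subgroup.closure {y : G | ∃ g ∈ layer G, y = d * g * d⁻¹ * g⁻¹} ≤
      Subgroup.centralizer {y : G | ∃ g ∈ layer G, y = d * g * d⁻¹ * g⁻¹} := by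
    rw [Subgroup.closure_le]
    intro s hs
    refine Subgroup.mem_centralizer_iff.2 ?_
    intro t ht
    exact (hpair t ht s hs).eq
  have hle2 : Subgroup.closure {y : G | ∃ g ∈ layer G, y = d * g * d⁻¹ * g⁻¹} ≤
      Subgroup.centralizer
        (Subgroup.closure {y : G | ∃ g ∈ layer G, y = d * g * d⁻¹ * g⁻¹} : Set G) := by
    rw [Subgroup.closure_le]
    intro s hs
    refine Subgroup.mem_centralizer_iff.2 ?_
    intro n hn
    exact ((Subgroup.mem_centralizer_iff.1 (hle1 hn)) s hs).symm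
  apply Group.isSolvable_of_comm
  rintro ⟨a, ha⟩ ⟨b, hb⟩
  apply Subtype.ext
  exact ((Subgroup.mem_centralizer_iff.1 (hle2 hb)) a ha)

/-- the class of `d` under the layer, inside the subgroup it generates -/
def layerClass (d : G) : Set G := {b : G | ∃ g ∈ layer G, b = g * d * g⁻¹}

/-- (3): if `O₃` is not central, the layer is trivial -/
theorem layer_eq_bot_of_three [Finite G] {D : Set G} (hD : IsThreeTranspositionClass D)
    (h3 : ¬ pCore 3 G ≤ Subgroup.center G) : layer G = ⊥ := by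
  haveI : Fact (Nat.Prime 3) := ⟨Nat.prime_three⟩
  have hS := hD.1
  haveI := pCore_normal' 3 G
  haveI : (layer G).Normal := Cfsg.Agent.Lib.helper7.layer_normal
  obtain ⟨d, hd, -⟩ := hD.2.1
  have hdi := tt_inv hS hd
  have hd2 := tt_sq hS hd
  obtain ⟨x, hx, hdx⟩ := exists_noncomm hD h3 hd
  have haD : x * d * x⁻¹ ∈ D := tt_conj_mem hD hd x
  obtain ⟨z, hz⟩ : ∃ z, z = d * (x * d * x⁻¹) := ⟨_, rfl⟩
  have hzm : z ∈ pCore 3 G := by
    have e : z = (d * x * d⁻¹) * x⁻¹ := by rw [hz, hdi]; group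
    rw [e]
    exact Subgroup.mul_mem _ (Subgroup.Normal.conj_mem inferInstance x hx d)
      (Subgroup.inv_mem _ hx)
  have hz1 : z ≠ 1 := by
    intro h
    apply hdx
    rw [hz] at h
    have h4 : d * x * d * x⁻¹ = 1 := by rw [← h]; group
    calc d * x = d * x * d * x⁻¹ * x * d⁻¹ := by group
      _ = x * d := by rw [h4, hdi, one_mul]
  obtain ⟨kz, hkz⟩ := exists_pow_of_mem_pCore hzm
  have hcE := layer_commutes_pCore (G := G) 3
  have hcube : ∀ g ∈ layer G, (d * (g * d * g⁻¹)) ^ 3 = 1 := by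
    intro g hg
    have hbD : g * d * g⁻¹ ∈ D := tt_conj_mem hD hd g
    have hyE : d * (g * d * g⁻¹) ∈ layer G := by
      have e : d * (g * d * g⁻¹) = (d * g * d⁻¹) * g⁻¹ := by rw [hdi]; group
      rw [e]
      exact Subgroup.mul_mem _ (Subgroup.Normal.conj_mem inferInstance g hg d)
        (Subgroup.inv_mem _ hg)
    have hcomm : Commute z (d * (g * d * g⁻¹)) := hcE _ hyE z hzm
    have hab : (x * d * x⁻¹) * (g * d * g⁻¹) = z⁻¹ * (d * (g * d * g⁻¹)) := by
      rw [hz, mul_inv_rev, tt_inv hS haD, hdi]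
      calc (x * d * x⁻¹) * (g * d * g⁻¹) = (x * d * x⁻¹) * (d * d) * (g * d * g⁻¹) := by
            rw [hd2, mul_one]
        _ = (x * d * x⁻¹) * d * (d * (g * d * g⁻¹)) := by group
    have hpow : ∀ n : ℕ, ((x * d * x⁻¹) * (g * d * g⁻¹)) ^ n = 1 →
        (d * (g * d * g⁻¹)) ^ n = z ^ n := by
      intro n hn
      rw [hab, (hcomm.inv_left).mul_pow, inv_pow, inv_mul_eq_one] at hn
      exact hn.symm
    rcases hS.2 _ haD _ hbD with h | h
    · have h5 := hpow 2 h
      rcases hS.2 d hd _ hbD with h' | h'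
      · exfalso
        rw [h'] at h5
        exact hz1 (eq_one_of_pows hkz h5.symm (by norm_num))
      · exact h'
    · have h5 := hpow 3 h
      rcases hS.2 d hd _ hbD with h' | h'
      · -- y² = 1 and y³ = z³ ∈ O₃: y = y³ ∈ O₃, so y = 1
        have hy3 : (d * (g * d * g⁻¹)) ^ 3 ∈ pCore 3 G := by
          rw [h5]; exact Subgroup.pow_mem _ hzm 3
        have hy : d * (g * d * g⁻¹) ∈ pCore 3 G := by
          have e : (d * (g * d * g⁻¹)) ^ 3 = d * (g * d * g⁻¹) := by
            rw [pow_succ, h', one_mul]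
          rw [← e]
          exact hy3
        obtain ⟨k, hk⟩ := exists_pow_of_mem_pCore hy
        rw [eq_one_of_pows hk h' (by norm_num), one_pow]
      · exact h'
  apply layer_eq_bot_of_centralized hD hd
  apply layer_centralized
  -- the subgroup generated by the layer-conjugates of `d`
  obtain ⟨T, hTdef⟩ : ∃ T : Subgroup G, T = Subgroup.closure (layerClass d) := ⟨_, rfl⟩
  have hclD : ∀ b ∈ layerClass d, b ∈ D := by
    rintro b ⟨g, -, rfl⟩
    exact tt_conj_mem hD hd g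
  have hcl_cube : ∀ b ∈ layerClass d, ∀ b' ∈ layerClass d, (b * b') ^ 3 = 1 := by
    rintro b ⟨g, hg, rfl⟩ b' ⟨h, hh, rfl⟩
    have h1 := hcube (g⁻¹ * h) (Subgroup.mul_mem _ (Subgroup.inv_mem _ hg) hh)
    have e : (g * d * g⁻¹) * (h * d * h⁻¹) =
        g * (d * ((g⁻¹ * h) * d * (g⁻¹ * h)⁻¹)) * g⁻¹ := by group
    rw [e, conj_pow, h1]
    group
  have hcl_conj : ∀ t ∈ Subgroup.closure (layerClass d), ∀ b ∈ layerClass d,
      t * b * t⁻¹ ∈ layerClass d ∧ t⁻¹ * b * t ∈ layerClass d := by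
    apply closure_conj_mem
    rintro s ⟨g, hg, rfl⟩ b ⟨h, hh, rfl⟩
    have key : (g * d * g⁻¹) * (h * d * h⁻¹) * (g * d * g⁻¹)⁻¹ ∈ layerClass d := by
      refine ⟨g * (d * (g⁻¹ * h) * d⁻¹), ?_, by group⟩
      exact Subgroup.mul_mem _ hg (Subgroup.Normal.conj_mem inferInstance _
        (Subgroup.mul_mem _ (Subgroup.inv_mem _ hg) hh) d)
    refine ⟨key, ?_⟩
    have e : (g * d * g⁻¹)⁻¹ = g * d * g⁻¹ := tt_inv hS (tt_conj_mem hD hd g)
    rw [e]
    rw [e] at key
    exact key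
  have hdT : d ∈ layerClass d := ⟨1, Subgroup.one_mem _, by group⟩
  have hDT : IsThreeTranspositionGroup
      {t : Subgroup.closure (layerClass d) | (t : G) ∈ layerClass d} := by
    refine ⟨⟨?_, ?_⟩, ?_, ?_⟩
    · intro t ht
      rw [← Subgroup.orderOf_coe]
      exact hS.1 _ (hclD _ ht)
    · intro t ht t' ht'
      right
      apply Subtype.ext
      simpa using hcl_cube _ ht _ ht'
    · intro t b hb
      exact (hcl_conj t t.2 b hb).1
    · exact Subgroup.closure_closure_coe_preimage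
  have hcubeT : ∀ t ∈ {t : Subgroup.closure (layerClass d) | (t : G) ∈ layerClass d},
      ∀ t' ∈ {t : Subgroup.closure (layerClass d) | (t : G) ∈ layerClass d},
      (t * t') ^ 3 = 1 := by
    intro t ht t' ht'
    apply Subtype.ext
    simpa using hcl_cube _ ht _ ht'
  have hle : Subgroup.closure {y : G | ∃ g ∈ layer G, y = d * g * d⁻¹ * g⁻¹} ≤
      (pCore 3 (Subgroup.closure (layerClass d))).map (Subgroup.closure (layerClass d)).subtype := by
    rw [Subgroup.closure_le]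
    rintro y ⟨g, hg, rfl⟩
    have hb : g * d * g⁻¹ ∈ layerClass d := ⟨g, hg, rfl⟩
    have m1 : d ∈ Subgroup.closure (layerClass d) := Subgroup.subset_closure hdT
    have m2 : g * d * g⁻¹ ∈ Subgroup.closure (layerClass d) := Subgroup.subset_closure hb
    have hx3 : ((⟨d, m1⟩ : Subgroup.closure (layerClass d)) * ⟨g * d * g⁻¹, m2⟩) ^ 3 ^ 1 = 1 := by
      rw [pow_one]
      exact hcubeT ⟨d, m1⟩ hdT ⟨_, m2⟩ hb
    have h4 := tt_odd_mem hDT hcubeT (d := ⟨d, m1⟩) hdT hx3
    refine ⟨_, h4, ?_⟩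
    show d * (g * d * g⁻¹) = d * g * d⁻¹ * g⁻¹
    rw [hdi]
    group
  have hp : IsPGroup 3 (Subgroup.closure {y : G | ∃ g ∈ layer G, y = d * g * d⁻¹ * g⁻¹}) :=
    ((isPGroup_pCore 3 (Subgroup.closure (layerClass d))).map _).to_le hle
  have := hp.isNilpotent
  infer_instance

theorem main [Finite G] {D : Set G} (hD : Cfsg.IsThreeTranspositionClass D)
    (hD2 : ∃ a ∈ D, ∃ b ∈ D, a ≠ b) :
    (∀ p : ℕ, p.Prime → 3 < p → Cfsg.pCore p G ≤ Subgroup.center G) ∧
    ((¬ Cfsg.pCore 2 G ≤ Subgroup.center G ∧ Cfsg.pCore 3 G ≤ Subgroup.center G ∧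
        Cfsg.layer G = ⊥) ∨
      (Cfsg.pCore 2 G ≤ Subgroup.center G ∧ ¬ Cfsg.pCore 3 G ≤ Subgroup.center G ∧
        Cfsg.layer G = ⊥) ∨
      (Cfsg.pCore 2 G ≤ Subgroup.center G ∧ Cfsg.pCore 3 G ≤ Subgroup.center G ∧
        Cfsg.layer G ≠ ⊥)) := by
  refine ⟨fun p hp h3 => pCore_le_center_of_gt hD hp h3, ?_⟩
  by_cases h2 : pCore 2 G ≤ Subgroup.center G
  · by_cases h3 : pCore 3 G ≤ Subgroup.center G
    · exact Or.inr (Or.inr ⟨h2, h3, layer_ne_bot_of_central hD hD2 h2 h3⟩)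
    · exact Or.inr (Or.inl ⟨h2, h3, layer_eq_bot_of_three hD h3⟩)
  · by_cases h3 : pCore 3 G ≤ Subgroup.center G
    · exact Or.inl ⟨h2, h3, layer_eq_bot_of_two hD h2⟩
    · exact absurd (not_two_three hD h2 h3) id

end

/-- Let D be a conjugacy class of 3-transpositions generating the finite group G, with at least two members. Then for every prime p > 3 the largest normal p-subgroup of G is central, and exactly one of the following holds: the largest normal 2-subgroup of G is not central; the largest normal 3-subgroup of G is not central; the layer of G (the product of its components) is non-trivial. -/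
theorem result {G : Type*} [Group G] [Finite G] {D : Set G} (hD : Cfsg.IsThreeTranspositionClass D) (hD2 : ∃ a ∈ D, ∃ b ∈ D, a ≠ b) : (∀ p : ℕ, p.Prime → 3 < p → Cfsg.pCore p G ≤ Subgroup.center G) ∧ ((¬ Cfsg.pCore 2 G ≤ Subgroup.center G ∧ Cfsg.pCore 3 G ≤ Subgroup.center G ∧ Cfsg.layer G = ⊥) ∨ (Cfsg.pCore 2 G ≤ Subgroup.center G ∧ ¬ Cfsg.pCore 3 G ≤ Subgroup.center G ∧ Cfsg.layer G = ⊥) ∨ (Cfsg.pCore 2 G ≤ Subgroup.center G ∧ Cfsg.pCore 3 G ≤ Subgroup.center G ∧ Cfsg.layer G ≠ ⊥)) := by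
  exact main hD hD2

end Cfsg.Agent.S5351
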