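import Cfsg.Statements.S5352
-- import your own Cfsg.Agent.* helpers here
import Cfsg.Agent.S5351
import Cfsg.Agent.Lib.helper7.QS
import Cfsg.Agent.Lib.helper7.Layer

set_option autoImplicit false
open Cfsg

namespace Cfsg.Agent.S5352

section
open Cfsg.Agent.Lib.helper26 Cfsg
open Cfsg.Agent.Lib.helper14 (isPGroup_pCore pCore_normal')
open Cfsg.Agent.S5351 (commute_of_sq eq_one_of_pows exists_pow_of_mem_pCore closure_conj_mem
  conj_closure_mem comm_mul_left' comm_mul_right' pCore_le_center_of_gt layer_ne_bot_of_central)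
open scoped commutatorElement

variable {G : Type*} [Group G]

/-- an element whose commutators with a perfect normal subgroup `E` generate a solvable group
centralises `E`, provided `E` centralises the solvable subgroups it normalises -/
theorem centralized_of_solvable {E : Subgroup G} [hEn : E.Normal] (hperf : ⁅E, E⁆ = E)
    (hc : ∀ N : Subgroup G, Group.IsSolvable N → E ≤ Subgroup.normalizer (N : Set G) →
      E ≤ Subgroup.centralizer (N : Set G)) {d : G}
    (hsolv : Group.IsSolvable (Subgroup.closure {y : G | ∃ g ∈ E, y = d * g * d⁻¹ * g⁻¹})) :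
    ∀ g ∈ E, d * g = g * d := by
  obtain ⟨N, hNdef⟩ : ∃ N : Subgroup G,
      N = Subgroup.closure {y : G | ∃ g ∈ E, y = d * g * d⁻¹ * g⁻¹} := ⟨_, rfl⟩
  rw [← hNdef] at hsolv
  have hconjN : ∀ h ∈ E, ∀ n ∈ N, h * n * h⁻¹ ∈ N := by
    intro h hh n hn
    rw [hNdef] at hn ⊢
    refine conj_closure_mem ?_ n hn
    rintro s ⟨g, hg, rfl⟩
    have e : h * (d * g * d⁻¹ * g⁻¹) * h⁻¹ =
        (d * h * d⁻¹ * h⁻¹)⁻¹ * (d * (h * g) * d⁻¹ * (h * g)⁻¹) := by group
    rw [e]
    exact Subgroup.mul_mem _ (Subgroup.inv_mem _ (Subgroup.subset_closure ⟨h, hh, rfl⟩))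
      (Subgroup.subset_closure ⟨h * g, Subgroup.mul_mem _ hh hg, rfl⟩)
  have hnorm : E ≤ Subgroup.normalizer (N : Set G) := by
    intro h hh
    rw [Subgroup.mem_normalizer_iff]
    intro n
    constructor
    · exact hconjN h hh n
    · intro hn
      have h1 := hconjN h⁻¹ (Subgroup.inv_mem _ hh) _ hn
      have e : h⁻¹ * (h * n * h⁻¹) * h⁻¹⁻¹ = n := by group
      rwa [e] at h1
  have hcent : E ≤ Subgroup.centralizer (N : Set G) := hc N hsolv hnorm
  have hcomm : ∀ e ∈ E, ∀ n ∈ N, Commute n e := by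
    intro e he n hn
    exact (Subgroup.mem_centralizer_iff.1 (hcent he)) n hn
  have hφ : ∀ g ∈ E, d * g * d⁻¹ * g⁻¹ ∈ N := by
    intro g hg
    rw [hNdef]
    exact Subgroup.subset_closure ⟨g, hg, rfl⟩
  have hφE : ∀ g ∈ E, d * g * d⁻¹ * g⁻¹ ∈ E := by
    intro g hg
    exact Subgroup.mul_mem _ (hEn.conj_mem g hg d) (Subgroup.inv_mem _ hg)
  have hle : ⁅E, E⁆ ≤ Subgroup.centralizer ({d} : Set G) := by
    rw [Subgroup.commutator_le]
    intro g hg h hh
    refine Subgroup.mem_centralizer_iff.2 ?_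
    intro y hy
    rw [Set.mem_singleton_iff] at hy
    subst hy
    rw [commutatorElement_def]
    have hz := hφ g hg
    have hw := hφ h hh
    have e1 : y * g * y⁻¹ = (y * g * y⁻¹ * g⁻¹) * g := by group
    have e2 : y * h * y⁻¹ = (y * h * y⁻¹ * h⁻¹) * h := by group
    have key : y * (g * h * g⁻¹ * h⁻¹) * y⁻¹ = g * h * g⁻¹ * h⁻¹ := by
      calc y * (g * h * g⁻¹ * h⁻¹) * y⁻¹
          = (y * g * y⁻¹) * (y * h * y⁻¹) * (y * g * y⁻¹)⁻¹ * (y * h * y⁻¹)⁻¹ := by group
        _ = ((y * g * y⁻¹ * g⁻¹) * g) * (y * h * y⁻¹) *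
            ((y * g * y⁻¹ * g⁻¹) * g)⁻¹ * (y * h * y⁻¹)⁻¹ := by rw [← e1]
        _ = g * (y * h * y⁻¹) * g⁻¹ * (y * h * y⁻¹)⁻¹ := by
            apply comm_mul_left' (hcomm g hg _ hz)
            rw [e2]
            exact (hcomm _ (hφE h hh) _ hz).mul_right (hcomm h hh _ hz)
        _ = g * ((y * h * y⁻¹ * h⁻¹) * h) * g⁻¹ * ((y * h * y⁻¹ * h⁻¹) * h)⁻¹ := by rw [← e2]
        _ = g * h * g⁻¹ * h⁻¹ := comm_mul_right' (hcomm g hg _ hw) (hcomm h hh _ hw)
    calc y * (g * h * g⁻¹ * h⁻¹) = (y * (g * h * g⁻¹ * h⁻¹) * y⁻¹) * y := by group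
      _ = g * h * g⁻¹ * h⁻¹ * y := by rw [key]
  rw [hperf] at hle
  intro g hg
  exact (Subgroup.mem_centralizer_iff.1 (hle hg)) d rfl

/-- if `d` commutes with all its `E`-conjugates, its commutators with `E` generate an abelian
group -/
theorem solvable_of_sq {D : Set G} (hD : IsThreeTranspositionClass D) {d : G} (hd : d ∈ D)
    {E : Subgroup G} (hsq : ∀ g ∈ E, (d * (g * d * g⁻¹)) ^ 2 = 1) :
    Group.IsSolvable (Subgroup.closure {y : G | ∃ g ∈ E, y = d * g * d⁻¹ * g⁻¹}) := by
  have hS := hD.1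
  have hdi := tt_inv hS hd
  have hform : ∀ g : G, d * g * d⁻¹ * g⁻¹ = d * (g * d * g⁻¹) := by
    intro g
    rw [hdi]
    group
  have hdb : ∀ g ∈ E, Commute d (g * d * g⁻¹) := fun g hg =>
    commute_of_sq hS hd (tt_conj_mem hD hd g) (hsq g hg)
  have hbb : ∀ g ∈ E, ∀ h ∈ E, Commute (g * d * g⁻¹) (h * d * h⁻¹) := by
    intro g hg h hh
    have h1 := hdb (g⁻¹ * h) (Subgroup.mul_mem _ (Subgroup.inv_mem _ hg) hh)
    have h2 := (Commute.conj_iff g).2 h1
    have e : g * ((g⁻¹ * h) * d * (g⁻¹ * h)⁻¹) * g⁻¹ = h * d * h⁻¹ := by group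
    rw [e] at h2
    exact h2
  have hpair : ∀ s ∈ {y : G | ∃ g ∈ E, y = d * g * d⁻¹ * g⁻¹},
      ∀ t ∈ {y : G | ∃ g ∈ E, y = d * g * d⁻¹ * g⁻¹}, Commute s t := by
    rintro s ⟨g, hg, rfl⟩ t ⟨h, hh, rfl⟩
    rw [hform, hform]
    exact ((Commute.refl d).mul_right (hdb h hh)).mul_left
      (((hdb g hg).symm).mul_right (hbb g hg h hh))
  have hle1 : Subgroup.closure {y : G | ∃ g ∈ E, y = d * g * d⁻¹ * g⁻¹} ≤
      Subgroup.centralizer {y : G | ∃ g ∈ E, y = d * g * d⁻¹ * g⁻¹} := by
    rw [Subgroup.closure_le]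
    intro s hs
    refine Subgroup.mem_centralizer_iff.2 ?_
    intro t ht
    exact (hpair t ht s hs).eq
  have hle2 : Subgroup.closure {y : G | ∃ g ∈ E, y = d * g * d⁻¹ * g⁻¹} ≤
      Subgroup.centralizer
        (Subgroup.closure {y : G | ∃ g ∈ E, y = d * g * d⁻¹ * g⁻¹} : Set G) := by
    rw [Subgroup.closure_le]
    intro s hs
    refine Subgroup.mem_centralizer_iff.2 ?_
    intro n hn
    exact ((Subgroup.mem_centralizer_iff.1 (hle1 hn)) s hs).symm
  apply Group.isSolvable_of_comm
  rintro ⟨a, ha⟩ ⟨b, hb⟩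
  apply Subtype.ext
  exact ((Subgroup.mem_centralizer_iff.1 (hle2 hb)) a ha)

/-- if all products of `d` with its `E`-conjugates have order dividing 3, its commutators with
`E` generate a 3-group -/
theorem solvable_of_cube [Finite G] {D : Set G} (hD : IsThreeTranspositionClass D) {d : G}
    (hd : d ∈ D) {E : Subgroup G} [hEn : E.Normal]
    (hcube : ∀ g ∈ E, (d * (g * d * g⁻¹)) ^ 3 = 1) :
    Group.IsSolvable (Subgroup.closure {y : G | ∃ g ∈ E, y = d * g * d⁻¹ * g⁻¹}) := by
  haveI : Fact (Nat.Prime 3) := ⟨Nat.prime_three⟩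
  have hS := hD.1
  have hdi := tt_inv hS hd
  obtain ⟨C, hCdef⟩ : ∃ C : Set G, C = {b : G | ∃ g ∈ E, b = g * d * g⁻¹} := ⟨_, rfl⟩
  have hclD : ∀ b ∈ C, b ∈ D := by
    intro b hb
    rw [hCdef] at hb
    obtain ⟨g, -, rfl⟩ := hb
    exact tt_conj_mem hD hd g
  have hcl_cube : ∀ b ∈ C, ∀ b' ∈ C, (b * b') ^ 3 = 1 := by
    intro b hb b' hb'
    rw [hCdef] at hb hb'
    obtain ⟨g, hg, rfl⟩ := hb
    obtain ⟨h, hh, rfl⟩ := hb'
    have h1 := hcube (g⁻¹ * h) (Subgroup.mul_mem _ (Subgroup.inv_mem _ hg) hh)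
    have e : (g * d * g⁻¹) * (h * d * h⁻¹) =
        g * (d * ((g⁻¹ * h) * d * (g⁻¹ * h)⁻¹)) * g⁻¹ := by group
    rw [e, conj_pow, h1]
    group
  have hcl_conj : ∀ t ∈ Subgroup.closure C, ∀ b ∈ C,
      t * b * t⁻¹ ∈ C ∧ t⁻¹ * b * t ∈ C := by
    apply closure_conj_mem
    intro s hs b hb
    have hsD := hclD s hs
    rw [hCdef] at hs hb ⊢
    obtain ⟨g, hg, rfl⟩ := hs
    obtain ⟨h, hh, rfl⟩ := hb
    have key : (g * d * g⁻¹) * (h * d * h⁻¹) * (g * d * g⁻¹)⁻¹ ∈
        {b : G | ∃ g ∈ E, b = g * d * g⁻¹} := by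
      refine ⟨g * (d * (g⁻¹ * h) * d⁻¹), ?_, by group⟩
      exact Subgroup.mul_mem _ hg (hEn.conj_mem _
        (Subgroup.mul_mem _ (Subgroup.inv_mem _ hg) hh) d)
    refine ⟨key, ?_⟩
    have e : (g * d * g⁻¹)⁻¹ = g * d * g⁻¹ := tt_inv hS hsD
    rw [e]
    rw [e] at key
    exact key
  have hdT : d ∈ C := by
    rw [hCdef]
    exact ⟨1, Subgroup.one_mem _, by group⟩
  have hDT : IsThreeTranspositionGroup {t : Subgroup.closure C | (t : G) ∈ C} := by
    refine ⟨⟨?_, ?_⟩, ?_, ?_⟩
    · intro t ht
      rw [← Subgroup.orderOf_coe]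
      exact hS.1 _ (hclD _ ht)
    · intro t ht t' ht'
      right
      apply Subtype.ext
      simpa using hcl_cube _ ht _ ht'
    · intro t b hb
      exact (hcl_conj t t.2 b hb).1
    · exact Subgroup.closure_closure_coe_preimage
  have hcubeT : ∀ t ∈ {t : Subgroup.closure C | (t : G) ∈ C},
      ∀ t' ∈ {t : Subgroup.closure C | (t : G) ∈ C}, (t * t') ^ 3 = 1 := by
    intro t ht t' ht'
    apply Subtype.ext
    simpa using hcl_cube _ ht _ ht'
  have hle : Subgroup.closure {y : G | ∃ g ∈ E, y = d * g * d⁻¹ * g⁻¹} ≤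
      (pCore 3 (Subgroup.closure C)).map (Subgroup.closure C).subtype := by
    rw [Subgroup.closure_le]
    rintro y ⟨g, hg, rfl⟩
    have hb : g * d * g⁻¹ ∈ C := by
      rw [hCdef]
      exact ⟨g, hg, rfl⟩
    have m1 : d ∈ Subgroup.closure C := Subgroup.subset_closure hdT
    have m2 : g * d * g⁻¹ ∈ Subgroup.closure C := Subgroup.subset_closure hb
    have hx3 : ((⟨d, m1⟩ : Subgroup.closure C) * ⟨g * d * g⁻¹, m2⟩) ^ 3 ^ 1 = 1 := by
      rw [pow_one]
      exact hcubeT ⟨d, m1⟩ hdT ⟨_, m2⟩ hb
    have h4 := tt_odd_mem hDT hcubeT (d := ⟨d, m1⟩) hdT hx3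
    refine ⟨_, h4, ?_⟩
    show d * (g * d * g⁻¹) = d * g * d⁻¹ * g⁻¹
    rw [hdi]
    group
  have hp : IsPGroup 3 (Subgroup.closure {y : G | ∃ g ∈ E, y = d * g * d⁻¹ * g⁻¹}) :=
    ((isPGroup_pCore 3 (Subgroup.closure C)).map _).to_le hle
  have := hp.isNilpotent
  infer_instance

/-- a member of the class does not centralise a quasisimple normal subgroup -/
theorem not_centralized {D : Set G} (hD : IsThreeTranspositionClass D) {K : Subgroup G}
    [hKn : K.Normal] (hK : IsQuasisimple K) {d : G} (hd : d ∈ D)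
    (h : ∀ g ∈ K, d * g = g * d) : False := by
  have hle : Subgroup.closure D ≤ Subgroup.centralizer (K : Set G) := by
    rw [Subgroup.closure_le]
    intro a ha
    refine Subgroup.mem_centralizer_iff.2 ?_
    intro y hy
    obtain ⟨c, rfl⟩ := Cfsg.Agent.S5351.exists_conj hD hd ha
    have h1 := h (c⁻¹ * y * c) (by
      have := hKn.conj_mem y hy c⁻¹
      rwa [inv_inv] at this)
    calc y * (c * d * c⁻¹) = c * ((c⁻¹ * y * c) * d) * c⁻¹ := by group
      _ = c * (d * (c⁻¹ * y * c)) * c⁻¹ := by rw [h1]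
      _ = c * d * c⁻¹ * y := by group
  rw [hD.2.2] at hle
  apply Cfsg.Agent.Lib.helper7.qs_center_ne_top hK
  rw [eq_top_iff]
  intro x _
  rw [Subgroup.mem_center_iff]
  intro g
  apply Subtype.ext
  exact (Subgroup.mem_centralizer_iff.1 (hle (Subgroup.mem_top (x : G)))) g g.2

/-- a finite perfect simple group has an element whose square and cube are non-trivial -/
theorem simple_orders {Q : Type*} [Group Q] [Finite Q] [IsSimpleGroup Q] [Group.IsPerfect Q]
    (h : ∀ x : Q, x ^ 2 = 1 ∨ x ^ 3 = 1) : False := by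
  haveI : Fact (Nat.Prime 3) := ⟨Nat.prime_three⟩
  haveI : Fact (Nat.Prime 2) := ⟨Nat.prime_two⟩
  have hinv : ∀ a : Q, a ^ 2 = 1 → a⁻¹ = a := by
    intro a ha
    exact inv_eq_of_mul_eq_one_left (by rw [← pow_two]; exact ha)
  have hcomm_of : ∀ a b : Q, a ^ 2 = 1 → b ^ 2 = 1 → (a * b) ^ 2 = 1 → Commute a b := by
    intro a b ha hb hab
    have h1 : a * b * (a * b) = 1 := by rw [← pow_two]; exact hab
    have h2 : a * b = (a * b)⁻¹ := eq_inv_of_mul_eq_one_left h1
    rw [mul_inv_rev, hinv a ha, hinv b hb] at h2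
    exact h2
  have braid : ∀ x y : Q, x ^ 2 = 1 → y ^ 2 = 1 → (x * y) ^ 3 = 1 → x * y * x = y * x * y := by
    intro x y hx hy hxy
    have h1 : x * y * x * (y * x * y) = 1 := by
      calc x * y * x * (y * x * y) = (x * y) ^ 3 := by rw [pow_succ, pow_two]; group
        _ = 1 := hxy
    have h2 := eq_inv_of_mul_eq_one_left h1
    rw [h2, mul_inv_rev, mul_inv_rev, hinv x hx, hinv y hy, mul_assoc]
  have hnotcomm : ¬ ∀ a b : Q, a * b = b * a := by
    intro hc
    haveI : IsMulCommutative Q := ⟨⟨hc⟩⟩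
    exact Group.IsPerfect.not_isMulCommutative (G := Q) inferInstance
  by_cases hI : ∀ x : Q, x ^ 2 = 1 → x = 1
  · have hp : IsPGroup 3 Q := by
      intro x
      refine ⟨1, ?_⟩
      rw [pow_one]
      rcases h x with h2 | h3
      · rw [hI x h2, one_pow]
      · exact h3
    have hnil := hp.isNilpotent
    exact Group.IsPerfect.not_isNilpotent (G := Q) hnil
  · push Not at hI
    obtain ⟨s0, hs0, hs01⟩ := hI
    by_cases hJ : ∀ a b : Q, a ^ 2 = 1 → b ^ 2 = 1 → Commute a b
    · have hNn : (Subgroup.closure {x : Q | x ^ 2 = 1}).Normal := ⟨fun n hn g =>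
        conj_closure_mem (fun x hx => Subgroup.subset_closure (by
          show (g * x * g⁻¹) ^ 2 = 1
          rw [conj_pow, show x ^ 2 = 1 from hx]; group)) n hn⟩
      have htop : Subgroup.closure {x : Q | x ^ 2 = 1} = ⊤ := by
        rcases hNn.eq_bot_or_eq_top with hb | ht
        · exfalso
          have : s0 ∈ Subgroup.closure {x : Q | x ^ 2 = 1} := Subgroup.subset_closure hs0
          rw [hb, Subgroup.mem_bot] at this
          exact hs01 this
        · exact ht
      have hle1 : Subgroup.closure {x : Q | x ^ 2 = 1} ≤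
          Subgroup.centralizer {x : Q | x ^ 2 = 1} := by
        rw [Subgroup.closure_le]
        intro s hs
        refine Subgroup.mem_centralizer_iff.2 ?_
        intro t ht
        exact (hJ t s ht hs).eq
      have hle2 : Subgroup.closure {x : Q | x ^ 2 = 1} ≤
          Subgroup.centralizer (Subgroup.closure {x : Q | x ^ 2 = 1} : Set Q) := by
        rw [Subgroup.closure_le]
        intro s hs
        refine Subgroup.mem_centralizer_iff.2 ?_
        intro n hn
        exact ((Subgroup.mem_centralizer_iff.1 (hle1 hn)) s hs).symm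
      apply hnotcomm
      intro a b
      have ha : a ∈ Subgroup.closure {x : Q | x ^ 2 = 1} := by rw [htop]; exact Subgroup.mem_top a
      have hb : b ∈ Subgroup.closure {x : Q | x ^ 2 = 1} := by rw [htop]; exact Subgroup.mem_top b
      exact ((Subgroup.mem_centralizer_iff.1 (hle2 ha)) b hb).symm
    · push Not at hJ
      obtain ⟨s, t, hs, ht, hst⟩ := hJ
      obtain ⟨J, hJdef⟩ : ∃ J : Set Q,
          J = {x : Q | x ^ 2 = 1 ∧ ∃ y : Q, y ^ 2 = 1 ∧ ¬ Commute x y} := ⟨_, rfl⟩
      have hJ3 : ∀ a ∈ J, ∀ b ∈ J, (a * b) ^ 3 = 1 := by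
        intro a haJ b hbJ
        rw [hJdef] at haJ hbJ
        obtain ⟨ha, r, hr, har⟩ := haJ
        obtain ⟨hb, y, hy, hby⟩ := hbJ
        by_cases hab_ne : a = b
        · subst hab_ne
          rw [← pow_two, ha, one_pow]
        rcases h (a * b) with h2 | h3
        · exfalso
          have hab : Commute a b := hcomm_of a b ha hb h2
          have ha' := hinv a ha
          have hb' := hinv b hb
          have hrr : r * r = 1 := by rw [← pow_two]; exact hr
          have hra3 : (a * r) ^ 3 = 1 := by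
            rcases h (a * r) with h2 | h3
            · exact absurd (hcomm_of a r ha hr h2) har
            · exact h3
          by_cases hbr : Commute b r
          · have hw : Commute b (a * r) := hab.symm.mul_right hbr
            rcases h (b * (a * r)) with h2 | h3
            · rw [hw.mul_pow, hb, one_mul] at h2
              exact har (hcomm_of a r ha hr h2)
            · rw [hw.mul_pow, hra3, mul_one] at h3
              have e : b ^ 3 = b := by rw [pow_succ, hb, one_mul]
              rw [e] at h3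
              apply hby
              rw [h3]
              exact Commute.one_left y
          · have hrb3 : (b * r) ^ 3 = 1 := by
              rcases h (b * r) with h2 | h3
              · exact absurd (hcomm_of b r hb hr h2) hbr
              · exact h3
            have hbraid_a := braid a r ha hr hra3
            have hbraid_b := braid b r hb hr hrb3
            have hw2 : (a * r * b) ^ 2 = r * a * b * r := by
              calc (a * r * b) ^ 2 = a * r * (b * a) * r * b := by rw [pow_two]; group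
                _ = a * r * (a * b) * r * b := by rw [hab.eq]
                _ = (a * r * a) * (b * r * b) := by group
                _ = (r * a * r) * (r * b * r) := by rw [hbraid_a, hbraid_b]
                _ = r * a * (r * r) * b * r := by group
                _ = r * a * b * r := by rw [hrr, mul_one]
            have habab : a * b * (a * b) = 1 := by rw [← pow_two]; exact h2
            have hw4 : (a * r * b) ^ 4 = 1 := by
              have e : (a * r * b) ^ 4 = ((a * r * b) ^ 2) ^ 2 := by rw [← pow_mul]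
              rw [e, hw2, pow_two]
              calc r * a * b * r * (r * a * b * r) = r * a * b * (r * r) * a * b * r := by group
                _ = r * (a * b * (a * b)) * r := by rw [hrr]; group
                _ = 1 := by rw [habab, mul_one, hrr]
            rcases h (a * r * b) with h2' | h3'
            · rw [hw2] at h2'
              have e1 : a * b = 1 := by
                calc a * b = r⁻¹ * (r * a * b * r) * r⁻¹ := by group
                  _ = 1 := by rw [h2', mul_one, hinv r hr, hrr]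
              apply hab_ne
              rw [← hb']
              exact eq_inv_of_mul_eq_one_left e1
            · have h1 : a * r * b = 1 := by
                have e : (a * r * b) ^ 4 = (a * r * b) ^ 3 * (a * r * b) := pow_succ _ 3
                rw [hw4, h3', one_mul] at e
                exact e.symm
              apply har
              have hr_eq : r = a * b := by
                calc r = a⁻¹ * (a * r * b) * b⁻¹ := by group
                  _ = a * b := by rw [h1, mul_one, ha', hb']
              rw [hr_eq]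
              exact (Commute.refl a).mul_right hab
        · exact h3
      have hJconj : ∀ g : Q, ∀ a ∈ J, g * a * g⁻¹ ∈ J := by
        intro g a haJ
        rw [hJdef] at haJ ⊢
        obtain ⟨ha, y, hy, hay⟩ := haJ
        refine ⟨by rw [conj_pow, ha]; group, g * y * g⁻¹, by rw [conj_pow, hy]; group, ?_⟩
        intro hc
        exact hay ((Commute.conj_iff g).1 hc)
      have hsJ : s ∈ J := by
        rw [hJdef]
        exact ⟨hs, t, ht, hst⟩
      have hs1 : s ≠ 1 := by
        intro h1
        apply hst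
        rw [h1]
        exact Commute.one_left t
      have hcl : Subgroup.closure J = ⊤ := by
        have hn : (Subgroup.closure J).Normal := ⟨fun n hn g =>
          conj_closure_mem (fun x hx => Subgroup.subset_closure (hJconj g x hx)) n hn⟩
        rcases hn.eq_bot_or_eq_top with hb | ht'
        · exfalso
          have : s ∈ Subgroup.closure J := Subgroup.subset_closure hsJ
          rw [hb, Subgroup.mem_bot] at this
          exact hs1 this
        · exact ht'
      have hTT : IsThreeTranspositionGroup J := by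
        refine ⟨⟨?_, ?_⟩, hJconj, hcl⟩
        · intro a haJ
          rw [hJdef] at haJ
          obtain ⟨ha, y, hy, hay⟩ := haJ
          apply orderOf_eq_prime ha
          intro h1
          apply hay
          rw [h1]
          exact Commute.one_left y
        · intro a ha b hb
          exact Or.inr (hJ3 a ha b hb)
      have htop := tt_odd_main hTT hJ3 hsJ
      haveI := pCore_normal' 3 Q
      rcases (inferInstance : (pCore 3 Q).Normal).eq_bot_or_eq_top with hb | ht'
      · rw [hb, sup_bot_eq] at htop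
        apply hnotcomm
        intro a b
        have ha : a ∈ Subgroup.zpowers s := by rw [htop]; exact Subgroup.mem_top a
        have hb' : b ∈ Subgroup.zpowers s := by rw [htop]; exact Subgroup.mem_top b
        obtain ⟨i, rfl⟩ := ha
        obtain ⟨j, rfl⟩ := hb'
        rw [← zpow_add, ← zpow_add, add_comm]
      · have hsm : s ∈ pCore 3 Q := by rw [ht']; exact Subgroup.mem_top s
        obtain ⟨k, hk⟩ := exists_pow_of_mem_pCore hsm
        exact hs1 (eq_one_of_pows hk hs (by norm_num))

/-- every member of the class normalises every component -/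
theorem comp_conj_eq [Finite G] {D : Set G} (hD : IsThreeTranspositionClass D) {K : Subgroup G}
    (hK : IsComponent K) {d : G} (hd : d ∈ D) : K.map (MulAut.conj d).toMonoidHom = K := by
  have hS := hD.1
  have hdi := tt_inv hS hd
  by_contra hne
  have hK' : IsComponent (K.map (MulAut.conj d).toMonoidHom) :=
    Cfsg.Agent.Lib.helper7.comp_map_equiv (MulAut.conj d) hK
  have hcomm := Cfsg.Agent.Lib.helper7.comp_comm_of_ne hK' hK hne
  rw [Subgroup.commutator_eq_bot_iff_le_centralizer] at hcomm
  haveI : Group.IsPerfect K := hK.2.1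
  haveI : IsSimpleGroup (K ⧸ Subgroup.center K) := hK.2.2
  apply simple_orders (Q := K ⧸ Subgroup.center K)
  intro x
  induction x using QuotientGroup.induction_on with
  | H k =>
  obtain ⟨m, hm⟩ : ∃ m, m = d * (k : G) * d⁻¹ := ⟨_, rfl⟩
  have hmK' : m ∈ K.map (MulAut.conj d).toMonoidHom := by
    rw [hm]
    exact ⟨k, k.2, rfl⟩
  have hmk : Commute m (k : G) := ((Subgroup.mem_centralizer_iff.1 (hcomm hmK')) k k.2).symm
  have haD : (k : G) * d * (k : G)⁻¹ ∈ D := tt_conj_mem hD hd k
  have hform : (k : G) * d * (k : G)⁻¹ * d = (k : G) * m⁻¹ := by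
    rw [hm]
    nth_rewrite 2 [← hdi]
    group
  have hkm : Commute (k : G) m⁻¹ := hmk.symm.inv_right
  have hpow : ∀ n : ℕ, ((k : G) * d * (k : G)⁻¹ * d) ^ n = 1 → k ^ n ∈ Subgroup.center K := by
    intro n hn
    rw [hform, hkm.mul_pow, inv_pow, mul_inv_eq_one] at hn
    have hkn : (k : G) ^ n ∈ K.map (MulAut.conj d).toMonoidHom := by
      rw [hn]
      exact Subgroup.pow_mem _ hmK' n
    rw [Subgroup.mem_center_iff]
    intro g
    apply Subtype.ext
    have := (Subgroup.mem_centralizer_iff.1 (hcomm hkn)) g g.2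
    simpa using this
  rcases hS.2 _ haD d hd with h2 | h3
  · left
    rw [← QuotientGroup.mk_pow]
    exact (QuotientGroup.eq_one_iff _).2 (hpow 2 h2)
  · right
    rw [← QuotientGroup.mk_pow]
    exact (QuotientGroup.eq_one_iff _).2 (hpow 3 h3)

/-- every component is normal -/
theorem comp_normal [Finite G] {D : Set G} (hD : IsThreeTranspositionClass D) {K : Subgroup G}
    (hK : IsComponent K) : K.Normal := by
  have hle : Subgroup.closure D ≤ Subgroup.normalizer (K : Set G) := by
    rw [Subgroup.closure_le]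
    intro d hd
    have he := comp_conj_eq hD hK hd
    show d ∈ Subgroup.normalizer (K : Set G)
    rw [Subgroup.mem_normalizer_iff]
    intro x
    constructor
    · intro hx
      rw [← he]
      exact ⟨x, hx, rfl⟩
    · intro hx
      rw [← he] at hx
      obtain ⟨y, hy, hyx⟩ := hx
      have : y = x := by
        have h1 : d * y * d⁻¹ = d * x * d⁻¹ := hyx
        calc y = d⁻¹ * (d * y * d⁻¹) * d := by group
          _ = x := by rw [h1]; group
      rw [← this]
      exact hy
  rw [hD.2.2, top_le_iff] at hle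
  exact Subgroup.normalizer_eq_top_iff.1 hle

/-- a normal component centralises the solvable subgroups it normalises -/
theorem comp_hc [Finite G] {K : Subgroup G} (hK : IsComponent K) :
    ∀ N : Subgroup G, Group.IsSolvable N → K ≤ Subgroup.normalizer (N : Set G) →
      K ≤ Subgroup.centralizer (N : Set G) := by
  intro N hN hle
  have := Cfsg.Agent.Lib.helper7.comp_comm_of_solvable K N hK hN hle
  rw [Subgroup.commutator_eq_bot_iff_le_centralizer] at this
  exact this

theorem exists_sq_ne [Finite G] {D : Set G} (hD : IsThreeTranspositionClass D) {K : Subgroup G}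
    [hKn : K.Normal] (hK : IsComponent K) {d : G} (hd : d ∈ D) :
    ∃ g ∈ K, (d * (g * d * g⁻¹)) ^ 2 ≠ 1 := by
  by_contra hcon
  push Not at hcon
  have hsolv := solvable_of_sq hD hd hcon
  exact not_centralized hD hK.2 hd
    (centralized_of_solvable (Subgroup.isPerfect_iff.mp hK.2.1) (comp_hc hK) hsolv)

theorem exists_cube_ne [Finite G] {D : Set G} (hD : IsThreeTranspositionClass D) {K : Subgroup G}
    [hKn : K.Normal] (hK : IsComponent K) {d : G} (hd : d ∈ D) :
    ∃ g ∈ K, (d * (g * d * g⁻¹)) ^ 3 ≠ 1 := by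
  by_contra hcon
  push Not at hcon
  have hsolv := solvable_of_cube hD hd hcon
  exact not_centralized hD hK.2 hd
    (centralized_of_solvable (Subgroup.isPerfect_iff.mp hK.2.1) (comp_hc hK) hsolv)

/-- there is only one component -/
theorem comp_unique [Finite G] {D : Set G} (hD : IsThreeTranspositionClass D) {K₁ K₂ : Subgroup G}
    (hK₁ : IsComponent K₁) (hK₂ : IsComponent K₂) : K₁ = K₂ := by
  have hS := hD.1
  by_contra hne
  haveI := comp_normal hD hK₁
  haveI := comp_normal hD hK₂
  obtain ⟨d, hd, -⟩ := hD.2.1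
  have hdi := tt_inv hS hd
  have hd2 := tt_sq hS hd
  have hcomm := Cfsg.Agent.Lib.helper7.comp_comm_of_ne hK₁ hK₂ hne
  rw [Subgroup.commutator_eq_bot_iff_le_centralizer] at hcomm
  obtain ⟨g₁, hg₁, hu2⟩ := exists_sq_ne hD hK₁ hd
  obtain ⟨g₂, hg₂, hv3⟩ := exists_cube_ne hD hK₂ hd
  have haD : g₁ * d * g₁⁻¹ ∈ D := tt_conj_mem hD hd g₁
  have hbD : g₂ * d * g₂⁻¹ ∈ D := tt_conj_mem hD hd g₂
  have hai := tt_inv hS haD
  obtain ⟨u, hu⟩ : ∃ u, u = d * (g₁ * d * g₁⁻¹) := ⟨_, rfl⟩
  obtain ⟨v, hv⟩ : ∃ v, v = d * (g₂ * d * g₂⁻¹) := ⟨_, rfl⟩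
  rw [← hu] at hu2
  rw [← hv] at hv3
  have hu3 : u ^ 3 = 1 := by
    rcases hS.2 d hd _ haD with h | h
    · rw [← hu] at h
      exact absurd h hu2
    · rw [← hu] at h
      exact h
  have hv2 : v ^ 2 = 1 := by
    rcases hS.2 d hd _ hbD with h | h
    · rw [← hv] at h
      exact h
    · rw [← hv] at h
      exact absurd h hv3
  have huK : u ∈ K₁ := by
    have e : u = (d * g₁ * d⁻¹) * g₁⁻¹ := by rw [hu, hdi]; group
    rw [e]
    exact Subgroup.mul_mem _ (Subgroup.Normal.conj_mem inferInstance g₁ hg₁ d)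
      (Subgroup.inv_mem _ hg₁)
  have hvK : v ∈ K₂ := by
    have e : v = (d * g₂ * d⁻¹) * g₂⁻¹ := by rw [hv, hdi]; group
    rw [e]
    exact Subgroup.mul_mem _ (Subgroup.Normal.conj_mem inferInstance g₂ hg₂ d)
      (Subgroup.inv_mem _ hg₂)
  have huv : Commute u v := ((Subgroup.mem_centralizer_iff.1 (hcomm huK)) v hvK).symm
  have hab : (g₁ * d * g₁⁻¹) * (g₂ * d * g₂⁻¹) = u⁻¹ * v := by
    rw [hu, hv, mul_inv_rev, hai, hdi]
    calc (g₁ * d * g₁⁻¹) * (g₂ * d * g₂⁻¹) = (g₁ * d * g₁⁻¹) * (d * d) * (g₂ * d * g₂⁻¹) := by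
          rw [hd2, mul_one]
      _ = g₁ * d * g₁⁻¹ * d * (d * (g₂ * d * g₂⁻¹)) := by group
  have hu1 : u ≠ 1 := by
    intro h
    apply hu2
    rw [h, one_pow]
  have hv1 : v ≠ 1 := by
    intro h
    apply hv3
    rw [h, one_pow]
  rcases hS.2 _ haD _ hbD with h | h
  · rw [hab, (huv.inv_left).mul_pow, hv2, mul_one, inv_pow] at h
    have h' : u ^ 2 = 1 := inv_eq_one.1 h
    exact hu2 h'
  · rw [hab, (huv.inv_left).mul_pow, inv_pow, hu3, inv_one, one_mul] at h
    exact hv3 h

theorem main [Finite G] {D : Set G} (hD : Cfsg.IsThreeTranspositionClass D)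
    (hD2 : ∃ a ∈ D, ∃ b ∈ D, a ≠ b) (h2 : Cfsg.pCore 2 G ≤ Subgroup.center G)
    (h3 : Cfsg.pCore 3 G ≤ Subgroup.center G) :
    ∃ L : Subgroup G, L.Normal ∧ Cfsg.IsQuasisimple L ∧
      Cfsg.generalizedFittingSubgroup G = L ⊔ Subgroup.center G ∧
      (L = ⊤ ∨ ∀ a ∈ D, ∀ b ∈ D, a * b * a⁻¹ * b⁻¹ ∈ L → a⁻¹ * b ∈ L) := by
  have hS := hD.1
  have hlayer := layer_ne_bot_of_central hD hD2 h2 h3
  obtain ⟨K, hK⟩ : ∃ K : Subgroup G, IsComponent K := by
    by_contra hcon
    push Not at hcon
    apply hlayer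
    unfold layer
    rw [eq_bot_iff]
    apply sSup_le
    intro K hK
    exact absurd hK (hcon K)
  haveI hKn := comp_normal hD hK
  have hlayer_eq : layer G = K := by
    apply le_antisymm
    · unfold layer
      apply sSup_le
      intro K' hK'
      rw [comp_unique hD hK' hK]
    · exact Cfsg.Agent.Lib.helper7.comp_le_layer hK
  have hF : fittingSubgroup G ≤ Subgroup.center G := by
    rw [Cfsg.Agent.Lib.helper1.fitting_eq_iSup_pCore]
    apply iSup_le
    intro p
    by_cases hp2 : (p : ℕ) = 2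
    · rw [hp2]; exact h2
    by_cases hp3 : (p : ℕ) = 3
    · rw [hp3]; exact h3
    have hp := p.2
    have h2le := hp.two_le
    have hne4 : (p : ℕ) ≠ 4 := by
      intro h4
      rw [h4] at hp
      exact absurd hp (by decide)
    exact pCore_le_center_of_gt hD hp (by omega)
  have hF' : Subgroup.center G ≤ fittingSubgroup G := by
    apply Cfsg.Agent.Lib.helper7.le_fitting inferInstance
    exact Cfsg.Agent.Lib.helper7.nilpotent_of_isMulComm inferInstance
  refine ⟨K, hKn, hK.2, ?_, Or.inr ?_⟩
  · unfold generalizedFittingSubgroup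
    rw [hlayer_eq, le_antisymm hF hF']
  · intro a ha b hb hab
    have hai := tt_inv hS ha
    have hbi := tt_inv hS hb
    have ha2 := tt_sq hS ha
    have hb2 := tt_sq hS hb
    rw [hai, hbi] at hab
    rcases hS.2 a ha b hb with h | h
    · -- a and b commute
      have hc : Commute a b := commute_of_sq hS ha hb h
      by_cases hab_eq : a = b
      · rw [hab_eq, inv_mul_cancel]
        exact Subgroup.one_mem _
      -- some `K`-conjugate of `a` does not commute with `b`
      have hex : ∃ l ∈ K, ¬ Commute b (l * a * l⁻¹) := by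
        by_contra hcon
        push Not at hcon
        -- `b` centralises the commutators of `a` with `K`
        have hbN : Subgroup.closure {y : G | ∃ g ∈ K, y = a * g * a⁻¹ * g⁻¹} ≤
            Subgroup.centralizer ({b} : Set G) := by
          rw [Subgroup.closure_le]
          rintro y ⟨g, hg, rfl⟩
          refine Subgroup.mem_centralizer_iff.2 ?_
          intro x hx
          rw [Set.mem_singleton_iff] at hx
          subst hx
          have h1 : Commute x (g * a * g⁻¹) := hcon g hg
          have h2 : Commute x (g * a⁻¹ * g⁻¹) := by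
            have e : g * a⁻¹ * g⁻¹ = (g * a * g⁻¹)⁻¹ := by group
            rw [e]
            exact h1.inv_right
          have e : a * g * a⁻¹ * g⁻¹ = a * (g * a⁻¹ * g⁻¹) := by group
          rw [e]
          exact (hc.symm.mul_right h2).eq
        have hconjN : ∀ k ∈ K, ∀ n ∈ Subgroup.closure {y : G | ∃ g ∈ K, y = a * g * a⁻¹ * g⁻¹},
            k * n * k⁻¹ ∈ Subgroup.closure {y : G | ∃ g ∈ K, y = a * g * a⁻¹ * g⁻¹} := by
          intro k hk n hn
          refine conj_closure_mem ?_ n hn
          rintro s ⟨g, hg, rfl⟩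
          have e : k * (a * g * a⁻¹ * g⁻¹) * k⁻¹ =
              (a * k * a⁻¹ * k⁻¹)⁻¹ * (a * (k * g) * a⁻¹ * (k * g)⁻¹) := by group
          rw [e]
          exact Subgroup.mul_mem _ (Subgroup.inv_mem _ (Subgroup.subset_closure ⟨k, hk, rfl⟩))
            (Subgroup.subset_closure ⟨k * g, Subgroup.mul_mem _ hk hg, rfl⟩)
        have hNK : Subgroup.closure {y : G | ∃ g ∈ K, y = a * g * a⁻¹ * g⁻¹} ≤ K := by
          rw [Subgroup.closure_le]
          rintro y ⟨g, hg, rfl⟩
          exact Subgroup.mul_mem _ (hKn.conj_mem g hg a) (Subgroup.inv_mem _ hg)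
        have hnorm : ((Subgroup.closure {y : G | ∃ g ∈ K, y = a * g * a⁻¹ * g⁻¹}).subgroupOf
            K).Normal := by
          refine ⟨fun n hn g => ?_⟩
          rw [Subgroup.mem_subgroupOf] at hn ⊢
          exact hconjN g g.2 n hn
        rcases Cfsg.Agent.Lib.helper7.qs_normal hK.2 _ hnorm with ht | hcen
        · -- the commutators generate `K`: `b` centralises `K`
          apply not_centralized hD hK.2 hb
          intro g hg
          have hgN : g ∈ Subgroup.closure {y : G | ∃ g ∈ K, y = a * g * a⁻¹ * g⁻¹} := by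
            have : (⟨g, hg⟩ : K) ∈ (Subgroup.closure
                {y : G | ∃ g ∈ K, y = a * g * a⁻¹ * g⁻¹}).subgroupOf K := by
              rw [ht]; exact Subgroup.mem_top _
            exact Subgroup.mem_subgroupOf.1 this
          exact (Subgroup.mem_centralizer_iff.1 (hbN hgN)) b rfl
        · -- the commutators are central in `K`: they generate an abelian group
          have hsolv : Group.IsSolvable
              (Subgroup.closure {y : G | ∃ g ∈ K, y = a * g * a⁻¹ * g⁻¹}) := by
            apply Group.isSolvable_of_comm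
            rintro ⟨x, hx⟩ ⟨y, hy⟩
            apply Subtype.ext
            have hxc : (⟨x, hNK hx⟩ : K) ∈ Subgroup.center K :=
              hcen (Subgroup.mem_subgroupOf.2 hx)
            rw [Subgroup.mem_center_iff] at hxc
            have := hxc ⟨y, hNK hy⟩
            exact (congrArg Subtype.val this).symm
          exact not_centralized hD hK.2 ha
            (centralized_of_solvable (Subgroup.isPerfect_iff.mp hK.2.1) (comp_hc hK) hsolv)
      obtain ⟨l, hl, hnc⟩ := hex
      have hcD : l * a * l⁻¹ ∈ D := tt_conj_mem hD ha l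
      have hbr : b * (l * a * l⁻¹) * b = (l * a * l⁻¹) * b * (l * a * l⁻¹) := by
        rcases tt_braid hS hb hcD with h' | h'
        · exact absurd h' hnc
        · exact h'
      obtain ⟨l', hl'⟩ : ∃ l', l' = b * l * b⁻¹ := ⟨_, rfl⟩
      have hl'K : l' ∈ K := by
        rw [hl']
        exact hKn.conj_mem l hl b
      have hbab : b * a * b⁻¹ = a := by
        rw [hc.symm.eq, mul_assoc, mul_inv_cancel, mul_one]
      have e1 : b * (l * a * l⁻¹) * b = l' * a * l'⁻¹ := by
        rw [hl']
        nth_rewrite 2 [← hbi]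
        calc b * (l * a * l⁻¹) * b⁻¹ = (b * l * b⁻¹) * (b * a * b⁻¹) * (b * l * b⁻¹)⁻¹ := by group
          _ = (b * l * b⁻¹) * a * (b * l * b⁻¹)⁻¹ := by rw [hbab]
      have hci := tt_inv hS hcD
      have hb_eq : b = (l * a * l⁻¹) * (l' * a * l'⁻¹) * (l * a * l⁻¹)⁻¹ := by
        calc b = (l * a * l⁻¹)⁻¹ * ((l * a * l⁻¹) * b * (l * a * l⁻¹)) * (l * a * l⁻¹)⁻¹ := by
              group
          _ = (l * a * l⁻¹)⁻¹ * (l' * a * l'⁻¹) * (l * a * l⁻¹)⁻¹ := by rw [← hbr, e1]
          _ = (l * a * l⁻¹) * (l' * a * l'⁻¹) * (l * a * l⁻¹)⁻¹ := by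
              have e : (l * a * l⁻¹)⁻¹ * (l' * a * l'⁻¹) = (l * a * l⁻¹) * (l' * a * l'⁻¹) := by
                rw [hci]
              rw [e]
      have hμK : l * (a * (l⁻¹ * l') * a⁻¹) ∈ K := by
        apply Subgroup.mul_mem _ hl
        exact hKn.conj_mem (l⁻¹ * l') (Subgroup.mul_mem _ (Subgroup.inv_mem _ hl) hl'K) a
      have e3 : a⁻¹ * b = (a⁻¹ * (l * (a * (l⁻¹ * l') * a⁻¹)) * a⁻¹⁻¹) *
          (l * (a * (l⁻¹ * l') * a⁻¹))⁻¹ := by
        calc a⁻¹ * b = a⁻¹ * ((l * a * l⁻¹) * (l' * a * l'⁻¹) * (l * a * l⁻¹)⁻¹) := by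
              rw [← hb_eq]
          _ = _ := by group
      rw [e3]
      exact Subgroup.mul_mem _ (hKn.conj_mem _ hμK a⁻¹) (Subgroup.inv_mem _ hμK)
    · -- `(ab)³ = 1`
      have e : a * b = (a * b * a * b)⁻¹ := by
        apply eq_inv_of_mul_eq_one_left
        calc a * b * (a * b * a * b) = (a * b) ^ 3 := by rw [pow_succ, pow_two]; group
          _ = 1 := h
      rw [hai, e]
      exact Subgroup.inv_mem _ hab

end

/-- Let D be a conjugacy class of 3-transpositions generating the finite group G, with at least two members, and suppose the largest normal 2-subgroup and the largest normal 3-subgroup of G are both central. Then G has a quasisimple normal subgroup L such that the generalized Fitting subgroup of G is the product of L and the centre; and either L = G or the image of D in G/L has width 1, in the sense that two members of D whose commutator lies in L have the same image modulo L. -/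
theorem result {G : Type*} [Group G] [Finite G] {D : Set G} (hD : Cfsg.IsThreeTranspositionClass D) (hD2 : ∃ a ∈ D, ∃ b ∈ D, a ≠ b) (h2 : Cfsg.pCore 2 G ≤ Subgroup.center G) (h3 : Cfsg.pCore 3 G ≤ Subgroup.center G) : ∃ L : Subgroup G, L.Normal ∧ Cfsg.IsQuasisimple L ∧ Cfsg.generalizedFittingSubgroup G = L ⊔ Subgroup.center G ∧ (L = ⊤ ∨ ∀ a ∈ D, ∀ b ∈ D, a * b * a⁻¹ * b⁻¹ ∈ L → a⁻¹ * b ∈ L) := by
  exact main hD hD2 h2 h3

end Cfsg.Agent.S5352
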