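import Cfsg.Statements.S5353
-- import your own Cfsg.Agent.* helpers here
import Cfsg.Agent.S5352

set_option autoImplicit false
open Cfsg

namespace Cfsg.Agent.S5353

section
open Cfsg.Agent.Lib.helper26 Cfsg
open Cfsg.Agent.Lib.helper14 (isPGroup_pCore pCore_normal')
open Cfsg.Agent.S5351 (commute_of_sq conj_closure_mem pCore_le_center_of_gt)
open Cfsg.Agent.S5352 (centralized_of_solvable comp_hc comp_unique not_centralized)
open scoped commutatorElement

variable {G : Type*} [Group G]

theorem comp_of_normal {L : Subgroup G} [hLn : L.Normal] (hL : IsQuasisimple L) :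
    IsComponent L :=
  ⟨hLn.isSubnormal, hL⟩

/-- a normal subgroup contains a given quasisimple normal subgroup or centralises it -/
theorem normal_dichotomy [Finite G] {L : Subgroup G} [hLn : L.Normal] (hL : IsQuasisimple L)
    (N : Subgroup G) [hNn : N.Normal] : L ≤ N ∨ N ≤ Subgroup.centralizer (L : Set G) := by
  have hnorm : ((N ⊓ L).subgroupOf L).Normal := by
    refine ⟨fun n hn g => ?_⟩
    rw [Subgroup.mem_subgroupOf] at hn ⊢
    exact ⟨hNn.conj_mem _ hn.1 _, hLn.conj_mem _ hn.2 _⟩
  rcases Cfsg.Agent.Lib.helper7.qs_normal hL _ hnorm with ht | hcen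
  · left
    intro x hx
    have : (⟨x, hx⟩ : L) ∈ (N ⊓ L).subgroupOf L := by rw [ht]; exact Subgroup.mem_top _
    exact (Subgroup.mem_subgroupOf.1 this).1
  · right
    intro n hn
    have hNL : Subgroup.closure {y : G | ∃ g ∈ L, y = n * g * n⁻¹ * g⁻¹} ≤ N ⊓ L := by
      rw [Subgroup.closure_le]
      rintro y ⟨g, hg, rfl⟩
      refine ⟨?_, ?_⟩
      · have e : n * g * n⁻¹ * g⁻¹ = n * (g * n⁻¹ * g⁻¹) := by group
        rw [e]
        exact Subgroup.mul_mem _ hn (hNn.conj_mem _ (Subgroup.inv_mem _ hn) g)
      · exact Subgroup.mul_mem _ (hLn.conj_mem g hg n) (Subgroup.inv_mem _ hg)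
    have hsolv : Group.IsSolvable
        (Subgroup.closure {y : G | ∃ g ∈ L, y = n * g * n⁻¹ * g⁻¹}) := by
      apply Group.isSolvable_of_comm
      rintro ⟨x, hx⟩ ⟨y, hy⟩
      apply Subtype.ext
      have hxc : (⟨x, (hNL hx).2⟩ : L) ∈ Subgroup.center L :=
        hcen (Subgroup.mem_subgroupOf.2 (hNL hx))
      rw [Subgroup.mem_center_iff] at hxc
      have := hxc ⟨y, (hNL hy).2⟩
      exact (congrArg Subtype.val this).symm
    have hcz := centralized_of_solvable (Subgroup.isPerfect_iff.mp hL.1)
      (comp_hc (comp_of_normal hL)) hsolv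
    refine Subgroup.mem_centralizer_iff.2 ?_
    intro g hg
    exact (hcz g hg).symm

theorem fitting_le_center [Finite G] {D : Set G} (hD : IsThreeTranspositionClass D)
    (h2 : pCore 2 G ≤ Subgroup.center G) (h3 : pCore 3 G ≤ Subgroup.center G) :
    fittingSubgroup G ≤ Subgroup.center G := by
  rw [Cfsg.Agent.Lib.helper1.fitting_eq_iSup_pCore]
  apply iSup_le
  intro p
  by_cases hp2 : (p : ℕ) = 2
  · rw [hp2]; exact h2
  by_cases hp3 : (p : ℕ) = 3
  · rw [hp3]; exact h3
  have hp := p.2
  have h2le := hp.two_le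
  have hne4 : (p : ℕ) ≠ 4 := by
    intro h4
    rw [h4] at hp
    exact absurd hp (by decide)
  exact pCore_le_center_of_gt hD hp (by omega)

/-- the centraliser of `L` is the centre -/
theorem centralizer_le_center [Finite G] {D : Set G} (hD : IsThreeTranspositionClass D)
    (h2 : pCore 2 G ≤ Subgroup.center G) (h3 : pCore 3 G ≤ Subgroup.center G)
    {L : Subgroup G} [hLn : L.Normal]
    (hF : generalizedFittingSubgroup G = L ⊔ Subgroup.center G) :
    Subgroup.centralizer (L : Set G) ≤ Subgroup.center G := by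
  have hFit := fitting_le_center hD h2 h3
  intro x hx
  have hxg : x ∈ Subgroup.centralizer (generalizedFittingSubgroup G : Set G) := by
    rw [hF]
    refine Subgroup.mem_centralizer_iff.2 ?_
    intro y hy
    obtain ⟨l, hl, c, hc, rfl⟩ := Subgroup.mem_sup_of_normal_right.1 hy
    have h1 := (Subgroup.mem_centralizer_iff.1 hx) l hl
    have h2' := (Subgroup.mem_center_iff.1 hc) x
    calc l * c * x = l * (c * x) := by group
      _ = l * (x * c) := by rw [h2']
      _ = (l * x) * c := by group
      _ = x * l * c := by rw [h1]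
      _ = x * (l * c) := by group
  have hx2 := Cfsg.Agent.Lib.helper7.centralizer_genFitting_le G hxg
  rw [hF] at hx2
  obtain ⟨l, hl, c, hc, rfl⟩ := Subgroup.mem_sup_of_normal_right.1 hx2
  have hcC : c ∈ Subgroup.centralizer (L : Set G) := by
    refine Subgroup.mem_centralizer_iff.2 ?_
    intro g _
    exact ((Subgroup.mem_center_iff.1 hc) g)
  have hlc : l ∈ Subgroup.centralizer (L : Set G) := by
    have : l = (l * c) * c⁻¹ := by group
    rw [this]
    exact Subgroup.mul_mem _ hx (Subgroup.inv_mem _ hcC)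
  have hZn : (L ⊓ Subgroup.centralizer (L : Set G)).Normal := inferInstance
  have hZc : IsMulCommutative ↥(L ⊓ Subgroup.centralizer (L : Set G)) := by
    refine ⟨⟨fun a b => ?_⟩⟩
    apply Subtype.ext
    exact ((Subgroup.mem_centralizer_iff.1 b.2.2) a a.2.1)
  have hle := Cfsg.Agent.Lib.helper7.le_fitting hZn
    (Cfsg.Agent.Lib.helper7.nilpotent_of_isMulComm hZc)
  have hlZ : l ∈ Subgroup.center G := hFit (hle ⟨hl, hlc⟩)
  exact Subgroup.mul_mem _ hlZ hc

/-- modulo `L` the class has width one -/
theorem width_one [Finite G] {D : Set G} (hD : IsThreeTranspositionClass D)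
    (hD2 : ∃ a ∈ D, ∃ b ∈ D, a ≠ b) (h2 : pCore 2 G ≤ Subgroup.center G)
    (h3 : pCore 3 G ≤ Subgroup.center G) {L : Subgroup G} [hLn : L.Normal]
    (hL : IsQuasisimple L) : ∀ a ∈ D, ∀ b ∈ D, a * b * a⁻¹ * b⁻¹ ∈ L → a⁻¹ * b ∈ L := by
  obtain ⟨L', hL'n, hL', -, hw⟩ := Cfsg.Agent.S5352.main hD hD2 h2 h3
  have heq : L' = L := comp_unique hD ⟨hL'n.isSubnormal, hL'⟩ (comp_of_normal hL)
  rw [← heq]
  rcases hw with ht | hw
  · intro a _ b _ _
    rw [ht]; exact Subgroup.mem_top _
  · exact hw

/-- the block property: an element carrying a member of the block into the block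
normalises the block -/
theorem block_bp {B : Set G}
    (hB : ∀ g : G, (fun x => g * x * g⁻¹) '' B = B ∨ Disjoint ((fun x => g * x * g⁻¹) '' B) B)
    {g u : G} (hu : u ∈ B) (hgu : g * u * g⁻¹ ∈ B) : g ∈ Subgroup.normalizer B := by
  rcases hB g with h | h
  · rw [Subgroup.mem_set_normalizer_iff]
    intro n
    constructor
    · intro hn
      rw [← h]
      exact ⟨n, hn, rfl⟩
    · intro hn
      rw [← h] at hn
      obtain ⟨m, hm, hmn⟩ := hn
      have : m = n := by
        have h1 : g * m * g⁻¹ = g * n * g⁻¹ := hmn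
        calc m = g⁻¹ * (g * m * g⁻¹) * g := by group
          _ = n := by rw [h1]; group
      rw [← this]; exact hm
  · exfalso
    exact Set.disjoint_left.1 h ⟨u, hu, rfl⟩ hgu

theorem block_self {B : Set G}
    (hB : ∀ g : G, (fun x => g * x * g⁻¹) '' B = B ∨ Disjoint ((fun x => g * x * g⁻¹) '' B) B)
    {a : G} (ha : a ∈ B) : a ∈ Subgroup.normalizer B := by
  apply block_bp hB ha
  have e : a * a * a⁻¹ = a := by group
  rw [e]; exact ha

/-- every conjugate of `a⁻¹b`, for `a, b` in a block, normalises the block -/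
theorem block_conj_mem {D : Set G} (hS : IsThreeTranspositionSet D)
    (hconj : ∀ g : G, ∀ d ∈ D, g * d * g⁻¹ ∈ D) {B : Set G} (hBD : B ⊆ D)
    (hB : ∀ g : G, (fun x => g * x * g⁻¹) '' B = B ∨ Disjoint ((fun x => g * x * g⁻¹) '' B) B)
    {a b : G} (ha : a ∈ B) (hb : b ∈ B) (h : G) :
    h⁻¹ * (a⁻¹ * b) * h ∈ Subgroup.normalizer B := by
  have haD := hBD ha
  have hbD := hBD hb
  have haH := block_self hB ha
  have hbH := block_self hB hb
  obtain ⟨x, hx⟩ : ∃ x, x = h * a * h⁻¹ := ⟨_, rfl⟩
  have hxD : x ∈ D := by rw [hx]; exact hconj h a haD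
  have hxi := tt_inv hS hxD
  have hai := tt_inv hS haD
  have hbi := tt_inv hS hbD
  have hfin : h ∈ Subgroup.normalizer B → h⁻¹ * (a⁻¹ * b) * h ∈ Subgroup.normalizer B := by
    intro hh
    exact Subgroup.mul_mem _ (Subgroup.mul_mem _ (Subgroup.inv_mem _ hh)
      (Subgroup.mul_mem _ (Subgroup.inv_mem _ haH) hbH)) hh
  by_cases hxa : Commute x a
  · by_cases hxb : Commute x b
    · apply block_bp hB ha
      have e : (h⁻¹ * (a⁻¹ * b) * h) * a * (h⁻¹ * (a⁻¹ * b) * h)⁻¹ =
          h⁻¹ * ((a⁻¹ * b) * (h * a * h⁻¹) * (a⁻¹ * b)⁻¹) * h := by group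
      have hc : Commute (a⁻¹ * b) x := (hxa.symm.inv_left).mul_left hxb.symm
      have e2 : (a⁻¹ * b) * x * (a⁻¹ * b)⁻¹ = x := by
        rw [hc.eq, mul_assoc, mul_inv_cancel, mul_one]
      rw [e, ← hx, e2, hx]
      have e3 : h⁻¹ * (h * a * h⁻¹) * h = a := by group
      rw [e3]; exact ha
    · apply hfin
      have hxH : x ∈ Subgroup.normalizer B := by
        apply block_bp hB ha
        rw [hxa.eq, mul_assoc, mul_inv_cancel, mul_one]
        exact ha
      have h1 : x * b * x⁻¹ ∈ B := (Subgroup.mem_set_normalizer_iff.1 hxH b).1 hb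
      have hbr : x * b * x = b * x * b := by
        rcases tt_braid hS hxD hbD with h' | h'
        · exact absurd h' hxb
        · exact h'
      have h2 : (b * h) * a * (b * h)⁻¹ ∈ B := by
        have e : (b * h) * a * (b * h)⁻¹ = b * (h * a * h⁻¹) * b⁻¹ := by group
        rw [e, ← hx, hbi, ← hbr]
        rw [hxi] at h1
        exact h1
      have hbh := block_bp hB ha h2
      have e : h = b⁻¹ * (b * h) := by group
      rw [e]
      exact Subgroup.mul_mem _ (Subgroup.inv_mem _ hbH) hbh
  · by_cases hxb : Commute x b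
    · apply hfin
      have hxH : x ∈ Subgroup.normalizer B := by
        apply block_bp hB hb
        rw [hxb.eq, mul_assoc, mul_inv_cancel, mul_one]
        exact hb
      have h1 : x * a * x⁻¹ ∈ B := (Subgroup.mem_set_normalizer_iff.1 hxH a).1 ha
      have hbr : x * a * x = a * x * a := by
        rcases tt_braid hS hxD haD with h' | h'
        · exact absurd h' hxa
        · exact h'
      have h2 : (a * h) * a * (a * h)⁻¹ ∈ B := by
        have e : (a * h) * a * (a * h)⁻¹ = a * (h * a * h⁻¹) * a⁻¹ := by group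
        rw [e, ← hx, hai, ← hbr]
        rw [hxi] at h1
        exact h1
      have hah := block_bp hB ha h2
      have e : h = a⁻¹ * (a * h) := by group
      rw [e]
      exact Subgroup.mul_mem _ (Subgroup.inv_mem _ haH) hah
    · have hbr_a : x * a * x = a * x * a := by
        rcases tt_braid hS hxD haD with h' | h'
        · exact absurd h' hxa
        · exact h'
      have hbr_b : x * b * x = b * x * b := by
        rcases tt_braid hS hxD hbD with h' | h'
        · exact absurd h' hxb
        · exact h'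
      have hbr_a' : a * x * a⁻¹ = x * a * x⁻¹ := by rw [hai, hxi]; exact hbr_a.symm
      have hbr_b' : b * x * b⁻¹ = x * b * x⁻¹ := by rw [hbi, hxi]; exact hbr_b.symm
      have hg1 : x⁻¹ * a * h ∈ Subgroup.normalizer B := by
        apply block_bp hB ha
        have e : (x⁻¹ * a * h) * a * (x⁻¹ * a * h)⁻¹ = x⁻¹ * (a * (h * a * h⁻¹) * a⁻¹) * x := by
          group
        rw [e, ← hx, hbr_a']
        have e' : x⁻¹ * (x * a * x⁻¹) * x = a := by group
        rw [e']; exact ha
      have hg2 : x⁻¹ * b * h ∈ Subgroup.normalizer B := by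
        apply block_bp hB ha
        have e : (x⁻¹ * b * h) * a * (x⁻¹ * b * h)⁻¹ = x⁻¹ * (b * (h * a * h⁻¹) * b⁻¹) * x := by
          group
        rw [e, ← hx, hbr_b']
        have e' : x⁻¹ * (x * b * x⁻¹) * x = b := by group
        rw [e']; exact hb
      have e : h⁻¹ * (a⁻¹ * b) * h = (x⁻¹ * a * h)⁻¹ * (x⁻¹ * b * h) := by group
      rw [e]
      exact Subgroup.mul_mem _ (Subgroup.inv_mem _ hg1) hg2

/-- if `L` has index at most two, the action on the class is primitive -/
theorem prim_of_index [Finite G] {D : Set G} (hD : IsThreeTranspositionClass D)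
    (hD2 : ∃ a ∈ D, ∃ b ∈ D, a ≠ b) (h2 : pCore 2 G ≤ Subgroup.center G)
    (h3 : pCore 3 G ≤ Subgroup.center G) (L : Subgroup G) [hLn : L.Normal]
    (hL : IsQuasisimple L) (hF : generalizedFittingSubgroup G = L ⊔ Subgroup.center G)
    (hidx : L.index ≤ 2) : IsPrimitiveUnderConj D := by
  have hS := hD.1
  refine ⟨fun a ha b hb => Cfsg.Agent.S5351.exists_conj hD ha hb, hD2, ?_⟩
  intro B hBD hB
  by_contra hcon
  push Not at hcon
  obtain ⟨hns, hne⟩ := hcon
  obtain ⟨a, ha, b, hb, hab⟩ := hns
  have haD := hBD ha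
  have hbD := hBD hb
  have hconj : ∀ g : G, ∀ d ∈ D, g * d * g⁻¹ ∈ D := fun g d hd => tt_conj_mem hD hd g
  have hNH : Subgroup.normalClosure ({a⁻¹ * b} : Set G) ≤ Subgroup.normalizer B := by
    unfold Subgroup.normalClosure
    rw [Subgroup.closure_le]
    intro y hy
    rw [Group.mem_conjugatesOfSet_iff] at hy
    obtain ⟨z, hz, hzy⟩ := hy
    rw [Set.mem_singleton_iff] at hz
    subst hz
    obtain ⟨c, hc⟩ := isConj_iff.1 hzy
    rw [← hc]
    have := block_conj_mem hS hconj hBD hB ha hb c⁻¹
    rwa [inv_inv] at this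
  rcases normal_dichotomy hL (Subgroup.normalClosure ({a⁻¹ * b} : Set G)) with hLN | hNC
  · have hLH := hLN.trans hNH
    have haH := block_self hB ha
    have htop : Subgroup.normalizer B = ⊤ := by
      by_cases haL : a ∈ L
      · have : L = ⊤ := by
          rw [eq_top_iff, ← hD.2.2, Subgroup.closure_le]
          intro d hd
          obtain ⟨c, rfl⟩ := Cfsg.Agent.S5351.exists_conj hD haD hd
          exact hLn.conj_mem a haL c
        rw [this] at hLH
        exact top_le_iff.1 hLH
      · have hlt : L < Subgroup.normalizer B := by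
          refine lt_of_le_of_ne hLH (fun h => haL ?_)
          rw [h]; exact haH
        have h1 := Subgroup.index_strictAnti hlt
        rw [← Subgroup.index_eq_one]
        have hne0 : (Subgroup.normalizer B).index ≠ 0 := Subgroup.index_ne_zero_of_finite
        omega
    apply hne
    apply Set.Subset.antisymm hBD
    intro d hd
    obtain ⟨c, rfl⟩ := Cfsg.Agent.S5351.exists_conj hD haD hd
    have hc : c ∈ Subgroup.normalizer B := by rw [htop]; exact Subgroup.mem_top c
    exact (Subgroup.mem_set_normalizer_iff.1 hc a).1 ha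
  · have hz : a⁻¹ * b ∈ Subgroup.center G :=
      centralizer_le_center hD h2 h3 hF
        (hNC (Subgroup.subset_normalClosure (Set.mem_singleton _)))
    have hai := tt_inv hS haD
    have hbi := tt_inv hS hbD
    have ha2 := tt_sq hS haD
    have hb2 := tt_sq hS hbD
    rw [hai] at hz
    have hcomm : a * b = b * a := by
      have h1 := (Subgroup.mem_center_iff.1 hz) a
      have h1' : b = a * b * a := by rw [← h1, ← mul_assoc, ha2, one_mul]
      calc a * b = a * (a * b * a) := by rw [← h1']
        _ = (a * a) * b * a := by group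
        _ = b * a := by rw [ha2, one_mul]
    have hz2 : (a * b) ^ 2 = 1 := by
      rw [pow_two]
      calc a * b * (a * b) = a * (b * a) * b := by group
        _ = a * (a * b) * b := by rw [← hcomm]
        _ = (a * a) * (b * b) := by group
        _ = 1 := by rw [ha2, hb2, one_mul]
    have hz1 : a * b ≠ 1 := by
      intro h
      apply hab
      rw [← hbi]
      exact eq_inv_of_mul_eq_one_left h
    obtain ⟨x, hxD, hxa⟩ := tt_exists_not_commute hD hD2 haD
    have hxa3 : (x * a) ^ 3 = 1 := by
      rcases hS.2 x hxD a haD with h | h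
      · exact absurd (commute_of_sq hS hxD haD h) hxa
      · exact h
    have hxb : x * b = (x * a) * (a * b) := by
      calc x * b = x * (a * a) * b := by rw [ha2, mul_one]
        _ = (x * a) * (a * b) := by group
    have hczx : Commute (x * a) (a * b) := (Subgroup.mem_center_iff.1 hz) (x * a)
    rcases hS.2 x hxD b hbD with h | h
    · rw [hxb, hczx.mul_pow, hz2, mul_one] at h
      exact hxa (commute_of_sq hS hxD haD h)
    · rw [hxb, hczx.mul_pow, hxa3, one_mul, pow_succ, hz2, one_mul] at h
      exact hz1 h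

/-- if the commuting graph is connected, `L` has index at most two -/
theorem index_of_connected [Finite G] {D : Set G} (hD : IsThreeTranspositionClass D)
    (hD2 : ∃ a ∈ D, ∃ b ∈ D, a ≠ b) (h2 : pCore 2 G ≤ Subgroup.center G)
    (h3 : pCore 3 G ≤ Subgroup.center G) (L : Subgroup G) [hLn : L.Normal]
    (hL : IsQuasisimple L) (hconn : (commutingGraph D).Connected) : L.index ≤ 2 := by
  have hS := hD.1
  have hw := width_one hD hD2 h2 h3 hL
  obtain ⟨d, hd, -⟩ := hD.2.1
  have hreach : ∀ u v : D, (commutingGraph D).Reachable u v → (u : G)⁻¹ * (v : G) ∈ L := by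
    rintro u v ⟨w⟩
    induction w with
    | nil => rw [inv_mul_cancel]; exact Subgroup.one_mem _
    | @cons u' v' w' hadj _ ih =>
      have hc : Commute (u' : G) (v' : G) := by
        unfold commutingGraph at hadj
        rw [SimpleGraph.fromRel_adj] at hadj
        rcases hadj.2 with h | h
        · exact h
        · exact h.symm
      have h1 : (u' : G)⁻¹ * (v' : G) ∈ L := by
        apply hw _ u'.2 _ v'.2
        have e : (u' : G) * (v' : G) * (u' : G)⁻¹ * (v' : G)⁻¹ = 1 := by
          rw [hc.eq]; group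
        rw [e]
        exact Subgroup.one_mem _
      have e : (u' : G)⁻¹ * (w' : G) = ((u' : G)⁻¹ * (v' : G)) * ((v' : G)⁻¹ * (w' : G)) := by
        group
      rw [e]
      exact Subgroup.mul_mem _ h1 ih
  have hall : ∀ a ∈ D, d⁻¹ * a ∈ L := fun a ha =>
    hreach ⟨d, hd⟩ ⟨a, ha⟩ (hconn.preconnected _ _)
  have hq : ∀ g : G, (g : G ⧸ L) = 1 ∨ (g : G ⧸ L) = (d : G ⧸ L) := by
    intro g
    have hg : g ∈ Subgroup.closure D := by rw [hD.2.2]; exact Subgroup.mem_top g
    induction hg using Subgroup.closure_induction with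
    | mem a ha =>
      right
      rw [eq_comm, QuotientGroup.eq]
      exact hall a ha
    | one => left; rfl
    | mul x y _ _ hx hy =>
      rw [QuotientGroup.mk_mul]
      rcases hx with hx | hx <;> rcases hy with hy | hy <;> rw [hx, hy]
      · left; rw [one_mul]
      · right; rw [one_mul]
      · right; rw [mul_one]
      · left
        rw [← QuotientGroup.mk_mul, tt_sq hS hd]
        rfl
    | inv x _ hx =>
      rw [QuotientGroup.mk_inv]
      rcases hx with hx | hx
      · left; rw [hx, inv_one]
      · right; rw [hx, ← QuotientGroup.mk_inv, tt_inv hS hd]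
  classical
  rw [Subgroup.index_eq_card]
  haveI : Fintype (G ⧸ L) := Fintype.ofFinite _
  rw [Nat.card_eq_fintype_card]
  calc Fintype.card (G ⧸ L) = (Finset.univ : Finset (G ⧸ L)).card := Finset.card_univ.symm
    _ ≤ ({1, (d : G ⧸ L)} : Finset (G ⧸ L)).card := by
        apply Finset.card_le_card
        intro q _
        induction q using QuotientGroup.induction_on with
        | H g =>
          rw [Finset.mem_insert, Finset.mem_singleton]
          exact hq g
    _ ≤ 2 := Finset.card_le_two

theorem main [Finite G] {D : Set G} (hD : Cfsg.IsThreeTranspositionClass D)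
    (hD2 : ∃ a ∈ D, ∃ b ∈ D, a ≠ b) (h2 : Cfsg.pCore 2 G ≤ Subgroup.center G)
    (h3 : Cfsg.pCore 3 G ≤ Subgroup.center G) (L : Subgroup G) [L.Normal]
    (hL : Cfsg.IsQuasisimple L)
    (hF : Cfsg.generalizedFittingSubgroup G = L ⊔ Subgroup.center G) :
    (L.index ≤ 2 → Cfsg.IsPrimitiveUnderConj D) ∧
      ((Cfsg.commutingGraph D).Connected → L.index ≤ 2) :=
  ⟨prim_of_index hD hD2 h2 h3 L hL hF, index_of_connected hD hD2 h2 h3 L hL⟩

end

/-- Let D be a conjugacy class of 3-transpositions generating the finite group G, with at least two members, such that the largest normal 2-subgroup and the largest normal 3-subgroup of G are central, and let L be a quasisimple normal subgroup with generalized Fitting subgroup of G equal to L times the centre. If L has index at most 2 then G acts primitively on D by conjugation; and if the commuting graph of D is connected then L has index at most 2. -/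
theorem result {G : Type*} [Group G] [Finite G] {D : Set G} (hD : Cfsg.IsThreeTranspositionClass D) (hD2 : ∃ a ∈ D, ∃ b ∈ D, a ≠ b) (h2 : Cfsg.pCore 2 G ≤ Subgroup.center G) (h3 : Cfsg.pCore 3 G ≤ Subgroup.center G) (L : Subgroup G) [L.Normal] (hL : Cfsg.IsQuasisimple L) (hF : Cfsg.generalizedFittingSubgroup G = L ⊔ Subgroup.center G) : (L.index ≤ 2 → Cfsg.IsPrimitiveUnderConj D) ∧ ((Cfsg.commutingGraph D).Connected → L.index ≤ 2) := by
  exact main hD hD2 h2 h3 L hL hF

end Cfsg.Agent.S5353
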