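import Cfsg.Statements.S5361
-- import your own Cfsg.Agent.* helpers here
import Cfsg.Agent.S5353

set_option autoImplicit false
open Cfsg

namespace Cfsg.Agent.S5361

section
open Cfsg.Agent.Lib.helper26 Cfsg
open Cfsg.Agent.Lib.helper14 (isPGroup_pCore pCore_normal')
open Cfsg.Agent.S5351 (commute_of_sq eq_one_of_pows exists_pow_of_mem_pCore exists_conj
  exists_noncomm)
open Cfsg.Agent.S5353 (prim_of_index index_of_connected centralizer_le_center)
open scoped commutatorElement

variable {G : Type*} [Group G]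

/-- if all members of the class are congruent modulo `L`, then `L` has index at most two -/
theorem index_le_two_of_congr [Finite G] {D : Set G} (hD : IsThreeTranspositionClass D) {d : G}
    (hd : d ∈ D) (L : Subgroup G) [hLn : L.Normal] (hall : ∀ a ∈ D, d⁻¹ * a ∈ L) :
    L.index ≤ 2 := by
  have hS := hD.1
  have hq : ∀ g : G, (g : G ⧸ L) = 1 ∨ (g : G ⧸ L) = (d : G ⧸ L) := by
    intro g
    have hg : g ∈ Subgroup.closure D := by rw [hD.2.2]; exact Subgroup.mem_top g
    induction hg using Subgroup.closure_induction with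
    | mem a ha =>
      right
      rw [eq_comm, QuotientGroup.eq]
      exact hall a ha
    | one => left; rfl
    | mul x y _ _ hx hy =>
      rw [QuotientGroup.mk_mul]
      rcases hx with hx | hx <;> rcases hy with hy | hy <;> rw [hx, hy]
      · left; rw [one_mul]
      · right; rw [one_mul]
      · right; rw [mul_one]
      · left
        rw [← QuotientGroup.mk_mul, tt_sq hS hd]
        rfl
    | inv x _ hx =>
      rw [QuotientGroup.mk_inv]
      rcases hx with hx | hx
      · left; rw [hx, inv_one]
      · right; rw [hx, ← QuotientGroup.mk_inv, tt_inv hS hd]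
  classical
  rw [Subgroup.index_eq_card]
  haveI : Fintype (G ⧸ L) := Fintype.ofFinite _
  rw [Nat.card_eq_fintype_card]
  calc Fintype.card (G ⧸ L) = (Finset.univ : Finset (G ⧸ L)).card := Finset.card_univ.symm
    _ ≤ ({1, (d : G ⧸ L)} : Finset (G ⧸ L)).card := by
        apply Finset.card_le_card
        intro q _
        induction q using QuotientGroup.induction_on with
        | H g =>
          rw [Finset.mem_insert, Finset.mem_singleton]
          exact hq g
    _ ≤ 2 := Finset.card_le_two

theorem commutator_le_of_index [Finite G] (L : Subgroup G) [L.Normal] (h : L.index ≤ 2) :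
    commutator G ≤ L := by
  rw [← Subgroup.Normal.quotient_commutative_iff_commutator_le]
  have hc : Nat.card (G ⧸ L) ≤ 2 := by rw [← Subgroup.index_eq_card]; exact h
  have hpos : 0 < Nat.card (G ⧸ L) := Nat.card_pos
  rcases Nat.lt_or_ge (Nat.card (G ⧸ L)) 2 with h1 | h2
  · have h1' : Nat.card (G ⧸ L) = 1 := by omega
    haveI : Subsingleton (G ⧸ L) := (Nat.card_eq_one_iff_unique.1 h1').1
    exact ⟨⟨fun a b => Subsingleton.elim _ _⟩⟩
  · have h2' : Nat.card (G ⧸ L) = 2 := by omega
    haveI : Fact (Nat.Prime 2) := ⟨Nat.prime_two⟩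
    haveI := isCyclic_of_prime_card h2'
    exact IsCyclic.isMulCommutative

/-- primitivity forces the `2`-core and the `3`-core to be trivial -/
theorem pCore_eq_bot_of_prim [Finite G] {D : Set G} (hD : IsThreeTranspositionClass D)
    (hZ : Subgroup.center G = ⊥) (hprim : IsPrimitiveUnderConj D) {a b : G} (ha : a ∈ D)
    (hb : b ∈ D) (hab : a ≠ b) (hc : Commute a b) {p : ℕ} (hp : p = 2 ∨ p = 3) :
    pCore p G = ⊥ := by
  have hS := hD.1
  haveI := pCore_normal' p G
  by_contra hne
  have hncen : ¬ pCore p G ≤ Subgroup.center G := by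
    rw [hZ]
    intro h
    exact hne (le_bot_iff.1 h)
  obtain ⟨n, hn, han⟩ := exists_noncomm hD hncen ha
  obtain ⟨B, hBdef⟩ : ∃ B : Set G, B = {x : G | x ∈ D ∧ a⁻¹ * x ∈ pCore p G} := ⟨_, rfl⟩
  have hBD : B ⊆ D := by rw [hBdef]; exact fun x hx => hx.1
  have haB : a ∈ B := by
    rw [hBdef]
    exact ⟨ha, by rw [inv_mul_cancel]; exact Subgroup.one_mem _⟩
  have hblock : ∀ g : G, (fun x => g * x * g⁻¹) '' B = B ∨
      Disjoint ((fun x => g * x * g⁻¹) '' B) B := by
    intro g
    by_cases hg : g * a * g⁻¹ ∈ B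
    · left
      rw [hBdef] at hg
      ext y
      constructor
      · rintro ⟨x, hx, rfl⟩
        rw [hBdef] at hx ⊢
        refine ⟨tt_conj_mem hD hx.1 g, ?_⟩
        have e : a⁻¹ * (g * x * g⁻¹) = (a⁻¹ * (g * a * g⁻¹)) * (g * (a⁻¹ * x) * g⁻¹) := by group
        rw [e]
        exact Subgroup.mul_mem _ hg.2 (Subgroup.Normal.conj_mem inferInstance _ hx.2 g)
      · intro hy
        refine ⟨g⁻¹ * y * g, ?_, by group⟩
        rw [hBdef] at hy ⊢
        refine ⟨by have := tt_conj_mem hD hy.1 g⁻¹; rwa [inv_inv] at this, ?_⟩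
        have e : a⁻¹ * (g⁻¹ * y * g) =
            g⁻¹ * ((a⁻¹ * (g * a * g⁻¹))⁻¹ * (a⁻¹ * y)) * g⁻¹⁻¹ := by group
        rw [e]
        exact Subgroup.Normal.conj_mem inferInstance _
          (Subgroup.mul_mem _ (Subgroup.inv_mem _ hg.2) hy.2) g⁻¹
    · right
      rw [Set.disjoint_left]
      rintro y ⟨x, hx, rfl⟩ hy
      apply hg
      rw [hBdef] at hx hy ⊢
      refine ⟨tt_conj_mem hD ha g, ?_⟩
      have e : a⁻¹ * (g * a * g⁻¹) = (a⁻¹ * (g * x * g⁻¹)) * (g * (a⁻¹ * x) * g⁻¹)⁻¹ := by group
      rw [e]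
      exact Subgroup.mul_mem _ hy.2
        (Subgroup.inv_mem _ (Subgroup.Normal.conj_mem inferInstance _ hx.2 g))
  rcases hprim.2.2 B hBD hblock with hsub | hBtop
  · have h1 : n * a * n⁻¹ ∈ B := by
      rw [hBdef]
      refine ⟨tt_conj_mem hD ha n, ?_⟩
      have e : a⁻¹ * (n * a * n⁻¹) = (a⁻¹ * n * a⁻¹⁻¹) * n⁻¹ := by group
      rw [e]
      exact Subgroup.mul_mem _ (Subgroup.Normal.conj_mem inferInstance n hn a⁻¹)
        (Subgroup.inv_mem _ hn)
    have h2 := hsub h1 haB
    apply han
    calc a * n = (n * a * n⁻¹) * n := by rw [h2]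
      _ = n * a := by group
  · have hai := tt_inv hS ha
    rcases hp with rfl | rfl
    · have hall : ∀ x ∈ D, a * x = x * a := by
        intro x hx
        have hxB : x ∈ B := by rw [hBtop]; exact hx
        rw [hBdef] at hxB
        obtain ⟨k, hk⟩ := exists_pow_of_mem_pCore hxB.2
        rw [hai] at hk
        rcases hS.2 a ha x hx with h | h
        · exact (commute_of_sq hS ha hx h).eq
        · have h1 : a * x = 1 := eq_one_of_pows hk h (by norm_num)
          have h2 : x = a := by
            rw [← hai]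
            exact eq_inv_of_mul_eq_one_right h1
          rw [h2]
      have hacen : a ∈ Subgroup.center G := by
        have hle : Subgroup.closure D ≤ Subgroup.centralizer ({a} : Set G) := by
          rw [Subgroup.closure_le]
          intro x hx
          refine Subgroup.mem_centralizer_iff.2 ?_
          intro y hy
          rw [Set.mem_singleton_iff] at hy
          subst hy
          exact hall x hx
        rw [hD.2.2] at hle
        rw [Subgroup.mem_center_iff]
        intro g
        exact ((Subgroup.mem_centralizer_iff.1 (hle (Subgroup.mem_top g))) a rfl).symm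
      rw [hZ, Subgroup.mem_bot] at hacen
      have h1 := hS.1 a ha
      rw [hacen, orderOf_one] at h1
      exact absurd h1 (by norm_num)
    · have hbB : b ∈ B := by rw [hBtop]; exact hb
      rw [hBdef] at hbB
      obtain ⟨k, hk⟩ := exists_pow_of_mem_pCore hbB.2
      rw [hai] at hk
      have h2 : (a * b) ^ 2 = 1 := by
        rw [hc.mul_pow, pow_two, pow_two, tt_sq hS ha, tt_sq hS hb, one_mul]
      have h1 : a * b = 1 := eq_one_of_pows hk h2 (by norm_num)
      apply hab
      rw [← tt_inv hS hb]
      exact eq_inv_of_mul_eq_one_left h1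

/-- primitivity with two commuting members forces the commuting graph to be connected -/
theorem connected_of_prim {D : Set G} (hD : IsThreeTranspositionClass D)
    (hprim : IsPrimitiveUnderConj D) {a b : G} (ha : a ∈ D) (hb : b ∈ D) (hab : a ≠ b)
    (hc : Commute a b) : (commutingGraph D).Connected := by
  have hmap : ∀ g : G, ∀ u v u' v' : D, (u' : G) = g * u * g⁻¹ → (v' : G) = g * v * g⁻¹ →
      (commutingGraph D).Reachable u v → (commutingGraph D).Reachable u' v' := by
    intro g u v u' v' hu' hv' huv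
    let f : commutingGraph D →g commutingGraph D :=
      { toFun := fun x => ⟨g * x * g⁻¹, tt_conj_mem hD x.2 g⟩
        map_rel' := by
          intro x y hxy
          unfold commutingGraph at hxy ⊢
          rw [SimpleGraph.fromRel_adj] at hxy ⊢
          refine ⟨?_, ?_⟩
          · intro h
            apply hxy.1
            have h1 : g * (x : G) * g⁻¹ = g * (y : G) * g⁻¹ := congrArg Subtype.val h
            apply Subtype.ext
            calc (x : G) = g⁻¹ * (g * x * g⁻¹) * g := by group
              _ = y := by rw [h1]; group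
          · rcases hxy.2 with h | h
            · left; exact (Commute.conj_iff g).2 h
            · right; exact (Commute.conj_iff g).2 h }
    have h1 := huv.map f
    have e1 : f u = u' := Subtype.ext hu'.symm
    have e2 : f v = v' := Subtype.ext hv'.symm
    rw [e1, e2] at h1
    exact h1
  obtain ⟨B, hBdef⟩ : ∃ B : Set G,
      B = {x : G | ∃ hx : x ∈ D, (commutingGraph D).Reachable ⟨a, ha⟩ ⟨x, hx⟩} := ⟨_, rfl⟩
  have hBD : B ⊆ D := by rw [hBdef]; exact fun x hx => hx.1
  have haB : a ∈ B := by rw [hBdef]; exact ⟨ha, SimpleGraph.Reachable.refl _⟩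
  have hbB : b ∈ B := by
    rw [hBdef]
    refine ⟨hb, SimpleGraph.Adj.reachable ?_⟩
    unfold commutingGraph
    rw [SimpleGraph.fromRel_adj]
    exact ⟨fun h => hab (congrArg Subtype.val h), Or.inl hc⟩
  have hblock : ∀ g : G, (fun x => g * x * g⁻¹) '' B = B ∨
      Disjoint ((fun x => g * x * g⁻¹) '' B) B := by
    intro g
    by_cases hg : g * a * g⁻¹ ∈ B
    · left
      rw [hBdef] at hg
      obtain ⟨hgD, hgr⟩ := hg
      ext y
      constructor
      · rintro ⟨x, hx, rfl⟩
        rw [hBdef] at hx ⊢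
        obtain ⟨hxD, hxr⟩ := hx
        exact ⟨tt_conj_mem hD hxD g, hgr.trans (hmap g _ _ _ _ rfl rfl hxr)⟩
      · intro hy
        rw [hBdef] at hy
        obtain ⟨hyD, hyr⟩ := hy
        refine ⟨g⁻¹ * y * g, ?_, by group⟩
        rw [hBdef]
        have hyD' : g⁻¹ * y * g ∈ D := by
          have := tt_conj_mem hD hyD g⁻¹
          rwa [inv_inv] at this
        refine ⟨hyD', ?_⟩
        refine hmap g⁻¹ ⟨g * a * g⁻¹, hgD⟩ ⟨y, hyD⟩ ⟨a, ha⟩ ⟨g⁻¹ * y * g, hyD'⟩ ?_ ?_
          (hgr.symm.trans hyr)
        · show a = g⁻¹ * (g * a * g⁻¹) * g⁻¹⁻¹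
          group
        · show g⁻¹ * y * g = g⁻¹ * y * g⁻¹⁻¹
          group
    · right
      rw [Set.disjoint_left]
      rintro y ⟨x, hx, rfl⟩ hy
      apply hg
      rw [hBdef] at hx hy ⊢
      obtain ⟨hxD, hxr⟩ := hx
      obtain ⟨hyD, hyr⟩ := hy
      refine ⟨tt_conj_mem hD ha g, ?_⟩
      exact hyr.trans (hmap g ⟨a, ha⟩ ⟨x, hxD⟩ ⟨g * a * g⁻¹, tt_conj_mem hD ha g⟩
        ⟨g * x * g⁻¹, hyD⟩ rfl rfl hxr).symm
  rcases hprim.2.2 B hBD hblock with hsub | hBtop
  · exact absurd (hsub haB hbB) hab
  · have hreach : ∀ x : D, (commutingGraph D).Reachable ⟨a, ha⟩ x := by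
      intro x
      have hx : (x : G) ∈ B := by rw [hBtop]; exact x.2
      rw [hBdef] at hx
      obtain ⟨_, hr⟩ := hx
      exact hr
    haveI : Nonempty D := ⟨⟨a, ha⟩⟩
    exact ⟨fun u v => (hreach u).symm.trans (hreach v)⟩

/-- (2) ⇒ (1) -/
theorem simple_of_prim [Finite G] {D : Set G} (hD : IsThreeTranspositionClass D)
    (hZ : Subgroup.center G = ⊥) (hw : ∃ a ∈ D, ∃ b ∈ D, a ≠ b ∧ Commute a b)
    (hprim : IsPrimitiveUnderConj D) : IsSimpleGroup (commutator G) := by
  obtain ⟨a, ha, b, hb, hab, hc⟩ := hw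
  have hD2 : ∃ a ∈ D, ∃ b ∈ D, a ≠ b := ⟨a, ha, b, hb, hab⟩
  have h2 : pCore 2 G ≤ Subgroup.center G := by
    rw [pCore_eq_bot_of_prim hD hZ hprim ha hb hab hc (Or.inl rfl)]; exact bot_le
  have h3 : pCore 3 G ≤ Subgroup.center G := by
    rw [pCore_eq_bot_of_prim hD hZ hprim ha hb hab hc (Or.inr rfl)]; exact bot_le
  have hconn := connected_of_prim hD hprim ha hb hab hc
  obtain ⟨L, hLn, hL, hF, -⟩ := Cfsg.Agent.S5352.main hD hD2 h2 h3
  haveI := hLn
  have hidx := index_of_connected hD hD2 h2 h3 L hL hconn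
  have hCL : commutator G = L := by
    apply le_antisymm (commutator_le_of_index L hidx)
    have hperf : ⁅L, L⁆ = L := Subgroup.isPerfect_iff.mp hL.1
    rw [← hperf, commutator_def]
    exact Subgroup.commutator_mono le_top le_top
  rw [hCL]
  have hcen : Subgroup.center L = ⊥ := by
    rw [eq_bot_iff]
    intro z hz
    rw [Subgroup.mem_bot]
    have hzC : (z : G) ∈ Subgroup.centralizer (L : Set G) := by
      refine Subgroup.mem_centralizer_iff.2 ?_
      intro g hg
      have := (Subgroup.mem_center_iff.1 hz) ⟨g, hg⟩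
      exact congrArg Subtype.val this
    have := centralizer_le_center hD h2 h3 hF hzC
    rw [hZ, Subgroup.mem_bot] at this
    exact Subtype.ext this
  haveI : IsSimpleGroup (L ⧸ Subgroup.center L) := hL.2
  exact ((QuotientGroup.quotientBot (G := L)).symm.trans
    (QuotientGroup.quotientMulEquivOfEq hcen.symm)).isSimpleGroup

/-- (1) ⇒ (2) -/
theorem prim_of_simple [Finite G] {D : Set G} (hD : IsThreeTranspositionClass D)
    (hZ : Subgroup.center G = ⊥) (hw : ∃ a ∈ D, ∃ b ∈ D, a ≠ b ∧ Commute a b)
    (hs : IsSimpleGroup (commutator G)) : IsPrimitiveUnderConj D := by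
  have hS := hD.1
  obtain ⟨a, ha, b, hb, hab, hc⟩ := hw
  have hD2 : ∃ a ∈ D, ∃ b ∈ D, a ≠ b := ⟨a, ha, b, hb, hab⟩
  haveI hCn : (commutator G).Normal := inferInstance
  have hcomm_mem : ∀ x y : G, x * y * x⁻¹ * y⁻¹ ∈ commutator G := by
    intro x y
    have e : x * y * x⁻¹ * y⁻¹ = ⁅x, y⁆ := by rw [commutatorElement_def]
    rw [e, commutator_def]
    exact Subgroup.commutator_mem_commutator (Subgroup.mem_top _) (Subgroup.mem_top _)
  have hall : ∀ x ∈ D, a⁻¹ * x ∈ commutator G := by
    intro x hx
    obtain ⟨c, rfl⟩ := exists_conj hD ha hx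
    have e : a⁻¹ * (c * a * c⁻¹) = a⁻¹ * c * a⁻¹⁻¹ * c⁻¹ := by group
    rw [e]
    exact hcomm_mem _ _
  have hai := tt_inv hS ha
  have htC : a * b ∈ commutator G := by
    have := hall b hb
    rwa [hai] at this
  have ht2 : (a * b) * (a * b) = 1 := by
    rw [← pow_two, hc.mul_pow, pow_two, pow_two, tt_sq hS ha, tt_sq hS hb, one_mul]
  have ht1 : a * b ≠ 1 := by
    intro h
    apply hab
    rw [← tt_inv hS hb]
    exact eq_inv_of_mul_eq_one_left h
  have hnab : ¬ ∀ x y : commutator G, x * y = y * x := by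
    intro hcomm
    have hTn : (Subgroup.zpowers (⟨a * b, htC⟩ : commutator G)).Normal := by
      refine ⟨fun n hn g => ?_⟩
      have : g * n * g⁻¹ = n := by rw [hcomm g n, mul_assoc, mul_inv_cancel, mul_one]
      rw [this]; exact hn
    rcases hTn.eq_bot_or_eq_top with hbot | htop
    · have : (⟨a * b, htC⟩ : commutator G) ∈
          Subgroup.zpowers (⟨a * b, htC⟩ : commutator G) := Subgroup.mem_zpowers _
      rw [hbot, Subgroup.mem_bot] at this
      exact ht1 (congrArg Subtype.val this)
    · have hcases : ∀ y ∈ commutator G, y = 1 ∨ y = a * b := by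
        intro y hy
        have : (⟨y, hy⟩ : commutator G) ∈
            Subgroup.zpowers (⟨a * b, htC⟩ : commutator G) := by
          rw [htop]; exact Subgroup.mem_top _
        obtain ⟨i, hi⟩ := this
        have hi' : (a * b) ^ i = y := by
          have := congrArg Subtype.val hi
          simpa using this
        rcases Int.even_or_odd i with ⟨k, hk⟩ | ⟨k, hk⟩
        · left
          rw [← hi', hk, ← two_mul, zpow_mul, zpow_two, ht2, one_zpow]
        · right
          rw [← hi', hk, zpow_add, zpow_mul, zpow_two, ht2, one_zpow, one_mul, zpow_one]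
      have hcen : a * b ∈ Subgroup.center G := by
        rw [Subgroup.mem_center_iff]
        intro g
        have h1 : g * (a * b) * g⁻¹ ∈ commutator G := hCn.conj_mem _ htC g
        rcases hcases _ h1 with h | h
        · exfalso
          apply ht1
          calc a * b = g⁻¹ * (g * (a * b) * g⁻¹) * g := by group
            _ = 1 := by rw [h]; group
        · calc g * (a * b) = (g * (a * b) * g⁻¹) * g := by group
            _ = a * b * g := by rw [h]
      rw [hZ, Subgroup.mem_bot] at hcen
      exact ht1 hcen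
  have hcore : ∀ p : ℕ, p.Prime → pCore p G = ⊥ := by
    intro p hp
    haveI : Fact p.Prime := ⟨hp⟩
    haveI hpn := pCore_normal' p G
    have hnorm : ((pCore p G).subgroupOf (commutator G)).Normal := hpn.subgroupOf _
    rcases hnorm.eq_bot_or_eq_top with hbot | htop
    · rw [eq_bot_iff, ← hZ]
      intro n hn
      rw [Subgroup.mem_center_iff]
      intro g
      have h1 : g * n * g⁻¹ * n⁻¹ ∈ pCore p G :=
        Subgroup.mul_mem _ (hpn.conj_mem n hn g) (Subgroup.inv_mem _ hn)
      have h2 : g * n * g⁻¹ * n⁻¹ ∈ commutator G := hcomm_mem g n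
      have h3 : (⟨_, h2⟩ : commutator G) ∈ (pCore p G).subgroupOf (commutator G) :=
        Subgroup.mem_subgroupOf.2 h1
      rw [hbot, Subgroup.mem_bot] at h3
      have h4 : g * n * g⁻¹ * n⁻¹ = 1 := congrArg Subtype.val h3
      calc g * n = (g * n * g⁻¹ * n⁻¹) * n * g := by group
        _ = n * g := by rw [h4, one_mul]
    · exfalso
      have hCle : commutator G ≤ pCore p G := by
        intro x hx
        have : (⟨x, hx⟩ : commutator G) ∈ (pCore p G).subgroupOf (commutator G) := by
          rw [htop]; exact Subgroup.mem_top _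
        exact Subgroup.mem_subgroupOf.1 this
      have hpC : IsPGroup p (commutator G) := (isPGroup_pCore p G).to_le hCle
      haveI : Nontrivial (commutator G) := IsSimpleGroup.toNontrivial
      have hcn := hpC.center_nontrivial
      have hcenN : (Subgroup.center (commutator G)).Normal := inferInstance
      rcases hcenN.eq_bot_or_eq_top with hb' | ht'
      · obtain ⟨x, y, hxy⟩ := hcn
        apply hxy
        apply Subtype.ext
        have hx : (x : commutator G) ∈ (⊥ : Subgroup (commutator G)) := by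
          rw [← hb']; exact x.2
        have hy : (y : commutator G) ∈ (⊥ : Subgroup (commutator G)) := by
          rw [← hb']; exact y.2
        rw [Subgroup.mem_bot] at hx hy
        rw [hx, hy]
      · apply hnab
        intro x y
        have : x ∈ Subgroup.center (commutator G) := by rw [ht']; exact Subgroup.mem_top _
        exact ((Subgroup.mem_center_iff.1 this) y).symm
  have h2 : pCore 2 G ≤ Subgroup.center G := by rw [hcore 2 Nat.prime_two]; exact bot_le
  have h3 : pCore 3 G ≤ Subgroup.center G := by rw [hcore 3 Nat.prime_three]; exact bot_le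
  obtain ⟨L, hLn, hL, hF, -⟩ := Cfsg.Agent.S5352.main hD hD2 h2 h3
  haveI := hLn
  have hLC : L ≤ commutator G := by
    have hperf : ⁅L, L⁆ = L := Subgroup.isPerfect_iff.mp hL.1
    rw [← hperf, commutator_def]
    exact Subgroup.commutator_mono le_top le_top
  have hLeq : L = commutator G := by
    have hnorm : (L.subgroupOf (commutator G)).Normal := hLn.subgroupOf _
    rcases hnorm.eq_bot_or_eq_top with hbot | htop
    · exfalso
      have hLbot : ∀ x ∈ L, x = 1 := by
        intro x hx
        have : (⟨x, hLC hx⟩ : commutator G) ∈ L.subgroupOf (commutator G) :=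
          Subgroup.mem_subgroupOf.2 hx
        rw [hbot, Subgroup.mem_bot] at this
        exact congrArg Subtype.val this
      haveI := Cfsg.Agent.Lib.helper7.qs_nontrivial hL
      obtain ⟨x, y, hxy⟩ := exists_pair_ne L
      apply hxy
      apply Subtype.ext
      rw [hLbot x x.2, hLbot y y.2]
    · apply le_antisymm hLC
      intro x hx
      have : (⟨x, hx⟩ : commutator G) ∈ L.subgroupOf (commutator G) := by
        rw [htop]; exact Subgroup.mem_top _
      exact Subgroup.mem_subgroupOf.1 this
  have hidx : L.index ≤ 2 := by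
    have h1 := index_le_two_of_congr hD ha (commutator G) hall
    rw [← hLeq] at h1
    exact h1
  exact prim_of_index hD hD2 h2 h3 L hL hF hidx

theorem main [Finite G] {D : Set G} (hD : Cfsg.IsThreeTranspositionClass D)
    (hZ : Subgroup.center G = ⊥) (hw : ∃ a ∈ D, ∃ b ∈ D, a ≠ b ∧ Commute a b) :
    (IsSimpleGroup (commutator G) ↔ Cfsg.IsPrimitiveUnderConj D) ∧
      (Cfsg.IsPrimitiveUnderConj D ↔
        (Cfsg.pCore 2 G = ⊥ ∧ Cfsg.pCore 3 G = ⊥ ∧ (Cfsg.commutingGraph D).Connected)) := by
  obtain ⟨a, ha, b, hb, hab, hc⟩ := hw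
  have hw' : ∃ a ∈ D, ∃ b ∈ D, a ≠ b ∧ Commute a b := ⟨a, ha, b, hb, hab, hc⟩
  have hD2 : ∃ a ∈ D, ∃ b ∈ D, a ≠ b := ⟨a, ha, b, hb, hab⟩
  refine ⟨⟨prim_of_simple hD hZ hw', simple_of_prim hD hZ hw'⟩, ⟨?_, ?_⟩⟩
  · intro hprim
    exact ⟨pCore_eq_bot_of_prim hD hZ hprim ha hb hab hc (Or.inl rfl),
      pCore_eq_bot_of_prim hD hZ hprim ha hb hab hc (Or.inr rfl),
      connected_of_prim hD hprim ha hb hab hc⟩
  · rintro ⟨h2, h3, hconn⟩
    have h2' : pCore 2 G ≤ Subgroup.center G := by rw [h2]; exact bot_le
    have h3' : pCore 3 G ≤ Subgroup.center G := by rw [h3]; exact bot_le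
    obtain ⟨L, hLn, hL, hF, -⟩ := Cfsg.Agent.S5352.main hD hD2 h2' h3'
    haveI := hLn
    exact prim_of_index hD hD2 h2' h3' L hL hF (index_of_connected hD hD2 h2' h3' L hL hconn)

end

/-- Let D be a conjugacy class of 3-transpositions generating the finite group G, and suppose the centre of G is trivial and some two different members of D commute. Then the following are equivalent: (1) the commutator subgroup of G is simple (possibly of prime order); (2) G acts primitively on D by conjugation; (3) the largest normal 2-subgroup and the largest normal 3-subgroup of G are trivial and the commuting graph of D is connected. -/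
theorem result {G : Type*} [Group G] [Finite G] {D : Set G} (hD : Cfsg.IsThreeTranspositionClass D) (hZ : Subgroup.center G = ⊥) (hw : ∃ a ∈ D, ∃ b ∈ D, a ≠ b ∧ Commute a b) : (IsSimpleGroup (commutator G) ↔ Cfsg.IsPrimitiveUnderConj D) ∧ (Cfsg.IsPrimitiveUnderConj D ↔ (Cfsg.pCore 2 G = ⊥ ∧ Cfsg.pCore 3 G = ⊥ ∧ (Cfsg.commutingGraph D).Connected)) := by
  exact main hD hZ hw

end Cfsg.Agent.S5361
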