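import Cfsg.Statements.S5354
-- import your own Cfsg.Agent.* helpers here
import Cfsg.Agent.S5361

set_option autoImplicit false
open Cfsg

namespace Cfsg.Agent.S5354

section
open Cfsg.Agent.Lib.helper26 Cfsg
open Cfsg.Agent.Lib.helper14 (isPGroup_pCore pCore_normal')
open Cfsg.Agent.S5351 (commute_of_sq eq_one_of_pows exists_pow_of_mem_pCore exists_conj
  exists_noncomm)
open Cfsg.Agent.S5353 (prim_of_index index_of_connected)
open Cfsg.Agent.S5361 (connected_of_prim)

variable {G : Type*} [Group G]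

theorem class_of_prim {D : Set G} (hD : IsThreeTranspositionGroup D)
    (hprim : IsPrimitiveUnderConj D) : IsThreeTranspositionClass D := by
  obtain ⟨a, ha, -⟩ := hprim.2.1
  refine ⟨hD.1, ⟨a, ha, ?_⟩, hD.2.2⟩
  ext x
  constructor
  · intro hx
    obtain ⟨g, hg⟩ := hprim.1 a ha x hx
    show IsConj a x
    rw [isConj_iff]
    exact ⟨g, hg⟩
  · intro hx
    have hx' : IsConj a x := hx
    rw [isConj_iff] at hx'
    obtain ⟨g, rfl⟩ := hx'
    exact hD.2.1 g a ha

/-- primitivity forces the `2`-core and the `3`-core to be central -/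
theorem pCore_le_center_of_prim [Finite G] {D : Set G} (hD : IsThreeTranspositionClass D)
    (hprim : IsPrimitiveUnderConj D) {a b : G} (ha : a ∈ D)
    (hb : b ∈ D) (hab : a ≠ b) (hc : Commute a b) {p : ℕ} (hp : p = 2 ∨ p = 3) :
    pCore p G ≤ Subgroup.center G := by
  have hS := hD.1
  haveI := pCore_normal' p G
  by_contra hncen
  obtain ⟨n, hn, han⟩ := exists_noncomm hD hncen ha
  obtain ⟨B, hBdef⟩ : ∃ B : Set G, B = {x : G | x ∈ D ∧ a⁻¹ * x ∈ pCore p G} := ⟨_, rfl⟩
  have hBD : B ⊆ D := by rw [hBdef]; exact fun x hx => hx.1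
  have haB : a ∈ B := by
    rw [hBdef]
    exact ⟨ha, by rw [inv_mul_cancel]; exact Subgroup.one_mem _⟩
  have hblock : ∀ g : G, (fun x => g * x * g⁻¹) '' B = B ∨
      Disjoint ((fun x => g * x * g⁻¹) '' B) B := by
    intro g
    by_cases hg : g * a * g⁻¹ ∈ B
    · left
      rw [hBdef] at hg
      ext y
      constructor
      · rintro ⟨x, hx, rfl⟩
        rw [hBdef] at hx ⊢
        refine ⟨tt_conj_mem hD hx.1 g, ?_⟩
        have e : a⁻¹ * (g * x * g⁻¹) = (a⁻¹ * (g * a * g⁻¹)) * (g * (a⁻¹ * x) * g⁻¹) := by group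
        rw [e]
        exact Subgroup.mul_mem _ hg.2 (Subgroup.Normal.conj_mem inferInstance _ hx.2 g)
      · intro hy
        refine ⟨g⁻¹ * y * g, ?_, by group⟩
        rw [hBdef] at hy ⊢
        refine ⟨by have := tt_conj_mem hD hy.1 g⁻¹; rwa [inv_inv] at this, ?_⟩
        have e : a⁻¹ * (g⁻¹ * y * g) =
            g⁻¹ * ((a⁻¹ * (g * a * g⁻¹))⁻¹ * (a⁻¹ * y)) * g⁻¹⁻¹ := by group
        rw [e]
        exact Subgroup.Normal.conj_mem inferInstance _
          (Subgroup.mul_mem _ (Subgroup.inv_mem _ hg.2) hy.2) g⁻¹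
    · right
      rw [Set.disjoint_left]
      rintro y ⟨x, hx, rfl⟩ hy
      apply hg
      rw [hBdef] at hx hy ⊢
      refine ⟨tt_conj_mem hD ha g, ?_⟩
      have e : a⁻¹ * (g * a * g⁻¹) = (a⁻¹ * (g * x * g⁻¹)) * (g * (a⁻¹ * x) * g⁻¹)⁻¹ := by group
      rw [e]
      exact Subgroup.mul_mem _ hy.2
        (Subgroup.inv_mem _ (Subgroup.Normal.conj_mem inferInstance _ hx.2 g))
  rcases hprim.2.2 B hBD hblock with hsub | hBtop
  · have h1 : n * a * n⁻¹ ∈ B := by
      rw [hBdef]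
      refine ⟨tt_conj_mem hD ha n, ?_⟩
      have e : a⁻¹ * (n * a * n⁻¹) = (a⁻¹ * n * a⁻¹⁻¹) * n⁻¹ := by group
      rw [e]
      exact Subgroup.mul_mem _ (Subgroup.Normal.conj_mem inferInstance n hn a⁻¹)
        (Subgroup.inv_mem _ hn)
    have h2 := hsub h1 haB
    apply han
    calc a * n = (n * a * n⁻¹) * n := by rw [h2]
      _ = n * a := by group
  · have hai := tt_inv hS ha
    rcases hp with rfl | rfl
    · have hall : ∀ x ∈ D, a * x = x * a := by
        intro x hx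
        have hxB : x ∈ B := by rw [hBtop]; exact hx
        rw [hBdef] at hxB
        obtain ⟨k, hk⟩ := exists_pow_of_mem_pCore hxB.2
        rw [hai] at hk
        rcases hS.2 a ha x hx with h | h
        · exact (commute_of_sq hS ha hx h).eq
        · have h1 : a * x = 1 := eq_one_of_pows hk h (by norm_num)
          have h2 : x = a := by
            rw [← hai]
            exact eq_inv_of_mul_eq_one_right h1
          rw [h2]
      have hle : Subgroup.closure D ≤ Subgroup.centralizer ({a} : Set G) := by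
        rw [Subgroup.closure_le]
        intro x hx
        refine Subgroup.mem_centralizer_iff.2 ?_
        intro y hy
        rw [Set.mem_singleton_iff] at hy
        subst hy
        exact hall x hx
      rw [hD.2.2] at hle
      apply hab
      obtain ⟨g, rfl⟩ := exists_conj hD ha hb
      have h1 := (Subgroup.mem_centralizer_iff.1 (hle (Subgroup.mem_top g))) a rfl
      rw [← h1, mul_assoc, mul_inv_cancel, mul_one]
    · have hbB : b ∈ B := by rw [hBtop]; exact hb
      rw [hBdef] at hbB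
      obtain ⟨k, hk⟩ := exists_pow_of_mem_pCore hbB.2
      rw [hai] at hk
      have h2 : (a * b) ^ 2 = 1 := by
        rw [hc.mul_pow, pow_two, pow_two, tt_sq hS ha, tt_sq hS hb, one_mul]
      have h1 : a * b = 1 := eq_one_of_pows hk h2 (by norm_num)
      apply hab
      rw [← tt_inv hS hb]
      exact eq_inv_of_mul_eq_one_left h1

/-- a conjugation-equivariant assignment of sets that is monotone between two different members
is constant, by primitivity -/
theorem gen_block [Finite G] {D : Set G} (hprim : IsPrimitiveUnderConj D)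
    (hconj : ∀ g : G, ∀ d ∈ D, g * d * g⁻¹ ∈ D) (f : G → Set G)
    (hf : ∀ g e : G, f (g * e * g⁻¹) = (fun y => g * y * g⁻¹) '' f e)
    {d e : G} (hd : d ∈ D) (he : e ∈ D) (hne : d ≠ e) (hsub : f d ⊆ f e) :
    ∀ u ∈ D, f u = f d := by
  obtain ⟨g, hg⟩ := hprim.1 d hd e he
  have hcard : (f e).ncard = (f d).ncard := by
    rw [← hg, hf]
    apply Set.ncard_image_of_injective
    intro a b hab
    have h1 : g * a * g⁻¹ = g * b * g⁻¹ := hab
    calc a = g⁻¹ * (g * a * g⁻¹) * g := by group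
      _ = b := by rw [h1]; group
  have heq : f d = f e := Set.eq_of_subset_of_ncard_le hsub (le_of_eq hcard) (Set.toFinite _)
  obtain ⟨B, hBdef⟩ : ∃ B : Set G, B = {u : G | u ∈ D ∧ f u = f d} := ⟨_, rfl⟩
  have hblock : ∀ k : G, (fun x => k * x * k⁻¹) '' B = B ∨
      Disjoint ((fun x => k * x * k⁻¹) '' B) B := by
    intro k
    by_cases hk : f (k * d * k⁻¹) = f d
    · left
      ext v
      constructor
      · rintro ⟨u, hu, rfl⟩
        rw [hBdef] at hu ⊢
        refine ⟨hconj k u hu.1, ?_⟩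
        calc f (k * u * k⁻¹) = (fun y => k * y * k⁻¹) '' f u := hf k u
          _ = (fun y => k * y * k⁻¹) '' f d := by rw [hu.2]
          _ = f (k * d * k⁻¹) := (hf k d).symm
          _ = f d := hk
      · intro hv
        rw [hBdef] at hv
        refine ⟨k⁻¹ * v * k, ?_, by group⟩
        rw [hBdef]
        refine ⟨by have := hconj k⁻¹ v hv.1; rwa [inv_inv] at this, ?_⟩
        have e1 : k⁻¹ * v * k = k⁻¹ * v * k⁻¹⁻¹ := by group
        have e2 : k⁻¹ * (k * d * k⁻¹) * k⁻¹⁻¹ = d := by group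
        calc f (k⁻¹ * v * k) = f (k⁻¹ * v * k⁻¹⁻¹) := by rw [← e1]
          _ = (fun y => k⁻¹ * y * k⁻¹⁻¹) '' f v := hf k⁻¹ v
          _ = (fun y => k⁻¹ * y * k⁻¹⁻¹) '' f (k * d * k⁻¹) := by rw [hv.2, hk]
          _ = f (k⁻¹ * (k * d * k⁻¹) * k⁻¹⁻¹) := (hf k⁻¹ _).symm
          _ = f d := by rw [e2]
    · right
      rw [Set.disjoint_left]
      rintro v ⟨u, hu, rfl⟩ hv
      apply hk
      rw [hBdef] at hu hv
      calc f (k * d * k⁻¹) = (fun y => k * y * k⁻¹) '' f d := hf k d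
        _ = (fun y => k * y * k⁻¹) '' f u := by rw [hu.2]
        _ = f (k * u * k⁻¹) := (hf k u).symm
        _ = f d := hv.2
  have hBD : B ⊆ D := by rw [hBdef]; exact fun u hu => hu.1
  rcases hprim.2.2 B hBD hblock with hsub' | hBtop
  · exfalso
    apply hne
    exact hsub' (by rw [hBdef]; exact ⟨hd, rfl⟩) (by rw [hBdef]; exact ⟨he, heq.symm⟩)
  · intro u hu
    have : u ∈ B := by rw [hBtop]; exact hu
    rw [hBdef] at this
    exact this.2

theorem equiv_cd {D : Set G} (hconj : ∀ g : G, ∀ d ∈ D, g * d * g⁻¹ ∈ D) (g e : G) :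
    {v : G | v ∈ D ∧ Commute (g * e * g⁻¹) v} =
      (fun y => g * y * g⁻¹) '' {v : G | v ∈ D ∧ Commute e v} := by
  ext v
  constructor
  · rintro ⟨hv, hc⟩
    refine ⟨g⁻¹ * v * g, ⟨by have := hconj g⁻¹ v hv; rwa [inv_inv] at this, ?_⟩, by group⟩
    have h1 : Commute (g * e * g⁻¹) (g * (g⁻¹ * v * g) * g⁻¹) := by
      have e1 : g * (g⁻¹ * v * g) * g⁻¹ = v := by group
      rw [e1]; exact hc
    exact (Commute.conj_iff g).1 h1
  · rintro ⟨u, ⟨hu, hc⟩, rfl⟩
    exact ⟨hconj g u hu, (Commute.conj_iff g).2 hc⟩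

theorem equiv_dd {D : Set G} (hconj : ∀ g : G, ∀ d ∈ D, g * d * g⁻¹ ∈ D) (g e : G) :
    {v : G | v ∈ D ∧ v ≠ g * e * g⁻¹ ∧ Commute (g * e * g⁻¹) v} =
      (fun y => g * y * g⁻¹) '' {v : G | v ∈ D ∧ v ≠ e ∧ Commute e v} := by
  ext v
  constructor
  · rintro ⟨hv, hne, hc⟩
    refine ⟨g⁻¹ * v * g, ⟨by have := hconj g⁻¹ v hv; rwa [inv_inv] at this, ?_, ?_⟩, by group⟩
    · intro h
      apply hne
      rw [← h]
      group
    · have h1 : Commute (g * e * g⁻¹) (g * (g⁻¹ * v * g) * g⁻¹) := by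
        have e1 : g * (g⁻¹ * v * g) * g⁻¹ = v := by group
        rw [e1]; exact hc
      exact (Commute.conj_iff g).1 h1
  · rintro ⟨u, ⟨hu, hne, hc⟩, rfl⟩
    refine ⟨hconj g u hu, ?_, (Commute.conj_iff g).2 hc⟩
    intro h
    apply hne
    have h1 : g * u * g⁻¹ = g * e * g⁻¹ := h
    calc u = g⁻¹ * (g * u * g⁻¹) * g := by group
      _ = e := by rw [h1]; group

/-- the `D`-subgroup generated by the members commuting with `d` and one further element -/
def Hx (D : Set G) (d x : G) : Subgroup G :=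
  Subgroup.closure ({y : G | y ∈ D ∧ Commute d y} ∪ {x})

/-- the members of `Hx` that do not commute with `d` -/
def Sx (D : Set G) (d x : G) : Set G := {y : G | y ∈ D ∧ y ∈ Hx D d x ∧ ¬ Commute d y}

theorem cd_mem_Hx {D : Set G} {d x y : G} (hy : y ∈ D) (hc : Commute d y) : y ∈ Hx D d x :=
  Subgroup.subset_closure (Or.inl ⟨hy, hc⟩)

theorem x_mem_Hx {D : Set G} {d x : G} : x ∈ Hx D d x :=
  Subgroup.subset_closure (Or.inr rfl)

theorem Hx_mono {D : Set G} {d x x' : G} (h : x' ∈ Hx D d x) : Hx D d x' ≤ Hx D d x := by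
  unfold Hx
  rw [Subgroup.closure_le]
  rintro y (hy | hy)
  · exact Subgroup.subset_closure (Or.inl hy)
  · rw [Set.mem_singleton_iff] at hy
    rw [hy]
    exact h

theorem Sx_mono {D : Set G} {d x x' : G} (h : x' ∈ Hx D d x) : Sx D d x' ⊆ Sx D d x :=
  fun _ hy => ⟨hy.1, Hx_mono h hy.2.1, hy.2.2⟩

theorem Hx_conj_mem {D : Set G} (hconj : ∀ g : G, ∀ d ∈ D, g * d * g⁻¹ ∈ D) {d x s : G}
    (hs : Commute s d) {y : G} (hy : y ∈ Hx D d x) : s * y * s⁻¹ ∈ Hx D d (s * x * s⁻¹) := by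
  unfold Hx at hy
  induction hy using Subgroup.closure_induction with
  | mem u hu =>
    rcases hu with hu | hu
    · apply cd_mem_Hx (hconj s u hu.1)
      have h1 : Commute (s * d * s⁻¹) (s * u * s⁻¹) := (Commute.conj_iff s).2 hu.2
      have e : s * d * s⁻¹ = d := by rw [hs.eq, mul_assoc, mul_inv_cancel, mul_one]
      rw [e] at h1
      exact h1
    · rw [Set.mem_singleton_iff] at hu
      rw [hu]
      exact x_mem_Hx
  | one =>
    have e : s * 1 * s⁻¹ = 1 := by group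
    rw [e]; exact Subgroup.one_mem _
  | mul u v _ _ hu hv =>
    have e : s * (u * v) * s⁻¹ = (s * u * s⁻¹) * (s * v * s⁻¹) := by group
    rw [e]; exact Subgroup.mul_mem _ hu hv
  | inv u _ hu =>
    have e : s * u⁻¹ * s⁻¹ = (s * u * s⁻¹)⁻¹ := by group
    rw [e]; exact Subgroup.inv_mem _ hu

theorem Sx_card_le [Finite G] {D : Set G} (hconj : ∀ g : G, ∀ d ∈ D, g * d * g⁻¹ ∈ D)
    {d x s : G} (hs : Commute s d) : (Sx D d (s * x * s⁻¹)).ncard ≤ (Sx D d x).ncard := by
  have hsub : Sx D d (s * x * s⁻¹) ⊆ (fun y => s * y * s⁻¹) '' Sx D d x := by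
    rintro y ⟨hyD, hyH, hyc⟩
    refine ⟨s⁻¹ * y * s, ⟨by have := hconj s⁻¹ y hyD; rwa [inv_inv] at this, ?_, ?_⟩, by group⟩
    · have h1 := Hx_conj_mem hconj (hs.inv_left) hyH
      have e1 : s⁻¹ * (s * x * s⁻¹) * s⁻¹⁻¹ = x := by group
      have e2 : s⁻¹ * y * s⁻¹⁻¹ = s⁻¹ * y * s := by group
      rw [e1, e2] at h1
      exact h1
    · intro hc
      apply hyc
      have h1 : Commute (s * d * s⁻¹) (s * (s⁻¹ * y * s) * s⁻¹) := (Commute.conj_iff s).2 hc
      have e : s * d * s⁻¹ = d := by rw [hs.eq, mul_assoc, mul_inv_cancel, mul_one]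
      have e2 : s * (s⁻¹ * y * s) * s⁻¹ = y := by group
      rw [e, e2] at h1
      exact h1
  exact (Set.ncard_le_ncard hsub (Set.toFinite _)).trans (Set.ncard_image_le (Set.toFinite _))

/-- (P1) a member commuting with an `Hx`-conjugate of `d` lies in `Hx` -/
theorem p1 {D : Set G} (hconj : ∀ g : G, ∀ d ∈ D, g * d * g⁻¹ ∈ D) {d x e v : G}
    (he : ∃ h ∈ Hx D d x, e = h * d * h⁻¹) (hv : v ∈ D) (hc : Commute e v) : v ∈ Hx D d x := by
  obtain ⟨h, hh, rfl⟩ := he
  have h1 : Commute d (h⁻¹ * v * h) := by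
    have h2 : Commute (h * d * h⁻¹) (h * (h⁻¹ * v * h) * h⁻¹) := by
      have e1 : h * (h⁻¹ * v * h) * h⁻¹ = v := by group
      rw [e1]; exact hc
    exact (Commute.conj_iff h).1 h2
  have h3 : h⁻¹ * v * h ∈ Hx D d x :=
    cd_mem_Hx (by have := hconj h⁻¹ v hv; rwa [inv_inv] at this) h1
  have e : v = h * (h⁻¹ * v * h) * h⁻¹ := by group
  rw [e]
  exact Subgroup.mul_mem _ (Subgroup.mul_mem _ hh h3) (Subgroup.inv_mem _ hh)

/-- (P2) a member of `Hx` not commuting with an `Hx`-conjugate of `d` is an `Hx`-conjugate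
of `d` -/
theorem p2 {D : Set G} (hS : IsThreeTranspositionSet D) {d x e v : G} (hd : d ∈ D)
    (hconj : ∀ g : G, ∀ d ∈ D, g * d * g⁻¹ ∈ D)
    (hv : v ∈ D) (hvH : v ∈ Hx D d x) (he : ∃ h ∈ Hx D d x, e = h * d * h⁻¹)
    (hnc : ¬ Commute e v) : ∃ h ∈ Hx D d x, v = h * d * h⁻¹ := by
  obtain ⟨h, hh, rfl⟩ := he
  have heD : h * d * h⁻¹ ∈ D := hconj h d hd
  have heH : h * d * h⁻¹ ∈ Hx D d x :=
    Subgroup.mul_mem _ (Subgroup.mul_mem _ hh (cd_mem_Hx hd (Commute.refl d)))
      (Subgroup.inv_mem _ hh)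
  obtain ⟨e, hedef⟩ : ∃ e, e = h * d * h⁻¹ := ⟨_, rfl⟩
  rw [← hedef] at heD heH hnc
  have hbr : e * v * e = v * e * v := by
    rcases tt_braid hS heD hv with h' | h'
    · exact absurd h' hnc
    · exact h'
  have hei := tt_inv hS heD
  have he2 := tt_sq hS heD
  refine ⟨(e * v * e⁻¹) * h, Subgroup.mul_mem _ (Subgroup.mul_mem _ (Subgroup.mul_mem _ heH hvH)
    (Subgroup.inv_mem _ heH)) hh, ?_⟩
  have e1 : (e * v * e⁻¹ * h) * d * (e * v * e⁻¹ * h)⁻¹ = (e * v * e⁻¹) * (h * d * h⁻¹) *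
      (e * v * e⁻¹)⁻¹ := by group
  rw [e1, ← hedef, hei]
  have hvi := tt_inv hS hv
  have e3 : (e * v * e)⁻¹ = e * v * e := by
    rw [mul_inv_rev, mul_inv_rev, hei, hvi, mul_assoc]
  rw [e3]
  have k1 : e * v * e * e * (e * v * e) = e * v * (e * e) * (e * v * e) := by group
  have k2 : e * v * (e * v * e) = e * (v * e * v) * e := by group
  have k3 : e * (e * v * e) * e = (e * e) * v * (e * e) := by group
  rw [k1, he2, mul_one, k2, ← hbr, k3, he2, one_mul, mul_one]

/-- the key step: `Hx` is the whole group -/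
theorem Hx_eq_top [Finite G] {D : Set G} (hD : IsThreeTranspositionGroup D)
    (hprim : IsPrimitiveUnderConj D) {d : G} (hd : d ∈ D)
    (hw : ∃ c ∈ D, c ≠ d ∧ Commute d c) :
    ∀ x₀ ∈ D, ¬ Commute d x₀ → Hx D d x₀ = ⊤ := by
  have hS := hD.1
  have hconj := hD.2.1
  intro x₀ hx₀D hx₀c
  obtain ⟨x, ⟨hxD, hxd⟩, hmin⟩ := Set.exists_min_image {x : G | x ∈ D ∧ ¬ Commute d x}
    (fun x => (Sx D d x).ncard) (Set.toFinite _) ⟨x₀, hx₀D, hx₀c⟩
  have hmin' : ∀ v ∈ D, ¬ Commute d v → (Sx D d x).ncard ≤ (Sx D d v).ncard :=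
    fun v hv hvc => hmin v ⟨hv, hvc⟩
  have min_eq : ∀ v, v ∈ Sx D d x → Sx D d v = Sx D d x := by
    intro v hv
    exact Set.eq_of_subset_of_ncard_le (Sx_mono hv.2.1) (hmin' v hv.1 hv.2.2) (Set.toFinite _)
  have hxSx : x ∈ Sx D d x := ⟨hxD, x_mem_Hx, hxd⟩
  have hdΔ : ∀ y : G, ∃ h ∈ Hx D d y, d = h * d * h⁻¹ :=
    fun y => ⟨1, Subgroup.one_mem _, by group⟩
  have hxΔ : ∃ h ∈ Hx D d x, x = h * d * h⁻¹ := p2 hS hd hconj hxD x_mem_Hx (hdΔ x) hxd
  have hdx : d ≠ x := by
    intro h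
    apply hxd
    rw [← h]
  -- the key claim
  have htop : Hx D d x = ⊤ := by
    by_contra hne
    -- Step 1
    have step1 : ∀ s : G, Commute s d → s * x * s⁻¹ ∈ Hx D d x := by
      intro s hs
      by_contra hz
      obtain ⟨z, hzdef⟩ : ∃ z, z = s * x * s⁻¹ := ⟨_, rfl⟩
      rw [← hzdef] at hz
      have hzD : z ∈ D := by rw [hzdef]; exact hconj s x hxD
      have hzd : ¬ Commute d z := by
        intro hc
        apply hxd
        have h1 : Commute (s * d * s⁻¹) (s * x * s⁻¹) := by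
          have e : s * d * s⁻¹ = d := by rw [hs.eq, mul_assoc, mul_inv_cancel, mul_one]
          rw [e, ← hzdef]; exact hc
        exact (Commute.conj_iff s).1 h1
      have hSz_le : (Sx D d z).ncard ≤ (Sx D d x).ncard := by
        rw [hzdef]; exact Sx_card_le hconj hs
      have hzSz : z ∈ Sx D d z := ⟨hzD, x_mem_Hx, hzd⟩
      have hxH' : x ∉ Hx D d z := by
        intro hx'
        have h2 : Sx D d x = Sx D d z :=
          Set.eq_of_subset_of_ncard_le (Sx_mono hx') hSz_le (Set.toFinite _)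
        have : z ∈ Sx D d x := by rw [h2]; exact hzSz
        exact hz this.2.1
      have hzΔ' : ∃ h ∈ Hx D d z, z = h * d * h⁻¹ := p2 hS hd hconj hzD x_mem_Hx (hdΔ z) hzd
      have claim : ∀ c ∈ D, c ≠ d → Commute d c → Commute x c := by
        intro c hcD hcd hdc
        by_contra hxc
        have hcΔ : ∃ h ∈ Hx D d x, c = h * d * h⁻¹ :=
          p2 hS hd hconj hcD (cd_mem_Hx hcD hdc) hxΔ hxc
        by_cases hcΔ' : ∃ h ∈ Hx D d z, c = h * d * h⁻¹
        · have hsub : {v : G | v ∈ D ∧ Commute c v} ⊆ {v : G | v ∈ D ∧ Commute d v} := by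
            rintro v ⟨hvD, hcv⟩
            refine ⟨hvD, ?_⟩
            by_contra hdv
            have hvH := p1 hconj hcΔ hvD hcv
            have hvH' := p1 hconj hcΔ' hvD hcv
            have hvSx : v ∈ Sx D d x := ⟨hvD, hvH, hdv⟩
            have e1 : Sx D d v = Sx D d x := min_eq v hvSx
            have e2 : Sx D d v = Sx D d z :=
              Set.eq_of_subset_of_ncard_le (Sx_mono hvH')
                (hSz_le.trans (hmin' v hvD hdv)) (Set.toFinite _)
            have : z ∈ Sx D d x := by rw [← e1, e2]; exact hzSz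
            exact hz this.2.1
          have hall := gen_block hprim hconj (fun e => {v : G | v ∈ D ∧ Commute e v})
            (equiv_cd hconj) hcD hd hcd hsub
          have h1 : {v : G | v ∈ D ∧ Commute x v} = {v : G | v ∈ D ∧ Commute c v} := hall x hxD
          have h2 : {v : G | v ∈ D ∧ Commute d v} = {v : G | v ∈ D ∧ Commute c v} := hall d hd
          have h3 : d ∈ {v : G | v ∈ D ∧ Commute x v} := by
            rw [h1, ← h2]; exact ⟨hd, Commute.refl d⟩
          exact hxd h3.2.symm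
        · have hzc : Commute z c := by
            by_contra hnc
            exact hcΔ' (p2 hS hd hconj hcD (cd_mem_Hx hcD hdc) hzΔ' hnc)
          exact hz (p1 hconj hcΔ hzD hzc.symm)
      have hsub2 : {v : G | v ∈ D ∧ v ≠ d ∧ Commute d v} ⊆ {v : G | v ∈ D ∧ v ≠ x ∧ Commute x v} := by
        rintro v ⟨hvD, hvd, hdv⟩
        refine ⟨hvD, ?_, claim v hvD hvd hdv⟩
        intro h
        apply hxd
        rw [← h]; exact hdv
      have hall := gen_block hprim hconj (fun e => {v : G | v ∈ D ∧ v ≠ e ∧ Commute e v})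
        (equiv_dd hconj) hd hxD hdx hsub2
      obtain ⟨c₀, hc₀D, hc₀d, hdc₀⟩ := hw
      have h1 : {v : G | v ∈ D ∧ v ≠ c₀ ∧ Commute c₀ v} = {v : G | v ∈ D ∧ v ≠ d ∧ Commute d v} :=
        hall c₀ hc₀D
      have h2 : c₀ ∈ {v : G | v ∈ D ∧ v ≠ c₀ ∧ Commute c₀ v} := by
        rw [h1]; exact ⟨hc₀D, hc₀d, hdc₀⟩
      exact h2.2.1 rfl
    -- Step 2: the centraliser of `d` normalises `Hx`
    have step2 : ∀ s : G, Commute s d → ∀ y ∈ Hx D d x, s * y * s⁻¹ ∈ Hx D d x := by
      intro s hs y hy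
      have h1 := Hx_conj_mem hconj hs hy
      have hz := step1 s hs
      have hzS : s * x * s⁻¹ ∈ Sx D d x := by
        refine ⟨hconj s x hxD, hz, ?_⟩
        intro hc
        apply hxd
        have h2 : Commute (s * d * s⁻¹) (s * x * s⁻¹) := by
          have e : s * d * s⁻¹ = d := by rw [hs.eq, mul_assoc, mul_inv_cancel, mul_one]
          rw [e]; exact hc
        exact (Commute.conj_iff s).1 h2
      exact Hx_mono hz h1
    -- the block
    obtain ⟨Δ, hΔdef⟩ : ∃ Δ : Set G, Δ = {e : G | ∃ h ∈ Hx D d x, e = h * d * h⁻¹} := ⟨_, rfl⟩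
    have hΔD : Δ ⊆ D := by
      rw [hΔdef]
      rintro e ⟨h, -, rfl⟩
      exact hconj h d hd
    have hblock : ∀ g : G, (fun y => g * y * g⁻¹) '' Δ = Δ ∨
        Disjoint ((fun y => g * y * g⁻¹) '' Δ) Δ := by
      intro g
      by_cases hg : ∃ e ∈ Δ, g * e * g⁻¹ ∈ Δ
      · left
        obtain ⟨e, he, hge⟩ := hg
        rw [hΔdef] at he hge
        obtain ⟨h₁, hh₁, rfl⟩ := he
        obtain ⟨h₂, hh₂, he2⟩ := hge
        obtain ⟨s, hsdef⟩ : ∃ s, s = h₂⁻¹ * g * h₁ := ⟨_, rfl⟩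
        have hs : Commute s d := by
          have h1 : s * d * s⁻¹ = d := by
            rw [hsdef]
            calc h₂⁻¹ * g * h₁ * d * (h₂⁻¹ * g * h₁)⁻¹ = h₂⁻¹ * (g * (h₁ * d * h₁⁻¹) * g⁻¹) * h₂ := by
                  group
              _ = d := by rw [he2]; group
          calc s * d = (s * d * s⁻¹) * s := by group
            _ = d * s := by rw [h1]
        have hg_eq : g = h₂ * s * h₁⁻¹ := by rw [hsdef]; group
        ext v
        constructor
        · rintro ⟨e', he', rfl⟩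
          rw [hΔdef] at he' ⊢
          obtain ⟨h, hh, rfl⟩ := he'
          refine ⟨h₂ * (s * (h₁⁻¹ * h) * s⁻¹), Subgroup.mul_mem _ hh₂
            (step2 s hs _ (Subgroup.mul_mem _ (Subgroup.inv_mem _ hh₁) hh)), ?_⟩
          have hsd : s * d * s⁻¹ = d := by rw [hs.eq, mul_assoc, mul_inv_cancel, mul_one]
          calc g * (h * d * h⁻¹) * g⁻¹
              = h₂ * (s * (h₁⁻¹ * h) * s⁻¹) * (s * d * s⁻¹) * (h₂ * (s * (h₁⁻¹ * h) * s⁻¹))⁻¹ := by
                rw [hg_eq]; group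
            _ = h₂ * (s * (h₁⁻¹ * h) * s⁻¹) * d * (h₂ * (s * (h₁⁻¹ * h) * s⁻¹))⁻¹ := by rw [hsd]
        · intro hv
          rw [hΔdef] at hv
          obtain ⟨h, hh, rfl⟩ := hv
          have hs' : Commute s⁻¹ d := hs.inv_left
          have hsd : s⁻¹ * d * s⁻¹⁻¹ = d := by rw [hs'.eq, mul_assoc, mul_inv_cancel, mul_one]
          refine ⟨g⁻¹ * (h * d * h⁻¹) * g, ?_, by group⟩
          rw [hΔdef]
          refine ⟨h₁ * (s⁻¹ * (h₂⁻¹ * h) * s⁻¹⁻¹), Subgroup.mul_mem _ hh₁
            (step2 s⁻¹ hs' _ (Subgroup.mul_mem _ (Subgroup.inv_mem _ hh₂) hh)), ?_⟩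
          calc g⁻¹ * (h * d * h⁻¹) * g
              = h₁ * (s⁻¹ * (h₂⁻¹ * h) * s⁻¹⁻¹) * (s⁻¹ * d * s⁻¹⁻¹) *
                  (h₁ * (s⁻¹ * (h₂⁻¹ * h) * s⁻¹⁻¹))⁻¹ := by rw [hg_eq]; group
            _ = h₁ * (s⁻¹ * (h₂⁻¹ * h) * s⁻¹⁻¹) * d * (h₁ * (s⁻¹ * (h₂⁻¹ * h) * s⁻¹⁻¹))⁻¹ := by
                rw [hsd]
      · right
        rw [Set.disjoint_left]
        rintro v ⟨e, he, rfl⟩ hv
        exact hg ⟨e, he, hv⟩
    rcases hprim.2.2 Δ hΔD hblock with hsub | hΔtop
    · apply hdx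
      exact hsub (by rw [hΔdef]; exact hdΔ x) (by rw [hΔdef]; exact hxΔ)
    · apply hne
      rw [eq_top_iff, ← hD.2.2, Subgroup.closure_le]
      intro v hv
      have : v ∈ Δ := by rw [hΔtop]; exact hv
      rw [hΔdef] at this
      obtain ⟨h, hh, rfl⟩ := this
      exact Subgroup.mul_mem _ (Subgroup.mul_mem _ hh (cd_mem_Hx hd (Commute.refl d)))
        (Subgroup.inv_mem _ hh)
  -- transfer to `x₀`
  have hSxall : Sx D d x = {v : G | v ∈ D ∧ ¬ Commute d v} := by
    ext v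
    constructor
    · intro hv; exact ⟨hv.1, hv.2.2⟩
    · intro hv; exact ⟨hv.1, by rw [htop]; exact Subgroup.mem_top v, hv.2⟩
  have hSx₀ : Sx D d x₀ = Sx D d x := by
    apply Set.eq_of_subset_of_ncard_le _ (hmin' x₀ hx₀D hx₀c) (Set.toFinite _)
    rw [hSxall]
    intro v hv
    exact ⟨hv.1, hv.2.2⟩
  rw [eq_top_iff, ← hD.2.2, Subgroup.closure_le]
  intro v hv
  by_cases hvc : Commute d v
  · exact cd_mem_Hx hv hvc
  · have : v ∈ Sx D d x₀ := by
      rw [hSx₀, hSxall]; exact ⟨hv, hvc⟩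
    exact this.2.1

theorem main [Finite G] {D : Set G} (hD : Cfsg.IsThreeTranspositionGroup D)
    (hprim : Cfsg.IsPrimitiveUnderConj D) (hw : ∃ a ∈ D, ∃ b ∈ D, a ≠ b ∧ Commute a b) :
    (∃ L : Subgroup G, L.Normal ∧ Cfsg.IsQuasisimple L ∧ L.index ≤ 2 ∧
      Cfsg.generalizedFittingSubgroup G = L ⊔ Subgroup.center G) ∧
    (Cfsg.commutingGraph D).Connected ∧
    ∀ d ∈ D, Subgroup.closure {y : G | y ∈ D ∧ Commute d y} ≠ ⊤ ∧
      ∀ H : Subgroup G, Cfsg.IsDSubgroup D H →
        Subgroup.closure {y : G | y ∈ D ∧ Commute d y} ≤ H →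
        H = Subgroup.closure {y : G | y ∈ D ∧ Commute d y} ∨ H = ⊤ := by
  have hD' := class_of_prim hD hprim
  have hS := hD.1
  obtain ⟨a, ha, b, hb, hab, hc⟩ := hw
  have hD2 : ∃ a ∈ D, ∃ b ∈ D, a ≠ b := ⟨a, ha, b, hb, hab⟩
  have h2 := pCore_le_center_of_prim hD' hprim ha hb hab hc (Or.inl rfl)
  have h3 := pCore_le_center_of_prim hD' hprim ha hb hab hc (Or.inr rfl)
  have hconn := connected_of_prim hD' hprim ha hb hab hc
  obtain ⟨L, hLn, hL, hF, -⟩ := Cfsg.Agent.S5352.main hD' hD2 h2 h3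
  haveI := hLn
  have hidx := index_of_connected hD' hD2 h2 h3 L hL hconn
  refine ⟨⟨L, hLn, hL, hidx, hF⟩, hconn, ?_⟩
  intro d hd
  have hwd : ∃ c ∈ D, c ≠ d ∧ Commute d c := by
    obtain ⟨g, rfl⟩ := exists_conj hD' ha hd
    refine ⟨g * b * g⁻¹, hD.2.1 g b hb, ?_, (Commute.conj_iff g).2 hc⟩
    intro h
    apply hab
    have h1 : g * b * g⁻¹ = g * a * g⁻¹ := h
    calc a = g⁻¹ * (g * a * g⁻¹) * g := by group
      _ = b := by rw [← h1]; group
  obtain ⟨x, hxD, hxd⟩ := tt_exists_not_commute hD' hD2 hd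
  constructor
  · intro htop
    have hle : Subgroup.closure {y : G | y ∈ D ∧ Commute d y} ≤
        Subgroup.centralizer ({d} : Set G) := by
      rw [Subgroup.closure_le]
      rintro y ⟨-, hy⟩
      refine Subgroup.mem_centralizer_iff.2 ?_
      intro u hu
      rw [Set.mem_singleton_iff] at hu
      rw [hu]
      exact hy.eq
    rw [htop] at hle
    apply hxd
    exact ((Subgroup.mem_centralizer_iff.1 (hle (Subgroup.mem_top x))) d rfl).symm
  · intro H hH hle
    by_cases hall : ∀ y : G, y ∈ D → y ∈ H → Commute d y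
    · left
      apply le_antisymm _ hle
      unfold IsDSubgroup at hH
      rw [← hH]
      apply Subgroup.closure_mono
      rintro y ⟨hyD, hyH⟩
      exact ⟨hyD, hall y hyD hyH⟩
    · right
      push Not at hall
      obtain ⟨y, hyD, hyH, hyc⟩ := hall
      have h1 := Hx_eq_top hD hprim hd hwd y hyD hyc
      rw [eq_top_iff, ← h1]
      unfold Hx
      rw [Subgroup.closure_le]
      rintro u (hu | hu)
      · exact hle (Subgroup.subset_closure hu)
      · rw [Set.mem_singleton_iff] at hu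
        rw [hu]; exact hyH

end

/-- Let D be a conjugation-invariant generating set of 3-transpositions of the finite group G on which G acts primitively by conjugation, and suppose two different members of D commute (width at least 2). Then G has a quasisimple normal subgroup L of index at most 2 with the generalized Fitting subgroup of G equal to L times the centre, the commuting graph of D is connected, and for d in D the subgroup generated by the members of D commuting with d is a maximal D-subgroup: it is proper, and every subgroup generated by members of D that contains it is either it or G. -/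
theorem result {G : Type*} [Group G] [Finite G] {D : Set G} (hD : Cfsg.IsThreeTranspositionGroup D) (hprim : Cfsg.IsPrimitiveUnderConj D) (hw : ∃ a ∈ D, ∃ b ∈ D, a ≠ b ∧ Commute a b) : (∃ L : Subgroup G, L.Normal ∧ Cfsg.IsQuasisimple L ∧ L.index ≤ 2 ∧ Cfsg.generalizedFittingSubgroup G = L ⊔ Subgroup.center G) ∧ (Cfsg.commutingGraph D).Connected ∧ ∀ d ∈ D, Subgroup.closure {y : G | y ∈ D ∧ Commute d y} ≠ ⊤ ∧ ∀ H : Subgroup G, Cfsg.IsDSubgroup D H → Subgroup.closure {y : G | y ∈ D ∧ Commute d y} ≤ H → H = Subgroup.closure {y : G | y ∈ D ∧ Commute d y} ∨ H = ⊤ := by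
  exact main hD hprim hw

end Cfsg.Agent.S5354
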