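import Cfsg.Statements.S5355
-- import your own Cfsg.Agent.* helpers here
import Cfsg.Agent.Lib.helper26.ThreeTrans

set_option autoImplicit false
open Cfsg

namespace Cfsg.Agent.S5355

section
open Cfsg.Agent.Lib.helper26 Cfsg

variable {G : Type*} [Group G]

theorem commute_of_sq {D : Set G} (hS : IsThreeTranspositionSet D) {a b : G} (ha : a ∈ D)
    (hb : b ∈ D) (h : (a * b) ^ 2 = 1) : Commute a b := by
  have h1 : a * b * (a * b) = 1 := by rw [← pow_two]; exact h
  have h2 : a * b = (a * b)⁻¹ := eq_inv_of_mul_eq_one_left h1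
  rw [mul_inv_rev, tt_inv hS ha, tt_inv hS hb] at h2
  exact h2

theorem conj_zpowers_mem {H : Subgroup G} {d r : G} (h : d * r * d⁻¹ ∈ H) :
    ∀ q ∈ Subgroup.zpowers r, d * q * d⁻¹ ∈ H := by
  intro q hq
  have hle : Subgroup.zpowers r ≤ H.comap (MulAut.conj d).toMonoidHom := by
    rw [Subgroup.zpowers_le]
    exact h
  exact hle hq

theorem closure_conj_mem {S T : Set G}
    (h : ∀ g ∈ S, ∀ t ∈ T, g * t * g⁻¹ ∈ T ∧ g⁻¹ * t * g ∈ T) :
    ∀ g ∈ Subgroup.closure S, ∀ t ∈ T, g * t * g⁻¹ ∈ T ∧ g⁻¹ * t * g ∈ T := by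
  intro g hg
  induction hg using Subgroup.closure_induction with
  | mem x hx => exact h x hx
  | one =>
    intro t ht
    simpa using ht
  | mul x y _ _ hx hy =>
    intro t ht
    constructor
    · have e : x * y * t * (x * y)⁻¹ = x * (y * t * y⁻¹) * x⁻¹ := by group
      rw [e]
      exact (hx _ (hy t ht).1).1
    · have e : (x * y)⁻¹ * t * (x * y) = y⁻¹ * (x⁻¹ * t * x) * y := by group
      rw [e]
      exact (hy _ (hx t ht).2).2
  | inv x _ hx =>
    intro t ht
    constructor
    · have := (hx t ht).2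
      rwa [inv_inv]
    · have := (hx t ht).1
      rwa [inv_inv]

theorem conj_closure_mem {S : Set G} {k : G} (h : ∀ s ∈ S, k * s * k⁻¹ ∈ Subgroup.closure S) :
    ∀ m ∈ Subgroup.closure S, k * m * k⁻¹ ∈ Subgroup.closure S := by
  intro m hm
  induction hm using Subgroup.closure_induction with
  | mem x hx => exact h x hx
  | one =>
    have e : k * 1 * k⁻¹ = 1 := by group
    rw [e]
    exact Subgroup.one_mem _
  | mul x y _ _ hx hy =>
    have e : k * (x * y) * k⁻¹ = (k * x * k⁻¹) * (k * y * k⁻¹) := by group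
    rw [e]
    exact Subgroup.mul_mem _ hx hy
  | inv x _ hx =>
    have e : k * x⁻¹ * k⁻¹ = (k * x * k⁻¹)⁻¹ := by group
    rw [e]
    exact Subgroup.inv_mem _ hx

/-- the elements of a group generated by two involutions -/
theorem dihedral_mem {s t : G} (hs : s * s = 1) (ht : t * t = 1) :
    ∀ x ∈ Subgroup.closure ({s, t} : Set G),
      x ∈ Subgroup.zpowers (s * t) ∨ x * s ∈ Subgroup.zpowers (s * t) := by
  have hsi : s⁻¹ = s := inv_eq_of_mul_eq_one_left hs
  have hti : t⁻¹ = t := inv_eq_of_mul_eq_one_left ht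
  have hN : ∀ q ∈ Subgroup.zpowers (s * t), s * q * s⁻¹ ∈ Subgroup.zpowers (s * t) := by
    apply conj_zpowers_mem
    have e : s * (s * t) * s⁻¹ = (s * t)⁻¹ := by
      rw [mul_inv_rev, hsi, hti, ← mul_assoc, hs, one_mul]
    rw [e]
    exact Subgroup.inv_mem _ (Subgroup.mem_zpowers _)
  have hN' : ∀ q ∈ Subgroup.zpowers (s * t), s⁻¹ * q * s ∈ Subgroup.zpowers (s * t) := by
    intro q hq
    have := hN q hq
    rw [hsi] at this ⊢
    exact this
  intro x hx
  induction hx using Subgroup.closure_induction with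
  | mem a ha =>
    rcases ha with h | h
    · right
      rw [h, hs]
      exact Subgroup.one_mem _
    · right
      rw [Set.mem_singleton_iff] at h
      have e : a * s = (s * t)⁻¹ := by rw [h, mul_inv_rev, hsi, hti]
      rw [e]
      exact Subgroup.inv_mem _ (Subgroup.mem_zpowers _)
  | one => exact Or.inl (Subgroup.one_mem _)
  | mul x y _ _ hx hy =>
    rcases hx with hx | hx <;> rcases hy with hy | hy
    · exact Or.inl (Subgroup.mul_mem _ hx hy)
    · exact Or.inr (by rw [mul_assoc]; exact Subgroup.mul_mem _ hx hy)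
    · refine Or.inr ?_
      have e : x * y * s = (x * s) * (s⁻¹ * y * s) := by group
      rw [e]
      exact Subgroup.mul_mem _ hx (hN' y hy)
    · refine Or.inl ?_
      have e : x * y = (x * s) * (s⁻¹ * (y * s) * s) * (s * s)⁻¹ := by group
      rw [e, hs, inv_one, mul_one]
      exact Subgroup.mul_mem _ hx (hN' _ hy)
  | inv x _ hx =>
    rcases hx with hx | hx
    · exact Or.inl (Subgroup.inv_mem _ hx)
    · refine Or.inr ?_
      have e : x⁻¹ * s = (s * (x * s)⁻¹ * s⁻¹) * (s * s) := by group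
      rw [e, hs, mul_one]
      exact hN _ (Subgroup.inv_mem _ hx)

theorem card_closure_pair_le [Finite G] {s t : G} (hs : s * s = 1) (ht : t * t = 1) {n : ℕ}
    (hn : 0 < n) (hst : (s * t) ^ n = 1) :
    Nat.card (Subgroup.closure ({s, t} : Set G)) ≤ 2 * n := by
  classical
  have hsub : (Subgroup.closure ({s, t} : Set G) : Set G) ⊆
      (Subgroup.zpowers (s * t) : Set G) ∪
        (fun y => y * s⁻¹) '' (Subgroup.zpowers (s * t) : Set G) := by
    intro x hx
    rcases dihedral_mem hs ht x hx with h | h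
    · exact Or.inl h
    · exact Or.inr ⟨x * s, h, by group⟩
  have hN : Nat.card (Subgroup.zpowers (s * t)) ≤ n := by
    rw [Nat.card_zpowers]
    exact orderOf_le_of_pow_eq_one hn hst
  have hN' : (Subgroup.zpowers (s * t) : Set G).ncard ≤ n := hN
  have h1 : Nat.card (Subgroup.closure ({s, t} : Set G)) =
      (Subgroup.closure ({s, t} : Set G) : Set G).ncard := rfl
  rw [h1]
  calc (Subgroup.closure ({s, t} : Set G) : Set G).ncard
      ≤ ((Subgroup.zpowers (s * t) : Set G) ∪
        (fun y => y * s⁻¹) '' (Subgroup.zpowers (s * t) : Set G)).ncard :=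
        Set.ncard_le_ncard hsub (Set.toFinite _)
    _ ≤ (Subgroup.zpowers (s * t) : Set G).ncard +
        ((fun y => y * s⁻¹) '' (Subgroup.zpowers (s * t) : Set G)).ncard :=
        Set.ncard_union_le _ _
    _ ≤ (Subgroup.zpowers (s * t) : Set G).ncard + (Subgroup.zpowers (s * t) : Set G).ncard :=
        Nat.add_le_add_left (Set.ncard_image_le (Set.toFinite _)) _
    _ ≤ 2 * n := by omega

theorem commute_conj_left (g x e : G) : Commute (g * x * g⁻¹) e ↔ Commute x (g⁻¹ * e * g) := by
  have h := Commute.conj_iff (a := x) (b := g⁻¹ * e * g) g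
  have e1 : g * (g⁻¹ * e * g) * g⁻¹ = e := by group
  rw [e1] at h
  exact h

/-- `a'` is the unique member of `D` other than `a` commuting with `a`, and it commutes with the
same members of `D` -/
def Pr (D : Set G) (a a' : G) : Prop :=
  a ∈ D ∧ a' ∈ D ∧ a ≠ a' ∧ Commute a a' ∧ (∀ y ∈ D, Commute a y → y = a ∨ y = a') ∧
    (∀ e ∈ D, Commute a' e ↔ Commute a e)

theorem Pr.symm {D : Set G} {a a' : G} (h : Pr D a a') : Pr D a' a :=
  ⟨h.2.1, h.1, h.2.2.1.symm, h.2.2.2.1.symm,
    fun y hy hc => (h.2.2.2.2.1 y hy ((h.2.2.2.2.2 y hy).1 hc)).symm,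
    fun e he => (h.2.2.2.2.2 e he).symm⟩

theorem Pr.sq {D : Set G} (hS : IsThreeTranspositionSet D) {a a' : G} (h : Pr D a a') :
    (a * a') * (a * a') = 1 := by
  calc (a * a') * (a * a') = a * (a' * a) * a' := by group
    _ = a * (a * a') * a' := by rw [h.2.2.2.1.eq]
    _ = (a * a) * (a' * a') := by group
    _ = 1 := by rw [tt_sq hS h.1, tt_sq hS h.2.1, one_mul]

theorem Pr.ne_one {D : Set G} (hS : IsThreeTranspositionSet D) {a a' : G} (h : Pr D a a') :
    a * a' ≠ 1 := by
  intro h1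
  have h2 := eq_inv_of_mul_eq_one_left h1
  rw [tt_inv hS h.2.1] at h2
  exact h.2.2.1 h2

theorem Pr.conj_eq {D : Set G} (hS : IsThreeTranspositionSet D)
    (hconj : ∀ g : G, ∀ a ∈ D, g * a * g⁻¹ ∈ D) {a a' y y' : G} (h : Pr D a a')
    (h' : Pr D y y') (hay : ¬ Commute a y) : (a * a') * y * (a * a')⁻¹ = y' := by
  have hay' : ¬ Commute a' y := fun hc => hay ((h.2.2.2.2.2 y h'.1).1 hc)
  have hbr : a * y * a = y * a * y := (tt_braid hS h.1 h'.1).resolve_left hay
  have hbr' : a' * y * a' = y * a' * y := (tt_braid hS h.2.1 h'.1).resolve_left hay'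
  have hw : (a * a') * y * (a * a')⁻¹ = a * a' * y * a' * a := by
    rw [mul_inv_rev, tt_inv hS h.1, tt_inv hS h.2.1]
    group
  have hwD : (a * a') * y * (a * a')⁻¹ ∈ D := hconj _ y h'.1
  have hcomm : Commute y ((a * a') * y * (a * a')⁻¹) := by
    rw [hw]
    have h1 := tt_conj_commute (tt_sq hS h.1) h.2.2.2.1.eq hbr hbr'
    show y * (a * a' * y * a' * a) = (a * a' * y * a' * a) * y
    calc y * (a * a' * y * a' * a) = y * (a * a' * y * a' * a) * y * y := by
          rw [mul_assoc (y * (a * a' * y * a' * a)) y y, tt_sq hS h'.1, mul_one]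
      _ = (a * a' * y * a' * a) * y := by rw [h1]
  rcases h'.2.2.2.2.1 _ hwD hcomm with h2 | h2
  · exfalso
    rw [hw] at h2
    have h3 : a' * y * a' = a * y * a := by
      have h4 := congrArg (fun t => a * t * a) h2
      have e1 : a * (a * a' * y * a' * a) * a = (a * a) * (a' * y * a') * (a * a) := by group
      simp only [e1, tt_sq hS h.1, one_mul, mul_one] at h4
      exact h4
    rw [hbr, hbr'] at h3
    have h4 : a' = a := by
      have h5 := congrArg (fun t => y * t * y) h3
      have e1 : y * (y * a' * y) * y = (y * y) * a' * (y * y) := by group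
      have e2 : y * (y * a * y) * y = (y * y) * a * (y * y) := by group
      simp only [e1, e2, tt_sq hS h'.1, one_mul, mul_one] at h5
      exact h5
    exact h.2.2.1 h4.symm
  · exact h2

theorem Pr.conj_u {D : Set G} (hS : IsThreeTranspositionSet D)
    (hconj : ∀ g : G, ∀ a ∈ D, g * a * g⁻¹ ∈ D) {a a' y y' : G} (h : Pr D a a')
    (h' : Pr D y y') (hay : ¬ Commute a y) : a * (y * y') * a⁻¹ = (a * a') * (y * y') := by
  have hya : ¬ Commute y a := fun hc => hay hc.symm
  have h1 := h'.conj_eq hS hconj h hya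
  rw [tt_inv hS h.1]
  calc a * (y * y') * a = a * ((y * y') * a * (y * y')⁻¹) * (y * y') := by group
    _ = a * a' * (y * y') := by rw [h1]

theorem Pr.comm_u {D : Set G} (hS : IsThreeTranspositionSet D)
    (hconj : ∀ g : G, ∀ a ∈ D, g * a * g⁻¹ ∈ D) {a a' y y' : G} (h : Pr D a a')
    (h' : Pr D y y') (hay : ¬ Commute a y) : Commute (a * a') (y * y') := by
  have h1 := h.conj_eq hS hconj h' hay
  have hay' : ¬ Commute a y' := fun hc => hay (((h'.2.2.2.2.2 a h.1).1 hc.symm).symm)
  have h2 := h.conj_eq hS hconj h'.symm hay'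
  show (a * a') * (y * y') = (y * y') * (a * a')
  have e : (a * a') * (y * y') =
      ((a * a') * y * (a * a')⁻¹) * ((a * a') * y' * (a * a')⁻¹) * (a * a') := by group
  rw [e, h1, h2, h'.2.2.2.1.eq]

theorem exists_partner {D : Set G} (hD : IsThreeTranspositionClass D) {d : G} (hd : d ∈ D)
    (hV : {y : G | y ∈ D ∧ Commute d y} = {v : G | v ∈ D ∧ ∀ e ∈ D, Commute v e ↔ Commute d e})
    (hm : {y : G | y ∈ D ∧ Commute d y}.ncard = 2) : ∀ a ∈ D, ∃ a', Pr D a a' := by
  have hS := hD.1
  have hconj : ∀ g : G, ∀ a ∈ D, g * a * g⁻¹ ∈ D := fun g a ha => tt_conj_mem hD ha g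
  obtain ⟨x, y, hxy, hset⟩ := Set.ncard_eq_two.1 hm
  have hdmem : d ∈ {y : G | y ∈ D ∧ Commute d y} := ⟨hd, Commute.refl d⟩
  have key : ∀ d', d' ≠ d → {y : G | y ∈ D ∧ Commute d y} = {d, d'} → Pr D d d' := by
    intro d' hne hs
    have hd'mem : d' ∈ {y : G | y ∈ D ∧ Commute d y} := by
      rw [hs]
      simp
    refine ⟨hd, hd'mem.1, hne.symm, hd'mem.2, ?_, ?_⟩
    · intro z hz hc
      have h1 : z ∈ {y : G | y ∈ D ∧ Commute d y} := ⟨hz, hc⟩
      rw [hs] at h1
      simpa using h1
    · have h1 : d' ∈ {v : G | v ∈ D ∧ ∀ e ∈ D, Commute v e ↔ Commute d e} := by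
        rw [← hV]
        exact hd'mem
      exact h1.2
  have hd' : ∃ d', Pr D d d' := by
    rw [hset] at hdmem
    rcases hdmem with h | h
    · exact ⟨y, key y (by rw [h]; exact hxy.symm) (by rw [hset, h])⟩
    · rw [Set.mem_singleton_iff] at h
      exact ⟨x, key x (by rw [h]; exact hxy) (by rw [hset, h, Set.pair_comm])⟩
  obtain ⟨d', hP⟩ := hd'
  intro a ha
  obtain ⟨d₀, -, hD0⟩ := hD.2.1
  have h1 : IsConj d a := by
    have ha' : IsConj d₀ a := by rw [hD0] at ha; exact ha
    have hd'' : IsConj d₀ d := by rw [hD0] at hd; exact hd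
    exact hd''.symm.trans ha'
  obtain ⟨g, hg⟩ := isConj_iff.1 h1
  rw [← hg]
  refine ⟨g * d' * g⁻¹, hconj g d hd, hconj g d' hP.2.1, ?_, ?_, ?_, ?_⟩
  · intro h
    apply hP.2.2.1
    have h2 := congrArg (fun t => g⁻¹ * t * g) h
    have e1 : g⁻¹ * (g * d * g⁻¹) * g = d := by group
    have e2 : g⁻¹ * (g * d' * g⁻¹) * g = d' := by group
    simp only [e1, e2] at h2
    exact h2
  · exact (Commute.conj_iff g).2 hP.2.2.2.1
  · intro z hz hc
    have hz' : g⁻¹ * z * g ∈ D := by
      have := hconj g⁻¹ z hz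
      rwa [inv_inv] at this
    have hc' : Commute d (g⁻¹ * z * g) := (commute_conj_left g d z).1 hc
    have e : z = g * (g⁻¹ * z * g) * g⁻¹ := by group
    rcases hP.2.2.2.2.1 _ hz' hc' with h | h
    · left
      rw [e, h]
    · right
      rw [e, h]
  · intro e he
    have he' : g⁻¹ * e * g ∈ D := by
      have := hconj g⁻¹ e he
      rwa [inv_inv] at this
    rw [commute_conj_left, commute_conj_left]
    exact hP.2.2.2.2.2 _ he'

theorem main [Finite G] {D : Set G} (hD : Cfsg.IsThreeTranspositionClass D)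
    (hD2 : ∃ a ∈ D, ∃ b ∈ D, a ≠ b) {d : G} (hd : d ∈ D)
    (hV : {y : G | y ∈ D ∧ Commute d y} = {v : G | v ∈ D ∧ ∀ e ∈ D, Commute v e ↔ Commute d e})
    (hm : {y : G | y ∈ D ∧ Commute d y}.ncard = 2) : Nonempty (G ≃* Equiv.Perm (Fin 4)) := by
  classical
  haveI : Fact (Nat.Prime 2) := ⟨Nat.prime_two⟩
  have hS := hD.1
  have hconj : ∀ g : G, ∀ a ∈ D, g * a * g⁻¹ ∈ D := fun g a ha => tt_conj_mem hD ha g
  have hpart := exists_partner hD hd hV hm
  obtain ⟨c, hc, hcd⟩ := tt_exists_not_commute hD hD2 hd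
  have hbc : ¬ Commute d c := fun h => hcd h.symm
  obtain ⟨b', hPb⟩ := hpart d hd
  obtain ⟨c', hPc⟩ := hpart c hc
  obtain ⟨u, hu⟩ : ∃ u, u = d * b' := ⟨_, rfl⟩
  obtain ⟨w, hw⟩ : ∃ w, w = c * c' := ⟨_, rfl⟩
  have hb2 := tt_sq hS hd
  have hc2 := tt_sq hS hc
  have hbi := tt_inv hS hd
  have hci := tt_inv hS hc
  have hu2 : u * u = 1 := by rw [hu]; exact hPb.sq hS
  have hw2 : w * w = 1 := by rw [hw]; exact hPc.sq hS
  have hui : u⁻¹ = u := inv_eq_of_mul_eq_one_left hu2
  have hwi : w⁻¹ = w := inv_eq_of_mul_eq_one_left hw2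
  have hu1 : u ≠ 1 := by rw [hu]; exact hPb.ne_one hS
  have hw1 : w ≠ 1 := by rw [hw]; exact hPc.ne_one hS
  have huw : u * w = w * u := by
    rw [hu, hw]
    exact (hPb.comm_u hS hconj hPc hbc).eq
  have cb_u : d * u * d⁻¹ = u := by
    rw [hu]
    have h1 := hPb.2.2.2.1.eq
    calc d * (d * b') * d⁻¹ = d * (b' * d) * d⁻¹ := by rw [h1]
      _ = d * b' := by group
  have cc_w : c * w * c⁻¹ = w := by
    rw [hw]
    have h1 := hPc.2.2.2.1.eq
    calc c * (c * c') * c⁻¹ = c * (c' * c) * c⁻¹ := by rw [h1]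
      _ = c * c' := by group
  have cb_w : d * w * d⁻¹ = u * w := by
    rw [hu, hw]
    exact hPb.conj_u hS hconj hPc hbc
  have cc_u : c * u * c⁻¹ = u * w := by
    rw [huw, hu, hw]
    exact hPc.conj_u hS hconj hPb hcd
  have cb_uw : d * (u * w) * d⁻¹ = w := by
    have e : d * (u * w) * d⁻¹ = (d * u * d⁻¹) * (d * w * d⁻¹) := by group
    rw [e, cb_u, cb_w, ← mul_assoc, hu2, one_mul]
  have cc_uw : c * (u * w) * c⁻¹ = u := by
    have e : c * (u * w) * c⁻¹ = (c * u * c⁻¹) * (c * w * c⁻¹) := by group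
    rw [e, cc_u, cc_w, mul_assoc, hw2, mul_one]
  have huw_ne : u ≠ w := by
    intro h
    have h1 := cc_u
    rw [h, cc_w, hw2] at h1
    exact hw1 h1
  -- every member of `D` commutes with `d`, `c` or `c d c⁻¹`
  have hcover : ∀ a ∈ D, Commute a d ∨ Commute a c ∨ Commute a (c * d * c⁻¹) := by
    intro a ha
    by_contra hcon
    push Not at hcon
    obtain ⟨hab, hac, hax⟩ := hcon
    obtain ⟨a₁, hPa⟩ := hpart a ha
    obtain ⟨x', hPx⟩ := hpart (c * d * c⁻¹) (hconj c d hd)
    have h1 : c * (a * a₁) * c⁻¹ = w * (a * a₁) := by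
      rw [hw]
      exact hPc.conj_u hS hconj hPa (fun h => hac h.symm)
    have h2 : d * (a * a₁) * d⁻¹ = u * (a * a₁) := by
      rw [hu]
      exact hPb.conj_u hS hconj hPa (fun h => hab h.symm)
    have h3 : (c * d * c⁻¹) * (a * a₁) * (c * d * c⁻¹)⁻¹ = a * a₁ := by
      have e : (c * d * c⁻¹) * (a * a₁) * (c * d * c⁻¹)⁻¹ =
          c * (d * (c⁻¹ * (a * a₁) * c) * d⁻¹) * c⁻¹ := by group
      have e2 : c⁻¹ * (a * a₁) * c = w * (a * a₁) := by
        have e5 : c⁻¹ * (a * a₁) * c = c * (a * a₁) * c⁻¹ := by rw [hci]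
        rw [e5, h1]
      have e3 : d * (w * (a * a₁)) * d⁻¹ = w * (a * a₁) := by
        have e5 : d * (w * (a * a₁)) * d⁻¹ = (d * w * d⁻¹) * (d * (a * a₁) * d⁻¹) := by group
        rw [e5, cb_w, h2]
        calc u * w * (u * (a * a₁)) = u * (w * u) * (a * a₁) := by group
          _ = u * (u * w) * (a * a₁) := by rw [huw]
          _ = (u * u) * w * (a * a₁) := by group
          _ = w * (a * a₁) := by rw [hu2, one_mul]
      have e4 : c * (w * (a * a₁)) * c⁻¹ = a * a₁ := by
        have e5 : c * (w * (a * a₁)) * c⁻¹ = (c * w * c⁻¹) * (c * (a * a₁) * c⁻¹) := by group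
        rw [e5, cc_w, h1, ← mul_assoc, hw2, one_mul]
      rw [e, e2, e3, e4]
    have h4 := hPa.conj_eq hS hconj hPx hax
    have h5 : (a * a₁) * (c * d * c⁻¹) * (a * a₁)⁻¹ = c * d * c⁻¹ := by
      have h6 : (c * d * c⁻¹) * (a * a₁) = (a * a₁) * (c * d * c⁻¹) := by
        calc (c * d * c⁻¹) * (a * a₁)
            = ((c * d * c⁻¹) * (a * a₁) * (c * d * c⁻¹)⁻¹) * (c * d * c⁻¹) := by group
          _ = (a * a₁) * (c * d * c⁻¹) := by rw [h3]
      rw [← h6]
      group
    rw [h5] at h4
    exact hPx.2.2.1 h4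
  -- generation by `d, c, u, w`
  have hgen4 : Subgroup.closure ({d, c, u, w} : Set G) = ⊤ := by
    rw [eq_top_iff, ← hD.2.2, Subgroup.closure_le]
    have hdm : d ∈ Subgroup.closure ({d, c, u, w} : Set G) := Subgroup.subset_closure (by simp)
    have hcm : c ∈ Subgroup.closure ({d, c, u, w} : Set G) := Subgroup.subset_closure (by simp)
    have hum : u ∈ Subgroup.closure ({d, c, u, w} : Set G) := Subgroup.subset_closure (by simp)
    have hwm : w ∈ Subgroup.closure ({d, c, u, w} : Set G) := Subgroup.subset_closure (by simp)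
    have hb'm : b' ∈ Subgroup.closure ({d, c, u, w} : Set G) := by
      have e : b' = d * u := by rw [hu, ← mul_assoc, hb2, one_mul]
      rw [e]
      exact Subgroup.mul_mem _ hdm hum
    have hc'm : c' ∈ Subgroup.closure ({d, c, u, w} : Set G) := by
      have e : c' = c * w := by rw [hw, ← mul_assoc, hc2, one_mul]
      rw [e]
      exact Subgroup.mul_mem _ hcm hwm
    intro a ha
    rw [SetLike.mem_coe]
    rcases hcover a ha with h | h | h
    · rcases hPb.2.2.2.2.1 a ha h.symm with h1 | h1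
      · rw [h1]; exact hdm
      · rw [h1]; exact hb'm
    · rcases hPc.2.2.2.2.1 a ha h.symm with h1 | h1
      · rw [h1]; exact hcm
      · rw [h1]; exact hc'm
    · have ha' : c⁻¹ * a * c ∈ D := by
        have := hconj c⁻¹ a ha
        rwa [inv_inv] at this
      have hc'' : Commute d (c⁻¹ * a * c) := (commute_conj_left c d a).1 h.symm
      have e : a = c * (c⁻¹ * a * c) * c⁻¹ := by group
      rcases hPb.2.2.2.2.1 _ ha' hc'' with h1 | h1
      · rw [e, h1]
        exact Subgroup.mul_mem _ (Subgroup.mul_mem _ hcm hdm) (Subgroup.inv_mem _ hcm)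
      · rw [e, h1]
        exact Subgroup.mul_mem _ (Subgroup.mul_mem _ hcm hb'm) (Subgroup.inv_mem _ hcm)
  -- the normal four-group
  obtain ⟨U, hUdef⟩ : ∃ U : Subgroup G, U = Subgroup.closure ({u, w} : Set G) := ⟨_, rfl⟩
  have huU : u ∈ U := by rw [hUdef]; exact Subgroup.subset_closure (by simp)
  have hwU : w ∈ U := by rw [hUdef]; exact Subgroup.subset_closure (by simp)
  have hUcomm : ∀ x ∈ U, x * u = u * x ∧ x * w = w * x := by
    intro x hx
    rw [hUdef] at hx
    induction hx using Subgroup.closure_induction with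
    | mem y hy =>
      rcases hy with h | h
      · rw [h]; exact ⟨rfl, huw⟩
      · rw [Set.mem_singleton_iff] at h
        rw [h]; exact ⟨huw.symm, rfl⟩
    | one => simp
    | mul x y _ _ hx hy =>
      constructor
      · rw [mul_assoc, hy.1, ← mul_assoc, hx.1, mul_assoc]
      · rw [mul_assoc, hy.2, ← mul_assoc, hx.2, mul_assoc]
    | inv x _ hx =>
      constructor
      · have h1 := hx.1
        calc x⁻¹ * u = x⁻¹ * (u * x) * x⁻¹ := by group
          _ = x⁻¹ * (x * u) * x⁻¹ := by rw [h1]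
          _ = u * x⁻¹ := by group
      · have h1 := hx.2
        calc x⁻¹ * w = x⁻¹ * (w * x) * x⁻¹ := by group
          _ = x⁻¹ * (x * w) * x⁻¹ := by rw [h1]
          _ = w * x⁻¹ := by group
  have hUnormal : U.Normal := by
    constructor
    intro n hn g
    have hg : g ∈ Subgroup.closure ({d, c, u, w} : Set G) := by
      rw [hgen4]
      exact Subgroup.mem_top g
    refine (closure_conj_mem (T := (U : Set G)) ?_ g hg n hn).1
    intro s hs t ht
    have key : ∀ s' : G, s'⁻¹ = s' → s' * u * s'⁻¹ ∈ U → s' * w * s'⁻¹ ∈ U →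
        ∀ t ∈ U, s' * t * s'⁻¹ ∈ U ∧ s'⁻¹ * t * s' ∈ U := by
      intro s' hsi h1 h2 t ht
      have h3 : s' * t * s'⁻¹ ∈ U := by
        rw [hUdef] at ht h1 h2 ⊢
        refine conj_closure_mem ?_ t ht
        intro y hy
        rcases hy with h | h
        · rw [h]; exact h1
        · rw [Set.mem_singleton_iff] at h
          rw [h]; exact h2
      refine ⟨h3, ?_⟩
      have e : s'⁻¹ * t * s' = s' * t * s'⁻¹ := by rw [hsi]
      rw [e]
      exact h3
    rcases hs with h | h | h | h
    · rw [h]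
      exact key d hbi (by rw [cb_u]; exact huU) (by rw [cb_w]; exact U.mul_mem huU hwU) t ht
    · rw [h]
      exact key c hci (by rw [cc_u]; exact U.mul_mem huU hwU) (by rw [cc_w]; exact hwU) t ht
    · rw [h]
      exact key u hui (U.mul_mem (U.mul_mem huU huU) (U.inv_mem huU))
        (U.mul_mem (U.mul_mem huU hwU) (U.inv_mem huU)) t ht
    · rw [Set.mem_singleton_iff] at h
      rw [h]
      exact key w hwi (U.mul_mem (U.mul_mem hwU huU) (U.inv_mem hwU))
        (U.mul_mem (U.mul_mem hwU hwU) (U.inv_mem hwU)) t ht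
  haveI := hUnormal
  have huw2 : (u * w) ^ 2 = 1 := by
    rw [pow_two]
    calc u * w * (u * w) = u * (w * u) * w := by group
      _ = u * (u * w) * w := by rw [huw]
      _ = (u * u) * (w * w) := by group
      _ = 1 := by rw [hu2, hw2, one_mul]
  have hUle : Nat.card U ≤ 4 := by
    rw [hUdef]
    exact card_closure_pair_le hu2 hw2 (by norm_num) huw2
  have hU2 : IsPGroup 2 U := by
    rw [hUdef]
    apply isPGroup_closure_pair hu2 hw2
    have e : (u * w) ^ 4 = ((u * w) ^ 2) ^ 2 := by rw [← pow_mul]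
    rw [e, huw2, one_pow]
  have hU4 : Nat.card U = 4 := by
    obtain ⟨k, hk⟩ := hU2.exists_card_eq
    have h3 : 3 ≤ Nat.card U := by
      have hsub : ({1, u, w} : Set G) ⊆ (U : Set G) := by
        intro x hx
        rcases hx with h | h | h
        · rw [h]; exact U.one_mem
        · rw [h]; exact huU
        · rw [Set.mem_singleton_iff] at h
          rw [h]; exact hwU
      have h3' : ({1, u, w} : Set G).ncard = 3 :=
        Set.ncard_eq_three.2 ⟨1, u, w, hu1.symm, hw1.symm, huw_ne, rfl⟩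
      have h4 := Set.ncard_le_ncard hsub (Set.toFinite _)
      rw [h3'] at h4
      exact h4
    rw [hk] at h3 hUle ⊢
    rcases k with _ | _ | _ | k
    · norm_num at h3
    · norm_num at h3
    · rfl
    · exfalso
      have e : 2 ^ (k + 1 + 1 + 1) = 8 * 2 ^ k := by ring
      have h5 := Nat.one_le_two_pow (n := k)
      omega
  have hb_notU : d ∉ U := by
    intro h
    have h1 := (hUcomm d h).2
    have e : d * w * d⁻¹ = w := by rw [h1]; group
    rw [cb_w] at e
    exact hu1 (by simpa using e)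
  have hr_u : (d * c) * u * (d * c)⁻¹ = w := by
    have e : (d * c) * u * (d * c)⁻¹ = d * (c * u * c⁻¹) * d⁻¹ := by group
    rw [e, cc_u, cb_uw]
  have hr_notU : d * c ∉ U := by
    intro h
    have h1 := (hUcomm _ h).1
    have e : (d * c) * u * (d * c)⁻¹ = u := by rw [h1]; group
    rw [hr_u] at e
    exact huw_ne e.symm
  have hr3 : (d * c) ^ 3 = 1 := by
    rcases hS.2 d hd c hc with h | h
    · exact absurd (commute_of_sq hS hd hc h) hbc
    · exact h
  have hr1 : d * c ≠ 1 := by
    intro h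
    apply hbc
    apply commute_of_sq hS hd hc
    rw [h, one_pow]
  have h23 : Nat.Coprime 2 3 := by norm_num
  have hQ6 : Nat.card (G ⧸ U) = 6 := by
    have hle : Nat.card (G ⧸ U) ≤ 6 := by
      have htop : Subgroup.closure ({(d : G ⧸ U), (c : G ⧸ U)} : Set (G ⧸ U)) = ⊤ := by
        rw [eq_top_iff, ← Subgroup.map_top_of_surjective (QuotientGroup.mk' U)
          (QuotientGroup.mk'_surjective U), ← hgen4, MonoidHom.map_closure, Subgroup.closure_le]
        rintro _ ⟨y, hy, rfl⟩
        rw [SetLike.mem_coe]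
        rcases hy with h | h | h | h
        · rw [h]; exact Subgroup.subset_closure (by simp)
        · rw [h]; exact Subgroup.subset_closure (by simp)
        · rw [h]
          have e : (QuotientGroup.mk' U) u = 1 := (QuotientGroup.eq_one_iff u).2 huU
          rw [e]
          exact Subgroup.one_mem _
        · rw [Set.mem_singleton_iff] at h
          rw [h]
          have e : (QuotientGroup.mk' U) w = 1 := (QuotientGroup.eq_one_iff w).2 hwU
          rw [e]
          exact Subgroup.one_mem _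
      have h1 := card_closure_pair_le (G := G ⧸ U) (s := (d : G ⧸ U)) (t := (c : G ⧸ U))
        (by rw [← QuotientGroup.mk_mul, hb2, QuotientGroup.mk_one])
        (by rw [← QuotientGroup.mk_mul, hc2, QuotientGroup.mk_one]) (n := 3) (by norm_num)
        (by rw [← QuotientGroup.mk_mul, ← QuotientGroup.mk_pow, hr3, QuotientGroup.mk_one])
      rw [htop, Subgroup.card_top] at h1
      exact h1
    have h2 : 2 ∣ Nat.card (G ⧸ U) := by
      have ho : orderOf (d : G ⧸ U) = 2 := by
        apply orderOf_eq_prime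
        · rw [← QuotientGroup.mk_pow, pow_two, hb2, QuotientGroup.mk_one]
        · intro h
          exact hb_notU ((QuotientGroup.eq_one_iff d).1 h)
      rw [← ho]
      exact orderOf_dvd_natCard _
    have h3 : 3 ∣ Nat.card (G ⧸ U) := by
      haveI : Fact (Nat.Prime 3) := ⟨Nat.prime_three⟩
      have ho : orderOf ((d * c : G) : G ⧸ U) = 3 := by
        apply orderOf_eq_prime
        · rw [← QuotientGroup.mk_pow, hr3, QuotientGroup.mk_one]
        · intro h
          exact hr_notU ((QuotientGroup.eq_one_iff _).1 h)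
      rw [← ho]
      exact orderOf_dvd_natCard _
    have h6 : 2 * 3 ∣ Nat.card (G ⧸ U) := Nat.Coprime.mul_dvd_of_dvd_of_dvd h23 h2 h3
    have hpos : 0 < Nat.card (G ⧸ U) := Nat.card_pos
    obtain ⟨m, hm⟩ := h6
    omega
  have hG24 : Nat.card G = 24 := by
    rw [Subgroup.card_eq_card_quotient_mul_card_subgroup U, hQ6, hU4]
  -- the subgroup of index four
  obtain ⟨H, hHdef⟩ : ∃ H : Subgroup G, H = Subgroup.closure ({d, c} : Set G) := ⟨_, rfl⟩
  have hdH : d ∈ H := by rw [hHdef]; exact Subgroup.subset_closure (by simp)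
  have hcH : c ∈ H := by rw [hHdef]; exact Subgroup.subset_closure (by simp)
  have hH6 : Nat.card H = 6 := by
    have hle : Nat.card H ≤ 6 := by
      rw [hHdef]
      exact card_closure_pair_le hb2 hc2 (by norm_num) hr3
    have h2 : 2 ∣ Nat.card H := by
      have h4 := orderOf_dvd_natCard (⟨d, hdH⟩ : H)
      rwa [Subgroup.orderOf_mk, hS.1 d hd] at h4
    have h3 : 3 ∣ Nat.card H := by
      haveI : Fact (Nat.Prime 3) := ⟨Nat.prime_three⟩
      have ho : orderOf (d * c) = 3 := orderOf_eq_prime hr3 hr1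
      have h4 := orderOf_dvd_natCard (⟨d * c, H.mul_mem hdH hcH⟩ : H)
      rwa [Subgroup.orderOf_mk, ho] at h4
    have h6 : 2 * 3 ∣ Nat.card H := Nat.Coprime.mul_dvd_of_dvd_of_dvd h23 h2 h3
    have hpos : 0 < Nat.card H := Nat.card_pos
    obtain ⟨m, hm⟩ := h6
    omega
  have hidx : H.index = 4 := by
    have h1 := H.card_mul_index
    rw [hH6, hG24] at h1
    omega
  have hmod : ∀ j : ℤ, (d * c) ^ j = 1 ∨ (d * c) ^ j = d * c ∨
      (d * c) ^ j = (d * c) * (d * c) := by
    intro j
    have h3 : (d * c) ^ (3 : ℤ) = 1 := by exact_mod_cast hr3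
    rw [zpow_eq_zpow_emod j h3]
    have hlt : j % 3 < 3 := Int.emod_lt_of_pos j (by norm_num)
    have hge : 0 ≤ j % 3 := Int.emod_nonneg j (by norm_num)
    obtain ⟨m, hm⟩ : ∃ m : ℤ, m = j % 3 := ⟨_, rfl⟩
    rw [← hm] at hlt hge ⊢
    interval_cases m
    · left; simp
    · right; left; simp
    · right; right
      exact zpow_two _
  have hr_pow : ∀ j : ℤ, (d * c) ^ j * u * ((d * c) ^ j)⁻¹ = u → (d * c) ^ j = 1 := by
    intro j hj
    rcases hmod j with h1 | h1 | h1
    · exact h1
    · exfalso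
      rw [h1, hr_u] at hj
      exact huw_ne hj.symm
    · exfalso
      rw [h1] at hj
      have e2 : ((d * c) * (d * c)) * u * ((d * c) * (d * c))⁻¹ = u * w := by
        have e3 : ((d * c) * (d * c)) * u * ((d * c) * (d * c))⁻¹ =
            (d * c) * ((d * c) * u * (d * c)⁻¹) * (d * c)⁻¹ := by group
        have e4 : (d * c) * w * (d * c)⁻¹ = d * (c * w * c⁻¹) * d⁻¹ := by group
        rw [e3, hr_u, e4, cc_w, cb_w]
      rw [e2] at hj
      exact hw1 (by simpa using hj)
  have hstar : ∀ k ∈ H, k * u = u * k → k * w = w * k → k = 1 := by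
    intro k hk hku hkw
    have hcu : k * u * k⁻¹ = u := by rw [hku]; group
    have hcw : k * w * k⁻¹ = w := by rw [hkw]; group
    rw [hHdef] at hk
    rcases dihedral_mem hb2 hc2 k hk with h | h
    · obtain ⟨j, hj⟩ := Subgroup.mem_zpowers_iff.1 h
      rw [← hj] at hcu ⊢
      exact hr_pow j hcu
    · exfalso
      obtain ⟨j, hj⟩ := Subgroup.mem_zpowers_iff.1 h
      have hk' : k = (d * c) ^ j * d⁻¹ := by rw [hj]; group
      have hdu : d⁻¹ * u * d = u := by
        have e : d⁻¹ * u * d = d⁻¹ * (d * u * d⁻¹) * d := by rw [cb_u]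
        rw [e]
        group
      have h1 : (d * c) ^ j * u * ((d * c) ^ j)⁻¹ = u := by
        have e : (d * c) ^ j * u * ((d * c) ^ j)⁻¹ =
            (d * c) ^ j * (d⁻¹ * u * d) * ((d * c) ^ j)⁻¹ := by rw [hdu]
        rw [e]
        have e2 : (d * c) ^ j * (d⁻¹ * u * d) * ((d * c) ^ j)⁻¹ =
            ((d * c) ^ j * d⁻¹) * u * ((d * c) ^ j * d⁻¹)⁻¹ := by group
        rw [e2, ← hk']
        exact hcu
      have h2 := hr_pow j h1
      rw [h2, one_mul] at hk'
      rw [hk', inv_inv, hbi] at hcw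
      have h3 := cb_w
      rw [hbi] at h3
      rw [h3] at hcw
      exact hu1 (by simpa using hcw)
  have hcore : H.normalCore = ⊥ := by
    rw [eq_bot_iff]
    intro k hk
    rw [Subgroup.mem_bot]
    have hkH : k ∈ H := Subgroup.normalCore_le H hk
    haveI : H.normalCore.Normal := Subgroup.normalCore_normal H
    have hcomm : ∀ t ∈ U, k * t = t * k := by
      intro t ht
      have hz1 : k * (t * k⁻¹ * t⁻¹) ∈ H.normalCore :=
        Subgroup.mul_mem _ hk
          (Subgroup.Normal.conj_mem inferInstance k⁻¹ (Subgroup.inv_mem _ hk) t)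
      have hz2 : (k * t * k⁻¹) * t⁻¹ ∈ U := U.mul_mem (hUnormal.conj_mem t ht k) (U.inv_mem ht)
      have e : k * (t * k⁻¹ * t⁻¹) = (k * t * k⁻¹) * t⁻¹ := by group
      rw [e] at hz1
      have hz := hstar _ (Subgroup.normalCore_le H hz1) (hUcomm _ hz2).1 (hUcomm _ hz2).2
      calc k * t = ((k * t * k⁻¹) * t⁻¹) * t * k := by group
        _ = t * k := by rw [hz, one_mul]
    exact hstar k hkH (hcomm u huU) (hcomm w hwU)
  have hinj : Function.Injective (MulAction.toPermHom G (G ⧸ H)) := by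
    rw [← MonoidHom.ker_eq_bot_iff, ← Subgroup.normalCore_eq_ker, hcore]
  have hcardQ : Nat.card (G ⧸ H) = 4 := hidx
  have hbij : Function.Bijective (MulAction.toPermHom G (G ⧸ H)) := by
    apply Function.Injective.bijective_of_nat_card_le hinj
    rw [Nat.card_perm, hcardQ, hG24]
    decide
  exact ⟨(MulEquiv.ofBijective _ hbij).trans (Finite.equivFinOfCardEq hcardQ).permCongrHom⟩

end

/-- Let D be a conjugacy class of 3-transpositions generating the finite group G, with at least two members, and d a member of D. Suppose that every member of D commuting with d commutes with exactly the same members of D as d does, and that exactly one member of D other than d commutes with d. Then G is isomorphic to the symmetric group of degree 4. -/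
theorem result {G : Type*} [Group G] [Finite G] {D : Set G} (hD : Cfsg.IsThreeTranspositionClass D) (hD2 : ∃ a ∈ D, ∃ b ∈ D, a ≠ b) {d : G} (hd : d ∈ D) (hV : {y : G | y ∈ D ∧ Commute d y} = {v : G | v ∈ D ∧ ∀ e ∈ D, Commute v e ↔ Commute d e}) (hm : {y : G | y ∈ D ∧ Commute d y}.ncard = 2) : Nonempty (G ≃* Equiv.Perm (Fin 4)) := by
  exact main hD hD2 hd hV hm

end Cfsg.Agent.S5355
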