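import Cfsg.Statements.S5356
-- import your own Cfsg.Agent.* helpers here
import Cfsg.Agent.Lib.helper26.TTZ
import Cfsg.Agent.Lib.helper26.Alperin
import Cfsg.Agent.S5349

set_option autoImplicit false
open Cfsg

namespace Cfsg.Agent.S5356

section
open Cfsg.Agent.Lib.helper26 Cfsg Cfsg.FusionSystem
open Cfsg.Agent.Lib.helper14 (isPGroup_pCore pCore_normal')

variable {G : Type*} [Group G]

theorem commute_of_sq {D : Set G} (hS : IsThreeTranspositionSet D) {a b : G} (ha : a ∈ D)
    (hb : b ∈ D) (h : (a * b) ^ 2 = 1) : Commute a b := by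
  have h1 : a * b * (a * b) = 1 := by rw [← pow_two]; exact h
  have h2 : a * b = (a * b)⁻¹ := eq_inv_of_mul_eq_one_left h1
  rw [mul_inv_rev, tt_inv hS ha, tt_inv hS hb] at h2
  exact h2

/-- conjugation-invariance of a join -/
theorem conj_sup_mem {A B : Subgroup G} {d : G} (hA : ∀ q ∈ A, d * q * d⁻¹ ∈ A ⊔ B)
    (hB : ∀ q ∈ B, d * q * d⁻¹ ∈ A ⊔ B) : ∀ q ∈ A ⊔ B, d * q * d⁻¹ ∈ A ⊔ B := by
  intro q hq
  have hle : A ⊔ B ≤ (A ⊔ B).comap (MulAut.conj d).toMonoidHom := by
    apply sup_le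
    · intro x hx
      exact hA x hx
    · intro x hx
      exact hB x hx
  exact hle hq

theorem conj_zpowers_mem {H : Subgroup G} {d r : G} (h : d * r * d⁻¹ ∈ H) :
    ∀ q ∈ Subgroup.zpowers r, d * q * d⁻¹ ∈ H := by
  intro q hq
  have hle : Subgroup.zpowers r ≤ H.comap (MulAut.conj d).toMonoidHom := by
    rw [Subgroup.zpowers_le]
    exact h
  exact hle hq

theorem isPGroup_zpowers_of_cube {x : G} (hx : x ^ 3 = 1) : IsPGroup 3 (Subgroup.zpowers x) := by
  rintro ⟨z, hz⟩
  refine ⟨1, ?_⟩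
  obtain ⟨k, rfl⟩ := Subgroup.mem_zpowers_iff.1 hz
  apply Subtype.ext
  simp only [pow_one, Subgroup.coe_pow, Subgroup.coe_one]
  rw [← zpow_natCast, ← zpow_mul, mul_comm, zpow_mul, zpow_natCast, hx, one_zpow]

/-- a member `d` of `D` all of whose commuting companions are equivalent to it normalises a Sylow
`3`-subgroup -/
theorem exists_inv_sylow3 [Finite G] {D : Set G} (hS : IsThreeTranspositionSet D)
    (hconj : ∀ g : G, ∀ a ∈ D, g * a * g⁻¹ ∈ D) {d e : G} (hd : d ∈ D) (he : e ∈ D)
    (hde : ¬ Commute d e)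
    (hVd : ∀ y ∈ D, Commute d y → ∀ e ∈ D, (Commute y e ↔ Commute d e)) :
    ∃ P : Sylow 3 G, ∀ q ∈ P, d * q * d⁻¹ ∈ P := by
  classical
  haveI : Fact (Nat.Prime 3) := ⟨Nat.prime_three⟩
  have hd2 := tt_sq hS hd
  have hdi := tt_inv hS hd
  have he2 := tt_sq hS he
  have hei := tt_inv hS he
  have hbr : d * e * d = e * d * e := (tt_braid hS hd he).resolve_left hde
  have hx3 : (d * e) ^ 3 = 1 := by
    rcases hS.2 d hd e he with h | h
    · exact absurd (commute_of_sq hS hd he h) hde
    · exact h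
  obtain ⟨𝒬, h𝒬⟩ : ∃ 𝒬 : Set (Subgroup G),
      𝒬 = {Q : Subgroup G | IsPGroup 3 Q ∧ (∀ q ∈ Q, d * q * d⁻¹ ∈ Q) ∧ d * e ∈ Q} := ⟨_, rfl⟩
  have hne : Nonempty 𝒬 := by
    refine ⟨⟨Subgroup.zpowers (d * e), ?_⟩⟩
    rw [h𝒬]
    refine ⟨isPGroup_zpowers_of_cube hx3, ?_, Subgroup.mem_zpowers _⟩
    apply conj_zpowers_mem
    have e1 : d * (d * e) * d⁻¹ = (d * e)⁻¹ := by
      rw [mul_inv_rev, hdi, hei, ← mul_assoc, hd2, one_mul]
    rw [e1]
    exact Subgroup.inv_mem _ (Subgroup.mem_zpowers _)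
  obtain ⟨⟨Q, hQ⟩, hmax⟩ := Finite.exists_max (fun Q : 𝒬 => Nat.card (Q : Subgroup G))
  have hQ' : Q ∈ {Q : Subgroup G | IsPGroup 3 Q ∧ (∀ q ∈ Q, d * q * d⁻¹ ∈ Q) ∧ d * e ∈ Q} := by
    rw [← h𝒬]
    exact hQ
  obtain ⟨hQp, hQinv, hQx⟩ := hQ'
  obtain ⟨P, hQP⟩ := hQp.exists_le_sylow
  by_cases hQeq : Q = P
  · refine ⟨P, ?_⟩
    intro q hq
    have hq' : q ∈ (P : Subgroup G) := hq
    rw [← hQeq] at hq'
    have := hQinv q hq'
    rw [hQeq] at this
    exact this
  exfalso
  obtain ⟨r, hr, hrQ⟩ := exists_normalizerIn_not_mem (S := (P : Subgroup G)) P.isPGroup' hQP hQeq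
  have hrP : r ∈ (P : Subgroup G) := hr.1
  have hrN : r ∈ Subgroup.normalizer (Q : Set G) := hr.2
  have hdN : d ∈ Subgroup.normalizer (Q : Set G) := by
    rw [Subgroup.mem_normalizer_iff]
    intro h
    constructor
    · exact hQinv h
    · intro hh
      have h1 := hQinv _ hh
      have e1 : d * (d * h * d⁻¹) * d⁻¹ = h := by
        rw [hdi]
        have e2 : d * (d * h * d) * d = (d * d) * h * (d * d) := by group
        rw [e2, hd2, one_mul, mul_one]
      rwa [e1] at h1
  have hcontra : ∀ Q' : Subgroup G, IsPGroup 3 Q' → (∀ q ∈ Q', d * q * d⁻¹ ∈ Q') → Q ≤ Q' →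
      ¬ Q' ≤ Q → False := by
    intro Q' h1 h2 h3 h4
    have hmem : Q' ∈ 𝒬 := by
      rw [h𝒬]
      exact ⟨h1, h2, h3 hQx⟩
    have hle : Nat.card Q' ≤ Nat.card Q := hmax ⟨Q', hmem⟩
    have h5 : Q = Q' := Subgroup.eq_of_le_of_card_ge h3 hle
    exact h4 (h5 ▸ le_refl _)
  obtain ⟨v, hvdef⟩ : ∃ v, v = r⁻¹ * d * r := ⟨_, rfl⟩
  have hvD : v ∈ D := by
    rw [hvdef]
    have := hconj r⁻¹ d hd
    rwa [inv_inv] at this
  have hvN : v ∈ Subgroup.normalizer (Q : Set G) := by
    rw [hvdef]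
    exact Subgroup.mul_mem _ (Subgroup.mul_mem _ (Subgroup.inv_mem _ hrN) hdN) hrN
  have hvi := tt_inv hS hvD
  have hQr_p : IsPGroup 3 (Q ⊔ Subgroup.zpowers r : Subgroup G) :=
    P.isPGroup'.to_le (sup_le hQP (Subgroup.zpowers_le.2 hrP))
  have hQr_not : ¬ Q ⊔ Subgroup.zpowers r ≤ Q :=
    fun h => hrQ (h (Subgroup.mem_sup_right (Subgroup.mem_zpowers r)))
  by_cases hdv : Commute d v
  · have hvd : v = d := by
      by_contra hne'
      have hve : ¬ Commute v e := fun h => hde ((hVd v hvD hdv e he).1 h)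
      have hbrv : v * e * v = e * v * e := (tt_braid hS hvD he).resolve_left hve
      have hvx : v * (d * e) * v⁻¹ ∈ Q := ((Subgroup.mem_normalizer_iff.1 hvN) (d * e)).1 hQx
      have hz : (d * e * d) * (v * e * v) ∈ Q := by
        have e1 : (d * e * d) * (v * e * v) = (d * e) * (v * (d * e) * v⁻¹) := by
          rw [hvi]
          calc (d * e * d) * (v * e * v) = d * e * (d * v) * e * v := by group
            _ = d * e * (v * d) * e * v := by rw [hdv.eq]
            _ = (d * e) * (v * (d * e) * v) := by group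
        rw [e1]
        exact Q.mul_mem hQx hvx
      have hcomm : Commute (d * e * d) (v * e * v) := by
        have h1 := tt_conj_commute hd2 hdv.eq hbr hbrv
        have hec : Commute e (d * v * e * v * d) := by
          show e * (d * v * e * v * d) = (d * v * e * v * d) * e
          calc e * (d * v * e * v * d) = e * (d * v * e * v * d) * e * e := by
                rw [mul_assoc (e * (d * v * e * v * d)) e e, he2, mul_one]
            _ = (d * v * e * v * d) * e := by rw [h1]
        have h2 := (Commute.conj_iff d).2 hec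
        have e2 : d * (d * v * e * v * d) * d⁻¹ = (d * d) * (v * e * v) := by group
        rw [e2, hd2, one_mul, hdi] at h2
        exact h2
      have hsq : (d * e * d) * (v * e * v) * ((d * e * d) * (v * e * v)) = 1 := by
        have g2 : (d * e * d) * (d * e * d) = 1 := by
          have e3 : (d * e * d) * (d * e * d) = d * e * (d * d) * e * d := by group
          rw [e3, hd2, mul_one, mul_assoc d e e, he2, mul_one, hd2]
        have h2' : (v * e * v) * (v * e * v) = 1 := by
          have e3 : (v * e * v) * (v * e * v) = v * e * (v * v) * e * v := by group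
          rw [e3, tt_sq hS hvD, mul_one, mul_assoc v e e, he2, mul_one, tt_sq hS hvD]
        calc (d * e * d) * (v * e * v) * ((d * e * d) * (v * e * v))
            = (d * e * d) * ((v * e * v) * (d * e * d)) * (v * e * v) := by group
          _ = (d * e * d) * ((d * e * d) * (v * e * v)) * (v * e * v) := by rw [hcomm.eq]
          _ = ((d * e * d) * (d * e * d)) * ((v * e * v) * (v * e * v)) := by group
          _ = 1 := by rw [g2, h2', one_mul]
      have hz1 : (d * e * d) * (v * e * v) = 1 := by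
        obtain ⟨k, hk⟩ := hQp ⟨_, hz⟩
        have hk' : ((d * e * d) * (v * e * v)) ^ 3 ^ k = 1 := by
          simpa using congrArg Subtype.val hk
        have h2 : ((d * e * d) * (v * e * v)) ^ 2 = 1 := by rw [pow_two]; exact hsq
        have h3 := pow_gcd_eq_one.2 ⟨hk', h2⟩
        rwa [Nat.Coprime.pow_left k (by norm_num : Nat.Coprime 3 2), pow_one] at h3
      -- d e d = v e v, hence d = v
      have h4 : d * e * d = v * e * v := by
        have h5 := eq_inv_of_mul_eq_one_left hz1
        rw [mul_inv_rev, mul_inv_rev, hvi, hei, ← mul_assoc] at h5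
        exact h5
      rw [hbr, hbrv] at h4
      have h6 : d = v := by
        have h7 := congrArg (fun t => e * t * e) h4
        have e4 : e * (e * d * e) * e = (e * e) * d * (e * e) := by group
        have e5 : e * (e * v * e) * e = (e * e) * v * (e * e) := by group
        simp only [e4, e5, he2, one_mul, mul_one] at h7
        exact h7
      exact hne' h6.symm
    have hrd : d * r * d⁻¹ = r := by
      rw [hvdef] at hvd
      have h1 : d * r = r * d := by
        calc d * r = r * (r⁻¹ * d * r) := by group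
          _ = r * d := by rw [hvd]
      rw [h1]
      group
    apply hcontra (Q ⊔ Subgroup.zpowers r) hQr_p ?_ le_sup_left hQr_not
    apply conj_sup_mem
    · intro q hq
      exact Subgroup.mem_sup_left (hQinv q hq)
    · apply conj_zpowers_mem
      rw [hrd]
      exact Subgroup.mem_sup_right (Subgroup.mem_zpowers r)
  · have hy3 : (d * v) ^ 3 = 1 := by
      rcases hS.2 d hd v hvD with h | h
      · exact absurd (commute_of_sq hS hd hvD h) hdv
      · exact h
    have hyN : d * v ∈ Subgroup.normalizer (Q : Set G) := Subgroup.mul_mem _ hdN hvN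
    by_cases hyQ : d * v ∈ Q
    · apply hcontra (Q ⊔ Subgroup.zpowers r) hQr_p ?_ le_sup_left hQr_not
      apply conj_sup_mem
      · intro q hq
        exact Subgroup.mem_sup_left (hQinv q hq)
      · apply conj_zpowers_mem
        have e1 : d * r * d⁻¹ = r * (d * v)⁻¹ := by
          rw [hvdef]
          have e2 : r * (d * (r⁻¹ * d * r))⁻¹ = d⁻¹ * r * d⁻¹ := by group
          rw [e2, hdi]
        rw [e1]
        exact Subgroup.mul_mem _ (Subgroup.mem_sup_right (Subgroup.mem_zpowers r))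
          (Subgroup.mem_sup_left (Q.inv_mem hyQ))
    · have hp' : IsPGroup 3 (Subgroup.zpowers (d * v) ⊔ Q : Subgroup G) :=
        IsPGroup.to_sup_of_normal_right' (isPGroup_zpowers_of_cube hy3) hQp
          (Subgroup.zpowers_le.2 hyN)
      rw [sup_comm] at hp'
      apply hcontra (Q ⊔ Subgroup.zpowers (d * v)) hp' ?_ le_sup_left
        (fun h => hyQ (h (Subgroup.mem_sup_right (Subgroup.mem_zpowers _))))
      apply conj_sup_mem
      · intro q hq
        exact Subgroup.mem_sup_left (hQinv q hq)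
      · apply conj_zpowers_mem
        have e1 : d * (d * v) * d⁻¹ = (d * v)⁻¹ := by
          rw [mul_inv_rev, hdi, hvi, ← mul_assoc, hd2, one_mul]
        rw [e1]
        exact Subgroup.mem_sup_right (Subgroup.inv_mem _ (Subgroup.mem_zpowers _))

theorem main [Finite G] {D : Set G} (hD : Cfsg.IsThreeTranspositionClass D)
    (hD2 : ∃ a ∈ D, ∃ b ∈ D, a ≠ b) {d : G} (hd : d ∈ D)
    (hV : {y : G | y ∈ D ∧ Commute d y} = {v : G | v ∈ D ∧ ∀ e ∈ D, Commute v e ↔ Commute d e}) :
    ∃ P : Sylow 3 G, d ∈ Subgroup.normalizer (P : Set G) ∧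
      Subgroup.zpowers d ⊔ (P : Subgroup G) ⊔ Cfsg.pCore 2 G = ⊤ := by
  classical
  haveI : Fact (Nat.Prime 3) := ⟨Nat.prime_three⟩
  haveI : Fact (Nat.Prime 2) := ⟨Nat.prime_two⟩
  have hS := hD.1
  have hconj : ∀ g : G, ∀ a ∈ D, g * a * g⁻¹ ∈ D := fun g a ha => tt_conj_mem hD ha g
  haveI := pCore_normal' 2 G
  have hd2 := tt_sq hS hd
  have hdi := tt_inv hS hd
  have hVd : ∀ y ∈ D, Commute d y → ∀ e ∈ D, (Commute y e ↔ Commute d e) := by
    intro y hy hdy
    have h1 : y ∈ {y : G | y ∈ D ∧ Commute d y} := ⟨hy, hdy⟩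
    rw [hV] at h1
    exact h1.2
  have hVall : ∀ a ∈ D, ∀ y ∈ D, Commute a y → ∀ e ∈ D, (Commute y e ↔ Commute a e) := by
    intro a ha y hy hay e he
    obtain ⟨d₀, -, hD0⟩ := hD.2.1
    have h1 : IsConj d a := by
      have ha' : IsConj d₀ a := by rw [hD0] at ha; exact ha
      have hd' : IsConj d₀ d := by rw [hD0] at hd; exact hd
      exact hd'.symm.trans ha'
    obtain ⟨g, hg⟩ := isConj_iff.1 h1
    subst hg
    have hy' : g⁻¹ * y * g ∈ D := by
      have := hconj g⁻¹ y hy
      rwa [inv_inv] at this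
    have he' : g⁻¹ * e * g ∈ D := by
      have := hconj g⁻¹ e he
      rwa [inv_inv] at this
    have hc' : Commute d (g⁻¹ * y * g) := by
      have h2 := (Commute.conj_iff g⁻¹).2 hay
      have e1 : g⁻¹ * (g * d * g⁻¹) * g⁻¹⁻¹ = d := by group
      rw [e1, inv_inv] at h2
      exact h2
    have h2 := hVd _ hy' hc' _ he'
    have h3 : Commute (g⁻¹ * y * g) (g⁻¹ * e * g) ↔ Commute y e := by
      have h4 := Commute.conj_iff (a := y) (b := e) g⁻¹
      rwa [inv_inv] at h4
    have h4 : Commute d (g⁻¹ * e * g) ↔ Commute (g * d * g⁻¹) e := by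
      have h5 := Commute.conj_iff (a := d) (b := g⁻¹ * e * g) g
      have e1 : g * (g⁻¹ * e * g) * g⁻¹ = e := by group
      rw [e1] at h5
      exact h5.symm
    rw [← h3, h2, h4]
  have hprod : ∀ a ∈ D, ∀ b ∈ D, Commute a b → a * b ∈ pCore 2 G := by
    intro a ha b hb hab
    exact Cfsg.Agent.S5349.mul_mem_pCore hD ha hb (hVall a ha b hb hab)
  have h23 : ∀ x ∈ pCore 2 G, x ^ 3 = 1 → x = 1 := by
    intro x hx h3
    obtain ⟨k, hk⟩ := isPGroup_pCore 2 G ⟨x, hx⟩
    have hk' : x ^ 2 ^ k = 1 := by simpa using congrArg Subtype.val hk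
    have h4 := pow_gcd_eq_one.2 ⟨hk', h3⟩
    rwa [Nat.Coprime.pow_left k (by norm_num : Nat.Coprime 2 3), pow_one] at h4
  obtain ⟨e, he, hed⟩ := tt_exists_not_commute hD hD2 hd
  have hde : ¬ Commute d e := fun h => hed h.symm
  have hnot : ∀ a ∈ D, a ∉ pCore 2 G := by
    intro a ha haO
    have hall : ∀ b ∈ D, b ∈ pCore 2 G := by
      intro b hb
      obtain ⟨d₀, -, hD0⟩ := hD.2.1
      have h1 : IsConj a b := by
        have ha' : IsConj d₀ a := by rw [hD0] at ha; exact ha
        have hb' : IsConj d₀ b := by rw [hD0] at hb; exact hb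
        exact ha'.symm.trans hb'
      obtain ⟨g, hg⟩ := isConj_iff.1 h1
      rw [← hg]
      exact Subgroup.Normal.conj_mem inferInstance a haO g
    apply hde
    rcases hS.2 d hd e he with h | h
    · exact commute_of_sq hS hd he h
    · have h1 := h23 (d * e) (Subgroup.mul_mem _ (hall d hd) (hall e he)) h
      apply commute_of_sq hS hd he
      rw [h1, one_pow]
  obtain ⟨π, hπ⟩ : ∃ π : G →* G ⧸ pCore 2 G, π = QuotientGroup.mk' (pCore 2 G) := ⟨_, rfl⟩
  have hπs : Function.Surjective π := by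
    rw [hπ]
    exact QuotientGroup.mk'_surjective _
  have hπ1 : ∀ x, π x = 1 ↔ x ∈ pCore 2 G := by
    intro x
    rw [hπ]
    exact QuotientGroup.eq_one_iff x
  have hDbar : IsThreeTranspositionGroup (π '' D) := by
    refine ⟨⟨?_, ?_⟩, ?_, ?_⟩
    · rintro _ ⟨a, ha, rfl⟩
      apply orderOf_eq_prime
      · rw [← map_pow, pow_two, tt_sq hS ha, map_one]
      · intro h
        exact hnot a ha ((hπ1 a).1 h)
    · rintro _ ⟨a, ha, rfl⟩ _ ⟨b, hb, rfl⟩
      rcases hS.2 a ha b hb with h | h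
      · left
        rw [← map_mul, ← map_pow, h, map_one]
      · right
        rw [← map_mul, ← map_pow, h, map_one]
    · rintro gbar _ ⟨a, ha, rfl⟩
      obtain ⟨g, rfl⟩ := hπs gbar
      exact ⟨g * a * g⁻¹, hconj g a ha, by rw [map_mul, map_mul, map_inv]⟩
    · rw [← MonoidHom.map_closure, hD.2.2, Subgroup.map_top_of_surjective π hπs]
  have hcbar : ∀ a ∈ π '' D, ∀ b ∈ π '' D, (a * b) ^ 3 = 1 := by
    rintro _ ⟨a, ha, rfl⟩ _ ⟨b, hb, rfl⟩
    rcases hS.2 a ha b hb with h | h
    · have h1 := hprod a ha b hb (commute_of_sq hS ha hb h)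
      rw [← map_mul, (hπ1 _).2 h1, one_pow]
    · rw [← map_mul, ← map_pow, h, map_one]
  have htop := tt_odd_main hDbar hcbar (Set.mem_image_of_mem π hd)
  obtain ⟨P, hP⟩ := exists_inv_sylow3 hS hconj hd he hde hVd
  refine ⟨P, ?_, ?_⟩
  · show d ∈ Subgroup.normalizer ((P : Subgroup G) : Set G)
    rw [Subgroup.mem_normalizer_iff]
    intro h
    constructor
    · exact hP h
    · intro hh
      have h1 := hP _ hh
      have e1 : d * (d * h * d⁻¹) * d⁻¹ = h := by
        rw [hdi]
        have e2 : d * (d * h * d) * d = (d * d) * h * (d * d) := by group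
        rw [e2, hd2, one_mul, mul_one]
      rwa [e1] at h1
  · rw [eq_top_iff]
    intro g _
    have h1 : pCore 3 (G ⧸ pCore 2 G) ≤ (P : Subgroup G).map π := by
      have h2 := Cfsg.Agent.Lib.helper14.pCore_le_sylow (P.mapSurjective hπs)
      rwa [Sylow.coe_mapSurjective] at h2
    have h2 : Subgroup.zpowers (π d) ⊔ pCore 3 (G ⧸ pCore 2 G) ≤
        (Subgroup.zpowers d ⊔ (P : Subgroup G)).map π := by
      rw [Subgroup.map_sup, MonoidHom.map_zpowers]
      exact sup_le_sup_left h1 _
    have h3 : π g ∈ (Subgroup.zpowers d ⊔ (P : Subgroup G)).map π :=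
      h2 (by rw [htop]; exact Subgroup.mem_top _)
    obtain ⟨h, hh, hhg⟩ := h3
    have h4 : h⁻¹ * g ∈ pCore 2 G := by
      rw [← hπ1, map_mul, map_inv, hhg, inv_mul_cancel]
    have e1 : g = h * (h⁻¹ * g) := by group
    rw [e1]
    exact Subgroup.mul_mem _ (Subgroup.mem_sup_left hh) (Subgroup.mem_sup_right h4)

end

/-- Let D be a conjugacy class of 3-transpositions generating the finite group G, with at least two members, and d a member of D such that every member of D commuting with d commutes with exactly the same members of D as d. Then there is a Sylow 3-subgroup P of G normalized by d such that G is generated by d, P and the largest normal 2-subgroup of G. -/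
theorem result {G : Type*} [Group G] [Finite G] {D : Set G} (hD : Cfsg.IsThreeTranspositionClass D) (hD2 : ∃ a ∈ D, ∃ b ∈ D, a ≠ b) {d : G} (hd : d ∈ D) (hV : {y : G | y ∈ D ∧ Commute d y} = {v : G | v ∈ D ∧ ∀ e ∈ D, Commute v e ↔ Commute d e}) : ∃ P : Sylow 3 G, d ∈ Subgroup.normalizer (P : Set G) ∧ Subgroup.zpowers d ⊔ (P : Subgroup G) ⊔ Cfsg.pCore 2 G = ⊤ := by
  exact main hD hD2 hd hV

end Cfsg.Agent.S5356
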