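import Cfsg.Statements.S5357
-- import your own Cfsg.Agent.* helpers here
import Cfsg.Agent.Lib.helper4.OrthSiegel
import Cfsg.Agent.Lib.helper4.OrthF2

set_option autoImplicit false
open scoped MatrixGroups
open Cfsg

namespace Cfsg.Agent.S5357

open Cfsg.Agent.Lib.helper13 Cfsg.Agent.Lib.helper4

/-- the reflection of norm `c` as an element of the reflection subgroup -/
noncomputable def mkR {n : ℕ} (Q : QuadraticForm (ZMod 3) (Fin n → ZMod 3)) (c : ZMod 3)
    (hc : c ≠ 0) (v : Fin n → ZMod 3) (hv : Q v = c) : ↥(Cfsg.reflectionSubgroup (⇑Q) c) :=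
  ⟨reflEl Q v, Subgroup.subset_closure ⟨v, hv, reflEl_coe Q v (by rw [hv]; exact hc)⟩⟩

theorem mkR_coe {n : ℕ} (Q : QuadraticForm (ZMod 3) (Fin n → ZMod 3)) (c : ZMod 3)
    (hc : c ≠ 0) (v : Fin n → ZMod 3) (hv : Q v = c) :
    ((mkR Q c hc v hv : ↥(Cfsg.reflectionSubgroup (⇑Q) c)) :
      ↥(Cfsg.isometryGroup (ZMod 3) (⇑Q))) = reflEl Q v := rfl

theorem sq3 (x : ZMod 3) (hx : x ≠ 0) : x * x = 1 := by
  revert x
  decide

/-- one step: reflections in non-orthogonal vectors of norm `c` are conjugate by a reflection of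
norm `c`. -/
theorem step_conj {n : ℕ} (Q : QuadraticForm (ZMod 3) (Fin n → ZMod 3)) (c : ZMod 3)
    (hc : c ≠ 0) (a b : Fin n → ZMod 3) (ha : Q a = c) (hb : Q b = c)
    (hab : QuadraticMap.polar (⇑Q) a b ≠ 0) :
    ∃ g : ↥(Cfsg.reflectionSubgroup (⇑Q) c), g * mkR Q c hc a ha * g⁻¹ = mkR Q c hc b hb := by
  obtain ⟨β, hβ⟩ : ∃ β : ZMod 3, β = c⁻¹ * QuadraticMap.polar (⇑Q) a b := ⟨_, rfl⟩
  have hβ0 : β ≠ 0 := by
    rw [hβ]
    exact mul_ne_zero (inv_ne_zero hc) hab
  have hββ : β * β = 1 := sq3 β hβ0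
  have hγ : QuadraticMap.polar (⇑Q) a b = β * c := by
    rw [hβ]
    field_simp
  have hQ1 : Q (b - β • a) = c := by
    rw [Q_sub, QuadraticMap.map_smul, QuadraticMap.polar_smul_right,
      QuadraticMap.polar_comm (⇑Q) b a, hγ, ha, hb]
    simp only [smul_eq_mul]
    ring
  have ha0 : Q a ≠ 0 := by rw [ha]; exact hc
  have hb0 : Q b ≠ 0 := by rw [hb]; exact hc
  have h10 : Q (b - β • a) ≠ 0 := by rw [hQ1]; exact hc
  refine ⟨mkR Q c hc (b - β • a) hQ1, ?_⟩
  apply Subtype.ext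
  show reflEl Q (b - β • a) * reflEl Q a * (reflEl Q (b - β • a))⁻¹ = reflEl Q b
  rw [reflEl_conj Q _ a ha0, reflEl_coe Q _ h10, refl_mulVec, hQ1]
  have e : a - (c⁻¹ * QuadraticMap.polar (⇑Q) (b - β • a) a) • (b - β • a) = β • b := by
    rw [QuadraticMap.polar_sub_left, QuadraticMap.polar_smul_left,
      QuadraticMap.polar_comm (⇑Q) b a, hγ, polar_self', ha]
    simp only [smul_eq_mul]
    have h1 : c⁻¹ * (β * c - β * (2 * c)) = -β := by
      field_simp
      ring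
    rw [h1, neg_smul, sub_neg_eq_add, smul_sub, smul_smul, hββ, one_smul]
    abel
  rw [e, reflEl_smul Q b hb0 β hβ0]

theorem conj_R {n : ℕ} (hn : 5 ≤ n) (Q : QuadraticForm (ZMod 3) (Fin n → ZMod 3))
    (hQ : (QuadraticMap.polarBilin Q).Nondegenerate) (c : ZMod 3) (hc : c ≠ 0)
    (a b : Fin n → ZMod 3) (ha : Q a = c) (hb : Q b = c) :
    ∃ g : ↥(Cfsg.reflectionSubgroup (⇑Q) c), g * mkR Q c hc a ha * g⁻¹ = mkR Q c hc b hb := by
  have h2 : (2 : ZMod 3) ≠ 0 := by decide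
  by_cases hab : QuadraticMap.polar (⇑Q) a b = 0
  · have ha0 : Q a ≠ 0 := by rw [ha]; exact hc
    have hb0 : Q b ≠ 0 := by rw [hb]; exact hc
    obtain ⟨hKgood, hKfin⟩ := good_pair h2 Q a b ha0 hb0 hab
    obtain ⟨m, hm, hQm⟩ := exists_orth Q hQ hn _ hKgood hKfin (-c) (neg_ne_zero.mpr hc)
    have ham : QuadraticMap.polar (⇑Q) a m = 0 := hm a (Submodule.subset_span (by simp))
    have hbm : QuadraticMap.polar (⇑Q) b m = 0 := hm b (Submodule.subset_span (by simp))
    have hz : Q (a + b + m) = c := by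
      rw [Q_add, Q_add, QuadraticMap.polar_add_left, ham, hbm, hab, ha, hb, hQm]
      ring
    have h2c : 2 * c ≠ 0 := mul_ne_zero h2 hc
    have haz : QuadraticMap.polar (⇑Q) a (a + b + m) ≠ 0 := by
      rw [QuadraticMap.polar_add_right, QuadraticMap.polar_add_right, polar_self', hab, ham, ha,
        add_zero, add_zero]
      exact h2c
    have hzb : QuadraticMap.polar (⇑Q) (a + b + m) b ≠ 0 := by
      rw [QuadraticMap.polar_add_left, QuadraticMap.polar_add_left, polar_self', hab,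
        QuadraticMap.polar_comm (⇑Q) m b, hbm, hb, zero_add, add_zero]
      exact h2c
    obtain ⟨g₁, hg₁⟩ := step_conj Q c hc a (a + b + m) ha hz haz
    obtain ⟨g₂, hg₂⟩ := step_conj Q c hc (a + b + m) b hz hb hzb
    refine ⟨g₂ * g₁, ?_⟩
    rw [← hg₂, ← hg₁]
    group
  · exact step_conj Q c hc a b ha hb hab

/-- Let Q be a non-degenerate quadratic form on the n-dimensional coordinate space over the field with three elements, n ≥ 5, and c a non-zero scalar. In the subgroup of the isometry group of Q generated by the reflections in vectors v with Q(v) = c, these reflections form a single conjugacy class of 3-transpositions generating that subgroup. -/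
theorem result (n : ℕ) (hn : 5 ≤ n) (Q : QuadraticForm (ZMod 3) (Fin n → ZMod 3)) (hQ : (QuadraticMap.polarBilin Q).Nondegenerate) (c : ZMod 3) (hc : c ≠ 0) : Cfsg.IsThreeTranspositionClass {g : ↥(Cfsg.reflectionSubgroup (⇑Q) c) | (g : ↥(Cfsg.isometryGroup (ZMod 3) (⇑Q))) ∈ Cfsg.reflectionsOfNorm (⇑Q) c} := by
  classical
  have h2 : (2 : ZMod 3) ≠ 0 := by decide
  have hD : ∀ d : ↥(Cfsg.reflectionSubgroup (⇑Q) c),
      d ∈ {g : ↥(Cfsg.reflectionSubgroup (⇑Q) c) |
        (g : ↥(Cfsg.isometryGroup (ZMod 3) (⇑Q))) ∈ Cfsg.reflectionsOfNorm (⇑Q) c}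
      ↔ ∃ (v : Fin n → ZMod 3) (hv : Q v = c), d = mkR Q c hc v hv := by
    intro d
    constructor
    · rintro ⟨v, hv, hd⟩
      refine ⟨v, hv, ?_⟩
      apply Subtype.ext
      rw [mkR_coe]
      apply Cfsg.Agent.Lib.helper13.isom_ext
      rw [hd, Cfsg.Agent.Lib.helper13.reflEl_coe Q v (by rw [hv]; exact hc)]
    · rintro ⟨v, hv, rfl⟩
      exact ⟨v, hv, Cfsg.Agent.Lib.helper13.reflEl_coe Q v (by rw [hv]; exact hc)⟩
  have hsq : ∀ (v : Fin n → ZMod 3) (hv : Q v = c), mkR Q c hc v hv * mkR Q c hc v hv = 1 := by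
    intro v hv
    apply Subtype.ext
    show Cfsg.Agent.Lib.helper13.reflEl Q v * Cfsg.Agent.Lib.helper13.reflEl Q v = 1
    exact Cfsg.Agent.Lib.helper13.reflEl_mul_self Q v
  obtain ⟨a₀, ha₀⟩ := Cfsg.Agent.Lib.helper4.universal Q hQ
    (by rw [Fintype.card_fin]; omega) c hc
  refine ⟨⟨?_, ?_⟩, ⟨mkR Q c hc a₀ ha₀, (hD _).mpr ⟨a₀, ha₀, rfl⟩, ?_⟩, ?_⟩
  · intro d hd
    obtain ⟨v, hv, rfl⟩ := (hD d).mp hd
    apply orderOf_eq_prime
    · rw [sq]
      exact hsq v hv
    · intro h1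
      have h3 := congrArg (fun g : ↥(Cfsg.reflectionSubgroup (⇑Q) c) =>
        (((g : ↥(Cfsg.isometryGroup (ZMod 3) (⇑Q))) : Matrix.GeneralLinearGroup (Fin n) (ZMod 3)) :
          Matrix (Fin n) (Fin n) (ZMod 3)).mulVec v) h1
      simp only [mkR_coe] at h3
      rw [Cfsg.Agent.Lib.helper13.reflEl_coe Q v (by rw [hv]; exact hc),
        Cfsg.Agent.Lib.helper13.refl_mulVec, Cfsg.Agent.Lib.helper4.polar_self', hv] at h3
      have h4 : (((1 : ↥(Cfsg.reflectionSubgroup (⇑Q) c)) : ↥(Cfsg.isometryGroup (ZMod 3) (⇑Q))) :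
          Matrix.GeneralLinearGroup (Fin n) (ZMod 3)).1 = 1 := rfl
      rw [h4, Matrix.one_mulVec] at h3
      have h5 : c⁻¹ * (2 * c) = 2 := by field_simp
      rw [h5] at h3
      have h6 : (2 : ZMod 3) • v = 0 := by
        have h7 : v - (2 : ZMod 3) • v = v := h3
        have h8 : v - (2 : ZMod 3) • v - v = 0 := by rw [h7, sub_self]
        have h9 : (2 : ZMod 3) • v = -(v - (2 : ZMod 3) • v - v) := by abel
        rw [h9, h8, neg_zero]
      have hv0 : v = 0 := (smul_eq_zero.mp h6).resolve_left h2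
      rw [hv0, map_zero] at hv
      exact hc hv.symm
  · intro d hd e he
    obtain ⟨a, ha, rfl⟩ := (hD d).mp hd
    obtain ⟨b, hb, rfl⟩ := (hD e).mp he
    have ha0 : Q a ≠ 0 := by rw [ha]; exact hc
    have hb0 : Q b ≠ 0 := by rw [hb]; exact hc
    by_cases hab : QuadraticMap.polar (⇑Q) a b = 0
    · left
      have hcomm : mkR Q c hc a ha * mkR Q c hc b hb = mkR Q c hc b hb * mkR Q c hc a ha := by
        apply Subtype.ext
        show Cfsg.Agent.Lib.helper13.reflEl Q a * Cfsg.Agent.Lib.helper13.reflEl Q b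
          = Cfsg.Agent.Lib.helper13.reflEl Q b * Cfsg.Agent.Lib.helper13.reflEl Q a
        have h1 := Cfsg.Agent.Lib.helper13.reflEl_conj Q (Cfsg.Agent.Lib.helper13.reflEl Q a) b hb0
        rw [Cfsg.Agent.Lib.helper13.reflEl_coe Q a ha0, Cfsg.Agent.Lib.helper13.refl_mulVec, hab,
          mul_zero, zero_smul, sub_zero] at h1
        exact mul_inv_eq_iff_eq_mul.mp h1
      rw [sq]
      calc mkR Q c hc a ha * mkR Q c hc b hb * (mkR Q c hc a ha * mkR Q c hc b hb)
          = mkR Q c hc a ha * mkR Q c hc b hb * (mkR Q c hc b hb * mkR Q c hc a ha) := by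
            rw [hcomm]
        _ = mkR Q c hc a ha * (mkR Q c hc b hb * mkR Q c hc b hb) * mkR Q c hc a ha := by
            simp only [mul_assoc]
        _ = 1 := by rw [hsq, mul_one, hsq]
    · right
      obtain ⟨β, hβ⟩ : ∃ β : ZMod 3, β = c⁻¹ * QuadraticMap.polar (⇑Q) a b := ⟨_, rfl⟩
      have hβ0 : β ≠ 0 := by
        rw [hβ]
        exact mul_ne_zero (inv_ne_zero hc) hab
      have hββ : β * β = 1 := sq3 β hβ0
      have hγ : QuadraticMap.polar (⇑Q) a b = β * c := by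
        rw [hβ]
        field_simp
      have hQ1 : Q (b - β • a) = c := by
        rw [Cfsg.Agent.Lib.helper13.Q_sub, QuadraticMap.map_smul, QuadraticMap.polar_smul_right,
          QuadraticMap.polar_comm (⇑Q) b a, hγ, ha, hb]
        simp only [smul_eq_mul]
        ring
      have h10 : Q (b - β • a) ≠ 0 := by rw [hQ1]; exact hc
      apply Cfsg.Agent.Lib.helper4.braid3 _ _ (mkR Q c hc (b - β • a) hQ1) (hsq a ha) (hsq b hb)
        (hsq _ hQ1)
      · apply Subtype.ext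
        show Cfsg.Agent.Lib.helper13.reflEl Q a * Cfsg.Agent.Lib.helper13.reflEl Q b
          = Cfsg.Agent.Lib.helper13.reflEl Q (b - β • a) * Cfsg.Agent.Lib.helper13.reflEl Q a
        have h1 := Cfsg.Agent.Lib.helper13.reflEl_conj Q (Cfsg.Agent.Lib.helper13.reflEl Q a) b hb0
        rw [Cfsg.Agent.Lib.helper13.reflEl_coe Q a ha0, Cfsg.Agent.Lib.helper13.refl_mulVec, ha,
          ← hβ] at h1
        exact mul_inv_eq_iff_eq_mul.mp h1
      · apply Subtype.ext
        show Cfsg.Agent.Lib.helper13.reflEl Q b * Cfsg.Agent.Lib.helper13.reflEl Q a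
          = Cfsg.Agent.Lib.helper13.reflEl Q (b - β • a) * Cfsg.Agent.Lib.helper13.reflEl Q b
        have h1 := Cfsg.Agent.Lib.helper13.reflEl_conj Q (Cfsg.Agent.Lib.helper13.reflEl Q b) a ha0
        rw [Cfsg.Agent.Lib.helper13.reflEl_coe Q b hb0, Cfsg.Agent.Lib.helper13.refl_mulVec, hb,
          QuadraticMap.polar_comm (⇑Q) b a, ← hβ] at h1
        have e : a - β • b = (-β) • (b - β • a) := by
          rw [smul_sub, smul_smul, neg_mul, hββ]
          module
        rw [e, Cfsg.Agent.Lib.helper13.reflEl_smul Q _ h10 (-β) (neg_ne_zero.mpr hβ0)] at h1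
        exact mul_inv_eq_iff_eq_mul.mp h1
  · ext g
    rw [hD]
    show _ ↔ IsConj (mkR Q c hc a₀ ha₀) g
    rw [isConj_iff]
    constructor
    · rintro ⟨v, hv, rfl⟩
      exact conj_R hn Q hQ c hc a₀ v ha₀ hv
    · rintro ⟨x, rfl⟩
      have ha₀0 : Q a₀ ≠ 0 := by rw [ha₀]; exact hc
      refine ⟨(((x : ↥(Cfsg.isometryGroup (ZMod 3) (⇑Q))) :
        Matrix.GeneralLinearGroup (Fin n) (ZMod 3)) : Matrix (Fin n) (Fin n) (ZMod 3)).mulVec a₀,
        ?_, ?_⟩
      · rw [Cfsg.Agent.Lib.helper13.isom_pres]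
        exact ha₀
      · apply Subtype.ext
        exact Cfsg.Agent.Lib.helper13.reflEl_conj Q (x : ↥(Cfsg.isometryGroup (ZMod 3) (⇑Q)))
          a₀ ha₀0
  · exact Subgroup.closure_closure_coe_preimage

end Cfsg.Agent.S5357
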