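import Cfsg.Statements.S5358
-- import your own Cfsg.Agent.* helpers here

set_option autoImplicit false
open scoped MatrixGroups
open Cfsg

namespace Cfsg.Agent.S5358

theorem dot_polarVec (n : ℕ) (Q : QuadraticForm (ZMod 3) (Fin n → ZMod 3)) (u x : Fin n → ZMod 3) :
    Cfsg.polarVec (⇑Q) u ⬝ᵥ x = QuadraticMap.polar (⇑Q) u x := by
  rw [← QuadraticMap.polarBilin_apply_apply, LinearMap.pi_apply_eq_sum_univ]
  unfold dotProduct Cfsg.polarVec
  apply Finset.sum_congr rfl
  intro i _
  rw [smul_eq_mul, mul_comm, QuadraticMap.polarBilin_apply_apply]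
  congr 2
  ext j
  simp [Pi.single_apply, eq_comm]

theorem exists_polarVec_ne (n : ℕ) (Q : QuadraticForm (ZMod 3) (Fin n → ZMod 3))
    (hQ : (QuadraticMap.polarBilin Q).Nondegenerate) (u : Fin n → ZMod 3) (hu : u ≠ 0) :
    ∃ j, Cfsg.polarVec (⇑Q) u j ≠ 0 := by
  by_contra hcon
  push_neg at hcon
  apply hu
  apply hQ.1 u
  intro y
  rw [QuadraticMap.polarBilin_apply_apply, ← dot_polarVec]
  unfold dotProduct
  apply Finset.sum_eq_zero
  intro j _
  rw [hcon j, zero_mul]

theorem prod_formula (n : ℕ) (Q : QuadraticForm (ZMod 3) (Fin n → ZMod 3)) (u v : Fin n → ZMod 3) :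
    Matrix.vecMulVec u (Cfsg.polarVec (⇑Q) u) * Matrix.vecMulVec v (Cfsg.polarVec (⇑Q) v) =
      QuadraticMap.polar (⇑Q) u v • Matrix.vecMulVec u (Cfsg.polarVec (⇑Q) v) := by
  rw [Matrix.vecMulVec_mul_vecMulVec, dot_polarVec]
  ext i j
  simp [Matrix.vecMulVec_apply]
  ring

theorem comm_one_sub {R : Type*} [Ring R] (a b : R) : Commute (1 - a) (1 - b) ↔ a * b = b * a := by
  constructor
  · intro h
    have h' : (1 - a) * (1 - b) = (1 - b) * (1 - a) := h
    calc a * b = (1 - a) * (1 - b) - 1 + a + b := by noncomm_ring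
      _ = (1 - b) * (1 - a) - 1 + a + b := by rw [h']
      _ = b * a := by noncomm_ring
  · intro h
    show (1 - a) * (1 - b) = (1 - b) * (1 - a)
    calc (1 - a) * (1 - b) = 1 - a - b + a * b := by noncomm_ring
      _ = 1 - a - b + b * a := by rw [h]
      _ = (1 - b) * (1 - a) := by noncomm_ring

/-- Let Q be a non-degenerate quadratic form on the n-dimensional coordinate space over the field with three elements and u, v vectors of the same non-zero norm Q(u) = Q(v) spanning different lines (v ≠ u and v ≠ −u). Then the reflection matrices of u and v commute if and only if u and v are orthogonal for the polar form of Q. -/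
theorem result (n : ℕ) (Q : QuadraticForm (ZMod 3) (Fin n → ZMod 3)) (hQ : (QuadraticMap.polarBilin Q).Nondegenerate) (u v : Fin n → ZMod 3) (hu : Q u ≠ 0) (huv : Q u = Q v) (h1 : v ≠ u) (h2 : v ≠ -u) : Commute (Cfsg.reflectionMatrix (⇑Q) u) (Cfsg.reflectionMatrix (⇑Q) v) ↔ QuadraticMap.polar (⇑Q) u v = 0 := by
  have hu0 : u ≠ 0 := by
    rintro rfl
    exact hu (QuadraticMap.map_zero Q)
  have hα : (Q u)⁻¹ ≠ 0 := inv_ne_zero hu
  have hcomm' : QuadraticMap.polar (⇑Q) v u = QuadraticMap.polar (⇑Q) u v := QuadraticMap.polar_comm _ _ _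
  have hAB := prod_formula n Q u v
  have hBA := prod_formula n Q v u
  rw [hcomm'] at hBA
  unfold Cfsg.reflectionMatrix
  rw [← huv]
  set A := Matrix.vecMulVec u (Cfsg.polarVec (⇑Q) u) with hA
  set B := Matrix.vecMulVec v (Cfsg.polarVec (⇑Q) v) with hB
  set α := (Q u)⁻¹ with hαdef
  have hiff : Commute (1 - α • A) (1 - α • B) ↔ A * B = B * A := by
    rw [comm_one_sub, smul_mul_smul_comm, smul_mul_smul_comm]
    constructor
    · intro h1
      exact smul_right_injective _ (mul_ne_zero hα hα) h1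
    · intro h
      rw [h]
  rw [hiff, hAB, hBA]
  constructor
  · intro h
    by_contra hc
    have h3 : Matrix.vecMulVec u (Cfsg.polarVec (⇑Q) v) = Matrix.vecMulVec v (Cfsg.polarVec (⇑Q) u) :=
      smul_right_injective _ hc h
    obtain ⟨j, hj⟩ := exists_polarVec_ne n Q hQ u hu0
    have h4 : ∀ i, v i = (Cfsg.polarVec (⇑Q) v j / Cfsg.polarVec (⇑Q) u j) * u i := by
      intro i
      have := congrFun (congrFun h3 i) j
      rw [Matrix.vecMulVec_apply, Matrix.vecMulVec_apply] at this
      field_simp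
      rw [← this]; ring
    have h5 : v = (Cfsg.polarVec (⇑Q) v j / Cfsg.polarVec (⇑Q) u j) • u := by
      ext i; rw [h4 i]; rfl
    set t := Cfsg.polarVec (⇑Q) v j / Cfsg.polarVec (⇑Q) u j with ht
    have h6 : Q v = (t * t) • Q u := by rw [h5, QuadraticMap.map_smul]
    rw [← huv, smul_eq_mul] at h6
    have h7 : t * t = 1 := by
      have : (t * t - 1) * Q u = 0 := by rw [sub_mul, one_mul, ← h6, sub_self]
      rcases mul_eq_zero.mp this with h | h
      · exact sub_eq_zero.mp h
      · exact absurd h hu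
    rcases mul_self_eq_one_iff.mp h7 with h | h
    · apply h1; rw [h5, h, one_smul]
    · apply h2; rw [h5, h, neg_one_smul]
  · intro h
    rw [h, zero_smul, zero_smul]

end Cfsg.Agent.S5358
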