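import Cfsg.Statements.S5359
-- import your own Cfsg.Agent.* helpers here
import Cfsg.Agent.Lib.helper4.OrthRc

set_option autoImplicit false
open scoped MatrixGroups
open Cfsg

namespace Cfsg.Agent.S5359

theorem reflSub_eq_Rc (n : ℕ) (Q : QuadraticForm (ZMod 3) (Fin n → ZMod 3)) (c : ZMod 3) :
    Cfsg.reflectionSubgroup (⇑Q) c = Cfsg.Agent.Lib.helper4.Rc Q c := by
  unfold Cfsg.reflectionSubgroup Cfsg.reflectionsOfNorm Cfsg.Agent.Lib.helper4.Rc
  congr 1
  ext g
  constructor
  · rintro ⟨v, hv, hg⟩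
    exact ⟨v, 1, one_ne_zero, by rw [hv]; ring, hg⟩
  · rintro ⟨v, t, ht, hv, hg⟩
    refine ⟨v, ?_, hg⟩
    have h1 : ∀ t : ZMod 3, t ≠ 0 → t ^ 2 = 1 := by decide
    rw [hv, h1 t ht, mul_one]

/-- Let Q be a non-degenerate quadratic form on the n-dimensional coordinate space over the field with three elements, n odd and at least 5, and c a non-zero scalar. Then the subgroup of the isometry group of Q generated by the reflections in vectors of norm c has index 2 in the isometry group. -/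
theorem result (n : ℕ) (hn : 5 ≤ n) (hodd : Odd n) (Q : QuadraticForm (ZMod 3) (Fin n → ZMod 3)) (hQ : (QuadraticMap.polarBilin Q).Nondegenerate) (c : ZMod 3) (hc : c ≠ 0) : (Cfsg.reflectionSubgroup (⇑Q) c).index = 2 := by
  rw [reflSub_eq_Rc]
  have h2 : (2 : ZMod 3) ≠ 0 := by decide
  have hn' : Fintype.card (Fin n) = 2 ∨ 4 ≤ Fintype.card (Fin n) := by
    rw [Fintype.card_fin]
    omega
  have h43' : ¬ (Fintype.card (Fin n) = 4 ∧ Fintype.card (ZMod 3) = 3) := by
    rw [Fintype.card_fin]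
    omega
  exact Cfsg.Agent.Lib.helper4.Rc_index_two h2 Q hQ hn' h43' c hc

end Cfsg.Agent.S5359
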