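import Cfsg.Statements.S5363
-- import your own Cfsg.Agent.* helpers here

set_option autoImplicit false
open Cfsg

namespace Cfsg.Agent.S5363

theorem sq_one_of_order_two {G : Type*} [Group G] {d : G} (h : orderOf d = 2) : d * d = 1 := by
  rw [← pow_two, ← h, pow_orderOf_eq_one]

theorem pow_rel {G : Type*} [Group G] (a u : G) (h : a * u = u⁻¹ * a) (k : ℕ) :
    a * u ^ k = (u ^ k)⁻¹ * a := by
  induction k with
  | zero => simp
  | succ k ih =>
    calc a * u ^ (k + 1) = (a * u ^ k) * u := by rw [pow_succ, mul_assoc]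
      _ = (u ^ k)⁻¹ * (a * u) := by rw [ih, mul_assoc]
      _ = (u ^ k)⁻¹ * (u⁻¹ * a) := by rw [h]
      _ = (u ^ (k + 1))⁻¹ * a := by rw [pow_succ', mul_inv_rev, mul_assoc]

theorem conj_even {G : Type*} [Group G] (a u : G) (h : a * u = u⁻¹ * a) (j : ℕ) :
    a * u ^ (2 * j) = (u ^ j)⁻¹ * a * ((u ^ j)⁻¹)⁻¹ := by
  rw [inv_inv, ← pow_rel a u h j, mul_assoc, ← pow_add, two_mul]

theorem conj_odd {G : Type*} [Group G] (a u : G) (h : a * u = u⁻¹ * a) (j : ℕ) :
    a * u ^ (2 * j + 1) = (u ^ j)⁻¹ * (a * u) * ((u ^ j)⁻¹)⁻¹ := by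
  rw [inv_inv, ← mul_assoc, ← pow_rel a u h j, mul_assoc, mul_assoc, ← pow_succ', ← pow_add]
  congr 2; omega

theorem forward {G : Type*} [Group G] [Finite G] {D : Set G} (hinv : ∀ d ∈ D, orderOf d = 2)
    (H1 : ∀ a ∈ D, ∀ b ∈ D, Odd (orderOf (a * b)) ∨ orderOf (a * b) = 2)
    (a : G) (ha : a ∈ D) (b : G) (hb : b ∈ D) (hne : b ≠ a) (hab : Commute a b)
    (y : G) (hy : y ∈ D) (hc : Commute (a * b) y) : Commute a y := by
  have ha2 : a * a = 1 := sq_one_of_order_two (hinv a ha)
  have hb2 : b * b = 1 := sq_one_of_order_two (hinv b hb)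
  have hy2 : y * y = 1 := sq_one_of_order_two (hinv y hy)
  have hainv : a⁻¹ = a := inv_eq_of_mul_eq_one_right ha2
  have hyinv : y⁻¹ = y := inv_eq_of_mul_eq_one_right hy2
  have hz2 : (a * b) * (a * b) = 1 := by
    have : a * b * (a * b) = a * (b * a) * b := by group
    rw [this, ← hab.eq, ← mul_assoc, ha2, one_mul, hb2]
  have hz1 : a * b ≠ 1 := by
    intro h
    apply hne
    have := eq_inv_of_mul_eq_one_right h
    rw [this, hainv]
  have hza : Commute (a * b) a := by
    show a * b * a = a * (a * b)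
    rw [mul_assoc, ← hab.eq]
  rcases H1 a ha y hy with hodd | h2
  · -- order of a*y odd
    have hzw : Commute (a * b) (a * y) := hza.mul_right hc
    have hby : b * y = (a * b) * (a * y) := by
      have : a * b * (a * y) = (a * b * a) * y := by group
      rw [this, hza.eq, ← mul_assoc, ha2, one_mul]
    have hw : (a * y) ^ orderOf (a * y) = 1 := pow_orderOf_eq_one _
    have hzodd : ∀ n : ℕ, Odd n → (a * b) ^ n = a * b := by
      rintro n ⟨k, rfl⟩
      rw [pow_succ, pow_mul, pow_two, hz2, one_pow, one_mul]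
    rcases H1 b hb y hy with hodd' | h2'
    · exfalso
      apply hz1
      have h1 : ((a * b) * (a * y)) ^ orderOf (b * y) = 1 := by
        rw [← hby]; exact pow_orderOf_eq_one _
      rw [hzw.mul_pow, hzodd _ hodd'] at h1
      have h3 : a * b = ((a * y) ^ orderOf (b * y))⁻¹ := eq_inv_of_mul_eq_one_left h1
      have h4 : (a * b) ^ orderOf (a * y) = 1 := by
        rw [h3, inv_pow, ← pow_mul, mul_comm, pow_mul, hw, one_pow, inv_one]
      rw [hzodd _ hodd] at h4
      exact h4
    · have h1 : ((a * b) * (a * y)) ^ 2 = 1 := by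
        rw [← hby, ← h2']; exact pow_orderOf_eq_one _
      rw [hzw.mul_pow, pow_two (a * b), hz2, one_mul] at h1
      have h3 : orderOf (a * y) ∣ 2 := orderOf_dvd_of_pow_eq_one h1
      have h4 : orderOf (a * y) = 1 := by
        rcases (Nat.dvd_prime Nat.prime_two).mp h3 with h | h
        · exact h
        · exfalso; rw [h] at hodd; exact (by decide : ¬ Odd 2) hodd
      have h5 : a * y = 1 := orderOf_eq_one_iff.mp h4
      have h6 : y = a := by
        have := eq_inv_of_mul_eq_one_right h5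
        rw [this, hainv]
      rw [h6]
  · have h1 : (a * y) ^ 2 = 1 := by rw [← h2]; exact pow_orderOf_eq_one _
    show a * y = y * a
    have h3 : a * y = (a * y)⁻¹ := by
      rw [pow_two] at h1
      exact eq_inv_of_mul_eq_one_left h1
    rw [h3, mul_inv_rev, hainv, hyinv]

theorem backward_aux {G : Type*} [Group G] [Finite G] {D : Set G}
    (hconj : ∀ g : G, ∀ d ∈ D, g * d * g⁻¹ ∈ D)
    (H2 : ∀ a ∈ D, ∀ b ∈ D, b ≠ a → Commute a b → {y : G | y ∈ D ∧ Commute (a * b) y} =
      {y : G | y ∈ D ∧ Commute a y} ∩ {y : G | y ∈ D ∧ Commute b y})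
    (a u : G) (ha : a ∈ D) (hb : a * u ∈ D) (ha2 : a * a = 1) (h : a * u = u⁻¹ * a) :
    Odd (orderOf u) ∨ orderOf u = 2 := by
  by_cases hodd : Odd (orderOf u)
  · exact Or.inl hodd
  right
  rw [Nat.not_odd_iff_even] at hodd
  obtain ⟨m, hm⟩ := hodd
  have hpos : 0 < orderOf u := orderOf_pos _
  have hm0 : 0 < m := by omega
  have hum : u ^ m ≠ 1 := by
    intro h
    have := orderOf_dvd_of_pow_eq_one h
    have := Nat.le_of_dvd hm0 this
    omega
  have hu2m : u ^ m * u ^ m = 1 := by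
    rw [← pow_add, ← hm]; exact pow_orderOf_eq_one _
  have huminv : (u ^ m)⁻¹ = u ^ m := inv_eq_of_mul_eq_one_right hu2m
  have hcD : a * u ^ m ∈ D := by
    rcases Nat.even_or_odd' m with ⟨j, hj | hj⟩
    · rw [hj, conj_even a u h j]; exact hconj _ a ha
    · rw [hj, conj_odd a u h j]; exact hconj _ _ hb
  have hca : a * u ^ m ≠ a := by
    intro h'
    apply hum
    exact mul_left_cancel (h'.trans (mul_one a).symm)
  have hcomm : Commute a (a * u ^ m) := by
    show a * (a * u ^ m) = a * u ^ m * a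
    calc a * (a * u ^ m) = u ^ m := by rw [← mul_assoc, ha2, one_mul]
      _ = (u ^ m)⁻¹ * (a * a) := by rw [ha2, mul_one, huminv]
      _ = a * u ^ m * a := by rw [pow_rel a u h m, mul_assoc]
  have hset := H2 a ha _ hcD hca hcomm
  have hac : a * (a * u ^ m) = u ^ m := by rw [← mul_assoc, ha2, one_mul]
  rw [hac] at hset
  have hbu : Commute (u ^ m) (a * u) := by
    show u ^ m * (a * u) = a * u * u ^ m
    have h1 : u ^ m * a = a * u ^ m := by rw [pow_rel a u h m, huminv]
    rw [← mul_assoc, h1, mul_assoc, mul_assoc, ← pow_succ, ← pow_succ']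
  have hbmem : a * u ∈ {y : G | y ∈ D ∧ Commute (u ^ m) y} := ⟨hb, hbu⟩
  rw [hset] at hbmem
  have hab : a * (a * u) = a * u * a := hbmem.1.2
  have h2 : u ^ 2 = 1 := by
    rw [← mul_assoc, ha2, one_mul, h, mul_assoc, ha2, mul_one] at hab
    rw [pow_two]
    nth_rewrite 1 [hab]
    exact inv_mul_cancel u
  have h3 : orderOf u ∣ 2 := orderOf_dvd_of_pow_eq_one h2
  rcases (Nat.dvd_prime Nat.prime_two).mp h3 with h | h
  · omega
  · exact h

theorem backward {G : Type*} [Group G] [Finite G] {D : Set G} (hinv : ∀ d ∈ D, orderOf d = 2)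
    (hconj : ∀ g : G, ∀ d ∈ D, g * d * g⁻¹ ∈ D)
    (H2 : ∀ a ∈ D, ∀ b ∈ D, b ≠ a → Commute a b → {y : G | y ∈ D ∧ Commute (a * b) y} =
      {y : G | y ∈ D ∧ Commute a y} ∩ {y : G | y ∈ D ∧ Commute b y})
    (a : G) (ha : a ∈ D) (b : G) (hb : b ∈ D) : Odd (orderOf (a * b)) ∨ orderOf (a * b) = 2 := by
  have ha2 : a * a = 1 := sq_one_of_order_two (hinv a ha)
  have hb2 : b * b = 1 := sq_one_of_order_two (hinv b hb)
  have hainv : a⁻¹ = a := inv_eq_of_mul_eq_one_right ha2
  have hbinv : b⁻¹ = b := inv_eq_of_mul_eq_one_right hb2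
  have h1 : a * (a * b) = (a * b)⁻¹ * a := by
    rw [mul_inv_rev, hainv, hbinv, ← mul_assoc, ha2, one_mul, mul_assoc, ha2, mul_one]
  have hb' : a * (a * b) ∈ D := by rw [← mul_assoc, ha2, one_mul]; exact hb
  exact backward_aux hconj H2 a (a * b) ha hb' ha2 h1

/-- Let D be a conjugation-invariant set of involutions of a finite group G. Then every product of two members of D has odd order or order 2 if and only if, for every a in D and every b in D different from a and commuting with a, the members of D commuting with a b are exactly those commuting with both a and b. -/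
theorem result {G : Type*} [Group G] [Finite G] {D : Set G} (hinv : ∀ d ∈ D, orderOf d = 2) (hconj : ∀ g : G, ∀ d ∈ D, g * d * g⁻¹ ∈ D) : (∀ a ∈ D, ∀ b ∈ D, Odd (orderOf (a * b)) ∨ orderOf (a * b) = 2) ↔ ∀ a ∈ D, ∀ b ∈ D, b ≠ a → Commute a b → {y : G | y ∈ D ∧ Commute (a * b) y} = {y : G | y ∈ D ∧ Commute a y} ∩ {y : G | y ∈ D ∧ Commute b y} := by
  constructor
  · intro H1 a ha b hb hne hab
    ext y
    constructor
    · rintro ⟨hy, hc⟩
      have h1 : Commute a y := forward hinv H1 a ha b hb hne hab y hy hc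
      refine ⟨⟨hy, h1⟩, hy, ?_⟩
      have ha2 : a * a = 1 := sq_one_of_order_two (hinv a ha)
      have hb' : b = a * (a * b) := by rw [← mul_assoc, ha2, one_mul]
      rw [hb']
      exact h1.mul_left hc
    · rintro ⟨⟨hy, h1⟩, -, h2⟩
      exact ⟨hy, h1.mul_left h2⟩
  · intro H2 a ha b hb
    exact backward hinv hconj H2 a ha b hb

end Cfsg.Agent.S5363
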