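import Cfsg.Statements.S5365

import Cfsg.Agent.Lib.helper8.F5365a
import Cfsg.Agent.Lib.helper8.F5365c
import Cfsg.Agent.Lib.helper8.F5365e
set_option autoImplicit false
open Cfsg

namespace Cfsg.Agent.S5365

open Cfsg.Agent.Lib.helper8

/-- Let D be a non-empty conjugation-invariant set of involutions of a finite group G satisfying the 3-transposition order conditions, and suppose that for every d in D the members of D other than d commuting with d generate a subgroup isomorphic to the symmetric group of degree 3, and the largest normal 3-subgroup of the centralizer of d has order 3. Then the subgroup generated by D is isomorphic to the symmetric group of degree 5 or to the direct product of two symmetric groups of degree 3. -/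
theorem result {G : Type*} [Group G] [Finite G] {D : Set G} (hD : Cfsg.IsThreeTranspositionSet D) (hconj : ∀ g : G, ∀ d ∈ D, g * d * g⁻¹ ∈ D) (hne : D.Nonempty) (hloc : ∀ d ∈ D, Nonempty (↥(Subgroup.closure {y : G | y ∈ D ∧ y ≠ d ∧ Commute d y}) ≃* Equiv.Perm (Fin 3)) ∧ Nat.card (Cfsg.pCore 3 ↥(Subgroup.centralizer ({d} : Set G))) = 3) : Nonempty (↥(Subgroup.closure D) ≃* Equiv.Perm (Fin 5)) ∨ Nonempty (↥(Subgroup.closure D) ≃* Equiv.Perm (Fin 3) × Equiv.Perm (Fin 3)) := by

    classical
    have hL1 : ∀ d ∈ D, ∀ y ∈ ttDc D d, ∀ y' ∈ ttDc D d, y ≠ y' → ¬ Commute y y' := by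
      intro d hd y hy y' hy' hne'
      obtain ⟨ψ⟩ := (hloc d hd).1
      exact h8f_L1 hD ψ hy hy' hne'
    have hL2 : ∀ d ∈ D, ∀ y ∈ ttDc D d, ∀ y' ∈ ttDc D d, ∀ w ∈ ttDc D d, y ≠ y' →
        w = y ∨ w = y' ∨ w = y * y' * y := by
      intro d hd y hy y' hy' w hw hne'
      obtain ⟨ψ⟩ := (hloc d hd).1
      exact h8f_L2 hD ψ hy hy' hw hne'
    have hL3 : ∀ d ∈ D, ∃ y ∈ ttDc D d, ∃ y' ∈ ttDc D d, y ≠ y' := by
      intro d hd
      obtain ⟨ψ⟩ := (hloc d hd).1
      exact h8f_L3 ψ
    have hcl : ∀ g d : G, d ∈ D → g * d * g⁻¹ ∈ D := hconj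
    by_cases hB : ∃ d ∈ D, h8f_B D d
    · obtain ⟨d, hd, hBd⟩ := hB
      left
      exact h8f_caseB hD hcl hL1 hL2 hL3 hd hBd
    · push Not at hB
      have hA : ∀ d ∈ D, h8f_A D d := by
        intro d hd
        rcases h8f_dich hL1 hL2 hd with h | h
        · exact h
        · exact absurd h (hB d hd)
      obtain ⟨d0, hd0⟩ := hne
      right
      exact h8f_caseA hD hcl hL1 hL2 hL3 hA (fun d hd => (hloc d hd).2)
        (fun d hd => (hloc d hd).1) hd0

end Cfsg.Agent.S5365
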