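import Cfsg.Statements.S5366
-- import your own Cfsg.Agent.* helpers here

set_option autoImplicit false
open Cfsg

namespace Cfsg.Agent.S5366

section fischer

open Cfsg Cfsg.LineSystem

variable {X : Type*}

/-- Collinearity with an explicit third point. -/
def Col3 (L : Set (Set X)) (x y : X) : Prop :=
  ∃ z : X, z ≠ x ∧ z ≠ y ∧ x ≠ y ∧ ({x, y, z} : Set X) ∈ L

theorem lineMap_def (L : Set (Set X)) (x y : X) :
    lineMap L x y = (haveI := Classical.propDecidable
      if h : ∃ z : X, z ≠ x ∧ z ≠ y ∧ x ≠ y ∧ ({x, y, z} : Set X) ∈ L then h.choose else y) := rfl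

theorem line_eq {L : Set (Set X)} (h3 : ∀ l ∈ L, l.ncard = 3) {l : Set X} (hl : l ∈ L) {x y : X}
    (hx : x ∈ l) (hy : y ∈ l) (hxy : x ≠ y) : ∃ z, z ≠ x ∧ z ≠ y ∧ l = {x, y, z} := by
  have hsub : ({x, y} : Set X) ⊆ l := by
    intro w hw
    rcases hw with rfl | rfl
    · exact hx
    · exact hy
  have hc : (l \ {x, y}).ncard = 1 := by
    rw [Set.ncard_sdiff hsub (Set.toFinite _), h3 l hl, Set.ncard_pair hxy]
  obtain ⟨z, hz⟩ := Set.ncard_eq_one.1 hc
  have hzm : z ∈ l \ {x, y} := by rw [hz]; rfl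
  refine ⟨z, ?_, ?_, ?_⟩
  · intro h; exact hzm.2 (by rw [h]; exact Set.mem_insert _ _)
  · intro h; exact hzm.2 (by rw [h]; exact Set.mem_insert_of_mem _ rfl)
  · ext w
    constructor
    · intro hw
      by_cases h1 : w = x
      · rw [h1]; exact Set.mem_insert _ _
      by_cases h2 : w = y
      · rw [h2]; exact Set.mem_insert_of_mem _ (Set.mem_insert _ _)
      have hw' : w ∈ l \ {x, y} := ⟨hw, by
        intro h
        rcases h with h | h
        · exact h1 h
        · exact h2 h⟩
      rw [hz] at hw'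
      rw [Set.mem_singleton_iff.1 hw']
      exact Set.mem_insert_of_mem _ (Set.mem_insert_of_mem _ rfl)
    · intro hw
      rcases hw with rfl | rfl | rfl
      · exact hx
      · exact hy
      · exact hzm.1

theorem lineMap_eq {L : Set (Set X)} (hPL : IsPartialLinear L) {x y z : X} (hxy : x ≠ y)
    (hzx : z ≠ x) (hzy : z ≠ y) (hl : ({x, y, z} : Set X) ∈ L) : lineMap L x y = z := by
  have hex : ∃ z' : X, z' ≠ x ∧ z' ≠ y ∧ x ≠ y ∧ ({x, y, z'} : Set X) ∈ L :=
    ⟨z, hzx, hzy, hxy, hl⟩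
  rw [lineMap_def, dif_pos hex]
  obtain ⟨h1, h2, -, h4⟩ := hex.choose_spec
  have heq := hPL _ hl _ h4 x y hxy (Set.mem_insert _ _)
    (Set.mem_insert_of_mem _ (Set.mem_insert _ _)) (Set.mem_insert _ _)
    (Set.mem_insert_of_mem _ (Set.mem_insert _ _))
  have hmem : hex.choose ∈ ({x, y, z} : Set X) := by
    rw [heq]; exact Set.mem_insert_of_mem _ (Set.mem_insert_of_mem _ rfl)
  rcases hmem with h | h | h
  · exact absurd h h1
  · exact absurd h h2
  · exact h

theorem lineMap_not {L : Set (Set X)} {x y : X} (h : ¬ Col3 L x y) : lineMap L x y = y := by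
  have h' : ¬ ∃ z : X, z ≠ x ∧ z ≠ y ∧ x ≠ y ∧ ({x, y, z} : Set X) ∈ L := h
  rw [lineMap_def, dif_neg h']

theorem col3_of_line {L : Set (Set X)} (h3 : ∀ l ∈ L, l.ncard = 3) {l : Set X} (hl : l ∈ L)
    {x y : X} (hx : x ∈ l) (hy : y ∈ l) (hxy : x ≠ y) : Col3 L x y := by
  obtain ⟨z, hzx, hzy, rfl⟩ := line_eq h3 hl hx hy hxy
  exact ⟨z, hzx, hzy, hxy, hl⟩

theorem lineMap_invol {L : Set (Set X)} (hPL : IsPartialLinear L) (x y : X) :
    lineMap L x (lineMap L x y) = y := by
  by_cases h : Col3 L x y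
  · obtain ⟨z, hzx, hzy, hxy, hl⟩ := h
    rw [lineMap_eq hPL hxy hzx hzy hl]
    have hl' : ({x, z, y} : Set X) ∈ L := by rw [Set.pair_comm z y]; exact hl
    exact lineMap_eq hPL hzx.symm hxy.symm hzy.symm hl'
  · rw [lineMap_not h, lineMap_not h]

theorem lineMap_self (L : Set (Set X)) (x : X) : lineMap L x x = x :=
  lineMap_not (fun ⟨_, _, _, h, _⟩ => h rfl)

theorem lineMap_inj {L : Set (Set X)} (hPL : IsPartialLinear L) (x : X) :
    Function.Injective (lineMap L x) := by
  intro a b h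
  rw [← lineMap_invol hPL x a, h, lineMap_invol hPL x b]

noncomputable def tperm (L : Set (Set X)) (hPL : IsPartialLinear L) (x : X) : Equiv.Perm X :=
  Function.Involutive.toPerm (lineMap L x) (lineMap_invol hPL x)

theorem tperm_sq (L : Set (Set X)) (hPL : IsPartialLinear L) (x : X) :
    tperm L hPL x * tperm L hPL x = 1 :=
  Equiv.ext (fun y => lineMap_invol hPL x y)

theorem exists_ne_mem {L : Set (Set X)} (h3 : ∀ l ∈ L, l.ncard = 3) {l : Set X} (hl : l ∈ L)
    (x : X) : ∃ y ∈ l, y ≠ x := by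
  by_contra h
  push Not at h
  have hsub : l ⊆ {x} := fun w hw => h w hw
  have h1 := Set.ncard_le_ncard hsub (Set.finite_singleton x)
  rw [h3 l hl, Set.ncard_singleton] at h1
  omega

theorem image_through {L : Set (Set X)} (hPL : IsPartialLinear L) (h3 : ∀ l ∈ L, l.ncard = 3)
    {l : Set X} (hl : l ∈ L) {x : X} (hx : x ∈ l) : lineMap L x '' l = l := by
  obtain ⟨y, hy, hyx⟩ := exists_ne_mem h3 hl x
  obtain ⟨z, hzx, hzy, rfl⟩ := line_eq h3 hl hx hy hyx.symm
  have e1 : lineMap L x y = z := lineMap_eq hPL hyx.symm hzx hzy hl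
  have hl' : ({x, z, y} : Set X) ∈ L := by rw [Set.pair_comm z y]; exact hl
  have e2 : lineMap L x z = y := lineMap_eq hPL hzx.symm hyx hzy.symm hl'
  rw [Set.image_insert_eq, Set.image_pair, lineMap_self, e1, e2, Set.pair_comm z y]

theorem span_subspace (L : Set (Set X)) (S : Set X) : IsSubspace L (span L S) := by
  intro l hl x hx y hy hxy hxl hyl w hw T hT
  exact hT.2 l hl x (hx T hT) y (hy T hT) hxy hxl hyl hw

theorem subset_span (L : Set (Set X)) (S : Set X) : S ⊆ span L S :=
  fun _ hx _ hT => hT.1 hx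

theorem transfer {L : Set (Set X)} (hPL : IsPartialLinear L) (h3 : ∀ l ∈ L, l.ncard = 3)
    {π : Set X} (hπ : IsSubspace L π) {P : Type*} {M : Set (Set P)} (e : ↥π ≃ P)
    (he : IsIso (restrict L π) M e)
    (hM : ∀ p : P, ∀ m ∈ M, ∃ m' ∈ M, ∀ q ∈ m, (¬ Collinear M p q → q ∈ m') ∧
      ∀ r, r ≠ p → r ≠ q → ({p, q, r} : Set P) ∈ M → r ∈ m')
    {x : X} (hx : x ∈ π) {l : Set X} (hl : l ∈ L) (hlπ : l ⊆ π) :
    ∃ l' ∈ L, lineMap L x '' l ⊆ l' := by
  have hres : ∀ lam ∈ L, lam ⊆ π → e '' {u : ↥π | (u : X) ∈ lam} ∈ M := by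
    intro lam hlam hlamπ
    exact (he _).1 ⟨lam, hlam, hlamπ, rfl⟩
  obtain ⟨m', hm', hprop⟩ := hM (e ⟨x, hx⟩) _ (hres l hl hlπ)
  have hback : e.symm '' m' ∈ restrict L π :=
    (he _).2 (by rw [Equiv.image_symm_image]; exact hm')
  obtain ⟨l', hl', hl'π, hl'eq⟩ := hback
  refine ⟨l', hl', ?_⟩
  rintro _ ⟨u, hu, rfl⟩
  have huπ : u ∈ π := hlπ hu
  have hq : e ⟨u, huπ⟩ ∈ e '' {v : ↥π | (v : X) ∈ l} := ⟨⟨u, huπ⟩, hu, rfl⟩
  obtain ⟨hA, hB⟩ := hprop _ hq
  have hin : ∀ w : ↥π, e w ∈ m' → (w : X) ∈ l' := by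
    intro w hw
    have h1 : w ∈ e.symm '' m' := ⟨e w, hw, e.symm_apply_apply w⟩
    rw [hl'eq] at h1
    exact h1
  by_cases hcol : Col3 L x u
  · obtain ⟨w, hwx, hwu, hxu, hline⟩ := hcol
    rw [lineMap_eq hPL hxu hwx hwu hline]
    have hsub : ({x, u, w} : Set X) ⊆ π := hπ _ hline x hx u huπ hxu (Set.mem_insert _ _)
      (Set.mem_insert_of_mem _ (Set.mem_insert _ _))
    have hwπ : w ∈ π := hsub (Set.mem_insert_of_mem _ (Set.mem_insert_of_mem _ rfl))
    have him := hres _ hline hsub
    have hset : e '' {v : ↥π | (v : X) ∈ ({x, u, w} : Set X)}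
        = {e ⟨x, hx⟩, e ⟨u, huπ⟩, e ⟨w, hwπ⟩} := by
      have hs : {v : ↥π | (v : X) ∈ ({x, u, w} : Set X)}
          = {(⟨x, hx⟩ : ↥π), ⟨u, huπ⟩, ⟨w, hwπ⟩} := by
        ext v
        constructor
        · intro hv
          rcases hv with h | h | h
          · left; exact Subtype.ext h
          · right; left; exact Subtype.ext h
          · right; right; exact Subtype.ext h
        · intro hv
          rcases hv with rfl | rfl | rfl
          · exact Set.mem_insert _ _
          · exact Set.mem_insert_of_mem _ (Set.mem_insert _ _)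
          · exact Set.mem_insert_of_mem _ (Set.mem_insert_of_mem _ rfl)
      rw [hs, Set.image_insert_eq, Set.image_pair]
    rw [hset] at him
    have hr := hB (e ⟨w, hwπ⟩) (fun h => hwx (congrArg Subtype.val (e.injective h)))
      (fun h => hwu (congrArg Subtype.val (e.injective h))) him
    exact hin ⟨w, hwπ⟩ hr
  · rw [lineMap_not hcol]
    have hnc : ¬ Collinear M (e ⟨x, hx⟩) (e ⟨u, huπ⟩) := by
      rintro ⟨hne, n, hn, hpn, hqn⟩
      apply hcol
      have hback' : e.symm '' n ∈ restrict L π :=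
        (he _).2 (by rw [Equiv.image_symm_image]; exact hn)
      obtain ⟨lam, hlam, hlamπ, hlameq⟩ := hback'
      have hxlam : x ∈ lam := by
        have h1 : (⟨x, hx⟩ : ↥π) ∈ e.symm '' n := ⟨_, hpn, e.symm_apply_apply _⟩
        rw [hlameq] at h1
        exact h1
      have hulam : u ∈ lam := by
        have h1 : (⟨u, huπ⟩ : ↥π) ∈ e.symm '' n := ⟨_, hqn, e.symm_apply_apply _⟩
        rw [hlameq] at h1
        exact h1
      have hxu : x ≠ u := by
        rintro rfl
        exact hne rfl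
      exact col3_of_line h3 hlam hxlam hulam hxu
    exact hin ⟨u, huπ⟩ (hA hnc)

set_option maxRecDepth 100000 in
set_option synthInstance.maxSize 100000 in
set_option synthInstance.maxHeartbeats 0 in
set_option maxHeartbeats 0 in
theorem dual_core : ∀ p : DualAffinePoint, ∀ i : Fin 4, ∃ j : Fin 4,
    (∀ q : DualAffinePoint, i ∉ q.val →
      (¬ (p ≠ q ∧ ∃ k : Fin 4, k ∉ p.val ∧ k ∉ q.val) → j ∉ q.val)) ∧
    (∀ q : DualAffinePoint, i ∉ q.val → ∀ r : DualAffinePoint, r ≠ p → r ≠ q →
      (∃ k : Fin 4, ∀ s : DualAffinePoint, (s = p ∨ s = q ∨ s = r) ↔ k ∉ s.val) →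
        j ∉ r.val) := by
  decide

theorem dual_model : ∀ p : DualAffinePoint, ∀ m ∈ dualAffinePlaneTwo,
    ∃ m' ∈ dualAffinePlaneTwo, ∀ q ∈ m, (¬ Collinear dualAffinePlaneTwo p q → q ∈ m') ∧
      ∀ r, r ≠ p → r ≠ q → ({p, q, r} : Set DualAffinePoint) ∈ dualAffinePlaneTwo → r ∈ m' := by
  rintro p m ⟨i, rfl⟩
  obtain ⟨j, hj1, hj2⟩ := dual_core p i
  refine ⟨{s | j ∉ s.val}, ⟨j, rfl⟩, ?_⟩
  intro q hq
  constructor
  · intro hnc
    apply hj1 q hq
    rintro ⟨hne, k, hkp, hkq⟩
    exact hnc ⟨hne, {s | k ∉ s.val}, ⟨k, rfl⟩, hkp, hkq⟩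
  · intro r hrp hrq hline
    obtain ⟨k, hk⟩ := hline
    apply hj2 q hq r hrp hrq
    exact ⟨k, fun s => Set.ext_iff.1 hk s⟩

theorem affine_model : ∀ p : Fin 2 → ZMod 3, ∀ m ∈ affinePlaneThree,
    ∃ m' ∈ affinePlaneThree, ∀ q ∈ m, (¬ Collinear affinePlaneThree p q → q ∈ m') ∧
      ∀ r, r ≠ p → r ≠ q → ({p, q, r} : Set (Fin 2 → ZMod 3)) ∈ affinePlaneThree → r ∈ m' := by
  have h3 : ∀ a : Fin 2 → ZMod 3, a + a + a = 0 := by
    intro a
    funext i
    have h : ∀ t : ZMod 3, t + t + t = 0 := by decide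
    exact h (a i)
  have hsum : ∀ a b c : ZMod 3, a ≠ b → a ≠ c → b ≠ c → a + b + c = 0 := by decide
  have hother : ∀ a d : ZMod 3, ∃ e : ZMod 3, e ≠ a ∧ e ≠ d := by decide
  rintro p m ⟨v, w, hw, rfl⟩
  refine ⟨{y | ∃ c : ZMod 3, y = (-p - v) + c • (-w)}, ⟨-p - v, -w, neg_ne_zero.2 hw, rfl⟩, ?_⟩
  rintro q ⟨c, rfl⟩
  have h2 : (-p - v) + c • (-w) = -p - (v + c • w) := by rw [smul_neg]; abel
  constructor
  · intro hnc
    have hpq : p = v + c • w := by
      by_contra hne
      apply hnc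
      refine ⟨hne, {y | ∃ d : ZMod 3, y = p + d • ((v + c • w) - p)},
        ⟨p, (v + c • w) - p, sub_ne_zero.2 (Ne.symm hne), rfl⟩, ⟨0, by simp⟩, ⟨1, by simp⟩⟩
    refine ⟨c, ?_⟩
    rw [h2, ← hpq]
    have h4 : p + p + p = 0 := h3 p
    calc p = p + p + p - p - p := by abel
      _ = -p - p := by rw [h4]; abel
  · rintro r hrp hrq ⟨v', w', hw', hline⟩
    have hinj : ∀ a e : ZMod 3, v' + a • w' = v' + e • w' → a = e := by
      intro a e h
      have h1 : (a - e) • w' = 0 := by
        rw [sub_smul, sub_eq_zero]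
        exact add_left_cancel h
      by_contra hae
      have hne : a - e ≠ 0 := sub_ne_zero.2 hae
      have h5 : w' = 0 := by
        have := inv_smul_smul₀ hne w'
        rw [h1, smul_zero] at this
        exact this.symm
      exact hw' h5
    have hmem : ∀ y, y ∈ ({p, v + c • w, r} : Set (Fin 2 → ZMod 3)) ↔ ∃ d : ZMod 3, y = v' + d • w' :=
      fun y => Set.ext_iff.1 hline y
    obtain ⟨a, ha⟩ := (hmem p).1 (Set.mem_insert _ _)
    obtain ⟨b, hb⟩ := (hmem (v + c • w)).1 (Set.mem_insert_of_mem _ (Set.mem_insert _ _))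
    obtain ⟨d, hd⟩ := (hmem r).1 (Set.mem_insert_of_mem _ (Set.mem_insert_of_mem _ rfl))
    have had : a ≠ d := by
      rintro rfl
      exact hrp (hd.trans ha.symm)
    have hbd : b ≠ d := by
      rintro rfl
      exact hrq (hd.trans hb.symm)
    have hab : a ≠ b := by
      rintro rfl
      obtain ⟨e, hea, hed⟩ := hother a d
      have h5 := (hmem (v' + e • w')).2 ⟨e, rfl⟩
      rcases h5 with h | h | h
      · exact hea (hinj _ _ (h.trans ha))
      · exact hea (hinj _ _ (h.trans hb))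
      · exact hed (hinj _ _ (h.trans hd))
    have hs := hsum a b d hab had hbd
    have htot : p + (v + c • w) + r = 0 := by
      rw [ha, hb, hd]
      have : v' + a • w' + (v' + b • w') + (v' + d • w') = (v' + v' + v') + (a + b + d) • w' := by
        rw [add_smul, add_smul]; abel
      rw [this, h3 v', hs, zero_smul, add_zero]
    refine ⟨c, ?_⟩
    rw [h2]
    have : r = (p + (v + c • w) + r) - p - (v + c • w) := by abel
    rw [this, htot]; abel

theorem cube_of_braid {G : Type*} [Group G] (a b : G) (ha : a * a = 1) (hb : b * b = 1)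
    (h : a * b * a = b * a * b) : (a * b) ^ 3 = 1 := by
  have e : (a * b) ^ 3 = (a * b * a) * (b * a * b) := by
    rw [pow_succ, pow_two]; simp only [mul_assoc]
  rw [e, ← h]
  calc a * b * a * (a * b * a) = a * b * (a * a) * b * a := by simp only [mul_assoc]
    _ = a * (b * b) * a := by rw [ha, mul_one]; simp only [mul_assoc]
    _ = 1 := by rw [hb, mul_one, ha]

theorem sq_of_comm {G : Type*} [Group G] (a b : G) (hb : b * b = 1) (h : a * b * a = b) :
    (a * b) ^ 2 = 1 := by
  rw [pow_two]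
  calc a * b * (a * b) = (a * b * a) * b := by simp only [mul_assoc]
    _ = 1 := by rw [h, hb]

theorem main (L : Set (Set X)) (hL : IsFischerSpace L) (hnd : IsNondegenerate L) :
    (∀ x : X, ∃ σ : Equiv.Perm X, ⇑σ = lineMap L x ∧ orderOf σ = 2 ∧ IsIso L L σ) ∧
    IsThreeTranspositionSet {σ : Equiv.Perm X | ∃ x : X, ⇑σ = lineMap L x} := by
  obtain ⟨hPL, h3, hF⟩ := hL
  have himg : ∀ x : X, ∀ l ∈ L, lineMap L x '' l ∈ L := by
    intro x l hl
    by_cases hx : x ∈ l
    · rw [image_through hPL h3 hl hx]; exact hl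
    by_cases hex : ∃ y ∈ l, Col3 L x y
    · obtain ⟨y, hy, z, hzx, hzy, hxy, hk⟩ := hex
      have hkl : ({x, y, z} : Set X) ≠ l := by
        intro h
        apply hx
        rw [← h]; exact Set.mem_insert _ _
      have hne : (({x, y, z} : Set X) ∩ l).Nonempty :=
        ⟨y, Set.mem_insert_of_mem _ (Set.mem_insert _ _), hy⟩
      have hπ := span_subspace L (({x, y, z} : Set X) ∪ l)
      have hsub := subset_span L (({x, y, z} : Set X) ∪ l)
      have hxπ : x ∈ span L (({x, y, z} : Set X) ∪ l) := hsub (Or.inl (Set.mem_insert _ _))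
      have hlπ : l ⊆ span L (({x, y, z} : Set X) ∪ l) := fun w hw => hsub (Or.inr hw)
      have key : ∃ l' ∈ L, lineMap L x '' l ⊆ l' := by
        rcases hF _ hk l hl hkl hne with ⟨e, he⟩ | ⟨e, he⟩
        · exact transfer hPL h3 hπ e he dual_model hxπ hl hlπ
        · exact transfer hPL h3 hπ e he affine_model hxπ hl hlπ
      obtain ⟨l', hl', hsubl⟩ := key
      have heq : lineMap L x '' l = l' :=
        Set.eq_of_subset_of_ncard_le hsubl
          (by rw [Set.ncard_image_of_injective _ (lineMap_inj hPL x), h3 l hl, h3 l' hl'])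
          (Set.finite_of_ncard_ne_zero (by rw [h3 l' hl']; norm_num))
      rw [heq]; exact hl'
    · push Not at hex
      have : lineMap L x '' l = l := by
        ext w
        constructor
        · rintro ⟨u, hu, rfl⟩
          rw [lineMap_not (hex u hu)]; exact hu
        · intro hw
          exact ⟨w, hw, lineMap_not (hex w hw)⟩
      rw [this]; exact hl
  have hiso : ∀ x : X, IsIso L L (tperm L hPL x) := by
    intro x l
    constructor
    · intro hl
      exact himg x l hl
    · intro hl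
      have h1 := himg x _ hl
      have h2 : lineMap L x '' (tperm L hPL x '' l) = l := by
        ext w
        constructor
        · rintro ⟨_, ⟨u, hu, rfl⟩, rfl⟩
          show lineMap L x (lineMap L x u) ∈ l
          rw [lineMap_invol hPL]; exact hu
        · intro hw
          exact ⟨lineMap L x w, ⟨w, hw, rfl⟩, lineMap_invol hPL x w⟩
      rw [h2] at h1
      exact h1
  have hord : ∀ x : X, orderOf (tperm L hPL x) = 2 := by
    intro x
    apply orderOf_eq_prime
    · rw [pow_two]; exact tperm_sq L hPL x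
    · intro h1
      obtain ⟨l, hl, hxl⟩ := hnd x
      obtain ⟨y, hy, hyx⟩ := exists_ne_mem h3 hl x
      obtain ⟨z, hzx, hzy, rfl⟩ := line_eq h3 hl hxl hy hyx.symm
      have e1 : lineMap L x y = z := lineMap_eq hPL hyx.symm hzx hzy hl
      have e2 : tperm L hPL x y = y := by rw [h1]; rfl
      exact hzy (e1.symm.trans e2)
  have hconj : ∀ x y u : X,
      lineMap L (lineMap L x y) (lineMap L x u) = lineMap L x (lineMap L y u) := by
    intro x y u
    have hinj := lineMap_inj hPL x
    by_cases hc : Col3 L y u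
    · obtain ⟨w, hwy, hwu, hyu, hline⟩ := hc
      rw [lineMap_eq hPL hyu hwy hwu hline]
      have him := himg x _ hline
      rw [Set.image_insert_eq, Set.image_pair] at him
      exact lineMap_eq hPL (fun h => hyu (hinj h)) (fun h => hwy (hinj h))
        (fun h => hwu (hinj h)) him
    · rw [lineMap_not hc]
      apply lineMap_not
      rintro ⟨w, hw1, hw2, hne, hline⟩
      apply hc
      have him := himg x _ hline
      rw [Set.image_insert_eq, Set.image_pair, lineMap_invol hPL x y, lineMap_invol hPL x u]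
        at him
      refine ⟨lineMap L x w, ?_, ?_, ?_, him⟩
      · intro h; apply hw1; rw [← h, lineMap_invol hPL]
      · intro h; apply hw2; rw [← h, lineMap_invol hPL]
      · intro h; apply hne; rw [h]
  have hc1 : ∀ a b : X,
      tperm L hPL a * tperm L hPL b * tperm L hPL a = tperm L hPL (lineMap L a b) := by
    intro a b
    ext u
    show lineMap L a (lineMap L b (lineMap L a u)) = lineMap L (lineMap L a b) u
    have h := hconj a b (lineMap L a u)
    rw [lineMap_invol hPL a u] at h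
    exact h.symm
  have hD : ∀ σ : Equiv.Perm X, ∀ x : X, ⇑σ = lineMap L x → σ = tperm L hPL x := by
    intro σ x hσ
    exact Equiv.ext (fun y => by rw [hσ]; rfl)
  refine ⟨fun x => ⟨tperm L hPL x, rfl, hord x, hiso x⟩, ?_, ?_⟩
  · rintro σ ⟨x, hσ⟩
    rw [hD σ x hσ]; exact hord x
  · rintro σ ⟨x, hσ⟩ τ ⟨y, hτ⟩
    rw [hD σ x hσ, hD τ y hτ]
    by_cases hc : Col3 L x y
    · right
      obtain ⟨z, hzx, hzy, hxy, hline⟩ := hc
      have h1 : lineMap L x y = z := lineMap_eq hPL hxy hzx hzy hline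
      have hline' : ({y, x, z} : Set X) ∈ L := by rw [Set.insert_comm]; exact hline
      have h2 : lineMap L y x = z := lineMap_eq hPL hxy.symm hzy hzx hline'
      have hA := hc1 x y
      have hB := hc1 y x
      rw [h1] at hA
      rw [h2] at hB
      exact cube_of_braid _ _ (tperm_sq L hPL x) (tperm_sq L hPL y) (hA.trans hB.symm)
    · left
      have h1 : lineMap L x y = y := lineMap_not hc
      have hA := hc1 x y
      rw [h1] at hA
      exact sq_of_comm _ _ (tperm_sq L hPL y) hA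

end fischer

/-- Let L be a nondegenerate Fischer space on the point type X (every point on a line). Then for every point x the map t(x) — sending a point collinear with x to the third point of their common line and fixing every other point — is a permutation of X of order 2 and an automorphism of the line system; and the set of all t(x) satisfies the 3-transposition order conditions in the permutation group of X (any two have product of order at most 3). -/
theorem result {X : Type*} (L : Set (Set X)) (hL : Cfsg.IsFischerSpace L) (hnd : Cfsg.LineSystem.IsNondegenerate L) : (∀ x : X, ∃ σ : Equiv.Perm X, ⇑σ = Cfsg.LineSystem.lineMap L x ∧ orderOf σ = 2 ∧ Cfsg.LineSystem.IsIso L L σ) ∧ Cfsg.IsThreeTranspositionSet {σ : Equiv.Perm X | ∃ x : X, ⇑σ = Cfsg.LineSystem.lineMap L x} := by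
  exact main L hL hnd

end Cfsg.Agent.S5366
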