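import Cfsg.Statements.S5367
-- import your own Cfsg.Agent.* helpers here
import Cfsg.Agent.S5366
import Cfsg.Agent.Lib.helper1.Quat
import Cfsg.Agent.Lib.helper26.OrderP3

set_option autoImplicit false
open Cfsg

namespace Cfsg.Agent.S5367

section basics3

open Cfsg Cfsg.LineSystem

variable {G : Type*} [Group G] {D : Set G}

theorem inv_of_mem (hD : IsThreeTranspositionSet D) {d : G} (hd : d ∈ D) :
    d * d = 1 ∧ d⁻¹ = d := by
  have h2 : d ^ 2 = 1 := by rw [← hD.1 d hd]; exact pow_orderOf_eq_one d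
  rw [pow_two] at h2
  exact ⟨h2, inv_eq_of_mul_eq_one_left h2⟩

theorem braid_of_mem (hD : IsThreeTranspositionSet D) {d e : G} (hd : d ∈ D) (he : e ∈ D)
    (hne : ¬ Commute d e) : d * e * d = e * d * e ∧ d * e * (d * e) * (d * e) = 1 := by
  obtain ⟨hd2, hdi⟩ := inv_of_mem hD hd
  obtain ⟨he2, hei⟩ := inv_of_mem hD he
  rcases hD.2 d hd e he with h | h
  · exfalso
    apply hne
    rw [pow_two] at h
    have : d * e = e * d := by
      calc d * e = (d * e * (d * e)) * (e⁻¹ * d⁻¹) := by group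
        _ = e * d := by rw [h, one_mul, hei, hdi]
    exact this
  · have h' : d * e * (d * e) * (d * e) = 1 := by rw [← h, pow_succ, pow_two]
    refine ⟨?_, h'⟩
    calc d * e * d = (d * e * (d * e) * (d * e)) * (e⁻¹ * d⁻¹ * e⁻¹) := by group
      _ = e * d * e := by rw [h', one_mul, hei, hdi]

/-- `z` is one of the three points of the line through `x` and `y`. -/
def Tri (x y z : G) : Prop := z = x ∨ z = y ∨ z = y * x * y⁻¹

theorem tri_swap (hD : IsThreeTranspositionSet D) {x y : G} (hx : x ∈ D) (hy : y ∈ D)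
    (hne : ¬ Commute x y) (z : G) : Tri y x z ↔ Tri x y z := by
  obtain ⟨hx2, hxi⟩ := inv_of_mem hD hx
  obtain ⟨hy2, hyi⟩ := inv_of_mem hD hy
  obtain ⟨hbr, -⟩ := braid_of_mem hD hx hy hne
  have h : x * y * x⁻¹ = y * x * y⁻¹ := by rw [hxi, hyi, hbr]
  unfold Tri
  rw [h]
  tauto

theorem tri_move (hD : IsThreeTranspositionSet D) {x y : G} (hx : x ∈ D) (hy : y ∈ D)
    (hne : ¬ Commute x y) :
    ¬ Commute x (y * x * y⁻¹) ∧ ∀ z : G, Tri x (y * x * y⁻¹) z ↔ Tri x y z := by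
  obtain ⟨hx2, hxi⟩ := inv_of_mem hD hx
  obtain ⟨hy2, hyi⟩ := inv_of_mem hD hy
  obtain ⟨hbr, -⟩ := braid_of_mem hD hx hy hne
  have hxy : x ≠ y := fun h => hne (h ▸ Commute.refl x)
  have hkey : (y * x * y⁻¹) * x * (y * x * y⁻¹)⁻¹ = y := by
    rw [hyi]
    have hinv : (y * x * y)⁻¹ = y * x * y := by
      rw [mul_inv_rev, mul_inv_rev, hyi, hxi, mul_assoc]
    rw [hinv]
    calc y * x * y * x * (y * x * y) = y * (x * y * x) * (y * x * y) := by simp only [mul_assoc]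
      _ = y * (y * x * y) * (y * x * y) := by rw [hbr]
      _ = (y * y) * x * (y * y) * x * y := by simp only [mul_assoc]
      _ = x * x * y := by rw [hy2, one_mul, mul_one]
      _ = y := by rw [hx2, one_mul]
  constructor
  · intro hc
    apply hxy
    have h1 : (y * x * y⁻¹) * x * (y * x * y⁻¹)⁻¹ = x := by
      rw [← hc.eq]; group
    rw [hkey] at h1
    exact h1.symm
  · intro z
    unfold Tri
    rw [hkey]
    tauto

theorem tri_any (hD : IsThreeTranspositionSet D) (hconj : ∀ g : G, ∀ d ∈ D, g * d * g⁻¹ ∈ D)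
    {x y : G} (hx : x ∈ D) (hy : y ∈ D) (hne : ¬ Commute x y) {u v : G} (hu : Tri x y u)
    (hv : Tri x y v) (huv : u ≠ v) :
    u ∈ D ∧ v ∈ D ∧ ¬ Commute u v ∧ ∀ z : G, Tri u v z ↔ Tri x y z := by
  have ht : y * x * y⁻¹ ∈ D := hconj y x hx
  have hne' : ¬ Commute y x := fun h => hne h.symm
  obtain ⟨hm1, hm2⟩ := tri_move hD hx hy hne
  have hs := tri_swap hD hx hy hne
  obtain ⟨hx2, hxi⟩ := inv_of_mem hD hx
  obtain ⟨hy2, hyi⟩ := inv_of_mem hD hy
  obtain ⟨hbr, -⟩ := braid_of_mem hD hx hy hne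
  have hteq : x * y * x⁻¹ = y * x * y⁻¹ := by rw [hxi, hyi, hbr]
  obtain ⟨hm1', hm2'⟩ := tri_move hD hy hx hne'
  rw [hteq] at hm1' hm2'
  rcases hu with rfl | rfl | rfl <;> rcases hv with rfl | rfl | rfl
  · exact absurd rfl huv
  · exact ⟨hx, hy, hne, fun z => Iff.rfl⟩
  · exact ⟨hx, ht, hm1, hm2⟩
  · exact ⟨hy, hx, hne', hs⟩
  · exact absurd rfl huv
  · exact ⟨hy, ht, hm1', fun z => (hm2' z).trans (hs z)⟩
  · exact ⟨ht, hx, fun h => hm1 h.symm, fun z => (tri_swap hD hx ht hm1 z).trans (hm2 z)⟩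
  · exact ⟨ht, hy, fun h => hm1' h.symm,
      fun z => (tri_swap hD hy ht hm1' z).trans ((hm2' z).trans (hs z))⟩
  · exact absurd rfl huv

theorem lines_partial (hD : IsThreeTranspositionSet D)
    (hconj : ∀ g : G, ∀ d ∈ D, g * d * g⁻¹ ∈ D) :
    IsPartialLinear (threeTranspositionLines D) := by
  rintro l ⟨x, y, hne, rfl⟩ m ⟨x', y', hne', rfl⟩ p q hpq hpl hql hpm hqm
  have hpq' : (p : G) ≠ (q : G) := fun h => hpq (Subtype.ext h)
  obtain ⟨-, -, -, h1⟩ := tri_any hD hconj x.2 y.2 hne hpl hql hpq'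
  obtain ⟨-, -, -, h2⟩ := tri_any hD hconj x'.2 y'.2 hne' hpm hqm hpq'
  ext z
  exact ((h1 z).symm.trans (h2 z))

theorem lines_three (hD : IsThreeTranspositionSet D)
    (hconj : ∀ g : G, ∀ d ∈ D, g * d * g⁻¹ ∈ D) :
    ∀ l ∈ threeTranspositionLines D, l.ncard = 3 := by
  rintro l ⟨x, y, hne, rfl⟩
  have ht : (y : G) * x * (y : G)⁻¹ ∈ D := hconj y x x.2
  obtain ⟨hm1, -⟩ := tri_move hD x.2 y.2 hne
  have hxy : x ≠ y := by
    rintro rfl
    exact hne (Commute.refl _)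
  have hxt : x ≠ ⟨_, ht⟩ := by
    intro h
    apply hm1
    have h' : (x : G) = (y : G) * x * (y : G)⁻¹ := congrArg Subtype.val h
    rw [← h']
  have hyt : y ≠ ⟨_, ht⟩ := by
    intro h
    apply hxy
    have h' : (y : G) = (y : G) * x * (y : G)⁻¹ := congrArg Subtype.val h
    apply Subtype.ext
    calc (x : G) = (y : G)⁻¹ * ((y : G) * x * (y : G)⁻¹) * y := by group
      _ = (y : G)⁻¹ * y * y := by rw [← h']
      _ = y := by group
  rw [Set.ncard_eq_three]
  refine ⟨x, y, ⟨_, ht⟩, hxy, hxt, hyt, ?_⟩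
  ext z
  constructor
  · intro hz
    rcases hz with h | h | h
    · left; exact Subtype.ext h
    · right; left; exact Subtype.ext h
    · right; right; exact Subtype.ext h
  · intro hz
    rcases hz with rfl | rfl | rfl
    · left; rfl
    · right; left; rfl
    · right; right; rfl

theorem plane_iso (hD : IsThreeTranspositionSet D)
    (hconj : ∀ g : G, ∀ d ∈ D, g * d * g⁻¹ ∈ D)
    {I : Type} (pts : I → G) (hinj : Function.Injective pts) (hptsD : ∀ i, pts i ∈ D)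
    (tab : I → I → I) (htab : ∀ i j, pts i * pts j * (pts i)⁻¹ = pts (tab i j))
    {P : Type} (M : Set (Set P)) (φ : I ≃ P)
    (hM1 : ∀ i j, tab j i ≠ i → φ '' {i, j, tab j i} ∈ M)
    (hM2 : ∀ n ∈ M, ∃ i j, tab j i ≠ i ∧ n = φ '' {i, j, tab j i})
    (S : Set D) (hsub : ∀ d ∈ S, ∃ i, (d : G) = pts i)
    (hspan : ∀ i, (⟨pts i, hptsD i⟩ : D) ∈ span (threeTranspositionLines D) S) :
    Isomorphic (restrict (threeTranspositionLines D) (span (threeTranspositionLines D) S)) M := by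
  have hcomm : ∀ i j, Commute (pts i) (pts j) ↔ tab i j = j := by
    intro i j
    constructor
    · intro h
      apply hinj
      rw [← htab]
      calc pts i * pts j * (pts i)⁻¹ = pts j * pts i * (pts i)⁻¹ := by rw [h.eq]
        _ = pts j := by group
    · intro h
      have h1 := htab i j
      rw [h] at h1
      show pts i * pts j = pts j * pts i
      calc pts i * pts j = (pts i * pts j * (pts i)⁻¹) * pts i := by group
        _ = pts j * pts i := by rw [h1]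
  have hPi : IsSubspace (threeTranspositionLines D) {d : D | ∃ i, (d : G) = pts i} := by
    rintro lam ⟨x, y, hne, rfl⟩ p ⟨i, hi⟩ q ⟨j, hj⟩ hpq hpl hql z hz
    have hpq' : (p : G) ≠ (q : G) := fun h => hpq (Subtype.ext h)
    obtain ⟨-, -, hnc, hiff⟩ := tri_any hD hconj x.2 y.2 hne hpl hql hpq'
    have hz' : Tri (p : G) (q : G) (z : G) := (hiff z).2 hz
    rcases hz' with h | h | h
    · exact ⟨i, h.trans hi⟩
    · exact ⟨j, h.trans hj⟩
    · refine ⟨tab j i, ?_⟩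
      rw [h, hi, hj, htab]
  have hSig : ∀ d : D, d ∈ span (threeTranspositionLines D) S ↔ ∃ i, (d : G) = pts i := by
    intro d
    constructor
    · intro hd
      exact hd _ ⟨fun e he => hsub e he, hPi⟩
    · rintro ⟨i, hi⟩
      have e : d = ⟨pts i, hptsD i⟩ := Subtype.ext hi
      rw [e]; exact hspan i
  obtain ⟨ψ, hψ⟩ : ∃ ψ : I → ↥(span (threeTranspositionLines D) S),
      ∀ i, ((ψ i : D) : G) = pts i :=
    ⟨fun i => ⟨⟨pts i, hptsD i⟩, hspan i⟩, fun i => rfl⟩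
  have hψbij : Function.Bijective ψ := by
    constructor
    · intro i j h
      apply hinj
      rw [← hψ i, ← hψ j, h]
    · intro d
      obtain ⟨i, hi⟩ := (hSig d.1).1 d.2
      exact ⟨i, Subtype.ext (Subtype.ext ((hψ i).trans hi.symm))⟩
  have hset : ∀ i j, {p : ↥(span (threeTranspositionLines D) S) |
      Tri (pts i) (pts j) ((p : D) : G)} = ψ '' {i, j, tab j i} := by
    intro i j
    ext p
    constructor
    · intro hp
      rcases hp with h | h | h
      · exact ⟨i, Set.mem_insert _ _, Subtype.ext (Subtype.ext ((hψ i).trans h.symm))⟩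
      · exact ⟨j, Set.mem_insert_of_mem _ (Set.mem_insert _ _),
          Subtype.ext (Subtype.ext ((hψ j).trans h.symm))⟩
      · refine ⟨tab j i, Set.mem_insert_of_mem _ (Set.mem_insert_of_mem _ rfl),
          Subtype.ext (Subtype.ext ?_)⟩
        rw [hψ, h, htab]
    · rintro ⟨k, hk, rfl⟩
      rcases hk with rfl | rfl | rfl
      · left; exact hψ _
      · right; left; exact hψ _
      · right; right; rw [hψ, htab]
  obtain ⟨e, he⟩ : ∃ e : ↥(span (threeTranspositionLines D) S) ≃ P, ∀ k, e (ψ k) = φ k := by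
    refine ⟨(Equiv.ofBijective ψ hψbij).symm.trans φ, fun k => ?_⟩
    show φ ((Equiv.ofBijective ψ hψbij).symm (ψ k)) = φ k
    congr 1
    exact (Equiv.ofBijective ψ hψbij).symm_apply_apply k
  refine ⟨e, ?_⟩
  have himg : ∀ i j, e '' (ψ '' {i, j, tab j i}) = φ '' {i, j, tab j i} := by
    intro i j
    ext q
    constructor
    · rintro ⟨_, ⟨k, hk, rfl⟩, rfl⟩
      exact ⟨k, hk, (he k).symm⟩
    · rintro ⟨k, hk, rfl⟩
      exact ⟨ψ k, ⟨k, hk, rfl⟩, he k⟩
  intro n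
  constructor
  · rintro ⟨lam, ⟨x, y, hne, rfl⟩, hlamS, rfl⟩
    have hxl : x ∈ {z : D | (z : G) = x ∨ (z : G) = y ∨ (z : G) = y * x * (y : G)⁻¹} :=
      Or.inl rfl
    have hyl : y ∈ {z : D | (z : G) = x ∨ (z : G) = y ∨ (z : G) = y * x * (y : G)⁻¹} :=
      Or.inr (Or.inl rfl)
    obtain ⟨i, hi⟩ := (hSig x).1 (hlamS hxl)
    obtain ⟨j, hj⟩ := (hSig y).1 (hlamS hyl)
    have hne' : tab j i ≠ i := by
      intro h
      apply hne
      rw [hi, hj]
      exact ((hcomm j i).2 h).symm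
    have hn : {p : ↥(span (threeTranspositionLines D) S) | (p : D) ∈
        {z : D | (z : G) = x ∨ (z : G) = y ∨ (z : G) = y * x * (y : G)⁻¹}}
        = ψ '' {i, j, tab j i} := by
      rw [← hset i j, ← hi, ← hj]
      rfl
    rw [hn, himg]
    exact hM1 i j hne'
  · intro hn
    obtain ⟨i, j, hne, hij⟩ := hM2 _ hn
    have hn' : n = ψ '' {i, j, tab j i} := by
      have h1 : e '' n = e '' (ψ '' {i, j, tab j i}) := by rw [himg, hij]
      exact (Set.image_injective.2 e.injective) h1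
    have hnc : ¬ Commute (pts i) (pts j) := by
      intro h
      exact hne ((hcomm j i).1 h.symm)
    refine ⟨{z : D | (z : G) = pts i ∨ (z : G) = pts j ∨ (z : G) = pts j * pts i * (pts j)⁻¹},
      ⟨⟨pts i, hptsD i⟩, ⟨pts j, hptsD j⟩, hnc, rfl⟩, ?_, ?_⟩
    · intro z hz
      rw [hSig]
      rcases hz with h | h | h
      · exact ⟨i, h⟩
      · exact ⟨j, h⟩
      · exact ⟨tab j i, by rw [h, htab]⟩
    · rw [hn', ← hset i j]
      rfl

end basics3

section generic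

open Cfsg Cfsg.LineSystem

variable {G : Type*} [Group G] {D : Set G}

theorem conj_swap {g s t : G} (hg : g * g = 1) (h : g * s * g = t) : s = g * t * g := by
  calc s = (g * g) * s * (g * g) := by rw [hg, one_mul, mul_one]
    _ = g * (g * s * g) * g := by simp only [mul_assoc]
    _ = g * t * g := by rw [h]

theorem row_comp {I : Type} (pts : I → G) (tab : I → I → I) {g h k : I}
    (hginv : (pts g)⁻¹ = pts g)
    (hg : ∀ j, pts g * pts j * (pts g)⁻¹ = pts (tab g j))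
    (hh : ∀ j, pts h * pts j * (pts h)⁻¹ = pts (tab h j))
    (hk : pts k = pts g * pts h * (pts g)⁻¹) (j : I) :
    pts k * pts j * (pts k)⁻¹ = pts (tab g (tab h (tab g j))) := by
  rw [← hg, ← hh, ← hg, hk]
  have e : pts g * pts j * (pts g)⁻¹ = (pts g)⁻¹ * pts j * pts g := by rw [hginv]
  rw [e]
  group

theorem inj_of_base {I : Type} (pts : I → G) (tab : I → I → I)
    (htab : ∀ i j, pts i * pts j * (pts i)⁻¹ = pts (tab i j))
    (base : I → I → Prop) (hbase : ∀ r s, base r s → pts r ≠ pts s)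
    (hdec : ∀ p q : I, p ≠ q → ∃ m₁ m₂ : I,
      base (tab m₂ (tab m₁ p)) (tab m₂ (tab m₁ q)) ∨
      base (tab m₂ (tab m₁ q)) (tab m₂ (tab m₁ p))) :
    Function.Injective pts := by
  intro p q h
  by_contra hne
  obtain ⟨m₁, m₂, hb⟩ := hdec p q hne
  have e1 : pts (tab m₁ p) = pts (tab m₁ q) := by rw [← htab, ← htab, h]
  have e2 : pts (tab m₂ (tab m₁ p)) = pts (tab m₂ (tab m₁ q)) := by
    rw [← htab m₂, ← htab m₂, e1]
  rcases hb with hb | hb
  · exact hbase _ _ hb e2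
  · exact hbase _ _ hb e2.symm

theorem span_tab {I : Type} (pts : I → G) (hinj : Function.Injective pts)
    (hptsD : ∀ i, pts i ∈ D) (tab : I → I → I)
    (htab : ∀ i j, pts i * pts j * (pts i)⁻¹ = pts (tab i j)) (S : Set D) {i j : I}
    (hne : tab j i ≠ i)
    (hi : (⟨pts i, hptsD i⟩ : D) ∈ span (threeTranspositionLines D) S)
    (hj : (⟨pts j, hptsD j⟩ : D) ∈ span (threeTranspositionLines D) S) :
    (⟨pts (tab j i), hptsD (tab j i)⟩ : D) ∈ span (threeTranspositionLines D) S := by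
  have hnc : ¬ Commute (pts i) (pts j) := by
    intro h
    apply hne
    apply hinj
    rw [← htab]
    calc pts j * pts i * (pts j)⁻¹ = pts i * pts j * (pts j)⁻¹ := by rw [h.eq]
      _ = pts i := by group
  have hij : (⟨pts i, hptsD i⟩ : D) ≠ ⟨pts j, hptsD j⟩ := by
    intro h
    apply hnc
    have h' : pts i = pts j := congrArg Subtype.val h
    rw [h']
  have hlam : {z : D | (z : G) = pts i ∨ (z : G) = pts j ∨ (z : G) = pts j * pts i * (pts j)⁻¹} ∈
      threeTranspositionLines D := ⟨⟨pts i, hptsD i⟩, ⟨pts j, hptsD j⟩, hnc, rfl⟩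
  exact S5366.span_subspace _ S _ hlam _ hi _ hj hij (Or.inl rfl) (Or.inr (Or.inl rfl))
    (Or.inr (Or.inr (htab j i).symm))

end generic

section caseA

open Cfsg Cfsg.LineSystem

variable {G : Type*} [Group G] {D : Set G}

/-- The six points of the dual affine plane inside a quotient of `S₄`. -/
def ptsA (a x b : G) (i : Fin 6) : G :=
  match i.val with
  | 0 => a
  | 1 => x * a * x
  | 2 => a * (x * b * x) * a
  | 3 => x
  | 4 => x * b * x
  | _ => b

def tab6 (i j : Fin 6) : Fin 6 :=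
  match i.val, j.val with
  | 0, 0 => 0 | 0, 1 => 3 | 0, 2 => 4 | 0, 3 => 1 | 0, 4 => 2 | 0, 5 => 5
  | 1, 0 => 3 | 1, 1 => 1 | 1, 2 => 5 | 1, 3 => 0 | 1, 4 => 4 | 1, 5 => 2
  | 2, 0 => 4 | 2, 1 => 5 | 2, 2 => 2 | 2, 3 => 3 | 2, 4 => 0 | 2, 5 => 1
  | 3, 0 => 1 | 3, 1 => 0 | 3, 2 => 2 | 3, 3 => 3 | 3, 4 => 5 | 3, 5 => 4
  | 4, 0 => 2 | 4, 1 => 1 | 4, 2 => 0 | 4, 3 => 5 | 4, 4 => 4 | 4, 5 => 3
  | 5, 0 => 0 | 5, 1 => 2 | 5, 2 => 1 | 5, 3 => 4 | 5, 4 => 3 | 5, 5 => 5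
  | _, _ => 0

def f6 (i : Fin 6) : DualAffinePoint :=
  match i.val with
  | 0 => ⟨{0, 1}, by decide⟩
  | 1 => ⟨{0, 2}, by decide⟩
  | 2 => ⟨{0, 3}, by decide⟩
  | 3 => ⟨{1, 2}, by decide⟩
  | 4 => ⟨{1, 3}, by decide⟩
  | _ => ⟨{2, 3}, by decide⟩

set_option maxRecDepth 100000 in
set_option synthInstance.maxSize 100000 in
set_option synthInstance.maxHeartbeats 0 in
set_option maxHeartbeats 0 in
theorem f6_bij : Function.Bijective f6 := by
  decide

set_option maxRecDepth 100000 in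
set_option synthInstance.maxSize 100000 in
set_option synthInstance.maxHeartbeats 0 in
set_option maxHeartbeats 0 in
theorem hM1A : ∀ i j : Fin 6, tab6 j i ≠ i → ∃ k : Fin 4, ∀ s : DualAffinePoint,
    (s = f6 i ∨ s = f6 j ∨ s = f6 (tab6 j i)) ↔ k ∉ s.val := by
  decide

set_option maxRecDepth 100000 in
set_option synthInstance.maxSize 100000 in
set_option synthInstance.maxHeartbeats 0 in
set_option maxHeartbeats 0 in
theorem hM2A : ∀ k : Fin 4, ∃ i j : Fin 6, tab6 j i ≠ i ∧ ∀ s : DualAffinePoint,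
    k ∉ s.val ↔ (s = f6 i ∨ s = f6 j ∨ s = f6 (tab6 j i)) := by
  decide

theorem tab6_rows : ∀ j : Fin 6, tab6 1 j = tab6 3 (tab6 0 (tab6 3 j)) ∧
    tab6 4 j = tab6 3 (tab6 5 (tab6 3 j)) ∧ tab6 2 j = tab6 0 (tab6 4 (tab6 0 j)) := by
  decide

set_option maxRecDepth 100000 in
theorem hdecA : ∀ p q : Fin 6, p ≠ q → ∃ m₁ m₂ : Fin 6,
    ((tab6 m₂ (tab6 m₁ p) = 0 ∧ tab6 m₂ (tab6 m₁ q) = 5) ∨
      (tab6 m₂ (tab6 m₁ p) = 0 ∧ tab6 m₂ (tab6 m₁ q) = 3)) ∨
    ((tab6 m₂ (tab6 m₁ q) = 0 ∧ tab6 m₂ (tab6 m₁ p) = 5) ∨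
      (tab6 m₂ (tab6 m₁ q) = 0 ∧ tab6 m₂ (tab6 m₁ p) = 3)) := by
  decide

theorem caseA (hD : IsThreeTranspositionSet D) (hconj : ∀ g : G, ∀ d ∈ D, g * d * g⁻¹ ∈ D)
    {x a b : G} (hx : x ∈ D) (ha : a ∈ D) (hb : b ∈ D) (hxa : ¬ Commute x a)
    (hxb : ¬ Commute x b) (hab : Commute a b) (hne : a ≠ b)
    (S : Set D) (hS : ∀ d ∈ S, Tri x a (d : G) ∨ Tri x b (d : G))
    (hxS : (⟨x, hx⟩ : D) ∈ S) (haS : (⟨a, ha⟩ : D) ∈ S) (hbS : (⟨b, hb⟩ : D) ∈ S) :
    Isomorphic (restrict (threeTranspositionLines D) (span (threeTranspositionLines D) S))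
      dualAffinePlaneTwo := by
  obtain ⟨hx2, hxi⟩ := inv_of_mem hD hx
  obtain ⟨ha2, hai⟩ := inv_of_mem hD ha
  obtain ⟨hb2, hbi⟩ := inv_of_mem hD hb
  obtain ⟨hbra, -⟩ := braid_of_mem hD hx ha hxa
  obtain ⟨hbrb, -⟩ := braid_of_mem hD hx hb hxb
  have hab' : a * b = b * a := hab.eq
  have hax : a ≠ x := by
    intro h
    apply hxa
    rw [h]
  have k1 : a * (x * a * x) * a = x := by
    rw [hbra]
    exact (conj_swap ha2 rfl).symm
  have k1b : b * (x * b * x) * b = x := by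
    rw [hbrb]
    exact (conj_swap hb2 rfl).symm
  have k2 : x * (a * (x * b * x) * a) * x = a * (x * b * x) * a := by
    calc x * (a * (x * b * x) * a) * x = (x * a * x) * b * (x * a * x) := by
          simp only [mul_assoc]
      _ = (a * x * a) * b * (a * x * a) := by rw [hbra]
      _ = a * x * (a * b * a) * x * a := by simp only [mul_assoc]
      _ = a * x * (b * a * a) * x * a := by rw [hab']
      _ = a * x * b * x * a := by rw [mul_assoc b a a, ha2, mul_one]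
      _ = a * (x * b * x) * a := by simp only [mul_assoc]
  have k3 : b * (x * a * x) * b = a * (x * b * x) * a := by
    calc b * (x * a * x) * b = b * (a * x * a) * b := by rw [hbra]
      _ = (b * a) * x * (a * b) := by simp only [mul_assoc]
      _ = (a * b) * x * (b * a) := by rw [← hab']
      _ = a * (b * x * b) * a := by simp only [mul_assoc]
      _ = a * (x * b * x) * a := by rw [hbrb]
  have row3 : ∀ j, ptsA a x b 3 * ptsA a x b j * (ptsA a x b 3)⁻¹ = ptsA a x b (tab6 3 j) := by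
    intro j
    fin_cases j
    · show x * a * x⁻¹ = x * a * x
      rw [hxi]
    · show x * (x * a * x) * x⁻¹ = a
      rw [hxi]; exact (conj_swap hx2 rfl).symm
    · show x * (a * (x * b * x) * a) * x⁻¹ = a * (x * b * x) * a
      rw [hxi]; exact k2
    · show x * x * x⁻¹ = x
      exact mul_inv_cancel_right x x
    · show x * (x * b * x) * x⁻¹ = b
      rw [hxi]; exact (conj_swap hx2 rfl).symm
    · show x * b * x⁻¹ = x * b * x
      rw [hxi]
  have row0 : ∀ j, ptsA a x b 0 * ptsA a x b j * (ptsA a x b 0)⁻¹ = ptsA a x b (tab6 0 j) := by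
    intro j
    fin_cases j
    · show a * a * a⁻¹ = a
      exact mul_inv_cancel_right a a
    · show a * (x * a * x) * a⁻¹ = x
      rw [hai]; exact k1
    · show a * (a * (x * b * x) * a) * a⁻¹ = x * b * x
      rw [hai]; exact (conj_swap ha2 rfl).symm
    · show a * x * a⁻¹ = x * a * x
      rw [hai]; exact hbra.symm
    · show a * (x * b * x) * a⁻¹ = a * (x * b * x) * a
      rw [hai]
    · show a * b * a⁻¹ = b
      rw [hab']; exact mul_inv_cancel_right b a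
  have row5 : ∀ j, ptsA a x b 5 * ptsA a x b j * (ptsA a x b 5)⁻¹ = ptsA a x b (tab6 5 j) := by
    intro j
    fin_cases j
    · show b * a * b⁻¹ = a
      rw [← hab']; exact mul_inv_cancel_right a b
    · show b * (x * a * x) * b⁻¹ = a * (x * b * x) * a
      rw [hbi]; exact k3
    · show b * (a * (x * b * x) * a) * b⁻¹ = x * a * x
      rw [hbi, ← k3]; exact (conj_swap hb2 rfl).symm
    · show b * x * b⁻¹ = x * b * x
      rw [hbi]; exact hbrb.symm
    · show b * (x * b * x) * b⁻¹ = x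
      rw [hbi]; exact k1b
    · show b * b * b⁻¹ = b
      exact mul_inv_cancel_right b b
  have hinv3 : (ptsA a x b 3)⁻¹ = ptsA a x b 3 := hxi
  have hinv0 : (ptsA a x b 0)⁻¹ = ptsA a x b 0 := hai
  have row1 : ∀ j, ptsA a x b 1 * ptsA a x b j * (ptsA a x b 1)⁻¹ = ptsA a x b (tab6 1 j) := by
    intro j
    rw [(tab6_rows j).1]
    refine row_comp (ptsA a x b) tab6 hinv3 row3 row0 ?_ j
    show x * a * x = x * a * x⁻¹
    rw [hxi]
  have row4 : ∀ j, ptsA a x b 4 * ptsA a x b j * (ptsA a x b 4)⁻¹ = ptsA a x b (tab6 4 j) := by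
    intro j
    rw [(tab6_rows j).2.1]
    refine row_comp (ptsA a x b) tab6 hinv3 row3 row5 ?_ j
    show x * b * x = x * b * x⁻¹
    rw [hxi]
  have row2 : ∀ j, ptsA a x b 2 * ptsA a x b j * (ptsA a x b 2)⁻¹ = ptsA a x b (tab6 2 j) := by
    intro j
    rw [(tab6_rows j).2.2]
    refine row_comp (ptsA a x b) tab6 hinv0 row0 row4 ?_ j
    show a * (x * b * x) * a = a * (x * b * x) * a⁻¹
    rw [hai]
  have htab : ∀ i j, ptsA a x b i * ptsA a x b j * (ptsA a x b i)⁻¹ = ptsA a x b (tab6 i j) := by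
    intro i j
    fin_cases i
    · exact row0 j
    · exact row1 j
    · exact row2 j
    · exact row3 j
    · exact row4 j
    · exact row5 j
  have hinj : Function.Injective (ptsA a x b) := by
    refine inj_of_base (ptsA a x b) tab6 htab (fun r s => (r = 0 ∧ s = 5) ∨ (r = 0 ∧ s = 3)) ?_ hdecA
    rintro r s (⟨rfl, rfl⟩ | ⟨rfl, rfl⟩)
    · exact hne
    · exact hax
  have hxbxD : x * b * x ∈ D := by
    have := hconj x b hb
    rwa [hxi] at this
  have hptsD : ∀ i, ptsA a x b i ∈ D := by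
    intro i
    fin_cases i
    · exact ha
    · show x * a * x ∈ D
      have := hconj x a ha
      rwa [hxi] at this
    · show a * (x * b * x) * a ∈ D
      have := hconj a _ hxbxD
      rwa [hai] at this
    · exact hx
    · exact hxbxD
    · exact hb
  have hM1 : ∀ i j, tab6 j i ≠ i →
      (Equiv.ofBijective f6 f6_bij) '' {i, j, tab6 j i} ∈ dualAffinePlaneTwo := by
    intro i j hij
    obtain ⟨k, hk⟩ := hM1A i j hij
    refine ⟨k, ?_⟩
    ext s
    rw [Set.image_insert_eq, Set.image_pair]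
    simp only [Set.mem_insert_iff, Set.mem_singleton_iff, Set.mem_setOf_eq]
    exact hk s
  have hM2 : ∀ n ∈ dualAffinePlaneTwo, ∃ i j, tab6 j i ≠ i ∧
      n = (Equiv.ofBijective f6 f6_bij) '' {i, j, tab6 j i} := by
    rintro n ⟨k, rfl⟩
    obtain ⟨i, j, hij, h⟩ := hM2A k
    refine ⟨i, j, hij, ?_⟩
    ext s
    rw [Set.image_insert_eq, Set.image_pair]
    simp only [Set.mem_insert_iff, Set.mem_singleton_iff, Set.mem_setOf_eq]
    exact h s
  have hsub : ∀ d ∈ S, ∃ i, (d : G) = ptsA a x b i := by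
    intro d hd
    rcases hS d hd with (h | h | h) | (h | h | h)
    · exact ⟨3, h⟩
    · exact ⟨0, h⟩
    · refine ⟨1, h.trans ?_⟩
      show a * x * a⁻¹ = x * a * x
      rw [hai]; exact hbra.symm
    · exact ⟨3, h⟩
    · exact ⟨5, h⟩
    · refine ⟨4, h.trans ?_⟩
      show b * x * b⁻¹ = x * b * x
      rw [hbi]; exact hbrb.symm
  have h3 : (⟨ptsA a x b 3, hptsD 3⟩ : D) ∈ span (threeTranspositionLines D) S :=
    S5366.subset_span _ _ hxS
  have h0 : (⟨ptsA a x b 0, hptsD 0⟩ : D) ∈ span (threeTranspositionLines D) S :=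
    S5366.subset_span _ _ haS
  have h5 : (⟨ptsA a x b 5, hptsD 5⟩ : D) ∈ span (threeTranspositionLines D) S :=
    S5366.subset_span _ _ hbS
  have h1 := span_tab (ptsA a x b) hinj hptsD tab6 htab S (i := 0) (j := 3) (by decide) h0 h3
  have h4 := span_tab (ptsA a x b) hinj hptsD tab6 htab S (i := 5) (j := 3) (by decide) h5 h3
  have h2 := span_tab (ptsA a x b) hinj hptsD tab6 htab S (i := 4) (j := 0) (by decide) h4 h0
  have hspan : ∀ i, (⟨ptsA a x b i, hptsD i⟩ : D) ∈ span (threeTranspositionLines D) S := by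
    intro i
    fin_cases i
    · exact h0
    · exact h1
    · exact h2
    · exact h3
    · exact h4
    · exact h5
  exact plane_iso hD hconj (ptsA a x b) hinj hptsD tab6 htab dualAffinePlaneTwo
    (Equiv.ofBijective f6 f6_bij) hM1 hM2 S hsub hspan

end caseA

section heis

variable {G : Type*} [Group G]

/-- The nine points of the affine plane inside a quotient of `3^{1+2} : 2`, as normal-form words. -/
def ptsB (u v c x : G) (i : Fin 9) : G :=
  match i.val with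
  | 0 => x
  | 1 => v * x
  | 2 => v * (v * x)
  | 3 => u * x
  | 4 => u * (v * (c * (c * x)))
  | 5 => u * (v * (v * (c * x)))
  | 6 => u * (u * x)
  | 7 => u * (u * (v * (c * x)))
  | _ => u * (u * (v * (v * (c * (c * x)))))

/-- The table `(v, w) ↦ -v - w` of the affine plane of order three on `Fin 9`. -/
def tab9 (i j : Fin 9) : Fin 9 :=
  ⟨3 * ((6 - i.val / 3 - j.val / 3) % 3) + (6 - i.val % 3 - j.val % 3) % 3, by omega⟩

set_option maxHeartbeats 0 in
theorem rowsB {u v c x : G} (hu3 : u * (u * u) = 1) (hv3 : v * (v * v) = 1) (hc3 : c * (c * c) = 1)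
    (hx2 : x * x = 1) (hvu : v * u = u * (v * c)) (hcu : c * u = u * c) (hcv : c * v = v * c)
    (hxu : x * u = u * (u * x)) (hxv : x * v = v * (v * x)) (hxc : x * c = c * x) :
    ∀ i j : Fin 9, ptsB u v c x i * ptsB u v c x j * (ptsB u v c x i)⁻¹ = ptsB u v c x (tab9 i j) := by
  have hu3' : ∀ t, u * (u * (u * t)) = t := fun t => by
    rw [← mul_assoc, ← mul_assoc, mul_assoc u u u, hu3, one_mul]
  have hv3' : ∀ t, v * (v * (v * t)) = t := fun t => by
    rw [← mul_assoc, ← mul_assoc, mul_assoc v v v, hv3, one_mul]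
  have hc3' : ∀ t, c * (c * (c * t)) = t := fun t => by
    rw [← mul_assoc, ← mul_assoc, mul_assoc c c c, hc3, one_mul]
  have hx2' : ∀ t, x * (x * t) = t := fun t => by rw [← mul_assoc, hx2, one_mul]
  have hvu' : ∀ t, v * (u * t) = u * (v * (c * t)) := fun t => by
    rw [← mul_assoc, hvu]; simp only [mul_assoc]
  have hcu' : ∀ t, c * (u * t) = u * (c * t) := fun t => by
    rw [← mul_assoc, hcu]; simp only [mul_assoc]
  have hcv' : ∀ t, c * (v * t) = v * (c * t) := fun t => by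
    rw [← mul_assoc, hcv]; simp only [mul_assoc]
  have hxu' : ∀ t, x * (u * t) = u * (u * (x * t)) := fun t => by
    rw [← mul_assoc, hxu]; simp only [mul_assoc]
  have hxv' : ∀ t, x * (v * t) = v * (v * (x * t)) := fun t => by
    rw [← mul_assoc, hxv]; simp only [mul_assoc]
  have hxc' : ∀ t, x * (c * t) = c * (x * t) := fun t => by
    rw [← mul_assoc, hxc]; simp only [mul_assoc]
  have hui : u⁻¹ = u * u := inv_eq_of_mul_eq_one_right hu3
  have hvi : v⁻¹ = v * v := inv_eq_of_mul_eq_one_right hv3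
  have hci : c⁻¹ = c * c := inv_eq_of_mul_eq_one_right hc3
  have hxi : x⁻¹ = x := inv_eq_of_mul_eq_one_right hx2
  intro i j
  fin_cases i <;> fin_cases j
  · show x * x * x⁻¹ = x
    simp only [mul_assoc, one_mul, mul_one, mul_inv_rev, hui, hvi, hci, hxi, hvu, hvu', hcu, hcu', hcv, hcv', hxu, hxu', hxv, hxv', hxc, hxc', hu3, hu3', hv3, hv3', hc3, hc3', hx2, hx2']
  · show x * (v * x) * x⁻¹ = v * (v * x)
    simp only [mul_assoc, one_mul, mul_one, mul_inv_rev, hui, hvi, hci, hxi, hvu, hvu', hcu, hcu', hcv, hcv', hxu, hxu', hxv, hxv', hxc, hxc', hu3, hu3', hv3, hv3', hc3, hc3', hx2, hx2']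
  · show x * (v * (v * x)) * x⁻¹ = v * x
    simp only [mul_assoc, one_mul, mul_one, mul_inv_rev, hui, hvi, hci, hxi, hvu, hvu', hcu, hcu', hcv, hcv', hxu, hxu', hxv, hxv', hxc, hxc', hu3, hu3', hv3, hv3', hc3, hc3', hx2, hx2']
  · show x * (u * x) * x⁻¹ = u * (u * x)
    simp only [mul_assoc, one_mul, mul_one, mul_inv_rev, hui, hvi, hci, hxi, hvu, hvu', hcu, hcu', hcv, hcv', hxu, hxu', hxv, hxv', hxc, hxc', hu3, hu3', hv3, hv3', hc3, hc3', hx2, hx2']
  · show x * (u * (v * (c * (c * x)))) * x⁻¹ = u * (u * (v * (v * (c * (c * x)))))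
    simp only [mul_assoc, one_mul, mul_one, mul_inv_rev, hui, hvi, hci, hxi, hvu, hvu', hcu, hcu', hcv, hcv', hxu, hxu', hxv, hxv', hxc, hxc', hu3, hu3', hv3, hv3', hc3, hc3', hx2, hx2']
  · show x * (u * (v * (v * (c * x)))) * x⁻¹ = u * (u * (v * (c * x)))
    simp only [mul_assoc, one_mul, mul_one, mul_inv_rev, hui, hvi, hci, hxi, hvu, hvu', hcu, hcu', hcv, hcv', hxu, hxu', hxv, hxv', hxc, hxc', hu3, hu3', hv3, hv3', hc3, hc3', hx2, hx2']
  · show x * (u * (u * x)) * x⁻¹ = u * x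
    simp only [mul_assoc, one_mul, mul_one, mul_inv_rev, hui, hvi, hci, hxi, hvu, hvu', hcu, hcu', hcv, hcv', hxu, hxu', hxv, hxv', hxc, hxc', hu3, hu3', hv3, hv3', hc3, hc3', hx2, hx2']
  · show x * (u * (u * (v * (c * x)))) * x⁻¹ = u * (v * (v * (c * x)))
    simp only [mul_assoc, one_mul, mul_one, mul_inv_rev, hui, hvi, hci, hxi, hvu, hvu', hcu, hcu', hcv, hcv', hxu, hxu', hxv, hxv', hxc, hxc', hu3, hu3', hv3, hv3', hc3, hc3', hx2, hx2']
  · show x * (u * (u * (v * (v * (c * (c * x)))))) * x⁻¹ = u * (v * (c * (c * x)))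
    simp only [mul_assoc, one_mul, mul_one, mul_inv_rev, hui, hvi, hci, hxi, hvu, hvu', hcu, hcu', hcv, hcv', hxu, hxu', hxv, hxv', hxc, hxc', hu3, hu3', hv3, hv3', hc3, hc3', hx2, hx2']
  · show (v * x) * x * (v * x)⁻¹ = v * (v * x)
    simp only [mul_assoc, one_mul, mul_one, mul_inv_rev, hui, hvi, hci, hxi, hvu, hvu', hcu, hcu', hcv, hcv', hxu, hxu', hxv, hxv', hxc, hxc', hu3, hu3', hv3, hv3', hc3, hc3', hx2, hx2']
  · show (v * x) * (v * x) * (v * x)⁻¹ = v * x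
    simp only [mul_assoc, one_mul, mul_one, mul_inv_rev, hui, hvi, hci, hxi, hvu, hvu', hcu, hcu', hcv, hcv', hxu, hxu', hxv, hxv', hxc, hxc', hu3, hu3', hv3, hv3', hc3, hc3', hx2, hx2']
  · show (v * x) * (v * (v * x)) * (v * x)⁻¹ = x
    simp only [mul_assoc, one_mul, mul_one, mul_inv_rev, hui, hvi, hci, hxi, hvu, hvu', hcu, hcu', hcv, hcv', hxu, hxu', hxv, hxv', hxc, hxc', hu3, hu3', hv3, hv3', hc3, hc3', hx2, hx2']
  · show (v * x) * (u * x) * (v * x)⁻¹ = u * (u * (v * (v * (c * (c * x)))))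
    simp only [mul_assoc, one_mul, mul_one, mul_inv_rev, hui, hvi, hci, hxi, hvu, hvu', hcu, hcu', hcv, hcv', hxu, hxu', hxv, hxv', hxc, hxc', hu3, hu3', hv3, hv3', hc3, hc3', hx2, hx2']
  · show (v * x) * (u * (v * (c * (c * x)))) * (v * x)⁻¹ = u * (u * (v * (c * x)))
    simp only [mul_assoc, one_mul, mul_one, mul_inv_rev, hui, hvi, hci, hxi, hvu, hvu', hcu, hcu', hcv, hcv', hxu, hxu', hxv, hxv', hxc, hxc', hu3, hu3', hv3, hv3', hc3, hc3', hx2, hx2']
  · show (v * x) * (u * (v * (v * (c * x)))) * (v * x)⁻¹ = u * (u * x)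
    simp only [mul_assoc, one_mul, mul_one, mul_inv_rev, hui, hvi, hci, hxi, hvu, hvu', hcu, hcu', hcv, hcv', hxu, hxu', hxv, hxv', hxc, hxc', hu3, hu3', hv3, hv3', hc3, hc3', hx2, hx2']
  · show (v * x) * (u * (u * x)) * (v * x)⁻¹ = u * (v * (v * (c * x)))
    simp only [mul_assoc, one_mul, mul_one, mul_inv_rev, hui, hvi, hci, hxi, hvu, hvu', hcu, hcu', hcv, hcv', hxu, hxu', hxv, hxv', hxc, hxc', hu3, hu3', hv3, hv3', hc3, hc3', hx2, hx2']
  · show (v * x) * (u * (u * (v * (c * x)))) * (v * x)⁻¹ = u * (v * (c * (c * x)))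
    simp only [mul_assoc, one_mul, mul_one, mul_inv_rev, hui, hvi, hci, hxi, hvu, hvu', hcu, hcu', hcv, hcv', hxu, hxu', hxv, hxv', hxc, hxc', hu3, hu3', hv3, hv3', hc3, hc3', hx2, hx2']
  · show (v * x) * (u * (u * (v * (v * (c * (c * x)))))) * (v * x)⁻¹ = u * x
    simp only [mul_assoc, one_mul, mul_one, mul_inv_rev, hui, hvi, hci, hxi, hvu, hvu', hcu, hcu', hcv, hcv', hxu, hxu', hxv, hxv', hxc, hxc', hu3, hu3', hv3, hv3', hc3, hc3', hx2, hx2']
  · show (v * (v * x)) * x * (v * (v * x))⁻¹ = v * x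
    simp only [mul_assoc, one_mul, mul_one, mul_inv_rev, hui, hvi, hci, hxi, hvu, hvu', hcu, hcu', hcv, hcv', hxu, hxu', hxv, hxv', hxc, hxc', hu3, hu3', hv3, hv3', hc3, hc3', hx2, hx2']
  · show (v * (v * x)) * (v * x) * (v * (v * x))⁻¹ = x
    simp only [mul_assoc, one_mul, mul_one, mul_inv_rev, hui, hvi, hci, hxi, hvu, hvu', hcu, hcu', hcv, hcv', hxu, hxu', hxv, hxv', hxc, hxc', hu3, hu3', hv3, hv3', hc3, hc3', hx2, hx2']
  · show (v * (v * x)) * (v * (v * x)) * (v * (v * x))⁻¹ = v * (v * x)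
    simp only [mul_assoc, one_mul, mul_one, mul_inv_rev, hui, hvi, hci, hxi, hvu, hvu', hcu, hcu', hcv, hcv', hxu, hxu', hxv, hxv', hxc, hxc', hu3, hu3', hv3, hv3', hc3, hc3', hx2, hx2']
  · show (v * (v * x)) * (u * x) * (v * (v * x))⁻¹ = u * (u * (v * (c * x)))
    simp only [mul_assoc, one_mul, mul_one, mul_inv_rev, hui, hvi, hci, hxi, hvu, hvu', hcu, hcu', hcv, hcv', hxu, hxu', hxv, hxv', hxc, hxc', hu3, hu3', hv3, hv3', hc3, hc3', hx2, hx2']
  · show (v * (v * x)) * (u * (v * (c * (c * x)))) * (v * (v * x))⁻¹ = u * (u * x)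
    simp only [mul_assoc, one_mul, mul_one, mul_inv_rev, hui, hvi, hci, hxi, hvu, hvu', hcu, hcu', hcv, hcv', hxu, hxu', hxv, hxv', hxc, hxc', hu3, hu3', hv3, hv3', hc3, hc3', hx2, hx2']
  · show (v * (v * x)) * (u * (v * (v * (c * x)))) * (v * (v * x))⁻¹ = u * (u * (v * (v * (c * (c * x)))))
    simp only [mul_assoc, one_mul, mul_one, mul_inv_rev, hui, hvi, hci, hxi, hvu, hvu', hcu, hcu', hcv, hcv', hxu, hxu', hxv, hxv', hxc, hxc', hu3, hu3', hv3, hv3', hc3, hc3', hx2, hx2']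
  · show (v * (v * x)) * (u * (u * x)) * (v * (v * x))⁻¹ = u * (v * (c * (c * x)))
    simp only [mul_assoc, one_mul, mul_one, mul_inv_rev, hui, hvi, hci, hxi, hvu, hvu', hcu, hcu', hcv, hcv', hxu, hxu', hxv, hxv', hxc, hxc', hu3, hu3', hv3, hv3', hc3, hc3', hx2, hx2']
  · show (v * (v * x)) * (u * (u * (v * (c * x)))) * (v * (v * x))⁻¹ = u * x
    simp only [mul_assoc, one_mul, mul_one, mul_inv_rev, hui, hvi, hci, hxi, hvu, hvu', hcu, hcu', hcv, hcv', hxu, hxu', hxv, hxv', hxc, hxc', hu3, hu3', hv3, hv3', hc3, hc3', hx2, hx2']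
  · show (v * (v * x)) * (u * (u * (v * (v * (c * (c * x)))))) * (v * (v * x))⁻¹ = u * (v * (v * (c * x)))
    simp only [mul_assoc, one_mul, mul_one, mul_inv_rev, hui, hvi, hci, hxi, hvu, hvu', hcu, hcu', hcv, hcv', hxu, hxu', hxv, hxv', hxc, hxc', hu3, hu3', hv3, hv3', hc3, hc3', hx2, hx2']
  · show (u * x) * x * (u * x)⁻¹ = u * (u * x)
    simp only [mul_assoc, one_mul, mul_one, mul_inv_rev, hui, hvi, hci, hxi, hvu, hvu', hcu, hcu', hcv, hcv', hxu, hxu', hxv, hxv', hxc, hxc', hu3, hu3', hv3, hv3', hc3, hc3', hx2, hx2']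
  · show (u * x) * (v * x) * (u * x)⁻¹ = u * (u * (v * (v * (c * (c * x)))))
    simp only [mul_assoc, one_mul, mul_one, mul_inv_rev, hui, hvi, hci, hxi, hvu, hvu', hcu, hcu', hcv, hcv', hxu, hxu', hxv, hxv', hxc, hxc', hu3, hu3', hv3, hv3', hc3, hc3', hx2, hx2']
  · show (u * x) * (v * (v * x)) * (u * x)⁻¹ = u * (u * (v * (c * x)))
    simp only [mul_assoc, one_mul, mul_one, mul_inv_rev, hui, hvi, hci, hxi, hvu, hvu', hcu, hcu', hcv, hcv', hxu, hxu', hxv, hxv', hxc, hxc', hu3, hu3', hv3, hv3', hc3, hc3', hx2, hx2']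
  · show (u * x) * (u * x) * (u * x)⁻¹ = u * x
    simp only [mul_assoc, one_mul, mul_one, mul_inv_rev, hui, hvi, hci, hxi, hvu, hvu', hcu, hcu', hcv, hcv', hxu, hxu', hxv, hxv', hxc, hxc', hu3, hu3', hv3, hv3', hc3, hc3', hx2, hx2']
  · show (u * x) * (u * (v * (c * (c * x)))) * (u * x)⁻¹ = u * (v * (v * (c * x)))
    simp only [mul_assoc, one_mul, mul_one, mul_inv_rev, hui, hvi, hci, hxi, hvu, hvu', hcu, hcu', hcv, hcv', hxu, hxu', hxv, hxv', hxc, hxc', hu3, hu3', hv3, hv3', hc3, hc3', hx2, hx2']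
  · show (u * x) * (u * (v * (v * (c * x)))) * (u * x)⁻¹ = u * (v * (c * (c * x)))
    simp only [mul_assoc, one_mul, mul_one, mul_inv_rev, hui, hvi, hci, hxi, hvu, hvu', hcu, hcu', hcv, hcv', hxu, hxu', hxv, hxv', hxc, hxc', hu3, hu3', hv3, hv3', hc3, hc3', hx2, hx2']
  · show (u * x) * (u * (u * x)) * (u * x)⁻¹ = x
    simp only [mul_assoc, one_mul, mul_one, mul_inv_rev, hui, hvi, hci, hxi, hvu, hvu', hcu, hcu', hcv, hcv', hxu, hxu', hxv, hxv', hxc, hxc', hu3, hu3', hv3, hv3', hc3, hc3', hx2, hx2']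
  · show (u * x) * (u * (u * (v * (c * x)))) * (u * x)⁻¹ = v * (v * x)
    simp only [mul_assoc, one_mul, mul_one, mul_inv_rev, hui, hvi, hci, hxi, hvu, hvu', hcu, hcu', hcv, hcv', hxu, hxu', hxv, hxv', hxc, hxc', hu3, hu3', hv3, hv3', hc3, hc3', hx2, hx2']
  · show (u * x) * (u * (u * (v * (v * (c * (c * x)))))) * (u * x)⁻¹ = v * x
    simp only [mul_assoc, one_mul, mul_one, mul_inv_rev, hui, hvi, hci, hxi, hvu, hvu', hcu, hcu', hcv, hcv', hxu, hxu', hxv, hxv', hxc, hxc', hu3, hu3', hv3, hv3', hc3, hc3', hx2, hx2']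
  · show (u * (v * (c * (c * x)))) * x * (u * (v * (c * (c * x))))⁻¹ = u * (u * (v * (v * (c * (c * x)))))
    simp only [mul_assoc, one_mul, mul_one, mul_inv_rev, hui, hvi, hci, hxi, hvu, hvu', hcu, hcu', hcv, hcv', hxu, hxu', hxv, hxv', hxc, hxc', hu3, hu3', hv3, hv3', hc3, hc3', hx2, hx2']
  · show (u * (v * (c * (c * x)))) * (v * x) * (u * (v * (c * (c * x))))⁻¹ = u * (u * (v * (c * x)))
    simp only [mul_assoc, one_mul, mul_one, mul_inv_rev, hui, hvi, hci, hxi, hvu, hvu', hcu, hcu', hcv, hcv', hxu, hxu', hxv, hxv', hxc, hxc', hu3, hu3', hv3, hv3', hc3, hc3', hx2, hx2']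
  · show (u * (v * (c * (c * x)))) * (v * (v * x)) * (u * (v * (c * (c * x))))⁻¹ = u * (u * x)
    simp only [mul_assoc, one_mul, mul_one, mul_inv_rev, hui, hvi, hci, hxi, hvu, hvu', hcu, hcu', hcv, hcv', hxu, hxu', hxv, hxv', hxc, hxc', hu3, hu3', hv3, hv3', hc3, hc3', hx2, hx2']
  · show (u * (v * (c * (c * x)))) * (u * x) * (u * (v * (c * (c * x))))⁻¹ = u * (v * (v * (c * x)))
    simp only [mul_assoc, one_mul, mul_one, mul_inv_rev, hui, hvi, hci, hxi, hvu, hvu', hcu, hcu', hcv, hcv', hxu, hxu', hxv, hxv', hxc, hxc', hu3, hu3', hv3, hv3', hc3, hc3', hx2, hx2']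
  · show (u * (v * (c * (c * x)))) * (u * (v * (c * (c * x)))) * (u * (v * (c * (c * x))))⁻¹ = u * (v * (c * (c * x)))
    simp only [mul_assoc, one_mul, mul_one, mul_inv_rev, hui, hvi, hci, hxi, hvu, hvu', hcu, hcu', hcv, hcv', hxu, hxu', hxv, hxv', hxc, hxc', hu3, hu3', hv3, hv3', hc3, hc3', hx2, hx2']
  · show (u * (v * (c * (c * x)))) * (u * (v * (v * (c * x)))) * (u * (v * (c * (c * x))))⁻¹ = u * x
    simp only [mul_assoc, one_mul, mul_one, mul_inv_rev, hui, hvi, hci, hxi, hvu, hvu', hcu, hcu', hcv, hcv', hxu, hxu', hxv, hxv', hxc, hxc', hu3, hu3', hv3, hv3', hc3, hc3', hx2, hx2']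
  · show (u * (v * (c * (c * x)))) * (u * (u * x)) * (u * (v * (c * (c * x))))⁻¹ = v * (v * x)
    simp only [mul_assoc, one_mul, mul_one, mul_inv_rev, hui, hvi, hci, hxi, hvu, hvu', hcu, hcu', hcv, hcv', hxu, hxu', hxv, hxv', hxc, hxc', hu3, hu3', hv3, hv3', hc3, hc3', hx2, hx2']
  · show (u * (v * (c * (c * x)))) * (u * (u * (v * (c * x)))) * (u * (v * (c * (c * x))))⁻¹ = v * x
    simp only [mul_assoc, one_mul, mul_one, mul_inv_rev, hui, hvi, hci, hxi, hvu, hvu', hcu, hcu', hcv, hcv', hxu, hxu', hxv, hxv', hxc, hxc', hu3, hu3', hv3, hv3', hc3, hc3', hx2, hx2']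
  · show (u * (v * (c * (c * x)))) * (u * (u * (v * (v * (c * (c * x)))))) * (u * (v * (c * (c * x))))⁻¹ = x
    simp only [mul_assoc, one_mul, mul_one, mul_inv_rev, hui, hvi, hci, hxi, hvu, hvu', hcu, hcu', hcv, hcv', hxu, hxu', hxv, hxv', hxc, hxc', hu3, hu3', hv3, hv3', hc3, hc3', hx2, hx2']
  · show (u * (v * (v * (c * x)))) * x * (u * (v * (v * (c * x))))⁻¹ = u * (u * (v * (c * x)))
    simp only [mul_assoc, one_mul, mul_one, mul_inv_rev, hui, hvi, hci, hxi, hvu, hvu', hcu, hcu', hcv, hcv', hxu, hxu', hxv, hxv', hxc, hxc', hu3, hu3', hv3, hv3', hc3, hc3', hx2, hx2']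
  · show (u * (v * (v * (c * x)))) * (v * x) * (u * (v * (v * (c * x))))⁻¹ = u * (u * x)
    simp only [mul_assoc, one_mul, mul_one, mul_inv_rev, hui, hvi, hci, hxi, hvu, hvu', hcu, hcu', hcv, hcv', hxu, hxu', hxv, hxv', hxc, hxc', hu3, hu3', hv3, hv3', hc3, hc3', hx2, hx2']
  · show (u * (v * (v * (c * x)))) * (v * (v * x)) * (u * (v * (v * (c * x))))⁻¹ = u * (u * (v * (v * (c * (c * x)))))
    simp only [mul_assoc, one_mul, mul_one, mul_inv_rev, hui, hvi, hci, hxi, hvu, hvu', hcu, hcu', hcv, hcv', hxu, hxu', hxv, hxv', hxc, hxc', hu3, hu3', hv3, hv3', hc3, hc3', hx2, hx2']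
  · show (u * (v * (v * (c * x)))) * (u * x) * (u * (v * (v * (c * x))))⁻¹ = u * (v * (c * (c * x)))
    simp only [mul_assoc, one_mul, mul_one, mul_inv_rev, hui, hvi, hci, hxi, hvu, hvu', hcu, hcu', hcv, hcv', hxu, hxu', hxv, hxv', hxc, hxc', hu3, hu3', hv3, hv3', hc3, hc3', hx2, hx2']
  · show (u * (v * (v * (c * x)))) * (u * (v * (c * (c * x)))) * (u * (v * (v * (c * x))))⁻¹ = u * x
    simp only [mul_assoc, one_mul, mul_one, mul_inv_rev, hui, hvi, hci, hxi, hvu, hvu', hcu, hcu', hcv, hcv', hxu, hxu', hxv, hxv', hxc, hxc', hu3, hu3', hv3, hv3', hc3, hc3', hx2, hx2']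
  · show (u * (v * (v * (c * x)))) * (u * (v * (v * (c * x)))) * (u * (v * (v * (c * x))))⁻¹ = u * (v * (v * (c * x)))
    simp only [mul_assoc, one_mul, mul_one, mul_inv_rev, hui, hvi, hci, hxi, hvu, hvu', hcu, hcu', hcv, hcv', hxu, hxu', hxv, hxv', hxc, hxc', hu3, hu3', hv3, hv3', hc3, hc3', hx2, hx2']
  · show (u * (v * (v * (c * x)))) * (u * (u * x)) * (u * (v * (v * (c * x))))⁻¹ = v * x
    simp only [mul_assoc, one_mul, mul_one, mul_inv_rev, hui, hvi, hci, hxi, hvu, hvu', hcu, hcu', hcv, hcv', hxu, hxu', hxv, hxv', hxc, hxc', hu3, hu3', hv3, hv3', hc3, hc3', hx2, hx2']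
  · show (u * (v * (v * (c * x)))) * (u * (u * (v * (c * x)))) * (u * (v * (v * (c * x))))⁻¹ = x
    simp only [mul_assoc, one_mul, mul_one, mul_inv_rev, hui, hvi, hci, hxi, hvu, hvu', hcu, hcu', hcv, hcv', hxu, hxu', hxv, hxv', hxc, hxc', hu3, hu3', hv3, hv3', hc3, hc3', hx2, hx2']
  · show (u * (v * (v * (c * x)))) * (u * (u * (v * (v * (c * (c * x)))))) * (u * (v * (v * (c * x))))⁻¹ = v * (v * x)
    simp only [mul_assoc, one_mul, mul_one, mul_inv_rev, hui, hvi, hci, hxi, hvu, hvu', hcu, hcu', hcv, hcv', hxu, hxu', hxv, hxv', hxc, hxc', hu3, hu3', hv3, hv3', hc3, hc3', hx2, hx2']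
  · show (u * (u * x)) * x * (u * (u * x))⁻¹ = u * x
    simp only [mul_assoc, one_mul, mul_one, mul_inv_rev, hui, hvi, hci, hxi, hvu, hvu', hcu, hcu', hcv, hcv', hxu, hxu', hxv, hxv', hxc, hxc', hu3, hu3', hv3, hv3', hc3, hc3', hx2, hx2']
  · show (u * (u * x)) * (v * x) * (u * (u * x))⁻¹ = u * (v * (v * (c * x)))
    simp only [mul_assoc, one_mul, mul_one, mul_inv_rev, hui, hvi, hci, hxi, hvu, hvu', hcu, hcu', hcv, hcv', hxu, hxu', hxv, hxv', hxc, hxc', hu3, hu3', hv3, hv3', hc3, hc3', hx2, hx2']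
  · show (u * (u * x)) * (v * (v * x)) * (u * (u * x))⁻¹ = u * (v * (c * (c * x)))
    simp only [mul_assoc, one_mul, mul_one, mul_inv_rev, hui, hvi, hci, hxi, hvu, hvu', hcu, hcu', hcv, hcv', hxu, hxu', hxv, hxv', hxc, hxc', hu3, hu3', hv3, hv3', hc3, hc3', hx2, hx2']
  · show (u * (u * x)) * (u * x) * (u * (u * x))⁻¹ = x
    simp only [mul_assoc, one_mul, mul_one, mul_inv_rev, hui, hvi, hci, hxi, hvu, hvu', hcu, hcu', hcv, hcv', hxu, hxu', hxv, hxv', hxc, hxc', hu3, hu3', hv3, hv3', hc3, hc3', hx2, hx2']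
  · show (u * (u * x)) * (u * (v * (c * (c * x)))) * (u * (u * x))⁻¹ = v * (v * x)
    simp only [mul_assoc, one_mul, mul_one, mul_inv_rev, hui, hvi, hci, hxi, hvu, hvu', hcu, hcu', hcv, hcv', hxu, hxu', hxv, hxv', hxc, hxc', hu3, hu3', hv3, hv3', hc3, hc3', hx2, hx2']
  · show (u * (u * x)) * (u * (v * (v * (c * x)))) * (u * (u * x))⁻¹ = v * x
    simp only [mul_assoc, one_mul, mul_one, mul_inv_rev, hui, hvi, hci, hxi, hvu, hvu', hcu, hcu', hcv, hcv', hxu, hxu', hxv, hxv', hxc, hxc', hu3, hu3', hv3, hv3', hc3, hc3', hx2, hx2']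
  · show (u * (u * x)) * (u * (u * x)) * (u * (u * x))⁻¹ = u * (u * x)
    simp only [mul_assoc, one_mul, mul_one, mul_inv_rev, hui, hvi, hci, hxi, hvu, hvu', hcu, hcu', hcv, hcv', hxu, hxu', hxv, hxv', hxc, hxc', hu3, hu3', hv3, hv3', hc3, hc3', hx2, hx2']
  · show (u * (u * x)) * (u * (u * (v * (c * x)))) * (u * (u * x))⁻¹ = u * (u * (v * (v * (c * (c * x)))))
    simp only [mul_assoc, one_mul, mul_one, mul_inv_rev, hui, hvi, hci, hxi, hvu, hvu', hcu, hcu', hcv, hcv', hxu, hxu', hxv, hxv', hxc, hxc', hu3, hu3', hv3, hv3', hc3, hc3', hx2, hx2']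
  · show (u * (u * x)) * (u * (u * (v * (v * (c * (c * x)))))) * (u * (u * x))⁻¹ = u * (u * (v * (c * x)))
    simp only [mul_assoc, one_mul, mul_one, mul_inv_rev, hui, hvi, hci, hxi, hvu, hvu', hcu, hcu', hcv, hcv', hxu, hxu', hxv, hxv', hxc, hxc', hu3, hu3', hv3, hv3', hc3, hc3', hx2, hx2']
  · show (u * (u * (v * (c * x)))) * x * (u * (u * (v * (c * x))))⁻¹ = u * (v * (v * (c * x)))
    simp only [mul_assoc, one_mul, mul_one, mul_inv_rev, hui, hvi, hci, hxi, hvu, hvu', hcu, hcu', hcv, hcv', hxu, hxu', hxv, hxv', hxc, hxc', hu3, hu3', hv3, hv3', hc3, hc3', hx2, hx2']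
  · show (u * (u * (v * (c * x)))) * (v * x) * (u * (u * (v * (c * x))))⁻¹ = u * (v * (c * (c * x)))
    simp only [mul_assoc, one_mul, mul_one, mul_inv_rev, hui, hvi, hci, hxi, hvu, hvu', hcu, hcu', hcv, hcv', hxu, hxu', hxv, hxv', hxc, hxc', hu3, hu3', hv3, hv3', hc3, hc3', hx2, hx2']
  · show (u * (u * (v * (c * x)))) * (v * (v * x)) * (u * (u * (v * (c * x))))⁻¹ = u * x
    simp only [mul_assoc, one_mul, mul_one, mul_inv_rev, hui, hvi, hci, hxi, hvu, hvu', hcu, hcu', hcv, hcv', hxu, hxu', hxv, hxv', hxc, hxc', hu3, hu3', hv3, hv3', hc3, hc3', hx2, hx2']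
  · show (u * (u * (v * (c * x)))) * (u * x) * (u * (u * (v * (c * x))))⁻¹ = v * (v * x)
    simp only [mul_assoc, one_mul, mul_one, mul_inv_rev, hui, hvi, hci, hxi, hvu, hvu', hcu, hcu', hcv, hcv', hxu, hxu', hxv, hxv', hxc, hxc', hu3, hu3', hv3, hv3', hc3, hc3', hx2, hx2']
  · show (u * (u * (v * (c * x)))) * (u * (v * (c * (c * x)))) * (u * (u * (v * (c * x))))⁻¹ = v * x
    simp only [mul_assoc, one_mul, mul_one, mul_inv_rev, hui, hvi, hci, hxi, hvu, hvu', hcu, hcu', hcv, hcv', hxu, hxu', hxv, hxv', hxc, hxc', hu3, hu3', hv3, hv3', hc3, hc3', hx2, hx2']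
  · show (u * (u * (v * (c * x)))) * (u * (v * (v * (c * x)))) * (u * (u * (v * (c * x))))⁻¹ = x
    simp only [mul_assoc, one_mul, mul_one, mul_inv_rev, hui, hvi, hci, hxi, hvu, hvu', hcu, hcu', hcv, hcv', hxu, hxu', hxv, hxv', hxc, hxc', hu3, hu3', hv3, hv3', hc3, hc3', hx2, hx2']
  · show (u * (u * (v * (c * x)))) * (u * (u * x)) * (u * (u * (v * (c * x))))⁻¹ = u * (u * (v * (v * (c * (c * x)))))
    simp only [mul_assoc, one_mul, mul_one, mul_inv_rev, hui, hvi, hci, hxi, hvu, hvu', hcu, hcu', hcv, hcv', hxu, hxu', hxv, hxv', hxc, hxc', hu3, hu3', hv3, hv3', hc3, hc3', hx2, hx2']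
  · show (u * (u * (v * (c * x)))) * (u * (u * (v * (c * x)))) * (u * (u * (v * (c * x))))⁻¹ = u * (u * (v * (c * x)))
    simp only [mul_assoc, one_mul, mul_one, mul_inv_rev, hui, hvi, hci, hxi, hvu, hvu', hcu, hcu', hcv, hcv', hxu, hxu', hxv, hxv', hxc, hxc', hu3, hu3', hv3, hv3', hc3, hc3', hx2, hx2']
  · show (u * (u * (v * (c * x)))) * (u * (u * (v * (v * (c * (c * x)))))) * (u * (u * (v * (c * x))))⁻¹ = u * (u * x)
    simp only [mul_assoc, one_mul, mul_one, mul_inv_rev, hui, hvi, hci, hxi, hvu, hvu', hcu, hcu', hcv, hcv', hxu, hxu', hxv, hxv', hxc, hxc', hu3, hu3', hv3, hv3', hc3, hc3', hx2, hx2']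
  · show (u * (u * (v * (v * (c * (c * x)))))) * x * (u * (u * (v * (v * (c * (c * x))))))⁻¹ = u * (v * (c * (c * x)))
    simp only [mul_assoc, one_mul, mul_one, mul_inv_rev, hui, hvi, hci, hxi, hvu, hvu', hcu, hcu', hcv, hcv', hxu, hxu', hxv, hxv', hxc, hxc', hu3, hu3', hv3, hv3', hc3, hc3', hx2, hx2']
  · show (u * (u * (v * (v * (c * (c * x)))))) * (v * x) * (u * (u * (v * (v * (c * (c * x))))))⁻¹ = u * x
    simp only [mul_assoc, one_mul, mul_one, mul_inv_rev, hui, hvi, hci, hxi, hvu, hvu', hcu, hcu', hcv, hcv', hxu, hxu', hxv, hxv', hxc, hxc', hu3, hu3', hv3, hv3', hc3, hc3', hx2, hx2']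
  · show (u * (u * (v * (v * (c * (c * x)))))) * (v * (v * x)) * (u * (u * (v * (v * (c * (c * x))))))⁻¹ = u * (v * (v * (c * x)))
    simp only [mul_assoc, one_mul, mul_one, mul_inv_rev, hui, hvi, hci, hxi, hvu, hvu', hcu, hcu', hcv, hcv', hxu, hxu', hxv, hxv', hxc, hxc', hu3, hu3', hv3, hv3', hc3, hc3', hx2, hx2']
  · show (u * (u * (v * (v * (c * (c * x)))))) * (u * x) * (u * (u * (v * (v * (c * (c * x))))))⁻¹ = v * x
    simp only [mul_assoc, one_mul, mul_one, mul_inv_rev, hui, hvi, hci, hxi, hvu, hvu', hcu, hcu', hcv, hcv', hxu, hxu', hxv, hxv', hxc, hxc', hu3, hu3', hv3, hv3', hc3, hc3', hx2, hx2']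
  · show (u * (u * (v * (v * (c * (c * x)))))) * (u * (v * (c * (c * x)))) * (u * (u * (v * (v * (c * (c * x))))))⁻¹ = x
    simp only [mul_assoc, one_mul, mul_one, mul_inv_rev, hui, hvi, hci, hxi, hvu, hvu', hcu, hcu', hcv, hcv', hxu, hxu', hxv, hxv', hxc, hxc', hu3, hu3', hv3, hv3', hc3, hc3', hx2, hx2']
  · show (u * (u * (v * (v * (c * (c * x)))))) * (u * (v * (v * (c * x)))) * (u * (u * (v * (v * (c * (c * x))))))⁻¹ = v * (v * x)
    simp only [mul_assoc, one_mul, mul_one, mul_inv_rev, hui, hvi, hci, hxi, hvu, hvu', hcu, hcu', hcv, hcv', hxu, hxu', hxv, hxv', hxc, hxc', hu3, hu3', hv3, hv3', hc3, hc3', hx2, hx2']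
  · show (u * (u * (v * (v * (c * (c * x)))))) * (u * (u * x)) * (u * (u * (v * (v * (c * (c * x))))))⁻¹ = u * (u * (v * (c * x)))
    simp only [mul_assoc, one_mul, mul_one, mul_inv_rev, hui, hvi, hci, hxi, hvu, hvu', hcu, hcu', hcv, hcv', hxu, hxu', hxv, hxv', hxc, hxc', hu3, hu3', hv3, hv3', hc3, hc3', hx2, hx2']
  · show (u * (u * (v * (v * (c * (c * x)))))) * (u * (u * (v * (c * x)))) * (u * (u * (v * (v * (c * (c * x))))))⁻¹ = u * (u * x)
    simp only [mul_assoc, one_mul, mul_one, mul_inv_rev, hui, hvi, hci, hxi, hvu, hvu', hcu, hcu', hcv, hcv', hxu, hxu', hxv, hxv', hxc, hxc', hu3, hu3', hv3, hv3', hc3, hc3', hx2, hx2']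
  · show (u * (u * (v * (v * (c * (c * x)))))) * (u * (u * (v * (v * (c * (c * x)))))) * (u * (u * (v * (v * (c * (c * x))))))⁻¹ = u * (u * (v * (v * (c * (c * x)))))
    simp only [mul_assoc, one_mul, mul_one, mul_inv_rev, hui, hvi, hci, hxi, hvu, hvu', hcu, hcu', hcv, hcv', hxu, hxu', hxv, hxv', hxc, hxc', hu3, hu3', hv3, hv3', hc3, hc3', hx2, hx2']

theorem heis_rel {u v x : G} (hx2 : x * x = 1) (hu3 : u * (u * u) = 1) (hv3 : v * (v * v) = 1)
    (huv : u * v * (u * v) * (u * v) = 1) (huv' : u * v⁻¹ * (u * v⁻¹) * (u * v⁻¹) = 1)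
    (hxu : x * u = u * (u * x)) (hxv : x * v = v * (v * x)) :
    ∃ c : G, c * (c * c) = 1 ∧ v * u = u * (v * c) ∧ c * u = u * c ∧ c * v = v * c ∧
      x * c = c * x := by
  have hui : u⁻¹ = u * u := inv_eq_of_mul_eq_one_right hu3
  have hvi : v⁻¹ = v * v := inv_eq_of_mul_eq_one_right hv3
  have huu : u * u = u⁻¹ := hui.symm
  have hvv : v * v = v⁻¹ := hvi.symm
  have huu' : u⁻¹ * u⁻¹ = u := by
    calc u⁻¹ * u⁻¹ = (u * (u * u))⁻¹ * u := by group
      _ = u := by rw [hu3, inv_one, one_mul]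
  have hvv' : v⁻¹ * v⁻¹ = v := by
    calc v⁻¹ * v⁻¹ = (v * (v * v))⁻¹ * v := by group
      _ = v := by rw [hv3, inv_one, one_mul]
  have R1 : u * v * u = v⁻¹ * u⁻¹ * v⁻¹ := by
    calc u * v * u = (u * v * (u * v) * (u * v)) * (v⁻¹ * u⁻¹ * v⁻¹) := by group
      _ = v⁻¹ * u⁻¹ * v⁻¹ := by rw [huv, one_mul]
  have R1' : v * u * v = u⁻¹ * v⁻¹ * u⁻¹ := by
    calc v * u * v = u⁻¹ * (u * v * (u * v) * (u * v)) * (v⁻¹ * u⁻¹) := by group
      _ = u⁻¹ * v⁻¹ * u⁻¹ := by rw [huv]; group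
  have R2 : u * v⁻¹ * u = v * u⁻¹ * v := by
    calc u * v⁻¹ * u = (u * v⁻¹ * (u * v⁻¹) * (u * v⁻¹)) * (v * u⁻¹ * v) := by group
      _ = v * u⁻¹ * v := by rw [huv', one_mul]
  have hA : Commute u (v⁻¹ * u * v) := by
    show u * (v⁻¹ * u * v) = (v⁻¹ * u * v) * u
    calc u * (v⁻¹ * u * v) = (u * v⁻¹ * u) * v := by group
      _ = (v * u⁻¹ * v) * v := by rw [R2]
      _ = v * u⁻¹ * (v * v) := by group
      _ = v * u⁻¹ * v⁻¹ := by rw [hvv]
      _ = (v⁻¹ * v⁻¹) * u⁻¹ * v⁻¹ := by rw [hvv']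
      _ = v⁻¹ * (v⁻¹ * u⁻¹ * v⁻¹) := by group
      _ = v⁻¹ * (u * v * u) := by rw [R1]
      _ = (v⁻¹ * u * v) * u := by group
  have hB : Commute v (u⁻¹ * v * u) := by
    show v * (u⁻¹ * v * u) = (u⁻¹ * v * u) * v
    calc v * (u⁻¹ * v * u) = (v * u⁻¹ * v) * u := by group
      _ = (u * v⁻¹ * u) * u := by rw [R2]
      _ = u * v⁻¹ * (u * u) := by group
      _ = u * v⁻¹ * u⁻¹ := by rw [huu]
      _ = (u⁻¹ * u⁻¹) * v⁻¹ * u⁻¹ := by rw [huu']
      _ = u⁻¹ * (u⁻¹ * v⁻¹ * u⁻¹) := by group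
      _ = u⁻¹ * (v * u * v) := by rw [R1']
      _ = (u⁻¹ * v * u) * v := by group
  have hc_def1 : v⁻¹ * u⁻¹ * v * u = (v⁻¹ * u * v)⁻¹ * u := by group
  have hc_def2 : v⁻¹ * u⁻¹ * v * u = v⁻¹ * (u⁻¹ * v * u) := by group
  have hcu : Commute u (v⁻¹ * u⁻¹ * v * u) := by
    rw [hc_def1]; exact (hA.inv_right).mul_right (Commute.refl u)
  have hcv : Commute v (v⁻¹ * u⁻¹ * v * u) := by
    rw [hc_def2]; exact ((Commute.refl v).inv_right).mul_right hB
  have hw3 : (v⁻¹ * u * v) ^ 3 = 1 := by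
    rw [pow_succ, pow_two]
    calc (v⁻¹ * u * v) * (v⁻¹ * u * v) * (v⁻¹ * u * v) = v⁻¹ * (u * (u * u)) * v := by group
      _ = 1 := by rw [hu3]; group
  have hu3' : u ^ 3 = 1 := by rw [pow_succ, pow_two, mul_assoc]; exact hu3
  have hc3 : (v⁻¹ * u⁻¹ * v * u) ^ 3 = 1 := by
    rw [hc_def1, (hA.inv_right.symm).mul_pow, inv_pow, hw3, hu3', inv_one, one_mul]
  have hxi : x⁻¹ = x := inv_eq_of_mul_eq_one_right hx2
  have hxux : x * u * x⁻¹ = u⁻¹ := by
    rw [hxu, hxi, mul_assoc, mul_assoc, hx2, mul_one, huu]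
  have hxvx : x * v * x⁻¹ = v⁻¹ := by
    rw [hxv, hxi, mul_assoc, mul_assoc, hx2, mul_one, hvv]
  have h1 : x * (v⁻¹ * u⁻¹ * v * u) * x⁻¹ =
      (x * v * x⁻¹)⁻¹ * (x * u * x⁻¹)⁻¹ * (x * v * x⁻¹) * (x * u * x⁻¹) := by group
  rw [hxux, hxvx, inv_inv, inv_inv] at h1
  have h2 : v * u * v⁻¹ * u⁻¹ = v⁻¹ * u⁻¹ * v * u := by
    have hc_uv : Commute (u * v) (v⁻¹ * u⁻¹ * v * u) := hcu.mul_left hcv
    calc v * u * v⁻¹ * u⁻¹ = (u * v * (v⁻¹ * u⁻¹ * v * u)) * v⁻¹ * u⁻¹ := by group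
      _ = ((v⁻¹ * u⁻¹ * v * u) * (u * v)) * v⁻¹ * u⁻¹ := by rw [hc_uv.eq]
      _ = v⁻¹ * u⁻¹ * v * u := by group
  refine ⟨v⁻¹ * u⁻¹ * v * u, ?_, ?_, hcu.eq.symm, hcv.eq.symm, ?_⟩
  · rw [pow_succ, pow_two, mul_assoc] at hc3
    exact hc3
  · group
  · calc x * (v⁻¹ * u⁻¹ * v * u) = (x * (v⁻¹ * u⁻¹ * v * u) * x⁻¹) * x := by group
      _ = (v⁻¹ * u⁻¹ * v * u) * x := by rw [h1, h2]

end heis

section caseB

open Cfsg Cfsg.LineSystem

variable {G : Type*} [Group G] {D : Set G}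

def f9 (i : Fin 9) : Fin 2 → ZMod 3 := ![((i.val / 3 : ℕ) : ZMod 3), ((i.val % 3 : ℕ) : ZMod 3)]

set_option maxRecDepth 100000 in
theorem f9_inj : Function.Injective f9 := by
  decide

theorem f9_bij : Function.Bijective f9 := by
  rw [Fintype.bijective_iff_injective_and_card]
  refine ⟨f9_inj, ?_⟩
  simp [ZMod.card]

set_option maxRecDepth 100000 in
theorem f9_tab : ∀ i j : Fin 9, f9 (tab9 i j) = - f9 i - f9 j := by
  decide

theorem tab9_self : ∀ j : Fin 9, tab9 j j = j := by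
  decide

theorem tab9_diag : ∀ i j : Fin 9, tab9 j i = i → i = j := by
  decide

set_option maxRecDepth 100000 in
theorem hdecB : ∀ p q : Fin 9, p ≠ q → ∃ m₁ m₂ : Fin 9,
    ((tab9 m₂ (tab9 m₁ p) = 0 ∧ (tab9 m₂ (tab9 m₁ q) = 1 ∨ tab9 m₂ (tab9 m₁ q) = 2 ∨
        tab9 m₂ (tab9 m₁ q) = 3 ∨ tab9 m₂ (tab9 m₁ q) = 6)) ∨
      ((tab9 m₂ (tab9 m₁ p) = 1 ∨ tab9 m₂ (tab9 m₁ p) = 2) ∧
        (tab9 m₂ (tab9 m₁ q) = 3 ∨ tab9 m₂ (tab9 m₁ q) = 6))) ∨
    ((tab9 m₂ (tab9 m₁ q) = 0 ∧ (tab9 m₂ (tab9 m₁ p) = 1 ∨ tab9 m₂ (tab9 m₁ p) = 2 ∨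
        tab9 m₂ (tab9 m₁ p) = 3 ∨ tab9 m₂ (tab9 m₁ p) = 6)) ∨
      ((tab9 m₂ (tab9 m₁ q) = 1 ∨ tab9 m₂ (tab9 m₁ q) = 2) ∧
        (tab9 m₂ (tab9 m₁ p) = 3 ∨ tab9 m₂ (tab9 m₁ p) = 6))) := by
  decide

theorem affine_third (p q : Fin 2 → ZMod 3) : -q - p = p + (2 : ZMod 3) • (q - p) := by
  funext k
  simp only [Pi.sub_apply, Pi.neg_apply, Pi.add_apply, Pi.smul_apply, smul_eq_mul]
  have h3 : (3 : ZMod 3) = 0 := by decide
  linear_combination (-(q k)) * h3

theorem affine_set_eq (p q : Fin 2 → ZMod 3) :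
    ({p, q, -q - p} : Set (Fin 2 → ZMod 3)) = {x | ∃ c : ZMod 3, x = p + c • (q - p)} := by
  ext s
  simp only [Set.mem_insert_iff, Set.mem_singleton_iff, Set.mem_setOf_eq]
  constructor
  · rintro (rfl | rfl | rfl)
    · exact ⟨0, by simp⟩
    · exact ⟨1, by simp⟩
    · exact ⟨2, affine_third _ _⟩
  · rintro ⟨c, rfl⟩
    have hc : c = 0 ∨ c = 1 ∨ c = 2 := by
      revert c
      decide
    rcases hc with rfl | rfl | rfl
    · left; simp
    · right; left; simp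
    · right; right; exact (affine_third _ _).symm

theorem affine_line (p q : Fin 2 → ZMod 3) (hpq : p ≠ q) :
    ({p, q, -q - p} : Set (Fin 2 → ZMod 3)) ∈ affinePlaneThree :=
  ⟨p, q - p, sub_ne_zero.2 (Ne.symm hpq), affine_set_eq p q⟩

theorem affine_line_conv : ∀ n ∈ affinePlaneThree, ∃ p q : Fin 2 → ZMod 3, p ≠ q ∧
    n = {p, q, -q - p} := by
  rintro n ⟨v, w, hw, rfl⟩
  refine ⟨v, v + w, ?_, ?_⟩
  · intro h
    apply hw
    have : v + 0 = v + w := by rw [add_zero]; exact h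
    exact (add_left_cancel this).symm
  · rw [affine_set_eq, add_sub_cancel_left]

theorem caseB (hD : IsThreeTranspositionSet D) (hconj : ∀ g : G, ∀ d ∈ D, g * d * g⁻¹ ∈ D)
    {x a b : G} (hx : x ∈ D) (ha : a ∈ D) (hb : b ∈ D) (hxa : ¬ Commute x a)
    (hxb : ¬ Commute x b) (hab : ¬ Commute a b) (hab' : ¬ Commute a (x * b * x))
    (hne : a ≠ b) (hne' : b ≠ x * a * x)
    (S : Set D) (hS : ∀ d ∈ S, Tri x a (d : G) ∨ Tri x b (d : G))
    (hxS : (⟨x, hx⟩ : D) ∈ S) (haS : (⟨a, ha⟩ : D) ∈ S) (hbS : (⟨b, hb⟩ : D) ∈ S) :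
    Isomorphic (restrict (threeTranspositionLines D) (span (threeTranspositionLines D) S))
      affinePlaneThree := by
  obtain ⟨hx2, hxi⟩ := inv_of_mem hD hx
  obtain ⟨ha2, hai⟩ := inv_of_mem hD ha
  obtain ⟨hb2, hbi⟩ := inv_of_mem hD hb
  obtain ⟨hbra, -⟩ := braid_of_mem hD hx ha hxa
  obtain ⟨hbrb, -⟩ := braid_of_mem hD hx hb hxb
  have hax : ¬ Commute a x := fun h => hxa h.symm
  have hbx : ¬ Commute b x := fun h => hxb h.symm
  have hu3 : a * x * (a * x * (a * x)) = 1 :=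
    (mul_assoc _ _ _).symm.trans (braid_of_mem hD ha hx hax).2
  have hv3 : b * x * (b * x * (b * x)) = 1 :=
    (mul_assoc _ _ _).symm.trans (braid_of_mem hD hb hx hbx).2
  have hxbxD : x * b * x⁻¹ ∈ D := hconj x b hb
  have huv : a * x * (b * x) * (a * x * (b * x)) * (a * x * (b * x)) = 1 := by
    have e1 : a * x * (b * x) = a * (x * b * x⁻¹) := by rw [hxi]; simp only [mul_assoc]
    rw [e1]
    refine (braid_of_mem hD ha hxbxD ?_).2
    rw [hxi]; exact hab'
  have huv' : a * x * (b * x)⁻¹ * (a * x * (b * x)⁻¹) * (a * x * (b * x)⁻¹) = 1 := by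
    have e2 : a * x * (b * x)⁻¹ = a * b := by
      rw [mul_inv_rev, hxi, hbi, mul_assoc, ← mul_assoc x x b, hx2, one_mul]
    rw [e2]
    exact (braid_of_mem hD ha hb hab).2
  have hxu : x * (a * x) = a * x * (a * x * x) := by
    calc x * (a * x) = x * a * x := (mul_assoc _ _ _).symm
      _ = a * x * a := hbra
      _ = a * x * (a * x * x) := by rw [mul_assoc a x x, hx2, mul_one]
  have hxv : x * (b * x) = b * x * (b * x * x) := by
    calc x * (b * x) = x * b * x := (mul_assoc _ _ _).symm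
      _ = b * x * b := hbrb
      _ = b * x * (b * x * x) := by rw [mul_assoc b x x, hx2, mul_one]
  obtain ⟨c, hc3, hvu, hcu, hcv, hxc⟩ := heis_rel hx2 hu3 hv3 huv huv' hxu hxv
  have rows := rowsB hu3 hv3 hc3 hx2 hvu hcu hcv hxu hxv hxc
  have e3 : ptsB (a * x) (b * x) c x 3 = a := by
    show a * x * x = a
    rw [mul_assoc, hx2, mul_one]
  have e1 : ptsB (a * x) (b * x) c x 1 = b := by
    show b * x * x = b
    rw [mul_assoc, hx2, mul_one]
  have e6 : ptsB (a * x) (b * x) c x 6 = x * a * x :=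
    hxu.symm.trans (mul_assoc x a x).symm
  have e2 : ptsB (a * x) (b * x) c x 2 = x * b * x :=
    hxv.symm.trans (mul_assoc x b x).symm
  have e0 : ptsB (a * x) (b * x) c x 0 = x := rfl
  -- base distinctness facts
  have n_xa : x ≠ a := fun h => hxa (h ▸ Commute.refl x)
  have n_xb : x ≠ b := fun h => hxb (h ▸ Commute.refl x)
  have n_xa' : x ≠ x * a * x := by
    intro h
    apply n_xa
    have := conj_swap hx2 h.symm
    rw [this, mul_assoc, hx2, mul_one]
  have n_xb' : x ≠ x * b * x := by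
    intro h
    apply n_xb
    have := conj_swap hx2 h.symm
    rw [this, mul_assoc, hx2, mul_one]
  have n_b'a : x * b * x ≠ a := by
    intro h
    exact hne' (conj_swap hx2 h)
  have n_b'a' : x * b * x ≠ x * a * x := by
    intro h
    apply hne
    have h1 := conj_swap hx2 h
    rw [h1]
    exact conj_swap hx2 rfl
  have hinj : Function.Injective (ptsB (a * x) (b * x) c x) := by
    refine inj_of_base (ptsB (a * x) (b * x) c x) tab9 rows
      (fun r s => (r = 0 ∧ (s = 1 ∨ s = 2 ∨ s = 3 ∨ s = 6)) ∨ ((r = 1 ∨ r = 2) ∧ (s = 3 ∨ s = 6)))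
      ?_ hdecB
    rintro r s (⟨rfl, rfl | rfl | rfl | rfl⟩ | ⟨rfl | rfl, rfl | rfl⟩)
    · rw [e0, e1]; exact n_xb
    · rw [e0, e2]; exact n_xb'
    · rw [e0, e3]; exact n_xa
    · rw [e0, e6]; exact n_xa'
    · rw [e1, e3]; exact hne.symm
    · rw [e1, e6]; exact hne'
    · rw [e2, e3]; exact n_b'a
    · rw [e2, e6]; exact n_b'a'
  have hD0 : ptsB (a * x) (b * x) c x 0 ∈ D := hx
  have hD3 : ptsB (a * x) (b * x) c x 3 ∈ D := by rw [e3]; exact ha
  have hD1 : ptsB (a * x) (b * x) c x 1 ∈ D := by rw [e1]; exact hb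
  have hD6 : ptsB (a * x) (b * x) c x 6 ∈ D := by
    have := hconj (ptsB (a * x) (b * x) c x 3) _ hD0
    rw [rows] at this
    exact this
  have hD2 : ptsB (a * x) (b * x) c x 2 ∈ D := by
    have := hconj (ptsB (a * x) (b * x) c x 1) _ hD0
    rw [rows] at this
    exact this
  have hD8 : ptsB (a * x) (b * x) c x 8 ∈ D := by
    have := hconj (ptsB (a * x) (b * x) c x 3) _ hD1
    rw [rows] at this
    exact this
  have hD7 : ptsB (a * x) (b * x) c x 7 ∈ D := by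
    have := hconj (ptsB (a * x) (b * x) c x 3) _ hD2
    rw [rows] at this
    exact this
  have hD5 : ptsB (a * x) (b * x) c x 5 ∈ D := by
    have := hconj (ptsB (a * x) (b * x) c x 6) _ hD1
    rw [rows] at this
    exact this
  have hD4 : ptsB (a * x) (b * x) c x 4 ∈ D := by
    have := hconj (ptsB (a * x) (b * x) c x 6) _ hD2
    rw [rows] at this
    exact this
  have hptsD : ∀ i, ptsB (a * x) (b * x) c x i ∈ D := by
    intro i
    fin_cases i
    · exact hD0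
    · exact hD1
    · exact hD2
    · exact hD3
    · exact hD4
    · exact hD5
    · exact hD6
    · exact hD7
    · exact hD8
  have hM1 : ∀ i j, tab9 j i ≠ i →
      (Equiv.ofBijective f9 f9_bij) '' {i, j, tab9 j i} ∈ affinePlaneThree := by
    intro i j hij
    have hpq : f9 i ≠ f9 j := by
      intro h
      have hij' : i = j := f9_inj h
      apply hij
      rw [hij']
      exact tab9_self j
    have := affine_line (f9 i) (f9 j) hpq
    rw [Set.image_insert_eq, Set.image_pair]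
    show ({f9 i, f9 j, f9 (tab9 j i)} : Set (Fin 2 → ZMod 3)) ∈ affinePlaneThree
    rw [f9_tab]
    exact this
  have hM2 : ∀ n ∈ affinePlaneThree, ∃ i j, tab9 j i ≠ i ∧
      n = (Equiv.ofBijective f9 f9_bij) '' {i, j, tab9 j i} := by
    intro n hn
    obtain ⟨p, q, hpq, rfl⟩ := affine_line_conv n hn
    obtain ⟨i, rfl⟩ := f9_bij.2 p
    obtain ⟨j, rfl⟩ := f9_bij.2 q
    refine ⟨i, j, ?_, ?_⟩
    · intro h
      apply hpq
      rw [tab9_diag i j h]
    · rw [Set.image_insert_eq, Set.image_pair]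
      show ({f9 i, f9 j, -f9 j - f9 i} : Set (Fin 2 → ZMod 3)) = {f9 i, f9 j, f9 (tab9 j i)}
      rw [f9_tab]
  have hsub : ∀ d ∈ S, ∃ i, (d : G) = ptsB (a * x) (b * x) c x i := by
    intro d hd
    rcases hS d hd with (h | h | h) | (h | h | h)
    · exact ⟨0, h⟩
    · exact ⟨3, h.trans e3.symm⟩
    · refine ⟨6, h.trans ?_⟩
      rw [e6, hai]; exact hbra.symm
    · exact ⟨0, h⟩
    · exact ⟨1, h.trans e1.symm⟩
    · refine ⟨2, h.trans ?_⟩
      rw [e2, hbi]; exact hbrb.symm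
  have h0 : (⟨ptsB (a * x) (b * x) c x 0, hptsD 0⟩ : D) ∈ span (threeTranspositionLines D) S :=
    S5366.subset_span _ _ hxS
  have h3 : (⟨ptsB (a * x) (b * x) c x 3, hptsD 3⟩ : D) ∈ span (threeTranspositionLines D) S := by
    have e : (⟨ptsB (a * x) (b * x) c x 3, hptsD 3⟩ : D) = ⟨a, ha⟩ := Subtype.ext e3
    rw [e]
    exact S5366.subset_span _ _ haS
  have h1 : (⟨ptsB (a * x) (b * x) c x 1, hptsD 1⟩ : D) ∈ span (threeTranspositionLines D) S := by
    have e : (⟨ptsB (a * x) (b * x) c x 1, hptsD 1⟩ : D) = ⟨b, hb⟩ := Subtype.ext e1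
    rw [e]
    exact S5366.subset_span _ _ hbS
  have h6 := span_tab (ptsB (a * x) (b * x) c x) hinj hptsD tab9 rows S (i := 0) (j := 3)
    (by decide) h0 h3
  have h2 := span_tab (ptsB (a * x) (b * x) c x) hinj hptsD tab9 rows S (i := 0) (j := 1)
    (by decide) h0 h1
  have h8 := span_tab (ptsB (a * x) (b * x) c x) hinj hptsD tab9 rows S (i := 1) (j := 3)
    (by decide) h1 h3
  have h7 := span_tab (ptsB (a * x) (b * x) c x) hinj hptsD tab9 rows S (i := 2) (j := 3)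
    (by decide) h2 h3
  have h5 := span_tab (ptsB (a * x) (b * x) c x) hinj hptsD tab9 rows S (i := 1) (j := 6)
    (by decide) h1 h6
  have h4 := span_tab (ptsB (a * x) (b * x) c x) hinj hptsD tab9 rows S (i := 2) (j := 6)
    (by decide) h2 h6
  have hspan : ∀ i, (⟨ptsB (a * x) (b * x) c x i, hptsD i⟩ : D) ∈
      span (threeTranspositionLines D) S := by
    intro i
    fin_cases i
    · exact h0
    · exact h1
    · exact h2
    · exact h3
    · exact h4
    · exact h5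
    · exact h6
    · exact h7
    · exact h8
  exact plane_iso hD hconj (ptsB (a * x) (b * x) c x) hinj hptsD tab9 rows affinePlaneThree
    (Equiv.ofBijective f9 f9_bij) hM1 hM2 S hsub hspan

end caseB

section assembly

open Cfsg Cfsg.LineSystem

variable {G : Type*} [Group G] {D : Set G}

theorem main (hD : IsThreeTranspositionSet D) (hconj : ∀ g : G, ∀ d ∈ D, g * d * g⁻¹ ∈ D) :
    IsFischerSpace (threeTranspositionLines D) := by
  refine ⟨lines_partial hD hconj, lines_three hD hconj, ?_⟩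
  rintro l hl m hm hlm ⟨x, hxl, hxm⟩
  have key : ∀ l ∈ threeTranspositionLines D, x ∈ l → ∀ a : D, a ∈ l → a ≠ x →
      ¬ Commute (x : G) (a : G) ∧ ∀ z : D, z ∈ l ↔ Tri (x : G) (a : G) (z : G) := by
    rintro l ⟨x₀, y₀, hne, rfl⟩ hx a ha hax
    have hax' : (x : G) ≠ (a : G) := fun h => hax (Subtype.ext h.symm)
    obtain ⟨-, -, hnc, hiff⟩ := tri_any hD hconj x₀.2 y₀.2 hne hx ha hax'
    exact ⟨hnc, fun z => (hiff z).symm⟩
  have hex : ∀ l ∈ threeTranspositionLines D, ∃ a ∈ l, a ≠ x := fun l hl =>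
    S5366.exists_ne_mem (lines_three hD hconj) hl x
  by_cases hcase : ∃ a b : D, a ∈ l ∧ b ∈ m ∧ a ≠ x ∧ b ≠ x ∧ Commute (a : G) (b : G)
  · obtain ⟨a, b, hal, hbm, hax, hbx, hab⟩ := hcase
    obtain ⟨hxa, hl'⟩ := key l hl hxl a hal hax
    obtain ⟨hxb, hm'⟩ := key m hm hxm b hbm hbx
    have hne : (a : G) ≠ (b : G) := by
      intro h
      have hab' : a = b := Subtype.ext h
      apply hlm
      exact lines_partial hD hconj l hl m hm x b (Ne.symm hbx) hxl (hab' ▸ hal) hxm hbm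
    left
    exact caseA hD hconj x.2 a.2 b.2 hxa hxb hab hne (l ∪ m)
      (fun d hd => hd.elim (fun h => Or.inl ((hl' d).1 h)) (fun h => Or.inr ((hm' d).1 h)))
      (Or.inl hxl) (Or.inl hal) (Or.inr hbm)
  · right
    obtain ⟨a, hal, hax⟩ := hex l hl
    obtain ⟨b, hbm, hbx⟩ := hex m hm
    obtain ⟨hxa, hl'⟩ := key l hl hxl a hal hax
    obtain ⟨hxb, hm'⟩ := key m hm hxm b hbm hbx
    have hnc : ∀ a' b' : D, a' ∈ l → b' ∈ m → a' ≠ x → b' ≠ x → ¬ Commute (a' : G) (b' : G) :=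
      fun a' b' h1 h2 h3 h4 h5 => hcase ⟨a', b', h1, h2, h3, h4, h5⟩
    have hbl : b ∉ l := by
      intro h
      exact hlm (lines_partial hD hconj l hl m hm x b (Ne.symm hbx) hxl h hxm hbm)
    have hne : (a : G) ≠ (b : G) := by
      intro h
      have hab' : a = b := Subtype.ext h
      exact hbl (hab' ▸ hal)
    obtain ⟨hx2, hxi⟩ := inv_of_mem hD x.2
    obtain ⟨ha2, hai⟩ := inv_of_mem hD a.2
    obtain ⟨hb2, hbi⟩ := inv_of_mem hD b.2
    obtain ⟨hbra, -⟩ := braid_of_mem hD x.2 a.2 hxa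
    obtain ⟨hbrb, -⟩ := braid_of_mem hD x.2 b.2 hxb
    have hne' : (b : G) ≠ (x : G) * a * x := by
      intro h
      apply hbl
      rw [hl']
      right; right
      rw [h, hai]; exact hbra
    have hb'D : (b : G) * x * (b : G)⁻¹ ∈ D := hconj b x x.2
    have hb'm : (⟨_, hb'D⟩ : D) ∈ m := (hm' _).2 (Or.inr (Or.inr rfl))
    have hb'x : (⟨_, hb'D⟩ : D) ≠ x := by
      intro h
      have h' : (b : G) * x * (b : G)⁻¹ = x := congrArg Subtype.val h
      apply hxb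
      show (x : G) * b = b * x
      calc (x : G) * b = ((b : G) * x * (b : G)⁻¹) * b := by rw [h']
        _ = b * x := by group
    have hab : ¬ Commute (a : G) (b : G) := hnc a b hal hbm hax hbx
    have hab' : ¬ Commute (a : G) ((x : G) * b * x) := by
      have := hnc a ⟨_, hb'D⟩ hal hb'm hax hb'x
      have e : (b : G) * x * (b : G)⁻¹ = x * b * x := by rw [hbi]; exact hbrb.symm
      rw [← e]; exact this
    exact caseB hD hconj x.2 a.2 b.2 hxa hxb hab hab' hne hne' (l ∪ m)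
      (fun d hd => hd.elim (fun h => Or.inl ((hl' d).1 h)) (fun h => Or.inr ((hm' d).1 h)))
      (Or.inl hxl) (Or.inl hal) (Or.inr hbm)

end assembly

/-- Let D be a conjugation-invariant generating set of 3-transpositions of a finite group G. Then the line system on D whose lines are the triples {x, y, y x y⁻¹} for non-commuting members x, y of D is a Fischer space: two points lie on at most one line, lines have three points, and two different meeting lines generate a subspace isomorphic to the dual affine plane of order two or to the affine plane of order three. -/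
theorem result {G : Type*} [Group G] [Finite G] {D : Set G} (hD : Cfsg.IsThreeTranspositionGroup D) : Cfsg.IsFischerSpace (Cfsg.threeTranspositionLines D) := by
  exact main hD.1 hD.2.1

end Cfsg.Agent.S5367
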