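import Cfsg.Statements.S5395

set_option autoImplicit false
open Cfsg

namespace Cfsg.Agent.S5395

open scoped IsMulCommutative

/-- the commutator map `x ↦ g x g⁻¹ x⁻¹` as a hom into the centre, when commutators are central -/
def commHom {E : Type*} [Group E] (hc : commutator E = Subgroup.center E) (g : E) :
    E →* Subgroup.center E where
  toFun x := ⟨g * x * g⁻¹ * x⁻¹, by
    rw [← hc, ← commutatorElement_def, commutator_def]
    exact Subgroup.commutator_mem_commutator (Subgroup.mem_top g) (Subgroup.mem_top x)⟩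
  map_one' := by
    ext
    simp
  map_mul' x y := by
    ext
    have hy : g * y * g⁻¹ * y⁻¹ ∈ Subgroup.center E := by
      rw [← hc, ← commutatorElement_def, commutator_def]
      exact Subgroup.commutator_mem_commutator (Subgroup.mem_top g) (Subgroup.mem_top y)
    have h := Subgroup.mem_center_iff.mp hy x⁻¹
    show g * (x * y) * g⁻¹ * (x * y)⁻¹ = (g * x * g⁻¹ * x⁻¹) * (g * y * g⁻¹ * y⁻¹)
    calc g * (x * y) * g⁻¹ * (x * y)⁻¹ = g * x * g⁻¹ * ((g * y * g⁻¹ * y⁻¹) * x⁻¹) := by group
      _ = g * x * g⁻¹ * (x⁻¹ * (g * y * g⁻¹ * y⁻¹)) := by rw [h]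
      _ = (g * x * g⁻¹ * x⁻¹) * (g * y * g⁻¹ * y⁻¹) := by group

theorem commHom_apply {E : Type*} [Group E] (hc : commutator E = Subgroup.center E) (g x : E) :
    ((commHom hc g x : Subgroup.center E) : E) = g * x * g⁻¹ * x⁻¹ := rfl

/-- `g ↦ commHom g` is itself a hom -/
def commHomHom {E : Type*} [Group E] (hc : commutator E = Subgroup.center E) :
    E →* (E →* Subgroup.center E) where
  toFun g := commHom hc g
  map_one' := by
    ext x
    simp [commHom_apply]
  map_mul' g h := by
    ext x
    have hx : h * x * h⁻¹ * x⁻¹ ∈ Subgroup.center E := (commHom hc h x).2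
    have hz := Subgroup.mem_center_iff.mp hx
    show g * h * x * (g * h)⁻¹ * x⁻¹ = (g * x * g⁻¹ * x⁻¹) * (h * x * h⁻¹ * x⁻¹)
    calc g * h * x * (g * h)⁻¹ * x⁻¹ = g * ((h * x * h⁻¹ * x⁻¹) * (x * g⁻¹ * x⁻¹)) := by group
      _ = g * ((x * g⁻¹ * x⁻¹) * (h * x * h⁻¹ * x⁻¹)) := by rw [hz]
      _ = (g * x * g⁻¹ * x⁻¹) * (h * x * h⁻¹ * x⁻¹) := by group

theorem ker_commHomHom {E : Type*} [Group E] (hc : commutator E = Subgroup.center E) :
    (commHomHom hc).ker = Subgroup.center E := by
  ext g
  rw [MonoidHom.mem_ker, Subgroup.mem_center_iff]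
  constructor
  · intro h x
    have h1 := congrArg (fun f : E →* Subgroup.center E => ((f x : Subgroup.center E) : E)) h
    have h2 : g * x * g⁻¹ * x⁻¹ = 1 := h1
    calc x * g = (g * x * g⁻¹ * x⁻¹)⁻¹ * (g * x) := by group
      _ = g * x := by rw [h2]; group
  · intro h
    ext x
    show g * x * g⁻¹ * x⁻¹ = 1
    have := h x
    calc g * x * g⁻¹ * x⁻¹ = (x * g) * g⁻¹ * x⁻¹ := by rw [this]
      _ = 1 := by group

theorem card_hom_le {E : Type*} [Group E] [Finite E] (hZ : Nat.card (Subgroup.center E) = 2) :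
    Nat.card (E →* Subgroup.center E) ≤ Nat.card (Abelianization E) := by
  -- an injective character of the centre
  obtain ⟨y, hy⟩ := (Nat.card_eq_two_iff' (1 : Subgroup.center E)).mp hZ
  have : NeZero ((Monoid.exponent (Subgroup.center E) : ℕ) : ℂ) :=
    ⟨Nat.cast_ne_zero.mpr Monoid.exponent_ne_zero_of_finite⟩
  obtain ⟨χ, hχ⟩ := CommGroup.exists_apply_ne_one_of_hasEnoughRootsOfUnity (Subgroup.center E) ℂ hy.1
  have hχinj : Function.Injective χ := by
    rw [injective_iff_map_eq_one]
    intro a ha
    by_contra hne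
    have := hy.2 a hne
    rw [this] at ha
    exact hχ ha
  have : NeZero ((Monoid.exponent (Abelianization E) : ℕ) : ℂ) :=
    ⟨Nat.cast_ne_zero.mpr Monoid.exponent_ne_zero_of_finite⟩
  rw [← CommGroup.card_monoidHom_of_hasEnoughRootsOfUnity (Abelianization E) ℂ]
  apply Nat.card_le_card_of_injective (fun h : E →* Subgroup.center E => Abelianization.lift (χ.comp h))
  intro h1 h2 h12
  have h3 : χ.comp h1 = χ.comp h2 := Abelianization.lift.injective h12
  ext x
  have h4 := DFunLike.congr_fun h3 x
  exact congrArg Subtype.val (hχinj h4)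

/-- For a finite extraspecial 2-group E, an automorphism of E that induces the identity on E modulo its centre is inner (so these automorphisms form exactly the inner automorphism group, an elementary abelian 2-group of order |E|/2). -/
theorem result {E : Type*} [Group E] [Finite E] (hE : Cfsg.IsExtraspecial 2 E) (φ : E ≃* E) (hφ : ∀ x : E, φ x * x⁻¹ ∈ Subgroup.center E) : ∃ g : E, ∀ x : E, φ x = g * x * g⁻¹ := by
  have hc : commutator E = Subgroup.center E := hE.1.2.2
  have hZ : Nat.card (Subgroup.center E) = 2 := hE.2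
  have hle := card_hom_le hZ
  -- the range of commHomHom has the same cardinality as E / Z
  have hrange : Nat.card (commHomHom hc).range = Nat.card (Abelianization E) := by
    rw [← Nat.card_congr (QuotientGroup.quotientKerEquivRange (commHomHom hc)).toEquiv]
    have hker : (commHomHom hc).ker = commutator E := by rw [ker_commHomHom, hc]
    exact Nat.card_congr (QuotientGroup.quotientMulEquivOfEq hker).toEquiv
  have hfin : Finite (E →* Subgroup.center E) := Finite.of_injective _ DFunLike.coe_injective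
  have htop : (commHomHom hc).range = ⊤ := by
    apply Subgroup.eq_top_of_le_card
    rw [hrange]
    exact hle
  -- the hom attached to φ
  let f : E →* Subgroup.center E :=
    { toFun := fun x => ⟨φ x * x⁻¹, hφ x⟩
      map_one' := by ext; simp
      map_mul' := by
        intro x y
        ext
        have hz := Subgroup.mem_center_iff.mp (hφ y) x⁻¹
        show φ (x * y) * (x * y)⁻¹ = (φ x * x⁻¹) * (φ y * y⁻¹)
        rw [map_mul]
        calc φ x * φ y * (x * y)⁻¹ = φ x * ((φ y * y⁻¹) * x⁻¹) := by group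
          _ = φ x * (x⁻¹ * (φ y * y⁻¹)) := by rw [hz]
          _ = (φ x * x⁻¹) * (φ y * y⁻¹) := by group }
  have hf : f ∈ (commHomHom hc).range := by rw [htop]; exact Subgroup.mem_top f
  obtain ⟨g, hg⟩ := hf
  refine ⟨g, fun x => ?_⟩
  have h1 := congrArg (fun k : E →* Subgroup.center E => ((k x : Subgroup.center E) : E)) hg
  have h2 : g * x * g⁻¹ * x⁻¹ = φ x * x⁻¹ := h1
  calc φ x = φ x * x⁻¹ * x := by group
    _ = g * x * g⁻¹ * x⁻¹ * x := by rw [h2]
    _ = g * x * g⁻¹ := by group

end Cfsg.Agent.S5395
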