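import Cfsg.Statements.S5435
import Mathlib
import Cfsg.Agent.Lib.helper2.CentTransfer
import Cfsg.Agent.Lib.helper16.ZStar
import Cfsg.Agent.Lib.helper1.PGroup
import Cfsg.Agent.Lib.helper1.Dihedral
import Cfsg.Agent.Lib.helper9.PPrimeCore

set_option autoImplicit false
open Cfsg

namespace Cfsg.Agent.S5435

/-- Let L be a finite non-abelian simple group with an involution z whose centralizer R is a Sylow 2-subgroup of L whose Frattini subgroup is the subgroup generated by z. Then R is dihedral of order 8. -/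
theorem result {L : Type*} [Group L] [Finite L] [IsSimpleGroup L] (hL : ¬ IsMulCommutative L) (z : L) (hz : orderOf z = 2) (R : Sylow 2 L) (hR : (R : Subgroup L) = Subgroup.centralizer ({z} : Set L)) (hΦ : (frattini ↥(R : Subgroup L)).map (R : Subgroup L).subtype = Subgroup.zpowers z) : Nonempty (↥(R : Subgroup L) ≃* DihedralGroup 4) := by
  classical
  haveI : Fact (Nat.Prime 2) := ⟨Nat.prime_two⟩
  set P : Subgroup L := (R : Subgroup L) with hPdef
  have hz1 : z ≠ 1 := by
    intro h; rw [h, orderOf_one] at hz; omega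
  have hzz : z * z = 1 := by rw [← pow_two, ← hz]; exact pow_orderOf_eq_one z
  have hzinv : z⁻¹ = z := inv_eq_of_mul_eq_one_left hzz
  have hmemP : ∀ x : L, x ∈ P ↔ x * z = z * x := by
    intro x
    rw [hR, Subgroup.mem_centralizer_singleton_iff]
  have hzP : z ∈ P := (hmemP z).2 rfl
  have hzp : ∀ y ∈ Subgroup.zpowers z, y = 1 ∨ y = z := by
    intro y hy
    obtain ⟨k, rfl⟩ := Subgroup.mem_zpowers_iff.mp hy
    rcases Int.even_or_odd' k with ⟨m, rfl | rfl⟩
    · left
      rw [zpow_mul, zpow_ofNat, pow_two, hzz, one_zpow]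
    · right
      rw [zpow_add, zpow_mul, zpow_ofNat, pow_two, hzz, one_zpow, one_mul, zpow_one]
  have hPp : IsPGroup 2 P := R.isPGroup'
  have hzF : ∀ w : P, w ∈ frattini P → (w : L) = 1 ∨ (w : L) = z := by
    intro w hw
    apply hzp
    rw [← hΦ]
    exact ⟨w, hw, rfl⟩
  have hsq : ∀ x ∈ P, x * x = 1 ∨ x * x = z := by
    intro x hx
    have h := Cfsg.Agent.Lib.helper1.pow_mem_frattini 2 hPp (⟨x, hx⟩ : P)
    have := hzF _ h
    simpa [pow_two] using this
  have hcm : ∀ x ∈ P, ∀ y ∈ P, x * y * x⁻¹ * y⁻¹ = 1 ∨ x * y * x⁻¹ * y⁻¹ = z := by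
    intro x hx y hy
    have h := Cfsg.Agent.Lib.helper1.commutator_le_frattini 2 hPp
      (Subgroup.commutator_mem_commutator (Subgroup.mem_top (⟨x, hx⟩ : P))
        (Subgroup.mem_top (⟨y, hy⟩ : P)))
    have := hzF _ h
    simpa [commutatorElement_def] using this
  have hzcP : ∀ x ∈ P, x * z = z * x := fun x hx => (hmemP x).1 hx
  -- N(P) = P
  have hN : ∀ g : L, (∀ x ∈ P, g * x * g⁻¹ ∈ P) → g ∈ P := by
    intro g hg
    let f : P →* P :=
      { toFun := fun x => ⟨g * x * g⁻¹, hg x x.2⟩
        map_one' := by apply Subtype.ext; simp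
        map_mul' := by intro a b; apply Subtype.ext; simp }
    have hfinj : Function.Injective f := by
      intro a b hab
      have h1 : g * (a : L) * g⁻¹ = g * (b : L) * g⁻¹ := congrArg Subtype.val hab
      apply Subtype.ext
      exact mul_left_cancel (mul_right_cancel h1)
    have hfbij : Function.Bijective f := Finite.injective_iff_bijective.mp hfinj
    let e : P ≃* P := MulEquiv.ofBijective f hfbij
    have hchar : (frattini P).Characteristic := frattini_characteristic
    have hzFr : (⟨z, hzP⟩ : P) ∈ frattini P := by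
      have h1 : z ∈ (frattini ↥P).map P.subtype := by
        rw [hΦ]; exact Subgroup.mem_zpowers z
      obtain ⟨w, hw, hwz⟩ := h1
      have : w = ⟨z, hzP⟩ := Subtype.ext hwz
      rwa [this] at hw
    have h2 : e ⟨z, hzP⟩ ∈ frattini P := by
      have h3 := hchar.fixed e
      have h4 : (⟨z, hzP⟩ : P) ∈ (frattini P).comap e.toMonoidHom := by rw [h3]; exact hzFr
      exact h4
    have h5 : g * z * g⁻¹ = 1 ∨ g * z * g⁻¹ = z := hzF _ h2
    rw [hmemP]
    rcases h5 with h5 | h5
    · exfalso
      apply hz1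
      have : z = g⁻¹ * (g * z * g⁻¹) * g := by group
      rw [this, h5]; group
    · calc g * z = (g * z * g⁻¹) * g := by group
        _ = z * g := by rw [h5]
  -- no normal subgroup of index 2
  have hnoidx : ¬ ∃ M : Subgroup L, M.Normal ∧ M.index = 2 := by
    rintro ⟨M, hMn, hMi⟩
    rcases hMn.eq_bot_or_eq_top with h | h
    · rw [h, Subgroup.index_bot] at hMi
      haveI : IsCyclic L := isCyclic_of_prime_card hMi
      exact hL ⟨⟨fun a b => IsCyclic.commGroup.mul_comm a b⟩⟩
    · rw [h, Subgroup.index_top] at hMi; omega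
  -- the only central involution of P is z
  have hcent : ∀ c ∈ P, orderOf c = 2 → (∀ x ∈ P, x * c = c * x) → c = z := by
    intro c hcP hc hcZ
    by_contra hne
    have hcF : (⟨c, hcP⟩ : P) ∉ frattini P := by
      intro h
      rcases hzF _ h with h1 | h1
      · have h1' : c = 1 := h1
        rw [h1', orderOf_one] at hc; omega
      · exact hne h1
    simp only [frattini, Order.radical, Subgroup.mem_iInf, not_forall] at hcF
    obtain ⟨M, hM, hcM⟩ := hcF
    have hMi := (Cfsg.Agent.Lib.helper1.coatom_normal_index 2 hPp M hM).2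
    obtain ⟨N, hNn, hNi, -⟩ :=
      Cfsg.Agent.Lib.helper2.CentTransfer.central_transfer R hN M hMi c hc hcP hcZ hcM
    exact hnoidx ⟨N, hNn, hNi⟩
  -- Z*: z has another conjugate in P
  obtain ⟨g, hgP, hgne⟩ : ∃ g : L, g * z * g⁻¹ ∈ P ∧ g * z * g⁻¹ ≠ z := by
    by_contra hcon
    push Not at hcon
    have hzs := Cfsg.Agent.Lib.helper16.ZStar.zstar_sylow R z hz hzP hcon
    haveI hOn : (Cfsg.pPrimeCore 2 L).Normal := Cfsg.Agent.Lib.helper9.ppc_normal 2 L
    have hOc : (Nat.card (Cfsg.pPrimeCore 2 L)).Coprime 2 :=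
      Cfsg.Agent.Lib.helper9.pPrimeCore_coprime 2 L
    have hO : Cfsg.pPrimeCore 2 L = ⊥ := by
      rcases hOn.eq_bot_or_eq_top with h | h
      · exact h
      · exfalso
        rw [h, Subgroup.card_top] at hOc
        have h2 : 2 ∣ Nat.card L := hz ▸ orderOf_dvd_natCard z
        have := Nat.Coprime.eq_one_of_dvd (Nat.coprime_comm.mp hOc) h2
        omega
    have hzc : ∀ x : L, z * x = x * z := by
      intro x
      have := hzs x
      rw [hO, Subgroup.mem_bot] at this
      calc z * x = (z * x * z⁻¹ * x⁻¹) * (x * z) := by group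
        _ = x * z := by rw [this, one_mul]
    have hcen : Subgroup.center L = ⊤ := by
      rcases (inferInstance : (Subgroup.center L).Normal).eq_bot_or_eq_top with h | h
      · exfalso
        have : z ∈ Subgroup.center L := Subgroup.mem_center_iff.mpr (fun x => (hzc x).symm)
        rw [h, Subgroup.mem_bot] at this
        exact hz1 this
      · exact h
    exact hL ⟨⟨fun a b => by
      have : a ∈ Subgroup.center L := by rw [hcen]; trivial
      exact (Subgroup.mem_center_iff.mp this b).symm⟩⟩
  obtain ⟨z', hz'⟩ : ∃ z' : L, z' = g * z * g⁻¹ := ⟨_, rfl⟩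
  rw [← hz'] at hgP hgne
  have hz'z' : z' * z' = 1 := by
    rw [hz']
    calc g * z * g⁻¹ * (g * z * g⁻¹) = g * (z * z) * g⁻¹ := by group
      _ = 1 := by rw [hzz]; group
  have hz'1 : z' ≠ 1 := by
    intro h
    apply hz1
    have : z = g⁻¹ * z' * g := by rw [hz']; group
    rw [this, h]; group
  have hz'inv : z'⁻¹ = z' := inv_eq_of_mul_eq_one_left hz'z'
  have hz'o : orderOf z' = 2 := orderOf_eq_prime (by rw [pow_two]; exact hz'z') hz'1
  have hz'nc : ¬ ∀ x ∈ P, x * z' = z' * x := fun h => hgne (hcent z' hgP hz'o h)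
  push Not at hz'nc
  obtain ⟨y, hyP, hyz'⟩ := hz'nc
  have hyc : y * z' * y⁻¹ = z * z' := by
    rcases hcm y hyP z' hgP with h | h
    · exfalso; apply hyz'
      calc y * z' = (y * z' * y⁻¹ * z'⁻¹) * (z' * y) := by group
        _ = z' * y := by rw [h, one_mul]
    · calc y * z' * y⁻¹ = (y * z' * y⁻¹ * z'⁻¹) * z' := by group
        _ = z * z' := by rw [h]
  -- elements commuting with z' have square 1
  have hA2 : ∀ x ∈ P, x * z' = z' * x → x * x = 1 := by
    intro x hx hxz'
    rcases hsq x hx with h | h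
    · exact h
    · exfalso
      have h1 : g⁻¹ * x * g ∈ P := by
        rw [hmemP]
        have h0 : x * (g * z * g⁻¹) = (g * z * g⁻¹) * x := by rw [← hz']; exact hxz'
        calc g⁻¹ * x * g * z = g⁻¹ * (x * (g * z * g⁻¹)) * g := by group
          _ = g⁻¹ * ((g * z * g⁻¹) * x) * g := by rw [h0]
          _ = z * (g⁻¹ * x * g) := by group
      rcases hsq _ h1 with h2 | h2
      · have h3 : x * x = 1 := by
          calc x * x = g * ((g⁻¹ * x * g) * (g⁻¹ * x * g)) * g⁻¹ := by group
            _ = 1 := by rw [h2]; group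
        rw [h] at h3; exact hz1 h3
      · have h3 : x * x = z' := by
          calc x * x = g * ((g⁻¹ * x * g) * (g⁻¹ * x * g)) * g⁻¹ := by group
            _ = z' := by rw [h2, hz']
        rw [h] at h3; exact hgne h3.symm
  have hAc : ∀ x1 ∈ P, x1 * z' = z' * x1 → ∀ x2 ∈ P, x2 * z' = z' * x2 → x1 * x2 = x2 * x1 := by
    intro x1 h1 h1' x2 h2 h2'
    have e1 := hA2 x1 h1 h1'
    have e2 := hA2 x2 h2 h2'
    have e3 := hA2 (x1 * x2) (mul_mem h1 h2) (by rw [mul_assoc, h2', ← mul_assoc, h1', mul_assoc])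
    have i1 : x1⁻¹ = x1 := inv_eq_of_mul_eq_one_left e1
    have i2 : x2⁻¹ = x2 := inv_eq_of_mul_eq_one_left e2
    have i3 : (x1 * x2)⁻¹ = x1 * x2 := inv_eq_of_mul_eq_one_left e3
    rw [← i3, mul_inv_rev, i1, i2]
  -- every element of P commutes with z' or becomes so after multiplying by y⁻¹
  have hsplit : ∀ x ∈ P, x * z' = z' * x ∨ (y⁻¹ * x) * z' = z' * (y⁻¹ * x) := by
    intro x hx
    rcases hcm x hx z' hgP with hx1 | hx1
    · left
      calc x * z' = (x * z' * x⁻¹ * z'⁻¹) * (z' * x) := by group
        _ = z' * x := by rw [hx1, one_mul]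
    · right
      have hxz' : x * z' * x⁻¹ = z * z' := by
        calc x * z' * x⁻¹ = (x * z' * x⁻¹ * z'⁻¹) * z' := by group
          _ = z * z' := by rw [hx1]
      have h3 : y⁻¹ * (x * z' * x⁻¹) * y = z' := by rw [hxz', ← hyc]; group
      calc y⁻¹ * x * z' = (y⁻¹ * (x * z' * x⁻¹) * y) * (y⁻¹ * x) := by group
        _ = z' * (y⁻¹ * x) := by rw [h3]
  have hAZ : ∀ a ∈ P, a * z' = z' * a → a = 1 ∨ a = z ∨ y * a * y⁻¹ = z * a := by
    intro a haP haz'
    rcases hcm y hyP a haP with h | h
    · have hya : y * a = a * y := by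
        calc y * a = (y * a * y⁻¹ * a⁻¹) * (a * y) := by group
          _ = a * y := by rw [h, one_mul]
      by_cases ha1 : a = 1
      · left; exact ha1
      · right; left
        apply hcent a haP (orderOf_eq_prime (by rw [pow_two]; exact hA2 a haP haz') ha1)
        intro x hx
        rcases hsplit x hx with hxz' | hw
        · exact hAc x hx hxz' a haP haz'
        · have h3 := hAc (y⁻¹ * x) (mul_mem (inv_mem hyP) hx) hw a haP haz'
          calc x * a = y * ((y⁻¹ * x) * a) := by group
            _ = y * (a * (y⁻¹ * x)) := by rw [h3]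
            _ = (y * a) * (y⁻¹ * x) := by group
            _ = (a * y) * (y⁻¹ * x) := by rw [hya]
            _ = a * x := by group
    · right; right
      calc y * a * y⁻¹ = (y * a * y⁻¹ * a⁻¹) * a := by group
        _ = z * a := by rw [h]
  have hA4 : ∀ a ∈ P, a * z' = z' * a → a = 1 ∨ a = z ∨ a = z' ∨ a = z * z' := by
    intro a haP haz'
    rcases hAZ a haP haz' with h | h | h
    · left; exact h
    · right; left; exact h
    · have hb : (a * z') * z' = z' * (a * z') := by
        calc (a * z') * z' = (z' * a) * z' := by rw [haz']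
          _ = z' * (a * z') := mul_assoc _ _ _
      rcases hAZ (a * z') (mul_mem haP hgP) hb with h' | h' | h'
      · right; right; left
        calc a = a * z' * z'⁻¹ := by group
          _ = z' := by rw [h', one_mul, hz'inv]
      · right; right; right
        calc a = a * z' * z'⁻¹ := by group
          _ = z * z' := by rw [h', hz'inv]
      · exfalso
        have e : y * (a * z') * y⁻¹ = (y * a * y⁻¹) * (y * z' * y⁻¹) := by group
        rw [e, h, hyc] at h'
        have h3 : (z * a) * (z * z') = (z * a) * z' := by rw [h']; group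
        have h4 : z * z' = z' := mul_left_cancel h3
        exact hz1 (mul_right_cancel (h4.trans (one_mul z').symm))
  have hP8 : ∀ x ∈ P, x ∈ ([1, z, z', z * z', y, y * z, y * z', y * (z * z')] : List L).toFinset := by
    intro x hx
    rw [List.mem_toFinset]
    rcases hsplit x hx with hxz' | hw
    · rcases hA4 x hx hxz' with h | h | h | h <;> simp [h]
    · have hxe : x = y * (y⁻¹ * x) := by group
      rcases hA4 (y⁻¹ * x) (mul_mem (inv_mem hyP) hx) hw with h | h | h | h <;>
        (rw [hxe, h]; simp)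
  have hcard : Nat.card P ≤ 8 := by
    have h1 : (P : Set L) ⊆
        ((([1, z, z', z * z', y, y * z, y * z', y * (z * z')] : List L).toFinset : Finset L) : Set L) :=
      fun x hx => hP8 x hx
    calc Nat.card P = Set.ncard (P : Set L) := rfl
      _ ≤ Set.ncard ((([1, z, z', z * z', y, y * z, y * z', y * (z * z')] : List L).toFinset : Finset L) : Set L) :=
          Set.ncard_le_ncard h1 (Finset.finite_toSet _)
      _ = (([1, z, z', z * z', y, y * z, y * z', y * (z * z')] : List L).toFinset).card :=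
          Set.ncard_coe_finset _
      _ ≤ 8 := List.toFinset_card_le _
  -- a generator of order 4 inverted by z'
  obtain ⟨ρ0, hρP, hρ2, hρc, hρn⟩ : ∃ ρ0 ∈ P, ρ0 * ρ0 = z ∧ z' * ρ0 * z'⁻¹ = ρ0⁻¹ ∧
      z' * ρ0 ≠ ρ0 * z' := by
    have hyz : y * z = z * y := hzcP y hyP
    have hz'y : z' * y = z * y * z' := by
      have : y * z' = z * z' * y := by rw [← hyc]; group
      calc z' * y = z⁻¹ * (z * z' * y) := by group
        _ = z⁻¹ * (y * z') := by rw [this]
        _ = z * y * z' := by rw [hzinv]; group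
    rcases hsq y hyP with h | h
    · -- y involution: take y * z'
      have hyinv : y⁻¹ = y := inv_eq_of_mul_eq_one_left h
      refine ⟨y * z', mul_mem hyP hgP, ?_, ?_, ?_⟩
      · calc y * z' * (y * z') = (y * z' * y⁻¹) * (y * y) * z' := by group
          _ = z := by rw [hyc, h, mul_one, mul_assoc, hz'z', mul_one]
      · rw [mul_inv_rev, hyinv, hz'inv]
        calc z' * (y * z') * z' = z' * y * (z' * z') := by group
          _ = z' * y := by rw [hz'z', mul_one]
      · intro hh
        apply hyz'
        have : z' * y * z' = y * (z' * z') := by rw [← mul_assoc y z' z', ← hh]; group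
        rw [hz'z', mul_one] at this
        calc y * z' = (z' * y * z') * z' := by rw [this]
          _ = z' * y * (z' * z') := by group
          _ = z' * y := by rw [hz'z', mul_one]
    · -- y of order 4
      have hyinv : y⁻¹ = z * y := by
        apply inv_eq_of_mul_eq_one_right
        rw [← mul_assoc, hyz, mul_assoc, h, hzz]
      refine ⟨y, hyP, h, ?_, fun hh => hyz' hh.symm⟩
      rw [hyinv, hz'y, hz'inv, mul_assoc, hz'z', mul_one]
  let s : P := ⟨z', hgP⟩
  let ρ : P := ⟨ρ0, hρP⟩
  have hss : s * s = 1 := Subtype.ext hz'z'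
  have hconj : s * ρ * s⁻¹ = ρ⁻¹ := Subtype.ext hρc
  have hord : orderOf ρ = 4 := by
    have h1 : ¬ ρ ^ 2 ^ 1 = 1 := by
      intro h
      apply hz1
      have h2 := congrArg Subtype.val h
      have h3 : ρ0 ^ 2 ^ 1 = 1 := h2
      rw [pow_one, pow_two, hρ2] at h3
      exact h3
    have h2 : ρ ^ 2 ^ (1 + 1) = 1 := by
      apply Subtype.ext
      show ρ0 ^ 2 ^ (1 + 1) = 1
      have : ρ0 ^ 2 ^ (1 + 1) = (ρ0 * ρ0) * (ρ0 * ρ0) := by
        norm_num [pow_succ, mul_assoc]
      rw [this, hρ2, hzz]
    exact orderOf_eq_prime_pow h1 h2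
  have hnot : s ∉ Subgroup.zpowers ρ := by
    intro h
    obtain ⟨k, hk⟩ := Subgroup.mem_zpowers_iff.mp h
    have h1 : s * ρ = ρ * s := by
      rw [← hk]; exact ((Commute.refl ρ).zpow_left k).eq
    exact hρn (congrArg Subtype.val h1)
  have hinj := Cfsg.Agent.Lib.helper1.dihHom_injective s ρ hss hconj hnot
  have hcard' : Nat.card (DihedralGroup (orderOf ρ)) = Nat.card P := by
    apply le_antisymm
    · exact Nat.card_le_card_of_injective _ hinj
    · rw [DihedralGroup.nat_card, hord]; exact hcard
  have hbij := (Nat.bijective_iff_injective_and_card _).2 ⟨hinj, hcard'⟩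
  rw [← hord]
  exact ⟨(MulEquiv.ofBijective _ hbij).symm⟩

end Cfsg.Agent.S5435
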