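import Cfsg.Statements.S5437

set_option autoImplicit false
open Cfsg

namespace Cfsg.Agent.S5437

theorem mem_conj_iff {G : Type*} [Group G] (H : Subgroup G) (g x : G) :
    x ∈ H.map (MulAut.conj g).toMonoidHom ↔ g⁻¹ * x * g ∈ H := by
  constructor
  · rintro ⟨y, hy, rfl⟩
    simp only [MulEquiv.coe_toMonoidHom, MulAut.conj_apply]
    have : g⁻¹ * (g * y * g⁻¹) * g = y := by group
    rw [this]; exact hy
  · intro h
    refine ⟨g⁻¹ * x * g, h, ?_⟩
    simp only [MulEquiv.coe_toMonoidHom, MulAut.conj_apply]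
    group

theorem fix_iff {G : Type*} [Group G] (H : Subgroup G) (g x : G) :
    x • (g : G ⧸ H) = (g : G ⧸ H) ↔ g⁻¹ * x * g ∈ H := by
  rw [MulAction.Quotient.smul_mk, QuotientGroup.eq]
  have h1 : (x • g)⁻¹ * g = (g⁻¹ * x * g)⁻¹ := by simp [smul_eq_mul, mul_assoc]
  rw [h1, inv_mem_iff]

/-- Let I be a set of involutions of the finite group G closed under conjugation, and H a subgroup of G. The following are equivalent: (1) for every member x of I lying in H, the conjugates of x lying in H form a single H-class and the centralizer of x lies in H; (2) for every g outside H, no member of I lies in both H and g H g⁻¹; (3) every member of I lying in H fixes exactly one coset in the action of G on the cosets of H. -/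
theorem result {G : Type*} [Group G] [Finite G] (I : Set G) (hI : ∀ x ∈ I, orderOf x = 2) (hIc : ∀ g : G, ∀ x ∈ I, g * x * g⁻¹ ∈ I) (H : Subgroup G) : ((∀ x ∈ I, x ∈ H → (∀ g : G, g * x * g⁻¹ ∈ H → ∃ h ∈ H, h * x * h⁻¹ = g * x * g⁻¹) ∧ Subgroup.centralizer ({x} : Set G) ≤ H) ↔ (∀ g : G, g ∉ H → ∀ x ∈ I, ¬ (x ∈ H ∧ x ∈ (H : Subgroup G).map (MulAut.conj g).toMonoidHom))) ∧ ((∀ g : G, g ∉ H → ∀ x ∈ I, ¬ (x ∈ H ∧ x ∈ (H : Subgroup G).map (MulAut.conj g).toMonoidHom)) ↔ ∀ x ∈ I, x ∈ H → ∃! c : G ⧸ H, x • c = c) := by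
  refine ⟨⟨?_, ?_⟩, ⟨?_, ?_⟩⟩
  · intro h1 g hg x hxI ⟨hxH, hxg⟩
    rw [mem_conj_iff] at hxg
    obtain ⟨hconj, hcent⟩ := h1 x hxI hxH
    have hxg' : g⁻¹ * x * g⁻¹⁻¹ ∈ H := by simpa using hxg
    obtain ⟨h, hh, hhx⟩ := hconj g⁻¹ hxg'
    have hc : g * h ∈ Subgroup.centralizer ({x} : Set G) := by
      rw [Subgroup.mem_centralizer_singleton_iff]
      have : g * (h * x * h⁻¹) * g⁻¹ = x := by rw [hhx]; group
      calc g * h * x = g * (h * x * h⁻¹) * g⁻¹ * (g * h) := by group
        _ = x * (g * h) := by rw [this]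
    have := hcent hc
    exact hg ((Subgroup.mul_mem_cancel_right H hh).mp this)
  · intro h2 x hxI hxH
    refine ⟨?_, ?_⟩
    · intro g hgx
      by_cases hg : g ∈ H
      · exact ⟨g, hg, rfl⟩
      · exfalso
        have hg' : g⁻¹ ∉ H := fun h => hg (by simpa using H.inv_mem h)
        refine h2 g⁻¹ hg' x hxI ⟨hxH, ?_⟩
        rw [mem_conj_iff]
        simpa using hgx
    · intro c hc
      rw [Subgroup.mem_centralizer_singleton_iff] at hc
      by_contra hcH
      refine h2 c hcH x hxI ⟨hxH, ?_⟩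
      rw [mem_conj_iff]
      have : c⁻¹ * x * c = x := by
        rw [mul_assoc, ← hc]; group
      rw [this]; exact hxH
  · intro h2 x hxI hxH
    refine ⟨((1 : G) : G ⧸ H), ?_, ?_⟩
    · show x • ((1 : G) : G ⧸ H) = _
      rw [fix_iff]; simpa using hxH
    · intro c hc
      induction c using QuotientGroup.induction_on with
      | H g =>
        rw [fix_iff] at hc
        by_contra hne
        have hg : g ∉ H := by
          intro hg
          apply hne
          rw [QuotientGroup.eq]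
          simpa using H.inv_mem hg
        refine h2 g hg x hxI ⟨hxH, ?_⟩
        rw [mem_conj_iff]; exact hc
  · intro h3 g hg x hxI ⟨hxH, hxg⟩
    rw [mem_conj_iff] at hxg
    obtain ⟨c, -, huniq⟩ := h3 x hxI hxH
    have e1 : ((1 : G) : G ⧸ H) = c := huniq _ ((fix_iff H 1 x).mpr (by simpa using hxH))
    have e2 : ((g : G) : G ⧸ H) = c := huniq _ ((fix_iff H g x).mpr hxg)
    have : ((1 : G) : G ⧸ H) = (g : G ⧸ H) := e1.trans e2.symm
    rw [QuotientGroup.eq] at this
    exact hg (by simpa using this)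

end Cfsg.Agent.S5437
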