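import Cfsg.Statements.S5438

set_option autoImplicit false
open Cfsg

namespace Cfsg.Agent.S5438

open scoped Pointwise

theorem isPGroup_zpowers {G : Type*} [Group G] (y : G) (k : ℕ) (h : orderOf y = 2 ^ k) :
    IsPGroup 2 (Subgroup.zpowers y) :=
  IsPGroup.of_card ((Nat.card_zpowers y).trans h)

/-- a 2-subgroup `R` of `K` is `K`-conjugate into a given Sylow 2-subgroup of `K`. -/
theorem conj_into_sylow {G : Type*} [Group G] [Finite G] (K : Subgroup G) (S : Sylow 2 K)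
    (R : Subgroup G) (hR : IsPGroup 2 R) (hRK : R ≤ K) :
    ∃ c ∈ K, ∀ r ∈ R, c * r * c⁻¹ ∈ (S : Subgroup K).map K.subtype := by
  have : Fact (Nat.Prime 2) := ⟨Nat.prime_two⟩
  have hR' : IsPGroup 2 (R.subgroupOf K) := hR.comap_subtype
  obtain ⟨Q, hQ⟩ := hR'.exists_le_sylow
  obtain ⟨c, hc⟩ := MulAction.exists_smul_eq K Q S
  refine ⟨c, c.2, fun r hr => ?_⟩
  have hrQ : (⟨r, hRK hr⟩ : K) ∈ (Q : Subgroup K) := hQ (by simpa [Subgroup.mem_subgroupOf] using hr)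
  have h1 : (MulAut.conj c) • (⟨r, hRK hr⟩ : K) ∈ (MulAut.conj c) • (Q : Subgroup K) :=
    Subgroup.smul_mem_pointwise_smul _ _ _ hrQ
  rw [← Sylow.coe_subgroup_smul, hc] at h1
  refine ⟨_, h1, ?_⟩
  simp [MulAut.smul_def]

theorem conj_into_sylow_top {G : Type*} [Group G] [Finite G] (P : Sylow 2 G)
    (R : Subgroup G) (hR : IsPGroup 2 R) :
    ∃ c : G, ∀ r ∈ R, c * r * c⁻¹ ∈ (P : Subgroup G) := by
  have : Fact (Nat.Prime 2) := ⟨Nat.prime_two⟩
  obtain ⟨Q, hQ⟩ := hR.exists_le_sylow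
  obtain ⟨c, hc⟩ := MulAction.exists_smul_eq G Q P
  refine ⟨c, fun r hr => ?_⟩
  have h1 : (MulAut.conj c) • r ∈ (MulAut.conj c) • (Q : Subgroup G) :=
    Subgroup.smul_mem_pointwise_smul _ _ _ (hQ hr)
  rw [← Sylow.coe_subgroup_smul, hc] at h1
  simpa [MulAut.smul_def] using h1

/-- Let z be a 2-central involution of the finite group G (an involution central in some Sylow 2-subgroup) and H a subgroup containing z such that the coset H is the only coset of H fixed by z (in the action of G on the cosets of H). Then H has odd index in G, and for every 2-element x of H the conjugates of x lying in H form a single H-class. -/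
theorem result {G : Type*} [Group G] [Finite G] (z : G) (hz : Cfsg.IsTwoCentralInvolution z) (H : Subgroup G) (hzH : z ∈ H) (hfix : ∀ g : G, g⁻¹ * z * g ∈ H → g ∈ H) : Odd H.index ∧ ∀ x ∈ H, (∃ k : ℕ, orderOf x = 2 ^ k) → ∀ g : G, g * x * g⁻¹ ∈ H → ∃ h ∈ H, h * x * h⁻¹ = g * x * g⁻¹ := by
  have : Fact (Nat.Prime 2) := ⟨Nat.prime_two⟩
  obtain ⟨hz2, P, hzP, hPz⟩ := hz
  have hPH : (P : Subgroup G) ≤ H := by
    intro p hp
    apply hfix
    have : p⁻¹ * z * p = z := by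
      have := hPz p hp
      calc p⁻¹ * z * p = p⁻¹ * (z * p) := by group
        _ = p⁻¹ * (p * z) := by rw [this]
        _ = z := by group
    rw [this]; exact hzH
  refine ⟨?_, ?_⟩
  · have h1 : H.index ∣ (P : Subgroup G).index := Subgroup.index_dvd_of_le hPH
    have h2 : ¬ 2 ∣ (P : Subgroup G).index := P.not_dvd_index
    rw [← Nat.not_even_iff_odd, even_iff_two_dvd]
    exact fun h => h2 (h.trans h1)
  · intro x hxH ⟨k, hk⟩ g hgx
    -- Sylow 2-subgroup of H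
    let PH : Sylow 2 H := P.subtype hPH
    have hPHmap : ∀ w : G, w ∈ (PH : Subgroup H).map H.subtype → w ∈ (P : Subgroup G) := by
      intro w hw
      rw [Sylow.coe_subtype, Subgroup.subgroupOf_map_subtype] at hw
      exact hw.1
    -- key: a 2-element y of H commutes with some a⁻¹ z a, a ∈ H
    have keyH : ∀ y ∈ H, (∃ k : ℕ, orderOf y = 2 ^ k) → ∃ a ∈ H, y * (a⁻¹ * z * a) = (a⁻¹ * z * a) * y := by
      intro y hy ⟨k, hk⟩
      obtain ⟨a, haH, ha⟩ := conj_into_sylow H PH (Subgroup.zpowers y) (isPGroup_zpowers y k hk)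
        (by rw [Subgroup.zpowers_le]; exact hy)
      have h1 : a * y * a⁻¹ ∈ (P : Subgroup G) := hPHmap _ (ha y (Subgroup.mem_zpowers y))
      have h2 := hPz _ h1
      refine ⟨a, haH, ?_⟩
      calc y * (a⁻¹ * z * a) = a⁻¹ * ((a * y * a⁻¹) * z) * a := by group
        _ = a⁻¹ * (z * (a * y * a⁻¹)) * a := by rw [h2]
        _ = (a⁻¹ * z * a) * y := by group
    have hordy : orderOf (g * x * g⁻¹) = 2 ^ k := by
      have := orderOf_injective (MulAut.conj g).toMonoidHom (MulAut.conj g).injective x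
      simp only [MulEquiv.coe_toMonoidHom, MulAut.conj_apply] at this
      rw [this, hk]
    obtain ⟨a, haH, ha⟩ := keyH x hxH ⟨k, hk⟩
    obtain ⟨b, hbH, hb⟩ := keyH (g * x * g⁻¹) hgx ⟨k, hordy⟩
    -- two conjugates of z in the centralizer of x
    obtain ⟨z₁, hz₁⟩ : ∃ z₁, z₁ = a⁻¹ * z * a := ⟨_, rfl⟩
    obtain ⟨z₂, hz₂⟩ : ∃ z₂, z₂ = g⁻¹ * (b⁻¹ * z * b) * g := ⟨_, rfl⟩
    have hzz : z * z = 1 := by
      have := pow_orderOf_eq_one z
      rw [hz2, pow_two] at this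
      exact this
    have hz₁X : z₁ ∈ Subgroup.centralizer ({x} : Set G) := by
      rw [Subgroup.mem_centralizer_singleton_iff, hz₁]
      exact ha.symm
    have hz₂X : z₂ ∈ Subgroup.centralizer ({x} : Set G) := by
      rw [Subgroup.mem_centralizer_singleton_iff, hz₂]
      calc g⁻¹ * (b⁻¹ * z * b) * g * x = g⁻¹ * ((b⁻¹ * z * b) * (g * x * g⁻¹)) * g := by group
        _ = g⁻¹ * ((g * x * g⁻¹) * (b⁻¹ * z * b)) * g := by rw [hb]
        _ = x * (g⁻¹ * (b⁻¹ * z * b) * g) := by group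
    have hord₁ : orderOf z₁ = 2 ^ 1 := by
      have := orderOf_injective (MulAut.conj a⁻¹).toMonoidHom (MulAut.conj a⁻¹).injective z
      simp only [MulEquiv.coe_toMonoidHom, MulAut.conj_apply, inv_inv] at this
      rw [hz₁, this, hz2, pow_one]
    have hord₂ : orderOf z₂ = 2 ^ 1 := by
      have := orderOf_injective (MulAut.conj (g⁻¹ * b⁻¹)).toMonoidHom (MulAut.conj (g⁻¹ * b⁻¹)).injective z
      simp only [MulEquiv.coe_toMonoidHom, MulAut.conj_apply] at this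
      have e : g⁻¹ * (b⁻¹ * z * b) * g = g⁻¹ * b⁻¹ * z * (g⁻¹ * b⁻¹)⁻¹ := by group
      rw [hz₂, e, this, hz2, pow_one]
    let SX : Sylow 2 (Subgroup.centralizer ({x} : Set G)) := default
    obtain ⟨r₁, hr₁X, hr₁⟩ := conj_into_sylow _ SX (Subgroup.zpowers z₁) (isPGroup_zpowers z₁ 1 hord₁)
      (by rw [Subgroup.zpowers_le]; exact hz₁X)
    obtain ⟨r₂, hr₂X, hr₂⟩ := conj_into_sylow _ SX (Subgroup.zpowers z₂) (isPGroup_zpowers z₂ 1 hord₂)
      (by rw [Subgroup.zpowers_le]; exact hz₂X)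
    have hSXp : IsPGroup 2 ((SX : Subgroup (Subgroup.centralizer ({x} : Set G))).map
        (Subgroup.centralizer ({x} : Set G)).subtype) := SX.2.map _
    obtain ⟨t, ht⟩ := conj_into_sylow_top P _ hSXp
    have h1 := hPH (ht _ (hr₁ z₁ (Subgroup.mem_zpowers z₁)))
    have h2 := hPH (ht _ (hr₂ z₂ (Subgroup.mem_zpowers z₂)))
    -- a r₁⁻¹ t⁻¹ ∈ H
    have h3 : a * r₁⁻¹ * t⁻¹ ∈ H := by
      apply hfix
      have e : (a * r₁⁻¹ * t⁻¹)⁻¹ * z * (a * r₁⁻¹ * t⁻¹) = t * (r₁ * z₁ * r₁⁻¹) * t⁻¹ := by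
        rw [hz₁]; group
      rw [e]; exact h1
    have h4 : b * g * r₂⁻¹ * t⁻¹ ∈ H := by
      apply hfix
      have e : (b * g * r₂⁻¹ * t⁻¹)⁻¹ * z * (b * g * r₂⁻¹ * t⁻¹) = t * (r₂ * z₂ * r₂⁻¹) * t⁻¹ := by
        rw [hz₂]; group
      rw [e]; exact h2
    have h5 : r₁⁻¹ * t⁻¹ ∈ H := by
      have := H.mul_mem (H.inv_mem haH) h3
      have e : a⁻¹ * (a * r₁⁻¹ * t⁻¹) = r₁⁻¹ * t⁻¹ := by group
      rwa [e] at this
    have h6 : g * r₂⁻¹ * t⁻¹ ∈ H := by
      have := H.mul_mem (H.inv_mem hbH) h4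
      have e : b⁻¹ * (b * g * r₂⁻¹ * t⁻¹) = g * r₂⁻¹ * t⁻¹ := by group
      rwa [e] at this
    refine ⟨g * r₂⁻¹ * r₁, ?_, ?_⟩
    · have := H.mul_mem h6 (H.inv_mem h5)
      have e : g * r₂⁻¹ * t⁻¹ * (r₁⁻¹ * t⁻¹)⁻¹ = g * r₂⁻¹ * r₁ := by group
      rwa [e] at this
    · rw [Subgroup.mem_centralizer_singleton_iff] at hr₁X hr₂X
      have e1 : r₁ * x * r₁⁻¹ = x := by rw [hr₁X]; group
      have e2 : r₂⁻¹ * x * r₂ = x := by
        calc r₂⁻¹ * x * r₂ = r₂⁻¹ * (x * r₂) := by group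
          _ = r₂⁻¹ * (r₂ * x) := by rw [hr₂X]
          _ = x := by group
      calc g * r₂⁻¹ * r₁ * x * (g * r₂⁻¹ * r₁)⁻¹ = g * (r₂⁻¹ * (r₁ * x * r₁⁻¹) * r₂) * g⁻¹ := by group
        _ = g * x * g⁻¹ := by rw [e1, e2]

end Cfsg.Agent.S5438
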