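import Cfsg.Statements.S5439

set_option autoImplicit false
open Cfsg

namespace Cfsg.Agent.S5439

theorem fix_iff {G : Type*} [Group G] (H : Subgroup G) (g x : G) :
    x • (g : G ⧸ H) = (g : G ⧸ H) ↔ g⁻¹ * x * g ∈ H := by
  rw [MulAction.Quotient.smul_mk, QuotientGroup.eq]
  have h1 : (x • g)⁻¹ * g = (g⁻¹ * x * g)⁻¹ := by simp [smul_eq_mul, mul_assoc]
  rw [h1, inv_mem_iff]

theorem sq_of_order_two {G : Type*} [Group G] {g : G} (h : orderOf g = 2) : g * g = 1 := by
  have := pow_orderOf_eq_one g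
  rw [h, pow_two] at this
  exact this

theorem pow_swap {G : Type*} [Group G] (a b : G) (haa : a * a = 1) (n : ℕ) :
    (b * a) ^ n * a = a * (a * b) ^ n := by
  induction n with
  | zero => simp
  | succ n ih =>
    calc (b * a) ^ (n + 1) * a = (b * a) ^ n * b * (a * a) := by rw [pow_succ]; group
      _ = (b * a) ^ n * a * (a * b) := by rw [haa, mul_one, mul_assoc ((b * a) ^ n) a, ← mul_assoc a a b, haa, one_mul]
      _ = a * (a * b) ^ (n + 1) := by rw [ih, pow_succ, mul_assoc]

/-- unique fixed coset: if `x ∈ H` has a unique fixed coset then any `g` with `g⁻¹ x g ∈ H` lies in `H`. -/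
theorem mem_of_unique_fix {G : Type*} [Group G] (H : Subgroup G) (x : G)
    (hu : ∃! c : G ⧸ H, x • c = c) (hx : x ∈ H) (g : G) (hg : g⁻¹ * x * g ∈ H) : g ∈ H := by
  obtain ⟨c, -, huniq⟩ := hu
  have e1 : ((1 : G) : G ⧸ H) = c := huniq _ ((fix_iff H 1 x).mpr (by simpa using hx))
  have e2 : ((g : G) : G ⧸ H) = c := huniq _ ((fix_iff H g x).mpr hg)
  have : ((1 : G) : G ⧸ H) = (g : G ⧸ H) := e1.trans e2.symm
  rw [QuotientGroup.eq] at this
  simpa using this

/-- Let I and J be two different conjugacy classes of involutions of the finite group G and H a subgroup such that every member of I ∪ J fixes exactly one coset in the action on the cosets of H, and such that for every a in I ∩ H and every b in (I ∪ J) ∩ H different from a and commuting with it, the centralizer of a b lies in H. Then H = G. -/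
theorem result {G : Type*} [Group G] [Finite G] (I J : Set G) (a₀ b₀ : G) (ha₀ : orderOf a₀ = 2) (hb₀ : orderOf b₀ = 2) (hI : I = {x | IsConj a₀ x}) (hJ : J = {x | IsConj b₀ x}) (hIJ : I ≠ J) (H : Subgroup G) (hfix : ∀ x ∈ I ∪ J, ∃! c : G ⧸ H, x • c = c) (hcent : ∀ a ∈ I, a ∈ H → ∀ b ∈ I ∪ J, b ∈ H → a ≠ b → a * b = b * a → Subgroup.centralizer ({a * b} : Set G) ≤ H) : H = ⊤ := by
  have hnc : ¬ IsConj a₀ b₀ := by
    intro h
    apply hIJ
    rw [hI, hJ]
    ext x
    exact ⟨fun hx => h.symm.trans hx, fun hx => h.trans hx⟩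
  have ha₀I : a₀ ∈ I := by rw [hI]; exact IsConj.refl _
  have hb₀J : b₀ ∈ J := by rw [hJ]; exact IsConj.refl _
  -- a conjugate a of a₀ lying in H
  obtain ⟨c, hc, -⟩ := hfix a₀ (Or.inl ha₀I)
  induction c using QuotientGroup.induction_on with
  | H g₀ =>
  rw [fix_iff] at hc
  obtain ⟨a, ha⟩ : ∃ a, a = g₀⁻¹ * a₀ * g₀ := ⟨_, rfl⟩
  have haH : a ∈ H := by rw [ha]; exact hc
  have haconj : IsConj a₀ a := by
    rw [ha]; exact isConj_iff.mpr ⟨g₀⁻¹, by group⟩
  have haI : a ∈ I := by rw [hI]; exact haconj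
  have haa : a * a = 1 := by
    rw [ha]
    calc g₀⁻¹ * a₀ * g₀ * (g₀⁻¹ * a₀ * g₀) = g₀⁻¹ * (a₀ * a₀) * g₀ := by group
      _ = 1 := by rw [sq_of_order_two ha₀]; group
  have hai : a⁻¹ = a := inv_eq_of_mul_eq_one_left haa
  have hafix := mem_of_unique_fix H a (hfix a (Or.inl haI)) haH
  -- every member of J lies in H
  have hJH : ∀ b ∈ J, b ∈ H := by
    intro b hbJ
    have hbconj : IsConj b₀ b := by rw [hJ] at hbJ; exact hbJ
    obtain ⟨cb, hcb⟩ := isConj_iff.mp hbconj
    have hbb : b * b = 1 := by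
      rw [← hcb]
      calc cb * b₀ * cb⁻¹ * (cb * b₀ * cb⁻¹) = cb * (b₀ * b₀) * cb⁻¹ := by group
        _ = 1 := by rw [sq_of_order_two hb₀]; group
    have hbi : b⁻¹ = b := inv_eq_of_mul_eq_one_left hbb
    have hab_inv : (a * b)⁻¹ = b * a := by rw [mul_inv_rev, hai, hbi]
    have hba_inv : (b * a)⁻¹ = a * b := by rw [mul_inv_rev, hai, hbi]
    have hncab : ¬ IsConj a b := fun h => hnc (haconj.trans (h.trans hbconj.symm))
    have hpos : 0 < orderOf (a * b) := orderOf_pos _
    -- order of a*b is even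
    have heven : Even (orderOf (a * b)) := by
      by_contra hodd
      rw [Nat.not_even_iff_odd] at hodd
      obtain ⟨j, hj⟩ := hodd
      apply hncab
      refine isConj_iff.mpr ⟨(b * a) ^ (j + 1), ?_⟩
      have h1 : (b * a) ^ (j + 1) * a = a * (a * b) ^ (j + 1) := pow_swap a b haa (j + 1)
      have h2 : ((b * a) ^ (j + 1))⁻¹ = (a * b) ^ (j + 1) := by rw [← inv_pow, hba_inv]
      rw [h1, h2, mul_assoc, ← pow_add]
      have h3 : j + 1 + (j + 1) = orderOf (a * b) + 1 := by omega
      rw [h3, pow_succ, pow_orderOf_eq_one, one_mul, ← mul_assoc, haa, one_mul]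
    obtain ⟨k, hk⟩ := heven
    obtain ⟨u, hu⟩ : ∃ u, u = (a * b) ^ k := ⟨_, rfl⟩
    have huu : u * u = 1 := by
      rw [hu, ← pow_add, ← hk]; exact pow_orderOf_eq_one _
    have hui : u⁻¹ = u := inv_eq_of_mul_eq_one_left huu
    have hu1 : u ≠ 1 := by
      rw [hu]
      intro h
      have := orderOf_dvd_of_pow_eq_one h
      have := Nat.le_of_dvd (by omega) this
      omega
    have hbak : (b * a) ^ k = u := by
      rw [← hab_inv, inv_pow, ← hu, hui]
    have hau : a * u = u * a := by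
      rw [hu, ← pow_swap a b haa k, hbak, hu]
    have hbu : b * u = u * b := by
      have h1 : (a * b) ^ k * b = b * (b * a) ^ k := pow_swap b a hbb k
      rw [hbak, ← hu] at h1
      exact h1.symm
    -- a * u is conjugate to a or b
    have hauIJ : a * u ∈ I ∪ J := by
      rcases Nat.even_or_odd' k with ⟨i, hi | hi⟩
      · left
        rw [hI]
        refine haconj.trans (isConj_iff.mpr ⟨(b * a) ^ i, ?_⟩)
        have h1 : (b * a) ^ i * a = a * (a * b) ^ i := pow_swap a b haa i
        have h2 : ((b * a) ^ i)⁻¹ = (a * b) ^ i := by rw [← inv_pow, hba_inv]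
        rw [h1, h2, mul_assoc, ← pow_add, hu, hi, two_mul]
      · right
        rw [hJ]
        refine hbconj.trans (isConj_iff.mpr ⟨(b * a) ^ i, ?_⟩)
        have h1 : (b * a) ^ i * b = a * (a * b) ^ (i + 1) := by
          rw [← pow_swap a b haa (i + 1), pow_succ, mul_assoc, mul_assoc, haa, mul_one]
        have h2 : ((b * a) ^ i)⁻¹ = (a * b) ^ i := by rw [← inv_pow, hba_inv]
        rw [h1, h2, mul_assoc, ← pow_add, hu, hi]
        congr 2
        omega
    have huH : u ∈ H := by
      apply hafix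
      have : u⁻¹ * a * u = a := by rw [mul_assoc, hau, ← mul_assoc, inv_mul_cancel, one_mul]
      rw [this]; exact haH
    have hauH : a * u ∈ H := H.mul_mem haH huH
    have hne : a ≠ a * u := by
      intro h
      apply hu1
      calc u = a⁻¹ * (a * u) := by group
        _ = 1 := by rw [← h]; group
    have hcomm : a * (a * u) = a * u * a := by rw [mul_assoc, hau]
    have hC := hcent a haI haH (a * u) hauIJ hauH hne hcomm
    have hau2 : a * (a * u) = u := by rw [← mul_assoc, haa, one_mul]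
    rw [hau2] at hC
    apply hC
    rw [Subgroup.mem_centralizer_singleton_iff]
    exact hbu
  rw [eq_top_iff]
  intro g _
  have hb₀H : b₀ ∈ H := hJH b₀ hb₀J
  have hgb : g * b₀ * g⁻¹ ∈ H := by
    apply hJH
    rw [hJ]
    exact isConj_iff.mpr ⟨g, rfl⟩
  have := mem_of_unique_fix H b₀ (hfix b₀ (Or.inr hb₀J)) hb₀H g⁻¹ (by simpa using hgb)
  simpa using H.inv_mem this

end Cfsg.Agent.S5439
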