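import Cfsg.Statements.S5459

set_option autoImplicit false
open Cfsg
open scoped commutatorElement

namespace Cfsg.Agent.S5459

theorem quasi_normal {L : Type*} [Group L] (hL : Cfsg.IsQuasisimple L) (K : Subgroup L) [hK : K.Normal] :
    K ≤ Subgroup.center L ∨ K = ⊤ := by
  obtain ⟨hperf, hsimp⟩ := hL
  have hmapN : (K.map (QuotientGroup.mk' (Subgroup.center L))).Normal :=
    Subgroup.Normal.map hK _ (QuotientGroup.mk'_surjective _)
  rcases hmapN.eq_bot_or_eq_top with h | h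
  · left
    intro k hk
    have hmem : QuotientGroup.mk' (Subgroup.center L) k ∈ K.map (QuotientGroup.mk' (Subgroup.center L)) :=
      ⟨k, hk, rfl⟩
    rw [h, Subgroup.mem_bot] at hmem
    exact (QuotientGroup.eq_one_iff k).mp hmem
  · right
    rw [eq_top_iff, ← hperf.commutator_eq_top, commutator_def, Subgroup.commutator_le]
    intro g₁ _ g₂ _
    have hmem : QuotientGroup.mk' (Subgroup.center L) g₂ ∈ K.map (QuotientGroup.mk' (Subgroup.center L)) := by
      rw [h]; trivial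
    obtain ⟨k₂, hk₂, hkg⟩ := hmem
    have hz₂ : k₂⁻¹ * g₂ ∈ Subgroup.center L := QuotientGroup.eq.mp hkg
    have hc := Subgroup.mem_center_iff.mp hz₂ g₁⁻¹
    have e : ⁅g₁, g₂⁆ = (g₁ * k₂ * g₁⁻¹) * k₂⁻¹ := by
      rw [commutatorElement_def]
      calc g₁ * g₂ * g₁⁻¹ * g₂⁻¹ = g₁ * k₂ * ((k₂⁻¹ * g₂) * g₁⁻¹) * (k₂⁻¹ * g₂)⁻¹ * k₂⁻¹ := by group
        _ = g₁ * k₂ * (g₁⁻¹ * (k₂⁻¹ * g₂)) * (k₂⁻¹ * g₂)⁻¹ * k₂⁻¹ := by rw [hc]
        _ = (g₁ * k₂ * g₁⁻¹) * k₂⁻¹ := by group
    rw [e]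
    exact K.mul_mem (hK.conj_mem k₂ hk₂ g₁) (K.inv_mem hk₂)

theorem comm_central {G : Type*} [Group G] (a b z w : G) (_hza : z * a = a * z) (hzb : z * b = b * z)
    (hwa : w * a = a * w) (_hwb : w * b = b * w) (hzw : z * w = w * z) :
    (a * z) * (b * w) * (a * z)⁻¹ * (b * w)⁻¹ = a * b * a⁻¹ * b⁻¹ := by
  have e1 : w * z⁻¹ = z⁻¹ * w := by
    calc w * z⁻¹ = z⁻¹ * (z * w) * z⁻¹ := by group
      _ = z⁻¹ * (w * z) * z⁻¹ := by rw [hzw]
      _ = z⁻¹ * w := by group
  have e2 : w * a⁻¹ = a⁻¹ * w := by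
    calc w * a⁻¹ = a⁻¹ * (a * w) * a⁻¹ := by group
      _ = a⁻¹ * (w * a) * a⁻¹ := by rw [hwa]
      _ = a⁻¹ * w := by group
  calc (a * z) * (b * w) * (a * z)⁻¹ * (b * w)⁻¹ = a * (z * b) * (w * z⁻¹) * a⁻¹ * w⁻¹ * b⁻¹ := by group
    _ = a * (b * z) * (z⁻¹ * w) * a⁻¹ * w⁻¹ * b⁻¹ := by rw [hzb, e1]
    _ = a * b * (w * a⁻¹) * w⁻¹ * b⁻¹ := by group
    _ = a * b * (a⁻¹ * w) * w⁻¹ * b⁻¹ := by rw [e2]
    _ = a * b * a⁻¹ * b⁻¹ := by group

theorem main {G : Type*} [Group G] [Finite G] (L Z : Subgroup G) [hLn : L.Normal] [hZn : Z.Normal]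
    (hL : Cfsg.IsQuasisimple ↥L)
    (hZL : ∀ x : G, x ∈ Z ↔ ∃ hx : x ∈ L, (⟨x, hx⟩ : L) ∈ Subgroup.center L)
    (d : G) (hd : orderOf d = 2) (hgen : L ⊔ Subgroup.zpowers d = ⊤) (hodd : Odd (Nat.card ↥Z))
    (hinv : ∀ c ∈ Z, d * c * d⁻¹ = c⁻¹)
    (hconn : (Cfsg.commutingGraph (conjugatesOf (QuotientGroup.mk d : G ⧸ Z))).Connected) :
    (Cfsg.commutingGraph (conjugatesOf d)).Connected := by
  have hZ_L : Z ≤ L := fun x hx => ((hZL x).mp hx).1
  have hZcent : ∀ z ∈ Z, ∀ g ∈ L, g * z = z * g := by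
    intro z hz g hg
    obtain ⟨hzL, hzc⟩ := (hZL z).mp hz
    have := Subgroup.mem_center_iff.mp hzc ⟨g, hg⟩
    exact congrArg Subtype.val this
  have hdd : d * d = 1 := by
    have := pow_orderOf_eq_one d
    rw [hd, pow_two] at this
    exact this
  have hDsq : ∀ a ∈ conjugatesOf d, a * a = 1 := by
    intro a ha
    obtain ⟨c, rfl⟩ := isConj_iff.mp ha
    calc c * d * c⁻¹ * (c * d * c⁻¹) = c * (d * d) * c⁻¹ := by group
      _ = 1 := by rw [hdd]; group
  have hDinv' : ∀ a ∈ conjugatesOf d, a⁻¹ = a := fun a ha => inv_eq_of_mul_eq_one_left (hDsq a ha)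
  have hDconj : ∀ a ∈ conjugatesOf d, ∀ g : G, g * a * g⁻¹ ∈ conjugatesOf d := by
    intro a ha g
    exact IsConj.trans ha (isConj_iff.mpr ⟨g, rfl⟩)
  have hDinvZ : ∀ a ∈ conjugatesOf d, ∀ c ∈ Z, a * c * a⁻¹ = c⁻¹ := by
    intro a ha c hc
    obtain ⟨g, rfl⟩ := isConj_iff.mp ha
    have hc' : g⁻¹ * c * g ∈ Z := by
      have := hZn.conj_mem c hc g⁻¹
      simpa using this
    have h1 := hinv _ hc'
    calc g * d * g⁻¹ * c * (g * d * g⁻¹)⁻¹ = g * (d * (g⁻¹ * c * g) * d⁻¹) * g⁻¹ := by group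
      _ = g * (g⁻¹ * c * g)⁻¹ * g⁻¹ := by rw [h1]
      _ = c⁻¹ := by group
  have hsqrt : ∀ c ∈ Z, ∃ w ∈ Z, w * w = c := by
    intro c hc
    obtain ⟨j, hj⟩ := hodd
    refine ⟨c ^ (j + 1), Z.pow_mem hc _, ?_⟩
    have h1 : c ^ (Nat.card ↥Z) = 1 := by
      have h := pow_card_eq_one' (G := Z) (x := ⟨c, hc⟩)
      have h' := congrArg Subtype.val h
      rw [Subgroup.coe_pow] at h'
      exact h'
    rw [← pow_add]
    have h2 : j + 1 + (j + 1) = Nat.card ↥Z + 1 := by omega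
    rw [h2, pow_succ, h1, one_mul]
  -- the graph
  obtain ⟨Γ, hΓ⟩ : ∃ Γ : SimpleGraph (conjugatesOf d), Γ = Cfsg.commutingGraph (conjugatesOf d) := ⟨_, rfl⟩
  rw [← hΓ]
  have hadj : ∀ x y : conjugatesOf d, Γ.Adj x y ↔ x ≠ y ∧ (Commute (x : G) (y : G) ∨ Commute (y : G) (x : G)) := by
    intro x y
    rw [hΓ]
    exact SimpleGraph.fromRel_adj _ _ _
  have hdD : d ∈ conjugatesOf d := mem_conjugatesOf_self
  -- the component of d
  let inΔ : G → Prop := fun x => ∃ hx : x ∈ conjugatesOf d, Γ.Reachable ⟨d, hdD⟩ ⟨x, hx⟩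
  have hΔd : inΔ d := ⟨hdD, SimpleGraph.Reachable.refl _⟩
  have hstep : ∀ x y : G, inΔ x → y ∈ conjugatesOf d → Commute x y → inΔ y := by
    intro x y ⟨hx, hr⟩ hy hc
    refine ⟨hy, ?_⟩
    by_cases hxy : x = y
    · subst hxy; exact hr
    · refine hr.trans (SimpleGraph.Adj.reachable ?_)
      rw [hadj]
      exact ⟨fun h => hxy (congrArg Subtype.val h), Or.inl hc⟩
  -- conjugation is a graph map
  have hconjmap : ∀ (g x y : G) (hx : x ∈ conjugatesOf d) (hy : y ∈ conjugatesOf d),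
      Γ.Reachable ⟨x, hx⟩ ⟨y, hy⟩ →
      Γ.Reachable ⟨g * x * g⁻¹, hDconj x hx g⟩ ⟨g * y * g⁻¹, hDconj y hy g⟩ := by
    intro g x y hx hy hr
    let φ : Γ →g Γ :=
      { toFun := fun v => ⟨g * v.1 * g⁻¹, hDconj v.1 v.2 g⟩
        map_rel' := by
          intro a b hab
          rw [hadj] at hab ⊢
          refine ⟨?_, ?_⟩
          · intro h
            apply hab.1
            have h' : g * a.1 * g⁻¹ = g * b.1 * g⁻¹ := congrArg Subtype.val h
            apply Subtype.ext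
            calc a.1 = g⁻¹ * (g * a.1 * g⁻¹) * g := by group
              _ = g⁻¹ * (g * b.1 * g⁻¹) * g := by rw [h']
              _ = b.1 := by group
          · rcases hab.2 with h | h
            · left
              show g * a.1 * g⁻¹ * (g * b.1 * g⁻¹) = g * b.1 * g⁻¹ * (g * a.1 * g⁻¹)
              have h' : a.1 * b.1 = b.1 * a.1 := h
              calc g * a.1 * g⁻¹ * (g * b.1 * g⁻¹) = g * (a.1 * b.1) * g⁻¹ := by group
                _ = g * (b.1 * a.1) * g⁻¹ := by rw [h']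
                _ = g * b.1 * g⁻¹ * (g * a.1 * g⁻¹) := by group
            · right
              show g * b.1 * g⁻¹ * (g * a.1 * g⁻¹) = g * a.1 * g⁻¹ * (g * b.1 * g⁻¹)
              have h' : b.1 * a.1 = a.1 * b.1 := h
              calc g * b.1 * g⁻¹ * (g * a.1 * g⁻¹) = g * (b.1 * a.1) * g⁻¹ := by group
                _ = g * (a.1 * b.1) * g⁻¹ := by rw [h']
                _ = g * a.1 * g⁻¹ * (g * b.1 * g⁻¹) := by group }
    exact hr.map φ
  -- lifting commuting pairs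
  have hlift : ∀ y b : G, y ∈ conjugatesOf d → b ∈ conjugatesOf d → y * b * y⁻¹ * b⁻¹ ∈ Z →
      ∃ b' ∈ conjugatesOf d, b'⁻¹ * b ∈ Z ∧ Commute y b' := by
    intro y b hy hb hc
    obtain ⟨w, hw, hww⟩ := hsqrt _ hc
    obtain ⟨v, hv, hvv⟩ := hsqrt _ hw
    have hbv : b * v⁻¹ * b⁻¹ = v := by
      have := hDinvZ b hb v⁻¹ (Z.inv_mem hv)
      rw [this, inv_inv]
    have hb' : w * b = v * b * v⁻¹ := by
      calc w * b = v * v * b := by rw [hvv]
        _ = v * (b * v⁻¹ * b⁻¹) * b := by rw [hbv]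
        _ = v * b * v⁻¹ := by group
    refine ⟨w * b, ?_, ?_, ?_⟩
    · rw [hb']; exact hDconj b hb v
    · have : (w * b)⁻¹ * b = b⁻¹ * w⁻¹ * b := by group
      rw [this]
      have := hZn.conj_mem w⁻¹ (Z.inv_mem hw) b⁻¹
      simpa using this
    · show y * (w * b) = w * b * y
      have hyw : y * w * y⁻¹ = w⁻¹ := hDinvZ y hy w hw
      have hyw' : y * w = w⁻¹ * y := by
        calc y * w = (y * w * y⁻¹) * y := by group
          _ = w⁻¹ * y := by rw [hyw]
      calc y * (w * b) = (y * w) * b := by group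
        _ = w⁻¹ * y * b := by rw [hyw']
        _ = w⁻¹ * (y * b * y⁻¹ * b⁻¹) * b * y := by group
        _ = w⁻¹ * (w * w) * b * y := by rw [hww]
        _ = w * b * y := by group
  -- every conjugate of d has a lift in the component of d
  have hC1 : ∀ ybar : conjugatesOf (QuotientGroup.mk d : G ⧸ Z),
      (Cfsg.commutingGraph (conjugatesOf (QuotientGroup.mk d : G ⧸ Z))).Reachable
        ⟨QuotientGroup.mk d, mem_conjugatesOf_self⟩ ybar →
      ∃ y : G, inΔ y ∧ (QuotientGroup.mk y : G ⧸ Z) = ybar.1 := by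
    intro ybar hr
    rw [SimpleGraph.reachable_iff_reflTransGen] at hr
    induction hr with
    | refl => exact ⟨d, hΔd, rfl⟩
    | @tail b c _ hbc ih =>
      obtain ⟨y, hyΔ, hyb⟩ := ih
      have hadj' := (SimpleGraph.fromRel_adj _ _ _).mp hbc
      have hcomm : Commute (b : G ⧸ Z) (c : G ⧸ Z) := by
        rcases hadj'.2 with h | h
        · exact h
        · exact h.symm
      obtain ⟨gbar, hg⟩ := isConj_iff.mp c.2
      obtain ⟨g, rfl⟩ := QuotientGroup.mk_surjective gbar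
      have hcD : g * d * g⁻¹ ∈ conjugatesOf d := hDconj d hdD g
      have hc_eq : (QuotientGroup.mk (g * d * g⁻¹) : G ⧸ Z) = c.1 := by
        rw [← hg]; rfl
      have hcZ : y * (g * d * g⁻¹) * y⁻¹ * (g * d * g⁻¹)⁻¹ ∈ Z := by
        rw [← QuotientGroup.eq_one_iff]
        have h1 : (QuotientGroup.mk (y * (g * d * g⁻¹) * y⁻¹ * (g * d * g⁻¹)⁻¹) : G ⧸ Z) =
            (QuotientGroup.mk y : G ⧸ Z) * QuotientGroup.mk (g * d * g⁻¹) * (QuotientGroup.mk y)⁻¹ *
              (QuotientGroup.mk (g * d * g⁻¹))⁻¹ := rfl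
        rw [h1, hyb, hc_eq]
        have h2 : (b : G ⧸ Z) * (c : G ⧸ Z) = (c : G ⧸ Z) * (b : G ⧸ Z) := hcomm
        rw [h2]
        group
      obtain ⟨b', hb'D, hb'Z, hb'c⟩ := hlift y _ hyΔ.1 hcD hcZ
      refine ⟨b', hstep y b' hyΔ hb'D hb'c, ?_⟩
      rw [← hc_eq]
      exact QuotientGroup.eq.mpr hb'Z
  have hC1' : ∀ y ∈ conjugatesOf d, ∃ y₀ : G, inΔ y₀ ∧ y₀⁻¹ * y ∈ Z := by
    intro y hy
    have hybar : (QuotientGroup.mk y : G ⧸ Z) ∈ conjugatesOf (QuotientGroup.mk d : G ⧸ Z) := by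
      obtain ⟨g, rfl⟩ := isConj_iff.mp hy
      exact isConj_iff.mpr ⟨QuotientGroup.mk g, rfl⟩
    obtain ⟨y₀, hy₀, he⟩ := hC1 ⟨_, hybar⟩ (hconn.preconnected _ _)
    exact ⟨y₀, hy₀, QuotientGroup.eq.mp he⟩
  -- conjugation by elements of the closure of the component preserves the component
  have hP : ∀ g ∈ Subgroup.closure {x : G | inΔ x},
      ∀ x : G, inΔ x → inΔ (g * x * g⁻¹) ∧ inΔ (g⁻¹ * x * g) := by
    intro g hg
    induction hg using Subgroup.closure_induction with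
    | mem a ha =>
      intro x hx
      obtain ⟨haD, har⟩ := ha
      obtain ⟨hxD, hxr⟩ := hx
      have h1 := hconjmap a d x hdD hxD hxr
      have h2 := hconjmap a d a hdD haD har
      have h3 : (⟨a * a * a⁻¹, hDconj a haD a⟩ : conjugatesOf d) = ⟨a, haD⟩ := by
        apply Subtype.ext
        show a * a * a⁻¹ = a
        group
      rw [h3] at h2
      have h4 : inΔ (a * x * a⁻¹) := ⟨hDconj x hxD a, har.trans (h2.symm.trans h1)⟩
      refine ⟨h4, ?_⟩
      have hai := hDinv' a haD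
      have e : a⁻¹ * x * a = a * x * a⁻¹ := by rw [hai]
      rw [e]; exact h4
    | one =>
      intro x hx
      simpa using hx
    | mul g h _ _ ihg ihh =>
      intro x hx
      refine ⟨?_, ?_⟩
      · have := (ihg _ (ihh x hx).1).1
        have e : g * (h * x * h⁻¹) * g⁻¹ = g * h * x * (g * h)⁻¹ := by group
        rwa [e] at this
      · have := (ihh _ (ihg x hx).2).2
        have e : h⁻¹ * (g⁻¹ * x * g) * h = (g * h)⁻¹ * x * (g * h) := by group
        rwa [e] at this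
    | inv g _ ih =>
      intro x hx
      have := ih x hx
      refine ⟨by simpa using this.2, by simpa using this.1⟩
  rw [SimpleGraph.connected_iff_exists_forall_reachable]
  refine ⟨⟨d, hdD⟩, ?_⟩
  rintro ⟨y, hy⟩
  suffices h : inΔ y by
    obtain ⟨_, hr⟩ := h
    exact hr
  -- the subgroup generated by the conjugates of d
  obtain ⟨C, hC⟩ : ∃ C : Subgroup G, C = Subgroup.closure (conjugatesOf d) := ⟨_, rfl⟩
  have hCn : C.Normal := by
    rw [hC]
    refine ⟨fun n hn g => ?_⟩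
    induction hn using Subgroup.closure_induction with
    | mem a ha => exact Subgroup.subset_closure (hDconj a ha g)
    | one => simp
    | mul a b _ _ iha ihb =>
      have e : g * (a * b) * g⁻¹ = (g * a * g⁻¹) * (g * b * g⁻¹) := by group
      rw [e]; exact Subgroup.mul_mem _ iha ihb
    | inv a _ iha =>
      have e : g * a⁻¹ * g⁻¹ = (g * a * g⁻¹)⁻¹ := by group
      rw [e]; exact Subgroup.inv_mem _ iha
  have hdC : d ∈ C := by rw [hC]; exact Subgroup.subset_closure hdD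
  have hCLn : (C.subgroupOf L).Normal := by
    refine ⟨fun n hn g => ?_⟩
    rw [Subgroup.mem_subgroupOf] at hn ⊢
    exact hCn.conj_mem _ hn _
  rcases @quasi_normal _ _ hL (C.subgroupOf L) hCLn with hcase | hcase
  · -- d centralizes L
    have hcomZ : ∀ g ∈ L, g * d * g⁻¹ * d⁻¹ ∈ Z := by
      intro g hg
      have h1 : g * d * g⁻¹ * d⁻¹ ∈ C := C.mul_mem (hCn.conj_mem d hdC g) (C.inv_mem hdC)
      have h2 : g * d * g⁻¹ * d⁻¹ ∈ L := by
        have e : g * d * g⁻¹ * d⁻¹ = g * (d * g⁻¹ * d⁻¹) := by group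
        rw [e]
        exact L.mul_mem hg (hLn.conj_mem _ (L.inv_mem hg) d)
      have h3 : (⟨_, h2⟩ : L) ∈ C.subgroupOf L := by
        rw [Subgroup.mem_subgroupOf]; exact h1
      exact (hZL _).mpr ⟨h2, hcase h3⟩
    have hdL : ∀ g ∈ L, d * g = g * d := by
      have hle : commutator L ≤ (Subgroup.centralizer ({d} : Set G)).subgroupOf L := by
        rw [commutator_def, Subgroup.commutator_le]
        intro g₁ _ g₂ _
        rw [Subgroup.mem_subgroupOf, Subgroup.mem_centralizer_singleton_iff]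
        -- d gᵢ d⁻¹ = gᵢ zᵢ with zᵢ ∈ Z
        have hz : ∀ g : L, (g : G)⁻¹ * d * (g : G) * d⁻¹ ∈ Z := by
          intro g
          have := hcomZ ((g : G)⁻¹) (L.inv_mem g.2)
          simpa using this
        have h1 := hz g₁
        have h2 := hz g₂
        have hd1 : d * (g₁ : G) * d⁻¹ = (g₁ : G) * ((g₁ : G)⁻¹ * d * (g₁ : G) * d⁻¹) := by group
        have hd2 : d * (g₂ : G) * d⁻¹ = (g₂ : G) * ((g₂ : G)⁻¹ * d * (g₂ : G) * d⁻¹) := by group
        obtain ⟨z₁, hz₁⟩ : ∃ z₁, z₁ = (g₁ : G)⁻¹ * d * (g₁ : G) * d⁻¹ := ⟨_, rfl⟩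
        obtain ⟨z₂, hz₂⟩ : ∃ z₂, z₂ = (g₂ : G)⁻¹ * d * (g₂ : G) * d⁻¹ := ⟨_, rfl⟩
        rw [← hz₁] at h1 hd1
        rw [← hz₂] at h2 hd2
        have c11 := hZcent z₁ h1 (g₁ : G) g₁.2
        have c12 := hZcent z₁ h1 (g₂ : G) g₂.2
        have c21 := hZcent z₂ h2 (g₁ : G) g₁.2
        have c22 := hZcent z₂ h2 (g₂ : G) g₂.2
        have c1z2 := hZcent z₁ h1 z₂ (hZ_L h2)
        have key : d * ((g₁ : G) * (g₂ : G) * (g₁ : G)⁻¹ * (g₂ : G)⁻¹) * d⁻¹ =
            (g₁ : G) * (g₂ : G) * (g₁ : G)⁻¹ * (g₂ : G)⁻¹ := by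
          calc d * ((g₁ : G) * (g₂ : G) * (g₁ : G)⁻¹ * (g₂ : G)⁻¹) * d⁻¹
              = (d * (g₁ : G) * d⁻¹) * (d * (g₂ : G) * d⁻¹) * (d * (g₁ : G) * d⁻¹)⁻¹ * (d * (g₂ : G) * d⁻¹)⁻¹ := by group
            _ = ((g₁ : G) * z₁) * ((g₂ : G) * z₂) * ((g₁ : G) * z₁)⁻¹ * ((g₂ : G) * z₂)⁻¹ := by rw [hd1, hd2]
            _ = (g₁ : G) * (g₂ : G) * (g₁ : G)⁻¹ * (g₂ : G)⁻¹ :=
                comm_central _ _ _ _ c11.symm c12.symm c21.symm c22.symm c1z2.symm
        have hcoe : ((⁅g₁, g₂⁆ : L) : G) = (g₁ : G) * (g₂ : G) * (g₁ : G)⁻¹ * (g₂ : G)⁻¹ := by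
          rw [commutatorElement_def]; rfl
        rw [hcoe]
        calc (g₁ : G) * (g₂ : G) * (g₁ : G)⁻¹ * (g₂ : G)⁻¹ * d
            = d * ((g₁ : G) * (g₂ : G) * (g₁ : G)⁻¹ * (g₂ : G)⁻¹) * d⁻¹ * d := by rw [key]
          _ = d * ((g₁ : G) * (g₂ : G) * (g₁ : G)⁻¹ * (g₂ : G)⁻¹) := by group
      intro g hg
      have hperf : commutator L = ⊤ := hL.1.commutator_eq_top
      have : (⟨g, hg⟩ : L) ∈ (Subgroup.centralizer ({d} : Set G)).subgroupOf L := hle (by rw [hperf]; trivial)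
      rw [Subgroup.mem_subgroupOf, Subgroup.mem_centralizer_singleton_iff] at this
      exact this.symm
    have hcenter : Subgroup.centralizer ({d} : Set G) = ⊤ := by
      rw [eq_top_iff, ← hgen]
      apply sup_le
      · intro g hg
        rw [Subgroup.mem_centralizer_singleton_iff]
        exact (hdL g hg).symm
      · rw [Subgroup.zpowers_le, Subgroup.mem_centralizer_singleton_iff]
    obtain ⟨g, rfl⟩ := isConj_iff.mp hy
    have hg : g ∈ Subgroup.centralizer ({d} : Set G) := by rw [hcenter]; trivial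
    rw [Subgroup.mem_centralizer_singleton_iff] at hg
    have e : g * d * g⁻¹ = d := by rw [hg]; group
    rw [e]; exact hΔd
  · -- L ≤ C, so C = ⊤
    have hLC : L ≤ C := Subgroup.subgroupOf_eq_top.mp hcase
    have hCtop : C = ⊤ := by
      rw [eq_top_iff, ← hgen]
      exact sup_le hLC (by rw [Subgroup.zpowers_le]; exact hdC)
    obtain ⟨M, hM⟩ : ∃ M : Subgroup G, M = Subgroup.closure {x : G | inΔ x} := ⟨_, rfl⟩
    have hMZ : M ⊔ Z = ⊤ := by
      rw [eq_top_iff, ← hCtop, hC, Subgroup.closure_le]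
      intro x hx
      obtain ⟨y₀, hy₀, hz⟩ := hC1' x hx
      have : x = y₀ * (y₀⁻¹ * x) := by group
      rw [this]
      exact Subgroup.mul_mem _ (Subgroup.mem_sup_left (by rw [hM]; exact Subgroup.subset_closure hy₀))
        (Subgroup.mem_sup_right hz)
    have hMLn : (M.subgroupOf L).Normal := by
      refine ⟨fun n hn g => ?_⟩
      rw [Subgroup.mem_subgroupOf] at hn ⊢
      have hg : (g : G) ∈ M ⊔ Z := by rw [hMZ]; trivial
      obtain ⟨m, hm, z, hz, hmz⟩ := Subgroup.mem_sup_of_normal_right.mp hg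
      have hnz : z * (n : G) * z⁻¹ = (n : G) := by
        have := hZcent z hz (n : G) n.2
        calc z * (n : G) * z⁻¹ = ((n : G) * z) * z⁻¹ := by rw [this]
          _ = (n : G) := by group
      have e : ((g * n * g⁻¹ : L) : G) = m * (z * (n : G) * z⁻¹) * m⁻¹ := by
        show (g : G) * (n : G) * (g : G)⁻¹ = _
        rw [← hmz]; group
      rw [e, hnz]
      exact M.mul_mem (M.mul_mem hm hn) (M.inv_mem hm)
    rcases @quasi_normal _ _ hL (M.subgroupOf L) hMLn with hcase2 | hcase2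
    · exfalso
      -- L ≤ Z, impossible
      have hLZ : ∀ g : L, g ∈ Subgroup.center L := by
        intro g
        have hg : (g : G) ∈ M ⊔ Z := by rw [hMZ]; trivial
        obtain ⟨m, hm, z, hz, hmz⟩ := Subgroup.mem_sup_of_normal_right.mp hg
        have hmL : m ∈ L := by
          have : m = (g : G) * z⁻¹ := by rw [← hmz]; group
          rw [this]
          exact L.mul_mem g.2 (L.inv_mem (hZ_L hz))
        have hmc : (⟨m, hmL⟩ : L) ∈ Subgroup.center L := hcase2 (by rw [Subgroup.mem_subgroupOf]; exact hm)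
        obtain ⟨hzL, hzc⟩ := (hZL z).mp hz
        have : g = ⟨m, hmL⟩ * ⟨z, hzL⟩ := by
          apply Subtype.ext
          exact hmz.symm
        rw [this]
        exact Subgroup.mul_mem _ hmc hzc
      have hcomm : ∀ a b : L, a * b = b * a := fun a b => (Subgroup.mem_center_iff.mp (hLZ b) a)
      have hbot : commutator L = ⊥ := by
        rw [eq_bot_iff, commutator_def, Subgroup.commutator_le]
        intro g₁ _ g₂ _
        rw [Subgroup.mem_bot, commutatorElement_def, hcomm g₁ g₂]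
        group
      have htop : commutator L = ⊤ := hL.1.commutator_eq_top
      have hbt : (⊥ : Subgroup L) = ⊤ := hbot.symm.trans htop
      have hsub : Subsingleton L := by
        refine ⟨fun a b => ?_⟩
        have ha : a ∈ (⊥ : Subgroup L) := by rw [hbt]; trivial
        have hb : b ∈ (⊥ : Subgroup L) := by rw [hbt]; trivial
        rw [Subgroup.mem_bot] at ha hb
        rw [ha, hb]
      have hnt : Nontrivial (↥L ⧸ Subgroup.center ↥L) := hL.2.toNontrivial
      obtain ⟨u, v, huv⟩ := exists_pair_ne (↥L ⧸ Subgroup.center ↥L)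
      apply huv
      obtain ⟨u', rfl⟩ := QuotientGroup.mk_surjective u
      obtain ⟨v', rfl⟩ := QuotientGroup.mk_surjective v
      rw [Subsingleton.elim u' v']
    · have hLM : L ≤ M := Subgroup.subgroupOf_eq_top.mp hcase2
      have hMtop : M = ⊤ := by
        rw [eq_top_iff, ← hMZ]
        exact sup_le le_rfl ((hZ_L).trans hLM)
      obtain ⟨g, rfl⟩ := isConj_iff.mp hy
      have hg : g ∈ Subgroup.closure {x : G | inΔ x} := by rw [← hM, hMtop]; trivial
      exact (hP g hg d hΔd).1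

/-- Let G be a finite group with a quasisimple normal subgroup L and an involution d such that G is generated by L and d, the centre of L has odd order, and d inverts every element of the centre of L. If the commuting graph on the conjugacy class of the image of d in G modulo the centre of L is connected, then the commuting graph on the conjugacy class of d is connected. -/
theorem result {G : Type*} [Group G] [Finite G] (L : Subgroup G) [L.Normal] (hL : Cfsg.IsQuasisimple ↥L) (d : G) (hd : orderOf d = 2) (hgen : L ⊔ Subgroup.zpowers d = ⊤) (hodd : Odd (Nat.card ↥(Subgroup.center ↥L))) (hinv : ∀ c ∈ (Subgroup.center ↥L).map L.subtype, d * c * d⁻¹ = c⁻¹) [hn : ((Subgroup.center ↥L).map L.subtype).Normal] (hconn : (Cfsg.commutingGraph (conjugatesOf (QuotientGroup.mk d : G ⧸ (Subgroup.center ↥L).map L.subtype))).Connected) : (Cfsg.commutingGraph (conjugatesOf d)).Connected := by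
  refine main L ((Subgroup.center ↥L).map L.subtype) hL ?_ d hd hgen ?_ hinv hconn
  · intro x
    constructor
    · rintro ⟨y, hy, rfl⟩
      exact ⟨y.2, hy⟩
    · rintro ⟨hx, hc⟩
      exact ⟨⟨x, hx⟩, hc, rfl⟩
  · rw [Subgroup.card_map_of_injective L.subtype_injective]
    exact hodd

end Cfsg.Agent.S5459
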