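import Cfsg.Statements.S5541

set_option autoImplicit false
open Cfsg

namespace Cfsg.Agent.S5541

/-- Let ρ be a representation of a group H on a finite-dimensional real vector space U whose only ρ-invariant subspaces are the zero subspace and U, and suppose U carries a non-zero ρ-invariant symmetric bilinear form. Then the following are equivalent: (1) there is a non-zero ρ-equivariant commutative bilinear product on U of which every ρ-equivariant bilinear product is a scalar multiple; (2) there is a non-zero ρ-invariant trilinear form on U that is symmetric under all permutations of its arguments and of which every ρ-invariant trilinear form is a scalar multiple. -/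
theorem result {H : Type*} [Group H] {U : Type*} [AddCommGroup U] [Module ℝ U] [FiniteDimensional ℝ U] (ρ : Representation ℝ H U) (hirr : ∀ W : Submodule ℝ U, (∀ g : H, W.map (ρ g) ≤ W) → W = ⊥ ∨ W = ⊤) (B : LinearMap.BilinForm ℝ U) (hB0 : B ≠ 0) (hBs : ∀ u v, B u v = B v u) (hBi : ∀ (g : H) (u v : U), B (ρ g u) (ρ g v) = B u v) : (∃ m : U →ₗ[ℝ] U →ₗ[ℝ] U, m ≠ 0 ∧ (∀ u v, m u v = m v u) ∧ (∀ (g : H) (u v : U), m (ρ g u) (ρ g v) = ρ g (m u v)) ∧ ∀ m' : U →ₗ[ℝ] U →ₗ[ℝ] U, (∀ (g : H) (u v : U), m' (ρ g u) (ρ g v) = ρ g (m' u v)) → ∃ c : ℝ, m' = c • m) ↔ (∃ t : U →ₗ[ℝ] U →ₗ[ℝ] U →ₗ[ℝ] ℝ, t ≠ 0 ∧ (∀ u v w, t u v w = t v u w ∧ t u v w = t u w v) ∧ (∀ (g : H) (u v w : U), t (ρ g u) (ρ g v) (ρ g w) = t u v w) ∧ ∀ t' : U →ₗ[ℝ] U →ₗ[ℝ] U →ₗ[ℝ] ℝ, (∀ (g : H) (u v w : U), t' (ρ g u) (ρ g v) (ρ g w) = t' u v w) → ∃ c : ℝ, t' = c • t) := by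
  -- ρ g is invertible
  have hρ : ∀ (g : H) (u : U), ρ g (ρ g⁻¹ u) = u := by
    intro g u
    have : ρ g * ρ g⁻¹ = 1 := by rw [← map_mul, mul_inv_cancel, map_one]
    calc ρ g (ρ g⁻¹ u) = (ρ g * ρ g⁻¹) u := rfl
      _ = u := by rw [this]; rfl
  -- B is injective
  have hker : LinearMap.ker B = ⊥ := by
    rcases hirr (LinearMap.ker B) (by
      intro g x hx
      obtain ⟨u, hu, rfl⟩ := hx
      rw [SetLike.mem_coe, LinearMap.mem_ker] at hu
      rw [LinearMap.mem_ker]
      ext v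
      have h1 : B (ρ g u) v = B (ρ g u) (ρ g (ρ g⁻¹ v)) := by rw [hρ]
      rw [h1, hBi, hu]
      rfl) with h | h
    · exact h
    · exfalso
      apply hB0
      ext u v
      have : u ∈ LinearMap.ker B := by rw [h]; exact Submodule.mem_top
      rw [LinearMap.mem_ker] at this
      rw [this]
      rfl
  have hinj : Function.Injective B := LinearMap.ker_eq_bot.mp hker
  have hinj' : ∀ x y : U, (∀ w, B x w = B y w) → x = y := by
    intro x y h
    apply hinj
    ext w
    exact h w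
  have hsurj : Function.Surjective B :=
    (LinearMap.injective_iff_surjective_of_finrank_eq_finrank
      (Subspace.dual_finrank_eq (K := ℝ) (V := U)).symm).mp hinj
  let e : U ≃ₗ[ℝ] (U →ₗ[ℝ] ℝ) := LinearEquiv.ofBijective B ⟨hinj, hsurj⟩
  have he : ∀ (f : U →ₗ[ℝ] ℝ) (w : U), B (e.symm f) w = f w := by
    intro f w
    have : B (e.symm f) = f := e.apply_symm_apply f
    rw [this]
  -- from products to trilinear forms
  have toT_inv : ∀ m : U →ₗ[ℝ] U →ₗ[ℝ] U, (∀ (g : H) (u v : U), m (ρ g u) (ρ g v) = ρ g (m u v)) →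
      ∀ (g : H) (u v w : U), (m.compr₂ B) (ρ g u) (ρ g v) (ρ g w) = (m.compr₂ B) u v w := by
    intro m hm g u v w
    simp only [LinearMap.compr₂_apply]
    rw [hm, hBi]
  have toM_eq : ∀ (t : U →ₗ[ℝ] U →ₗ[ℝ] U →ₗ[ℝ] ℝ) (u v w : U),
      B ((t.compr₂ e.symm.toLinearMap) u v) w = t u v w := by
    intro t u v w
    simp only [LinearMap.compr₂_apply, LinearEquiv.coe_coe]
    exact he _ _
  have toM_equiv : ∀ t : U →ₗ[ℝ] U →ₗ[ℝ] U →ₗ[ℝ] ℝ,
      (∀ (g : H) (u v w : U), t (ρ g u) (ρ g v) (ρ g w) = t u v w) →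
      ∀ (g : H) (u v : U), (t.compr₂ e.symm.toLinearMap) (ρ g u) (ρ g v) =
        ρ g ((t.compr₂ e.symm.toLinearMap) u v) := by
    intro t ht g u v
    apply hinj'
    intro w
    rw [toM_eq]
    have h1 : t (ρ g u) (ρ g v) w = t (ρ g u) (ρ g v) (ρ g (ρ g⁻¹ w)) := by rw [hρ]
    have h2 : B (ρ g ((t.compr₂ e.symm.toLinearMap) u v)) w =
        B (ρ g ((t.compr₂ e.symm.toLinearMap) u v)) (ρ g (ρ g⁻¹ w)) := by rw [hρ]
    rw [h1, ht, h2, hBi, toM_eq]
  constructor
  · rintro ⟨m, hm0, hmc, hme, hmu⟩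
    have ht0 : m.compr₂ B ≠ 0 := by
      intro h
      apply hm0
      ext u v
      apply hinj' _ _
      intro w
      have := congrArg (fun t : U →ₗ[ℝ] U →ₗ[ℝ] U →ₗ[ℝ] ℝ => t u v w) h
      simp only [LinearMap.compr₂_apply] at this
      rw [this]
      simp
    have hsym12 : ∀ u v w, (m.compr₂ B) u v w = (m.compr₂ B) v u w := by
      intro u v w
      simp only [LinearMap.compr₂_apply]
      rw [hmc]
    have hinv := toT_inv m hme
    have huniv : ∀ t' : U →ₗ[ℝ] U →ₗ[ℝ] U →ₗ[ℝ] ℝ,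
        (∀ (g : H) (u v w : U), t' (ρ g u) (ρ g v) (ρ g w) = t' u v w) → ∃ c : ℝ, t' = c • m.compr₂ B := by
      intro t' ht'
      obtain ⟨c, hc⟩ := hmu _ (toM_equiv t' ht')
      refine ⟨c, ?_⟩
      ext u v w
      rw [← toM_eq t' u v w, hc]
      simp [LinearMap.compr₂_apply]
    -- symmetry in the last two arguments
    obtain ⟨c, hc⟩ := huniv ((LinearMap.lflip (R := ℝ) (M := U) (N := U) (P := ℝ)).comp (m.compr₂ B)) (by
      intro g u v w
      simp only [LinearMap.comp_apply, LinearMap.lflip_apply]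
      exact hinv g u w v)
    have hflip : ∀ u v w, (m.compr₂ B) u w v = c * (m.compr₂ B) u v w := by
      intro u v w
      have := congrArg (fun t : U →ₗ[ℝ] U →ₗ[ℝ] U →ₗ[ℝ] ℝ => t u v w) hc
      simpa using this
    obtain ⟨u₀, v₀, w₀, h₀⟩ : ∃ u v w, (m.compr₂ B) u v w ≠ 0 := by
      by_contra hcon
      push Not at hcon
      apply ht0
      ext u v w
      rw [hcon]
      rfl
    have hc2 : c * c = 1 := by
      have h1 := hflip u₀ v₀ w₀
      have h2 := hflip u₀ w₀ v₀
      rw [h1] at h2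
      have h3 : (c * c - 1) * (m.compr₂ B) u₀ v₀ w₀ = 0 := by linarith
      rcases mul_eq_zero.mp h3 with h | h
      · linarith
      · exact absurd h h₀
    have hc1 : c = 1 := by
      have hcases : c = 1 ∨ c = -1 := by
        have : (c - 1) * (c + 1) = 0 := by ring_nf; linarith
        rcases mul_eq_zero.mp this with h | h
        · left; linarith
        · right; linarith
      rcases hcases with h | h
      · exact h
      · exfalso
        apply h₀
        have a1 := hflip u₀ v₀ w₀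
        have a2 := hsym12 u₀ w₀ v₀
        have a3 := hflip w₀ v₀ u₀
        have a4 := hsym12 w₀ v₀ u₀
        have a5 := hflip v₀ u₀ w₀
        have a6 := hsym12 v₀ u₀ w₀
        rw [h] at a1 a3 a5
        linarith
    refine ⟨m.compr₂ B, ht0, fun u v w => ⟨hsym12 u v w, ?_⟩, hinv, huniv⟩
    have := hflip u w v
    rw [hc1, one_mul] at this
    exact this
  · rintro ⟨t, ht0, hts, hti, htu⟩
    refine ⟨t.compr₂ e.symm.toLinearMap, ?_, ?_, toM_equiv t hti, ?_⟩
    · intro h
      apply ht0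
      ext u v w
      rw [← toM_eq t u v w, h]
      simp
    · intro u v
      apply hinj'
      intro w
      rw [toM_eq, toM_eq]
      exact (hts u v w).1
    · intro m' hm'
      obtain ⟨c, hc⟩ := htu _ (toT_inv m' hm')
      refine ⟨c, ?_⟩
      ext u v
      apply hinj' _ _
      intro w
      have := congrArg (fun t : U →ₗ[ℝ] U →ₗ[ℝ] U →ₗ[ℝ] ℝ => t u v w) hc
      simp only [LinearMap.compr₂_apply, LinearMap.smul_apply, smul_eq_mul] at this
      rw [this]
      simp only [LinearMap.smul_apply, map_smul, smul_eq_mul]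
      rw [toM_eq]

end Cfsg.Agent.S5541
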