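import Cfsg.Statements.S5543

set_option autoImplicit false
open Cfsg

namespace Cfsg.Agent.S5543

theorem comm_of_sq {M : Type*} [Group M] {x y : M} (hxx : x * x = 1) (hyy : y * y = 1)
    (hxy : (x * y) * (x * y) = 1) : x * y = y * x := by
  calc x * y = x * ((x * y) * (x * y)) * y := by rw [hxy]; group
    _ = (x * x) * (y * x) * (y * y) := by group
    _ = y * x := by rw [hxx, hyy]; group

/-- Let V be a finite-dimensional real vector space with a commutative bilinear product and a positive-definite symmetric bilinear form that associates with the product and satisfies the Norton inequality (the Majorana setting of the definitions). Let X be a group of linear automorphisms of V in which every element squares to the identity, and suppose every non-identity element x of X is a Majorana involution with an axial vector a(x) of squared length 1, such that for any two distinct non-identity x, y the product a(x) ∘ a(y) equals (1/8)(a(x) + a(y) − a(xy)) (the dihedral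 subalgebra of type 2A whose third axis belongs to the involution xy). Then X has order at most 4. -/
theorem result {V : Type*} [AddCommGroup V] [Module ℝ V] [FiniteDimensional ℝ V] (mul : V →ₗ[ℝ] V →ₗ[ℝ] V) (B : LinearMap.BilinForm ℝ V) (hV : Cfsg.Axial.IsMajoranaAmbient mul B) (X : Subgroup (V ≃ₗ[ℝ] V)) (hX : ∀ x ∈ X, x * x = 1) (ax : (V ≃ₗ[ℝ] V) → V) (hax : ∀ x ∈ X, x ≠ 1 → Cfsg.Axial.IsMajoranaPair mul B x (ax x)) (h1 : ∀ x ∈ X, x ≠ 1 → B (ax x) (ax x) = 1) (h2A : ∀ x ∈ X, ∀ y ∈ X, x ≠ 1 → y ≠ 1 → x ≠ y → mul (ax x) (ax y) = (1 / 8 : ℝ) • (ax x + ax y - ax (x * y))) : Nat.card ↥X ≤ 4 := by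
  obtain ⟨-, -, -, hassoc, -⟩ := hV
  have hidem : ∀ x ∈ X, x ≠ 1 → mul (ax x) (ax x) = ax x := fun x hx hx1 => (hax x hx hx1).2.2.1.1.2.1
  -- group facts
  have hcomm : ∀ x ∈ X, ∀ y ∈ X, x * y = y * x := fun x hx y hy =>
    comm_of_sq (hX x hx) (hX y hy) (hX _ (X.mul_mem hx hy))
  have hxxy : ∀ x ∈ X, ∀ y : V ≃ₗ[ℝ] V, x * (x * y) = y := fun x hx y => by
    rw [← mul_assoc, hX x hx, one_mul]
  -- 1/4 eigenvectors
  have heig : ∀ x ∈ X, ∀ y ∈ X, x ≠ 1 → y ≠ 1 → x ≠ y →
      mul (ax x) (ax y - ax (x * y)) = (1 / 4 : ℝ) • (ax y - ax (x * y)) := by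
    intro x hx y hy hx1 hy1 hxy
    have hw1 : x * y ≠ 1 := by
      intro h
      apply hxy
      calc x = x * (x * y) := by rw [h, mul_one]
        _ = y := hxxy x hx y
    have hwx : x ≠ x * y := by
      intro h
      apply hy1
      calc y = x * (x * y) := (hxxy x hx y).symm
        _ = x * x := by rw [← h]
        _ = 1 := hX x hx
    rw [map_sub, h2A x hx y hy hx1 hy1 hxy, h2A x hx (x * y) (X.mul_mem hx hy) hx1 hw1 hwx, hxxy x hx y]
    module
  -- inner products
  have hinner : ∀ x ∈ X, ∀ y ∈ X, x ≠ 1 → y ≠ 1 → x ≠ y → B (ax x) (ax y) = 1 / 8 := by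
    intro x hx y hy hx1 hy1 hxy
    have hw1 : x * y ≠ 1 := by
      intro h
      apply hxy
      calc x = x * (x * y) := by rw [h, mul_one]
        _ = y := hxxy x hx y
    have hwx : x ≠ x * y := by
      intro h
      apply hy1
      calc y = x * (x * y) := (hxxy x hx y).symm
        _ = x * x := by rw [← h]
        _ = 1 := hX x hx
    have e1 : B (ax x) (mul (ax x) (ax y)) = B (ax x) (ax y) := by
      rw [hassoc, hidem x hx hx1]
    have e2 : B (ax x) (mul (ax x) (ax (x * y))) = B (ax x) (ax (x * y)) := by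
      rw [hassoc, hidem x hx hx1]
    rw [h2A x hx y hy hx1 hy1 hxy] at e1
    rw [h2A x hx (x * y) (X.mul_mem hx hy) hx1 hw1 hwx, hxxy x hx y] at e2
    simp only [map_add, map_sub, map_smul, smul_eq_mul] at e1 e2
    rw [h1 x hx hx1] at e1 e2
    linarith
  by_contra hcard
  push Not at hcard
  have hfin : Finite X := Nat.finite_of_card_ne_zero (by omega)
  have := Fintype.ofFinite X
  have key : ∀ s : Finset X, s.card ≤ 4 → ∃ t : X, t ∉ s := by
    intro s hs
    by_contra hcon
    push Not at hcon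
    have hs' : s = Finset.univ := Finset.eq_univ_of_forall hcon
    rw [hs', Finset.card_univ, ← Nat.card_eq_fintype_card] at hs
    omega
  classical
  obtain ⟨x, hx⟩ := key {1} (by simp)
  obtain ⟨y, hy⟩ := key {1, x} (Finset.card_le_two.trans (by norm_num))
  obtain ⟨z, hz⟩ := key {1, x, y, x * y} (Finset.card_le_four.trans (by norm_num))
  simp only [Finset.mem_singleton, Finset.mem_insert, not_or] at hx hy hz
  obtain ⟨hy1, hyx⟩ := hy
  obtain ⟨hz1, hzx, hzy, hzxy⟩ := hz
  have hx1' : (x : V ≃ₗ[ℝ] V) ≠ 1 := fun h => hx (Subtype.ext h)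
  have hy1' : (y : V ≃ₗ[ℝ] V) ≠ 1 := fun h => hy1 (Subtype.ext h)
  have hz1' : (z : V ≃ₗ[ℝ] V) ≠ 1 := fun h => hz1 (Subtype.ext h)
  have hyx' : (y : V ≃ₗ[ℝ] V) ≠ x := fun h => hyx (Subtype.ext h)
  have hzx' : (z : V ≃ₗ[ℝ] V) ≠ x := fun h => hzx (Subtype.ext h)
  have hzy' : (z : V ≃ₗ[ℝ] V) ≠ y := fun h => hzy (Subtype.ext h)
  have hzxy' : (z : V ≃ₗ[ℝ] V) ≠ x * y := fun h => hzxy (Subtype.ext h)
  obtain ⟨x, hxX⟩ := x
  obtain ⟨y, hyX⟩ := y
  obtain ⟨z, hzX⟩ := z
  simp only at hx1' hy1' hz1' hyx' hzx' hzy' hzxy'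
  have hxyX : x * y ∈ X := X.mul_mem hxX hyX
  have hxzX : x * z ∈ X := X.mul_mem hxX hzX
  have hyzX : y * z ∈ X := X.mul_mem hyX hzX
  -- needed inequalities
  have hxy1 : x * y ≠ 1 := by
    intro h; apply hyx'
    calc y = x * (x * y) := (hxxy x hxX y).symm
      _ = x := by rw [h, mul_one]
  have hxz1 : x * z ≠ 1 := by
    intro h; apply hzx'
    calc z = x * (x * z) := (hxxy x hxX z).symm
      _ = x := by rw [h, mul_one]
  have hyz1 : y * z ≠ 1 := by
    intro h; apply hzy'
    calc z = y * (y * z) := (hxxy y hyX z).symm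
      _ = y := by rw [h, mul_one]
  have hy_xz : y ≠ x * z := by
    intro h; apply hzxy'
    calc z = x * (x * z) := (hxxy x hxX z).symm
      _ = x * y := by rw [← h]
  have hxy_xz : x * y ≠ x * z := by
    intro h; apply hzy'
    exact (mul_left_cancel h).symm
  have hx_yz : x ≠ y * z := by
    intro h; apply hzxy'
    calc z = y * (y * z) := (hxxy y hyX z).symm
      _ = y * x := by rw [← h]
      _ = x * y := hcomm y hyX x hxX
  -- the three eigenvectors
  have ev1 := heig x hxX y hyX hx1' hy1' (Ne.symm hyx')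
  have ev2 := heig x hxX z hzX hx1' hz1' (Ne.symm hzx')
  have ev3 := heig x hxX (y * z) hyzX hx1' hyz1 hx_yz
  -- product of v1 and v2
  have e_a : y * (x * z) = x * (y * z) := by
    rw [← mul_assoc, hcomm y hyX x hxX, mul_assoc]
  have e_b : x * y * z = x * (y * z) := mul_assoc x y z
  have e_c : x * y * (x * z) = y * z := by
    rw [hcomm x hxX y hyX, mul_assoc, hxxy x hxX z]
  have hprod : mul (ax y - ax (x * y)) (ax z - ax (x * z)) =
      (-(1 / 4 : ℝ)) • (ax (y * z) - ax (x * (y * z))) := by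
    simp only [map_sub, LinearMap.sub_apply]
    rw [h2A y hyX z hzX hy1' hz1' (Ne.symm hzy'),
      h2A y hyX (x * z) hxzX hy1' hxz1 hy_xz,
      h2A (x * y) hxyX z hzX hxy1 hz1' (Ne.symm hzxy'),
      h2A (x * y) hxyX (x * z) hxzX hxy1 hxz1 hxy_xz, e_a, e_b, e_c]
    module
  -- fusion
  have hfus := (hax x hxX hx1').2.2.1.1.2.2.2 (1 / 4) (by simp [Cfsg.Axial.majoranaSpectrum]) (1 / 4)
    (by simp [Cfsg.Axial.majoranaSpectrum]) (ax y - ax (x * y))
    (by rw [Cfsg.Axial.eigen, Module.End.mem_eigenspace_iff]; exact ev1)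
    (ax z - ax (x * z))
    (by rw [Cfsg.Axial.eigen, Module.End.mem_eigenspace_iff]; exact ev2)
  have hlaw : Cfsg.Axial.monsterLaw (1 / 4 : ℝ) (1 / 32) (1 / 4) (1 / 4) = {1, 0} := by
    unfold Cfsg.Axial.monsterLaw
    norm_num
  rw [hlaw, hprod, Cfsg.Axial.eigenSum, iSup_insert, iSup_singleton, Submodule.mem_sup] at hfus
  obtain ⟨w1, hw1, w0, hw0, hw⟩ := hfus
  rw [Cfsg.Axial.eigen, Module.End.mem_eigenspace_iff] at hw1 hw0
  rw [one_smul] at hw1
  rw [zero_smul] at hw0
  have hmulw : mul (ax x) ((-(1 / 4 : ℝ)) • (ax (y * z) - ax (x * (y * z)))) =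
      (1 / 4 : ℝ) • ((-(1 / 4 : ℝ)) • (ax (y * z) - ax (x * (y * z)))) := by
    rw [map_smul, ev3, smul_comm]
  rw [← hw, map_add, hw1, hw0, add_zero] at hmulw
  -- w1 = (1/4)(w1 + w0)  =>  w0 = 3 w1
  have hw03 : w0 = (3 : ℝ) • w1 := by
    have : (4 : ℝ) • w1 = (4 : ℝ) • ((1 / 4 : ℝ) • (w1 + w0)) := by rw [← hmulw]
    rw [smul_smul] at this
    norm_num at this
    have h3 : w0 = (4 : ℝ) • w1 - w1 := by rw [this]; abel
    rw [h3]; module
  have hw1z : w1 = 0 := by
    have h := hw0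
    rw [hw03, map_smul, hw1] at h
    have h' : (3 : ℝ) = 0 ∨ w1 = 0 := smul_eq_zero.mp h
    rcases h' with h' | h'
    · norm_num at h'
    · exact h'
  have hw0z : w0 = 0 := by rw [hw03, hw1z, smul_zero]
  rw [hw1z, hw0z, add_zero] at hw
  have hv3 : ax (y * z) - ax (x * (y * z)) = 0 := by
    have h' := smul_eq_zero.mp hw.symm
    rcases h' with h' | h'
    · norm_num at h'
    · exact h'
  have heq : ax (y * z) = ax (x * (y * z)) := sub_eq_zero.mp hv3
  have hx_yz1 : x * (y * z) ≠ 1 := by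
    intro h; apply hx_yz
    calc x = x * (x * (y * z)) := by rw [h, mul_one]
      _ = y * z := hxxy x hxX _
  have hne : y * z ≠ x * (y * z) := by
    intro h; apply hx1'
    calc x = x * (y * z) * (y * z)⁻¹ := by group
      _ = 1 := by rw [← h]; group
  have hin := hinner (y * z) hyzX (x * (y * z)) (X.mul_mem hxX hyzX) hyz1 hx_yz1 hne
  rw [← heq, h1 (y * z) hyzX hyz1] at hin
  norm_num at hin

end Cfsg.Agent.S5543
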