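import Cfsg.Statements.S5545
import Mathlib

set_option autoImplicit false
open Cfsg

namespace Cfsg.Agent.S5545

open Cfsg.Axial

variable {V : Type*} [AddCommGroup V] [Module ℝ V]

theorem eigen_map' (mul : V →ₗ[ℝ] V →ₗ[ℝ] V) (μ : V ≃ₗ[ℝ] V)
    (hμ : ∀ u v : V, μ (mul u v) = mul (μ u) (μ v)) (a : V) (c : ℝ) :
    eigen mul (μ a) c = (eigen mul a c).map (μ : V →ₗ[ℝ] V) := by
  ext v
  simp only [eigen, Module.End.mem_eigenspace_iff, Submodule.mem_map, LinearEquiv.coe_coe]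
  constructor
  · intro h
    refine ⟨μ.symm v, ?_, by simp⟩
    apply μ.injective
    rw [hμ, map_smul, LinearEquiv.apply_symm_apply, h]
  · rintro ⟨x, hx, rfl⟩
    rw [← hμ, hx, map_smul]

theorem eigenSum_map' (mul : V →ₗ[ℝ] V →ₗ[ℝ] V) (μ : V ≃ₗ[ℝ] V)
    (hμ : ∀ u v : V, μ (mul u v) = mul (μ u) (μ v)) (a : V) (S : Set ℝ) :
    eigenSum mul (μ a) S = (eigenSum mul a S).map (μ : V →ₗ[ℝ] V) := by
  unfold eigenSum
  rw [Submodule.map_iSup]
  refine iSup_congr fun c => ?_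
  rw [Submodule.map_iSup]
  refine iSup_congr fun _ => ?_
  exact eigen_map' mul μ hμ a c

theorem transport (mul : V →ₗ[ℝ] V →ₗ[ℝ] V) (B : LinearMap.BilinForm ℝ V) (μ ν : V ≃ₗ[ℝ] V) (a : V)
    (hμ : ∀ u v : V, μ (mul u v) = mul (μ u) (μ v))
    (hν : IsMajoranaPair mul B ν a) (hc : μ * ν = ν * μ) :
    IsMajoranaPair mul B ν (μ a) := by
  unfold IsMajoranaPair IsPrimitiveAxis IsAxis IsMiyamotoMap at hν ⊢
  obtain ⟨h1, h2, ⟨⟨hne, hid, hsum, hfus⟩, hprim⟩, hm1, hm2⟩ := hν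
  have hcomm : ∀ x, ν (μ x) = μ (ν x) := by
    intro x
    have := congrArg (fun f : V ≃ₗ[ℝ] V => f x) hc
    simpa [LinearEquiv.mul_apply] using this.symm
  refine ⟨h1, h2, ⟨⟨?_, ?_, ?_, ?_⟩, ?_⟩, ?_, ?_⟩
  · exact fun h => hne (μ.injective (by rw [h, map_zero]))
  · rw [← hμ, hid]
  · rw [eigenSum_map' mul μ hμ, hsum, Submodule.map_top, LinearEquiv.range]
  · intro c hc' d hd u hu v hv
    rw [eigen_map' mul μ hμ] at hu hv
    obtain ⟨u', hu', rfl⟩ := hu
    obtain ⟨v', hv', rfl⟩ := hv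
    rw [eigenSum_map' mul μ hμ]
    exact ⟨mul u' v', hfus c hc' d hd u' hu' v' hv', hμ u' v'⟩
  · rw [eigen_map' mul μ hμ, hprim, Submodule.map_span, Set.image_singleton]
    rfl
  · intro v hv
    rw [eigenSum_map' mul μ hμ] at hv
    obtain ⟨v', hv', rfl⟩ := hv
    have := hm1 v' hv'
    simp only [LinearEquiv.coe_coe] at this ⊢
    rw [hcomm, this]
  · intro v hv
    rw [eigen_map' mul μ hμ] at hv
    obtain ⟨v', hv', rfl⟩ := hv
    have := hm2 v' hv'
    simp only [LinearEquiv.coe_coe] at this ⊢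
    rw [hcomm, this, map_neg]

theorem one_side (mul : V →ₗ[ℝ] V →ₗ[ℝ] V) (B : LinearMap.BilinForm ℝ V)
    (hV : IsMajoranaAmbient mul B) (μ : V ≃ₗ[ℝ] V) (a b : V)
    (h : IsMajoranaPair mul B μ a) (hn : B a a = 1) (hμb : μ b = b) (hbb : mul b b = b) :
    mul a (mul a b) = (1/4 : ℝ) • mul a b + (3 * B a b / 4) • a ∧
    (B a b = 0 → mul a b = 0) ∧
    (32 : ℝ) • mul (mul a b) (mul a b) = (8 : ℝ) • mul b (mul a b)
      + (16 * B a b * B a b + 4 * B a b) • a + (8 * B a b - 4) • mul a b := by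
  obtain ⟨hcomm, hsymm, hpos, hassoc, -⟩ := hV
  unfold IsMajoranaPair IsPrimitiveAxis IsAxis IsMiyamotoMap at h
  obtain ⟨-, -, ⟨⟨hne, haa, hsum, hfus⟩, hprim⟩, hm1, hm2⟩ := h
  -- decomposition of b
  have hbtop : b ∈ eigenSum mul a majoranaSpectrum := by rw [hsum]; exact Submodule.mem_top
  unfold eigenSum majoranaSpectrum at hbtop
  rw [iSup_insert, iSup_insert, iSup_insert, iSup_singleton] at hbtop
  obtain ⟨x1, hx1, r1, hr1, hb1⟩ := Submodule.mem_sup.mp hbtop
  obtain ⟨u, hu, r2, hr2, hb2⟩ := Submodule.mem_sup.mp hr1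
  obtain ⟨w, hw, y, hy, hb3⟩ := Submodule.mem_sup.mp hr2
  have hS1 : eigen mul a 1 ≤ eigenSum mul a {1, 0, 1 / 4} := by
    show eigen mul a 1 ≤ ⨆ c ∈ ({1, 0, 1 / 4} : Set ℝ), eigen mul a c
    exact le_biSup (fun c => eigen mul a c) (by simp)
  have hS0 : eigen mul a 0 ≤ eigenSum mul a {1, 0, 1 / 4} := by
    show eigen mul a 0 ≤ ⨆ c ∈ ({1, 0, 1 / 4} : Set ℝ), eigen mul a c
    exact le_biSup (fun c => eigen mul a c) (by simp)
  have hS4 : eigen mul a (1 / 4) ≤ eigenSum mul a {1, 0, 1 / 4} := by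
    show eigen mul a (1 / 4) ≤ ⨆ c ∈ ({1, 0, 1 / 4} : Set ℝ), eigen mul a c
    exact le_biSup (fun c => eigen mul a c) (by simp)
  have f1 : μ x1 = x1 := by simpa using hm1 x1 (hS1 hx1)
  have f2 : μ u = u := by simpa using hm1 u (hS0 hu)
  have f3 : μ w = w := by simpa using hm1 w (hS4 hw)
  have f4 : μ y = -y := by simpa using hm2 y hy
  have hy0 : y = 0 := by
    have e : μ b = x1 + (u + (w + -y)) := by
      rw [← hb1, ← hb2, ← hb3, map_add, map_add, map_add, f1, f2, f3, f4]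
    rw [hμb] at e
    have e' : b = x1 + (u + (w + y)) := by rw [← hb1, ← hb2, ← hb3]
    have e2 : -y = y := by
      have := e.symm.trans e'
      exact add_left_cancel (add_left_cancel (add_left_cancel this))
    have h2 : (2:ℝ) • y = 0 := by
      rw [two_smul]; nth_rewrite 1 [← e2]; exact neg_add_cancel y
    exact (smul_eq_zero.mp h2).resolve_left (by norm_num)
  obtain ⟨l, hl⟩ := Submodule.mem_span_singleton.mp (hprim ▸ hx1)
  have hb : b = l • a + (u + w) := by rw [← hb1, ← hb2, ← hb3, hy0, add_zero, hl]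
  have hau : mul a u = 0 := by simpa using Module.End.mem_eigenspace_iff.mp hu
  have haw : mul a w = (1/4:ℝ) • w := Module.End.mem_eigenspace_iff.mp hw
  have hBau : B a u = 0 := by
    have := hassoc a a u
    rw [haa, hau, map_zero] at this
    exact this.symm
  have hBaw : B a w = 0 := by
    have := hassoc a a w
    rw [haa, haw, map_smul, smul_eq_mul] at this
    linarith
  have hlam : B a b = l := by
    rw [hb, map_add, map_add, map_smul, smul_eq_mul, hn, hBau, hBaw]; ring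
  have hp : mul a b = l • a + (1/4:ℝ) • w := by
    rw [hb, map_add, map_add, map_smul, haa, hau, haw, zero_add]
  have hw_eq : w = (4:ℝ) • mul a b - (4*l) • a := by rw [hp]; module
  have hu_eq : u = b + (3*l) • a - (4:ℝ) • mul a b := by rw [hp, hb]; module
  have hA1 : mul a (mul a b) = (1/4:ℝ) • mul a b + (3*l/4) • a := by
    rw [hp, map_add, map_smul, map_smul, haa, haw]; module
  -- fusion
  have m0 : (0:ℝ) ∈ majoranaSpectrum := by unfold majoranaSpectrum; simp
  have m4 : (1/4:ℝ) ∈ majoranaSpectrum := by unfold majoranaSpectrum; simp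
  have l00 : monsterLaw (1/4:ℝ) (1/32) 0 0 = {0} := by unfold monsterLaw; norm_num
  have l44 : monsterLaw (1/4:ℝ) (1/32) (1/4) (1/4) = {1, 0} := by unfold monsterLaw; norm_num
  have l04 : monsterLaw (1/4:ℝ) (1/32) 0 (1/4) = {1/4} := by unfold monsterLaw; norm_num
  have huu : mul a (mul u u) = 0 := by
    have := hfus 0 m0 0 m0 u hu u hu
    rw [l00] at this
    unfold eigenSum at this
    rw [iSup_singleton] at this
    simpa using Module.End.mem_eigenspace_iff.mp this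
  have huw : mul a (mul u w) = (1/4:ℝ) • mul u w := by
    have := hfus 0 m0 (1/4) m4 u hu w hw
    rw [l04] at this
    unfold eigenSum at this
    rw [iSup_singleton] at this
    exact Module.End.mem_eigenspace_iff.mp this
  obtain ⟨x, hx, z, hz, hxz⟩ : ∃ x ∈ eigen mul a 1, ∃ z ∈ eigen mul a 0, x + z = mul w w := by
    have := hfus (1/4) m4 (1/4) m4 w hw w hw
    rw [l44] at this
    unfold eigenSum at this
    rw [iSup_insert, iSup_singleton] at this
    exact Submodule.mem_sup.mp this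
  obtain ⟨m, hm⟩ := Submodule.mem_span_singleton.mp (hprim ▸ hx)
  have haz : mul a z = 0 := by simpa using Module.End.mem_eigenspace_iff.mp hz
  have hww : mul w w = m • a + z := by rw [← hxz, hm]
  have hBaz : B a z = 0 := by
    have := hassoc a a z
    rw [haa, haz, map_zero] at this
    exact this.symm
  -- expansion of b * b
  have hua : mul u a = 0 := by rw [hcomm u a, hau]
  have hwa : mul w a = (1/4:ℝ) • w := by rw [hcomm w a, haw]
  have hwu : mul w u = mul u w := hcomm w u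
  have H : l • a + (u + w) = (l*l) • a + mul u u + (m • a + z) + (l/2) • w + (2:ℝ) • mul u w := by
    have e : mul (l • a + (u + w)) (l • a + (u + w))
        = (l*l) • a + mul u u + mul w w + (l/2) • w + (2:ℝ) • mul u w := by
      simp only [map_add, map_smul, LinearMap.add_apply, LinearMap.smul_apply, haa, hau, hua, haw,
        hwa, hwu]
      module
    rw [← hb, hbb, hww] at e
    rw [hb] at e
    exact e
  have e1 : l • a + (1/4:ℝ) • w = (l*l + m) • a + (l/8) • w + (1/2:ℝ) • mul u w := by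
    have := congrArg (mul a) H
    simp only [map_add, map_smul, haa, hau, haw, huu, haz, huw] at this
    linear_combination (norm := module) this
  have e2 : l • a + (1/16:ℝ) • w = (l*l + m) • a + (l/32) • w + (1/8:ℝ) • mul u w := by
    have := congrArg (mul a) e1
    simp only [map_add, map_smul, haa, haw, huw] at this
    linear_combination (norm := module) this
  have hm_eq : m = l - l*l := by
    have : (l - l*l - m) • a = 0 := by
      linear_combination (norm := module) (4/3:ℝ) • e2 - (1/3:ℝ) • e1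
    have := (smul_eq_zero.mp this).resolve_right hne
    linarith
  have hY : w - (l/2) • w - (2:ℝ) • mul u w = 0 := by
    rw [hm_eq] at e1
    linear_combination (norm := module) (4:ℝ) • e1
  have hE3 : u = mul u u + z := by
    rw [hm_eq] at H
    linear_combination (norm := module) H - hY
  have hBww : B w w = 4 * m := by
    have h1 := hassoc w w a
    rw [hwa, hww, map_smul, smul_eq_mul, map_add, LinearMap.add_apply, map_smul,
      LinearMap.smul_apply, smul_eq_mul, hn, hsymm z a, hBaz] at h1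
    linarith
  have hA2 : l = 0 → mul a b = 0 := by
    intro hl0
    have hw0 : w = 0 := by
      by_contra hne'
      have := hpos w hne'
      rw [hBww, hm_eq, hl0] at this
      norm_num at this
    rw [hp, hl0, hw0]; simp
  have hpa : mul (mul a b) a = mul a (mul a b) := hcomm _ _
  have hba : mul b a = mul a b := hcomm _ _
  have hpb : mul (mul a b) b = mul b (mul a b) := hcomm _ _
  have huu_exp : mul u u = b - (9*l*l) • a + (16:ℝ) • mul (mul a b) (mul a b)
      - (8:ℝ) • mul b (mul a b) := by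
    rw [hu_eq]
    simp only [map_add, map_sub, map_smul, LinearMap.add_apply, LinearMap.sub_apply,
      LinearMap.smul_apply, hbb, haa, hba, hpa, hpb, hA1]
    module
  have hww_exp : mul w w = (16:ℝ) • mul (mul a b) (mul a b) - (8*l) • mul a b - (8*l*l) • a := by
    rw [hw_eq]
    simp only [map_add, map_sub, map_smul, LinearMap.add_apply, LinearMap.sub_apply,
      LinearMap.smul_apply, hbb, haa, hba, hpa, hpb, hA1]
    module
  have hA3 : (32:ℝ) • mul (mul a b) (mul a b) = (8:ℝ) • mul b (mul a b)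
      + (16*l*l + 4*l) • a + (8*l - 4) • mul a b := by
    have hz_eq : z = mul w w - m • a := by rw [hww]; module
    rw [hz_eq, huu_exp, hww_exp, hm_eq] at hE3
    rw [hu_eq] at hE3
    linear_combination (norm := module) (-1:ℝ) • hE3
  rw [hlam]
  exact ⟨hA1, hA2, hA3⟩

/-- Let V be a finite-dimensional real vector space with a commutative bilinear product and a positive-definite symmetric bilinear form that associates with the product and satisfies the Norton inequality (the Majorana setting of the definitions). Let μ₀, μ₁ be commuting Majorana involutions with distinct axial vectors a₀ ≠ a₁ of squared length 1, each involution having no other axial vector. Then either a₀ and a₁ are orthogonal with a₀ ∘ a₁ = 0 (type 2B), or their inner product is 1/8 and, with a₂ = a₀ + a₁ − 8 a₀ ∘ a₁, the vector a₂ is an idempotent and a₀ ∘ a₂ = (1/8)(a₀ + a₂ − a₁), a₁ ∘ a₂ = (1/8)(a₁ + a₂ − a₀) (type 2A: the three idempotents span a subalgebra with aᵢ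 ∘ aⱼ = (1/8)(aᵢ + aⱼ − aₖ)). -/
theorem result {V : Type*} [AddCommGroup V] [Module ℝ V] [FiniteDimensional ℝ V] (mul : V →ₗ[ℝ] V →ₗ[ℝ] V) (B : LinearMap.BilinForm ℝ V) (hV : Cfsg.Axial.IsMajoranaAmbient mul B) (μ₀ μ₁ : V ≃ₗ[ℝ] V) (a₀ a₁ : V) (h₀ : Cfsg.Axial.IsMajoranaPair mul B μ₀ a₀) (h₁ : Cfsg.Axial.IsMajoranaPair mul B μ₁ a₁) (hu₀ : ∀ a : V, Cfsg.Axial.IsMajoranaPair mul B μ₀ a → a = a₀) (hu₁ : ∀ a : V, Cfsg.Axial.IsMajoranaPair mul B μ₁ a → a = a₁) (hn₀ : B a₀ a₀ = 1) (hn₁ : B a₁ a₁ = 1) (hc : μ₀ * μ₁ = μ₁ * μ₀) (hne : a₀ ≠ a₁) : (B a₀ a₁ = 0 ∧ mul a₀ a₁ = 0) ∨ (B a₀ a₁ = 1 / 8 ∧ mul (a₀ + a₁ - (8 : ℝ) • mul a₀ a₁) (a₀ + a₁ - (8 : ℝ) • mul a₀ a₁) = a₀ + a₁ - (8 : ℝ) • mul a₀ a₁ ∧ mul a₀ (a₀ + a₁ - (8 : ℝ) • mul a₀ a₁) = (1 / 8 : ℝ) • (a₀ + (a₀ + a₁ - (8 : ℝ) • mul a₀ a₁) - a₁) ∧ mul a₁ (a₀ + a₁ - (8 : ℝ) • mul a₀ a₁) = (1 / 8 : ℝ) • (a₁ + (a₀ + a₁ - (8 : ℝ) • mul a₀ a₁) - a₀)) := by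
  obtain ⟨hcomm, hsymm, hpos, hassoc, -⟩ := id hV
  have t0 : μ₀ a₁ = a₁ := hu₁ _ (transport mul B μ₀ μ₁ a₁ h₀.1 h₁ hc)
  have t1 : μ₁ a₀ = a₀ := hu₀ _ (transport mul B μ₁ μ₀ a₀ h₁.1 h₀ hc.symm)
  have i0 : mul a₀ a₀ = a₀ := h₀.2.2.1.1.2.1
  have i1 : mul a₁ a₁ = a₁ := h₁.2.2.1.1.2.1
  obtain ⟨A1, A2, A3⟩ := one_side mul B hV μ₀ a₀ a₁ h₀ hn₀ t0 i1
  obtain ⟨B1, B2, B3⟩ := one_side mul B hV μ₁ a₁ a₀ h₁ hn₁ t1 i0
  have hba : mul a₁ a₀ = mul a₀ a₁ := hcomm _ _
  have hBs : B a₁ a₀ = B a₀ a₁ := hsymm _ _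
  rw [hba, hBs] at B1 B2 B3
  have A3' := A3
  have B3' := B3
  rw [B1] at A3'
  rw [A1] at B3'
  have key : (2 * B a₀ a₁ - 16 * B a₀ a₁ * B a₀ a₁) • (a₁ - a₀) = 0 := by
    linear_combination (norm := module) B3' - A3'
  have hne' : a₁ - a₀ ≠ 0 := sub_ne_zero.mpr (Ne.symm hne)
  have hl2 : 2 * B a₀ a₁ - 16 * B a₀ a₁ * B a₀ a₁ = 0 := (smul_eq_zero.mp key).resolve_right hne'
  have hcases : B a₀ a₁ = 0 ∨ B a₀ a₁ = 1 / 8 := by
    have : B a₀ a₁ * (1 - 8 * B a₀ a₁) = 0 := by linear_combination hl2 / 2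
    rcases mul_eq_zero.mp this with h | h
    · left; exact h
    · right; linarith
  rcases hcases with h0 | h8
  · left; exact ⟨h0, A2 h0⟩
  · right
    rw [h8] at A1 B1 B3'
    have hpa0 : mul (mul a₀ a₁) a₀ = mul a₀ (mul a₀ a₁) := hcomm _ _
    have hpa1 : mul (mul a₀ a₁) a₁ = mul a₁ (mul a₀ a₁) := hcomm _ _
    refine ⟨h8, ?_, ?_, ?_⟩
    · simp only [map_add, map_sub, map_smul, LinearMap.add_apply, LinearMap.sub_apply,
        LinearMap.smul_apply, i0, i1, hba, hpa0, hpa1, A1, B1]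
      linear_combination (norm := module) (2:ℝ) • B3'
    · simp only [map_add, map_sub, map_smul, i0, A1]
      module
    · simp only [map_add, map_sub, map_smul, i1, hba, B1]
      module

end Cfsg.Agent.S5545
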