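import Cfsg.Statements.S5546
import Cfsg.Agent.Lib.helper27.Co0Basic

set_option autoImplicit false
open Cfsg

namespace Cfsg.Agent.S5546

open Cfsg.Agent.Lib.helper27
open Cfsg.Agent.Lib.helper28

/-- The integer matrix of `g` with respect to the vectors `8 e_i`. -/
def nMat (g : Equiv.Perm leechLattice) (j i : GolayPt) : ℤ := (g (bVec i)).1 j

theorem nMat_formula (g : Equiv.Perm leechLattice) (hg : g ∈ Co0) (v : leechLattice) (j : GolayPt) :
    8 * (g v).1 j = ∑ i, nMat g j i * v.1 i := by
  have h1 := congrArg (toAddHom g hg) (eight_smul_eq v)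
  rw [map_zsmul, map_sum] at h1
  have h2 := congrArg (evalHom j) h1
  rw [map_zsmul, map_sum] at h2
  simp only [map_zsmul, toAddHom_apply, evalHom_apply, smul_eq_mul] at h2
  rw [h2]
  apply Finset.sum_congr rfl
  intro i _
  unfold nMat
  ring

theorem nMat_mul (g h : Equiv.Perm leechLattice) (hg : g ∈ Co0) (j i : GolayPt) :
    8 * nMat (g * h) j i = ∑ k, nMat g j k * nMat h k i :=
  nMat_formula g hg (h (bVec i)) j

theorem nMat_one (j i : GolayPt) : nMat 1 j i = if j = i then 8 else 0 := rfl

theorem nMat_none (g : Equiv.Perm leechLattice) (hg : g ∈ Co0) (hu : g Spor.leechU = Spor.leechU)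
    (j : GolayPt) : nMat g j none = 2 * Spor.vecU j - nMat g j (some 0) := by
  have hb : bVec none + bVec (some 0) = (2 : ℤ) • Spor.leechU := by
    apply Subtype.ext
    funext k
    revert k
    decide
  have h1 := congrArg (toAddHom g hg) hb
  rw [map_add, map_zsmul, toAddHom_apply, toAddHom_apply, toAddHom_apply, hu] at h1
  have h2 := congrArg (evalHom j) h1
  rw [map_add, map_zsmul] at h2
  have h3 : evalHom j Spor.leechU = Spor.vecU j := rfl
  rw [h3] at h2
  simp only [evalHom_apply, smul_eq_mul] at h2
  unfold nMat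
  linarith

theorem vecU_some (t : ZMod 23) : Spor.vecU (some t) = if t = 0 then 4 else 0 := by
  revert t; decide

theorem vecU_none : Spor.vecU none = 4 := by decide

/-- The integer matrix on the quotient by the fixed vector. -/
def dMat (g : Equiv.Perm leechLattice) (t r : ZMod 23) : ℤ :=
  nMat g (some t) (some r) - (if t = 0 then nMat g none (some r) else 0)

theorem dMat_def (g : Equiv.Perm leechLattice) (t r : ZMod 23) :
    dMat g t r = nMat g (some t) (some r) - (if t = 0 then nMat g none (some r) else 0) := rfl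

theorem dMat_one (t r : ZMod 23) : dMat 1 t r = if t = r then 8 else 0 := by
  rw [dMat_def, nMat_one, nMat_one]
  have h1 : ¬ ((none : GolayPt) = some r) := by simp
  rw [if_neg h1]
  by_cases h : t = r
  · subst h; simp
  · have h2 : ¬ ((some t : GolayPt) = some r) := fun h' => h (Option.some.inj h')
    rw [if_neg h2, if_neg h]
    simp

theorem dMat_mul (g h : Equiv.Perm leechLattice) (hg : g ∈ Co0)
    (hu : g Spor.leechU = Spor.leechU) (t r : ZMod 23) :
    8 * dMat (g * h) t r = ∑ q, dMat g t q * dMat h q r := by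
  have hR : ∑ q, dMat g t q * dMat h q r =
      ∑ q, dMat g t q * nMat h (some q) (some r) - dMat g t 0 * nMat h none (some r) := by
    have h1 : ∀ q, dMat g t q * dMat h q r = dMat g t q * nMat h (some q) (some r) -
        (if q = 0 then dMat g t 0 * nMat h none (some r) else 0) := by
      intro q
      rw [dMat_def h q r]
      split_ifs with hq
      · subst hq; ring
      · ring
    rw [Finset.sum_congr rfl (fun q _ => h1 q), Finset.sum_sub_distrib,
      Finset.sum_ite_eq' Finset.univ (0 : ZMod 23)]
    simp
  have hL : 8 * dMat (g * h) t r =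
      ∑ k, (nMat g (some t) k - (if t = 0 then nMat g none k else 0)) * nMat h k (some r) := by
    rw [dMat_def (g * h) t r, mul_sub]
    by_cases ht : t = 0
    · rw [if_pos ht, nMat_mul g h hg, nMat_mul g h hg, ← Finset.sum_sub_distrib]
      apply Finset.sum_congr rfl
      intro k _
      rw [if_pos ht]
      ring
    · rw [if_neg ht, mul_zero, sub_zero, nMat_mul g h hg]
      apply Finset.sum_congr rfl
      intro k _
      rw [if_neg ht, sub_zero]
  have hnone : nMat g (some t) none - (if t = 0 then nMat g none none else 0) = -dMat g t 0 := by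
    rw [nMat_none g hg hu (some t), nMat_none g hg hu none, dMat_def, vecU_some, vecU_none]
    by_cases ht : t = 0
    · rw [if_pos ht, if_pos ht, if_pos ht]; ring
    · rw [if_neg ht, if_neg ht, if_neg ht]; ring
  rw [hL, Fintype.sum_option, hnone, hR]
  have hsome : ∑ q : ZMod 23, (nMat g (some t) (some q) - (if t = 0 then nMat g none (some q) else 0)) *
      nMat h (some q) (some r) = ∑ q, dMat g t q * nMat h (some q) (some r) := rfl
  rw [hsome]
  ring

/-- The matrix modulo 13. -/
def aMat (g : Equiv.Perm leechLattice) : Matrix (ZMod 23) (ZMod 23) (ZMod 13) :=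
  fun t r => 5 * ((dMat g t r : ℤ) : ZMod 13)

theorem aMat_one : aMat 1 = 1 := by
  ext t r
  show 5 * ((dMat 1 t r : ℤ) : ZMod 13) = (1 : Matrix (ZMod 23) (ZMod 23) (ZMod 13)) t r
  rw [dMat_one, Matrix.one_apply]
  split_ifs
  · decide
  · simp

theorem aMat_mul (g h : Equiv.Perm leechLattice) (hg : g ∈ Co0)
    (hu : g Spor.leechU = Spor.leechU) : aMat (g * h) = aMat g * aMat h := by
  ext t r
  rw [Matrix.mul_apply]
  show 5 * ((dMat (g * h) t r : ℤ) : ZMod 13) =
    ∑ q, (5 * ((dMat g t q : ℤ) : ZMod 13)) * (5 * ((dMat h q r : ℤ) : ZMod 13))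
  have h1 := congrArg (Int.cast : ℤ → ZMod 13) (dMat_mul g h hg hu t r)
  push_cast at h1
  have h2 : ∀ q, (5 * ((dMat g t q : ℤ) : ZMod 13)) * (5 * ((dMat h q r : ℤ) : ZMod 13)) =
      25 * (((dMat g t q : ℤ) : ZMod 13) * ((dMat h q r : ℤ) : ZMod 13)) := fun q => by ring
  rw [Finset.sum_congr rfl (fun q _ => h2 q), ← Finset.mul_sum, ← h1, ← mul_assoc]
  have h3 : (25 : ZMod 13) * 8 = 5 := by decide
  rw [h3]

theorem dot_preserved (g : Equiv.Perm leechLattice) (hg : g ∈ Co0) (a b : leechLattice) :
    dotInt (g a).1 (g b).1 = dotInt a.1 b.1 := by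
  have h1 := hg.2 (a + b)
  rw [hg.1 a b] at h1
  have e1 : ((g a + g b : leechLattice) : GolayPt → ℤ) = (g a).1 + (g b).1 := rfl
  have e2 : ((a + b : leechLattice) : GolayPt → ℤ) = a.1 + b.1 := rfl
  rw [e1, e2, sqNorm_add, sqNorm_add, hg.2 a, hg.2 b] at h1
  linarith

theorem dot_vecU (x : GolayPt → ℤ) : dotInt Spor.vecU x = 4 * x none + 4 * x (some 0) := by
  unfold dotInt
  rw [Fintype.sum_option, vecU_none]
  have h : ∀ q : ZMod 23, Spor.vecU (some q) * x (some q) =
      if q = 0 then 4 * x (some 0) else 0 := by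
    intro q
    rw [vecU_some]
    split_ifs with hq
    · subst hq; rfl
    · ring
  rw [Finset.sum_congr rfl (fun q _ => h q), Finset.sum_ite_eq' Finset.univ (0 : ZMod 23)]
  simp

theorem small13 {x : GolayPt → ℤ} (hx : x ∈ leechSet) (h13 : ∀ j, x j % 13 = 0)
    (hn : sqNorm x ≤ 256) : x = 0 := by
  by_contra hne
  obtain ⟨j, hj⟩ : ∃ j, x j ≠ 0 := by
    by_contra hcon
    push Not at hcon
    exact hne (funext hcon)
  unfold sqNorm at hn
  rcases leechSet_cases hx with ⟨h1, _, _⟩ | ⟨h1, _, _⟩
  · have hle : x j ^ 2 ≤ ∑ i, x i ^ 2 :=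
      Finset.single_le_sum (f := fun i => x i ^ 2) (fun i _ => sq_nonneg (x i)) (Finset.mem_univ j)
    have := h1 j
    have := h13 j
    have h26 : x j ≤ -26 ∨ 26 ≤ x j := by omega
    rcases h26 with h | h <;> nlinarith
  · have hge : (Finset.univ : Finset GolayPt).card • (169 : ℤ) ≤ ∑ i, x i ^ 2 := by
      apply Finset.card_nsmul_le_sum
      intro i _
      have := h1 i
      have := h13 i
      have h' : x i ≤ -13 ∨ 13 ≤ x i := by omega
      rcases h' with h | h <;> nlinarith
    rw [Finset.card_univ, card_golayPt, nsmul_eq_mul] at hge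
    have h24 : ((24 : ℕ) : ℤ) * 169 = 4056 := by norm_num
    rw [h24] at hge
    omega

theorem ite_some (t r : ZMod 23) :
    (if (some t : GolayPt) = some r then (8 : ℤ) else 0) = if t = r then 8 else 0 := by
  by_cases h' : t = r
  · subst h'; simp
  · rw [if_neg h', if_neg (fun h'' => h' (Option.some.inj h''))]

theorem ker_trivial (g : Equiv.Perm leechLattice) (hg : g ∈ Co0)
    (hu : g Spor.leechU = Spor.leechU) (ha : aMat g = 1) : g = 1 := by
  have hd : ∀ t r, dMat g t r % 13 = (if t = r then (8 : ℤ) else 0) % 13 := by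
    intro t r
    have h2 : 5 * ((dMat g t r : ℤ) : ZMod 13) =
        (1 : Matrix (ZMod 23) (ZMod 23) (ZMod 13)) t r := congrFun (congrFun ha t) r
    rw [Matrix.one_apply] at h2
    have h3 : ((dMat g t r : ℤ) : ZMod 13) = (((if t = r then 8 else 0 : ℤ)) : ZMod 13) := by
      have h4 : ((dMat g t r : ℤ) : ZMod 13) = 8 * (5 * ((dMat g t r : ℤ) : ZMod 13)) := by
        rw [← mul_assoc]
        have h85 : (8 : ZMod 13) * 5 = 1 := by decide
        rw [h85, one_mul]
      rw [h4, h2]
      split_ifs <;> simp
    have h5 : dMat g t r ≡ (if t = r then 8 else 0) [ZMOD 13] := by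
      exact_mod_cast (ZMod.intCast_eq_intCast_iff _ _ 13).mp h3
    exact h5
  have hfix : ∀ r : ZMod 23, g (bVec (some r)) = bVec (some r) := by
    intro r
    obtain ⟨w, hw⟩ : ∃ w : GolayPt → ℤ, w = (g (bVec (some r))).1 - (bVec (some r)).1 := ⟨_, rfl⟩
    have hwL : w ∈ leechSet := by
      rw [hw, ← mem_leechLattice_iff]
      exact sub_mem (g (bVec (some r))).2 (bVec (some r)).2
    have hwj : ∀ j, w j = nMat g j (some r) - (if j = some r then 8 else 0) := by
      intro j
      rw [hw]
      rfl
    have horth : w none + w (some 0) = 0 := by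
      have h1 := dot_preserved g hg Spor.leechU (bVec (some r))
      rw [hu] at h1
      have e : (Spor.leechU : leechLattice).1 = Spor.vecU := rfl
      rw [e, dot_vecU, dot_vecU] at h1
      rw [hw]
      simp only [Pi.sub_apply]
      linarith
    have h13 : ∀ j, w j % 13 = 0 := by
      have hsome : ∀ t : ZMod 23, t ≠ 0 → w (some t) % 13 = 0 := by
        intro t ht
        have h := hd t r
        rw [dMat_def, if_neg ht, sub_zero] at h
        rw [hwj, ite_some]
        generalize (if t = r then (8 : ℤ) else 0) = c at *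
        omega
      have h0 := hd 0 r
      rw [dMat_def, if_pos rfl] at h0
      have e0 : w (some 0) - w none = nMat g (some 0) (some r) - nMat g none (some r) -
          (if (0 : ZMod 23) = r then 8 else 0) := by
        rw [hwj, hwj, ite_some]
        have e2 : (if (none : GolayPt) = some r then (8 : ℤ) else 0) = 0 := by simp
        rw [e2]
        ring
      have hdiff : (w (some 0) - w none) % 13 = 0 := by
        rw [e0]
        generalize (if (0 : ZMod 23) = r then (8 : ℤ) else 0) = c at *
        omega
      intro j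
      cases j with
      | none => omega
      | some t =>
        by_cases ht : t = 0
        · subst ht; omega
        · exact hsome t ht
    have hnorm : sqNorm w ≤ 256 := by
      have h1 := hg.2 (bVec (some r))
      rw [sqNorm_bVec] at h1
      have h2 := sqNorm_bVec (some r)
      have h3 : sqNorm w ≤ 2 * sqNorm (g (bVec (some r))).1 + 2 * sqNorm (bVec (some r)).1 := by
        rw [hw]
        unfold sqNorm
        rw [Finset.mul_sum, Finset.mul_sum, ← Finset.sum_add_distrib]
        apply Finset.sum_le_sum
        intro i _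
        simp only [Pi.sub_apply]
        nlinarith [sq_nonneg ((g (bVec (some r))).1 i + (bVec (some r)).1 i)]
      linarith
    have hw0 := small13 hwL h13 hnorm
    apply Subtype.ext
    have h4 : (g (bVec (some r))).1 - (bVec (some r)).1 = 0 := by rw [← hw]; exact hw0
    exact sub_eq_zero.mp h4
  have hfixn : g (bVec none) = bVec none := by
    apply Subtype.ext
    funext j
    have h := nMat_none g hg hu j
    unfold nMat at h
    rw [hfix 0] at h
    have key : ∀ k : GolayPt, 2 * Spor.vecU k - (bVec (some 0)).1 k = (bVec none).1 k := by decide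
    rw [h, key]
  apply Equiv.ext
  intro v
  apply Subtype.ext
  funext j
  have h := nMat_formula g hg v j
  have h2 : ∀ i, nMat g j i = (bVec i).1 j := by
    intro i
    unfold nMat
    cases i with
    | none => rw [hfixn]
    | some r => rw [hfix r]
  rw [Finset.sum_congr rfl (fun i _ => by rw [h2 i])] at h
  simp only [bVec_apply, ite_mul, zero_mul] at h
  rw [Finset.sum_ite_eq Finset.univ j] at h
  simp only [Finset.mem_univ, if_true] at h
  show (g v).1 j = v.1 j
  omega

/-- index bijection -/
def idxEquiv : Fin 23 ≃ ZMod 23 := (ZMod.finEquiv 23).toEquiv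

theorem co2_mem (g : Spor.Co2) : g.1 ∈ Co0 := (Subgroup.mem_inf.mp g.2).1

theorem co2_fix (g : Spor.Co2) : g.1 Spor.leechU = Spor.leechU :=
  MulAction.mem_stabilizer_iff.mp (Subgroup.mem_inf.mp g.2).2

/-- the 23-dimensional representation modulo 13 -/
def repHom : ↥Spor.Co2 →* Matrix (Fin 23) (Fin 23) (ZMod 13) where
  toFun g := (aMat g.1).submatrix idxEquiv idxEquiv
  map_one' := by
    show (aMat 1).submatrix idxEquiv idxEquiv = 1
    rw [aMat_one, Matrix.submatrix_one_equiv]
  map_mul' g h := by
    show (aMat (g.1 * h.1)).submatrix idxEquiv idxEquiv = _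
    rw [aMat_mul g.1 h.1 (co2_mem g) (co2_fix g), Matrix.submatrix_mul_equiv]

/-- The second Conway group (the stabilizer in the Leech lattice automorphism group of the short vector fixed in the definitions) is isomorphic to a subgroup of the general linear group of degree 23 over the field with 13 elements: there is an injective homomorphism into it. -/
theorem result : ∃ f : ↥Cfsg.Spor.Co2 →* GL (Fin 23) (ZMod 13), Function.Injective f := by
  refine ⟨repHom.toHomUnits, ?_⟩
  rw [injective_iff_map_eq_one]
  intro g hg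
  have h1 : repHom g = 1 := by
    have h := congrArg Units.val hg
    rw [MonoidHom.coe_toHomUnits] at h
    exact h
  have h2 : aMat g.1 = 1 := by
    ext t r
    have h4 : (aMat g.1) (idxEquiv (idxEquiv.symm t)) (idxEquiv (idxEquiv.symm r)) =
        (1 : Matrix (Fin 23) (Fin 23) (ZMod 13)) (idxEquiv.symm t) (idxEquiv.symm r) :=
      congrFun (congrFun h1 (idxEquiv.symm t)) (idxEquiv.symm r)
    rw [Equiv.apply_symm_apply, Equiv.apply_symm_apply, Matrix.one_apply] at h4
    rw [h4, Matrix.one_apply]
    simp
  apply Subtype.ext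
  exact ker_trivial g.1 (co2_mem g) (co2_fix g) h2

end Cfsg.Agent.S5546
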