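import Cfsg.Statements.S5551
import Cfsg.Agent.Lib.helper27.Leech

set_option autoImplicit false
open Cfsg

namespace Cfsg.Agent.S5551

/-- In the Leech lattice of the definitions (integer coordinates, minimal squared length 32), let v and w be non-zero lattice vectors of squared length at most 64 that are congruent modulo twice the lattice. Then they have the same squared length, and if that length is less than 64 then w = v or w = −v. (So a class that contains a non-zero vector of squared length at most 64 has a well-defined type 2, 3 or 4, and a class of type 2 or 3 contains no such vector other than v and −v.) -/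
theorem result (v w : Cfsg.GolayPt → ℤ) (hv : v ∈ Cfsg.leechLattice) (hw : w ∈ Cfsg.leechLattice) (hv0 : v ≠ 0) (hw0 : w ≠ 0) (hvn : Cfsg.sqNorm v ≤ 64) (hwn : Cfsg.sqNorm w ≤ 64) (hc : ∃ z ∈ Cfsg.leechLattice, v - w = 2 • z) : Cfsg.sqNorm v = Cfsg.sqNorm w ∧ (Cfsg.sqNorm v < 64 → w = v ∨ w = -v) := by
  obtain ⟨z, hz, hvw⟩ := hc
  have hv_eq : v = w + 2 • z := by rw [← hvw]; abel
  by_cases hz0 : z = 0
  · have h : v = w := by rw [hv_eq, hz0, smul_zero, add_zero]
    subst h
    exact ⟨rfl, fun _ => Or.inl rfl⟩
  by_cases hz0' : z + w = 0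
  · have hzw : z = -w := eq_neg_of_add_eq_zero_left hz0'
    have h : v = -w := by
      rw [hv_eq, hzw]
      funext i
      simp only [Pi.add_apply, Pi.smul_apply, Pi.neg_apply]
      ring
    have hw' : w = -v := by rw [h, neg_neg]
    refine ⟨?_, fun _ => Or.inr hw'⟩
    rw [h]
    unfold Cfsg.sqNorm
    apply Finset.sum_congr rfl
    intro i _
    simp
  have h1 := Cfsg.Agent.Lib.helper27.leechLattice_le_sqNorm hz hz0
  have h2 := Cfsg.Agent.Lib.helper27.leechLattice_le_sqNorm (add_mem hz hw) hz0'
  have key : 4 * Cfsg.sqNorm z + 4 * Cfsg.sqNorm (z + w) = 2 * Cfsg.sqNorm v + 2 * Cfsg.sqNorm w := by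
    rw [hv_eq]
    unfold Cfsg.sqNorm
    rw [Finset.mul_sum, Finset.mul_sum, Finset.mul_sum, Finset.mul_sum, ← Finset.sum_add_distrib,
      ← Finset.sum_add_distrib]
    apply Finset.sum_congr rfl
    intro i _
    simp only [Pi.add_apply, Pi.smul_apply]
    ring
  constructor
  · omega
  · intro hlt
    omega

end Cfsg.Agent.S5551
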