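import Cfsg.Statements.S5594
import Cfsg.Agent.Lib.helper27.Co0Basic
import Cfsg.Agent.Lib.helper28.GolayM12

set_option autoImplicit false
open Cfsg

namespace Cfsg.Agent.S5594

open Cfsg.Agent.Lib.helper27 Cfsg.Agent.Lib.helper28

theorem projInv_sq (i : GolayPt) : projInv (projInv i) = i := by
  revert i; decide

theorem projInv_swap (i : GolayPt) : projInv i ∈ setOf d0 ↔ ¬ (i ∈ setOf d0) := by
  revert i; decide +kernel

/-- The automorphism group of the Leech lattice contains the negation map, and the subgroup of order 2 it generates has no complement: the automorphism group is a non-split extension of its quotient by that subgroup (it is not the direct product of a group of order 2 with the first Conway group). -/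
theorem result :
    ∃ n : ↥Cfsg.Co0, (∀ v : ↥Cfsg.leechLattice, ((n • v : ↥Cfsg.leechLattice) : Cfsg.GolayPt → ℤ) = -(v : Cfsg.GolayPt → ℤ)) ∧
    ∀ K : Subgroup ↥Cfsg.Co0, ¬ (Subgroup.zpowers n).IsComplement' K := by
  refine ⟨⟨negPerm, negPerm_mem⟩, fun v => rfl, ?_⟩
  intro K hK
  have hd : setOf d0 ∈ GC := setOf_d0_mem_dodecads.1
  have hgg : (⟨signPerm (setOf d0) hd * coordPerm projInv projInv_mem_M24,
      Co0.mul_mem (signPerm_mem _ _) (coordPerm_mem _ _)⟩ : Co0) *
      ⟨signPerm (setOf d0) hd * coordPerm projInv projInv_mem_M24,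
      Co0.mul_mem (signPerm_mem _ _) (coordPerm_mem _ _)⟩ = ⟨negPerm, negPerm_mem⟩ := by
    apply Subtype.ext
    apply Equiv.ext
    intro v
    apply Subtype.ext
    funext i
    show ((signPerm (setOf d0) hd (coordPerm projInv projInv_mem_M24
      (signPerm (setOf d0) hd (coordPerm projInv projInv_mem_M24 v))) : leechLattice) :
        GolayPt → ℤ) i = -(v.1 i)
    rw [signPerm_apply, coordPerm_apply, signPerm_apply, coordPerm_apply, projInv_sq]
    by_cases hi : i ∈ setOf d0
    · have h2 : ¬ projInv i ∈ setOf d0 := fun h => (projInv_swap i).mp h hi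
      rw [if_pos hi, if_neg h2]
    · have h2 : projInv i ∈ setOf d0 := (projInv_swap i).mpr hi
      rw [if_neg hi, if_pos h2]
  have hn2 : (⟨negPerm, negPerm_mem⟩ : Co0) * ⟨negPerm, negPerm_mem⟩ = 1 := by
    apply Subtype.ext
    apply Equiv.ext
    intro v
    show negPerm (negPerm v) = v
    rw [negPerm_apply, negPerm_apply, neg_neg]
  have hcentral : ∀ x : Co0, Commute (⟨negPerm, negPerm_mem⟩ : Co0) x := by
    intro x
    apply Subtype.ext
    apply Equiv.ext
    intro v
    show negPerm (x.1 v) = x.1 (negPerm v)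
    rw [negPerm_apply, negPerm_apply]
    have h := (toAddHom x.1 x.2).map_neg v
    rw [toAddHom_apply, toAddHom_apply] at h
    exact h.symm
  have hn1 : (⟨negPerm, negPerm_mem⟩ : Co0) ≠ 1 := by
    intro h
    have h1 := congrArg (fun f : Co0 => ((f.1 (bVec none) : leechLattice) : GolayPt → ℤ) none) h
    simp only [negPerm_apply] at h1
    have h2 : ((-(bVec none) : leechLattice) : GolayPt → ℤ) none = -8 := by
      show -((bVec none).1 none) = -8
      rw [bVec_apply]; simp
    have h3 : (((1 : Co0).1 (bVec none) : leechLattice) : GolayPt → ℤ) none = 8 := by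
      show (bVec none).1 none = 8
      rw [bVec_apply]; simp
    rw [h2, h3] at h1
    omega
  obtain ⟨⟨⟨h, hh⟩, ⟨k, hk⟩⟩, hhk, _⟩ := (Subgroup.isComplement'_def.mp hK).existsUnique
    (⟨signPerm (setOf d0) hd * coordPerm projInv projInv_mem_M24,
      Co0.mul_mem (signPerm_mem _ _) (coordPerm_mem _ _)⟩ : Co0)
  simp only at hhk
  obtain ⟨j, rfl⟩ := Subgroup.mem_zpowers_iff.mp hh
  have hcomm : Commute ((⟨negPerm, negPerm_mem⟩ : Co0) ^ j) k := (hcentral k).zpow_left j
  have hh2 : (⟨negPerm, negPerm_mem⟩ : Co0) ^ j * (⟨negPerm, negPerm_mem⟩ : Co0) ^ j = 1 := by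
    rw [← (Commute.refl _).mul_zpow, hn2, one_zpow]
  have hkk : k * k = ⟨negPerm, negPerm_mem⟩ := by
    rw [← hgg, ← hhk]
    rw [hcomm.symm.mul_mul_mul_comm, hh2, one_mul]
  have hnK : (⟨negPerm, negPerm_mem⟩ : Co0) ∈ K := by
    rw [← hkk]; exact K.mul_mem hk hk
  have := (Subgroup.disjoint_def.mp hK.disjoint) (Subgroup.mem_zpowers _) hnK
  exact hn1 this

end Cfsg.Agent.S5594
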