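import Cfsg.Statements.S5601
import Cfsg.Agent.Lib.helper27.Ord3

set_option autoImplicit false
open scoped Pointwise
open Cfsg

namespace Cfsg.Agent.S5601

open Cfsg.Agent.Lib.helper28 Cfsg.Agent.Lib.helper27
open scoped Pointwise

/-- The set of points fixed by a subgroup. -/
def FX (X : Subgroup ↥Cfsg.M24) : Set Cfsg.GolayPt :=
  {p : Cfsg.GolayPt | ∀ x ∈ X, ((x : ↥Cfsg.M24) : Equiv.Perm Cfsg.GolayPt) p = p}

theorem exists_gen {X : Subgroup ↥Cfsg.M24} (hX : Nat.card X = 3) :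
    ∃ x : ↥Cfsg.M24, orderOf x = 3 ∧ X = Subgroup.zpowers x := by
  have : Fact (Nat.Prime 3) := ⟨Nat.prime_three⟩
  have hne : X ≠ ⊥ := by
    intro h
    rw [h, Subgroup.card_bot] at hX
    exact absurd hX (by norm_num)
  obtain ⟨⟨x, hx⟩, hx1⟩ := (Subgroup.ne_bot_iff_exists_ne_one).mp hne
  have hx1' : x ≠ 1 := fun h => hx1 (Subtype.ext h)
  have hdvd : orderOf x ∣ 3 := by
    rw [← hX]; exact Subgroup.orderOf_dvd_natCard X hx
  have hord : orderOf x = 3 := by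
    rcases (Nat.Prime.eq_one_or_self_of_dvd Nat.prime_three _ hdvd) with h | h
    · exact absurd (orderOf_eq_one_iff.mp h) hx1'
    · exact h
  refine ⟨x, hord, ?_⟩
  symm
  apply Subgroup.eq_of_le_of_card_ge ((Subgroup.zpowers_le).mpr hx)
  rw [Nat.card_zpowers, hord, hX]

theorem FX_zpowers (x : ↥Cfsg.M24) :
    FX (Subgroup.zpowers x) = {p | (x : Equiv.Perm Cfsg.GolayPt) p = p} := by
  ext p
  constructor
  · intro h
    exact h x (Subgroup.mem_zpowers x)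
  · intro h y hy
    obtain ⟨n, rfl⟩ := Subgroup.mem_zpowers_iff.mp hy
    have hstab : x ∈ MulAction.stabilizer ↥Cfsg.M24 p := h
    exact (MulAction.stabilizer ↥Cfsg.M24 p).zpow_mem hstab n

theorem ncard_fix (g : Equiv.Perm Cfsg.GolayPt) :
    {p | g p = p}.ncard = (Finset.univ.filter fun p => g p = p).card := by
  rw [← Set.ncard_coe_finset]
  congr 1
  ext p
  simp

theorem conj_zpowers (k x : ↥Cfsg.M24) :
    MulAut.conj k • Subgroup.zpowers x = Subgroup.zpowers (k * x * k⁻¹) := by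
  have : MulAut.conj k • Subgroup.zpowers x =
      (Subgroup.zpowers x).map (MulAut.conj k).toMonoidHom := rfl
  rw [this, MonoidHom.map_zpowers]
  rfl

/-- Normal form for elements of order 3 of the subtype. -/
theorem normal3 (x : ↥Cfsg.M24) (hx : orderOf x = 3) :
    ((∀ p, (x : Equiv.Perm Cfsg.GolayPt) p ≠ p) ∧
        ∃ k : ↥Cfsg.M24, k * x * k⁻¹ = ⟨uB3, uB3_mem⟩) ∨
      ((Finset.univ.filter fun p => (x : Equiv.Perm Cfsg.GolayPt) p = p).card = 6 ∧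
        ∃ k : ↥Cfsg.M24, k * x * k⁻¹ = ⟨uA3, uA3_mem⟩) := by
  have h3 : orderOf (x : Equiv.Perm Cfsg.GolayPt) = 3 := by rw [Subgroup.orderOf_coe, hx]
  rcases ord3_normal x.1 x.2 h3 with ⟨h1, k, hk, hc⟩ | ⟨h1, k, hk, hc⟩
  · left
    exact ⟨h1, ⟨k, hk⟩, Subtype.ext hc⟩
  · right
    exact ⟨h1, ⟨k, hk⟩, Subtype.ext hc⟩

theorem ncard_of_fpf {g : Equiv.Perm Cfsg.GolayPt} (h : ∀ p, g p ≠ p) : {p | g p = p}.ncard = 0 := by
  have : {p | g p = p} = (∅ : Set Cfsg.GolayPt) := by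
    ext p
    simp [h p]
  rw [this, Set.ncard_empty]

theorem card_zpowers3 {x : ↥Cfsg.M24} (hx : orderOf x = 3) : Nat.card (Subgroup.zpowers x) = 3 := by
  rw [Nat.card_zpowers, hx]


/-- The group of the length-24 code has exactly two conjugacy classes of subgroups of order 3: a subgroup of order 3 fixes either exactly 6 of the 24 points or none of them, both cases occur, and two subgroups of order 3 with the same number of fixed points are conjugate. -/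
theorem result : (∀ X : Subgroup ↥Cfsg.M24, Nat.card X = 3 → {p : Cfsg.GolayPt | ∀ x ∈ X, ((x : ↥Cfsg.M24) : Equiv.Perm Cfsg.GolayPt) p = p}.ncard = 6 ∨ {p : Cfsg.GolayPt | ∀ x ∈ X, ((x : ↥Cfsg.M24) : Equiv.Perm Cfsg.GolayPt) p = p}.ncard = 0) ∧ (∃ X : Subgroup ↥Cfsg.M24, Nat.card X = 3 ∧ {p : Cfsg.GolayPt | ∀ x ∈ X, ((x : ↥Cfsg.M24) : Equiv.Perm Cfsg.GolayPt) p = p}.ncard = 6) ∧ (∃ X : Subgroup ↥Cfsg.M24, Nat.card X = 3 ∧ {p : Cfsg.GolayPt | ∀ x ∈ X, ((x : ↥Cfsg.M24) : Equiv.Perm Cfsg.GolayPt) p = p}.ncard = 0) ∧ ∀ X Y : Subgroup ↥Cfsg.M24, Nat.card X = 3 → Nat.card Y = 3 → {p : Cfsg.GolayPt | ∀ x ∈ X, ((x : ↥Cfsg.M24) : Equiv.Perm Cfsg.GolayPt) p = p}.ncard = {p : Cfsg.GolayPt | ∀ x ∈ Y, ((x : ↥Cfsg.M24) : Equiv.Perm Cfsg.GolayPt) p = p}.ncard → ∃ k : ↥Cfsg.M24, MulAut.conj k • X = Y := by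
  have hA : orderOf (⟨uA3, uA3_mem⟩ : ↥Cfsg.M24) = 3 := by
    rw [← Subgroup.orderOf_coe]; exact uA3_order
  have hB : orderOf (⟨uB3, uB3_mem⟩ : ↥Cfsg.M24) = 3 := by
    rw [← Subgroup.orderOf_coe]; exact uB3_order
  have key : ∀ X : Subgroup ↥Cfsg.M24, Nat.card X = 3 →
      (FX X).ncard = 0 ∧ (∃ k : ↥Cfsg.M24, MulAut.conj k • X = Subgroup.zpowers ⟨uB3, uB3_mem⟩) ∨
      (FX X).ncard = 6 ∧ (∃ k : ↥Cfsg.M24, MulAut.conj k • X = Subgroup.zpowers ⟨uA3, uA3_mem⟩) := by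
    intro X hX
    obtain ⟨x, hx, rfl⟩ := exists_gen hX
    rw [FX_zpowers]
    rcases normal3 x hx with ⟨h1, k, hk⟩ | ⟨h1, k, hk⟩
    · left
      exact ⟨ncard_of_fpf h1, k, by rw [conj_zpowers, hk]⟩
    · right
      exact ⟨by rw [ncard_fix, h1], k, by rw [conj_zpowers, hk]⟩
  refine ⟨?_, ?_, ?_, ?_⟩
  · intro X hX
    rcases key X hX with ⟨h, -⟩ | ⟨h, -⟩
    · right; exact h
    · left; exact h
  · refine ⟨Subgroup.zpowers ⟨uA3, uA3_mem⟩, card_zpowers3 hA, ?_⟩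
    show (FX (Subgroup.zpowers (⟨uA3, uA3_mem⟩ : ↥Cfsg.M24))).ncard = 6
    rw [FX_zpowers, ncard_fix]
    exact uA3_fix
  · refine ⟨Subgroup.zpowers ⟨uB3, uB3_mem⟩, card_zpowers3 hB, ?_⟩
    show (FX (Subgroup.zpowers (⟨uB3, uB3_mem⟩ : ↥Cfsg.M24))).ncard = 0
    rw [FX_zpowers]
    exact ncard_of_fpf uB3_fix
  · intro X Y hX hY hXY
    have hXY' : (FX X).ncard = (FX Y).ncard := hXY
    have fin : ∀ (U : Subgroup ↥Cfsg.M24) (k1 k2 : ↥Cfsg.M24), MulAut.conj k1 • X = U →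
        MulAut.conj k2 • Y = U → ∃ k : ↥Cfsg.M24, MulAut.conj k • X = Y := by
      intro U k1 k2 h1 h2
      refine ⟨k2⁻¹ * k1, ?_⟩
      rw [map_mul, mul_smul, h1, ← h2, map_inv, inv_smul_smul]
    rcases key X hX with ⟨h1, k1, hk1⟩ | ⟨h1, k1, hk1⟩ <;>
      rcases key Y hY with ⟨h2, k2, hk2⟩ | ⟨h2, k2, hk2⟩
    · exact fin _ k1 k2 hk1 hk2
    · rw [h1, h2] at hXY'; exact absurd hXY' (by norm_num)
    · rw [h1, h2] at hXY'; exact absurd hXY' (by norm_num)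
    · exact fin _ k1 k2 hk1 hk2

end Cfsg.Agent.S5601
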