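import Cfsg.Statements.S5602
import Cfsg.Agent.Lib.helper27.GolayTrio
import Cfsg.Agent.Lib.helper27.Ord3

set_option autoImplicit false
open scoped Pointwise
open Cfsg

namespace Cfsg.Agent.S5602

open Cfsg.Agent.Lib.helper28 Cfsg.Agent.Lib.helper27
open scoped Pointwise

theorem cntO : countLt (wtFixQ tA3 8) 4096 = 21 := by decide +kernel

theorem cntT : trioCount tA3 = 15 := by decide +kernel

theorem cntS : countLt (sextFixQ tA3) 4096 = 16 := by decide +kernel

theorem cntD : countLt (wtFixQ tA3 12) 4096 = 20 := by decide +kernel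


/-- An element of order 3 of the group of the length-24 code having exactly 6 fixed points maps to themselves exactly 21 octads, exactly 15 trios, exactly 16 sextets and exactly 20 dodecads. -/
theorem result (g : Equiv.Perm Cfsg.GolayPt) (hg : g ∈ Cfsg.M24) (h₃ : orderOf g = 3) (h₆ : (Finset.univ.filter fun p => g p = p).card = 6) : {o : Finset Cfsg.GolayPt | o ∈ Cfsg.octads ∧ g • o = o}.ncard = 21 ∧ {T : Finset (Finset Cfsg.GolayPt) | T ∈ Cfsg.trios ∧ g • T = T}.ncard = 15 ∧ {S : Finset (Finset Cfsg.GolayPt) | S ∈ Cfsg.sextets ∧ g • S = S}.ncard = 16 ∧ {d : Finset Cfsg.GolayPt | d ∈ Cfsg.dodecads ∧ g • d = d}.ncard = 20 := by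
  rcases ord3_normal g hg h₃ with ⟨hfpf, -⟩ | ⟨-, k, hk, hk'⟩
  · exfalso
    have : (Finset.univ.filter fun p => g p = p) = ∅ := by
      rw [Finset.filter_eq_empty_iff]
      intro p _
      exact hfpf p
    rw [this, Finset.card_empty] at h₆
    exact absurd h₆ (by norm_num)
  · have e : g = k⁻¹ * uA3 * k⁻¹⁻¹ := by
      rw [← hk']; group
    rw [e]
    refine ⟨?_, ?_, ?_, ?_⟩
    · rw [ncard_octads_fixed_conj (Cfsg.M24.inv_mem hk), ncard_octads_fixed uA3_table]
      exact cntO
    · rw [ncard_trios_fixed_conj (Cfsg.M24.inv_mem hk), ncard_trios_fixed uA3_mem uA3_table]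
      exact cntT
    · rw [ncard_sextets_fixed_conj (Cfsg.M24.inv_mem hk), ncard_sextets_fixed uA3_mem uA3_table]
      exact cntS
    · rw [ncard_dodecads_fixed_conj (Cfsg.M24.inv_mem hk), ncard_dodecads_fixed uA3_table]
      exact cntD

end Cfsg.Agent.S5602
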