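import Cfsg.Statements.S5603
import Cfsg.Agent.Lib.helper27.GolayTrio
import Cfsg.Agent.Lib.helper27.Ord3

set_option autoImplicit false
open scoped Pointwise
open Cfsg

namespace Cfsg.Agent.S5603

open Cfsg.Agent.Lib.helper28 Cfsg.Agent.Lib.helper27
open scoped Pointwise

theorem cntT : trioCount tB3 = 15 := by decide +kernel

theorem cntS : countLt (sextFixQ tB3) 4096 = 7 := by decide +kernel


/-- A fixed-point-free element of order 3 of the group of the length-24 code maps to themselves exactly 7 sextets and exactly 15 trios. -/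
theorem result (g : Equiv.Perm Cfsg.GolayPt) (hg : g ∈ Cfsg.M24) (h₃ : orderOf g = 3) (h₀ : ∀ p, g p ≠ p) : {S : Finset (Finset Cfsg.GolayPt) | S ∈ Cfsg.sextets ∧ g • S = S}.ncard = 7 ∧ {T : Finset (Finset Cfsg.GolayPt) | T ∈ Cfsg.trios ∧ g • T = T}.ncard = 15 := by
  rcases ord3_normal g hg h₃ with ⟨-, k, hk, hk'⟩ | ⟨h6, -⟩
  · have e : g = k⁻¹ * uB3 * k⁻¹⁻¹ := by
      rw [← hk']; group
    rw [e]
    refine ⟨?_, ?_⟩
    · rw [ncard_sextets_fixed_conj (Cfsg.M24.inv_mem hk), ncard_sextets_fixed uB3_mem uB3_table]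
      exact cntS
    · rw [ncard_trios_fixed_conj (Cfsg.M24.inv_mem hk), ncard_trios_fixed uB3_mem uB3_table]
      exact cntT
  · exfalso
    have hne : (Finset.univ.filter fun p => g p = p).Nonempty := by
      rw [← Finset.card_pos, h6]; norm_num
    obtain ⟨p, hp⟩ := hne
    rw [Finset.mem_filter] at hp
    exact h₀ p hp.2

end Cfsg.Agent.S5603
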