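import Cfsg.Statements.S5604
import Cfsg.Agent.Lib.helper27.Ord7
import Cfsg.Agent.Lib.helper27.OutM24

set_option autoImplicit false
open scoped Pointwise
open Cfsg

namespace Cfsg.Agent.S5604

open Cfsg.Agent.Lib.helper27 Cfsg.Agent.Lib.helper28

/-- The element of order 7 as an element of the group. -/
noncomputable def eM : ↥M24 := ⟨e7, e7_mem⟩

theorem eM_pow : eM ^ 7 = 1 := Subtype.ext e7_pow

theorem eM_ne : eM ≠ 1 := fun h => e7_ne (congrArg Subtype.val h)

theorem orderOf_eM : orderOf eM = 7 := by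
  have : Fact (Nat.Prime 7) := ⟨by norm_num⟩
  exact orderOf_eq_prime eM_pow eM_ne

theorem mem_norm_iff (n : ↥M24) :
    n ∈ Subgroup.normalizer ((Subgroup.zpowers eM : Subgroup ↥M24) : Set ↥M24) ↔
      ∃ k, k < 7 ∧ k ≠ 0 ∧ n.1 * e7 = e7 ^ k * n.1 := by
  constructor
  · intro hn
    have h1 := (Subgroup.mem_normalizer_iff.mp hn eM).mp (Subgroup.mem_zpowers eM)
    rw [mem_zpowers_iff_mem_range_orderOf, orderOf_eM, Finset.mem_image] at h1
    obtain ⟨k, hk, hke⟩ := h1
    rw [Finset.mem_range] at hk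
    have hke' : eM ^ k = n * eM * n⁻¹ := hke
    refine ⟨k, hk, ?_, ?_⟩
    · rintro rfl
      rw [pow_zero] at hke'
      apply eM_ne
      have : eM = n⁻¹ * (n * eM * n⁻¹) * n := by group
      rw [this, ← hke']
      group
    · have h2 : n * eM = eM ^ k * n := by rw [hke']; group
      exact congrArg Subtype.val h2
  · rintro ⟨k, hk, hk0, hke⟩
    apply Subgroup.mem_normalizer_fintype
    intro h hh
    rw [SetLike.mem_coe] at hh ⊢
    obtain ⟨j, rfl⟩ := Subgroup.mem_zpowers_iff.mp hh
    have h2 : n * eM * n⁻¹ = eM ^ k := by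
      have : n * eM = eM ^ k * n := Subtype.ext hke
      rw [this]
      group
    have h3 : n * eM ^ j * n⁻¹ = (eM ^ k) ^ j := by rw [← h2, conj_zpow]
    rw [h3]
    exact Subgroup.zpow_mem _ (Subgroup.pow_mem _ (Subgroup.mem_zpowers eM) k) j

theorem mem_cent_iff (n : ↥M24) :
    n ∈ Subgroup.centralizer ((Subgroup.zpowers eM : Subgroup ↥M24) : Set ↥M24) ↔
      n.1 * e7 = e7 * n.1 := by
  rw [Subgroup.zpowers_eq_closure, Subgroup.centralizer_closure,
    Subgroup.mem_centralizer_singleton_iff]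
  constructor
  · intro h
    exact congrArg Subtype.val h
  · intro h
    exact Subtype.ext h

theorem card_norm_S0 :
    Nat.card ↥(Subgroup.normalizer ((Subgroup.zpowers eM : Subgroup ↥M24) : Set ↥M24)) = 126 := by
  rw [← card_norm7]
  apply Nat.card_congr
  exact
    { toFun := fun n => ⟨n.1.1, n.1.2, (mem_norm_iff n.1).mp n.2⟩
      invFun := fun c => ⟨⟨c.1, c.2.1⟩, (mem_norm_iff _).mpr c.2.2⟩
      left_inv := fun n => rfl
      right_inv := fun c => rfl }

theorem card_cent_S0 :
    Nat.card ↥(Subgroup.centralizer ((Subgroup.zpowers eM : Subgroup ↥M24) : Set ↥M24)) = 42 := by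
  rw [← card_cent7]
  apply Nat.card_congr
  exact
    { toFun := fun n => ⟨n.1.1, n.1.2, (mem_cent_iff n.1).mp n.2⟩
      invFun := fun c => ⟨⟨c.1, c.2.1⟩, (mem_cent_iff _).mpr c.2.2⟩
      left_inv := fun n => rfl
      right_inv := fun c => rfl }

theorem map_centralizer_equiv {G : Type*} [Group G] (H : Subgroup G) (f : G ≃* G) :
    (Subgroup.centralizer (H : Set G)).map f.toMonoidHom =
      Subgroup.centralizer ((H.map f.toMonoidHom : Subgroup G) : Set G) := by
  ext x
  rw [Subgroup.mem_map_equiv, Subgroup.mem_centralizer_iff, Subgroup.mem_centralizer_iff]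
  constructor
  · intro h y hy
    rw [SetLike.mem_coe, Subgroup.mem_map_equiv] at hy
    have h1 := congrArg f (h (f.symm y) hy)
    simpa using h1
  · intro h y hy
    have h1 := h (f y) (by rw [SetLike.mem_coe, Subgroup.mem_map_equiv]; simpa using hy)
    apply f.injective
    simpa using h1


/-- For a subgroup S of order 7 of the group of the length-24 code (a Sylow 7-subgroup): the normaliser of S has order 126, the centraliser of S has order 42 and is non-abelian, and the whole normaliser leaves some trio invariant. (These are the orders of a Frobenius group of order 21 times a symmetric group of degree 3; the isomorphism type itself is not asserted here.) -/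
theorem result (S : Subgroup ↥Cfsg.M24) (hS : Nat.card S = 7) : Nat.card ↥(Subgroup.normalizer (S : Set ↥Cfsg.M24)) = 126 ∧ Nat.card ↥(Subgroup.centralizer (S : Set ↥Cfsg.M24)) = 42 ∧ (∃ x ∈ Subgroup.centralizer (S : Set ↥Cfsg.M24), ∃ y ∈ Subgroup.centralizer (S : Set ↥Cfsg.M24), x * y ≠ y * x) ∧ ∃ T ∈ Cfsg.trios, ∀ n ∈ Subgroup.normalizer (S : Set ↥Cfsg.M24), ((n : ↥Cfsg.M24) : Equiv.Perm Cfsg.GolayPt) • T = T := by
  have : Fact (Nat.Prime 7) := ⟨by norm_num⟩
  have hp2 : ¬ 7 ^ 2 ∣ Nat.card ↥M24 := by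
    rw [card_M24]
    norm_num
  have hS0 : Nat.card (Subgroup.zpowers eM : Subgroup ↥M24) = 7 := by
    rw [Nat.card_zpowers, orderOf_eM]
  obtain ⟨g, hg⟩ := exists_conj_of_card_prime hp2 (Subgroup.zpowers eM) S hS0 hS
  subst hg
  refine ⟨?_, ?_, ?_, ?_⟩
  · rw [← Subgroup.map_equiv_normalizer_eq,
      Subgroup.card_map_of_injective (MulAut.conj g).injective]
    exact card_norm_S0
  · rw [← map_centralizer_equiv,
      Subgroup.card_map_of_injective (MulAut.conj g).injective]
    exact card_cent_S0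
  · obtain ⟨a, haM, b, hbM, hae, hbe, hab⟩ := cent7_nonabelian
    rw [← map_centralizer_equiv]
    refine ⟨MulAut.conj g ⟨a, haM⟩, Subgroup.mem_map_of_mem _ ((mem_cent_iff ⟨a, haM⟩).mpr hae),
      MulAut.conj g ⟨b, hbM⟩, Subgroup.mem_map_of_mem _ ((mem_cent_iff ⟨b, hbM⟩).mpr hbe), ?_⟩
    intro hcon
    rw [← map_mul, ← map_mul] at hcon
    have h1 := (MulAut.conj g).injective hcon
    exact hab (congrArg Subtype.val h1)
  · refine ⟨g.1 • T7, smul_mem_trios g.2 T7_mem, ?_⟩
    intro n hn
    rw [← Subgroup.map_equiv_normalizer_eq, Subgroup.mem_map_equiv] at hn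
    obtain ⟨k, hk, hk0, hke⟩ := (mem_norm_iff _).mp hn
    have hfix := trio7_fixed ((MulAut.conj g).symm n).2 hk hk0 hke
    have e : (((MulAut.conj g).symm n : ↥M24) : Equiv.Perm GolayPt) = g.1⁻¹ * n.1 * g.1 := by
      rw [MulAut.conj_symm_apply]
      rfl
    rw [e] at hfix
    calc n.1 • g.1 • T7 = g.1 • (g.1⁻¹ * n.1 * g.1) • T7 := by
          rw [← mul_smul, ← mul_smul]
          congr 1
          group
      _ = g.1 • T7 := by rw [hfix]

end Cfsg.Agent.S5604
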