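import Cfsg.Statements.S5605
import Cfsg.Agent.Lib.helper27.GolayTrio

set_option autoImplicit false
open scoped Pointwise
open Cfsg

namespace Cfsg.Agent.S5605

open Cfsg.Agent.Lib.helper28 Cfsg.Agent.Lib.helper27
open scoped Pointwise

theorem cntO : countLt (wtFixQ invT 8) 4096 = 71 := by decide +kernel

theorem cntT : trioCount invT = 99 := by decide +kernel

theorem cntS : countLt (sextFixQ invT) 4096 = 91 := by decide +kernel


/-- An involution of the group of the length-24 code with exactly 8 fixed points maps to themselves exactly 71 octads, exactly 99 trios and exactly 91 sextets. -/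
theorem result (g : Equiv.Perm Cfsg.GolayPt) (hg : g ∈ Cfsg.M24) (h₂ : orderOf g = 2) (h₈ : (Finset.univ.filter fun p => g p = p).card = 8) : {o : Finset Cfsg.GolayPt | o ∈ Cfsg.octads ∧ g • o = o}.ncard = 71 ∧ {T : Finset (Finset Cfsg.GolayPt) | T ∈ Cfsg.trios ∧ g • T = T}.ncard = 99 ∧ {S : Finset (Finset Cfsg.GolayPt) | S ∈ Cfsg.sextets ∧ g • S = S}.ncard = 91 := by
  rcases inv_normal g hg h₂ with ⟨hfpf, -⟩ | ⟨-, k, hk, hk'⟩
  · exfalso
    have : (Finset.univ.filter fun p => g p = p) = ∅ := by
      rw [Finset.filter_eq_empty_iff]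
      intro p _
      exact hfpf p
    rw [this, Finset.card_empty] at h₈
    exact absurd h₈ (by norm_num)
  · have e : g = k⁻¹ * uA * k⁻¹⁻¹ := by
      rw [← hk']; group
    rw [e]
    refine ⟨?_, ?_, ?_⟩
    · rw [ncard_octads_fixed_conj (Cfsg.M24.inv_mem hk), ncard_octads_fixed uA_table]
      exact cntO
    · rw [ncard_trios_fixed_conj (Cfsg.M24.inv_mem hk), ncard_trios_fixed uA_mem uA_table]
      exact cntT
    · rw [ncard_sextets_fixed_conj (Cfsg.M24.inv_mem hk), ncard_sextets_fixed uA_mem uA_table]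
      exact cntS

end Cfsg.Agent.S5605
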