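import Cfsg.Statements.S5607
import Cfsg.Agent.Lib.helper27.Cent2B

set_option autoImplicit false
open scoped Pointwise
open Cfsg

namespace Cfsg.Agent.S5607

open Cfsg.Agent.Lib.helper27 Cfsg.Agent.Lib.helper28


/-- For a fixed-point-free involution t of the group of the length-24 code: its centraliser in that group has order 7680, is transitive on the 24 points, and is contained, together with t, in the stabiliser of some sextet. -/
theorem result (t : Equiv.Perm Cfsg.GolayPt) (ht : t ∈ Cfsg.M24) (h₂ : orderOf t = 2) (h₀ : ∀ p, t p ≠ p) : Nat.card {c : Equiv.Perm Cfsg.GolayPt // c ∈ Cfsg.M24 ∧ c * t = t * c} = 7680 ∧ (∀ p q : Cfsg.GolayPt, ∃ c ∈ Cfsg.M24, c * t = t * c ∧ c p = q) ∧ ∃ S ∈ Cfsg.sextets, t • S = S ∧ ∀ c ∈ Cfsg.M24, c * t = t * c → c • S = S := by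
  rcases inv_normal t ht h₂ with ⟨_, k, hk, hkt⟩ | ⟨hoct, _⟩
  swap
  · exfalso
    have h8 := hoct.2
    have h0 : (Finset.univ.filter fun p => t p = p) = ∅ := by
      rw [Finset.filter_eq_empty_iff]
      intro p _
      exact h₀ p
    rw [h0] at h8
    simp at h8
  have ht' : t = k⁻¹ * uB * k := by rw [← hkt]; group
  have hkinv : k⁻¹ ∈ M24 := M24.inv_mem hk
  have hcomm : ∀ c : Equiv.Perm GolayPt,
      c * t = t * c ↔ (k * c * k⁻¹) * uB = uB * (k * c * k⁻¹) := by
    intro c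
    rw [← hkt]
    constructor
    · intro h
      calc k * c * k⁻¹ * (k * t * k⁻¹) = k * (c * t) * k⁻¹ := by group
        _ = k * (t * c) * k⁻¹ := by rw [h]
        _ = k * t * k⁻¹ * (k * c * k⁻¹) := by group
    · intro h
      calc c * t = k⁻¹ * (k * c * k⁻¹ * (k * t * k⁻¹)) * k := by group
        _ = k⁻¹ * (k * t * k⁻¹ * (k * c * k⁻¹)) * k := by rw [h]
        _ = t * c := by group
  refine ⟨?_, ?_, ?_⟩
  · rw [← cB_card]
    apply Nat.card_congr
    exact
      { toFun := fun c => ⟨k * c.1 * k⁻¹, M24.mul_mem (M24.mul_mem hk c.2.1) hkinv,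
          (hcomm c.1).mp c.2.2⟩
        invFun := fun d => ⟨k⁻¹ * d.1 * k, M24.mul_mem (M24.mul_mem hkinv d.2.1) hk,
          (hcomm _).mpr (by
            have e : k * (k⁻¹ * d.1 * k) * k⁻¹ = d.1 := by group
            rw [e]
            exact d.2.2)⟩
        left_inv := fun c => Subtype.ext (by
          show k⁻¹ * (k * c.1 * k⁻¹) * k = c.1
          group)
        right_inv := fun d => Subtype.ext (by
          show k * (k⁻¹ * d.1 * k) * k⁻¹ = d.1
          group) }
  · intro p q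
    obtain ⟨c1, h1M, h1c, h1p, _⟩ := cB_trans (k p)
    obtain ⟨c2, h2M, h2c, h2p, _⟩ := cB_trans (k q)
    refine ⟨k⁻¹ * (c2 * c1⁻¹) * k,
      M24.mul_mem (M24.mul_mem hkinv (M24.mul_mem h2M (M24.inv_mem h1M))) hk, ?_, ?_⟩
    · rw [hcomm]
      have e : k * (k⁻¹ * (c2 * c1⁻¹) * k) * k⁻¹ = c2 * c1⁻¹ := by group
      rw [e]
      have h1i : c1⁻¹ * uB = uB * c1⁻¹ := by
        calc c1⁻¹ * uB = c1⁻¹ * (uB * c1) * c1⁻¹ := by group
          _ = c1⁻¹ * (c1 * uB) * c1⁻¹ := by rw [h1c]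
          _ = uB * c1⁻¹ := by group
      rw [mul_assoc, h1i, ← mul_assoc, h2c, mul_assoc]
    · show k⁻¹ (c2 (c1⁻¹ (k p))) = q
      rw [← h1p, perm_inv_apply, h2p, perm_inv_apply]
  · refine ⟨k⁻¹ • sB, smul_mem_sextets hkinv sB_mem, ?_, ?_⟩
    · rw [ht', ← mul_smul]
      have e : k⁻¹ * uB * k * k⁻¹ = k⁻¹ * uB := by group
      rw [e, mul_smul, uB_sB]
    · intro c hcM hc
      have h := cB_fix_sext (M24.mul_mem (M24.mul_mem hk hcM) hkinv) ((hcomm c).mp hc)
      calc c • k⁻¹ • sB = k⁻¹ • (k * c * k⁻¹) • sB := by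
            rw [← mul_smul, ← mul_smul]
            congr 1
            group
        _ = k⁻¹ • sB := by rw [h]

end Cfsg.Agent.S5607
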