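import Cfsg.Statements.S5608
import Cfsg.Agent.Lib.helper27.CentA3
import Cfsg.Agent.Lib.helper27.GolayTrio

set_option autoImplicit false
open scoped Pointwise
open Cfsg

namespace Cfsg.Agent.S5608


open Cfsg.Agent.Lib.helper27 Cfsg.Agent.Lib.helper28


/-- If an element of order 3 and an involution of the group of the length-24 code commute, then either the element of order 3 has exactly 6 fixed points and the involution exactly 8, or both are fixed-point-free. -/
theorem result (x s : Equiv.Perm Cfsg.GolayPt) (hx : x ∈ Cfsg.M24) (hs : s ∈ Cfsg.M24) (h₃ : orderOf x = 3) (h₂ : orderOf s = 2) (hc : Commute x s) : ((Finset.univ.filter fun p => x p = p).card = 6 ∧ (Finset.univ.filter fun p => s p = p).card = 8) ∨ ((Finset.univ.filter fun p => x p = p).card = 0 ∧ (Finset.univ.filter fun p => s p = p).card = 0) := by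
  have hssq : s * s = 1 := by rw [← pow_two, ← h₂]; exact pow_orderOf_eq_one s
  rcases ord3_normal x hx h₃ with ⟨hxf, k, hk, hkx⟩ | ⟨hx6, k, hk, hkx⟩
  · right
    have hx0 : (Finset.univ.filter fun p => x p = p).card = 0 := by
      rw [Finset.card_eq_zero, Finset.filter_eq_empty_iff]
      intro p _
      exact hxf p
    refine ⟨hx0, ?_⟩
    rcases inv_normal s hs h₂ with ⟨hsf, _⟩ | ⟨hoct, _⟩
    · rw [Finset.card_eq_zero, Finset.filter_eq_empty_iff]
      intro p _
      exact hsf p
    · exfalso
      have hinv : x • (Finset.univ.filter fun p => s p = p) =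
          (Finset.univ.filter fun p => s p = p) := by
        ext p
        rw [← Finset.inv_smul_mem_iff, Finset.mem_filter, Finset.mem_filter, Equiv.Perm.smul_def]
        simp only [Finset.mem_univ, true_and]
        have hcp : s (x⁻¹ p) = x⁻¹ (s p) := by
          have h1 : s * x⁻¹ = x⁻¹ * s := (hc.symm.inv_right).eq
          exact congrArg (fun f : Equiv.Perm GolayPt => f p) h1
        rw [hcp]
        exact x⁻¹.injective.eq_iff
      have hcount : {o : Finset GolayPt | o ∈ octads ∧ x • o = o}.ncard = 0 := by
        have e : x = k⁻¹ * uB3 * k⁻¹⁻¹ := by rw [← hkx]; group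
        rw [e, ncard_octads_fixed_conj (M24.inv_mem hk), ncard_octads_fixed uB3_table]
        decide +kernel
      have hmem : (Finset.univ.filter fun p => s p = p) ∈
          {o : Finset GolayPt | o ∈ octads ∧ x • o = o} := ⟨hoct, hinv⟩
      rw [Set.ncard_eq_zero (Set.toFinite _)] at hcount
      rw [hcount] at hmem
      exact hmem
  · left
    refine ⟨hx6, ?_⟩
    rcases inv_normal s hs h₂ with ⟨hsf, _⟩ | ⟨hoct, _⟩
    · exfalso
      have hc' : (k * s * k⁻¹) * uA3 = uA3 * (k * s * k⁻¹) := by
        rw [← hkx]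
        have h1 : s * x = x * s := hc.symm.eq
        calc k * s * k⁻¹ * (k * x * k⁻¹) = k * (s * x) * k⁻¹ := by group
          _ = k * (x * s) * k⁻¹ := by rw [h1]
          _ = k * x * k⁻¹ * (k * s * k⁻¹) := by group
      have hsq' : (k * s * k⁻¹) * (k * s * k⁻¹) = 1 := by
        calc k * s * k⁻¹ * (k * s * k⁻¹) = k * (s * s) * k⁻¹ := by group
          _ = 1 := by rw [hssq]; group
      obtain ⟨p, hp⟩ := inv_cent_A3 (M24.mul_mem (M24.mul_mem hk hs) (M24.inv_mem hk)) hc' hsq'
      apply hsf (k⁻¹ p)
      have h2 : k (s (k⁻¹ p)) = p := hp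
      apply k.injective
      rw [h2, perm_apply_inv]
    · exact hoct.2

end Cfsg.Agent.S5608
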