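import Cfsg.Statements.S5632
-- import your own Cfsg.Agent.* helpers here
import Cfsg.Agent.Lib.helper4.SLTv

set_option autoImplicit false
open Cfsg

namespace Cfsg.Agent.S5632

/-- For a finite field F and subspaces 0 < W < U of F^n with dim W + dim U = n, the elements of SL_n(F) stabilising both W and U form a subgroup that is not maximal in SL_n(F): some subgroup lies strictly between it and SL_n(F). -/
theorem result {F : Type*} [Field F] [Fintype F] (n : ℕ) (W U : Submodule F (Fin n → F)) (hW0 : W ≠ ⊥) (hWU : W < U) (hdim : Module.finrank F W + Module.finrank F U = n) : ∃ K : Subgroup (Matrix.GeneralLinearGroup (Fin n) F), Cfsg.Geo.subspaceStabilizer W ⊓ Cfsg.Geo.subspaceStabilizer U ⊓ Cfsg.Geo.specialLinear (Fin n) F < K ∧ K < Cfsg.Geo.specialLinear (Fin n) F := by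
  classical
  have hW1 : W ≠ ⊤ := ne_top_of_lt hWU
  have hU1 : U ≠ ⊤ := by
    intro hU
    rw [hU, finrank_top, Module.finrank_fin_fun] at hdim
    have h0 : Module.finrank F W = 0 := by omega
    exact hW0 (Submodule.finrank_eq_zero.mp h0)
  refine ⟨Cfsg.Geo.subspaceStabilizer W ⊓ Cfsg.Geo.specialLinear (Fin n) F, ?_, ?_⟩
  · refine lt_of_le_of_ne (fun g hg => ⟨hg.1.1, hg.2⟩) ?_
    intro heq
    obtain ⟨u, huU, huW⟩ := SetLike.exists_of_lt hWU
    obtain ⟨a, ha⟩ : ∃ a : Fin n → F, a ∉ U := by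
      by_contra hcon
      push Not at hcon
      exact hU1 (eq_top_iff.mpr (fun x _ => hcon x))
    have hnot : u ∉ W ⊔ Submodule.span F {a} := by
      intro hmem
      obtain ⟨w, hw, y, hy, hwy⟩ := Submodule.mem_sup.mp hmem
      obtain ⟨c, hc⟩ := Submodule.mem_span_singleton.mp hy
      by_cases hc0 : c = 0
      · rw [hc0, zero_smul] at hc
        rw [← hc, add_zero] at hwy
        rw [← hwy] at huW
        exact huW hw
      · apply ha
        have h1 : c • a ∈ U := by
          have h2 : c • a = u - w := by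
            rw [← hwy, hc]
            abel
          rw [h2]
          exact U.sub_mem huU (hWU.le hw)
        exact (U.smul_mem_iff hc0).mp h1
    obtain ⟨ψ, hψ1, hψ0⟩ := Cfsg.Agent.Lib.helper4.exists_dual_one _ _ hnot
    have h0 : ψ a = 0 := hψ0 _ (Submodule.mem_sup_right (Submodule.mem_span_singleton_self _))
    have hmem : Cfsg.Agent.Lib.helper4.ltvGL a ψ ∈
        Cfsg.Geo.subspaceStabilizer W ⊓ Cfsg.Geo.specialLinear (Fin n) F :=
      ⟨Cfsg.Agent.Lib.helper4.ltv_stab_axis W a ψ h0
        (fun w hw => hψ0 w (Submodule.mem_sup_left hw)),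
        Cfsg.Agent.Lib.helper4.ltvGL_mem_sl a ψ h0⟩
    rw [← heq] at hmem
    refine Cfsg.Agent.Lib.helper4.ltv_not_stab U a ha ψ h0 u huU ?_ hmem.1.2
    rw [hψ1]
    exact one_ne_zero
  · refine lt_of_le_of_ne inf_le_right ?_
    intro heq
    obtain ⟨g, hg, hgW⟩ := Cfsg.Agent.Lib.helper4.exists_sl_not_stab W hW0 hW1
    rw [← heq] at hg
    exact hgW hg.1

end Cfsg.Agent.S5632
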