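import Cfsg.Statements.S5633
-- import your own Cfsg.Agent.* helpers here
import Cfsg.Agent.Lib.helper4.SLTv

set_option autoImplicit false
open Cfsg

namespace Cfsg.Agent.S5633

/-- For a finite field F and complementary non-zero subspaces W ⊕ U = F^n with dim W < dim U, the elements of SL_n(F) stabilising both W and U form a subgroup that is not maximal in SL_n(F): some subgroup lies strictly between it and SL_n(F). -/
theorem result {F : Type*} [Field F] [Fintype F] (n : ℕ) (W U : Submodule F (Fin n → F)) (hW0 : W ≠ ⊥) (hWU : W ⊓ U = ⊥) (hWU' : W ⊔ U = ⊤) (hdim : Module.finrank F W < Module.finrank F U) : ∃ K : Subgroup (Matrix.GeneralLinearGroup (Fin n) F), Cfsg.Geo.subspaceStabilizer W ⊓ Cfsg.Geo.subspaceStabilizer U ⊓ Cfsg.Geo.specialLinear (Fin n) F < K ∧ K < Cfsg.Geo.specialLinear (Fin n) F := by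
  classical
  have hW1 : W ≠ ⊤ := by
    intro hW
    have h1 := Submodule.finrank_le U
    rw [hW, finrank_top] at hdim
    omega
  have hU0 : U ≠ ⊥ := by
    intro hU
    rw [hU, finrank_bot] at hdim
    omega
  refine ⟨Cfsg.Geo.subspaceStabilizer W ⊓ Cfsg.Geo.specialLinear (Fin n) F, ?_, ?_⟩
  · refine lt_of_le_of_ne (fun g hg => ⟨hg.1.1, hg.2⟩) ?_
    intro heq
    obtain ⟨a, haW, ha0⟩ := (Submodule.ne_bot_iff W).mp hW0
    obtain ⟨u, huU, hu0⟩ := (Submodule.ne_bot_iff U).mp hU0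
    have haU : a ∉ U := by
      intro h
      have h1 : a ∈ W ⊓ U := ⟨haW, h⟩
      rw [hWU] at h1
      exact ha0 ((Submodule.mem_bot F).mp h1)
    have hnot : u ∉ Submodule.span F {a} := by
      intro hmem
      have h1 : u ∈ W := (Submodule.span_le.mpr (Set.singleton_subset_iff.mpr haW)) hmem
      have h2 : u ∈ W ⊓ U := ⟨h1, huU⟩
      rw [hWU] at h2
      exact hu0 ((Submodule.mem_bot F).mp h2)
    obtain ⟨ψ, hψ1, hψ0⟩ := Cfsg.Agent.Lib.helper4.exists_dual_one _ _ hnot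
    have h0 : ψ a = 0 := hψ0 _ (Submodule.mem_span_singleton_self _)
    have hmem : Cfsg.Agent.Lib.helper4.ltvGL a ψ ∈
        Cfsg.Geo.subspaceStabilizer W ⊓ Cfsg.Geo.specialLinear (Fin n) F :=
      ⟨Cfsg.Agent.Lib.helper4.ltv_stab_centre W a haW ψ h0,
        Cfsg.Agent.Lib.helper4.ltvGL_mem_sl a ψ h0⟩
    rw [← heq] at hmem
    refine Cfsg.Agent.Lib.helper4.ltv_not_stab U a haU ψ h0 u huU ?_ hmem.1.2
    rw [hψ1]
    exact one_ne_zero
  · refine lt_of_le_of_ne inf_le_right ?_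
    intro heq
    obtain ⟨g, hg, hgW⟩ := Cfsg.Agent.Lib.helper4.exists_sl_not_stab W hW0 hW1
    rw [← heq] at hg
    exact hgW hg.1

end Cfsg.Agent.S5633
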