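import Cfsg.Statements.S5635
import Mathlib

set_option autoImplicit false
open Cfsg

namespace Cfsg.Agent.S5635


open Matrix

section TV
variable {F : Type*} [Field F] {n : ℕ}

/-- The row vector of a linear functional. -/
noncomputable def rowOf (φ : (Fin n → F) →ₗ[F] F) : Fin n → F :=
  fun i => φ (fun j => if i = j then 1 else 0)

theorem rowOf_dot (φ : (Fin n → F) →ₗ[F] F) (x : Fin n → F) : rowOf φ ⬝ᵥ x = φ x := by
  rw [LinearMap.pi_apply_eq_sum_univ φ x]
  unfold rowOf dotProduct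
  apply Finset.sum_congr rfl
  intro i _
  rw [smul_eq_mul, mul_comm]

/-- The matrix of `x ↦ x + φ x • u`. -/
noncomputable def tvM (u : Fin n → F) (φ : (Fin n → F) →ₗ[F] F) : Matrix (Fin n) (Fin n) F :=
  1 + vecMulVec u (rowOf φ)

theorem tvM_det (u : Fin n → F) (φ : (Fin n → F) →ₗ[F] F) : (tvM u φ).det = 1 + φ u := by
  unfold tvM
  rw [vecMulVec_eq (ι := Fin 1), det_one_add_replicateCol_mul_replicateRow, rowOf_dot]

theorem tvM_mulVec (u : Fin n → F) (φ : (Fin n → F) →ₗ[F] F) (x : Fin n → F) :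
    tvM u φ *ᵥ x = x + φ x • u := by
  unfold tvM
  rw [add_mulVec, one_mulVec, vecMulVec_mulVec, rowOf_dot, op_smul_eq_smul]

/-- The element of `GL` with matrix `tvM u φ`. -/
noncomputable def tvG (u : Fin n → F) (φ : (Fin n → F) →ₗ[F] F) (h : 1 + φ u ≠ 0) :
    GL (Fin n) F :=
  Matrix.GeneralLinearGroup.mkOfDetNeZero (tvM u φ) (by rw [tvM_det]; exact h)

theorem tvG_val (u : Fin n → F) (φ : (Fin n → F) →ₗ[F] F) (h : 1 + φ u ≠ 0) :
    ((tvG u φ h : GL (Fin n) F) : Matrix (Fin n) (Fin n) F) = tvM u φ := rfl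

theorem tvG_det (u : Fin n → F) (φ : (Fin n → F) →ₗ[F] F) (h : 1 + φ u ≠ 0) :
    ((tvG u φ h : GL (Fin n) F) : Matrix (Fin n) (Fin n) F).det = 1 + φ u := by
  rw [tvG_val, tvM_det]

theorem mem_sl_iff (g : GL (Fin n) F) :
    g ∈ Cfsg.Geo.specialLinear (Fin n) F ↔ (g : Matrix (Fin n) (Fin n) F).det = 1 := by
  unfold Cfsg.Geo.specialLinear
  rw [MonoidHom.mem_ker]
  constructor
  · intro h
    have := congrArg Units.val h
    simpa using this
  · intro h
    apply Units.ext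
    simpa using h

end TV

section Dec
variable {F : Type*} [Field F] {n t m : ℕ}

open Classical in
/-- The number of blocks in which `x` has a non-zero coordinate. -/
noncomputable def wt (B : Module.Basis (Σ _ : Fin t, Fin m) F (Fin n → F)) (x : Fin n → F) : ℕ :=
  (Finset.univ.filter (fun i : Fin t => ∃ k : Fin m, B.repr x ⟨i, k⟩ ≠ 0)).card

theorem wt_eq_card (B : Module.Basis (Σ _ : Fin t, Fin m) F (Fin n → F)) (x : Fin n → F)
    (S : Finset (Fin t)) (hS : ∀ i, (∃ k : Fin m, B.repr x ⟨i, k⟩ ≠ 0) ↔ i ∈ S) :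
    wt B x = S.card := by
  classical
  unfold wt
  congr 1
  ext i
  simp only [Finset.mem_filter, Finset.mem_univ, true_and]
  exact hS i

variable (D : Fin t → Submodule F (Fin n → F))

/-- coordinates of a sum of block vectors -/
theorem repr_sum_block (B : Module.Basis (Σ _ : Fin t, Fin m) F (Fin n → F))
    (hB2 : ∀ (y : Fin n → F) (j : Fin t), y ∈ D j → ∀ (i : Fin t) (k : Fin m), i ≠ j →
      B.repr y ⟨i, k⟩ = 0)
    (y : Fin t → (Fin n → F)) (hy : ∀ i, y i ∈ D i) (j : Fin t) (k : Fin m) :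
    B.repr (∑ i, y i) ⟨j, k⟩ = B.repr (y j) ⟨j, k⟩ := by
  rw [map_sum, Finsupp.finset_sum_apply]
  apply Finset.sum_eq_single j
  · intro i _ hij
    exact hB2 (y i) i (hy i) j k (Ne.symm hij)
  · intro h
    exact absurd (Finset.mem_univ j) h

theorem block_zero_iff (B : Module.Basis (Σ _ : Fin t, Fin m) F (Fin n → F))
    (hB2 : ∀ (y : Fin n → F) (j : Fin t), y ∈ D j → ∀ (i : Fin t) (k : Fin m), i ≠ j →
      B.repr y ⟨i, k⟩ = 0)
    (y : Fin n → F) (j : Fin t) (hy : y ∈ D j) :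
    y = 0 ↔ ∀ k : Fin m, B.repr y ⟨j, k⟩ = 0 := by
  constructor
  · intro h k
    rw [h, map_zero]
    rfl
  · intro h
    have : B.repr y = 0 := by
      ext ⟨i, k⟩
      by_cases hij : i = j
      · subst hij
        simpa using h k
      · simpa using hB2 y j hy i k hij
    exact (LinearEquiv.map_eq_zero_iff B.repr).mp this

/-- The block components of a vector. -/
noncomputable def comp (B : Module.Basis (Σ _ : Fin t, Fin m) F (Fin n → F)) (i : Fin t)
    (x : Fin n → F) : Fin n → F :=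
  ∑ k : Fin m, B.repr x ⟨i, k⟩ • B ⟨i, k⟩

theorem comp_mem (B : Module.Basis (Σ _ : Fin t, Fin m) F (Fin n → F))
    (hB1 : ∀ a : (Σ _ : Fin t, Fin m), B a ∈ D a.1) (i : Fin t) (x : Fin n → F) :
    comp B i x ∈ D i := by
  unfold comp
  apply Submodule.sum_mem
  intro k _
  exact Submodule.smul_mem _ _ (hB1 ⟨i, k⟩)

theorem comp_sum (B : Module.Basis (Σ _ : Fin t, Fin m) F (Fin n → F)) (x : Fin n → F) :
    ∑ i, comp B i x = x := by
  unfold comp
  rw [← Fintype.sum_sigma (fun a : (Σ _ : Fin t, Fin m) => B.repr x a • B a)]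
  exact B.sum_repr x

theorem comp_zero_iff (B : Module.Basis (Σ _ : Fin t, Fin m) F (Fin n → F))
    (hB1 : ∀ a : (Σ _ : Fin t, Fin m), B a ∈ D a.1)
    (hB2 : ∀ (y : Fin n → F) (j : Fin t), y ∈ D j → ∀ (i : Fin t) (k : Fin m), i ≠ j →
      B.repr y ⟨i, k⟩ = 0)
    (i : Fin t) (x : Fin n → F) :
    comp B i x = 0 ↔ ∀ k : Fin m, B.repr x ⟨i, k⟩ = 0 := by
  rw [block_zero_iff D B hB2 _ i (comp_mem D B hB1 i x)]
  have h : ∀ k : Fin m, B.repr (comp B i x) ⟨i, k⟩ = B.repr x ⟨i, k⟩ := by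
    intro k
    have h1 := repr_sum_block D B hB2 (fun i => comp B i x) (fun i => comp_mem D B hB1 i x) i k
    rw [comp_sum] at h1
    exact h1.symm
  constructor
  · intro h2 k
    rw [← h k]; exact h2 k
  · intro h2 k
    rw [h k]; exact h2 k

/-- The stabiliser of the decomposition preserves the weight. -/
theorem wt_stab (B : Module.Basis (Σ _ : Fin t, Fin m) F (Fin n → F))
    (hB1 : ∀ a : (Σ _ : Fin t, Fin m), B a ∈ D a.1)
    (hB2 : ∀ (y : Fin n → F) (j : Fin t), y ∈ D j → ∀ (i : Fin t) (k : Fin m), i ≠ j →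
      B.repr y ⟨i, k⟩ = 0)
    (g : GL (Fin n) F) (hg : g ∈ Cfsg.Geo.decompositionStabilizer D) (x : Fin n → F) :
    wt B ((g : Matrix (Fin n) (Fin n) F) *ᵥ x) = wt B x := by
  classical
  obtain ⟨σ, hσ⟩ := hg
  have hmem : ∀ i (y : Fin n → F), y ∈ D i → (g : Matrix (Fin n) (Fin n) F) *ᵥ y ∈ D (σ i) := by
    intro i y hy
    rw [← hσ i]
    exact ⟨y, hy, Matrix.toLin'_apply _ _⟩
  have hinj : ∀ y : Fin n → F, (g : Matrix (Fin n) (Fin n) F) *ᵥ y = 0 → y = 0 := by
    intro y hy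
    have := congrArg (fun z => ((g⁻¹ : GL (Fin n) F) : Matrix (Fin n) (Fin n) F) *ᵥ z) hy
    simpa [Matrix.mulVec_mulVec, ← Units.val_mul] using this
  have hz : ∀ j, (g : Matrix (Fin n) (Fin n) F) *ᵥ comp B (σ.symm j) x ∈ D j := by
    intro j
    have := hmem (σ.symm j) _ (comp_mem D B hB1 (σ.symm j) x)
    rwa [Equiv.apply_symm_apply] at this
  have hgx : (g : Matrix (Fin n) (Fin n) F) *ᵥ x
      = ∑ j, (g : Matrix (Fin n) (Fin n) F) *ᵥ comp B (σ.symm j) x := by
    rw [← Matrix.mulVec_sum, Equiv.sum_comp σ.symm (fun i => comp B i x), comp_sum]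
  have key : ∀ j, (∃ k : Fin m, B.repr ((g : Matrix (Fin n) (Fin n) F) *ᵥ x) ⟨j, k⟩ ≠ 0) ↔
      (∃ k : Fin m, B.repr x ⟨σ.symm j, k⟩ ≠ 0) := by
    intro j
    have h1 : ∀ k : Fin m, B.repr ((g : Matrix (Fin n) (Fin n) F) *ᵥ x) ⟨j, k⟩
        = B.repr ((g : Matrix (Fin n) (Fin n) F) *ᵥ comp B (σ.symm j) x) ⟨j, k⟩ := by
      intro k
      rw [hgx]
      exact repr_sum_block D B hB2 _ hz j k
    have h2 := block_zero_iff D B hB2 _ j (hz j)
    have h3 := comp_zero_iff D B hB1 hB2 (σ.symm j) x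
    constructor
    · intro hex
      by_contra hcon
      push Not at hcon
      have h4 : comp B (σ.symm j) x = 0 := h3.mpr hcon
      obtain ⟨k, hk⟩ := hex
      apply hk
      rw [h1 k, h4, Matrix.mulVec_zero, map_zero]
      rfl
    · intro hex
      by_contra hcon
      push Not at hcon
      have h4 : (g : Matrix (Fin n) (Fin n) F) *ᵥ comp B (σ.symm j) x = 0 :=
        h2.mpr (fun k => by rw [← h1 k]; exact hcon k)
      have h5 := h3.mp (hinj _ h4)
      obtain ⟨k, hk⟩ := hex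
      exact hk (h5 k)
  unfold wt
  apply Finset.card_bij (fun j _ => σ.symm j)
  · intro j hj
    simp only [Finset.mem_filter, Finset.mem_univ, true_and] at hj ⊢
    exact (key j).mp hj
  · intro a _ b _ hab
    exact σ.symm.injective hab
  · intro i hi
    simp only [Finset.mem_filter, Finset.mem_univ, true_and] at hi
    refine ⟨σ i, ?_, by simp⟩
    simp only [Finset.mem_filter, Finset.mem_univ, true_and]
    apply (key (σ i)).mpr
    simpa using hi

/-- The subgroup of `GL` preserving the weight modulo the characteristic. -/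
noncomputable def Kw (B : Module.Basis (Σ _ : Fin t, Fin m) F (Fin n → F)) :
    Subgroup (GL (Fin n) F) where
  carrier := {g | ∀ x : Fin n → F,
    (wt B ((g : Matrix (Fin n) (Fin n) F) *ᵥ x) : F) = (wt B x : F)}
  mul_mem' := by
    intro a b ha hb x
    rw [Units.val_mul, ← Matrix.mulVec_mulVec, ha, hb]
  one_mem' := by
    intro x
    simp
  inv_mem' := by
    intro a ha x
    have := ha (((a⁻¹ : GL (Fin n) F) : Matrix (Fin n) (Fin n) F) *ᵥ x)
    rw [Matrix.mulVec_mulVec, ← Units.val_mul, mul_inv_cancel, Units.val_one,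
      Matrix.one_mulVec] at this
    exact this.symm

theorem mem_Kw (B : Module.Basis (Σ _ : Fin t, Fin m) F (Fin n → F)) (g : GL (Fin n) F) :
    g ∈ Kw B ↔ ∀ x : Fin n → F,
      (wt B ((g : Matrix (Fin n) (Fin n) F) *ᵥ x) : F) = (wt B x : F) := Iff.rfl

end Dec

section Elts
variable {F : Type*} [Field F] {n t m : ℕ}
variable (D : Fin t → Submodule F (Fin n → F))

/-- The sum of the basis vectors `B ⟨i, k⟩` for `i ∈ S`. -/
noncomputable def wS (B : Module.Basis (Σ _ : Fin t, Fin m) F (Fin n → F)) (S : Finset (Fin t))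
    (k : Fin m) : Fin n → F :=
  ∑ i ∈ S, B ⟨i, k⟩

/-- The sum of the coordinate functionals at `⟨i, k⟩` for `i ∈ S`. -/
noncomputable def phiS (B : Module.Basis (Σ _ : Fin t, Fin m) F (Fin n → F)) (S : Finset (Fin t))
    (k : Fin m) : (Fin n → F) →ₗ[F] F :=
  ∑ i ∈ S, B.coord ⟨i, k⟩

theorem repr_basis (B : Module.Basis (Σ _ : Fin t, Fin m) F (Fin n → F)) (i j : Fin t)
    (k l : Fin m) : B.repr (B ⟨i, k⟩) ⟨j, l⟩ = if i = j ∧ k = l then 1 else 0 := by
  classical
  rw [Module.Basis.repr_self, Finsupp.single_apply]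
  by_cases h : i = j ∧ k = l
  · obtain ⟨rfl, rfl⟩ := h
    simp
  · rw [if_neg h, if_neg]
    intro h2
    apply h
    have h3 := Sigma.mk.inj_iff.mp h2
    exact ⟨h3.1, eq_of_heq h3.2⟩

theorem repr_wS (B : Module.Basis (Σ _ : Fin t, Fin m) F (Fin n → F)) (S : Finset (Fin t))
    (k : Fin m) (j : Fin t) (l : Fin m) :
    B.repr (wS B S k) ⟨j, l⟩ = if j ∈ S ∧ k = l then 1 else 0 := by
  classical
  unfold wS
  rw [map_sum, Finsupp.finset_sum_apply]
  simp only [repr_basis]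
  by_cases hkl : k = l
  · subst hkl
    simp only [and_true]
    rw [Finset.sum_ite_eq' S j (fun _ => (1 : F))]
  · simp [hkl]

theorem phiS_apply (B : Module.Basis (Σ _ : Fin t, Fin m) F (Fin n → F)) (S : Finset (Fin t))
    (k : Fin m) (x : Fin n → F) : phiS B S k x = ∑ i ∈ S, B.repr x ⟨i, k⟩ := by
  unfold phiS
  rw [LinearMap.sum_apply]
  rfl

theorem repr_tv (B : Module.Basis (Σ _ : Fin t, Fin m) F (Fin n → F)) (S : Finset (Fin t))
    (k k' : Fin m) (x : Fin n → F) (j : Fin t) (l : Fin m) :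
    B.repr (tvM (wS B S k) (phiS B S k') *ᵥ x) ⟨j, l⟩
      = B.repr x ⟨j, l⟩ + phiS B S k' x * (if j ∈ S ∧ k = l then 1 else 0) := by
  rw [tvM_mulVec, map_add, map_smul, Finsupp.add_apply, Finsupp.smul_apply, repr_wS, smul_eq_mul]

theorem not_stab (B : Module.Basis (Σ _ : Fin t, Fin m) F (Fin n → F))
    (hB2 : ∀ (y : Fin n → F) (j : Fin t), y ∈ D j → ∀ (i : Fin t) (k : Fin m), i ≠ j →
      B.repr y ⟨i, k⟩ = 0)
    (g : GL (Fin n) F) (y : Fin n → F) (l : Fin t) (hy : y ∈ D l)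
    (i i' : Fin t) (k k' : Fin m) (hii : i ≠ i')
    (h1 : B.repr ((g : Matrix (Fin n) (Fin n) F) *ᵥ y) ⟨i, k⟩ ≠ 0)
    (h2 : B.repr ((g : Matrix (Fin n) (Fin n) F) *ᵥ y) ⟨i', k'⟩ ≠ 0) :
    g ∉ Cfsg.Geo.decompositionStabilizer D := by
  rintro ⟨σ, hσ⟩
  have hmem : (g : Matrix (Fin n) (Fin n) F) *ᵥ y ∈ D (σ l) := by
    rw [← hσ l]
    exact ⟨y, hy, Matrix.toLin'_apply _ _⟩
  have e1 : i = σ l := by
    by_contra hne
    exact h1 (hB2 _ _ hmem i k hne)
  have e2 : i' = σ l := by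
    by_contra hne
    exact h2 (hB2 _ _ hmem i' k' hne)
  exact hii (e1.trans e2.symm)

theorem fieldA [Fintype F] (hq : Fintype.card F ≤ 4) :
    ∃ θ : F →+* F, (∀ a : F, a ≠ 0 → a * θ a = 1) ∧ (6 : F) = 0 := by
  have h1 : 1 < Fintype.card F := Fintype.one_lt_card
  have hc := FiniteField.cast_card_eq_zero F
  have h3 : Fintype.card F = 2 ∨ Fintype.card F = 3 ∨ Fintype.card F = 4 := by omega
  rcases h3 with h3 | h3 | h3
  · rw [h3] at hc
    refine ⟨RingHom.id F, ?_, ?_⟩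
    · intro a ha
      have := FiniteField.pow_card_sub_one_eq_one a ha
      rw [h3] at this
      have h4 : a = 1 := by simpa using this
      rw [h4]; simp
    · push_cast at hc
      linear_combination 3 * hc
  · rw [h3] at hc
    refine ⟨RingHom.id F, ?_, ?_⟩
    · intro a ha
      have := FiniteField.pow_card_sub_one_eq_one a ha
      rw [h3] at this
      have h4 : a ^ 2 = 1 := by simpa using this
      rw [RingHom.id_apply, ← pow_two]; exact h4
    · push_cast at hc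
      linear_combination 2 * hc
  · rw [h3] at hc
    have h2 : (2 : F) = 0 := by
      have : (2 : F) * 2 = 0 := by push_cast at hc; linear_combination hc
      exact mul_self_eq_zero.mp this
    refine ⟨{ toFun := fun a => a ^ 2
              map_one' := one_pow 2
              map_mul' := fun a b => mul_pow a b 2
              map_zero' := by simp
              map_add' := fun a b => by linear_combination (a * b) * h2 }, ?_, ?_⟩
    · intro a ha
      have := FiniteField.pow_card_sub_one_eq_one a ha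
      rw [h3] at this
      have h4 : a ^ 3 = 1 := by simpa using this
      show a * a ^ 2 = 1
      rw [← h4]; ring
    · linear_combination 3 * h2

theorem sumA {ι : Type*} [Fintype ι] [DecidableEq ι] (f : ι → F) (S : Finset ι) (θ : F →+* F)
    (hS : (S.card : F) + 2 = 0) :
    ∑ i, (f i + (∑ j ∈ S, f j) * (if i ∈ S then 1 else 0))
        * θ (f i + (∑ j ∈ S, f j) * (if i ∈ S then 1 else 0))
      = ∑ i, f i * θ (f i) := by
  set s := ∑ j ∈ S, f j with hs
  have h1 : ∀ i, (f i + s * (if i ∈ S then 1 else 0)) * θ (f i + s * (if i ∈ S then 1 else 0))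
      = f i * θ (f i) + (if i ∈ S then (f i * θ s + s * θ (f i) + s * θ s) else 0) := by
    intro i
    by_cases hi : i ∈ S
    · simp only [hi, if_true, mul_one, map_add]
      ring
    · simp only [hi, if_false, mul_zero, add_zero]
  rw [Finset.sum_congr rfl (fun i _ => h1 i), Finset.sum_add_distrib, Finset.sum_ite_mem,
    Finset.univ_inter, Finset.sum_add_distrib, Finset.sum_add_distrib, ← Finset.sum_mul,
    ← Finset.mul_sum, ← map_sum, Finset.sum_const, nsmul_eq_mul, ← hs]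
  linear_combination (s * θ s) * hS

theorem wtA (B : Module.Basis (Σ _ : Fin t, Fin 1) F (Fin n → F)) (θ : F →+* F)
    (hθ : ∀ a : F, a ≠ 0 → a * θ a = 1) (x : Fin n → F) :
    (wt B x : F) = ∑ i, B.repr x ⟨i, 0⟩ * θ (B.repr x ⟨i, 0⟩) := by
  classical
  unfold wt
  rw [Finset.natCast_card_filter]
  apply Finset.sum_congr rfl
  intro i _
  by_cases h : B.repr x ⟨i, 0⟩ = 0
  · rw [if_neg, h, zero_mul]
    rintro ⟨k, hk⟩
    apply hk
    have : k = 0 := Subsingleton.elim _ _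
    rw [this]; exact h
  · rw [if_pos ⟨0, h⟩, hθ _ h]

theorem memKwA (B : Module.Basis (Σ _ : Fin t, Fin 1) F (Fin n → F)) (θ : F →+* F)
    (hθ : ∀ a : F, a ≠ 0 → a * θ a = 1) (S : Finset (Fin t)) (hS : (S.card : F) + 2 = 0)
    (g : GL (Fin n) F) (hg : (g : Matrix (Fin n) (Fin n) F) = tvM (wS B S 0) (phiS B S 0)) :
    g ∈ Kw B := by
  classical
  rw [mem_Kw]
  intro x
  rw [wtA B θ hθ, wtA B θ hθ, hg]
  have h1 : ∀ i, B.repr (tvM (wS B S 0) (phiS B S 0) *ᵥ x) ⟨i, 0⟩
      = B.repr x ⟨i, 0⟩ + (∑ j ∈ S, B.repr x ⟨j, 0⟩) * (if i ∈ S then 1 else 0) := by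
    intro i
    rw [repr_tv, phiS_apply]
    simp
  simp only [h1]
  exact sumA (fun i => B.repr x ⟨i, 0⟩) S θ hS

theorem phiS_wS (B : Module.Basis (Σ _ : Fin t, Fin m) F (Fin n → F)) (S : Finset (Fin t))
    (k k' : Fin m) : phiS B S k' (wS B S k) = if k = k' then (S.card : F) else 0 := by
  classical
  rw [phiS_apply]
  simp only [repr_wS]
  by_cases h : k = k'
  · subst h
    simp only [and_true, if_true]
    rw [Finset.sum_congr rfl (fun i hi => if_pos hi), Finset.sum_const, nsmul_eq_mul, mul_one]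
  · simp [h]

theorem caseA [Fintype F] (B : Module.Basis (Σ _ : Fin t, Fin 1) F (Fin n → F))
    (hB1 : ∀ a : (Σ _ : Fin t, Fin 1), B a ∈ D a.1)
    (hB2 : ∀ (y : Fin n → F) (j : Fin t), y ∈ D j → ∀ (i : Fin t) (k : Fin 1), i ≠ j →
      B.repr y ⟨i, k⟩ = 0)
    (ht : 8 ≤ t) (hq : Fintype.card F ≤ 4) :
    ∃ g : GL (Fin n) F, g ∈ Kw B ∧ g ∈ Cfsg.Geo.specialLinear (Fin n) F ∧
      g ∉ Cfsg.Geo.decompositionStabilizer D := by
  classical
  obtain ⟨θ, hθ, h6⟩ := fieldA (F := F) hq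
  let e1 : Fin 4 → Fin t := fun j => ⟨j.val, by omega⟩
  let e2 : Fin 4 → Fin t := fun j => ⟨j.val + 4, by omega⟩
  have he1 : Function.Injective e1 := by
    intro a b hab
    have := congrArg Fin.val hab
    exact Fin.ext this
  have he2 : Function.Injective e2 := by
    intro a b hab
    have := congrArg Fin.val hab
    apply Fin.ext
    simp only [e2] at this
    omega
  set S1 : Finset (Fin t) := Finset.univ.image e1 with hS1
  set S2 : Finset (Fin t) := Finset.univ.image e2 with hS2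
  have hc1 : S1.card = 4 := by
    rw [hS1, Finset.card_image_of_injective _ he1, Finset.card_univ, Fintype.card_fin]
  have hc2 : S2.card = 4 := by
    rw [hS2, Finset.card_image_of_injective _ he2, Finset.card_univ, Fintype.card_fin]
  have hcS1 : (S1.card : F) + 2 = 0 := by rw [hc1]; push_cast; linear_combination h6
  have hcS2 : (S2.card : F) + 2 = 0 := by rw [hc2]; push_cast; linear_combination h6
  have hd1 : 1 + phiS B S1 0 (wS B S1 0) ≠ 0 := by
    rw [phiS_wS, if_pos rfl, hc1]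
    intro h
    have : (1 : F) = 0 := by push_cast at h; linear_combination h6 - h
    exact one_ne_zero this
  have hd2 : 1 + phiS B S2 0 (wS B S2 0) ≠ 0 := by
    rw [phiS_wS, if_pos rfl, hc2]
    intro h
    have : (1 : F) = 0 := by push_cast at h; linear_combination h6 - h
    exact one_ne_zero this
  set g1 := tvG (wS B S1 0) (phiS B S1 0) hd1 with hg1
  set g2 := tvG (wS B S2 0) (phiS B S2 0) hd2 with hg2
  have i0S1 : e1 0 ∈ S1 := Finset.mem_image.mpr ⟨0, Finset.mem_univ _, rfl⟩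
  have i1S1 : e1 1 ∈ S1 := Finset.mem_image.mpr ⟨1, Finset.mem_univ _, rfl⟩
  have i2S1 : e1 2 ∈ S1 := Finset.mem_image.mpr ⟨2, Finset.mem_univ _, rfl⟩
  have i0S2 : e1 0 ∉ S2 := by
    intro h
    obtain ⟨j, _, hj⟩ := Finset.mem_image.mp h
    have := congrArg Fin.val hj
    simp only [e1, e2] at this
    omega
  have h01 : e1 0 ≠ e1 1 := fun h => by simpa using he1 h
  have h02 : e1 0 ≠ e1 2 := fun h => by simpa using he1 h
  have h12 : e1 1 ≠ e1 2 := fun h => by simpa using he1 h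
  refine ⟨g1 * g2, ?_, ?_, ?_⟩
  · exact Subgroup.mul_mem _ (memKwA B θ hθ S1 hcS1 g1 rfl) (memKwA B θ hθ S2 hcS2 g2 rfl)
  · rw [mem_sl_iff, Units.val_mul, Matrix.det_mul, hg1, hg2, tvG_det, tvG_det, phiS_wS, phiS_wS,
      if_pos rfl, if_pos rfl, hc1, hc2]
    push_cast
    linear_combination 4 * h6
  · have hy : B ⟨e1 0, 0⟩ ∈ D (e1 0) := hB1 ⟨e1 0, 0⟩
    have hphi2 : phiS B S2 0 (B ⟨e1 0, 0⟩) = 0 := by
      rw [phiS_apply]
      apply Finset.sum_eq_zero
      intro i hi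
      rw [repr_basis, if_neg]
      rintro ⟨h, -⟩
      exact i0S2 (h ▸ hi)
    have hphi1 : phiS B S1 0 (B ⟨e1 0, 0⟩) = 1 := by
      rw [phiS_apply]
      simp only [repr_basis, and_true]
      rw [Finset.sum_ite_eq S1 (e1 0) (fun _ => (1 : F)), if_pos i0S1]
    have hgy : ((g1 * g2 : GL (Fin n) F) : Matrix (Fin n) (Fin n) F) *ᵥ B ⟨e1 0, 0⟩
        = tvM (wS B S1 0) (phiS B S1 0) *ᵥ B ⟨e1 0, 0⟩ := by
      rw [Units.val_mul, ← Matrix.mulVec_mulVec]
      have e2' : (g2 : Matrix (Fin n) (Fin n) F) *ᵥ B ⟨e1 0, 0⟩ = B ⟨e1 0, 0⟩ := by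
        rw [hg2, tvG_val, tvM_mulVec, hphi2, zero_smul, add_zero]
      rw [e2', hg1, tvG_val]
    apply not_stab D B hB2 (g1 * g2) (B ⟨e1 0, 0⟩) (e1 0) hy (e1 1) (e1 2) 0 0 h12
    · rw [hgy, repr_tv, hphi1, repr_basis, if_neg (fun h => h01 h.1), if_pos ⟨i1S1, rfl⟩]
      simp
    · rw [hgy, repr_tv, hphi1, repr_basis, if_neg (fun h => h02 h.1), if_pos ⟨i2S1, rfl⟩]
      simp

end Elts

section EltsB
variable {F : Type*} [Field F] {n t : ℕ}
variable (D : Fin t → Submodule F (Fin n → F))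

theorem fieldB [Fintype F] (hq : Fintype.card F = 2) :
    (∀ a : F, a = 0 ∨ a = 1) ∧ (2 : F) = 0 := by
  have hc := FiniteField.cast_card_eq_zero F
  rw [hq] at hc
  refine ⟨fun a => ?_, by push_cast at hc; exact hc⟩
  by_cases ha : a = 0
  · exact Or.inl ha
  · right
    have := FiniteField.pow_card_sub_one_eq_one a ha
    rw [hq] at this
    simpa using this

theorem sumB {ι : Type*} [Fintype ι] [DecidableEq ι] (a b : ι → F) (S : Finset ι)
    (hS : (S.card : F) = 3) (h2 : (2 : F) = 0) (hidem : ∀ c : F, c * c = c) :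
    ∑ i, ((a i + (∑ j ∈ S, b j) * (if i ∈ S then 1 else 0)) + b i
        + (a i + (∑ j ∈ S, b j) * (if i ∈ S then 1 else 0)) * b i)
      = ∑ i, (a i + b i + a i * b i) := by
  set s := ∑ j ∈ S, b j with hs
  have h1 : ∀ i, ((a i + s * (if i ∈ S then 1 else 0)) + b i
        + (a i + s * (if i ∈ S then 1 else 0)) * b i)
      = (a i + b i + a i * b i) + (if i ∈ S then (s + s * b i) else 0) := by
    intro i
    by_cases hi : i ∈ S
    · simp only [hi, if_true, mul_one]
      ring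
    · simp only [hi, if_false, mul_zero, add_zero]
  have h3 : ∑ i ∈ S, (s + s * b i) = 3 * s + s := by
    rw [Finset.sum_add_distrib, Finset.sum_const, nsmul_eq_mul, ← Finset.mul_sum, ← hs, hS,
      hidem s]
  rw [Finset.sum_congr rfl (fun i _ => h1 i), Finset.sum_add_distrib, Finset.sum_ite_mem,
    Finset.univ_inter, h3]
  linear_combination (2 * s) * h2

theorem wtB (B : Module.Basis (Σ _ : Fin t, Fin 2) F (Fin n → F))
    (h01 : ∀ a : F, a = 0 ∨ a = 1) (h2 : (2 : F) = 0) (x : Fin n → F) :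
    (wt B x : F) = ∑ i, (B.repr x ⟨i, 0⟩ + B.repr x ⟨i, 1⟩ + B.repr x ⟨i, 0⟩ * B.repr x ⟨i, 1⟩) := by
  classical
  unfold wt
  rw [Finset.natCast_card_filter]
  apply Finset.sum_congr rfl
  intro i _
  by_cases hex : ∃ k : Fin 2, B.repr x ⟨i, k⟩ ≠ 0
  · rw [if_pos hex]
    obtain ⟨k, hk⟩ := hex
    rcases h01 (B.repr x ⟨i, 0⟩) with ha | ha <;> rcases h01 (B.repr x ⟨i, 1⟩) with hb | hb
    · exfalso
      apply hk
      fin_cases k
      · exact ha
      · exact hb
    · rw [ha, hb]; ring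
    · rw [ha, hb]; ring
    · rw [ha, hb]; linear_combination -h2
  · rw [if_neg hex]
    push Not at hex
    rw [hex 0, hex 1]
    ring

theorem memKwB (B : Module.Basis (Σ _ : Fin t, Fin 2) F (Fin n → F))
    (h01 : ∀ a : F, a = 0 ∨ a = 1) (h2 : (2 : F) = 0) (S : Finset (Fin t))
    (hS : (S.card : F) = 3)
    (g : GL (Fin n) F) (hg : (g : Matrix (Fin n) (Fin n) F) = tvM (wS B S 0) (phiS B S 1)) :
    g ∈ Kw B := by
  classical
  rw [mem_Kw]
  intro x
  rw [wtB B h01 h2, wtB B h01 h2, hg]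
  have h1 : ∀ i, B.repr (tvM (wS B S 0) (phiS B S 1) *ᵥ x) ⟨i, 0⟩
      = B.repr x ⟨i, 0⟩ + (∑ j ∈ S, B.repr x ⟨j, 1⟩) * (if i ∈ S then 1 else 0) := by
    intro i
    rw [repr_tv, phiS_apply]
    simp
  have h1' : ∀ i, B.repr (tvM (wS B S 0) (phiS B S 1) *ᵥ x) ⟨i, 1⟩ = B.repr x ⟨i, 1⟩ := by
    intro i
    rw [repr_tv]
    simp
  simp only [h1, h1']
  apply sumB (fun i => B.repr x ⟨i, 0⟩) (fun i => B.repr x ⟨i, 1⟩) S hS h2
  intro c
  rcases h01 c with hc | hc <;> rw [hc] <;> simp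

theorem caseB [Fintype F] (B : Module.Basis (Σ _ : Fin t, Fin 2) F (Fin n → F))
    (hB1 : ∀ a : (Σ _ : Fin t, Fin 2), B a ∈ D a.1)
    (hB2 : ∀ (y : Fin n → F) (j : Fin t), y ∈ D j → ∀ (i : Fin t) (k : Fin 2), i ≠ j →
      B.repr y ⟨i, k⟩ = 0)
    (ht : 3 ≤ t) (hq : Fintype.card F = 2) :
    ∃ g : GL (Fin n) F, g ∈ Kw B ∧ g ∈ Cfsg.Geo.specialLinear (Fin n) F ∧
      g ∉ Cfsg.Geo.decompositionStabilizer D := by
  classical
  obtain ⟨h01, h2⟩ := fieldB (F := F) hq
  let e1 : Fin 3 → Fin t := fun j => ⟨j.val, by omega⟩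
  have he1 : Function.Injective e1 := by
    intro a b hab
    have := congrArg Fin.val hab
    exact Fin.ext this
  set S : Finset (Fin t) := Finset.univ.image e1 with hS
  have hc : S.card = 3 := by
    rw [hS, Finset.card_image_of_injective _ he1, Finset.card_univ, Fintype.card_fin]
  have hcS : (S.card : F) = 3 := by rw [hc]; norm_num
  have hne01 : ¬ ((0 : Fin 2) = 1) := by decide
  have hphiw : phiS B S 1 (wS B S 0) = 0 := by
    rw [phiS_wS, if_neg hne01]
  have hd : 1 + phiS B S 1 (wS B S 0) ≠ 0 := by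
    rw [hphiw, add_zero]; exact one_ne_zero
  set g := tvG (wS B S 0) (phiS B S 1) hd with hg
  have i0S : e1 0 ∈ S := Finset.mem_image.mpr ⟨0, Finset.mem_univ _, rfl⟩
  have i1S : e1 1 ∈ S := Finset.mem_image.mpr ⟨1, Finset.mem_univ _, rfl⟩
  have i2S : e1 2 ∈ S := Finset.mem_image.mpr ⟨2, Finset.mem_univ _, rfl⟩
  have h01' : e1 0 ≠ e1 1 := fun h => by simpa using he1 h
  have h02 : e1 0 ≠ e1 2 := fun h => by simpa using he1 h
  have h12 : e1 1 ≠ e1 2 := fun h => by simpa using he1 h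
  refine ⟨g, memKwB B h01 h2 S hcS g rfl, ?_, ?_⟩
  · rw [mem_sl_iff, hg, tvG_det, hphiw, add_zero]
  · have hy : B ⟨e1 0, 1⟩ ∈ D (e1 0) := hB1 ⟨e1 0, 1⟩
    have hphi1 : phiS B S 1 (B ⟨e1 0, 1⟩) = 1 := by
      rw [phiS_apply]
      simp only [repr_basis, and_true]
      rw [Finset.sum_ite_eq S (e1 0) (fun _ => (1 : F)), if_pos i0S]
    have hgy : (g : Matrix (Fin n) (Fin n) F) *ᵥ B ⟨e1 0, 1⟩
        = tvM (wS B S 0) (phiS B S 1) *ᵥ B ⟨e1 0, 1⟩ := by
      rw [hg, tvG_val]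
    apply not_stab D B hB2 g (B ⟨e1 0, 1⟩) (e1 0) hy (e1 1) (e1 2) 0 0 h12
    · rw [hgy, repr_tv, hphi1, repr_basis, if_neg (fun h => h01' h.1), if_pos ⟨i1S, rfl⟩]
      simp
    · rw [hgy, repr_tv, hphi1, repr_basis, if_neg (fun h => h02 h.1), if_pos ⟨i2S, rfl⟩]
      simp

end EltsB


/-- For a finite field F with q elements and n ≥ 13, let D be a decomposition of F^n into t ≥ 2 independent subspaces of equal dimension m spanning F^n, where m = 1 and q ≤ 4, or m = 2 and q = 2. Then the elements of SL_n(F) permuting the members of D form a subgroup that is not maximal: some subgroup lies strictly between it and SL_n(F). -/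
theorem result {F : Type*} [Field F] [Fintype F] (n : ℕ) (hn : 13 ≤ n) {t : ℕ} (m : ℕ) (D : Fin t → Submodule F (Fin n → F)) (hD : Cfsg.Geo.IsMDecomposition m D) (h : (m = 1 ∧ Fintype.card F ≤ 4) ∨ (m = 2 ∧ Fintype.card F = 2)) : ∃ K : Subgroup (Matrix.GeneralLinearGroup (Fin n) F), Cfsg.Geo.decompositionStabilizer D ⊓ Cfsg.Geo.specialLinear (Fin n) F < K ∧ K < Cfsg.Geo.specialLinear (Fin n) F := by
  classical
  have hint : DirectSum.IsInternal D :=
    DirectSum.isInternal_submodule_of_iSupIndep_of_iSup_eq_top hD.indep hD.iSup_eq_top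
  obtain ⟨B, hB1, hB2⟩ : ∃ B : Module.Basis (Σ _ : Fin t, Fin m) F (Fin n → F),
      (∀ a : (Σ _ : Fin t, Fin m), B a ∈ D a.1) ∧
      (∀ (y : Fin n → F) (j : Fin t), y ∈ D j → ∀ (i : Fin t) (k : Fin m), i ≠ j →
        B.repr y ⟨i, k⟩ = 0) := by
    refine ⟨hint.collectedBasis
      (fun i => Module.finBasisOfFinrankEq F (D i) (hD.finrank_eq i)), ?_, ?_⟩
    · intro a
      exact hint.collectedBasis_mem _ a
    · intro y j hy i k hij
      exact hint.collectedBasis_repr_of_mem_ne _ (Ne.symm hij) hy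
  have htm : t * m = n := by
    have h1 := Module.finrank_eq_card_basis B
    simp at h1
    exact h1.symm
  have ht2 := hD.two_le
  have hm0 := hD.pos
  have hex : ∃ g : GL (Fin n) F, g ∈ Kw B ∧ g ∈ Cfsg.Geo.specialLinear (Fin n) F ∧
      g ∉ Cfsg.Geo.decompositionStabilizer D := by
    rcases h with ⟨rfl, hq⟩ | ⟨rfl, hq⟩
    · exact caseA D B hB1 hB2 (by omega) hq
    · exact caseB D B hB1 hB2 (by omega) hq
  obtain ⟨g, hgK, hgS, hgN⟩ := hex
  refine ⟨Kw B ⊓ Cfsg.Geo.specialLinear (Fin n) F, ?_, ?_⟩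
  · rw [SetLike.lt_iff_le_and_exists]
    refine ⟨inf_le_inf_right _ (fun a ha => (mem_Kw B a).mpr
      (fun x => by rw [wt_stab D B hB1 hB2 a ha x])), g, ⟨hgK, hgS⟩, fun hcon => hgN hcon.1⟩
  · rw [SetLike.lt_iff_le_and_exists]
    refine ⟨inf_le_right, ?_⟩
    obtain ⟨i0, i1, h01⟩ : ∃ i0 i1 : Fin t, i0 ≠ i1 :=
      ⟨⟨0, by omega⟩, ⟨1, by omega⟩, fun h => by simpa using congrArg Fin.val h⟩
    obtain ⟨k0⟩ : Nonempty (Fin m) := ⟨⟨0, hm0⟩⟩
    have hφu : B.coord ⟨i1, k0⟩ (B ⟨i0, k0⟩) = 0 := by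
      rw [Module.Basis.coord_apply, repr_basis, if_neg (fun h => h01 h.1)]
    have hd : 1 + B.coord ⟨i1, k0⟩ (B ⟨i0, k0⟩) ≠ 0 := by
      rw [hφu, add_zero]; exact one_ne_zero
    refine ⟨tvG (B ⟨i0, k0⟩) (B.coord ⟨i1, k0⟩) hd, ?_, ?_⟩
    · rw [mem_sl_iff, tvG_det, hφu, add_zero]
    · intro hmem
      have hK := (mem_Kw B _).mp hmem.1 (B ⟨i1, k0⟩)
      rw [tvG_val, tvM_mulVec] at hK
      have hφz : B.coord ⟨i1, k0⟩ (B ⟨i1, k0⟩) = 1 := by
        rw [Module.Basis.coord_apply, repr_basis, if_pos ⟨rfl, rfl⟩]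
      rw [hφz, one_smul] at hK
      have hw1 : wt B (B ⟨i1, k0⟩) = 1 := by
        rw [wt_eq_card B _ {i1}]
        · simp
        · intro i
          simp only [repr_basis, Finset.mem_singleton]
          constructor
          · rintro ⟨k, hk⟩
            by_contra hne
            apply hk
            rw [if_neg]
            rintro ⟨h, -⟩
            exact hne h.symm
          · rintro rfl
            exact ⟨k0, by rw [if_pos ⟨rfl, rfl⟩]; exact one_ne_zero⟩
      have hw2 : wt B (B ⟨i1, k0⟩ + B ⟨i0, k0⟩) = 2 := by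
        rw [wt_eq_card B _ {i0, i1}]
        · exact Finset.card_pair h01
        · intro i
          simp only [map_add, Finsupp.add_apply, repr_basis, Finset.mem_insert,
            Finset.mem_singleton]
          constructor
          · rintro ⟨k, hk⟩
            by_contra hne
            push Not at hne
            apply hk
            rw [if_neg (fun h => hne.2 h.1.symm), if_neg (fun h => hne.1 h.1.symm), add_zero]
          · rintro (rfl | rfl)
            · refine ⟨k0, ?_⟩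
              rw [if_neg (fun h => h01 h.1.symm), if_pos ⟨rfl, rfl⟩, zero_add]
              exact one_ne_zero
            · refine ⟨k0, ?_⟩
              rw [if_pos ⟨rfl, rfl⟩, if_neg (fun h => h01 h.1), add_zero]
              exact one_ne_zero
      rw [hw1, hw2] at hK
      have : (1 : F) = 0 := by push_cast at hK; linear_combination hK
      exact one_ne_zero this

end Cfsg.Agent.S5635
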