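import Cfsg.Statements.S5646
-- import your own Cfsg.Agent.* helpers here
import Cfsg.Agent.Lib.helper4.SpMax2

set_option autoImplicit false
open Cfsg

namespace Cfsg.Agent.S5646

/-- For a finite field F and m ≥ 7, in the symplectic group Sp_2m(F) of the standard alternating form on F^(2m), the stabiliser of any non-zero subspace W on which the form is non-degenerate and with dim W < m is a maximal subgroup. -/
theorem result {F : Type*} [Field F] [Fintype F] (m : ℕ) (hm : 7 ≤ m) (W : Submodule F (Fin m ⊕ Fin m → F)) (hW0 : W ≠ ⊥) (hW : Cfsg.Geo.IsNondegenerateOn (Cfsg.sympForm m F) W) (hdim : Module.finrank F W < m) : Cfsg.Geo.IsMaximalIn (Cfsg.spGL m F) (Cfsg.Geo.subspaceStabilizer W ⊓ Cfsg.spGL m F) := by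
  classical
  have hWnd : ∀ w ∈ W, w ≠ 0 → ∃ x ∈ W, Cfsg.sympForm m F w x ≠ 0 :=
    fun w hw hw0 => (hW w hw hw0).2
  refine Cfsg.Agent.Lib.helper4.spGL_isMaximalIn_of W ?_
    (fun H hPH g hgH hg => Cfsg.Agent.Lib.helper4.sp_nondeg_max W hWnd hdim H hPH g hgH hg)
  obtain ⟨w₀, hw₀W, hw₀0⟩ := Submodule.exists_mem_ne_zero_of_ne_bot hW0
  obtain ⟨z, hz⟩ : ∃ z : Fin m ⊕ Fin m → F, z ∉ W := by
    by_contra hcon
    push Not at hcon
    have h1 : W = ⊤ := by
      rw [eq_top_iff]
      intro x _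
      exact hcon x
    rw [h1, finrank_top, Module.finrank_fintype_fun_eq_card, Fintype.card_sum,
      Fintype.card_fin] at hdim
    omega
  have hz0 : z ≠ 0 := by
    intro h
    apply hz
    rw [h]
    exact W.zero_mem
  obtain ⟨A, hA⟩ := Cfsg.Agent.Lib.helper4.witt_frames (fun _ : Fin 1 => w₀) (fun _ : Fin 1 => z)
    (LinearIndependent.of_subsingleton (0 : Fin 1) hw₀0)
    (LinearIndependent.of_subsingleton (0 : Fin 1) hz0)
    (fun i j => by rw [Cfsg.Agent.S0766.sf_self, Cfsg.Agent.S0766.sf_self])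
  refine ⟨A, fun h => hz ?_⟩
  have h2 := (h w₀).mp hw₀W
  rw [hA 0] at h2
  exact h2

end Cfsg.Agent.S5646
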