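import Cfsg.Statements.S5647
-- import your own Cfsg.Agent.* helpers here
import Cfsg.Agent.Lib.helper4.SpDecomp

set_option autoImplicit false
open Cfsg

namespace Cfsg.Agent.S5647

/-- For a finite field F with q elements and m ≥ 7, let D be a decomposition of F^(2m) into t ≥ 2 pairwise orthogonal subspaces of equal dimension k on each of which the standard alternating form is non-degenerate, spanning F^(2m). Unless k = 2 and q = 2, the elements of Sp_2m(F) permuting the members of D form a maximal subgroup of Sp_2m(F). -/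
theorem result {F : Type*} [Field F] [Fintype F] (m : ℕ) (hm : 7 ≤ m) {t : ℕ} (k : ℕ) (D : Fin t → Submodule F (Fin m ⊕ Fin m → F)) (hD : Cfsg.Geo.IsNondegenerateMDecomposition (Cfsg.sympForm m F) k D) (hex : ¬ (k = 2 ∧ Fintype.card F = 2)) : Cfsg.Geo.IsMaximalIn (Cfsg.spGL m F) (Cfsg.Geo.decompositionStabilizer D ⊓ Cfsg.spGL m F) := by
  have hnd : ∀ i, ∀ w ∈ D i, w ≠ 0 → ∃ x ∈ D i, Cfsg.sympForm m F w x ≠ 0 :=
    fun i w hw hw0 => (hD.nondegenerate i w hw hw0).2
  have horth : ∀ i j, i ≠ j → ∀ u ∈ D i, ∀ v ∈ D j, Cfsg.sympForm m F u v = 0 :=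
    fun i j hij => hD.orthogonal i j hij
  refine Cfsg.Agent.Lib.helper4.spGL_isMaximalIn_gen _ ?_ ?_
  · obtain ⟨A, hA⟩ := Cfsg.Agent.Lib.helper4.exists_not_sStab D hnd horth k hD.decomp.pos
      hD.decomp.finrank_eq hD.decomp.two_le
    exact ⟨A, fun h => hA ((Cfsg.Agent.Lib.helper4.mem_decompStab_iff D A).mp h)⟩
  · intro H hPH g hgH hg
    exact Cfsg.Agent.Lib.helper4.sp_decomp_max D hnd horth hD.decomp.iSup_eq_top k
      hD.decomp.pos hD.decomp.finrank_eq hD.decomp.two_le hex H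
      (fun A hA => hPH A ((Cfsg.Agent.Lib.helper4.mem_decompStab_iff D A).mpr hA)) g hgH
      (fun h => hg ((Cfsg.Agent.Lib.helper4.mem_decompStab_iff D g).mpr h))

end Cfsg.Agent.S5647
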