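import Cfsg.Statements.S5652
-- import your own Cfsg.Agent.* helpers here
import Cfsg.Agent.Lib.helper4.SpQuad

set_option autoImplicit false
open Cfsg

namespace Cfsg.Agent.S5652

/-- For a finite field F of characteristic two and m ≥ 7, let Q be a non-degenerate quadratic form on F^(2m) whose polar form is the standard alternating form. Then the elements of Sp_2m(F) that are similarities of Q (they are exactly the isometries of Q) form a maximal subgroup of Sp_2m(F). -/
theorem result {F : Type*} [Field F] [Fintype F] (m : ℕ) (hm : 7 ≤ m) (heven : ¬ Odd (Fintype.card F)) (Q : (Fin m ⊕ Fin m → F) → F) (hQ : Cfsg.Geo.IsNondegenerateQuadraticForm Q) (hpol : ∀ u v, QuadraticMap.polar Q u v = Cfsg.sympForm m F u v) : Cfsg.Geo.IsMaximalIn (Cfsg.spGL m F) (Cfsg.Geo.quadSimilarityGroup Q ⊓ Cfsg.spGL m F) := by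
  have h2 : (2 : F) = 0 := by
    have h1 : Fintype.card F % 2 = 0 := by
      rcases Nat.even_or_odd (Fintype.card F) with h | h
      · exact Nat.even_iff.mp h
      · exact absurd h heven
    have h3 : ringChar F = 2 := FiniteField.even_card_iff_char_two.mpr h1
    have h4 := ringChar.Nat.cast_ringChar (R := F)
    rw [h3] at h4
    exact_mod_cast h4
  refine Cfsg.Agent.Lib.helper4.spGL_isMaximalIn_gen _ ?_ ?_
  · obtain ⟨A, hA⟩ := Cfsg.Agent.Lib.helper4.exists_not_sQS Q (by omega) hQ.smul hpol h2
    exact ⟨A, fun h => hA ((Cfsg.Agent.Lib.helper4.mem_quadSim_iff Q A).mp h)⟩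
  · intro H hPH g hgH hg
    exact Cfsg.Agent.Lib.helper4.sp_quad_max Q (by omega) hQ.smul hpol h2 H
      (fun A hA => hPH A ((Cfsg.Agent.Lib.helper4.mem_quadSim_iff Q A).mpr hA)) g hgH
      (fun h => hg ((Cfsg.Agent.Lib.helper4.mem_quadSim_iff Q g).mpr h))

end Cfsg.Agent.S5652
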