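import Cfsg.Statements.S5656
import Mathlib
import Cfsg.Agent.S5635

set_option autoImplicit false
open Cfsg

namespace Cfsg.Agent.S5656


open Matrix
open Cfsg.Agent.S5635

section Herm
variable {F : Type*} [Field F] {n : ℕ}

/-- The facts about the field with four elements that are used. -/
structure F4 (F : Type*) [Field F] : Prop where
  two : (2 : F) = 0
  four : ∀ a : F, a ^ 4 = a
  cube : ∀ a : F, a ≠ 0 → a ^ 3 = 1
  omega : ∃ ω : F, ω ≠ 0 ∧ ω ≠ 1

theorem f4 [Fintype F] (hF : Fintype.card F = 4) : F4 F := by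
  classical
  have hc := FiniteField.cast_card_eq_zero F
  rw [hF] at hc
  have h2 : (2 : F) = 0 := by
    have : (2 : F) * 2 = 0 := by push_cast at hc; linear_combination hc
    exact mul_self_eq_zero.mp this
  refine ⟨h2, ?_, ?_, ?_⟩
  · intro a
    have := FiniteField.pow_card a
    rwa [hF] at this
  · intro a ha
    have := FiniteField.pow_card_sub_one_eq_one a ha
    rw [hF] at this
    simpa using this
  · by_contra hcon
    push Not at hcon
    have hsub : (Finset.univ : Finset F) ⊆ {0, 1} := by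
      intro a _
      by_cases ha : a = 0
      · simp [ha]
      · simp [hcon a ha]
    have h1 := Finset.card_le_card hsub
    rw [Finset.card_univ, hF] at h1
    have h3 : ({0, 1} : Finset F).card ≤ 2 := Finset.card_le_two
    omega

/-- The Frobenius map `a ↦ a ^ 2`. -/
def sqHom (h2 : (2 : F) = 0) : F →+* F where
  toFun := fun a => a ^ 2
  map_one' := one_pow 2
  map_mul' := fun a b => mul_pow a b 2
  map_zero' := by simp
  map_add' := fun a b => by linear_combination (a * b) * h2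

theorem hadd_left (x x' y : Fin n → F) :
    Cfsg.hermForm n F 2 (x + x') y = Cfsg.hermForm n F 2 x y + Cfsg.hermForm n F 2 x' y := by
  unfold Cfsg.hermForm
  simp [add_mul, Finset.sum_add_distrib]

theorem hsmul_left (a : F) (x y : Fin n → F) :
    Cfsg.hermForm n F 2 (a • x) y = a * Cfsg.hermForm n F 2 x y := by
  unfold Cfsg.hermForm
  simp [Finset.mul_sum, mul_assoc]

theorem hadd_right (h4 : F4 F) (x y y' : Fin n → F) :
    Cfsg.hermForm n F 2 x (y + y') = Cfsg.hermForm n F 2 x y + Cfsg.hermForm n F 2 x y' := by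
  unfold Cfsg.hermForm
  rw [← Finset.sum_add_distrib]
  apply Finset.sum_congr rfl
  intro i _
  simp only [Pi.add_apply]
  linear_combination (x i * y i * y' i) * h4.two

theorem hsmul_right (a : F) (x y : Fin n → F) :
    Cfsg.hermForm n F 2 x (a • y) = a ^ 2 * Cfsg.hermForm n F 2 x y := by
  unfold Cfsg.hermForm
  rw [Finset.mul_sum]
  apply Finset.sum_congr rfl
  intro i _
  simp only [Pi.smul_apply, smul_eq_mul]
  ring

theorem hsymm (h4 : F4 F) (x y : Fin n → F) :
    Cfsg.hermForm n F 2 y x = (Cfsg.hermForm n F 2 x y) ^ 2 := by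
  have h1 : (Cfsg.hermForm n F 2 x y) ^ 2 = sqHom h4.two (Cfsg.hermForm n F 2 x y) := rfl
  rw [h1]
  unfold Cfsg.hermForm
  rw [map_sum]
  apply Finset.sum_congr rfl
  intro i _
  show y i * x i ^ 2 = (x i * y i ^ 2) ^ 2
  have := h4.four (y i)
  linear_combination (- x i ^ 2) * this

theorem hnorm01 (h4 : F4 F) (x : Fin n → F) :
    Cfsg.hermForm n F 2 x x = 0 ∨ Cfsg.hermForm n F 2 x x = 1 := by
  have h := hsymm h4 x x
  have h1 : Cfsg.hermForm n F 2 x x * (Cfsg.hermForm n F 2 x x - 1) = 0 := by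
    linear_combination -h
  rcases mul_eq_zero.mp h1 with h2 | h2
  · exact Or.inl h2
  · exact Or.inr (sub_eq_zero.mp h2)

/-- The functional `x ↦ f(x, w)`. -/
noncomputable def hphi (w : Fin n → F) : (Fin n → F) →ₗ[F] F where
  toFun x := Cfsg.hermForm n F 2 x w
  map_add' x y := hadd_left x y w
  map_smul' a x := by
    rw [hsmul_left]; rfl

/-- The unitary transvection `x ↦ x + f(x, w) w` for isotropic `w`. -/
noncomputable def T (w : Fin n → F) (hw : Cfsg.hermForm n F 2 w w = 0) : GL (Fin n) F :=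
  tvG w (hphi w) (by
    show 1 + Cfsg.hermForm n F 2 w w ≠ 0
    rw [hw, add_zero]; exact one_ne_zero)

theorem T_apply (w : Fin n → F) (hw : Cfsg.hermForm n F 2 w w = 0) (x : Fin n → F) :
    ((T w hw : GL (Fin n) F) : Matrix (Fin n) (Fin n) F) *ᵥ x
      = x + Cfsg.hermForm n F 2 x w • w := by
  unfold T
  rw [tvG_val, tvM_mulVec]
  rfl

theorem T_sl (w : Fin n → F) (hw : Cfsg.hermForm n F 2 w w = 0) :
    T w hw ∈ Cfsg.Geo.specialLinear (Fin n) F := by
  rw [mem_sl_iff]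
  unfold T
  rw [tvG_det]
  show 1 + Cfsg.hermForm n F 2 w w = 1
  rw [hw, add_zero]

theorem mem_GU_iff (g : GL (Fin n) F) :
    g ∈ Cfsg.GU n F 2 ↔ ∀ u v : Fin n → F,
      Cfsg.hermForm n F 2 ((g : Matrix (Fin n) (Fin n) F) *ᵥ u)
        ((g : Matrix (Fin n) (Fin n) F) *ᵥ v) = Cfsg.hermForm n F 2 u v := Iff.rfl

theorem T_gu (h4 : F4 F) (w : Fin n → F) (hw : Cfsg.hermForm n F 2 w w = 0) :
    T w hw ∈ Cfsg.GU n F 2 := by
  rw [mem_GU_iff]
  intro u v
  rw [T_apply, T_apply]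
  simp only [hadd_left, hadd_right h4, hsmul_left, hsmul_right, hw]
  have h1 := hsymm h4 v w
  rw [h1]
  linear_combination (Cfsg.hermForm n F 2 u w * Cfsg.hermForm n F 2 v w ^ 2) * h4.two

theorem T_invol (h4 : F4 F) (w : Fin n → F) (hw : Cfsg.hermForm n F 2 w w = 0) (x : Fin n → F) :
    ((T w hw : GL (Fin n) F) : Matrix (Fin n) (Fin n) F) *ᵥ
      (((T w hw : GL (Fin n) F) : Matrix (Fin n) (Fin n) F) *ᵥ x) = x := by
  rw [T_apply, T_apply]
  simp only [hadd_left, hsmul_left, hw, mul_zero, add_zero]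
  rw [add_assoc, ← add_smul]
  have : Cfsg.hermForm n F 2 x w + Cfsg.hermForm n F 2 x w = 0 := by
    linear_combination (Cfsg.hermForm n F 2 x w) * h4.two
  rw [this, zero_smul, add_zero]

theorem cube01 (h4 : F4 F) (a b : F) (h : a ^ 3 + b ^ 3 ≠ 0) :
    (a = 0 ∧ b ≠ 0) ∨ (a ≠ 0 ∧ b = 0) := by
  by_cases ha : a = 0
  · left
    refine ⟨ha, ?_⟩
    rintro rfl
    apply h
    rw [ha]; ring
  · right
    refine ⟨ha, ?_⟩
    by_contra hb
    apply h
    rw [h4.cube a ha, h4.cube b hb]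
    linear_combination h4.two

end Herm

section ON
variable {F : Type*} [Field F] {n : ℕ}

theorem exists_norm_one (h4 : F4 F) (W : Submodule F (Fin n → F)) (hW : W ≠ ⊥)
    (hnd : Cfsg.Geo.IsNondegenerateOn (Cfsg.hermForm n F 2) W) :
    ∃ u ∈ W, Cfsg.hermForm n F 2 u u = 1 := by
  by_contra hcon
  push Not at hcon
  have h0 : ∀ v ∈ W, Cfsg.hermForm n F 2 v v = 0 :=
    fun v hv => (hnorm01 h4 v).resolve_right (hcon v hv)
  obtain ⟨w, hwW, hw0⟩ := Submodule.exists_mem_ne_zero_of_ne_bot hW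
  obtain ⟨⟨x, hxW, hx⟩, -⟩ := hnd w hwW hw0
  obtain ⟨ω, hω0, hω1⟩ := h4.omega
  have hv := h0 ((ω / Cfsg.hermForm n F 2 x w) • x + w) (W.add_mem (W.smul_mem _ hxW) hwW)
  have e : ∀ a : F, Cfsg.hermForm n F 2 (a • x + w) (a • x + w)
      = a * (a ^ 2 * Cfsg.hermForm n F 2 x x) + a * Cfsg.hermForm n F 2 x w
        + (a ^ 2 * Cfsg.hermForm n F 2 w x + Cfsg.hermForm n F 2 w w) := by
    intro a
    simp only [hadd_left, hadd_right h4, hsmul_left, hsmul_right]
    ring
  rw [e, h0 x hxW, h0 w hwW, hsymm h4 x w] at hv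
  have hac : ω / Cfsg.hermForm n F 2 x w * Cfsg.hermForm n F 2 x w = ω := div_mul_cancel₀ ω hx
  have h1 : ω * (1 + ω) = 0 := by
    have h2 : ω / Cfsg.hermForm n F 2 x w * Cfsg.hermForm n F 2 x w
        + (ω / Cfsg.hermForm n F 2 x w * Cfsg.hermForm n F 2 x w) ^ 2 = 0 := by
      linear_combination hv
    rw [hac] at h2
    linear_combination h2
  rcases mul_eq_zero.mp h1 with h2 | h2
  · exact hω0 h2
  · apply hω1
    linear_combination h2 - h4.two

theorem on_basis (h4 : F4 F) (W : Submodule F (Fin n → F)) (hfr : Module.finrank F W = 2)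
    (hnd : Cfsg.Geo.IsNondegenerateOn (Cfsg.hermForm n F 2) W) :
    ∃ u₀ u₁ : Fin n → F, u₀ ∈ W ∧ u₁ ∈ W ∧ Cfsg.hermForm n F 2 u₀ u₀ = 1 ∧
      Cfsg.hermForm n F 2 u₁ u₁ = 1 ∧ Cfsg.hermForm n F 2 u₀ u₁ = 0 ∧
      Cfsg.hermForm n F 2 u₁ u₀ = 0 ∧ ∀ v ∈ W, ∃ a b : F, v = a • u₀ + b • u₁ := by
  have hW : W ≠ ⊥ := by
    rintro rfl
    simp at hfr
  obtain ⟨u₀, hu₀W, hu₀⟩ := exists_norm_one h4 W hW hnd
  have hu₀ne : u₀ ≠ 0 := by
    rintro rfl
    simp [Cfsg.hermForm] at hu₀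
  have hlt : Submodule.span F {u₀} < W := by
    refine lt_of_le_of_ne ((Submodule.span_singleton_le_iff_mem _ _).mpr hu₀W) ?_
    intro heq
    have := finrank_span_singleton (K := F) hu₀ne
    rw [heq, hfr] at this
    omega
  obtain ⟨w, hwW, hwn⟩ := SetLike.exists_of_lt hlt
  obtain ⟨u₁, hu₁⟩ : ∃ u₁, u₁ = w + Cfsg.hermForm n F 2 w u₀ • u₀ := ⟨_, rfl⟩
  have hu₁W : u₁ ∈ W := by
    rw [hu₁]; exact W.add_mem hwW (W.smul_mem _ hu₀W)
  have h10 : Cfsg.hermForm n F 2 u₁ u₀ = 0 := by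
    rw [hu₁, hadd_left, hsmul_left, hu₀]
    linear_combination (Cfsg.hermForm n F 2 w u₀) * h4.two
  have h01 : Cfsg.hermForm n F 2 u₀ u₁ = 0 := by
    rw [hsymm h4 u₁ u₀, h10]; ring
  have hu₁n : u₁ ∉ Submodule.span F {u₀} := by
    intro h
    apply hwn
    have : w = u₁ - Cfsg.hermForm n F 2 w u₀ • u₀ := by rw [hu₁]; abel
    rw [this]
    exact Submodule.sub_mem _ h (Submodule.smul_mem _ _ (Submodule.mem_span_singleton_self u₀))
  have hspan : ∀ v ∈ W, ∃ a b : F, v = a • u₀ + b • u₁ := by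
    have hli : LinearIndependent F ![u₀, u₁] := by
      rw [LinearIndependent.pair_iff]
      intro s t hst
      have ht : t = 0 := by
        by_contra ht
        apply hu₁n
        have h1 : t • u₁ = -(s • u₀) := by
          rw [eq_neg_iff_add_eq_zero, add_comm]; exact hst
        have h2 : u₁ = (-(t⁻¹ * s)) • u₀ := by
          calc u₁ = t⁻¹ • (t • u₁) := by rw [smul_smul, inv_mul_cancel₀ ht, one_smul]
            _ = (-(t⁻¹ * s)) • u₀ := by rw [h1, smul_neg, smul_smul, neg_smul]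
        rw [h2]
        exact Submodule.smul_mem _ _ (Submodule.mem_span_singleton_self u₀)
      refine ⟨?_, ht⟩
      rw [ht, zero_smul, add_zero] at hst
      exact (smul_eq_zero.mp hst).resolve_right hu₀ne
    have hfr2 : Module.finrank F (Submodule.span F (Set.range ![u₀, u₁])) = 2 := by
      rw [finrank_span_eq_card hli]; simp
    have hle : Submodule.span F (Set.range ![u₀, u₁]) ≤ W := by
      rw [Submodule.span_le]
      rintro _ ⟨i, rfl⟩
      fin_cases i
      · exact hu₀W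
      · exact hu₁W
    have heq : Submodule.span F (Set.range ![u₀, u₁]) = W :=
      Submodule.eq_of_le_of_finrank_eq hle (by rw [hfr2, hfr])
    intro v hv
    rw [← heq] at hv
    have hr : Set.range ![u₀, u₁] = {u₀, u₁} := by
      ext z
      constructor
      · rintro ⟨i, rfl⟩
        fin_cases i
        · simp
        · simp
      · rintro (rfl | rfl)
        · exact ⟨0, rfl⟩
        · exact ⟨1, rfl⟩
    rw [hr, Submodule.mem_span_pair] at hv
    obtain ⟨a, b, hab⟩ := hv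
    exact ⟨a, b, hab.symm⟩
  have hu₁ne : u₁ ≠ 0 := by
    intro h
    apply hu₁n
    rw [h]; exact Submodule.zero_mem _
  have h11 : Cfsg.hermForm n F 2 u₁ u₁ = 1 := by
    obtain ⟨⟨x, hxW, hx⟩, -⟩ := hnd u₁ hu₁W hu₁ne
    obtain ⟨a, b, rfl⟩ := hspan x hxW
    rw [hadd_left, hsmul_left, hsmul_left, h01, mul_zero, zero_add] at hx
    rcases hnorm01 h4 u₁ with h | h
    · rw [h, mul_zero] at hx
      exact absurd rfl hx
    · exact h
  exact ⟨u₀, u₁, hu₀W, hu₁W, hu₀, h11, h01, h10, hspan⟩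

end ON

section K
variable {F : Type*} [Field F] {n t : ℕ}

/-- A vector is special when it is non-isotropic and lies in a member of `D`. -/
def special (D : Fin t → Submodule F (Fin n → F)) (v : Fin n → F) : Prop :=
  Cfsg.hermForm n F 2 v v ≠ 0 ∧ ∃ i, v ∈ D i

/-- The subgroup of `GL` permuting the special vectors. -/
noncomputable def Ksp (D : Fin t → Submodule F (Fin n → F)) : Subgroup (GL (Fin n) F) where
  carrier := {g | ∀ v : Fin n → F,
    special D ((g : Matrix (Fin n) (Fin n) F) *ᵥ v) ↔ special D v}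
  mul_mem' := by
    intro a b ha hb v
    rw [Units.val_mul, ← Matrix.mulVec_mulVec, ha, hb]
  one_mem' := by
    intro v
    simp
  inv_mem' := by
    intro a ha v
    have := ha (((a⁻¹ : GL (Fin n) F) : Matrix (Fin n) (Fin n) F) *ᵥ v)
    rw [Matrix.mulVec_mulVec, ← Units.val_mul, mul_inv_cancel, Units.val_one,
      Matrix.one_mulVec] at this
    exact this.symm

theorem mem_Ksp (D : Fin t → Submodule F (Fin n → F)) (g : GL (Fin n) F) :
    g ∈ Ksp D ↔ ∀ v : Fin n → F,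
      special D ((g : Matrix (Fin n) (Fin n) F) *ᵥ v) ↔ special D v := Iff.rfl

theorem stab_special (D : Fin t → Submodule F (Fin n → F)) (g : GL (Fin n) F)
    (hgS : g ∈ Cfsg.Geo.decompositionStabilizer D) (hgU : g ∈ Cfsg.GU n F 2) (v : Fin n → F)
    (hv : special D v) : special D ((g : Matrix (Fin n) (Fin n) F) *ᵥ v) := by
  obtain ⟨σ, hσ⟩ := hgS
  obtain ⟨hvn, i, hi⟩ := hv
  refine ⟨by rw [(mem_GU_iff g).mp hgU]; exact hvn, σ i, ?_⟩
  rw [← hσ i]
  exact ⟨v, hi, Matrix.toLin'_apply _ _⟩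

theorem stab_le_Ksp (D : Fin t → Submodule F (Fin n → F)) (g : GL (Fin n) F)
    (hgS : g ∈ Cfsg.Geo.decompositionStabilizer D) (hgU : g ∈ Cfsg.GU n F 2) : g ∈ Ksp D := by
  rw [mem_Ksp]
  intro v
  constructor
  · intro h
    have := stab_special D g⁻¹ (Subgroup.inv_mem _ hgS) (Subgroup.inv_mem _ hgU) _ h
    rwa [Matrix.mulVec_mulVec, ← Units.val_mul, inv_mul_cancel, Units.val_one,
      Matrix.one_mulVec] at this
  · exact stab_special D g hgS hgU v

theorem swap_mem (h4 : F4 F) (D : Fin t → Submodule F (Fin n → F))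
    (horth : ∀ i j, i ≠ j → Cfsg.Geo.AreOrthogonalFor (Cfsg.hermForm n F 2) (D i) (D j))
    (i i' : Fin t) (hii : i ≠ i') (p0 p1 q0 : Fin n → F) (hp0 : p0 ∈ D i) (hp1 : p1 ∈ D i)
    (hq0 : q0 ∈ D i') (h00 : Cfsg.hermForm n F 2 p0 p0 = 1) (h11 : Cfsg.hermForm n F 2 p1 p1 = 1)
    (h01 : Cfsg.hermForm n F 2 p0 p1 = 0) (h10 : Cfsg.hermForm n F 2 p1 p0 = 0)
    (hspan : ∀ v ∈ D i, ∃ a b : F, v = a • p0 + b • p1) (v : Fin n → F) (hv : v ∈ D i)
    (hvn : Cfsg.hermForm n F 2 v v ≠ 0) :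
    ∃ j, v + Cfsg.hermForm n F 2 v (p1 + q0) • (p1 + q0) ∈ D j := by
  obtain ⟨a, b, rfl⟩ := hspan v hv
  have hq : ∀ y ∈ D i, Cfsg.hermForm n F 2 y q0 = 0 := fun y hy => horth i i' hii y hy q0 hq0
  have e1 : Cfsg.hermForm n F 2 (a • p0 + b • p1) (p1 + q0) = b := by
    rw [hadd_right h4, hq _ hv, add_zero, hadd_left, hsmul_left, hsmul_left, h01, h11]
    ring
  have e2 : Cfsg.hermForm n F 2 (a • p0 + b • p1) (a • p0 + b • p1) = a ^ 3 + b ^ 3 := by
    simp only [hadd_left, hadd_right h4, hsmul_left, hsmul_right, h00, h11, h01, h10]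
    ring
  rw [e2] at hvn
  rw [e1]
  rcases cube01 h4 a b hvn with ⟨ha, hb⟩ | ⟨ha, hb⟩
  · refine ⟨i', ?_⟩
    have : a • p0 + b • p1 + b • (p1 + q0) = b • q0 := by
      rw [ha, zero_smul, zero_add, smul_add, ← add_assoc, ← add_smul]
      have : b + b = 0 := by linear_combination b * h4.two
      rw [this, zero_smul, zero_add]
    rw [this]
    exact Submodule.smul_mem _ _ hq0
  · refine ⟨i, ?_⟩
    rw [hb, zero_smul, add_zero, zero_smul, add_zero]
    exact Submodule.smul_mem _ _ hp0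

end K


/-- Let F be the field with 4 elements (q = 2) and n ≥ 13. Let D be a decomposition of F^n into t pairwise orthogonal 2-dimensional subspaces, each non-degenerate for the standard unitary form Σ u_i v_i². Then the elements of SU_n(2) permuting the members of D form a subgroup that is not maximal: some subgroup lies strictly between it and SU_n(2). -/
theorem result {F : Type*} [Field F] [Fintype F] (n : ℕ) (hF : Fintype.card F = 4) (hn : 13 ≤ n) {t : ℕ} (D : Fin t → Submodule F (Fin n → F)) (hD : Cfsg.Geo.IsNondegenerateMDecomposition (Cfsg.hermForm n F 2) 2 D) : ∃ K : Subgroup (Matrix.GeneralLinearGroup (Fin n) F), Cfsg.Geo.decompositionStabilizer D ⊓ (Cfsg.GU n F 2 ⊓ Cfsg.Geo.specialLinear (Fin n) F) < K ∧ K < (Cfsg.GU n F 2 ⊓ Cfsg.Geo.specialLinear (Fin n) F) := by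
  classical
  have h4 := f4 hF
  have horth := hD.orthogonal
  have ht2 := hD.decomp.two_le
  obtain ⟨i0, i1, hi01⟩ : ∃ i0 i1 : Fin t, i0 ≠ i1 :=
    ⟨⟨0, by omega⟩, ⟨1, by omega⟩, fun h => by simpa using congrArg Fin.val h⟩
  obtain ⟨p0, p1, hp0, hp1, hp00, hp11, hp01, hp10, hpspan⟩ :=
    on_basis h4 (D i0) (hD.decomp.finrank_eq i0) (hD.nondegenerate i0)
  obtain ⟨q0, q1, hq0, hq1, hq00, hq11, hq01, hq10, hqspan⟩ :=
    on_basis h4 (D i1) (hD.decomp.finrank_eq i1) (hD.nondegenerate i1)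
  have hpq : ∀ x ∈ D i0, ∀ y ∈ D i1, Cfsg.hermForm n F 2 x y = 0 := horth i0 i1 hi01
  have hqp : ∀ x ∈ D i1, ∀ y ∈ D i0, Cfsg.hermForm n F 2 x y = 0 := horth i1 i0 hi01.symm
  have hw1 : Cfsg.hermForm n F 2 (p1 + q0) (p1 + q0) = 0 := by
    simp only [hadd_left, hadd_right h4]
    rw [hp11, hq00, hpq p1 hp1 q0 hq0, hqp q0 hq0 p1 hp1]
    linear_combination h4.two
  have hw2 : Cfsg.hermForm n F 2 (p0 + p1 + q0 + q1) (p0 + p1 + q0 + q1) = 0 := by
    simp only [hadd_left, hadd_right h4, hp00, hp11, hp01, hp10, hq00, hq11, hq01, hq10,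
      hpq p0 hp0 q0 hq0, hpq p0 hp0 q1 hq1, hpq p1 hp1 q0 hq0, hpq p1 hp1 q1 hq1,
      hqp q0 hq0 p0 hp0, hqp q0 hq0 p1 hp1, hqp q1 hq1 p0 hp0, hqp q1 hq1 p1 hp1]
    linear_combination 2 * h4.two
  refine ⟨Ksp D ⊓ (Cfsg.GU n F 2 ⊓ Cfsg.Geo.specialLinear (Fin n) F), ?_, ?_⟩
  · rw [SetLike.lt_iff_le_and_exists]
    refine ⟨?_, T (p1 + q0) hw1, ⟨?_, T_gu h4 _ hw1, T_sl _ hw1⟩, ?_⟩
    · intro g hg
      exact ⟨stab_le_Ksp D g hg.1 hg.2.1, hg.2⟩
    · have hfwd : ∀ v : Fin n → F, special D v →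
          special D (((T (p1 + q0) hw1 : GL (Fin n) F) : Matrix (Fin n) (Fin n) F) *ᵥ v) := by
        rintro v ⟨hvn, j, hj⟩
        refine ⟨by rw [(mem_GU_iff _).mp (T_gu h4 _ hw1)]; exact hvn, ?_⟩
        rw [T_apply]
        by_cases hj0 : j = i0
        · subst hj0
          exact swap_mem h4 D horth j i1 hi01 p0 p1 q0 hp0 hp1 hq0 hp00 hp11 hp01 hp10 hpspan
            v hj hvn
        · by_cases hj1 : j = i1
          · subst hj1
            have hqspan' : ∀ v ∈ D j, ∃ a b : F, v = a • q1 + b • q0 := by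
              intro v hv
              obtain ⟨a, b, hab⟩ := hqspan v hv
              exact ⟨b, a, by rw [hab, add_comm]⟩
            have := swap_mem h4 D horth j i0 hi01.symm q1 q0 p1 hq1 hq0 hp1 hq11 hq00 hq10 hq01
              hqspan' v hj hvn
            rwa [add_comm q0 p1] at this
          · refine ⟨j, ?_⟩
            have : Cfsg.hermForm n F 2 v (p1 + q0) = 0 := by
              rw [hadd_right h4, horth j i0 hj0 v hj p1 hp1, horth j i1 hj1 v hj q0 hq0, add_zero]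
            rw [this, zero_smul, add_zero]
            exact hj
      refine (mem_Ksp D _).mpr ?_
      intro v
      constructor
      · intro h
        have := hfwd _ h
        rwa [T_invol h4] at this
      · exact hfwd v
    · rintro ⟨⟨σ, hσ⟩, -⟩
      have e0 : ((T (p1 + q0) hw1 : GL (Fin n) F) : Matrix (Fin n) (Fin n) F) *ᵥ p0 = p0 := by
        rw [T_apply, hadd_right h4, hp01, hpq p0 hp0 q0 hq0, add_zero, zero_smul, add_zero]
      have e1 : ((T (p1 + q0) hw1 : GL (Fin n) F) : Matrix (Fin n) (Fin n) F) *ᵥ p1 = q0 := by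
        rw [T_apply, hadd_right h4, hp11, hpq p1 hp1 q0 hq0, add_zero, one_smul, ← add_assoc]
        have : p1 + p1 = 0 := by rw [← two_smul F p1, h4.two, zero_smul]
        rw [this, zero_add]
      have m0 : p0 ∈ D (σ i0) := by
        rw [← hσ i0]
        exact ⟨p0, hp0, by rw [Matrix.toLin'_apply]; exact e0⟩
      have m1 : q0 ∈ D (σ i0) := by
        rw [← hσ i0]
        exact ⟨p1, hp1, by rw [Matrix.toLin'_apply]; exact e1⟩
      have hs : σ i0 = i0 := by
        by_contra hne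
        have := horth (σ i0) i0 hne p0 m0 p0 hp0
        rw [hp00] at this
        exact one_ne_zero this
      rw [hs] at m1
      have := hpq q0 m1 q0 hq0
      rw [hq00] at this
      exact one_ne_zero this
  · rw [SetLike.lt_iff_le_and_exists]
    refine ⟨inf_le_right, T (p0 + p1 + q0 + q1) hw2, ⟨T_gu h4 _ hw2, T_sl _ hw2⟩, ?_⟩
    rintro ⟨hK, -⟩
    have hsp : special D p0 := ⟨by rw [hp00]; exact one_ne_zero, i0, hp0⟩
    obtain ⟨-, j, hj⟩ := ((mem_Ksp D _).mp hK p0).mpr hsp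
    rw [T_apply] at hj
    have e : Cfsg.hermForm n F 2 p0 (p0 + p1 + q0 + q1) = 1 := by
      simp only [hadd_right h4, hp00, hp01, hpq p0 hp0 q0 hq0, hpq p0 hp0 q1 hq1]
      ring
    rw [e, one_smul] at hj
    have ey1 : Cfsg.hermForm n F 2 (p0 + (p0 + p1 + q0 + q1)) p1 = 1 := by
      simp only [hadd_left, hp01, hp11, hqp q0 hq0 p1 hp1, hqp q1 hq1 p1 hp1]
      ring
    have ey2 : Cfsg.hermForm n F 2 (p0 + (p0 + p1 + q0 + q1)) q0 = 1 := by
      simp only [hadd_left, hpq p0 hp0 q0 hq0, hpq p1 hp1 q0 hq0, hq00, hq10]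
      ring
    by_cases hj0 : j = i0
    · subst hj0
      have := hpq _ hj q0 hq0
      rw [ey2] at this
      exact one_ne_zero this
    · have := horth j i0 hj0 _ hj p1 hp1
      rw [ey1] at this
      exact one_ne_zero this

end Cfsg.Agent.S5656
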