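import Cfsg.Statements.S5667
import Mathlib
import Cfsg.Agent.Lib.helper19.TensorNM

set_option autoImplicit false
open Cfsg

namespace Cfsg.Agent.S5667

open Matrix
open scoped Kronecker
open Cfsg.Agent.Lib.helper19.TensorNM

section Symp
variable {F : Type*} [Field F] {m : ℕ}

theorem symp_eq (u v : Fin m ⊕ Fin m → F) :
    Cfsg.sympForm m F u v =
      ∑ i, (u (Sum.inr i) * v (Sum.inl i) - u (Sum.inl i) * v (Sum.inr i)) := by
  show u ⬝ᵥ (Matrix.J (Fin m) F *ᵥ v) = _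
  rw [Matrix.J, Matrix.fromBlocks_mulVec]
  simp only [dotProduct, Fintype.sum_sum_type, Sum.elim_inl, Sum.elim_inr, Matrix.zero_mulVec,
    Matrix.neg_mulVec, Matrix.one_mulVec, zero_add, add_zero, Pi.neg_apply, Function.comp_apply,
    Finset.sum_sub_distrib]
  simp only [mul_neg, Finset.sum_neg_distrib]
  ring

theorem symp_self (v : Fin m ⊕ Fin m → F) : Cfsg.sympForm m F v v = 0 := by
  rw [symp_eq]
  apply Finset.sum_eq_zero
  intro i _
  ring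

theorem symp_skew (u v : Fin m ⊕ Fin m → F) :
    Cfsg.sympForm m F u v = - Cfsg.sympForm m F v u := by
  rw [symp_eq, symp_eq, ← Finset.sum_neg_distrib]
  apply Finset.sum_congr rfl
  intro i _
  ring

theorem symp_bil (F : Type*) [Field F] (m : ℕ) : Cfsg.Geo.IsBilinearForm (Cfsg.sympForm m F) := by
  refine ⟨?_, ?_, ?_, ?_⟩
  · intro x y v
    unfold Cfsg.sympForm
    rw [add_dotProduct]
  · intro c x v
    unfold Cfsg.sympForm
    rw [smul_dotProduct, smul_eq_mul]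
  · intro v x y
    unfold Cfsg.sympForm
    rw [Matrix.mulVec_add, dotProduct_add]
  · intro c v x
    unfold Cfsg.sympForm
    rw [Matrix.mulVec_smul, dotProduct_smul, smul_eq_mul]

/-- The symplectic transvection `x ↦ x + a f(x, z) z`. -/
noncomputable def sT (z : Fin m ⊕ Fin m → F) (a : F) : GL (Fin m ⊕ Fin m) F :=
  ruG z (a • Lf (symp_bil F m) z) (by
    rw [LinearMap.smul_apply, Lf_apply, symp_self, smul_zero, add_zero]
    exact one_ne_zero)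

theorem sT_apply (z : Fin m ⊕ Fin m → F) (a : F) (x : Fin m ⊕ Fin m → F) :
    ((sT z a : GL (Fin m ⊕ Fin m) F) : Matrix (Fin m ⊕ Fin m) (Fin m ⊕ Fin m) F) *ᵥ x
      = x + (a * Cfsg.sympForm m F x z) • z := by
  unfold sT
  rw [ruG_mulVec]
  rfl

theorem sT_mem (z : Fin m ⊕ Fin m → F) (a : F) : sT z a ∈ Cfsg.spGL m F := by
  have hB := symp_bil F m
  show ∀ u v, Cfsg.sympForm m F
      (((sT z a : GL (Fin m ⊕ Fin m) F) : Matrix (Fin m ⊕ Fin m) (Fin m ⊕ Fin m) F) *ᵥ u)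
      (((sT z a : GL (Fin m ⊕ Fin m) F) : Matrix (Fin m ⊕ Fin m) (Fin m ⊕ Fin m) F) *ᵥ v)
      = Cfsg.sympForm m F u v
  intro u v
  rw [sT_apply, sT_apply]
  simp only [hB.add_left, hB.add_right, hB.smul_left, hB.smul_right, symp_self]
  rw [symp_skew z v]
  ring

theorem sT_inv (z : Fin m ⊕ Fin m → F) (a : F) (x : Fin m ⊕ Fin m → F) :
    ((sT z (-a) : GL (Fin m ⊕ Fin m) F) : Matrix (Fin m ⊕ Fin m) (Fin m ⊕ Fin m) F) *ᵥ
      (((sT z a : GL (Fin m ⊕ Fin m) F) : Matrix (Fin m ⊕ Fin m) (Fin m ⊕ Fin m) F) *ᵥ x) = x := by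
  have hB := symp_bil F m
  rw [sT_apply, sT_apply]
  simp only [hB.add_left, hB.smul_left, symp_self, mul_zero, add_zero]
  rw [add_assoc, ← add_smul]
  have : a * Cfsg.sympForm m F x z + -a * Cfsg.sympForm m F x z = 0 := by ring
  rw [this, zero_smul, add_zero]

end Symp


/-- Over the field with 3 elements and for m ≥ 7, suppose the standard alternating form on F^(2m) is similar, through P and e, to the tensor product of a non-degenerate symplectic form f₁ on F^(n₁) and a non-degenerate symmetric bilinear form f₂ on F^3. Then the elements of Sp_2m(3) in the stabiliser of this tensor decomposition form a subgroup that is not maximal: some subgroup lies strictly between it and Sp_2m(3). -/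
theorem result {F : Type*} [Field F] [Fintype F] (m : ℕ) (hm : 7 ≤ m) (hq : Fintype.card F = 3) (n₁ : ℕ) (e : (Fin m ⊕ Fin m) ≃ Fin n₁ × Fin 3) (P : Matrix.GeneralLinearGroup (Fin m ⊕ Fin m) F) (f₁ : (Fin n₁ → F) → (Fin n₁ → F) → F) (f₂ : (Fin 3 → F) → (Fin 3 → F) → F) (hf₁ : Cfsg.Geo.IsSymplecticForm f₁) (hf₂ : Cfsg.Geo.IsSymmetricForm f₂) (hT : Cfsg.Geo.IsTensorFormStructure id (Cfsg.sympForm m F) f₁ f₂ e P) : ∃ K : Subgroup (Matrix.GeneralLinearGroup (Fin m ⊕ Fin m) F), Cfsg.Geo.tensorProductSubgroup n₁ 3 e P ⊓ Cfsg.spGL m F < K ∧ K < Cfsg.spGL m F := by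
  classical
  have h3 := f3 hq
  have hb1 := hf₁.bilinear
  have hb2 := hf₂.bilinear
  obtain ⟨c, hc0, hc⟩ := hT
  obtain ⟨ε, bb, hε, hbb, hcls⟩ := frame3 h3 hf₂
  have hcard : 2 * m = n₁ * 3 := by
    have := Fintype.card_congr e
    simp only [Fintype.card_sum, Fintype.card_fin, Fintype.card_prod] at this
    omega
  have hn1 : 0 < n₁ := by omega
  obtain ⟨x₀, hx₀⟩ : ∃ x₀ : Fin n₁ → F, x₀ ≠ 0 := ⟨Pi.single ⟨0, hn1⟩ 1, by
    intro h
    have := congrFun h ⟨0, hn1⟩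
    simp at this⟩
  obtain ⟨⟨y₀, hy₀⟩, -⟩ := hf₁.nondegenerate x₀ hx₀
  have hform : ∀ (x₁ y₁ : Fin n₁ → F) (x₂ y₂ : Fin 3 → F),
      Cfsg.sympForm m F (Phi e P (pt x₁ x₂)) (Phi e P (pt y₁ y₂))
        = c * (f₁ x₁ y₁ * f₂ x₂ y₂) := by
    intro x₁ y₁ x₂ y₂
    have := hc (pt x₁ x₂) (pt y₁ y₂)
    rw [gram_pure id (fun _ _ => rfl), ← bil_eq_gram hb1, ← bil_eq_gram hb2] at this
    exact this
  have hb00 : f₂ (bb 0) (bb 0) = ε := by simpa using hbb 0 0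
  have hb11 : f₂ (bb 1) (bb 1) = ε := by simpa using hbb 1 1
  have hb01 : f₂ (bb 0) (bb 1) = 0 := by simpa using hbb 0 1
  have hb10 : f₂ (bb 1) (bb 0) = 0 := by simpa using hbb 1 0
  obtain ⟨S, hS⟩ : ∃ S : Set (Fin m ⊕ Fin m → F), S = {v | ∃ (i : Fin 3) (u : Fin n₁ → F),
      v = Phi e P (pt u (bb i))} := ⟨_, rfl⟩
  have hSmem : ∀ v, v ∈ S ↔ ∃ (i : Fin 3) (u : Fin n₁ → F), v = Phi e P (pt u (bb i)) := by
    intro v; rw [hS]; rfl
  -- step 1
  have hstep1 : Cfsg.Geo.tensorProductSubgroup n₁ 3 e P ⊓ Cfsg.spGL m F ≤ Kset S := by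
    apply le_Kset
    rintro g ⟨hgT, hgU⟩ v hv
    obtain ⟨a, b, hab⟩ := tensor_act e P g hgT
    have hU : ∀ u v, Cfsg.sympForm m F
        ((g : Matrix (Fin m ⊕ Fin m) (Fin m ⊕ Fin m) F) *ᵥ u)
        ((g : Matrix (Fin m ⊕ Fin m) (Fin m ⊕ Fin m) F) *ᵥ v) = Cfsg.sympForm m F u v := hgU
    have hsim : ∀ (x₁ y₁ : Fin n₁ → F) (x₂ y₂ : Fin 3 → F),
        f₁ ((a : Matrix (Fin n₁) (Fin n₁) F) *ᵥ x₁) ((a : Matrix (Fin n₁) (Fin n₁) F) *ᵥ y₁)
          * f₂ ((b : Matrix (Fin 3) (Fin 3) F) *ᵥ x₂) ((b : Matrix (Fin 3) (Fin 3) F) *ᵥ y₂)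
          = f₁ x₁ y₁ * f₂ x₂ y₂ := by
      intro x₁ y₁ x₂ y₂
      have h1 := hU (Phi e P (pt x₁ x₂)) (Phi e P (pt y₁ y₂))
      rw [hab, hab, hform, hform] at h1
      exact mul_left_cancel₀ hc0 h1
    have hκ : f₁ ((a : Matrix (Fin n₁) (Fin n₁) F) *ᵥ y₀)
        ((a : Matrix (Fin n₁) (Fin n₁) F) *ᵥ x₀) ≠ 0 := by
      intro h0
      have h1 := hsim y₀ x₀ (bb 0) (bb 0)
      rw [h0, zero_mul, hb00] at h1
      exact (mul_ne_zero hy₀ hε) h1.symm
    have hlam : ∀ u v, f₂ ((b : Matrix (Fin 3) (Fin 3) F) *ᵥ u) ((b : Matrix (Fin 3) (Fin 3) F) *ᵥ v)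
        = (f₁ y₀ x₀ / f₁ ((a : Matrix (Fin n₁) (Fin n₁) F) *ᵥ y₀)
            ((a : Matrix (Fin n₁) (Fin n₁) F) *ᵥ x₀)) * f₂ u v := by
      intro u v
      have h1 := hsim y₀ x₀ u v
      rw [div_mul_eq_mul_div, eq_div_iff hκ]
      linear_combination h1
    have hone := sim_one h3 hf₂ b _ (div_ne_zero hy₀ hκ) hlam
    rw [hone] at hlam
    have himg : ∀ (i : Fin 3), ∃ (j : Fin 3) (d : F),
        (b : Matrix (Fin 3) (Fin 3) F) *ᵥ (bb i) = d • bb j := by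
      intro i
      apply hcls
      rw [hlam, one_mul]
      simpa using hbb i i
    rw [hSmem] at hv
    obtain ⟨i, u, rfl⟩ := hv
    obtain ⟨j, d, hd⟩ := himg i
    rw [hab, hd, hSmem]
    exact ⟨j, d • ((a : Matrix (Fin n₁) (Fin n₁) F) *ᵥ u), by rw [pt_smul_right, pt_smul_left]⟩
  -- step 2
  have hTz : sT (Phi e P (pt x₀ (bb 0))) 1 ∈ Kset S := by
    have hfwd : ∀ (a : F), ∀ v ∈ S, ((sT (Phi e P (pt x₀ (bb 0))) a : GL (Fin m ⊕ Fin m) F) :
        Matrix (Fin m ⊕ Fin m) (Fin m ⊕ Fin m) F) *ᵥ v ∈ S := by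
      intro a v hv
      rw [hSmem] at hv
      obtain ⟨i, u, rfl⟩ := hv
      rw [sT_apply, hform, hbb, hSmem]
      by_cases hi : i = 0
      · refine ⟨0, u + (a * (c * (f₁ u x₀ * ε))) • x₀, ?_⟩
        rw [hi, if_pos rfl, pt_add_left, pt_smul_left, Phi_add, Phi_smul]
      · refine ⟨i, u, ?_⟩
        rw [if_neg hi, mul_zero, mul_zero, mul_zero, zero_smul, add_zero]
    exact mem_Kset_of_pair S _ (sT (Phi e P (pt x₀ (bb 0))) (-1))
      (fun v => sT_inv (Phi e P (pt x₀ (bb 0))) 1 v) (hfwd 1) (hfwd (-1))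
  -- step 3
  have hTz' : sT (Phi e P (pt x₀ (bb 0 + bb 1))) 1 ∉ Kset S := by
    intro hmem
    rw [mem_Kset] at hmem
    have h1 := (hmem (Phi e P (pt y₀ (bb 0)))).mpr ((hSmem _).mpr ⟨0, y₀, rfl⟩)
    rw [sT_apply, hform, hb2.add_right, hb00, hb01, hSmem] at h1
    obtain ⟨c', hc'⟩ : ∃ c' : F, c' = 1 * (c * (f₁ y₀ x₀ * (ε + 0))) := ⟨_, rfl⟩
    rw [← hc'] at h1
    have hc'0 : c' ≠ 0 := by
      rw [hc', one_mul, add_zero]
      exact mul_ne_zero hc0 (mul_ne_zero hy₀ hε)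
    obtain ⟨j, u', hu'⟩ := h1
    have hfun : pt y₀ (bb 0) + c' • pt x₀ (bb 0 + bb 1) = pt u' (bb j) := by
      apply Phi_inj e P
      rw [Phi_add, Phi_smul]
      exact hu'
    have hrow : ∀ k, y₀ k • bb 0 + (c' * x₀ k) • (bb 0 + bb 1) = u' k • bb j := by
      intro k
      funext l
      have := congrFun hfun (k, l)
      simp only [pt, Pi.add_apply, Pi.smul_apply, smul_eq_mul] at this ⊢
      linear_combination this
    by_cases hj : j = 1
    · have hy : y₀ = (-c') • x₀ := by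
        funext k
        have := congrArg (fun v => f₂ v (bb 0)) (hrow k)
        simp only [hb2.add_left, hb2.smul_left, hb00, hb10, hj] at this
        simp only [Pi.smul_apply, smul_eq_mul]
        have h2 : ε * (y₀ k + c' * x₀ k) = 0 := by linear_combination this
        have h3' := (mul_eq_zero.mp h2).resolve_left hε
        linear_combination h3'
      apply hy₀
      rw [hy, hb1.smul_left, hf₁.alternating, mul_zero]
    · apply hx₀
      funext k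
      have := congrArg (fun v => f₂ v (bb 1)) (hrow k)
      simp only [hb2.add_left, hb2.smul_left, hb01, hb11, hbb j 1, if_neg hj] at this
      have h2 : (c' * ε) * x₀ k = 0 := by linear_combination this
      exact (mul_eq_zero.mp h2).resolve_left (mul_ne_zero hc'0 hε)
  -- step 4
  have hTzn : sT (Phi e P (pt x₀ (bb 0))) 1 ∉ Cfsg.Geo.tensorProductSubgroup n₁ 3 e P := by
    intro hmem
    obtain ⟨a, b, hab⟩ := tensor_act e P _ hmem
    have hfun : ∀ (x₁ : Fin n₁ → F) (x₂ : Fin 3 → F),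
        pt x₁ x₂ + (1 * (c * (f₁ x₁ x₀ * f₂ x₂ (bb 0)))) • pt x₀ (bb 0)
          = pt ((a : Matrix (Fin n₁) (Fin n₁) F) *ᵥ x₁) ((b : Matrix (Fin 3) (Fin 3) F) *ᵥ x₂) := by
      intro x₁ x₂
      apply Phi_inj e P
      rw [Phi_add, Phi_smul]
      have h1 := hab x₁ x₂
      rw [sT_apply, hform] at h1
      exact h1
    obtain ⟨i₀, hi₀⟩ : ∃ i, x₀ i ≠ 0 := by
      by_contra hcon
      push Not at hcon
      exact hx₀ (funext hcon)
    obtain ⟨j₀, hj₀⟩ : ∃ j, bb 0 j ≠ 0 := by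
      by_contra hcon
      push Not at hcon
      have : bb 0 = 0 := funext hcon
      rw [this, bil_zero_left hb2] at hb00
      exact hε hb00.symm
    obtain ⟨j₁, hj₁⟩ : ∃ j, bb 1 j ≠ 0 := by
      by_contra hcon
      push Not at hcon
      have : bb 1 = 0 := funext hcon
      rw [this, bil_zero_left hb2] at hb11
      exact hε hb11.symm
    have e1 : ∀ (x₁ : Fin n₁ → F) (i : Fin n₁) (j : Fin 3), x₁ i * bb 1 j
        = ((a : Matrix (Fin n₁) (Fin n₁) F) *ᵥ x₁) i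
          * ((b : Matrix (Fin 3) (Fin 3) F) *ᵥ (bb 1)) j := by
      intro x₁ i j
      have := congrFun (hfun x₁ (bb 1)) (i, j)
      simp only [hb10, mul_zero, zero_smul, add_zero] at this
      exact this
    have e2 : ∀ (x₁ : Fin n₁ → F) (i : Fin n₁) (j : Fin 3),
        x₁ i * bb 0 j + c * (f₁ x₁ x₀ * ε) * (x₀ i * bb 0 j)
          = ((a : Matrix (Fin n₁) (Fin n₁) F) *ᵥ x₁) i
            * ((b : Matrix (Fin 3) (Fin 3) F) *ᵥ (bb 0)) j := by
      intro x₁ i j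
      have := congrFun (hfun x₁ (bb 0)) (i, j)
      rw [hb00, one_mul] at this
      exact this
    have k1 := e1 x₀ i₀ j₁
    have k2 := e2 x₀ i₀ j₀
    rw [hf₁.alternating] at k2
    have k3 := e1 y₀ i₀ j₁
    have k4 := e2 y₀ i₀ j₀
    have hk5 : bb 1 j₁ * ((b : Matrix (Fin 3) (Fin 3) F) *ᵥ (bb 0)) j₀
        = bb 0 j₀ * ((b : Matrix (Fin 3) (Fin 3) F) *ᵥ (bb 1)) j₁ := by
      apply mul_left_cancel₀ hi₀
      linear_combination ((b : Matrix (Fin 3) (Fin 3) F) *ᵥ (bb 0)) j₀ * k1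
        - ((b : Matrix (Fin 3) (Fin 3) F) *ᵥ (bb 1)) j₁ * k2
    have hk6 : c * (f₁ y₀ x₀ * ε) * (x₀ i₀ * bb 0 j₀)
        * ((b : Matrix (Fin 3) (Fin 3) F) *ᵥ (bb 1)) j₁ = 0 := by
      linear_combination ((b : Matrix (Fin 3) (Fin 3) F) *ᵥ (bb 1)) j₁ * k4
        - ((b : Matrix (Fin 3) (Fin 3) F) *ᵥ (bb 0)) j₀ * k3 + y₀ i₀ * hk5
    have hβ : ((b : Matrix (Fin 3) (Fin 3) F) *ᵥ (bb 1)) j₁ = 0 :=
      (mul_eq_zero.mp hk6).resolve_left
        (mul_ne_zero (mul_ne_zero hc0 (mul_ne_zero hy₀ hε)) (mul_ne_zero hi₀ hj₀))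
    rw [hβ, mul_zero] at k1
    exact mul_ne_zero hi₀ hj₁ k1
  refine ⟨Kset S ⊓ Cfsg.spGL m F, ?_, ?_⟩
  · rw [SetLike.lt_iff_le_and_exists]
    refine ⟨?_, sT (Phi e P (pt x₀ (bb 0))) 1, ⟨hTz, sT_mem _ _⟩, ?_⟩
    · rintro g ⟨hgT, hgU⟩
      exact ⟨hstep1 ⟨hgT, hgU⟩, hgU⟩
    · rintro ⟨hgT, -⟩
      exact hTzn hgT
  · rw [SetLike.lt_iff_le_and_exists]
    refine ⟨inf_le_right, sT (Phi e P (pt x₀ (bb 0 + bb 1))) 1, sT_mem _ _, ?_⟩
    rintro ⟨hK, -⟩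
    exact hTz' hK

end Cfsg.Agent.S5667
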