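import Cfsg.Statements.S5671
import Mathlib
import Cfsg.Agent.S5656

set_option autoImplicit false
open Cfsg

namespace Cfsg.Agent.S5671

open Matrix
open scoped Kronecker
open Cfsg.Agent.S5635 Cfsg.Agent.S5656

section UFsec
variable {F : Type*} [Field F] {ι : Type} [Fintype ι] [DecidableEq ι]

/-- Derived properties of a unitary form for `x ↦ x ^ 2` over the field with four elements. -/
structure UF (f : (ι → F) → (ι → F) → F) : Prop where
  add_left : ∀ x y v, f (x + y) v = f x v + f y v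
  smul_left : ∀ (c : F) (x v : ι → F), f (c • x) v = c * f x v
  add_right : ∀ x y v, f v (x + y) = f v x + f v y
  smul_right : ∀ (c : F) (x v : ι → F), f v (c • x) = c ^ 2 * f v x
  symm : ∀ v w, f v w = (f w v) ^ 2
  nondeg : Cfsg.Geo.IsNondegenerateForm f

theorem uf_of (h4 : F4 F) (f : (ι → F) → (ι → F) → F) (hf : Cfsg.Geo.IsUnitaryFormPow 2 f) :
    UF f := by
  refine ⟨hf.add_left, hf.smul_left, ?_, ?_, hf.herm, hf.nondegenerate⟩
  · intro x y v
    rw [hf.herm v (x + y), hf.add_left, hf.herm v x, hf.herm v y]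
    linear_combination (f x v * f y v) * h4.two
  · intro c x v
    rw [hf.herm v (c • x), hf.smul_left, hf.herm v x]
    ring

theorem UF.norm01 {f : (ι → F) → (ι → F) → F} (hf : UF f) (x : ι → F) :
    f x x = 0 ∨ f x x = 1 := by
  have h := hf.symm x x
  have h1 : f x x * (f x x - 1) = 0 := by linear_combination -h
  rcases mul_eq_zero.mp h1 with h2 | h2
  · exact Or.inl h2
  · exact Or.inr (sub_eq_zero.mp h2)

theorem UF.zero_left {f : (ι → F) → (ι → F) → F} (hf : UF f) (y : ι → F) : f 0 y = 0 := by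
  have := hf.smul_left 0 0 y
  simpa using this

theorem UF.exists_norm_one (h4 : F4 F) {f : (ι → F) → (ι → F) → F} (hf : UF f) (w : ι → F)
    (hw0 : w ≠ 0) : ∃ u, f u u = 1 := by
  by_contra hcon
  push Not at hcon
  have h0 : ∀ v, f v v = 0 := fun v => (hf.norm01 v).resolve_right (hcon v)
  obtain ⟨⟨x, hx⟩, -⟩ := hf.nondeg w hw0
  obtain ⟨ω, hω0, hω1⟩ := h4.omega
  have hv := h0 ((ω / f x w) • x + w)
  have e : ∀ a : F, f (a • x + w) (a • x + w)
      = a * (a ^ 2 * f x x) + a * f x w + (a ^ 2 * f w x + f w w) := by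
    intro a
    simp only [hf.add_left, hf.add_right, hf.smul_left, hf.smul_right]
  rw [e, h0 x, h0 w, hf.symm w x] at hv
  have hac : ω / f x w * f x w = ω := div_mul_cancel₀ ω hx
  have h1 : ω * (1 + ω) = 0 := by
    have h2 : ω / f x w * f x w + (ω / f x w * f x w) ^ 2 = 0 := by
      linear_combination hv
    rw [hac] at h2
    linear_combination h2
  rcases mul_eq_zero.mp h1 with h2 | h2
  · exact hω0 h2
  · apply hω1
    linear_combination h2 - h4.two

theorem UF.eq_gram (h4 : F4 F) {f : (ι → F) → (ι → F) → F} (hf : UF f) (x y : ι → F) :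
    f x y = Cfsg.Geo.formOfGram (fun a : F => a ^ 2) (Cfsg.Geo.gramMatrix f) x y := by
  have hL : ∀ (x y : ι → F), f x y = ∑ a, x a * f (Pi.single a 1) y := by
    intro x y
    let L : (ι → F) →ₗ[F] F :=
      { toFun := fun x => f x y
        map_add' := fun x x' => hf.add_left x x' y
        map_smul' := fun c x => by rw [hf.smul_left]; rfl }
    have h := LinearMap.pi_apply_eq_sum_univ L x
    have h2 : ∀ a : ι, (fun j => if a = j then (1 : F) else 0) = Pi.single a 1 := by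
      intro a; funext j; simp [Pi.single_apply, eq_comm]
    simp only [h2] at h
    exact h
  unfold Cfsg.Geo.formOfGram Cfsg.Geo.gramMatrix
  rw [hL x y]
  apply Finset.sum_congr rfl
  intro a _
  rw [hf.symm (Pi.single a 1) y, hL y (Pi.single a 1)]
  have h1 : (∑ b, y b * f (Pi.single b 1) (Pi.single a 1)) ^ 2
      = sqHom h4.two (∑ b, y b * f (Pi.single b 1) (Pi.single a 1)) := rfl
  rw [h1, map_sum, Finset.mul_sum]
  apply Finset.sum_congr rfl
  intro b _
  show x a * (y b * f (Pi.single b 1) (Pi.single a 1)) ^ 2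
    = x a * f (Pi.single a 1) (Pi.single b 1) * (y b) ^ 2
  rw [hf.symm (Pi.single a 1) (Pi.single b 1)]
  ring

end UFsec

section Frame
variable {F : Type*} [Field F]

theorem UF.frame (h4 : F4 F) {f : (Fin 2 → F) → (Fin 2 → F) → F} (hf : UF f) :
    ∃ u₀ u₁ : Fin 2 → F, f u₀ u₀ = 1 ∧ f u₁ u₁ = 1 ∧ f u₀ u₁ = 0 ∧ f u₁ u₀ = 0 ∧
      ∀ v, f v v ≠ 0 → ∃ c : F, v = c • u₀ ∨ v = c • u₁ := by
  obtain ⟨u₀, hu₀⟩ := hf.exists_norm_one h4 (Pi.single 0 1) (by
    intro h
    have := congrFun h 0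
    simp at this)
  have hu₀ne : u₀ ≠ 0 := by
    rintro rfl
    rw [hf.zero_left] at hu₀
    exact zero_ne_one hu₀
  have hne : Submodule.span F {u₀} ≠ ⊤ := by
    intro heq
    have h1 := finrank_span_singleton (K := F) hu₀ne
    rw [heq, finrank_top] at h1
    simp at h1
  obtain ⟨w, -, hwn⟩ := SetLike.exists_of_lt (lt_top_iff_ne_top.mpr hne)
  obtain ⟨u₁, hu₁⟩ : ∃ u₁, u₁ = w + f w u₀ • u₀ := ⟨_, rfl⟩
  have h10 : f u₁ u₀ = 0 := by
    rw [hu₁, hf.add_left, hf.smul_left, hu₀]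
    linear_combination (f w u₀) * h4.two
  have h01 : f u₀ u₁ = 0 := by
    rw [hf.symm u₀ u₁, h10]; ring
  have hu₁n : u₁ ∉ Submodule.span F {u₀} := by
    intro h
    apply hwn
    have : w = u₁ - f w u₀ • u₀ := by rw [hu₁]; abel
    rw [this]
    exact Submodule.sub_mem _ h (Submodule.smul_mem _ _ (Submodule.mem_span_singleton_self u₀))
  have hspan : ∀ v : Fin 2 → F, ∃ a b : F, v = a • u₀ + b • u₁ := by
    have hli : LinearIndependent F ![u₀, u₁] := by
      rw [LinearIndependent.pair_iff]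
      intro s t hst
      have ht : t = 0 := by
        by_contra ht
        apply hu₁n
        have h1 : t • u₁ = -(s • u₀) := by
          rw [eq_neg_iff_add_eq_zero, add_comm]; exact hst
        have h2 : u₁ = (-(t⁻¹ * s)) • u₀ := by
          calc u₁ = t⁻¹ • (t • u₁) := by rw [smul_smul, inv_mul_cancel₀ ht, one_smul]
            _ = (-(t⁻¹ * s)) • u₀ := by rw [h1, smul_neg, smul_smul, neg_smul]
        rw [h2]
        exact Submodule.smul_mem _ _ (Submodule.mem_span_singleton_self u₀)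
      refine ⟨?_, ht⟩
      rw [ht, zero_smul, add_zero] at hst
      exact (smul_eq_zero.mp hst).resolve_right hu₀ne
    have hfr2 : Module.finrank F (Submodule.span F (Set.range ![u₀, u₁])) = 2 := by
      rw [finrank_span_eq_card hli]; simp
    have heq : Submodule.span F (Set.range ![u₀, u₁]) = ⊤ := by
      apply Submodule.eq_top_of_finrank_eq
      rw [hfr2]; simp
    intro v
    have hv : v ∈ Submodule.span F (Set.range ![u₀, u₁]) := by rw [heq]; trivial
    have hr : Set.range ![u₀, u₁] = {u₀, u₁} := by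
      ext z
      constructor
      · rintro ⟨i, rfl⟩
        fin_cases i
        · simp
        · simp
      · rintro (rfl | rfl)
        · exact ⟨0, rfl⟩
        · exact ⟨1, rfl⟩
    rw [hr, Submodule.mem_span_pair] at hv
    obtain ⟨a, b, hab⟩ := hv
    exact ⟨a, b, hab.symm⟩
  have hu₁ne : u₁ ≠ 0 := by
    intro h
    apply hu₁n
    rw [h]; exact Submodule.zero_mem _
  have h11 : f u₁ u₁ = 1 := by
    obtain ⟨⟨x, hx⟩, -⟩ := hf.nondeg u₁ hu₁ne
    obtain ⟨a, b, rfl⟩ := hspan x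
    rw [hf.add_left, hf.smul_left, hf.smul_left, h01, mul_zero, zero_add] at hx
    rcases hf.norm01 u₁ with h | h
    · rw [h, mul_zero] at hx
      exact absurd rfl hx
    · exact h
  refine ⟨u₀, u₁, hu₀, h11, h01, h10, ?_⟩
  intro v hv
  obtain ⟨a, b, rfl⟩ := hspan v
  have e2 : f (a • u₀ + b • u₁) (a • u₀ + b • u₁) = a ^ 3 + b ^ 3 := by
    simp only [hf.add_left, hf.add_right, hf.smul_left, hf.smul_right, hu₀, h11, h01, h10]
    ring
  rw [e2] at hv
  rcases cube01 h4 a b hv with ⟨ha, hb⟩ | ⟨ha, hb⟩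
  · exact ⟨b, Or.inr (by rw [ha, zero_smul, zero_add])⟩
  · exact ⟨a, Or.inl (by rw [hb, zero_smul, add_zero])⟩

theorem UF.exists_isotropic (h4 : F4 F) {m : ℕ} (hm : 2 ≤ m)
    {f : (Fin m → F) → (Fin m → F) → F} (hf : UF f) :
    ∃ w : Fin m → F, w ≠ 0 ∧ f w w = 0 := by
  obtain ⟨v, hv⟩ : ∃ v : Fin m → F, v = Pi.single ⟨0, by omega⟩ 1 := ⟨_, rfl⟩
  have hv0 : v ≠ 0 := by
    intro h
    have := congrFun h ⟨0, by omega⟩
    rw [hv] at this
    simp at this
  rcases hf.norm01 v with h | h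
  · exact ⟨v, hv0, h⟩
  obtain ⟨x, hx⟩ : ∃ x : Fin m → F, x = Pi.single ⟨1, by omega⟩ 1 := ⟨_, rfl⟩
  obtain ⟨v', hv'⟩ : ∃ v', v' = x + f x v • v := ⟨_, rfl⟩
  have h1 : f v' v = 0 := by
    rw [hv', hf.add_left, hf.smul_left, h]
    linear_combination (f x v) * h4.two
  have hv'0 : v' ≠ 0 := by
    intro h0
    have := congrFun h0 ⟨1, by omega⟩
    rw [hv', hx, hv] at this
    simp [Fin.ext_iff] at this
  rcases hf.norm01 v' with h' | h'
  · exact ⟨v', hv'0, h'⟩
  refine ⟨v + v', ?_, ?_⟩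
  · intro h0
    have e : v' = v := by
      have : v' = -v := by rw [eq_neg_iff_add_eq_zero, add_comm]; exact h0
      rw [this]
      funext i
      simp only [Pi.neg_apply]
      linear_combination (-(v i)) * h4.two
    rw [e, h] at h1
    exact one_ne_zero h1
  · rw [hf.add_left, hf.add_right, hf.add_right, h, h', h1, hf.symm v v', h1]
    linear_combination h4.two

end Frame

section Kron
variable {F : Type*} [Field F] {n m : ℕ}

/-- pure tensors in Kronecker coordinates -/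
def pt (x₁ : Fin 2 → F) (x₂ : Fin m → F) : Fin 2 × Fin m → F := fun p => x₁ p.1 * x₂ p.2

theorem pt_smul (d : F) (x₁ : Fin 2 → F) (x₂ : Fin m → F) : pt (d • x₁) x₂ = pt x₁ (d • x₂) := by
  funext p
  simp only [pt, Pi.smul_apply, smul_eq_mul]
  ring

theorem pt_smul' (d : F) (x₁ : Fin 2 → F) (x₂ : Fin m → F) : pt x₁ (d • x₂) = d • pt x₁ x₂ := by
  funext p
  simp only [pt, Pi.smul_apply, smul_eq_mul]
  ring

theorem pt_add (x₁ : Fin 2 → F) (x₂ x₂' : Fin m → F) :
    pt x₁ (x₂ + x₂') = pt x₁ x₂ + pt x₁ x₂' := by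
  funext p
  simp only [pt, Pi.add_apply]
  ring

theorem gram_pure (G₁ : Matrix (Fin 2) (Fin 2) F) (G₂ : Matrix (Fin m) (Fin m) F)
    (x₁ y₁ : Fin 2 → F) (x₂ y₂ : Fin m → F) :
    Cfsg.Geo.formOfGram (fun a : F => a ^ 2) (G₁ ⊗ₖ G₂) (pt x₁ x₂) (pt y₁ y₂)
      = Cfsg.Geo.formOfGram (fun a : F => a ^ 2) G₁ x₁ y₁
        * Cfsg.Geo.formOfGram (fun a : F => a ^ 2) G₂ x₂ y₂ := by
  unfold Cfsg.Geo.formOfGram
  simp only [Fintype.sum_prod_type, Matrix.kroneckerMap_apply, pt]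
  rw [Finset.sum_mul_sum]
  apply Finset.sum_congr rfl
  intro a1 _
  apply Finset.sum_congr rfl
  intro a2 _
  rw [Finset.sum_mul_sum]
  apply Finset.sum_congr rfl
  intro b1 _
  apply Finset.sum_congr rfl
  intro b2 _
  ring

theorem kron_pt (a : Matrix (Fin 2) (Fin 2) F) (b : Matrix (Fin m) (Fin m) F)
    (x₁ : Fin 2 → F) (x₂ : Fin m → F) :
    (a ⊗ₖ b) *ᵥ (pt x₁ x₂) = pt (a *ᵥ x₁) (b *ᵥ x₂) := by
  funext p
  simp only [Matrix.mulVec, dotProduct, pt, Fintype.sum_prod_type, Matrix.kroneckerMap_apply]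
  rw [Finset.sum_mul_sum]
  apply Finset.sum_congr rfl
  intro i _
  apply Finset.sum_congr rfl
  intro j _
  ring

/-- Kronecker coordinates on `F^n`. -/
def Phi (e : Fin n ≃ Fin 2 × Fin m) (P : GL (Fin n) F) (x : Fin 2 × Fin m → F) : Fin n → F :=
  (P : Matrix (Fin n) (Fin n) F) *ᵥ (x ∘ e)

theorem Phi_add (e : Fin n ≃ Fin 2 × Fin m) (P : GL (Fin n) F) (x y : Fin 2 × Fin m → F) :
    Phi e P (x + y) = Phi e P x + Phi e P y := by
  unfold Phi
  rw [← Matrix.mulVec_add]; rfl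

theorem Phi_smul (e : Fin n ≃ Fin 2 × Fin m) (P : GL (Fin n) F) (c : F)
    (x : Fin 2 × Fin m → F) : Phi e P (c • x) = c • Phi e P x := by
  unfold Phi
  rw [← Matrix.mulVec_smul]; rfl

theorem Phi_inj (e : Fin n ≃ Fin 2 × Fin m) (P : GL (Fin n) F) :
    Function.Injective (Phi e P) := by
  intro x y h
  unfold Phi at h
  have h1 := congrArg (fun v => ((P⁻¹ : GL (Fin n) F) : Matrix (Fin n) (Fin n) F) *ᵥ v) h
  simp only [Matrix.mulVec_mulVec, ← Units.val_mul, inv_mul_cancel, Units.val_one,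
    Matrix.one_mulVec] at h1
  funext p
  have := congrFun h1 (e.symm p)
  simpa using this

theorem Phi_conj (e : Fin n ≃ Fin 2 × Fin m) (P : GL (Fin n) F) (k : GL (Fin 2 × Fin m) F)
    (x : Fin 2 × Fin m → F) :
    (((MulAut.conj P).toMonoidHom ((Cfsg.Geo.glReindex e.symm).toMonoidHom k) : GL (Fin n) F) :
        Matrix (Fin n) (Fin n) F) *ᵥ (Phi e P x)
      = Phi e P ((k : Matrix (Fin 2 × Fin m) (Fin 2 × Fin m) F) *ᵥ x) := by
  have h1 : (((Cfsg.Geo.glReindex e.symm).toMonoidHom k : GL (Fin n) F) :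
      Matrix (Fin n) (Fin n) F)
      = (k : Matrix (Fin 2 × Fin m) (Fin 2 × Fin m) F).submatrix e e := rfl
  have h2 : ((MulAut.conj P).toMonoidHom ((Cfsg.Geo.glReindex e.symm).toMonoidHom k) :
      GL (Fin n) F) = P * ((Cfsg.Geo.glReindex e.symm).toMonoidHom k) * P⁻¹ := rfl
  rw [h2]
  unfold Phi
  rw [Matrix.mulVec_mulVec, ← Units.val_mul, mul_assoc, mul_assoc, inv_mul_cancel, mul_one,
    Units.val_mul, ← Matrix.mulVec_mulVec, h1]
  congr 1
  funext i
  simp only [Matrix.mulVec, dotProduct, Matrix.submatrix_apply, Function.comp_apply]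
  exact (Equiv.sum_comp e (fun p => (k : Matrix (Fin 2 × Fin m) (Fin 2 × Fin m) F) (e i) p * x p))

/-- The subgroup of `GL` stabilising a set of vectors. -/
def Kset (S : Set (Fin n → F)) : Subgroup (GL (Fin n) F) where
  carrier := {g | ∀ v : Fin n → F, (g : Matrix (Fin n) (Fin n) F) *ᵥ v ∈ S ↔ v ∈ S}
  mul_mem' := by
    intro a b ha hb v
    rw [Units.val_mul, ← Matrix.mulVec_mulVec, ha, hb]
  one_mem' := by
    intro v
    simp
  inv_mem' := by
    intro a ha v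
    have := ha (((a⁻¹ : GL (Fin n) F) : Matrix (Fin n) (Fin n) F) *ᵥ v)
    rw [Matrix.mulVec_mulVec, ← Units.val_mul, mul_inv_cancel, Units.val_one,
      Matrix.one_mulVec] at this
    exact this.symm

theorem mem_Kset (S : Set (Fin n → F)) (g : GL (Fin n) F) :
    g ∈ Kset S ↔ ∀ v : Fin n → F, (g : Matrix (Fin n) (Fin n) F) *ᵥ v ∈ S ↔ v ∈ S := Iff.rfl

/-- A subgroup mapping `S` into itself lies in `Kset S`. -/
theorem le_Kset (S : Set (Fin n → F)) (H : Subgroup (GL (Fin n) F))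
    (h : ∀ g ∈ H, ∀ v ∈ S, (g : Matrix (Fin n) (Fin n) F) *ᵥ v ∈ S) : H ≤ Kset S := by
  intro g hg
  rw [mem_Kset]
  intro v
  constructor
  · intro hv
    have := h g⁻¹ (H.inv_mem hg) _ hv
    rwa [Matrix.mulVec_mulVec, ← Units.val_mul, inv_mul_cancel, Units.val_one,
      Matrix.one_mulVec] at this
  · exact h g hg v

end Kron


/-- Let F be the field with 4 elements (q = 2) and n = 2 n₂ ≥ 13. Suppose the standard unitary form Σ u_i v_i² on F^n is similar, through P and e, to the tensor product of non-degenerate unitary forms f₁ on F^2 and f₂ on F^(n₂). Then the elements of SU_n(2) in the stabiliser of this tensor decomposition form a subgroup that is not maximal: some subgroup lies strictly between it and SU_n(2). -/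
theorem result {F : Type*} [Field F] [Fintype F] (n : ℕ) (hF : Fintype.card F = 4) (hn : 13 ≤ n) (n₂ : ℕ) (e : Fin n ≃ Fin 2 × Fin n₂) (P : Matrix.GeneralLinearGroup (Fin n) F) (f₁ : (Fin 2 → F) → (Fin 2 → F) → F) (f₂ : (Fin n₂ → F) → (Fin n₂ → F) → F) (hf₁ : Cfsg.Geo.IsUnitaryFormPow 2 f₁) (hf₂ : Cfsg.Geo.IsUnitaryFormPow 2 f₂) (hT : Cfsg.Geo.IsTensorFormStructure (fun x : F => x ^ 2) (Cfsg.hermForm n F 2) f₁ f₂ e P) : ∃ K : Subgroup (Matrix.GeneralLinearGroup (Fin n) F), Cfsg.Geo.tensorProductSubgroup 2 n₂ e P ⊓ (Cfsg.GU n F 2 ⊓ Cfsg.Geo.specialLinear (Fin n) F) < K ∧ K < (Cfsg.GU n F 2 ⊓ Cfsg.Geo.specialLinear (Fin n) F) := by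
  classical
  have h4 := f4 hF
  have hf1 := uf_of h4 f₁ hf₁
  have hf2 := uf_of h4 f₂ hf₂
  have hcard : n = 2 * n₂ := by
    have := Fintype.card_congr e
    simpa using this
  have hn2 : 2 ≤ n₂ := by omega
  obtain ⟨c, hc0, hc⟩ := hT
  obtain ⟨a₀, a₁, h00, h11, h01, h10, hcls⟩ := hf1.frame h4
  obtain ⟨w, hw0, hww⟩ := hf2.exists_isotropic h4 hn2
  obtain ⟨⟨u₀, hu₀⟩, -⟩ := hf2.nondeg w hw0
  have hform : ∀ (x₁ y₁ : Fin 2 → F) (x₂ y₂ : Fin n₂ → F),
      Cfsg.hermForm n F 2 (Phi e P (pt x₁ x₂)) (Phi e P (pt y₁ y₂))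
        = c * (f₁ x₁ y₁ * f₂ x₂ y₂) := by
    intro x₁ y₁ x₂ y₂
    have := hc (pt x₁ x₂) (pt y₁ y₂)
    rw [gram_pure, ← hf1.eq_gram h4, ← hf2.eq_gram h4] at this
    exact this
  obtain ⟨S, hS⟩ : ∃ S : Set (Fin n → F), S = {v | ∃ u : Fin n₂ → F,
      v = Phi e P (pt a₀ u) ∨ v = Phi e P (pt a₁ u)} := ⟨_, rfl⟩
  have hSmem : ∀ v, v ∈ S ↔ ∃ u : Fin n₂ → F,
      v = Phi e P (pt a₀ u) ∨ v = Phi e P (pt a₁ u) := by
    intro v; rw [hS]; rfl
  have hz : Cfsg.hermForm n F 2 (Phi e P (pt a₁ w)) (Phi e P (pt a₁ w)) = 0 := by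
    rw [hform, hww]; ring
  have hz' : Cfsg.hermForm n F 2 (Phi e P (pt (a₀ + a₁) w)) (Phi e P (pt (a₀ + a₁) w)) = 0 := by
    rw [hform, hww]; ring
  -- step 1
  have hstep1 : Cfsg.Geo.tensorProductSubgroup 2 n₂ e P ⊓ Cfsg.GU n F 2 ≤ Kset S := by
    apply le_Kset
    rintro g ⟨hgT, hgU⟩ v hv
    obtain ⟨g1, hg1, rfl⟩ := Subgroup.mem_map.mp hgT
    obtain ⟨k, hk, rfl⟩ := Subgroup.mem_map.mp hg1
    obtain ⟨a, b, hab⟩ := hk
    have hU := (mem_GU_iff _).mp hgU
    have hsim : ∀ (x₁ y₁ : Fin 2 → F) (x₂ y₂ : Fin n₂ → F),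
        f₁ ((a : Matrix (Fin 2) (Fin 2) F) *ᵥ x₁) ((a : Matrix (Fin 2) (Fin 2) F) *ᵥ y₁)
          * f₂ ((b : Matrix (Fin n₂) (Fin n₂) F) *ᵥ x₂) ((b : Matrix (Fin n₂) (Fin n₂) F) *ᵥ y₂)
          = f₁ x₁ y₁ * f₂ x₂ y₂ := by
      intro x₁ y₁ x₂ y₂
      have h1 := hU (Phi e P (pt x₁ x₂)) (Phi e P (pt y₁ y₂))
      rw [Phi_conj, Phi_conj, hab, kron_pt, kron_pt, hform, hform] at h1
      exact mul_left_cancel₀ hc0 h1
    have hnon : ∀ x : Fin 2 → F, f₁ x x = 1 → ∃ d : F,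
        (a : Matrix (Fin 2) (Fin 2) F) *ᵥ x = d • a₀
          ∨ (a : Matrix (Fin 2) (Fin 2) F) *ᵥ x = d • a₁ := by
      intro x hx
      apply hcls
      intro h0
      have h1 := hsim x x u₀ w
      rw [h0, zero_mul, hx, one_mul] at h1
      exact hu₀ h1.symm
    have himg : ∀ (x : Fin 2 → F) (u : Fin n₂ → F), f₁ x x = 1 →
        (((MulAut.conj P).toMonoidHom ((Cfsg.Geo.glReindex e.symm).toMonoidHom k) :
          GL (Fin n) F) : Matrix (Fin n) (Fin n) F) *ᵥ Phi e P (pt x u) ∈ S := by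
      intro x u hx
      rw [Phi_conj, hab, kron_pt, hSmem]
      obtain ⟨d, hd | hd⟩ := hnon x hx
      · refine ⟨d • ((b : Matrix (Fin n₂) (Fin n₂) F) *ᵥ u), Or.inl ?_⟩
        rw [hd, pt_smul]
      · refine ⟨d • ((b : Matrix (Fin n₂) (Fin n₂) F) *ᵥ u), Or.inr ?_⟩
        rw [hd, pt_smul]
    rw [hSmem] at hv
    obtain ⟨u, rfl | rfl⟩ := hv
    · exact himg a₀ u h00
    · exact himg a₁ u h11
  -- step 2
  have hTz : T (Phi e P (pt a₁ w)) hz ∈ Kset S := by
    have hfwd : ∀ v ∈ S, ((T (Phi e P (pt a₁ w)) hz : GL (Fin n) F) :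
        Matrix (Fin n) (Fin n) F) *ᵥ v ∈ S := by
      intro v hv
      rw [hSmem] at hv
      obtain ⟨u, rfl | rfl⟩ := hv
      · rw [T_apply, hform, h01, hSmem]
        refine ⟨u, Or.inl ?_⟩
        rw [zero_mul, mul_zero, zero_smul, add_zero]
      · rw [T_apply, hform, h11, hSmem]
        refine ⟨u + (c * (1 * f₂ u w)) • w, Or.inr ?_⟩
        rw [pt_add, pt_smul', Phi_add, Phi_smul]
    rw [mem_Kset]
    intro v
    constructor
    · intro hv
      have := hfwd _ hv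
      rwa [T_invol h4] at this
    · exact hfwd v
  -- step 3
  have hTz' : T (Phi e P (pt (a₀ + a₁) w)) hz' ∉ Kset S := by
    intro hmem
    rw [mem_Kset] at hmem
    have h1 := (hmem (Phi e P (pt a₀ u₀))).mpr ((hSmem _).mpr ⟨u₀, Or.inl rfl⟩)
    rw [T_apply, hform, hf1.add_right, h00, h01, hSmem] at h1
    obtain ⟨c', hc'⟩ : ∃ c' : F, c' = c * ((1 + 0) * f₂ u₀ w) := ⟨_, rfl⟩
    rw [← hc'] at h1
    have hc'0 : c' ≠ 0 := by
      rw [hc']
      exact mul_ne_zero hc0 (mul_ne_zero (by simp) hu₀)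
    obtain ⟨u', hu' | hu'⟩ := h1
    · have hfun : pt a₀ u₀ + c' • pt (a₀ + a₁) w = pt a₀ u' := by
        apply Phi_inj e P
        rw [Phi_add, Phi_smul]
        exact hu'
      have hcol : ∀ l, u₀ l • a₀ + (c' * w l) • (a₀ + a₁) = u' l • a₀ := by
        intro l
        funext k
        have := congrFun hfun (k, l)
        simp only [pt, Pi.add_apply, Pi.smul_apply, smul_eq_mul] at this ⊢
        linear_combination this
      apply hw0
      funext l
      have := congrArg (fun v => f₁ v a₁) (hcol l)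
      simp only [hf1.add_left, hf1.smul_left, h01, h11] at this
      have h2 : c' * w l = 0 := by linear_combination this
      exact (mul_eq_zero.mp h2).resolve_left hc'0
    · have hfun : pt a₀ u₀ + c' • pt (a₀ + a₁) w = pt a₁ u' := by
        apply Phi_inj e P
        rw [Phi_add, Phi_smul]
        exact hu'
      have hcol : ∀ l, u₀ l • a₀ + (c' * w l) • (a₀ + a₁) = u' l • a₁ := by
        intro l
        funext k
        have := congrFun hfun (k, l)
        simp only [pt, Pi.add_apply, Pi.smul_apply, smul_eq_mul] at this ⊢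
        linear_combination this
      have hu0 : u₀ = (-c') • w := by
        funext l
        have := congrArg (fun v => f₁ v a₀) (hcol l)
        simp only [hf1.add_left, hf1.smul_left, h00, h10] at this
        simp only [Pi.smul_apply, smul_eq_mul]
        linear_combination this
      apply hu₀
      rw [hu0, hf2.smul_left, hww, mul_zero]
  -- step 4
  have hTzn : T (Phi e P (pt a₁ w)) hz ∉ Cfsg.Geo.tensorProductSubgroup 2 n₂ e P := by
    intro hmem
    obtain ⟨g1, hg1, hg1e⟩ := Subgroup.mem_map.mp hmem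
    obtain ⟨k, hk, rfl⟩ := Subgroup.mem_map.mp hg1
    obtain ⟨a, b, hab⟩ := hk
    have hact : ∀ (x : Fin 2 → F) (u : Fin n₂ → F),
        Phi e P (pt x u) + (c * (f₁ x a₁ * f₂ u w)) • Phi e P (pt a₁ w)
          = Phi e P (pt ((a : Matrix (Fin 2) (Fin 2) F) *ᵥ x)
              ((b : Matrix (Fin n₂) (Fin n₂) F) *ᵥ u)) := by
      intro x u
      have h1 := Phi_conj e P k (pt x u)
      rw [hg1e, T_apply, hform, hab, kron_pt] at h1
      exact h1
    have hfun : ∀ (x : Fin 2 → F) (u : Fin n₂ → F),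
        pt x u + (c * (f₁ x a₁ * f₂ u w)) • pt a₁ w
          = pt ((a : Matrix (Fin 2) (Fin 2) F) *ᵥ x) ((b : Matrix (Fin n₂) (Fin n₂) F) *ᵥ u) := by
      intro x u
      apply Phi_inj e P
      rw [Phi_add, Phi_smul]
      exact hact x u
    obtain ⟨i₀, hi₀⟩ : ∃ i, a₀ i ≠ 0 := by
      by_contra hcon
      push Not at hcon
      have : a₀ = 0 := funext hcon
      rw [this, hf1.zero_left] at h00
      exact zero_ne_one h00
    obtain ⟨i₁, hi₁⟩ : ∃ i, a₁ i ≠ 0 := by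
      by_contra hcon
      push Not at hcon
      have : a₁ = 0 := funext hcon
      rw [this, hf1.zero_left] at h11
      exact zero_ne_one h11
    obtain ⟨j₀, hj₀⟩ : ∃ j, w j ≠ 0 := by
      by_contra hcon
      push Not at hcon
      exact hw0 (funext hcon)
    have e1 : ∀ (u : Fin n₂ → F) (j : Fin n₂), a₀ i₀ * u j
        = ((a : Matrix (Fin 2) (Fin 2) F) *ᵥ a₀) i₀
          * ((b : Matrix (Fin n₂) (Fin n₂) F) *ᵥ u) j := by
      intro u j
      have := congrFun (hfun a₀ u) (i₀, j)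
      simp only [h01, zero_mul, mul_zero, zero_smul, add_zero] at this
      exact this
    have e2 : ∀ (u : Fin n₂ → F) (i : Fin 2) (j : Fin n₂),
        a₁ i * u j + c * (f₂ u w) * (a₁ i * w j)
          = ((a : Matrix (Fin 2) (Fin 2) F) *ᵥ a₁) i
            * ((b : Matrix (Fin n₂) (Fin n₂) F) *ᵥ u) j := by
      intro u i j
      have := congrFun (hfun a₁ u) (i, j)
      rw [h11, one_mul] at this
      exact this
    have hμ : ((a : Matrix (Fin 2) (Fin 2) F) *ᵥ a₀) i₀ ≠ 0 := by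
      intro h
      have := e1 w j₀
      rw [h, zero_mul] at this
      exact mul_ne_zero hi₀ hj₀ this
    have k1 := e1 w j₀
    have k2 := e2 w i₁ j₀
    rw [hww] at k2
    have k3 := e1 u₀ j₀
    have k4 := e2 u₀ i₁ j₀
    have hk5 : ((a : Matrix (Fin 2) (Fin 2) F) *ᵥ a₀) i₀ * a₁ i₁
        = ((a : Matrix (Fin 2) (Fin 2) F) *ᵥ a₁) i₁ * a₀ i₀ := by
      apply mul_right_cancel₀ hj₀
      linear_combination ((a : Matrix (Fin 2) (Fin 2) F) *ᵥ a₀) i₀ * k2
        - ((a : Matrix (Fin 2) (Fin 2) F) *ᵥ a₁) i₁ * k1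
    have hk6 : ((a : Matrix (Fin 2) (Fin 2) F) *ᵥ a₀) i₀ * (c * f₂ u₀ w * (a₁ i₁ * w j₀)) = 0 := by
      linear_combination ((a : Matrix (Fin 2) (Fin 2) F) *ᵥ a₀) i₀ * k4
        - ((a : Matrix (Fin 2) (Fin 2) F) *ᵥ a₁) i₁ * k3 - (u₀ j₀) * hk5
    exact (mul_ne_zero hμ (mul_ne_zero (mul_ne_zero hc0 hu₀) (mul_ne_zero hi₁ hj₀))) hk6
  refine ⟨Kset S ⊓ (Cfsg.GU n F 2 ⊓ Cfsg.Geo.specialLinear (Fin n) F), ?_, ?_⟩
  · rw [SetLike.lt_iff_le_and_exists]
    refine ⟨?_, T (Phi e P (pt a₁ w)) hz, ⟨hTz, T_gu h4 _ hz, T_sl _ hz⟩, ?_⟩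
    · rintro g ⟨hgT, hgU, hgS⟩
      exact ⟨hstep1 ⟨hgT, hgU⟩, hgU, hgS⟩
    · rintro ⟨hgT, -⟩
      exact hTzn hgT
  · rw [SetLike.lt_iff_le_and_exists]
    refine ⟨inf_le_right, T (Phi e P (pt (a₀ + a₁) w)) hz', ⟨T_gu h4 _ hz', T_sl _ hz'⟩, ?_⟩
    rintro ⟨hK, -⟩
    exact hTz' hK

end Cfsg.Agent.S5671
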