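import Cfsg.Statements.S5687
-- import your own Cfsg.Agent.* helpers here
import Cfsg.Agent.Lib.helper4.OrthForms
import Cfsg.Agent.Lib.helper4.OrthTSMax

set_option autoImplicit false
open Cfsg

open Cfsg.Agent.Lib.helper13 Cfsg.Agent.Lib.helper4

namespace Cfsg.Agent.S5687

/-- Let F be a finite field with q elements, n ≥ 13 even, Q a non-degenerate quadratic form on F^n of minus type (no subspace of dimension n/2 is totally singular), and Ω the commutator subgroup of the isometry group of Q, viewed inside GL_n(F). The elements of Ω stabilising a non-zero subspace on which Q vanishes form a maximal subgroup of Ω. -/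
theorem result {F : Type*} [Field F] [Fintype F] {n : ℕ} (hn : 13 ≤ n) (heven : Even n) (Q : (Fin n → F) → F) (hQ : Cfsg.Geo.IsNondegenerateQuadraticForm Q) (hminus : ¬ Cfsg.Geo.IsPlusTypeOn Q ⊤) (W : Submodule F (Fin n → F)) (hW0 : W ≠ ⊥) (hW : Cfsg.Geo.IsTotallySingularQuad Q W) : Cfsg.Geo.IsMaximalIn (Cfsg.Geo.omegaGL Q) (Cfsg.Geo.subspaceStabilizer W ⊓ Cfsg.Geo.omegaGL Q) := by
  classical
  obtain ⟨Q', rfl, hQ'⟩ := exists_qf_of_nondeg Q hQ
  refine ts_stab_max (by rw [Fintype.card_fin]; omega) Q' hQ' W hW0 hW ?_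
  intro h y hy hQy
  by_contra hyW
  apply hminus
  have hyW' : ∀ a ∈ W, QuadraticMap.polar (⇑Q') a y = 0 := (mem_orthSub Q' W y).mp hy
  have hTS : ∀ z ∈ W ⊔ Submodule.span F {y}, Q' z = 0 := by
    intro z hz
    obtain ⟨a, ha, b, hb, rfl⟩ := Submodule.mem_sup.mp hz
    obtain ⟨t, rfl⟩ := Submodule.mem_span_singleton.mp hb
    rw [Q_add, hW a ha, QuadraticMap.map_smul, hQy, QuadraticMap.polar_smul_right, hyW' a ha]
    simp
  have hlt : W < W ⊔ Submodule.span F {y} := by
    rw [SetLike.lt_iff_le_and_exists]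
    exact ⟨le_sup_left, y, Submodule.mem_sup_right (Submodule.mem_span_singleton_self y), hyW⟩
  have hfr1 := Submodule.finrank_lt_finrank_of_lt hlt
  have hfr3 : 2 * Module.finrank F ↥(W ⊔ Submodule.span F {y}) ≤ Fintype.card (Fin n) := by
    have h1 := Submodule.finrank_mono (ts_le_orthSub Q' _ hTS)
    rw [finrank_orthSub Q' hQ'] at h1
    omega
  refine ⟨W ⊔ Submodule.span F {y}, le_top, hTS, ?_⟩
  rw [finrank_top, Module.finrank_fintype_fun_eq_card]
  omega

end Cfsg.Agent.S5687
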