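import Cfsg.Statements.S5693
import Mathlib
import Cfsg.Agent.Lib.helper19.DecompPlus2
import Cfsg.Agent.Lib.helper19.DecompPlus3

set_option autoImplicit false
open Cfsg

namespace Cfsg.Agent.S5693

open Cfsg.Agent.Lib.helper19.DecompPlus


/-- Let F be a finite field with q elements, n ≥ 13 even, Q a non-degenerate quadratic form on F^n of plus type (some subspace of dimension n/2 is totally singular), and Ω the commutator subgroup of the isometry group of Q, viewed inside GL_n(F). Let D be a decomposition of F^n into t ≥ 2 pairwise orthogonal, pairwise Q-isometric subspaces of equal dimension k on which the polar form is non-degenerate (with, for even k, all members of plus type or t even; for odd k, q odd and square discriminant), in one of the cases: k = 2 with q = 3; k = 2 with plus-type members and q ∈ {2, 4, 5}; k = 3 with q = 3; k = 4 with plus-type members and q = 2. Then the elements of Ω permuting the members of D form a subgroup that is not maximal: some subgroup lies strictly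 between it and Ω. -/
theorem result {F : Type*} [Field F] [Fintype F] {n : ℕ} (hn : 13 ≤ n) (heven : Even n) (Q : (Fin n → F) → F) (hQ : Cfsg.Geo.IsNondegenerateQuadraticForm Q) (hplus : Cfsg.Geo.IsPlusTypeOn Q ⊤) {t : ℕ} (k : ℕ) (D : Fin t → Submodule F (Fin n → F)) (hD : Cfsg.Geo.IsOrthogonalMDecomposition Q k D) (hke : Even k → ((∀ i, Cfsg.Geo.IsPlusTypeOn Q (D i)) ∨ Even t)) (hko : Odd k → (Odd (Fintype.card F) ∧ Cfsg.Geo.HasSquareDiscriminant Q)) (hcase : ((k = 2 ∧ (Fintype.card F = 3 ∨ ((∀ i, Cfsg.Geo.IsPlusTypeOn Q (D i)) ∧ (Fintype.card F = 2 ∨ Fintype.card F = 4 ∨ Fintype.card F = 5)))) ∨ (k = 3 ∧ Fintype.card F = 3) ∨ (k = 4 ∧ Fintype.card F = 2 ∧ ∀ i, Cfsg.Geo.IsPlusTypeOn Q (D i)))) : ∃ K : Subgroup (Matrix.GeneralLinearGroup (Fin n) F), Cfsg.Geo.decompositionStabilizer D ⊓ Cfsg.Geo.omegaGL Q < K ∧ K < Cfsg.Geo.omegaGL Q := by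
  classical
  obtain ⟨Q', rfl, hQ'⟩ := Cfsg.Agent.Lib.helper4.exists_qf_of_nondeg Q hQ
  have hh : Fintype.card F ≠ 2 ∨ Fintype.card (Fin n) ≠ 4 :=
    Or.inr (by rw [Fintype.card_fin]; omega)
  have hMD := hD.decomp.decomp
  have htk : t * k = n := by
    have hint : DirectSum.IsInternal D :=
      DirectSum.isInternal_submodule_of_iSupIndep_of_iSup_eq_top hMD.indep hMD.iSup_eq_top
    have B := hint.collectedBasis
      (fun i => Module.finBasisOfFinrankEq F (D i) (hMD.finrank_eq i))
    have h1 := Module.finrank_eq_card_basis B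
    simp at h1
    exact h1.symm
  rcases hcase with ⟨rfl, h⟩ | ⟨rfl, hq⟩ | ⟨rfl, hq, hpl⟩
  · have ht3 : 3 ≤ t := by omega
    rcases h with hq | ⟨hpl, hq⟩
    · by_cases hp : ∀ i, ¬ Cfsg.Geo.IsPlusTypeOn ⇑Q' (D i)
      · exact Cfsg.Agent.Lib.helper4.decomp2_not_max hq Q' hQ' D hD hp
      · push Not at hp
        exact plus2_q3 hq hh Q' hQ' D hD (all_hyp Q' D hD hp)
    · have hyp := all_hyp Q' D hD ⟨⟨0, by omega⟩, hpl _⟩
      rcases hq with hq | hq | hq
      · exact plus2_q2 hq hh Q' hQ' D hD ht3 hyp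
      · exact plus2_q4 hq hh Q' hQ' D hD ht3 hyp
      · exact plus2_q5 hq hh Q' hQ' D hD hyp
  · exact Cfsg.Agent.Lib.helper4.decomp3_not_max hq Q' hQ' D hD
  · exact plus4_q2 hq hh Q' hQ' D hD (fun j => block4_basis hq Q' (D j) (hMD.finrank_eq j)
      (hD.decomp.nondegenerate j) (hpl j))

end Cfsg.Agent.S5693
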