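import Cfsg.Statements.S5705
import Mathlib
import Cfsg.Agent.Lib.helper19.TensorO3
import Cfsg.Agent.Lib.helper4.TensorF2

set_option autoImplicit false
open Cfsg

namespace Cfsg.Agent.S5705

open Matrix
open scoped Kronecker
open Cfsg.Agent.Lib.helper19.TensorNM Cfsg.Agent.Lib.helper4 Cfsg.Agent.Lib.helper13



/-- Let F be the field with 2 elements, n = 2 n₂ ≥ 13 even, Q a non-degenerate quadratic form on F^n of plus type and Ω the commutator subgroup of its isometry group. Suppose that, through P and e, the polar form of Q is similar to the tensor product of non-degenerate symplectic forms f₁ on F^2 and f₂ on F^(n₂), and Q vanishes on the images of all pure tensors. Then the elements of Ω in the stabiliser of this tensor decomposition form a subgroup that is not maximal: some subgroup lies strictly between it and Ω. -/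
theorem result {F : Type*} [Field F] [Fintype F] {n : ℕ} (hn : 13 ≤ n) (heven : Even n) (Q : (Fin n → F) → F) (hQ : Cfsg.Geo.IsNondegenerateQuadraticForm Q) (hplus : Cfsg.Geo.IsPlusTypeOn Q ⊤) (hq : Fintype.card F = 2) (n₂ : ℕ) (h2 : 2 < n₂) (e : (Fin n) ≃ Fin 2 × Fin n₂) (P : Matrix.GeneralLinearGroup (Fin n) F) (f₁ : (Fin 2 → F) → (Fin 2 → F) → F) (f₂ : (Fin n₂ → F) → (Fin n₂ → F) → F) (hf₁ : Cfsg.Geo.IsSymplecticForm f₁) (hf₂ : Cfsg.Geo.IsSymplecticForm f₂) (hT : Cfsg.Geo.IsTensorFormStructure id (QuadraticMap.polar Q) f₁ f₂ e P) (hpure : (∀ (x₁ : Fin 2 → F) (x₂ : Fin n₂ → F), Q (Matrix.mulVec (P : Matrix (Fin n) (Fin n) F) ((fun a : Fin 2 × Fin n₂ => x₁ a.1 * x₂ a.2) ∘ e)) = 0)) : ∃ K : Subgroup (Matrix.GeneralLinearGroup (Fin n) F), Cfsg.Geo.tensorProductSubgroup 2 n₂ e P ⊓ Cfsg.Geo.omegaGL Q < K ∧ K < Cfsg.Geo.omegaGL Q := by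
  classical
  have hU : Subsingleton Fˣ := by
    rw [← Fintype.card_le_one_iff_subsingleton, Fintype.card_units, hq]
  have h01 : ∀ x : F, x = 0 ∨ x = 1 := by
    intro x
    by_cases hx : x = 0
    · exact Or.inl hx
    · right
      have h1 : Units.mk0 x hx = 1 := Subsingleton.elim _ _
      exact congrArg Units.val h1
  have h2 : (1 : F) + 1 = 0 := by
    rcases h01 (1 + 1) with h | h
    · exact h
    · exfalso
      have h3 : (1 : F) = 0 := by linear_combination h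
      exact one_ne_zero h3
  have hne1 : ∀ x : F, x ≠ 0 → x = 1 := fun x hx => (h01 x).resolve_left hx
  have hdbl : ∀ v : Fin n → F, v + v = 0 := by
    intro v
    funext i
    simp only [Pi.add_apply, Pi.zero_apply]
    linear_combination (v i) * h2
  have hdbl2 : ∀ v : Fin n₂ → F, v + v = 0 := by
    intro v
    funext i
    simp only [Pi.add_apply, Pi.zero_apply]
    linear_combination (v i) * h2
  obtain ⟨Q', hQ'c, hQ'n⟩ := exists_qf_of_nondeg Q hQ
  subst hQ'c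
  have hι : Fintype.card F ≠ 2 ∨ Fintype.card (Fin n) ≠ 4 := Or.inr (by
    rw [Fintype.card_fin]; omega)
  have hb1 := hf₁.bilinear
  have hb2 := hf₂.bilinear
  obtain ⟨c, hc0, hc⟩ := hT
  have hc1 : c = 1 := hne1 c hc0
  obtain ⟨e₀, he₀⟩ : ∃ e₀ : Fin 2 → F, e₀ = Pi.single 0 1 := ⟨_, rfl⟩
  obtain ⟨e₁, he₁⟩ : ∃ e₁ : Fin 2 → F, e₁ = Pi.single 1 1 := ⟨_, rfl⟩
  have he00 : e₀ 0 = 1 := by rw [he₀]; simp
  have he01 : e₀ 1 = 0 := by rw [he₀]; simp
  have he10 : e₁ 0 = 0 := by rw [he₁]; simp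
  have he11 : e₁ 1 = 1 := by rw [he₁]; simp
  have hexp : ∀ x : Fin 2 → F, x = x 0 • e₀ + x 1 • e₁ := by
    intro x
    funext i
    fin_cases i
    · simp [he00, he10]
    · simp [he01, he11]
  have f00 : f₁ e₀ e₀ = 0 := hf₁.alternating e₀
  have f11 : f₁ e₁ e₁ = 0 := hf₁.alternating e₁
  have f10 : f₁ e₁ e₀ = 1 := by
    apply hne1
    intro h0
    have he0ne : e₀ ≠ 0 := by
      intro h
      have := congrFun h 0
      rw [he00] at this
      exact one_ne_zero this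
    obtain ⟨⟨x, hx⟩, -⟩ := hf₁.nondegenerate e₀ he0ne
    apply hx
    rw [hexp x, hb1.add_left, hb1.smul_left, hb1.smul_left, f00, h0]
    ring
  have f01 : f₁ e₀ e₁ = 1 := by
    rw [hf₁.skew, f10]
    linear_combination (-1 : F) * h2
  have hform : ∀ (x₁ y₁ : Fin 2 → F) (x₂ y₂ : Fin n₂ → F),
      QuadraticMap.polar (⇑Q') (Phi e P (pt x₁ x₂)) (Phi e P (pt y₁ y₂))
        = f₁ x₁ y₁ * f₂ x₂ y₂ := by
    intro x₁ y₁ x₂ y₂
    have := hc (pt x₁ x₂) (pt y₁ y₂)
    rw [gram_pure id (fun _ _ => rfl), ← bil_eq_gram hb1, ← bil_eq_gram hb2, hc1, one_mul] at this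
    exact this
  have hpure' : ∀ (x₁ : Fin 2 → F) (x₂ : Fin n₂ → F), Q' (Phi e P (pt x₁ x₂)) = 0 :=
    fun x₁ x₂ => hpure x₁ x₂
  -- two-row coordinates
  obtain ⟨Ψ, hΨ⟩ : ∃ Ψ : (Fin n₂ → F) → (Fin n₂ → F) → (Fin n → F),
      Ψ = fun a b => Phi e P (pt e₀ a) + Phi e P (pt e₁ b) := ⟨_, rfl⟩
  have hΨdef : ∀ a b, Ψ a b = Phi e P (pt e₀ a) + Phi e P (pt e₁ b) := by
    intro a b; rw [hΨ]
  have hΨadd : ∀ a b a' b', Ψ a b + Ψ a' b' = Ψ (a + a') (b + b') := by
    intro a b a' b'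
    rw [hΨdef, hΨdef, hΨdef, pt_add_right, pt_add_right, Phi_add, Phi_add]
    abel
  have hΨpure : ∀ (x₁ : Fin 2 → F) (x₂ : Fin n₂ → F),
      Phi e P (pt x₁ x₂) = Ψ (x₁ 0 • x₂) (x₁ 1 • x₂) := by
    intro x₁ x₂
    conv_lhs => rw [hexp x₁]
    rw [pt_add_left, pt_smul_left, pt_smul_left, Phi_add, Phi_smul, Phi_smul, hΨdef,
      pt_smul_right, pt_smul_right, Phi_smul, Phi_smul]
  have hΨe0 : ∀ a, Phi e P (pt e₀ a) = Ψ a 0 := by
    intro a
    rw [hΨpure, he00, he01, one_smul, zero_smul]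
  have hΨrep : ∀ x : Fin n → F, ∃ a b, x = Ψ a b := by
    intro x
    obtain ⟨xt, hxt⟩ : ∃ xt : Fin 2 × Fin n₂ → F, xt = fun p =>
        (((P⁻¹ : GL (Fin n) F) : Matrix (Fin n) (Fin n) F) *ᵥ x) (e.symm p) := ⟨_, rfl⟩
    have h1 : Phi e P xt = x := by
      unfold Phi
      have : xt ∘ e = ((P⁻¹ : GL (Fin n) F) : Matrix (Fin n) (Fin n) F) *ᵥ x := by
        funext i
        rw [hxt]
        simp
      rw [this, Matrix.mulVec_mulVec, ← Units.val_mul, mul_inv_cancel, Units.val_one,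
        Matrix.one_mulVec]
    have h2' : xt = pt e₀ (fun j => xt (0, j)) + pt e₁ (fun j => xt (1, j)) := by
      funext ⟨i, j⟩
      fin_cases i
      · simp [pt, he00, he10]
      · simp [pt, he01, he11]
    refine ⟨fun j => xt (0, j), fun j => xt (1, j), ?_⟩
    rw [hΨdef, ← Phi_add, ← h2', h1]
  have hΨpol : ∀ a b a' b', QuadraticMap.polar (⇑Q') (Ψ a b) (Ψ a' b') = f₂ a b' + f₂ b a' := by
    intro a b a' b'
    rw [hΨdef, hΨdef, QuadraticMap.polar_add_left, QuadraticMap.polar_add_right,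
      QuadraticMap.polar_add_right, hform, hform, hform, hform, f00, f11, f01, f10]
    ring
  have hΨQ : ∀ a b, Q' (Ψ a b) = f₂ a b := by
    intro a b
    rw [hΨdef, QuadraticMap.map_add Q', hpure', hpure', hform, f01]
    ring
  have hΨinj : ∀ a b a' b', Ψ a b = Ψ a' b' → a = a' ∧ b = b' := by
    intro a b a' b' h
    rw [hΨdef, hΨdef, ← Phi_add, ← Phi_add] at h
    have h1 := Phi_inj e P h
    constructor
    · funext j
      have := congrFun h1 (0, j)
      simpa [pt, he00, he10] using this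
    · funext j
      have := congrFun h1 (1, j)
      simpa [pt, he01, he11] using this
  -- the element of order three
  obtain ⟨ψ, hψ⟩ : ∃ ψ : GL (Fin 2 × Fin n₂) F →* GL (Fin n) F,
      ψ = (MulAut.conj P).toMonoidHom.comp (Cfsg.Geo.glReindex e.symm).toMonoidHom := ⟨_, rfl⟩
  have hψinj : Function.Injective ψ := by
    rw [hψ]
    exact (MulAut.conj P).injective.comp (Cfsg.Geo.glReindex e.symm).injective
  have hψsurj : Function.Surjective ψ := by
    rw [hψ]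
    exact (MulAut.conj P).surjective.comp (Cfsg.Geo.glReindex e.symm).surjective
  have hmap : ∀ N : Subgroup (GL (Fin 2 × Fin n₂) F),
      (N.map (Cfsg.Geo.glReindex e.symm).toMonoidHom).map (MulAut.conj P).toMonoidHom
        = N.map ψ := by
    intro N
    rw [hψ, Subgroup.map_map]
  obtain ⟨Z, hZ⟩ : ∃ Z : GL (Fin n) F, Z = ψ (zetaGL h2 n₂) := ⟨_, rfl⟩
  have om0 : om2 F *ᵥ e₀ = e₁ := by
    funext i
    fin_cases i
    · simp [om2, Matrix.mulVec, dotProduct, Fin.sum_univ_two, he00, he01, he10]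
    · simp [om2, Matrix.mulVec, dotProduct, Fin.sum_univ_two, he00, he01, he11]
  have om1 : om2 F *ᵥ e₁ = e₀ + e₁ := by
    funext i
    fin_cases i
    · simp [om2, Matrix.mulVec, dotProduct, Fin.sum_univ_two, he00, he10, he11]
    · simp [om2, Matrix.mulVec, dotProduct, Fin.sum_univ_two, he01, he10, he11]
  have hZpure : ∀ (x₁ : Fin 2 → F) (x₂ : Fin n₂ → F),
      (Z : Matrix (Fin n) (Fin n) F) *ᵥ Phi e P (pt x₁ x₂) = Phi e P (pt (om2 F *ᵥ x₁) x₂) := by
    intro x₁ x₂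
    have h1 := Phi_conj e P (zetaGL h2 n₂) (pt x₁ x₂)
    have h3 : ((zetaGL h2 n₂ : GL (Fin 2 × Fin n₂) F) : Matrix (Fin 2 × Fin n₂) (Fin 2 × Fin n₂) F)
        = om2 F ⊗ₖ (1 : Matrix (Fin n₂) (Fin n₂) F) := rfl
    rw [h3, kron_pt, Matrix.one_mulVec] at h1
    rw [hZ, hψ]
    exact h1
  have hZΨ : ∀ a b, (Z : Matrix (Fin n) (Fin n) F) *ᵥ Ψ a b = Ψ b (a + b) := by
    intro a b
    rw [hΨdef, Matrix.mulVec_add, hZpure, hZpure, om0, om1, pt_add_left, Phi_add, hΨdef,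
      pt_add_right, Phi_add]
    abel
  have hKmem : ∀ g : GL (Fin n) F, g ∈ (normZeta h2 n₂).map ψ ↔
      (g * Z * g⁻¹ = Z ∨ g * Z * g⁻¹ = Z⁻¹) := by
    intro g
    constructor
    · intro hg
      obtain ⟨k, hk, rfl⟩ := Subgroup.mem_map.mp hg
      have hk' : k * zetaGL h2 n₂ * k⁻¹ = zetaGL h2 n₂ ∨ k * zetaGL h2 n₂ * k⁻¹ = (zetaGL h2 n₂)⁻¹ := hk
      rcases hk' with hk' | hk'
      · left
        rw [hZ, ← map_inv, ← map_mul, ← map_mul, hk']
      · right
        rw [hZ, ← map_inv, ← map_mul, ← map_mul, hk', map_inv]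
    · intro hg
      obtain ⟨k, rfl⟩ := hψsurj g
      refine Subgroup.mem_map.mpr ⟨k, ?_, rfl⟩
      show k * zetaGL h2 n₂ * k⁻¹ = zetaGL h2 n₂ ∨ k * zetaGL h2 n₂ * k⁻¹ = (zetaGL h2 n₂)⁻¹
      rcases hg with hg | hg
      · left
        apply hψinj
        rw [map_mul, map_mul, map_inv, ← hZ]
        exact hg
      · right
        apply hψinj
        rw [map_mul, map_mul, map_inv, map_inv, ← hZ]
        exact hg
  have hcomm : ∀ g : GL (Fin n) F,
      (∀ x, (g : Matrix (Fin n) (Fin n) F) *ᵥ ((Z : Matrix (Fin n) (Fin n) F) *ᵥ x)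
        = (Z : Matrix (Fin n) (Fin n) F) *ᵥ ((g : Matrix (Fin n) (Fin n) F) *ᵥ x)) →
      g * Z * g⁻¹ = Z := by
    intro g h
    have h1 : g * Z = Z * g := by
      apply Units.ext
      rw [Units.val_mul, Units.val_mul]
      ext i j
      have := congrFun (h (Pi.single j 1)) i
      rw [Matrix.mulVec_mulVec, Matrix.mulVec_mulVec] at this
      simpa [Matrix.mulVec, dotProduct, Pi.single_apply] using this
    rw [h1, mul_inv_cancel_right]
  have hR : ∀ (z : Fin n → F), Q' z = 1 → ∀ x,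
      ((Rf Q' z : GL (Fin n) F) : Matrix (Fin n) (Fin n) F) *ᵥ x
        = x + QuadraticMap.polar (⇑Q') z x • z := by
    intro z hz x
    rw [Rf_apply Q' z (by rw [hz]; exact one_ne_zero), hz, inv_one, one_mul, sub_eq_add_neg]
    congr 1
    exact neg_eq_of_add_eq_zero_left (hdbl (QuadraticMap.polar (⇑Q') z x • z))
  -- vectors of the second factor
  have hn2pos : 0 < n₂ := by omega
  obtain ⟨u, hu⟩ : ∃ u : Fin n₂ → F, u ≠ 0 := ⟨Pi.single ⟨0, hn2pos⟩ 1, by
    intro h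
    have := congrFun h ⟨0, hn2pos⟩
    simp at this⟩
  obtain ⟨⟨u', hu'⟩, -⟩ := hf₂.nondegenerate u hu
  have g10 : f₂ u' u = 1 := hne1 _ hu'
  have g01 : f₂ u u' = 1 := by
    rw [hf₂.skew, g10]
    linear_combination (-1 : F) * h2
  have g00 : f₂ u u = 0 := hf₂.alternating u
  have g11 : f₂ u' u' = 0 := hf₂.alternating u'
  obtain ⟨w₀, hw₀⟩ : ∃ w₀ : Fin n₂ → F, w₀ ∉ Submodule.span F
      ((({u, u'} : Finset (Fin n₂ → F)) : Set (Fin n₂ → F))) := by
    by_contra hcon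
    push Not at hcon
    have htop : Submodule.span F ((({u, u'} : Finset (Fin n₂ → F)) : Set (Fin n₂ → F))) = ⊤ := by
      rw [eq_top_iff]
      intro x _
      exact hcon x
    have h1 : Module.finrank F (Submodule.span F
        ((({u, u'} : Finset (Fin n₂ → F)) : Set (Fin n₂ → F))))
        ≤ ({u, u'} : Finset (Fin n₂ → F)).card :=
      finrank_span_finset_le_card ({u, u'} : Finset (Fin n₂ → F))
    rw [htop, finrank_top, Module.finrank_fin_fun] at h1
    have h3 : ({u, u'} : Finset (Fin n₂ → F)).card ≤ 2 := Finset.card_le_two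
    omega
  obtain ⟨w, hw⟩ : ∃ w, w = w₀ + f₂ w₀ u' • u + f₂ w₀ u • u' := ⟨_, rfl⟩
  have hwu : f₂ w u = 0 := by
    rw [hw, hb2.add_left, hb2.add_left, hb2.smul_left, hb2.smul_left, g00, g10]
    linear_combination (f₂ w₀ u) * h2
  have hwu' : f₂ w u' = 0 := by
    rw [hw, hb2.add_left, hb2.add_left, hb2.smul_left, hb2.smul_left, g01, g11]
    linear_combination (f₂ w₀ u') * h2
  have huw : f₂ u w = 0 := by rw [hf₂.skew, hwu, neg_zero]
  have hu'w : f₂ u' w = 0 := by rw [hf₂.skew, hwu', neg_zero]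
  have hw0 : w ≠ 0 := by
    intro h0
    apply hw₀
    have : w₀ = -(f₂ w₀ u' • u + f₂ w₀ u • u') := by
      rw [eq_neg_iff_add_eq_zero, ← add_assoc, ← hw]
      exact h0
    rw [this]
    apply Submodule.neg_mem
    exact Submodule.add_mem _ (Submodule.smul_mem _ _ (Submodule.subset_span (by simp)))
      (Submodule.smul_mem _ _ (Submodule.subset_span (by simp)))
  -- the non-singular vectors
  obtain ⟨z, hz⟩ : ∃ z, z = Ψ u u' := ⟨_, rfl⟩
  obtain ⟨z₂, hz₂⟩ : ∃ z₂, z₂ = Ψ u' (u + u') := ⟨_, rfl⟩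
  obtain ⟨z₃, hz₃⟩ : ∃ z₃, z₃ = Ψ u' u := ⟨_, rfl⟩
  have hQz : Q' z = 1 := by rw [hz, hΨQ, g01]
  have hQz₂ : Q' z₂ = 1 := by rw [hz₂, hΨQ, hb2.add_right, g10, g11, add_zero]
  have hQz₃ : Q' z₃ = 1 := by rw [hz₃, hΨQ, g10]
  have hQzne : Q' z ≠ 0 := by rw [hQz]; exact one_ne_zero
  obtain ⟨g, hg⟩ : ∃ g : GL (Fin n) F, g = Rf Q' z * Rf Q' z₂ := ⟨_, rfl⟩
  have hgO : g ∈ Cfsg.Geo.omegaGL ⇑Q' := by
    rw [hg]
    exact Rf_pair_mem hι Q' hQ'n z z₂ hQzne (by rw [hQz₂, hQz])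
  have hgact : ∀ a b, (g : Matrix (Fin n) (Fin n) F) *ᵥ Ψ a b
      = Ψ a b + (f₂ u' b + f₂ (u + u') a) • z₂
        + (f₂ u b + f₂ u' a + (f₂ u' b + f₂ (u + u') a)) • z := by
    intro a b
    have p1 : QuadraticMap.polar (⇑Q') z₂ (Ψ a b) = f₂ u' b + f₂ (u + u') a := by
      rw [hz₂, hΨpol]
    have p2 : QuadraticMap.polar (⇑Q') z (Ψ a b) = f₂ u b + f₂ u' a := by
      rw [hz, hΨpol]
    have p3 : QuadraticMap.polar (⇑Q') z z₂ = 1 := by
      rw [hz, hz₂, hΨpol, hb2.add_right, g00, g01, g11]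
      ring
    rw [hg, Units.val_mul, ← Matrix.mulVec_mulVec, hR z₂ hQz₂, hR z hQz,
      QuadraticMap.polar_add_right, QuadraticMap.polar_smul_right, p1, p2, p3, smul_eq_mul,
      mul_one]
  have hZz : (Z : Matrix (Fin n) (Fin n) F) *ᵥ z = z₂ := by rw [hz, hZΨ, hz₂]
  have hZz₂ : (Z : Matrix (Fin n) (Fin n) F) *ᵥ z₂ = z₂ + z := by
    rw [hz₂, hZΨ, hz, hΨadd]
    congr 1
    · abel
    · abel
  have hgZ : g * Z * g⁻¹ = Z := by
    apply hcomm
    intro x
    obtain ⟨a, b, rfl⟩ := hΨrep x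
    rw [hZΨ, hgact, hgact, Matrix.mulVec_add, Matrix.mulVec_add, Matrix.mulVec_smul,
      Matrix.mulVec_smul, hZΨ, hZz, hZz₂]
    simp only [hb2.add_left, hb2.add_right]
    funext i
    simp only [Pi.add_apply, Pi.smul_apply, smul_eq_mul]
    linear_combination (-(f₂ u a + f₂ u' a) * z₂ i + (f₂ u b + f₂ u' b) * z i) * h2
  have hgn : g ∉ Cfsg.Geo.tensorProductSubgroup 2 n₂ e P := by
    intro hmem
    obtain ⟨a', b', hab⟩ := tensor_act e P g hmem
    obtain ⟨jw, hjw⟩ : ∃ j, w j ≠ 0 := by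
      by_contra hcon
      push Not at hcon
      exact hw0 (funext hcon)
    have hfix : ∀ x₁ : Fin 2 → F,
        (g : Matrix (Fin n) (Fin n) F) *ᵥ Phi e P (pt x₁ w) = Phi e P (pt x₁ w) := by
      intro x₁
      rw [hΨpure, hgact]
      simp only [hb2.smul_right, hb2.add_left, huw, hu'w, mul_zero, add_zero, zero_smul]
    have hA : ∀ (x₁ : Fin 2 → F) (i : Fin 2) (j : Fin n₂), x₁ i * w j
        = ((a' : Matrix (Fin 2) (Fin 2) F) *ᵥ x₁) i
          * ((b' : Matrix (Fin n₂) (Fin n₂) F) *ᵥ w) j := by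
      intro x₁ i j
      have h1 := hab x₁ w
      rw [hfix] at h1
      exact congrFun (Phi_inj e P h1) (i, j)
    have hβ : ((b' : Matrix (Fin n₂) (Fin n₂) F) *ᵥ w) jw = 1 := by
      apply hne1
      intro h0
      have := hA e₀ 0 jw
      rw [h0, mul_zero, he00, one_mul] at this
      exact hjw this
    have ha0 : (a' : Matrix (Fin 2) (Fin 2) F) *ᵥ e₀ = e₀ := by
      funext i
      have := hA e₀ i jw
      rw [hβ, mul_one, hne1 _ hjw, mul_one] at this
      exact this.symm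
    have h3 := hab e₀ u'
    rw [ha0, hΨe0, hΨe0, hgact] at h3
    simp only [bil_zero_right hb2, hb2.add_left, g01, g11, zero_add, add_zero, one_smul] at h3
    rw [hz₂, hz, hΨadd, hΨadd] at h3
    obtain ⟨-, h4⟩ := hΨinj _ _ _ _ h3
    apply hu
    have h5 := hdbl2 u'
    calc u = (0 + (u + u') + u') - (u' + u') := by abel
      _ = 0 := by rw [h4, h5, sub_zero]
  -- an element of Ω outside the normalizer
  obtain ⟨g', hg'⟩ : ∃ g' : GL (Fin n) F, g' = Rf Q' z * Rf Q' z₃ := ⟨_, rfl⟩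
  have hg'O : g' ∈ Cfsg.Geo.omegaGL ⇑Q' := by
    rw [hg']
    exact Rf_pair_mem hι Q' hQ'n z z₃ hQzne (by rw [hQz₃, hQz])
  have hg'act : ∀ a b, (g' : Matrix (Fin n) (Fin n) F) *ᵥ Ψ a b
      = Ψ a b + (f₂ u' b + f₂ u a) • z₃ + (f₂ u b + f₂ u' a) • z := by
    intro a b
    have p1 : QuadraticMap.polar (⇑Q') z₃ (Ψ a b) = f₂ u' b + f₂ u a := by
      rw [hz₃, hΨpol]
    have p2 : QuadraticMap.polar (⇑Q') z (Ψ a b) = f₂ u b + f₂ u' a := by
      rw [hz, hΨpol]
    have p3 : QuadraticMap.polar (⇑Q') z z₃ = 0 := by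
      rw [hz, hz₃, hΨpol, g00, g11, add_zero]
    rw [hg', Units.val_mul, ← Matrix.mulVec_mulVec, hR z₃ hQz₃, hR z hQz,
      QuadraticMap.polar_add_right, QuadraticMap.polar_smul_right, p1, p2, p3, smul_zero,
      add_zero]
  have hg'K : ¬ (g' * Z * g'⁻¹ = Z ∨ g' * Z * g'⁻¹ = Z⁻¹) := by
    rintro (h | h)
    · have h1 : g' * Z = Z * g' := mul_inv_eq_iff_eq_mul.mp h
      have h2' := congrArg (fun M : GL (Fin n) F => (M : Matrix (Fin n) (Fin n) F) *ᵥ Ψ u 0) h1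
      simp only [Units.val_mul, ← Matrix.mulVec_mulVec] at h2'
      rw [hZΨ, hg'act, hg'act, Matrix.mulVec_add, Matrix.mulVec_add, Matrix.mulVec_smul,
        Matrix.mulVec_smul, hZΨ, hZz] at h2'
      simp only [bil_zero_right hb2, hb2.add_right, g00, g10, add_zero, zero_add, one_smul,
        zero_smul] at h2'
      rw [hz₃, hz₂, hΨadd, hΨadd] at h2'
      have h5 := (hΨinj _ _ _ _ h2').2
      have h6 := congrArg (fun v => f₂ v u) h5
      simp only [hb2.add_left, bil_zero_left hb2, g00, g10, add_zero, zero_add] at h6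
      first
        | exact zero_ne_one h6
        | exact one_ne_zero h6
    · have h0 : g' * Z = Z⁻¹ * g' := mul_inv_eq_iff_eq_mul.mp h
      have h1 : Z * g' * Z = g' := by
        rw [mul_assoc, h0, ← mul_assoc, mul_inv_cancel, one_mul]
      have h2' := congrArg (fun M : GL (Fin n) F => (M : Matrix (Fin n) (Fin n) F) *ᵥ Ψ w 0) h1
      simp only [Units.val_mul, ← Matrix.mulVec_mulVec] at h2'
      rw [hZΨ, hg'act, hg'act] at h2'
      simp only [bil_zero_right hb2, hb2.add_right, huw, hu'w, add_zero, zero_add, zero_smul]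
        at h2'
      rw [hZΨ] at h2'
      have h5 := (hΨinj _ _ _ _ h2').2
      apply hw0
      simpa using h5
  refine ⟨((normZeta h2 n₂).map (Cfsg.Geo.glReindex e.symm).toMonoidHom).map
    (MulAut.conj P).toMonoidHom ⊓ Cfsg.Geo.omegaGL ⇑Q', ?_, ?_⟩
  · rw [SetLike.lt_iff_le_and_exists]
    refine ⟨?_, g, ⟨?_, hgO⟩, ?_⟩
    · rintro x ⟨hxT, hxU⟩
      exact ⟨Subgroup.map_mono (Subgroup.map_mono (kron_le_normZeta h01 h2 n₂)) hxT, hxU⟩
    · rw [hmap]
      exact (hKmem g).mpr (Or.inl hgZ)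
    · rintro ⟨hgT, -⟩
      exact hgn hgT
  · rw [SetLike.lt_iff_le_and_exists]
    refine ⟨inf_le_right, g', hg'O, ?_⟩
    rintro ⟨hK, -⟩
    rw [hmap] at hK
    exact hg'K ((hKmem g').mp hK)

end Cfsg.Agent.S5705
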