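import Cfsg.Statements.S5938
import Cfsg.Agent.Lib.helper12.DkMax3
-- import your own Cfsg.Agent.* helpers here

set_option autoImplicit false
open Cfsg

namespace Cfsg.Agent.S5938

open Cfsg.Agent.Lib.helper12
open scoped MatrixGroups

/-- Let p be a prime with p ≡ ±1 (mod 8) and F a field with p elements. Then PSL_2(F) has a maximal subgroup isomorphic to the symmetric group S_4. -/
theorem result {F : Type*} [Field F] [Fintype F] (p : ℕ) [Fact p.Prime] (hF : Fintype.card F = p) (hp : p % 8 = 1 ∨ p % 8 = 7) : ∃ H : Subgroup (Matrix.ProjectiveSpecialLinearGroup (Fin 2) F), IsCoatom H ∧ Nonempty (H ≃* Equiv.Perm (Fin 4)) := by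
  classical
  have hpp : p.Prime := Fact.out
  obtain ⟨p', hp'⟩ := CharP.exists F
  haveI := hp'
  haveI : Fact p'.Prime := ⟨CharP.char_is_prime F p'⟩
  have hodd : Fintype.card F % 2 = 1 := by rw [hF]; omega
  have h2 : (2 : F) ≠ 0 := by
    rcases card_parity_cases (F := F) with ⟨h, -, -⟩ | ⟨-, h, -⟩
    · exact h
    · omega
  have hgcd : Nat.gcd 2 (Fintype.card F - 1) = 2 := by
    rcases card_parity_cases (F := F) with ⟨-, -, h⟩ | ⟨-, h, -⟩
    · exact h
    · omega
  have hp'2 : p' ≠ 2 := by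
    rintro rfl
    apply h2
    have := CharP.cast_eq_zero F 2
    exact_mod_cast this
  have h16 : Fintype.card F ^ 2 % 16 = 1 := by
    rw [hF, Nat.pow_mod]
    have : p % 16 = 1 ∨ p % 16 = 7 ∨ p % 16 = 9 ∨ p % 16 = 15 := by omega
    rcases this with h | h | h | h <;> rw [h]
  have h8 := (PSL2_eight_dvd_iff hodd).mpr h16
  obtain ⟨M, hM24, ⟨e⟩⟩ := PSL2_exists_S4 h2 h8
  refine ⟨M, ?_, ⟨e⟩⟩
  have hG := card_PSL2_gen (F := F)
  rw [hgcd, hF] at hG
  have hp7 : 7 ≤ p := by
    have := hpp.two_le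
    omega
  apply coatom_of_card
  · intro htop
    rw [htop, Subgroup.card_top] at hM24
    rw [hM24] at hG
    have h1 : 48 ≤ p ^ 2 - 1 := by
      have : 49 ≤ p ^ 2 := by nlinarith
      omega
    have h3 : 7 * 48 ≤ p * (p ^ 2 - 1) := Nat.mul_le_mul hp7 h1
    omega
  · intro H hMH hH
    have hdvd : Nat.card M ∣ Nat.card H := Subgroup.card_dvd_of_le hMH
    have hle : Nat.card M ≤ Nat.card H := Subgroup.card_le_of_le hMH
    rw [hM24] at hdvd hle ⊢
    rcases dk_cases_F12 p' hp'2 H hH (hasF12_perm4.of_le M H hMH e) with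
      ⟨h12, -⟩ | ⟨h24, -⟩ | ⟨h60, -⟩ | ⟨K', iK, iF, m', hm2, hm', -⟩
    · omega
    · omega
    · exfalso
      rw [h60] at hdvd
      omega
    · exfalso
      rw [hF] at hm'
      have := (hpp.pow_eq_iff).mp hm'
      omega

end Cfsg.Agent.S5938
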