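import Cfsg.Statements.S5941
import Cfsg.Agent.Lib.helper12.DkMax
-- import your own Cfsg.Agent.* helpers here

set_option autoImplicit false
open Cfsg

namespace Cfsg.Agent.S5941

open Cfsg.Agent.Lib.helper12
open scoped MatrixGroups

/-- Let K and F be finite fields of odd characteristic with #F = (#K)². Then PSL_2(F) has a maximal subgroup isomorphic to PGL_2(K). -/
theorem result {F K : Type*} [Field F] [Fintype F] [Field K] [Fintype K] (q : ℕ) (hK : Fintype.card K = q) (hF : Fintype.card F = q ^ 2) (hq : Odd q) : ∃ H : Subgroup (Matrix.ProjectiveSpecialLinearGroup (Fin 2) F), IsCoatom H ∧ Nonempty (H ≃* Matrix.ProjGenLinGroup (Fin 2) K) := by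
  classical
  obtain ⟨ι⟩ := exists_ringHom_of_card_pow (K := K) (F := F) 2 (by rw [hK, hF])
  have hoddF : Odd (Fintype.card F) := by rw [hF]; exact hq.pow
  obtain ⟨M, ⟨e⟩⟩ := exists_PGL2_subfield ι
    (exists_sq_of_even ι hoddF 2 (by rw [hK, hF]) (by decide))
  refine ⟨M, ?_, ⟨e⟩⟩
  have hq2 : 2 ≤ q := by rw [← hK]; exact Fintype.one_lt_card
  have hq3 : 3 ≤ q := by
    rcases hq with ⟨c, hc⟩
    omega
  have hMcard : Nat.card M = q * (q ^ 2 - 1) := by
    rw [Nat.card_congr e.toEquiv, card_PGL2, hK]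
  have hG := card_PSL2_gen (F := F)
  have hgcd : Nat.gcd 2 (Fintype.card F - 1) = 2 := by
    rcases card_parity_cases (F := F) with ⟨-, -, h⟩ | ⟨-, h, -⟩
    · exact h
    · exact absurd (Nat.even_iff.2 h) (Nat.not_even_iff_odd.2 hoddF)
  rw [hgcd, hF] at hG
  obtain ⟨A, hA⟩ : ∃ A, q ^ 2 = A + 1 := ⟨q ^ 2 - 1, by
    have : 1 ≤ q ^ 2 := Nat.one_le_pow _ _ (by omega)
    omega⟩
  have hA8 : 8 ≤ A := by nlinarith
  have hQ : (q ^ 2) ^ 2 - 1 = A * (A + 2) := by
    rw [hA]
    have : (A + 1) ^ 2 = A * (A + 2) + 1 := by ring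
    omega
  rw [hQ, hA] at hG
  rw [hA, Nat.add_sub_cancel] at hMcard
  obtain ⟨p, hp⟩ := CharP.exists F
  haveI := hp
  haveI : Fact p.Prime := ⟨CharP.char_is_prime F p⟩
  have h3A : 3 * A ≤ q * A := Nat.mul_le_mul_right A hq3
  apply coatom_of_card
  · intro htop
    rw [htop, Subgroup.card_top] at hMcard
    rw [hMcard] at hG
    have h1 : q ≤ A + 1 := by nlinarith
    have h2 : 2 * (q * A) ≤ 2 * ((A + 1) * A) := by nlinarith
    have h3 : (A + 1) * (A * (A + 2)) = (A + 1) * A * (A + 2) := by ring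
    have h4 : 2 * ((A + 1) * A) < (A + 1) * A * (A + 2) := by nlinarith
    omega
  · intro H hMH hH
    have hdvd : Nat.card M ∣ Nat.card H := Subgroup.card_dvd_of_le hMH
    have hle : Nat.card M ≤ Nat.card H := Subgroup.card_le_of_le hMH
    rw [hMcard] at hdvd hle ⊢
    rcases dk_cases p H hH with ⟨k, hk, h⟩ | ⟨hb, -⟩ | ⟨h12, -⟩ | ⟨h24, -⟩ | ⟨h60, -⟩ |
      ⟨K', iK, iF, m', hm2, hm', h⟩
    · exfalso
      rw [hgcd, hF, hA] at hk
      have hk' : 2 * k ≤ A + 2 := by
        rcases hk with hk | hk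
        · exact Nat.le_of_dvd (by omega) hk
        · have := Nat.le_of_dvd (by omega) hk
          omega
      have hcard : Nat.card H ≤ 2 * k := by
        rcases h with ⟨-, hc⟩ | ⟨⟨f⟩⟩
        · omega
        · rw [Nat.card_congr f.toEquiv, DihedralGroup.nat_card]
      omega
    · exfalso
      rw [hgcd, hF, hA, Nat.add_sub_cancel] at hb
      have h1 : 2 * (q * A) ∣ (A + 1) * A := dvd_trans (Nat.mul_dvd_mul_left 2 hdvd) hb
      rw [← hA] at h1
      have h2 : 2 * q * A ∣ q * q * A := by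
        rw [mul_assoc, ← sq]
        exact h1
      have h3 : 2 * q ∣ q * q := Nat.dvd_of_mul_dvd_mul_right (by omega) h2
      have h4 : 2 ∣ q := by
        rw [mul_comm 2 q] at h3
        exact Nat.dvd_of_mul_dvd_mul_left (by omega) h3
      exact (Nat.not_even_iff_odd.2 hq) (even_iff_two_dvd.2 h4)
    · exfalso
      omega
    · omega
    · exfalso
      rw [h60] at hdvd hle
      by_cases hq3' : q = 3
      · subst hq3'
        have : A = 8 := by omega
        subst this
        norm_num at hdvd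
      · have hq5 : 5 ≤ q := by
          rcases hq with ⟨c, hc⟩
          omega
        have : 24 ≤ A := by nlinarith
        have : 5 * A ≤ q * A := Nat.mul_le_mul_right A hq5
        omega
    · have hk2 : 2 ≤ Fintype.card K' := Fintype.one_lt_card
      have hgcd' : Nat.gcd 2 (Fintype.card K' - 1) = 2 := by
        rcases card_parity_cases (F := K') with ⟨-, -, h⟩ | ⟨-, h, -⟩
        · exact h
        · exfalso
          have : Even (Fintype.card K' ^ m') := (Nat.even_pow.2 ⟨Nat.even_iff.2 h, by omega⟩)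
          rw [hm'] at this
          exact (Nat.not_even_iff_odd.2 hoddF) this
      have hkq : Fintype.card K' = Fintype.card K := by
        apply dkd_subfield (F := F) 2 m' Nat.prime_two hm2 (by rw [hK, hF]) hm' 2
          (Or.inr ⟨rfl, hoddF⟩)
        rw [hK, hA, Nat.add_sub_cancel]
        rcases h with ⟨hc, -⟩ | ⟨hc, -⟩
        · rw [hgcd'] at hc
          rw [← hc]
          exact (hdvd.mul_left 2).mul_left 2
        · rw [← hc]
          exact hdvd.mul_left 2
      rw [hkq, hK, hA, Nat.add_sub_cancel] at h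
      rcases h with ⟨hc, -⟩ | ⟨hc, -⟩
      · rw [← hc]
        exact Nat.le_mul_of_pos_left _ (Nat.gcd_pos_of_pos_left _ (by norm_num))
      · omega

end Cfsg.Agent.S5941
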