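import Cfsg.Statements.S5942
import Cfsg.Agent.Lib.helper12.DkMax
-- import your own Cfsg.Agent.* helpers here

set_option autoImplicit false
open Cfsg

namespace Cfsg.Agent.S5942

open Cfsg.Agent.Lib.helper12
open scoped MatrixGroups

/-- Let K and F be finite fields of odd characteristic with #F = (#K)^r for an odd prime r. Then PSL_2(F) has a maximal subgroup isomorphic to PSL_2(K). -/
theorem result {F K : Type*} [Field F] [Fintype F] [Field K] [Fintype K] (q r : ℕ) (hK : Fintype.card K = q) (hF : Fintype.card F = q ^ r) (hq : Odd q) (hr : r.Prime) (hr2 : r ≠ 2) : ∃ H : Subgroup (Matrix.ProjectiveSpecialLinearGroup (Fin 2) F), IsCoatom H ∧ Nonempty (H ≃* Matrix.ProjectiveSpecialLinearGroup (Fin 2) K) := by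
  classical
  obtain ⟨ι⟩ := exists_ringHom_of_card_pow (K := K) (F := F) r (by rw [hK, hF])
  obtain ⟨M, ⟨e⟩⟩ := exists_PSL2_subfield (F := F) ι
  refine ⟨M, ?_, ⟨e⟩⟩
  have hoddF : Odd (Fintype.card F) := by rw [hF]; exact hq.pow
  have hrodd : Odd r := hr.odd_of_ne_two hr2
  have hr3 : 3 ≤ r := by
    have := hr.two_le
    omega
  have hq2 : 2 ≤ q := by rw [← hK]; exact Fintype.one_lt_card
  have hq3 : 3 ≤ q := by
    rcases hq with ⟨c, hc⟩
    omega
  have hgcdK : Nat.gcd 2 (Fintype.card K - 1) = 2 := by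
    rcases card_parity_cases (F := K) with ⟨-, -, h⟩ | ⟨-, h, -⟩
    · exact h
    · rw [hK] at h
      exact absurd (Nat.even_iff.2 h) (Nat.not_even_iff_odd.2 hq)
  have hMcard : 2 * Nat.card M = q * (q ^ 2 - 1) := by
    have := card_PSL2_gen (F := K)
    rw [hgcdK, hK] at this
    rw [Nat.card_congr e.toEquiv, this]
  have hG := card_PSL2_gen (F := F)
  have hgcd : Nat.gcd 2 (Fintype.card F - 1) = 2 := by
    rcases card_parity_cases (F := F) with ⟨-, -, h⟩ | ⟨-, h, -⟩
    · exact h
    · exact absurd (Nat.even_iff.2 h) (Nat.not_even_iff_odd.2 hoddF)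
  rw [hgcd, hF] at hG
  obtain ⟨A, hA⟩ : ∃ A, q ^ 2 = A + 1 := ⟨q ^ 2 - 1, by
    have : 1 ≤ q ^ 2 := Nat.one_le_pow _ _ (by omega)
    omega⟩
  have hA8 : 8 ≤ A := by nlinarith
  rw [hA, Nat.add_sub_cancel] at hMcard
  obtain ⟨Q, hQ⟩ : ∃ Q, Q = q ^ r := ⟨_, rfl⟩
  rw [← hQ] at hG hF
  have hQodd : Odd Q := by rw [hQ]; exact hq.pow
  have hqQ : q ∣ Q := by rw [hQ]; exact dvd_pow_self q (by omega)
  have hQ3 : q ^ 3 ≤ Q := by rw [hQ]; exact Nat.pow_le_pow_right (by omega) hr3
  have hQq : q + 1 ≤ Q := by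
    have : q ^ 3 = q * q ^ 2 := by ring
    nlinarith
  obtain ⟨p, hp⟩ := CharP.exists F
  haveI := hp
  haveI : Fact p.Prime := ⟨CharP.char_is_prime F p⟩
  have h3A : 3 * A ≤ q * A := Nat.mul_le_mul_right A hq3
  apply coatom_of_card
  · intro htop
    have h1 : Nat.card M = Nat.card PSL(2, F) := by rw [htop, Subgroup.card_top]
    rw [h1, hG] at hMcard
    have h2 : (q + 1) ^ 2 ≤ Q ^ 2 := Nat.pow_le_pow_left hQq 2
    have h3 : (q + 1) ^ 2 = q ^ 2 + 2 * q + 1 := by ring
    have h4 : A + 1 ≤ Q ^ 2 - 1 := by omega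
    have h5 : q * A < Q * (Q ^ 2 - 1) := by
      calc q * A < Q * A := Nat.mul_lt_mul_of_pos_right (by omega) (by omega)
        _ ≤ Q * (Q ^ 2 - 1) := Nat.mul_le_mul_left _ (by omega)
    omega
  · intro H hMH hH
    have hdvd : Nat.card M ∣ Nat.card H := Subgroup.card_dvd_of_le hMH
    have hdvd2 : q * A ∣ 2 * Nat.card H := by
      rw [← hMcard]
      exact Nat.mul_dvd_mul_left 2 hdvd
    have hHG : 2 * Nat.card H ∣ Q * (Q ^ 2 - 1) := by
      rw [← hG]
      exact Nat.mul_dvd_mul_left 2 (Subgroup.card_subgroup_dvd_card H)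
    have goal2 : 2 * Nat.card H ≤ q * A → Nat.card H ≤ Nat.card M := by
      intro h
      omega
    apply goal2
    rcases dk_cases p H hH with ⟨k, hk, h⟩ | ⟨hb, -⟩ | ⟨h12, -⟩ | ⟨h24, -⟩ | ⟨h60, -⟩ |
      ⟨K', iK, iF, m', hm2, hm', h⟩
    · exfalso
      rw [hgcd, hF] at hk
      have hcard : Nat.card H ∣ 2 * k := by
        rcases h with ⟨-, hc⟩ | ⟨⟨f⟩⟩
        · rw [hc]
          exact dvd_mul_left _ _
        · rw [Nat.card_congr f.toEquiv, DihedralGroup.nat_card]
      have hq' : q ∣ q * A := dvd_mul_right _ _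
      have hq2Q : q ∣ 2 * Q := dvd_mul_of_dvd_right hqQ 2
      have h2 : q ∣ 2 := by
        rcases hk with hk | hk
        · have h1 : q ∣ 2 * (Q + 1) :=
            dvd_trans hq' (dvd_trans hdvd2 (Nat.mul_dvd_mul_left 2 (dvd_trans hcard hk)))
          have e1 : 2 * (Q + 1) = 2 * Q + 2 := by ring
          rw [e1] at h1
          exact (Nat.dvd_add_right hq2Q).1 h1
        · have h1 : q ∣ 2 * (Q - 1) :=
            dvd_trans hq' (dvd_trans hdvd2 (Nat.mul_dvd_mul_left 2 (dvd_trans hcard hk)))
          have e1 : 2 * Q = 2 * (Q - 1) + 2 := by omega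
          rw [e1] at hq2Q
          exact (Nat.dvd_add_right h1).1 hq2Q
      have := Nat.le_of_dvd (by norm_num) h2
      omega
    · exfalso
      rw [hgcd, hF] at hb
      have hA' : A = (q - 1) * (q + 1) := by
        obtain ⟨s, rfl⟩ : ∃ s, q = s + 1 := ⟨q - 1, by omega⟩
        simp only [Nat.add_sub_cancel]
        have : (s + 1) ^ 2 = s * (s + 1 + 1) + 1 := by ring
        omega
      have h1 : q + 1 ∣ Q * (Q - 1) := by
        refine dvd_trans ?_ (dvd_trans hdvd2 hb)
        rw [hA']
        exact dvd_mul_of_dvd_right (dvd_mul_left _ _) _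
      have hcop : Nat.Coprime (q + 1) Q := by
        rw [hQ]
        apply Nat.Coprime.pow_right
        have : Nat.Coprime q (q + 1) := by simp
        exact this.symm
      have h2 : q + 1 ∣ Q - 1 := hcop.dvd_of_dvd_mul_left h1
      have h3 : q + 1 ∣ Q + 1 := by
        have := Odd.nat_add_dvd_pow_add_pow q 1 hrodd
        rw [one_pow, ← hQ] at this
        exact this
      have h4 : q + 1 ∣ 2 := by
        have e1 : Q + 1 = (Q - 1) + 2 := by omega
        rw [e1] at h3
        exact (Nat.dvd_add_right h2).1 h3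
      have := Nat.le_of_dvd (by norm_num) h4
      omega
    · omega
    · by_cases hq3' : q = 3
      · exfalso
        subst hq3'
        have hA8' : A = 8 := by omega
        have h1 : 16 ∣ Q * (Q ^ 2 - 1) := by
          refine dvd_trans ?_ hHG
          rw [h24]
          norm_num
        have hcop : Nat.Coprime 16 Q := by
          rw [hQ]
          apply Nat.Coprime.pow_right
          decide
        have h2 : 16 ∣ Q ^ 2 - 1 := hcop.dvd_of_dvd_mul_left h1
        obtain ⟨j, hj⟩ := hrodd
        have h3 : Q ^ 2 % 16 = 9 := by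
          rw [hQ, ← pow_mul, hj]
          have : 3 ^ ((2 * j + 1) * 2) = 81 ^ j * 9 := by
            rw [show (2 * j + 1) * 2 = 4 * j + 2 by ring, pow_add, pow_mul]
            norm_num
          rw [this, Nat.mul_mod, Nat.pow_mod]
          norm_num
        omega
      · have hq5 : 5 ≤ q := by
          rcases hq with ⟨c, hc⟩
          omega
        have : 24 ≤ A := by nlinarith
        have : 5 * A ≤ q * A := Nat.mul_le_mul_right A hq5
        omega
    · by_cases hq3' : q = 3
      · exfalso
        subst hq3'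
        have h1 : 5 ∣ Q * (Q ^ 2 - 1) := by
          refine dvd_trans ?_ hHG
          rw [h60]
          norm_num
        have hcop : Nat.Coprime 5 Q := by
          rw [hQ]
          apply Nat.Coprime.pow_right
          decide
        have h2 : 5 ∣ Q ^ 2 - 1 := hcop.dvd_of_dvd_mul_left h1
        obtain ⟨j, hj⟩ := hrodd
        have h3 : Q ^ 2 % 5 = 4 := by
          rw [hQ, ← pow_mul, hj]
          have : 3 ^ ((2 * j + 1) * 2) = 81 ^ j * 9 := by
            rw [show (2 * j + 1) * 2 = 4 * j + 2 by ring, pow_add, pow_mul]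
            norm_num
          rw [this, Nat.mul_mod, Nat.pow_mod]
          norm_num
        omega
      · have hq5 : 5 ≤ q := by
          rcases hq with ⟨c, hc⟩
          omega
        have : 24 ≤ A := by nlinarith
        have : 5 * A ≤ q * A := Nat.mul_le_mul_right A hq5
        omega
    · have hk2 : 2 ≤ Fintype.card K' := Fintype.one_lt_card
      have hgcd' : Nat.gcd 2 (Fintype.card K' - 1) = 2 := by
        rcases card_parity_cases (F := K') with ⟨-, -, h⟩ | ⟨-, h, -⟩
        · exact h
        · exfalso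
          have : Even (Fintype.card K' ^ m') := (Nat.even_pow.2 ⟨Nat.even_iff.2 h, by omega⟩)
          rw [hm'] at this
          exact (Nat.not_even_iff_odd.2 hoddF) this
      have hkq : Fintype.card K' = Fintype.card K := by
        apply dkd_subfield (F := F) r m' hr hm2 (by rw [hK, hF, hQ]) hm' 2
          (Or.inr ⟨rfl, hoddF⟩)
        rw [hK, hA, Nat.add_sub_cancel]
        rcases h with ⟨hc, -⟩ | ⟨hc, -⟩
        · rw [hgcd'] at hc
          rw [← hc]
          exact hdvd2.mul_left 2
        · rw [← hc]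
          exact hdvd2
      rw [hgcd', hkq, hK, hA, Nat.add_sub_cancel] at h
      rcases h with ⟨hc, -⟩ | ⟨hc, -⟩
      · omega
      · exfalso
        apply pgl_not_dvd q r Q hq2 hQ.symm hQodd hrodd
        rw [hA, Nat.add_sub_cancel, ← hc]
        exact hHG

end Cfsg.Agent.S5942
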