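import Cfsg.Statements.S5943
import Cfsg.Agent.Lib.helper12.DkMax2
-- import your own Cfsg.Agent.* helpers here

set_option autoImplicit false
open Cfsg

namespace Cfsg.Agent.S5943

open Cfsg.Agent.Lib.helper12
open scoped MatrixGroups

/-- Let K and F be finite fields of characteristic 2 with #K = q > 2 and #F = q^r for a prime r. Then PSL_2(F) has a maximal subgroup isomorphic to PSL_2(K) (which equals PGL_2(K) in characteristic 2). -/
theorem result {F K : Type*} [Field F] [Fintype F] [Field K] [Fintype K] (q r : ℕ) (hK : Fintype.card K = q) (hF : Fintype.card F = q ^ r) (hq : Even q) (hq2 : q ≠ 2) (hr : r.Prime) : ∃ H : Subgroup (Matrix.ProjectiveSpecialLinearGroup (Fin 2) F), IsCoatom H ∧ Nonempty (H ≃* Matrix.ProjectiveSpecialLinearGroup (Fin 2) K) := by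
  classical
  obtain ⟨ι⟩ := exists_ringHom_of_card_pow (K := K) (F := F) r (by rw [hK, hF])
  obtain ⟨M, ⟨e⟩⟩ := exists_PSL2_subfield (F := F) ι
  refine ⟨M, ?_, ⟨e⟩⟩
  have hr2 : 2 ≤ r := hr.two_le
  have hevF : Even (Fintype.card F) := by
    rw [hF]
    exact (Nat.even_pow.2 ⟨hq, by omega⟩)
  have hq2 : 2 ≤ q := by rw [← hK]; exact Fintype.one_lt_card
  have hq4 : 4 ≤ q := by
    rcases hq with ⟨c, hc⟩
    omega
  have h2K : (2 : K) = 0 ∧ Nat.gcd 2 (Fintype.card K - 1) = 1 := by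
    rcases card_parity_cases (F := K) with ⟨-, h, -⟩ | ⟨h2, -, h⟩
    · rw [hK] at h
      exact absurd hq (Nat.not_even_iff_odd.2 (Nat.odd_iff.2 h))
    · exact ⟨h2, h⟩
  obtain ⟨h2K0, hgcdK⟩ := h2K
  have hMcard : Nat.card M = q * (q ^ 2 - 1) := by
    have := card_PSL2_gen (F := K)
    rw [hgcdK, hK, one_mul] at this
    rw [Nat.card_congr e.toEquiv, this]
  have hG := card_PSL2_gen (F := F)
  have hgcd : Nat.gcd 2 (Fintype.card F - 1) = 1 := by
    rcases card_parity_cases (F := F) with ⟨-, h, -⟩ | ⟨-, -, h⟩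
    · exact absurd hevF (Nat.not_even_iff_odd.2 (Nat.odd_iff.2 h))
    · exact h
  rw [hgcd, hF, one_mul] at hG
  obtain ⟨A, hA⟩ : ∃ A, q ^ 2 = A + 1 := ⟨q ^ 2 - 1, by
    have : 1 ≤ q ^ 2 := Nat.one_le_pow _ _ (by omega)
    omega⟩
  have hA15 : 15 ≤ A := by nlinarith
  rw [hA, Nat.add_sub_cancel] at hMcard
  obtain ⟨Q, hQ⟩ : ∃ Q, Q = q ^ r := ⟨_, rfl⟩
  rw [← hQ] at hG hF
  have hqQ : q ∣ Q := by rw [hQ]; exact dvd_pow_self q (by omega)
  have hQ2 : q ^ 2 ≤ Q := by rw [hQ]; exact Nat.pow_le_pow_right (by omega) hr2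
  have hQq : q + 1 ≤ Q := by nlinarith
  obtain ⟨p, hp⟩ := CharP.exists F
  haveI := hp
  haveI : Fact p.Prime := ⟨CharP.char_is_prime F p⟩
  have hp2 : p = 2 := by
    have h2F : (2 : F) = 0 := by
      rcases card_parity_cases (F := F) with ⟨-, h, -⟩ | ⟨h2, -, -⟩
      · exact absurd hevF (Nat.not_even_iff_odd.2 (Nat.odd_iff.2 h))
      · exact h2
    have : ((2 : ℕ) : F) = 0 := by exact_mod_cast h2F
    have hdvd := (CharP.cast_eq_zero_iff F p 2).1 this
    exact ((Nat.prime_dvd_prime_iff_eq (Fact.out : p.Prime) Nat.prime_two).1 hdvd)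
  have h4A : 4 * A ≤ q * A := Nat.mul_le_mul_right A hq4
  apply coatom_of_card
  · intro htop
    have h1 : Nat.card M = Nat.card PSL(2, F) := by rw [htop, Subgroup.card_top]
    rw [h1, hG] at hMcard
    have h2 : (q + 1) ^ 2 ≤ Q ^ 2 := Nat.pow_le_pow_left hQq 2
    have h3 : (q + 1) ^ 2 = q ^ 2 + 2 * q + 1 := by ring
    have h4 : A + 1 ≤ Q ^ 2 - 1 := by omega
    have h5 : q * A < Q * (Q ^ 2 - 1) := by
      calc q * A < Q * A := Nat.mul_lt_mul_of_pos_right (by omega) (by omega)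
        _ ≤ Q * (Q ^ 2 - 1) := Nat.mul_le_mul_left _ (by omega)
    omega
  · intro H hMH hH
    have hdvd : Nat.card M ∣ Nat.card H := Subgroup.card_dvd_of_le hMH
    have hle : Nat.card M ≤ Nat.card H := Subgroup.card_le_of_le hMH
    rw [hMcard] at hdvd hle ⊢
    rcases dk_cases p H hH with ⟨k, hk, h⟩ | ⟨-, hcomm⟩ | ⟨h12, -⟩ | ⟨h24, -⟩ | ⟨h60, -⟩ |
      ⟨K', iK, iF, m', hm2, hm', h⟩
    · exfalso
      rw [hgcd, hF, one_mul] at hk
      have hcard : Nat.card H ∣ 2 * k := by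
        rcases h with ⟨-, hc⟩ | ⟨⟨f⟩⟩
        · rw [hc]
          exact dvd_mul_left _ _
        · rw [Nat.card_congr f.toEquiv, DihedralGroup.nat_card]
      have hq' : q ∣ q * A := dvd_mul_right _ _
      have hq2Q : q ∣ 2 * Q := dvd_mul_of_dvd_right hqQ 2
      have h2 : q ∣ 2 := by
        rcases hk with hk | hk
        · have h1 : q ∣ 2 * (Q + 1) :=
            dvd_trans hq' (dvd_trans hdvd (dvd_trans hcard (Nat.mul_dvd_mul_left 2 hk)))
          have e1 : 2 * (Q + 1) = 2 * Q + 2 := by ring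
          rw [e1] at h1
          exact (Nat.dvd_add_right hq2Q).1 h1
        · have h1 : q ∣ 2 * (Q - 1) :=
            dvd_trans hq' (dvd_trans hdvd (dvd_trans hcard (Nat.mul_dvd_mul_left 2 hk)))
          have e1 : 2 * Q = 2 * (Q - 1) + 2 := by omega
          rw [e1] at hq2Q
          exact (Nat.dvd_add_right h1).1 hq2Q
      have := Nat.le_of_dvd (by norm_num) h2
      omega
    · exfalso
      obtain ⟨a, ha⟩ : ∃ a : M, e a = QuotientGroup.mk (uS (1 : K)) := e.surjective _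
      obtain ⟨b, hb⟩ : ∃ b : M, e b = QuotientGroup.mk (lS (1 : K)) := e.surjective _
      have h1 := hcomm ⟨a.1, hMH a.2⟩ ⟨b.1, hMH b.2⟩
      rw [hp2] at h1
      have h2 : ((a * b * a⁻¹ * b⁻¹) ^ 2 : M) = 1 := by
        apply Subtype.ext
        have := congrArg (fun z : H => (z : PSL(2, F))) h1
        simpa using this
      have h3 := congrArg e h2
      rw [map_pow, map_mul, map_mul, map_mul, map_inv, map_inv, ha, hb, map_one] at h3
      exact PSL2_comm_sq_ne h2K0 h3
    · exfalso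
      omega
    · exfalso
      omega
    · omega
    · have hk2 : 2 ≤ Fintype.card K' := Fintype.one_lt_card
      have hkq : Fintype.card K' = Fintype.card K := by
        apply dkd_subfield (F := F) r m' hr hm2 (by rw [hK, hF, hQ]) hm' 1 (Or.inl rfl)
        rw [hK, hA, Nat.add_sub_cancel, one_mul]
        rcases h with ⟨hc, -⟩ | ⟨hc, -⟩
        · rw [← hc]
          exact hdvd.mul_left _
        · rw [← hc]
          exact hdvd
      rw [hkq, hgcdK, hK, hA, Nat.add_sub_cancel, one_mul] at h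
      rcases h with ⟨hc, -⟩ | ⟨hc, -⟩
      · omega
      · omega

end Cfsg.Agent.S5943
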