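import Cfsg.Statements.S5952
-- import your own Cfsg.Agent.* helpers here

set_option autoImplicit false
open Cfsg

namespace Cfsg.Agent.S5952

section
variable {F V : Type*} [Field F] [AddCommGroup V] [Module F V] [FiniteDimensional F V]

theorem finrank_sup_of_disjoint {A B : Submodule F V} (h : Disjoint A B) :
    Module.finrank F ↥(A ⊔ B) = Module.finrank F ↥A + Module.finrank F ↥B := by
  have h1 := Submodule.finrank_sup_add_finrank_inf_eq A B
  rw [disjoint_iff.mp h, finrank_bot] at h1
  simpa using h1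

theorem finrank_split (X A B : Submodule F V) (hX : X ≤ A ⊔ B) (h : Disjoint A B) :
    Module.finrank F ↥X = Module.finrank F ↥(X ⊓ A) + Module.finrank F ↥((X ⊔ A) ⊓ B) := by
  have h1 := Submodule.finrank_sup_add_finrank_inf_eq X A
  have h2 : X ⊔ A = A ⊔ (X ⊔ A) ⊓ B := by
    have h3 : (A ⊔ B) ⊓ (X ⊔ A) = A ⊔ B ⊓ (X ⊔ A) := sup_inf_assoc_of_le B le_sup_right
    rw [inf_comm B] at h3
    rw [← h3]
    exact (inf_eq_right.mpr (sup_le hX le_sup_left)).symm
  have h4 : Disjoint A ((X ⊔ A) ⊓ B) := h.mono_right inf_le_right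
  have h5 := finrank_sup_of_disjoint h4
  rw [← h2] at h5
  omega

theorem inv_iff (f : V →ₗ[F] V) (W : Submodule F V) : W.map f ≤ W ↔ ∀ x ∈ W, f x ∈ W := by
  rw [Submodule.map_le_iff_le_comap]
  rfl

theorem inv_sup (f : V →ₗ[F] V) {A B : Submodule F V} (hA : ∀ x ∈ A, f x ∈ A)
    (hB : ∀ x ∈ B, f x ∈ B) : ∀ x ∈ A ⊔ B, f x ∈ A ⊔ B := by
  intro x hx
  obtain ⟨a, ha, b, hb, rfl⟩ := Submodule.mem_sup.mp hx
  rw [map_add]
  exact Submodule.add_mem _ (Submodule.mem_sup_left (hA a ha)) (Submodule.mem_sup_right (hB b hb))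

theorem inv_inf (f : V →ₗ[F] V) {A B : Submodule F V} (hA : ∀ x ∈ A, f x ∈ A)
    (hB : ∀ x ∈ B, f x ∈ B) : ∀ x ∈ A ⊓ B, f x ∈ A ⊓ B :=
  fun x hx => ⟨hA x hx.1, hB x hx.2⟩

theorem inv_biSup (f : V →ₗ[F] V) {s : ℕ} (U : Fin s → Submodule F V)
    (hU : ∀ j, ∀ x ∈ U j, f x ∈ U j) (S : Finset (Fin s)) :
    ∀ x ∈ ⨆ j ∈ S, U j, f x ∈ ⨆ j ∈ S, U j := by
  classical
  induction S using Finset.induction_on with
  | empty =>
    intro x hx
    simp only [Finset.notMem_empty, iSup_false, iSup_bot, Submodule.mem_bot] at hx ⊢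
    rw [hx, map_zero]
  | insert k S hk ih =>
    rw [Finset.iSup_insert]
    exact inv_sup f (hU k) ih

theorem disjoint_biSup_finset {s : ℕ} (U : Fin s → Submodule F V) (hind : iSupIndep U)
    (S : Finset (Fin s)) (k : Fin s) (hk : k ∉ S) : Disjoint (U k) (⨆ j ∈ S, U j) := by
  have h := hind.disjoint_biSup (x := k) (y := (S : Set (Fin s))) (by simpa using hk)
  simpa using h

theorem dvd_finrank_of_le_biSup (f : V →ₗ[F] V) {s a : ℕ} (U : Fin s → Submodule F V)
    (hUinv : ∀ j, ∀ x ∈ U j, f x ∈ U j) (hUdim : ∀ j, Module.finrank F ↥(U j) = a)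
    (hUirr : ∀ j, ∀ W : Submodule F V, W ≤ U j → (∀ x ∈ W, f x ∈ W) → W = ⊥ ∨ W = U j)
    (hind : iSupIndep U) (S : Finset (Fin s)) :
    ∀ X : Submodule F V, X ≤ ⨆ j ∈ S, U j → (∀ x ∈ X, f x ∈ X) → a ∣ Module.finrank F ↥X := by
  classical
  induction S using Finset.induction_on with
  | empty =>
    intro X hX _
    simp only [Finset.notMem_empty, iSup_false, iSup_bot, le_bot_iff] at hX
    rw [hX, finrank_bot]
    exact dvd_zero a
  | insert k S hk ih =>
    intro X hX hXinv
    rw [Finset.iSup_insert, sup_comm] at hX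
    have hdisj : Disjoint (⨆ j ∈ S, U j) (U k) := (disjoint_biSup_finset U hind S k hk).symm
    rw [finrank_split X _ _ hX hdisj]
    apply dvd_add
    · exact ih _ inf_le_right (inv_inf f hXinv (inv_biSup f U hUinv S))
    · rcases hUirr k _ inf_le_right
          (inv_inf f (inv_sup f hXinv (inv_biSup f U hUinv S)) (hUinv k)) with h | h
      · rw [h, finrank_bot]
        exact dvd_zero a
      · rw [h, hUdim]

theorem finrank_biSup {s a : ℕ} (U : Fin s → Submodule F V)
    (hUdim : ∀ j, Module.finrank F ↥(U j) = a) (hind : iSupIndep U) (S : Finset (Fin s)) :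
    Module.finrank F ↥(⨆ j ∈ S, U j) = S.card * a := by
  classical
  induction S using Finset.induction_on with
  | empty => simp
  | insert k S hk ih =>
    rw [Finset.iSup_insert, finrank_sup_of_disjoint (disjoint_biSup_finset U hind S k hk), hUdim,
      ih, Finset.card_insert_of_notMem hk]
    ring

theorem exists_le_finrank (E : Submodule F V) (r : ℕ) (hr : r ≤ Module.finrank F ↥E) :
    ∃ E' : Submodule F V, E' ≤ E ∧ Module.finrank F ↥E' = r := by
  obtain ⟨g, hg⟩ := exists_linearIndependent_of_le_finrank hr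
  refine ⟨(Submodule.span F (Set.range g)).map E.subtype, Submodule.map_subtype_le _ _, ?_⟩
  rw [Submodule.finrank_map_subtype_eq, finrank_span_eq_card hg, Fintype.card_fin]

end


/-- Which dimensions of invariant subspaces a semisimple linear map has. Let `V` be a finite-dimensional vector space over a field `F` and `f` an invertible semisimple linear map of `V`. Suppose `V` is the internal direct sum of the fixed space `C_V(f)` (the eigenspace for 1) and subspaces `U_1, …, U_s`, each `f`-invariant of dimension `a ≥ 1` on which `f` acts irreducibly (no `f`-invariant subspaces other than 0 and `U_j`). Let `0 < m < dim V` and `ℓ = m mod a`. Then `f` leaves some `m`-dimensional subspace invariant if and only if `dim C_V(f) ≥ m`, or `a ≤ m` and `dim C_V(f) ≥ ℓ`. -/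
theorem result {F V : Type*} [Field F] [AddCommGroup V] [Module F V]
    [FiniteDimensional F V] (f : V →ₗ[F] V) (hf : Function.Bijective f) (hss : Module.End.IsSemisimple f)
    {s a : ℕ} (ha : 1 ≤ a) (U : Fin s → Submodule F V)
    (hUinv : ∀ j, (U j).map f ≤ U j) (hUdim : ∀ j, Module.finrank F ↥(U j) = a)
    (hUirr : ∀ j, ∀ W : Submodule F V, W ≤ U j → W.map f ≤ W → W = ⊥ ∨ W = U j)
    (hdec : DirectSum.IsInternal (fun o : Option (Fin s) => o.elim (Module.End.eigenspace f 1) U))
    (m : ℕ) (hm : 0 < m) (hmV : m < Module.finrank F V) :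
    (∃ W : Submodule F V, Module.finrank F ↥W = m ∧ W.map f ≤ W) ↔
    (m ≤ Module.finrank F ↥(Module.End.eigenspace f 1) ∨
      (a ≤ m ∧ m % a ≤ Module.finrank F ↥(Module.End.eigenspace f 1))) := by
  classical
  have hUinv' : ∀ j, ∀ x ∈ U j, f x ∈ U j := fun j => (inv_iff f (U j)).mp (hUinv j)
  have hUirr' : ∀ j, ∀ W : Submodule F V, W ≤ U j → (∀ x ∈ W, f x ∈ W) → W = ⊥ ∨ W = U j :=
    fun j W hW hWinv => hUirr j W hW ((inv_iff f W).mpr hWinv)
  have hfix : ∀ x ∈ Module.End.eigenspace f 1, f x = x := by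
    intro x hx
    have h1 := Module.End.mem_eigenspace_iff.mp hx
    rw [one_smul] at h1
    exact h1
  have hindep := hdec.submodule_iSupIndep
  have hind : iSupIndep U := hindep.comp (Option.some_injective _)
  have htop := hdec.submodule_iSup_eq_top
  rw [iSup_option] at htop
  have hU : ⨆ j ∈ (Finset.univ : Finset (Fin s)), U j = ⨆ j, U j := by simp
  have hdisj : Disjoint (⨆ j ∈ (Finset.univ : Finset (Fin s)), U j)
      (Module.End.eigenspace f 1) := by
    rw [hU]
    refine ((hindep none).mono_right ?_).symm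
    exact iSup_le fun b => le_iSup₂_of_le (some b) (Option.some_ne_none b) le_rfl
  have htop' : (⨆ j ∈ (Finset.univ : Finset (Fin s)), U j) ⊔ Module.End.eigenspace f 1 = ⊤ := by
    rw [hU, sup_comm]
    exact htop
  have hVdim : Module.finrank F V = s * a + Module.finrank F ↥(Module.End.eigenspace f 1) := by
    rw [← finrank_top F V, ← htop', finrank_sup_of_disjoint hdisj,
      finrank_biSup U hUdim hind Finset.univ, Finset.card_univ, Fintype.card_fin]
  constructor
  · rintro ⟨W, hWdim, hWinv⟩
    have hWinv' := (inv_iff f W).mp hWinv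
    have hW : W ≤ (⨆ j ∈ (Finset.univ : Finset (Fin s)), U j) ⊔ Module.End.eigenspace f 1 := by
      rw [htop']
      exact le_top
    have h1 := finrank_split W _ _ hW hdisj
    obtain ⟨c, hc⟩ := dvd_finrank_of_le_biSup f U hUinv' hUdim hUirr' hind Finset.univ
      (W ⊓ ⨆ j ∈ (Finset.univ : Finset (Fin s)), U j) inf_le_right
      (inv_inf f hWinv' (inv_biSup f U hUinv' _))
    have h2 : Module.finrank F ↥((W ⊔ ⨆ j ∈ (Finset.univ : Finset (Fin s)), U j) ⊓
        Module.End.eigenspace f 1) ≤ Module.finrank F ↥(Module.End.eigenspace f 1) :=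
      Submodule.finrank_mono inf_le_right
    rw [hWdim, hc] at h1
    rcases Nat.eq_zero_or_pos c with h0 | hpos
    · left
      rw [h1, h0, mul_zero, zero_add]
      exact h2
    · right
      constructor
      · rw [h1]
        have h3 : a * 1 ≤ a * c := Nat.mul_le_mul_left a hpos
        omega
      · rw [h1, Nat.mul_add_mod]
        exact (Nat.mod_le _ _).trans h2
  · intro h
    obtain ⟨t, hts, hta, hr⟩ : ∃ t, t ≤ s ∧ t * a ≤ m ∧
        m - t * a ≤ Module.finrank F ↥(Module.End.eigenspace f 1) := by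
      rcases h with h | ⟨h1, h2⟩
      · exact ⟨0, Nat.zero_le _, by simp, by simpa using h⟩
      · by_cases hk : m / a ≤ s
        · refine ⟨m / a, hk, Nat.div_mul_le_self m a, ?_⟩
          have h3 := Nat.div_add_mod m a
          have h4 : m - m / a * a = m % a := by
            rw [mul_comm]
            omega
          rw [h4]
          exact h2
        · refine ⟨s, le_rfl, ?_, ?_⟩
          · push Not at hk
            calc s * a ≤ (m / a) * a := Nat.mul_le_mul_right a hk.le
              _ ≤ m := Nat.div_mul_le_self m a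
          · omega
    obtain ⟨S, -, hS⟩ := Finset.exists_subset_card_eq (s := (Finset.univ : Finset (Fin s)))
      (n := t) (by simpa using hts)
    obtain ⟨E', hE'le, hE'dim⟩ := exists_le_finrank (Module.End.eigenspace f 1) (m - t * a) hr
    refine ⟨(⨆ j ∈ S, U j) ⊔ E', ?_, ?_⟩
    · have hd : Disjoint (⨆ j ∈ S, U j) E' :=
        (hdisj.mono_left (biSup_mono fun j _ => Finset.mem_univ j)).mono_right hE'le
      rw [finrank_sup_of_disjoint hd, finrank_biSup U hUdim hind S, hS, hE'dim]
      omega
    · rw [inv_iff]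
      refine inv_sup f (inv_biSup f U hUinv' S) ?_
      intro x hx
      rw [hfix x (hE'le hx)]
      exact hx

end Cfsg.Agent.S5952
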