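import Cfsg.Statements.S5959
import Mathlib
import Cfsg.Agent.Lib.helper18.Jordan

set_option autoImplicit false
open scoped MatrixGroups
open Cfsg

namespace Cfsg.Agent.S5959


open Cfsg.Agent.Lib.helper18.Jordan

universe u v

theorem fixpow {α : Type*} (τ : Equiv.Perm α) (j : α) (m : ℕ) (h : τ j = j) : (τ ^ m) j = j := by
  induction m with
  | zero => rfl
  | succ m ih => rw [pow_succ, Equiv.Perm.mul_apply, h, ih]

theorem finrank_range_restrict {F : Type u} [Field F] {V : Type v} [AddCommGroup V] [Module F V]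
    [FiniteDimensional F V]
    (f : Module.End F V) (U : Submodule F V) (hU : ∀ v ∈ U, f v ∈ U) :
    Module.finrank F (LinearMap.range (f.restrict hU)) = Module.finrank F (U.map f) := by
  have hE : (LinearMap.range (f.restrict hU)).map U.subtype = U.map f := by
    ext w
    constructor
    · rintro ⟨y, ⟨u, rfl⟩, rfl⟩
      exact ⟨u.1, u.2, rfl⟩
    · rintro ⟨u, hu, rfl⟩
      exact ⟨f.restrict hU ⟨u, hu⟩, ⟨⟨u, hu⟩, rfl⟩, rfl⟩
  rw [← hE, Submodule.finrank_map_subtype_eq]

theorem finrank_range_split {F : Type u} [Field F] {V : Type v} [AddCommGroup V] [Module F V]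
    [FiniteDimensional F V]
    (f : Module.End F V) (U W : Submodule F V) (hUW : IsCompl U W)
    (hU : ∀ v ∈ U, f v ∈ U) (hW : ∀ v ∈ W, f v ∈ W) :
    Module.finrank F (LinearMap.range f) =
      Module.finrank F (U.map f) + Module.finrank F (W.map f) := by
  have h1 : LinearMap.range f = U.map f ⊔ W.map f := by
    rw [← Submodule.map_sup, hUW.sup_eq_top, Submodule.map_top]
  have h2 : U.map f ⊓ W.map f = ⊥ := by
    have hle1 : U.map f ≤ U := by
      rintro _ ⟨u, hu, rfl⟩; exact hU u hu
    have hle2 : W.map f ≤ W := by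
      rintro _ ⟨u, hu, rfl⟩; exact hW u hu
    exact le_bot_iff.mp ((inf_le_inf hle1 hle2).trans (le_of_eq hUW.inf_eq_bot))
  have h3 := Submodule.finrank_sup_add_finrank_inf_eq (U.map f) (W.map f)
  rw [h2, finrank_bot, add_zero] at h3
  rw [h1, h3]

theorem restrict_nilp {F : Type u} [Field F] {V : Type v} [AddCommGroup V] [Module F V]
    (N : Module.End F V) (hN : IsNilpotent N) (U : Submodule F V) (hU : ∀ v ∈ U, N v ∈ U) :
    IsNilpotent (N.restrict hU) := by
  obtain ⟨k, hk⟩ := hN
  refine ⟨k, ?_⟩
  rw [Module.End.pow_restrict k hU]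
  apply LinearMap.ext
  intro u
  apply Subtype.ext
  rw [LinearMap.restrict_coe_apply, hk]
  rfl

theorem jtype_add {F : Type u} [Field F] {V : Type v} [AddCommGroup V] [Module F V]
    [FiniteDimensional F V]
    (N : Module.End F V) (hN : IsNilpotent N) (U W : Submodule F V) (hUW : IsCompl U W)
    (hU : ∀ v ∈ U, N v ∈ U) (hW : ∀ v ∈ W, N v ∈ W)
    (hNU : IsNilpotent (N.restrict hU)) (hNW : IsNilpotent (N.restrict hW)) :
    jtype N hN = jtype (N.restrict hU) hNU + jtype (N.restrict hW) hNW := by
  apply type_unique _ _ (jtype_pos N hN)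
  · intro a ha
    rcases Multiset.mem_add.mp ha with h | h
    · exact jtype_pos _ hNU a h
    · exact jtype_pos _ hNW a h
  · intro k
    rw [Multiset.map_add, Multiset.sum_add, ← jtype_rank N hN k, ← jtype_rank _ hNU k,
      ← jtype_rank _ hNW k]
    rw [Module.End.pow_restrict k hU, Module.End.pow_restrict k hW]
    rw [finrank_range_restrict, finrank_range_restrict]
    exact finrank_range_split (N ^ k) U W hUW (Module.End.pow_apply_mem_of_forall_mem k hU)
      (Module.End.pow_apply_mem_of_forall_mem k hW)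

theorem sub_one_pow_pred {F : Type u} [Field F] {R : Type*} [Ring R] [Algebra F R] (p : ℕ)
    [Fact p.Prime] [CharP F p] (X : R) :
    (X - 1) ^ (p - 1) = ∑ i ∈ Finset.range p, X ^ i := by
  have hp : p.Prime := Fact.out
  have hpoly : ((Polynomial.X : Polynomial F) - 1) ^ (p - 1) =
      ∑ i ∈ Finset.range p, (Polynomial.X : Polynomial F) ^ i := by
    have h1 : (Polynomial.X - 1 : Polynomial F) ≠ 0 := by
      have := Polynomial.X_sub_C_ne_zero (1 : F)
      rwa [Polynomial.C_1] at this
    apply mul_left_cancel₀ h1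
    rw [← pow_succ', Nat.sub_add_cancel hp.pos, sub_pow_char, one_pow, mul_geom_sum]
  have := congrArg (Polynomial.aeval X) hpoly
  simpa [map_sub, map_pow, map_sum] using this


/-- Elements of order `p` of PSL_n(q) and imprimitive subgroups: a necessary condition. Here `T = PSL_n(F)` for a field `F` with `q = p^f` elements (`n ≥ 2`, `(n, q) ≠ (2, 2), (2, 3)`), `n = a·t` with `t ≥ 2`, and Ω is the set of direct-sum decompositions of `F^n` into `t` subspaces of dimension `a` (unordered; their number is the number of ordered ones divided by `t!`), whose stabilizers are the imprimitive subgroups of type GL_a(q) ≀ S_t (maximal except in some small cases; maximality is not assumed); an element of `T` of prime order `r` (a matrix `x` of determinant 1 with `x^r` scalar, `x` not scalar) fixes a point of Ω when it permutes the summands of some such decomposition. Suppose `p > 2` divides the number of such decompositions. If every element of `T` of order `p` stabilizes such a decomposition, then every partition of `n` into parts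 of size at most `p` in which the part `p` occurs fewer than `a` times contains (as a sub-multiset) a partition of `a`. -/
theorem result {F : Type*} [Field F] [Fintype F] {p : ℕ} [Fact p.Prime] [CharP F p] {q : ℕ} (hq : Fintype.card F = q)
    (n a t : ℕ) (hn : 2 ≤ n) (hT : (n, q) ≠ (2, 2) ∧ (n, q) ≠ (2, 3)) (hat : n = a * t) (ha : 1 ≤ a) (ht : 2 ≤ t)
    (hp : 2 < p) (hΩ : p ∣ Nat.card {D : Fin t → Submodule F (Fin n → F) // Cfsg.Geo.IsMDecomposition a D} / Nat.factorial t)
    (h : ∀ x : Matrix.SpecialLinearGroup (Fin n) F,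
      (∃ z : F, ((x ^ p : Matrix.SpecialLinearGroup (Fin n) F) : Matrix (Fin n) (Fin n) F) = z • (1 : Matrix (Fin n) (Fin n) F)) →
      (∀ z : F, (x : Matrix (Fin n) (Fin n) F) ≠ z • (1 : Matrix (Fin n) (Fin n) F)) →
      ∃ D : Fin t → Submodule F (Fin n → F), Cfsg.Geo.IsMDecomposition a D ∧
        ∃ σ : Equiv.Perm (Fin t), ∀ j, (D j).map (Matrix.toLin' (x : Matrix (Fin n) (Fin n) F)) = D (σ j)) :
    (∀ μ : Multiset ℕ, (∀ b ∈ μ, 0 < b ∧ b ≤ p) → μ.sum = n → μ.count p < a → ∃ ν : Multiset ℕ, ν ≤ μ ∧ ν.sum = a) := by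
  classical
  have hp' : p.Prime := Fact.out
  intro μ hμ hsum hcount
  by_cases hall : ∀ b ∈ μ, b = 1
  · have hμeq : μ = Multiset.replicate (Multiset.card μ) 1 := Multiset.eq_replicate_card.mpr hall
    have hcard : Multiset.card μ = n := by
      rw [hμeq, Multiset.sum_replicate, smul_eq_mul, mul_one] at hsum
      exact hsum
    have han : a ≤ n := by
      rw [hat]; exact Nat.le_mul_of_pos_right a (by omega)
    refine ⟨Multiset.replicate a 1, ?_, ?_⟩
    · rw [hμeq, hcard]; exact (Multiset.replicate_le_replicate 1).mpr han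
    · rw [Multiset.sum_replicate, smul_eq_mul, mul_one]
  · push_neg at hall
    obtain ⟨b₀, hb₀, hb₀1⟩ := hall
    have hb₀2 : 2 ≤ b₀ := by have := (hμ b₀ hb₀).1; omega
    obtain ⟨N, hN, hNμ⟩ := exists_of_type (F := F) (V := Fin n → F) μ (fun b hb => (hμ b hb).1)
      (by rw [hsum, Module.finrank_fin_fun])
    have hNp : N ^ p = 0 :=
      (pow_eq_zero_iff_jtype N hN p).mpr (by rw [hNμ]; exact fun b hb => (hμ b hb).2)
    have hN0 : N ≠ 0 := by
      intro h0
      have h1 : N ^ 1 = 0 := by rw [pow_one, h0]
      have h2 := (pow_eq_zero_iff_jtype N hN 1).mp h1 b₀ (by rw [hNμ]; exact hb₀)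
      omega
    haveI : Nonempty (Fin n) := ⟨⟨0, by omega⟩⟩
    obtain ⟨M, hM⟩ : ∃ M : Matrix (Fin n) (Fin n) F, M = LinearMap.toMatrix' N := ⟨_, rfl⟩
    have hMN : Matrix.toLin' M = N := by rw [hM, Matrix.toLin'_toMatrix']
    have hMp : M ^ p = 0 := by
      have h1 : LinearMap.toMatrix' (N ^ p) = (LinearMap.toMatrix' N) ^ p :=
        map_pow (LinearMap.toMatrixAlgEquiv' (R := F) (n := Fin n)) N p
      rw [hM, ← h1, hNp, map_zero]
    have hAp : (1 + M) ^ p = 1 := by
      rw [add_pow_char_of_commute p (Commute.one_left M), one_pow, hMp, add_zero]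
    have hdet : (1 + M).det = 1 := by
      have h1 : ((1 + M).det) ^ p = 1 := by rw [← Matrix.det_pow, hAp, Matrix.det_one]
      have h2 : ((1 + M).det - 1) ^ p = 0 := by rw [sub_pow_char, h1, one_pow, sub_self]
      exact sub_eq_zero.mp ((pow_eq_zero_iff hp'.ne_zero).mp h2)
    obtain ⟨x, hx⟩ : ∃ x : Matrix.SpecialLinearGroup (Fin n) F,
        (x : Matrix (Fin n) (Fin n) F) = 1 + M := ⟨⟨_, hdet⟩, rfl⟩
    have hyp1 : ∃ z : F, ((x ^ p : Matrix.SpecialLinearGroup (Fin n) F) :
        Matrix (Fin n) (Fin n) F) = z • (1 : Matrix (Fin n) (Fin n) F) := by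
      refine ⟨1, ?_⟩
      rw [Matrix.SpecialLinearGroup.coe_pow, hx, hAp, one_smul]
    have hyp2 : ∀ z : F, (x : Matrix (Fin n) (Fin n) F) ≠ z • (1 : Matrix (Fin n) (Fin n) F) := by
      intro z hz
      rw [hx] at hz
      have hMz : M = (z - 1) • (1 : Matrix (Fin n) (Fin n) F) := by
        rw [sub_smul, one_smul, ← hz, add_sub_cancel_left]
      have hz1 : (z - 1) ^ p = 0 := by
        have h1 := hMp
        rw [hMz, smul_pow, one_pow] at h1
        have h2 := congrFun (congrFun h1 ⟨0, by omega⟩) ⟨0, by omega⟩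
        rw [Matrix.smul_apply, Matrix.one_apply_eq, smul_eq_mul, mul_one, Matrix.zero_apply] at h2
        exact h2
      have hz2 : z - 1 = 0 := (pow_eq_zero_iff hp'.ne_zero).mp hz1
      apply hN0
      rw [← hMN, hMz, hz2, zero_smul, map_zero]
    obtain ⟨D, hD, σ, hσ⟩ := h x hyp1 hyp2
    rw [hx] at hσ
    have hX : Matrix.toLin' (1 + M) = 1 + N := by
      rw [map_add, hMN, Matrix.toLin'_one]; rfl
    have hXp : (1 + N) ^ p = 1 := by
      have h1 : ∀ k : ℕ, (Matrix.toLin' (1 + M)) ^ k = Matrix.toLin' ((1 + M) ^ k) := by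
        intro k
        induction k with
        | zero => rw [pow_zero, pow_zero, Matrix.toLin'_one]; rfl
        | succ k ih => rw [pow_succ, pow_succ, ih, Matrix.toLin'_mul]; rfl
      rw [← hX, h1, hAp, Matrix.toLin'_one]; rfl
    rw [hX] at hσ
    have hpow : ∀ (k : ℕ) (j : Fin t), (D j).map ((1 + N) ^ k) = D ((σ ^ k) j) := by
      intro k
      induction k with
      | zero =>
        intro j
        rw [pow_zero, pow_zero]
        show Submodule.map LinearMap.id (D j) = D j
        exact Submodule.map_id _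
      | succ k ih =>
        intro j
        rw [pow_succ', pow_succ', Module.End.mul_eq_comp, Submodule.map_comp, ih, hσ]
        rfl
    have hDne : ∀ j, D j ≠ ⊥ := by
      intro j hj
      have := hD.finrank_eq j
      rw [hj, finrank_bot] at this
      omega
    have hDinj : Function.Injective D := hD.indep.injective hDne
    have hσp : ∀ j, (σ ^ p) j = j := by
      intro j
      apply hDinj
      rw [← hpow, hXp]
      show Submodule.map LinearMap.id (D j) = D j
      exact Submodule.map_id _
    have hfix : ∀ j, σ j = j := by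
      intro j
      by_contra hj
      have hni : ∀ i, 0 < i → i < p → (σ ^ i) j ≠ j := by
        intro i hi0 hip hij
        have hcop : Nat.Coprime i p :=
          Nat.Coprime.symm ((Nat.Prime.coprime_iff_not_dvd hp').mpr (Nat.not_dvd_of_pos_of_lt hi0 hip))
        obtain ⟨m, -, hm⟩ := Nat.exists_mul_mod_eq_one_of_coprime hcop hp'.one_lt
        have hdm := Nat.div_add_mod (i * m) p
        rw [hm] at hdm
        have h1 : (σ ^ (i * m)) j = j := by
          rw [pow_mul]
          exact fixpow (σ ^ i) j m hij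
        rw [← hdm, pow_succ', pow_mul] at h1
        have h2 : ((σ ^ p) ^ (i * m / p)) j = j := fixpow (σ ^ p) j _ (hσp j)
        apply hj
        calc σ j = σ (((σ ^ p) ^ (i * m / p)) j) := by rw [h2]
          _ = j := h1
      have hsum' : N ^ (p - 1) = ∑ i ∈ Finset.range p, (1 + N) ^ i := by
        have := sub_one_pow_pred (F := F) p (1 + N)
        rwa [add_sub_cancel_left] at this
      have hinj : ∀ v ∈ D j, (N ^ (p - 1)) v = 0 → v = 0 := by
        intro v hv h0
        rw [hsum', LinearMap.sum_apply] at h0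
        rw [← Finset.add_sum_erase (Finset.range p) _ (Finset.mem_range.mpr hp'.pos)] at h0
        have hmem : ∑ i ∈ (Finset.range p).erase 0, ((1 + N) ^ i) v ∈
            ⨆ (k : Fin t) (_ : k ≠ j), D k := by
          apply Submodule.sum_mem
          intro i hi
          have hi0 : i ≠ 0 := Finset.ne_of_mem_erase hi
          have hip : i < p := Finset.mem_range.mp (Finset.mem_of_mem_erase hi)
          have h1 : ((1 + N) ^ i) v ∈ D ((σ ^ i) j) := by
            rw [← hpow]
            exact Submodule.mem_map_of_mem hv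
          exact (le_iSup₂ (f := fun (k : Fin t) (_ : k ≠ j) => D k) ((σ ^ i) j)
            (hni i (Nat.pos_of_ne_zero hi0) hip)) h1
        have hv' : v = - ∑ i ∈ (Finset.range p).erase 0, ((1 + N) ^ i) v := by
          rw [pow_zero] at h0
          exact eq_neg_of_add_eq_zero_left h0
        have hdisj := hD.indep j
        rw [Submodule.disjoint_def] at hdisj
        exact hdisj v hv (by rw [hv']; exact Submodule.neg_mem _ hmem)
      have hrank : a ≤ Module.finrank F (LinearMap.range (N ^ (p - 1))) := by
        have hg : Function.Injective ((N ^ (p - 1)).domRestrict (D j)) := by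
          rw [← LinearMap.ker_eq_bot, LinearMap.ker_eq_bot']
          intro u hu
          exact Subtype.ext (hinj u.1 u.2 hu)
        have h1 := LinearMap.finrank_range_of_inj hg
        rw [hD.finrank_eq j] at h1
        rw [← h1]
        apply Submodule.finrank_mono
        rintro _ ⟨u, rfl⟩
        exact ⟨u.1, rfl⟩
      have hkey := ms_key μ p hp'.one_le
      have hR : ∀ k, (μ.map (fun b => b - k)).sum = Module.finrank F (LinearMap.range (N ^ k)) := by
        intro k; rw [jtype_rank N hN k, hNμ]
      rw [hR, hR, hR] at hkey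
      have hz1 : Module.finrank F (LinearMap.range (N ^ p)) = 0 := by
        rw [hNp, LinearMap.range_zero, finrank_bot]
      have hz2 : Module.finrank F (LinearMap.range (N ^ (p + 1))) = 0 := by
        rw [pow_succ, hNp, zero_mul, LinearMap.range_zero, finrank_bot]
      rw [hz1, hz2] at hkey
      omega
    have hinvD : ∀ j, ∀ v ∈ D j, N v ∈ D j := by
      intro j v hv
      have h1 : (1 + N) v ∈ D j := by
        have := hσ j
        rw [hfix j] at this
        rw [← this]
        exact Submodule.mem_map_of_mem hv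
      have h2 : N v = (1 + N) v - v := by
        show N v = (v + N v) - v
        rw [add_sub_cancel_left]
      rw [h2]
      exact Submodule.sub_mem _ h1 hv
    obtain ⟨j₀⟩ : Nonempty (Fin t) := ⟨⟨0, by omega⟩⟩
    have hUW : IsCompl (D j₀) (⨆ (k : Fin t) (_ : k ≠ j₀), D k) := by
      refine ⟨hD.indep j₀, ?_⟩
      rw [codisjoint_iff, eq_top_iff, ← hD.iSup_eq_top]
      apply iSup_le
      intro k
      by_cases hk : k = j₀
      · rw [hk]; exact le_sup_left
      · exact le_sup_of_le_right (le_iSup₂ (f := fun (k : Fin t) (_ : k ≠ j₀) => D k) k hk)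
    have hWinv : ∀ v ∈ (⨆ (k : Fin t) (_ : k ≠ j₀), D k),
        N v ∈ (⨆ (k : Fin t) (_ : k ≠ j₀), D k) := by
      intro v hv
      have h1 : (⨆ (k : Fin t) (_ : k ≠ j₀), D k).map N ≤ ⨆ (k : Fin t) (_ : k ≠ j₀), D k := by
        rw [Submodule.map_iSup]
        apply iSup_le
        intro k
        rw [Submodule.map_iSup]
        apply iSup_le
        intro hk
        refine le_trans ?_ (le_iSup₂ (f := fun (k : Fin t) (_ : k ≠ j₀) => D k) k hk)
        rintro _ ⟨u, hu, rfl⟩
        exact hinvD k u hu
      exact h1 (Submodule.mem_map_of_mem hv)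
    have hNU := restrict_nilp N hN (D j₀) (hinvD j₀)
    have hNW := restrict_nilp N hN _ hWinv
    have hadd := jtype_add N hN (D j₀) _ hUW (hinvD j₀) hWinv hNU hNW
    refine ⟨jtype (N.restrict (hinvD j₀)) hNU, ?_, ?_⟩
    · rw [← hNμ, hadd]; exact Multiset.le_add_right _ _
    · rw [jtype_sum]; exact hD.finrank_eq j₀

end Cfsg.Agent.S5959
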