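import Cfsg.Statements.S5960
import Mathlib
import Cfsg.Agent.Lib.helper19.SympNF
import Cfsg.Agent.S0776

set_option autoImplicit false
open scoped MatrixGroups
open Cfsg

namespace Cfsg.Agent.S5960



/-- Involutions of PSp_n(q) and imprimitive subgroups. Here `T = PSp_n(q)`, `n = 2d ≥ 4`, `(n, q) ≠ (4, 2)`, realised through the symplectic matrices over the field `F` with `q` elements and the standard alternating form; `n = a·t` with `a` even and `t ≥ 2`, and Ω is the (nonempty) set of orthogonal decompositions of `F^n` into `t` nondegenerate subspaces of dimension `a` (unordered; counted as ordered ones divided by `t!`), whose stabilizers are the imprimitive subgroups of type Sp_a(q) ≀ S_t (maximality is not assumed); an element of `T` of prime order `r` (a symplectic matrix `x` with `x^r` scalar, `x` not scalar) fixes a point of Ω when it permutes the summands of some such decomposition. If the number of such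 decompositions is even, then every involution of `T` stabilizes one of them (the action is 2-elusive). -/
theorem result {F : Type*} [Field F] [Fintype F] {p : ℕ} [Fact p.Prime] [CharP F p] {q : ℕ} (hq : Fintype.card F = q)
    (d : ℕ) (hd : 2 ≤ d) (hT : (d, q) ≠ (2, 2))
    (a t : ℕ) (hat : 2 * d = a * t) (ha : 2 ≤ a) (hae : Even a) (ht : 2 ≤ t) (hΩ : 2 ∣ Nat.card {D : Fin t → Submodule F (Fin d ⊕ Fin d → F) // (Cfsg.Geo.IsMDecomposition a D ∧ (∀ j, ∀ u ∈ D j, u ≠ 0 → ∃ v ∈ D j, Cfsg.sympForm d F u v ≠ 0) ∧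
          (∀ j j', j ≠ j' → ∀ u ∈ D j, ∀ v ∈ D j', Cfsg.sympForm d F u v = 0))} / Nat.factorial t)
    (x : ↥(Matrix.symplecticGroup (Fin d) F))
    (hx1 : ∃ z : F, ((x ^ 2 : ↥(Matrix.symplecticGroup (Fin d) F)) : Matrix (Fin d ⊕ Fin d) (Fin d ⊕ Fin d) F) = z • (1 : Matrix (Fin d ⊕ Fin d) (Fin d ⊕ Fin d) F))
    (hx2 : ∀ z : F, (x : Matrix (Fin d ⊕ Fin d) (Fin d ⊕ Fin d) F) ≠ z • (1 : Matrix (Fin d ⊕ Fin d) (Fin d ⊕ Fin d) F)) :
    ∃ D : Fin t → Submodule F (Fin d ⊕ Fin d → F), (Cfsg.Geo.IsMDecomposition a D ∧ (∀ j, ∀ u ∈ D j, u ≠ 0 → ∃ v ∈ D j, Cfsg.sympForm d F u v ≠ 0) ∧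
          (∀ j j', j ≠ j' → ∀ u ∈ D j, ∀ v ∈ D j', Cfsg.sympForm d F u v = 0)) ∧
        ∃ σ : Equiv.Perm (Fin t), ∀ j, (D j).map (Matrix.toLin' (x : Matrix (Fin d ⊕ Fin d) (Fin d ⊕ Fin d) F)) = D (σ j) := by
  classical
  obtain ⟨z, hzx⟩ := hx1
  have hxx : (x : Matrix (Fin d ⊕ Fin d) (Fin d ⊕ Fin d) F) *
      (x : Matrix (Fin d ⊕ Fin d) (Fin d ⊕ Fin d) F) = z • 1 := by
    rw [← hzx, pow_two]; rfl
  have hz0 : z ≠ 0 := by
    rintro rfl
    rw [zero_smul] at hxx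
    have h1 : (x : Matrix (Fin d ⊕ Fin d) (Fin d ⊕ Fin d) F) *
        (x : Matrix (Fin d ⊕ Fin d) (Fin d ⊕ Fin d) F) *
        ((x⁻¹ * x⁻¹ : ↥(Matrix.symplecticGroup (Fin d) F)) :
          Matrix (Fin d ⊕ Fin d) (Fin d ⊕ Fin d) F) = 1 := by
      have h : x * x * (x⁻¹ * x⁻¹) = 1 := by group
      exact congrArg Subtype.val h
    rw [hxx, zero_mul] at h1
    have h2 := congrFun (congrFun h1 (Sum.inl ⟨0, by omega⟩)) (Sum.inl ⟨0, by omega⟩)
    simp at h2
  have hT' : ∀ v, Matrix.toLin' (x : Matrix (Fin d ⊕ Fin d) (Fin d ⊕ Fin d) F)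
      (Matrix.toLin' (x : Matrix (Fin d ⊕ Fin d) (Fin d ⊕ Fin d) F) v) = z • v := by
    intro v
    rw [← LinearMap.comp_apply, ← Matrix.toLin'_mul, hxx, Matrix.toLin'_apply,
      Matrix.smul_mulVec, Matrix.one_mulVec]
  have hiso : ∀ u v, Cfsg.Agent.S0776.sB d F
      (Matrix.toLin' (x : Matrix (Fin d ⊕ Fin d) (Fin d ⊕ Fin d) F) u)
      (Matrix.toLin' (x : Matrix (Fin d ⊕ Fin d) (Fin d ⊕ Fin d) F) v) =
      Cfsg.Agent.S0776.sB d F u v := by
    intro u v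
    rw [Cfsg.Agent.S0776.sB_apply, Cfsg.Agent.S0776.sB_apply, Matrix.toLin'_apply,
      Matrix.toLin'_apply]
    exact Cfsg.Agent.S0766.sp_pres x u v
  have halt : ∀ v, Cfsg.Agent.S0776.sB d F v v = 0 := fun v => Cfsg.Agent.S0776.sB_alt v
  have hnd : ∀ u, u ≠ 0 → ∃ v, Cfsg.Agent.S0776.sB d F u v ≠ 0 := by
    intro u hu
    by_contra h
    push Not at h
    exact hu (Cfsg.Agent.S0776.sB_nondeg.1 u h)
  obtain ⟨a', ha'⟩ := hae
  have hdim : Module.finrank F (Fin d ⊕ Fin d → F) = 2 * (a' * t) := by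
    rw [Module.finrank_fintype_fun_eq_card, Fintype.card_sum, Fintype.card_fin]
    have h1 : (a' + a') * t = a' * t + a' * t := by ring
    rw [ha', h1] at hat
    omega
  obtain ⟨D, hD1, hD2, hD3, hD4, hD5, σ, hσ⟩ :=
    Cfsg.Agent.Lib.helper19.SympNF.symp_decomp (Cfsg.Agent.S0776.sB d F) halt hnd _ z hz0
      hiso hT' a' t (by omega) hdim
  refine ⟨D, ⟨⟨ht, by omega, ?_, hD2, hD3⟩, ?_, ?_⟩, σ, hσ⟩
  · intro j; rw [hD1, ha']; ring
  · intro j u hu hu0
    obtain ⟨v, hv, hne⟩ := hD4 j u hu hu0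
    exact ⟨v, hv, by rw [← Cfsg.Agent.S0776.sB_apply]; exact hne⟩
  · intro j j' hjj u hu v hv
    rw [← Cfsg.Agent.S0776.sB_apply]; exact hD5 j j' hjj u hu v hv

end Cfsg.Agent.S5960
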