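import Cfsg.Statements.S5962
import Mathlib
import Cfsg.Agent.Lib.helper19.SympNF
import Cfsg.Agent.S0776

set_option autoImplicit false
open scoped MatrixGroups
open Cfsg

namespace Cfsg.Agent.S5962



/-- Involutions of PSp_n(q), q odd, and the subgroups GL_{n/2}(q).2. Here `T = PSp_n(q)`, `n = 2d ≥ 4`, `q` odd, realised through the symplectic matrices over the field `F` with `q` elements; Ω is the set of unordered pairs `{U, W}` of complementary totally isotropic `d`-spaces (`F^n = U ⊕ W`), whose stabilizers are the subgroups of type GL_d(q).2 (maximal except in some small cases; maximality is not assumed); an element of `T` of prime order `r` (a symplectic matrix `x` with `x^r` scalar, `x` not scalar) fixes such a pair when it fixes or interchanges `U` and `W`. If the number of such pairs is even, every involution of `T` fixes one of them (the action is 2-elusive). -/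
theorem result {F : Type*} [Field F] [Fintype F] {p : ℕ} [Fact p.Prime] [CharP F p] {q : ℕ} (hq : Fintype.card F = q)
    (d : ℕ) (hd : 2 ≤ d) (hT : (d, q) ≠ (2, 2)) (hodd : Odd q)
    (hΩ : 2 ∣ Nat.card {P : Submodule F (Fin d ⊕ Fin d → F) × Submodule F (Fin d ⊕ Fin d → F) // IsCompl P.1 P.2 ∧ (∀ u ∈ P.1, ∀ v ∈ P.1, Cfsg.sympForm d F u v = 0) ∧ (∀ u ∈ P.2, ∀ v ∈ P.2, Cfsg.sympForm d F u v = 0)} / 2)
    (x : ↥(Matrix.symplecticGroup (Fin d) F))
    (hx1 : ∃ z : F, ((x ^ 2 : ↥(Matrix.symplecticGroup (Fin d) F)) : Matrix (Fin d ⊕ Fin d) (Fin d ⊕ Fin d) F) = z • (1 : Matrix (Fin d ⊕ Fin d) (Fin d ⊕ Fin d) F))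
    (hx2 : ∀ z : F, (x : Matrix (Fin d ⊕ Fin d) (Fin d ⊕ Fin d) F) ≠ z • (1 : Matrix (Fin d ⊕ Fin d) (Fin d ⊕ Fin d) F)) :
    ∃ U W : Submodule F (Fin d ⊕ Fin d → F), IsCompl U W ∧ (∀ u ∈ U, ∀ v ∈ U, Cfsg.sympForm d F u v = 0) ∧ (∀ u ∈ W, ∀ v ∈ W, Cfsg.sympForm d F u v = 0) ∧
        ((U.map (Matrix.toLin' (x : Matrix (Fin d ⊕ Fin d) (Fin d ⊕ Fin d) F)) = U ∧ W.map (Matrix.toLin' (x : Matrix (Fin d ⊕ Fin d) (Fin d ⊕ Fin d) F)) = W) ∨
         (U.map (Matrix.toLin' (x : Matrix (Fin d ⊕ Fin d) (Fin d ⊕ Fin d) F)) = W ∧ W.map (Matrix.toLin' (x : Matrix (Fin d ⊕ Fin d) (Fin d ⊕ Fin d) F)) = U)) := by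
  classical
  obtain ⟨z, hzx⟩ := hx1
  have hxx : (x : Matrix (Fin d ⊕ Fin d) (Fin d ⊕ Fin d) F) *
      (x : Matrix (Fin d ⊕ Fin d) (Fin d ⊕ Fin d) F) = z • 1 := by
    rw [← hzx, pow_two]; rfl
  have hz0 : z ≠ 0 := by
    rintro rfl
    rw [zero_smul] at hxx
    have h1 : (x : Matrix (Fin d ⊕ Fin d) (Fin d ⊕ Fin d) F) *
        (x : Matrix (Fin d ⊕ Fin d) (Fin d ⊕ Fin d) F) *
        ((x⁻¹ * x⁻¹ : ↥(Matrix.symplecticGroup (Fin d) F)) :
          Matrix (Fin d ⊕ Fin d) (Fin d ⊕ Fin d) F) = 1 := by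
      have h : x * x * (x⁻¹ * x⁻¹) = 1 := by group
      exact congrArg Subtype.val h
    rw [hxx, zero_mul] at h1
    have h2 := congrFun (congrFun h1 (Sum.inl ⟨0, by omega⟩)) (Sum.inl ⟨0, by omega⟩)
    simp at h2
  have hT' : ∀ v, Matrix.toLin' (x : Matrix (Fin d ⊕ Fin d) (Fin d ⊕ Fin d) F)
      (Matrix.toLin' (x : Matrix (Fin d ⊕ Fin d) (Fin d ⊕ Fin d) F) v) = z • v := by
    intro v
    rw [← LinearMap.comp_apply, ← Matrix.toLin'_mul, hxx, Matrix.toLin'_apply,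
      Matrix.smul_mulVec, Matrix.one_mulVec]
  have hiso : ∀ u v, Cfsg.Agent.S0776.sB d F
      (Matrix.toLin' (x : Matrix (Fin d ⊕ Fin d) (Fin d ⊕ Fin d) F) u)
      (Matrix.toLin' (x : Matrix (Fin d ⊕ Fin d) (Fin d ⊕ Fin d) F) v) =
      Cfsg.Agent.S0776.sB d F u v := by
    intro u v
    rw [Cfsg.Agent.S0776.sB_apply, Cfsg.Agent.S0776.sB_apply, Matrix.toLin'_apply,
      Matrix.toLin'_apply]
    exact Cfsg.Agent.S0766.sp_pres x u v
  have halt : ∀ v, Cfsg.Agent.S0776.sB d F v v = 0 := fun v => Cfsg.Agent.S0776.sB_alt v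
  have hnd : ∀ u, u ≠ 0 → ∃ v, Cfsg.Agent.S0776.sB d F u v ≠ 0 := by
    intro u hu
    by_contra h
    push Not at h
    exact hu (Cfsg.Agent.S0776.sB_nondeg.1 u h)
  have h2 : (2 : F) ≠ 0 := by
    intro h
    have h1 : addOrderOf (1 : F) = 2 := by
      apply addOrderOf_eq_prime
      · rw [two_nsmul, one_add_one_eq_two, h]
      · exact one_ne_zero
    have h3 : addOrderOf (1 : F) ∣ Fintype.card F := addOrderOf_dvd_card
    rw [h1, hq] at h3
    rcases hodd with ⟨k, hk⟩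
    omega
  obtain ⟨U, W, hc, hU, hW, hmap⟩ :=
    Cfsg.Agent.Lib.helper19.SympNF.polar_pair (Cfsg.Agent.S0776.sB d F) halt hnd h2 _ z hz0
      hiso hT'
  refine ⟨U, W, hc, ?_, ?_, hmap⟩
  · intro u hu v hv
    rw [← Cfsg.Agent.S0776.sB_apply]; exact hU u hu v hv
  · intro u hu v hv
    rw [← Cfsg.Agent.S0776.sB_apply]; exact hW u hu v hv

end Cfsg.Agent.S5962
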