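import Cfsg.Statements.S5963
-- import your own Cfsg.Agent.* helpers here
import Mathlib
import Cfsg.Agent.Lib.helper4.SpPolarDer

set_option autoImplicit false
open scoped MatrixGroups
open Cfsg

namespace Cfsg.Agent.S5963

/-- Derangements of odd prime order of PSp_n(q), q odd, on pairs of complementary totally isotropic subspaces. Here `T = PSp_n(q)`, `n = 2d ≥ 4`, `q` odd, realised through the symplectic matrices over the field `F` with `q` elements; Ω is the set of unordered pairs `{U, W}` of complementary totally isotropic `d`-spaces (`F^n = U ⊕ W`), whose stabilizers are the subgroups of type GL_d(q).2 (maximal except in some small cases; maximality is not assumed); an element of `T` of prime order `r` (a symplectic matrix `x` with `x^r` scalar, `x` not scalar) fixes such a pair when it fixes or interchanges `U` and `W`. For every odd prime `r ≠ p` dividing the number of such pairs, some element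 of `T` of order `r` fixes no such pair (the action is never `r`-elusive for odd `r ≠ p`). -/
theorem result {F : Type*} [Field F] [Fintype F] {p : ℕ} [Fact p.Prime] [CharP F p] {q : ℕ} (hq : Fintype.card F = q)
    (d : ℕ) (hd : 2 ≤ d) (hT : (d, q) ≠ (2, 2)) (hodd : Odd q)
    (r : ℕ) [Fact r.Prime] (hr2 : r ≠ 2) (hrp : r ≠ p) (hΩ : r ∣ Nat.card {P : Submodule F (Fin d ⊕ Fin d → F) × Submodule F (Fin d ⊕ Fin d → F) // IsCompl P.1 P.2 ∧ (∀ u ∈ P.1, ∀ v ∈ P.1, Cfsg.sympForm d F u v = 0) ∧ (∀ u ∈ P.2, ∀ v ∈ P.2, Cfsg.sympForm d F u v = 0)} / 2) :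
    ∃ x : ↥(Matrix.symplecticGroup (Fin d) F),
      (∃ z : F, ((x ^ r : ↥(Matrix.symplecticGroup (Fin d) F)) : Matrix (Fin d ⊕ Fin d) (Fin d ⊕ Fin d) F) = z • (1 : Matrix (Fin d ⊕ Fin d) (Fin d ⊕ Fin d) F)) ∧
      (∀ z : F, (x : Matrix (Fin d ⊕ Fin d) (Fin d ⊕ Fin d) F) ≠ z • (1 : Matrix (Fin d ⊕ Fin d) (Fin d ⊕ Fin d) F)) ∧
      ¬ (∃ U W : Submodule F (Fin d ⊕ Fin d → F), IsCompl U W ∧ (∀ u ∈ U, ∀ v ∈ U, Cfsg.sympForm d F u v = 0) ∧ (∀ u ∈ W, ∀ v ∈ W, Cfsg.sympForm d F u v = 0) ∧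
        ((U.map (Matrix.toLin' (x : Matrix (Fin d ⊕ Fin d) (Fin d ⊕ Fin d) F)) = U ∧ W.map (Matrix.toLin' (x : Matrix (Fin d ⊕ Fin d) (Fin d ⊕ Fin d) F)) = W) ∨
         (U.map (Matrix.toLin' (x : Matrix (Fin d ⊕ Fin d) (Fin d ⊕ Fin d) F)) = W ∧ W.map (Matrix.toLin' (x : Matrix (Fin d ⊕ Fin d) (Fin d ⊕ Fin d) F)) = U))) := by
  classical
  subst hq
  have hp2 : p ≠ 2 := by
    rintro rfl
    obtain ⟨n, _, hcard⟩ := FiniteField.card F 2
    rw [hcard] at hodd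
    have h1 : Even (2 ^ (n : ℕ)) := (Nat.even_pow.mpr ⟨even_two, n.pos.ne'⟩)
    exact (Nat.not_even_iff_odd.mpr hodd) h1
  obtain ⟨j, hj1, hjd, hrj⟩ :=
    Cfsg.Agent.Lib.helper4.polar_prime_dvd (F := F) (p := p) rfl d (by omega) hodd r hrp hΩ
  have hex : ∃ k, 1 ≤ k ∧ r ∣ Fintype.card F ^ k + 1 := ⟨j, hj1, hrj⟩
  obtain ⟨k, ⟨hk1, hrk⟩, hkmin⟩ : ∃ k, (1 ≤ k ∧ r ∣ Fintype.card F ^ k + 1) ∧
      ∀ f, 1 ≤ f → r ∣ Fintype.card F ^ f + 1 → k ≤ f :=
    ⟨Nat.find hex, Nat.find_spec hex, fun f hf1 hf => Nat.find_min' hex ⟨hf1, hf⟩⟩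
  have hkd : k ≤ d := le_trans (hkmin j hj1 hrj) hjd
  obtain ⟨x, hx1, hx2, hx3⟩ := Cfsg.Agent.Lib.helper4.exists_sp_no_pair (F := F) (p := p) hp2 d k
    hk1 hkd r hr2 hrk
    (fun m hm hrm => Cfsg.Agent.Lib.helper4.minimal_plus_order (Fintype.card F) r k hr2 hk1 hrk
      hkmin m hm hrm)
  exact ⟨x, ⟨1, by rw [hx1, one_smul]⟩, hx2, hx3⟩

end Cfsg.Agent.S5963
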