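import Cfsg.Statements.S5964
-- import your own Cfsg.Agent.* helpers here
import Cfsg.Agent.Lib.helper4.Sub2
import Cfsg.Agent.Lib.helper4.Sub2b

set_option autoImplicit false
open scoped MatrixGroups
open Cfsg

namespace Cfsg.Agent.S5964

/-- Involutions of PSL_n(q) and subfield subgroups. Here `T = PSL_n(F)` for a field `F` with `q = p^f` elements (`n ≥ 2`, `(n, q) ≠ (2, 2), (2, 3)`), `F₀` is the subfield with `q₀` elements where `q = q₀^k` for a prime `k`, and `H` is the subgroup of matrices of determinant 1 lying in the subfield group of `F₀` (invertible matrices over `F₀` times scalars) — a maximal subgroup of type GL_n(q₀) (the case `n = 2`, `q₀ = 2` is excluded); Ω is the set of `T`-conjugates of `H` (cosets of `H`), so an element of `T` of prime order `r` (a matrix `x` of determinant 1 with `x^r` scalar, `x` not scalar) fixes a point of Ω when some conjugate of `x` by a matrix of determinant 1 lies in `H`. Suppose the index of `H` is even. Then every involution of `T` is conjugate in `T` into `H`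 if and only if either `q` is even, or `k = 2` and `(n)_2 ≤ (q − 1)_2`. (For `q` odd and `k` odd the index of `H` is odd, so that case does not arise.) -/
theorem result {F : Type*} [Field F] [Fintype F] {p : ℕ} [Fact p.Prime] [CharP F p] {q : ℕ} (hq : Fintype.card F = q)
    (n : ℕ) (hn : 2 ≤ n) (hT : (n, q) ≠ (2, 2) ∧ (n, q) ≠ (2, 3))
    (F₀ : Subfield F) (k q₀ : ℕ) (hk : k.Prime) (hF₀ : Nat.card ↥F₀ = q₀) (hqk : q = q₀ ^ k) (hC5 : ¬ (n = 2 ∧ q₀ = 2)) (hΩ : 2 ∣ ((Cfsg.Geo.subfieldSubgroup F₀ 1).comap (Matrix.SpecialLinearGroup.toGL : Matrix.SpecialLinearGroup (Fin n) F →* GL (Fin n) F)).index) :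
    (∀ x : Matrix.SpecialLinearGroup (Fin n) F,
      (∃ z : F, ((x ^ 2 : Matrix.SpecialLinearGroup (Fin n) F) : Matrix (Fin n) (Fin n) F) = z • (1 : Matrix (Fin n) (Fin n) F)) →
      (∀ z : F, (x : Matrix (Fin n) (Fin n) F) ≠ z • (1 : Matrix (Fin n) (Fin n) F)) →
      ∃ P : Matrix.SpecialLinearGroup (Fin n) F, P⁻¹ * x * P ∈ ((Cfsg.Geo.subfieldSubgroup F₀ 1).comap (Matrix.SpecialLinearGroup.toGL : Matrix.SpecialLinearGroup (Fin n) F →* GL (Fin n) F))) ↔
    (Odd q → (k = 2 ∧ padicValNat 2 n ≤ padicValNat 2 (q - 1))) := by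
  classical
  haveI : Fact (Nat.Prime 2) := ⟨Nat.prime_two⟩
  have hn0 : 0 < n := by omega
  by_cases hp2 : p = 2
  · subst hp2
    have hqe : ¬ Odd q := by
      rw [← hq]
      obtain ⟨m, -, hm⟩ := FiniteField.card F 2
      rw [hm, Nat.not_odd_iff_even]
      exact Nat.even_pow.mpr ⟨even_two, m.pos.ne'⟩
    constructor
    · intro _ ho
      exact absurd ho hqe
    · intro _ x hx _
      obtain ⟨z, hz⟩ := hx
      exact Cfsg.Agent.Lib.helper4.Sub2.conj_of_sq_two F₀ hn0 x z hz
  · have hF2 : ringChar F ≠ 2 := by rw [ringChar.eq F p]; exact hp2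
    have h2 : (2 : F) ≠ 0 := Ring.two_ne_zero hF2
    have hqodd : Odd q := by
      rw [← hq, Nat.odd_iff]; exact FiniteField.odd_card_of_char_ne_two hF2
    have hq1 : 1 < q := by rw [← hq]; exact Fintype.one_lt_card
    have hk2 : k = 2 := by
      by_contra hk2
      have hkodd : Odd k := hk.odd_of_ne_two hk2
      exact Cfsg.Agent.Lib.helper4.Sub2.index_odd hF2 F₀ q₀ k hn0 hF₀ (by rw [hq, hqk]) hkodd hΩ
    have hsq : ∀ a : F₀, a ≠ 0 → IsSquare (a : F) := fun a ha =>
      Cfsg.Agent.Lib.helper4.SubfieldConj.subfield_sq hF2 F₀ q₀ hF₀ (by rw [hq, hqk, hk2]) a ha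
    have hneg1 : IsSquare (-1 : F) := by
      have := hsq (-1) (by simp)
      simpa using this
    constructor
    · intro h _
      refine ⟨hk2, ?_⟩
      by_contra hcon
      push Not at hcon
      have hev : Even n := by
        by_contra hne
        rw [Nat.not_even_iff_odd] at hne
        rw [Cfsg.Agent.Lib.helper4.GLNum.val_odd n hne] at hcon
        omega
      obtain ⟨m, rfl⟩ := hev
      have hm : 0 < m := by omega
      have hval : padicValNat 2 (m + m) = 1 + padicValNat 2 m := by
        rw [← two_mul]; exact Cfsg.Agent.Lib.helper4.GLNum.val_two_mul m (by omega)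
      have hdvd : 2 ^ padicValNat 2 (Fintype.card F - 1) ∣ m := by
        rw [hq]
        exact (padicValNat_dvd_iff_le (by omega)).2 (by omega)
      obtain ⟨y, hy, hym⟩ := Cfsg.Agent.Lib.helper4.Sub2.nt_exists hF2 m hdvd
      have hz : ¬ IsSquare (-y) := by
        intro hs
        apply hy
        have := hneg1.mul hs
        simpa using this
      obtain ⟨x, hx2, hxns, hxbad⟩ := Cfsg.Agent.Lib.helper4.Sub2.exists_bad_sq F₀ m hm hsq (-y) hz
        (by rw [neg_neg]; exact hym)
      obtain ⟨P, hP⟩ := h x ⟨-y, hx2⟩ hxns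
      exact hxbad P hP
    · intro h x hx _
      obtain ⟨-, hval⟩ := h hqodd
      obtain ⟨z, hz⟩ := hx
      by_cases hzs : IsSquare z
      · obtain ⟨w, hw⟩ := hzs
        apply Cfsg.Agent.Lib.helper4.Sub2.conj_of_sq_split h2 F₀ hn0 x w
        rw [hz, hw, pow_two]
      · exfalso
        have hA : (x : Matrix (Fin n) (Fin n) F) * (x : Matrix (Fin n) (Fin n) F)
            = z • (1 : Matrix (Fin n) (Fin n) F) := by
          have e0 : (x : Matrix (Fin n) (Fin n) F) ^ 2 = z • (1 : Matrix (Fin n) (Fin n) F) := by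
            rw [← hz]; rfl
          rw [← pow_two]
          exact e0
        obtain ⟨j, hj, hdet⟩ := Cfsg.Agent.Lib.helper4.Sub2.det_of_sq _ z hzs hA
        have hdet1 : (-z) ^ j = 1 := by rw [← hdet]; exact x.2
        have hj0 : j ≠ 0 := by omega
        have hnz : ¬ IsSquare (-z) := by
          intro hs
          apply hzs
          have := hneg1.mul hs
          simpa using this
        have h3 := Cfsg.Agent.Lib.helper4.Sub2.nt_forall hF2 j hj0 (-z) hnz hdet1
        rw [hq] at h3
        rw [hj, Cfsg.Agent.Lib.helper4.GLNum.val_two_mul j hj0] at hval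
        omega

end Cfsg.Agent.S5964
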