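import Cfsg.Statements.S5966
-- import your own Cfsg.Agent.* helpers here
import Cfsg.Agent.Lib.helper4.Sub3

set_option autoImplicit false
open scoped MatrixGroups
open Cfsg

namespace Cfsg.Agent.S5966

/-- Elements of order 3 of PSL_n(q) in characteristic 3 and subfield subgroups. Here `T = PSL_n(F)` for a field `F` with `q` elements, `q` a power of 3 (`n ≥ 2`, `(n, q) ≠ (2, 2), (2, 3)`), `F₀` is the subfield with `q₀` elements where `q = q₀^k` for a prime `k`, and `H` is the subgroup of matrices of determinant 1 lying in the subfield group of `F₀` (invertible matrices over `F₀` times scalars) — a maximal subgroup of type GL_n(q₀) (the case `n = 2`, `q₀ = 2` is excluded); Ω is the set of `T`-conjugates of `H` (cosets of `H`), so an element of `T` of prime order `r` (a matrix `x` of determinant 1 with `x^r` scalar, `x` not scalar) fixes a point of Ω when some conjugate of `x` by a matrix of determinant 1 lies in `H`. Suppose 3 divides the index of `H`. Then every element of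 `T` of order 3 is conjugate in `T` into `H` if and only if `n` is odd, or `n` is even and `k > 2`. -/
theorem result {F : Type*} [Field F] [Fintype F] [CharP F 3] {q : ℕ} (hq : Fintype.card F = q)
    (n : ℕ) (hn : 2 ≤ n) (hT : (n, q) ≠ (2, 3))
    (F₀ : Subfield F) (k q₀ : ℕ) (hk : k.Prime) (hF₀ : Nat.card ↥F₀ = q₀) (hqk : q = q₀ ^ k) (hC5 : ¬ (n = 2 ∧ q₀ = 2)) (hΩ : 3 ∣ ((Cfsg.Geo.subfieldSubgroup F₀ 1).comap (Matrix.SpecialLinearGroup.toGL : Matrix.SpecialLinearGroup (Fin n) F →* GL (Fin n) F)).index) :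
    (∀ x : Matrix.SpecialLinearGroup (Fin n) F,
      (∃ z : F, ((x ^ 3 : Matrix.SpecialLinearGroup (Fin n) F) : Matrix (Fin n) (Fin n) F) = z • (1 : Matrix (Fin n) (Fin n) F)) →
      (∀ z : F, (x : Matrix (Fin n) (Fin n) F) ≠ z • (1 : Matrix (Fin n) (Fin n) F)) →
      ∃ P : Matrix.SpecialLinearGroup (Fin n) F, P⁻¹ * x * P ∈ ((Cfsg.Geo.subfieldSubgroup F₀ 1).comap (Matrix.SpecialLinearGroup.toGL : Matrix.SpecialLinearGroup (Fin n) F →* GL (Fin n) F))) ↔
    (Odd n ∨ (Even n ∧ 2 < k)) := by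
  have hF2 : ringChar F ≠ 2 := by rw [ringChar.eq F 3]; norm_num
  constructor
  · intro h
    by_contra hcon
    push Not at hcon
    obtain ⟨hno, hk2⟩ := hcon
    have hev : Even n := Nat.not_odd_iff_even.mp hno
    have hk2' : k = 2 := by
      have := hk.two_le
      have := hk2 hev
      omega
    obtain ⟨m, rfl⟩ := hev
    have hm : 0 < m := by omega
    have hsq : ∀ a : F₀, a ≠ 0 → IsSquare (a : F) := fun a ha =>
      Cfsg.Agent.Lib.helper4.SubfieldConj.subfield_sq hF2 F₀ q₀ hF₀ (by rw [hq, hqk, hk2']) a ha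
    obtain ⟨ν, hν⟩ := FiniteField.exists_nonsquare hF2
    obtain ⟨x, hx3, hxns, hxbad⟩ := Cfsg.Agent.Lib.helper4.Sub3.exists_bad F₀ m hm hsq ν hν
    obtain ⟨P, hP⟩ := h x ⟨1, hx3⟩ hxns
    exact hxbad P hP
  · intro h x hx _
    obtain ⟨z, hz⟩ := hx
    apply Cfsg.Agent.Lib.helper4.Sub3.conj_of_cube F₀ (by omega) x z hz
    rcases h with ho | ⟨he, hk2⟩
    · exact Or.inl ho
    · right
      intro τ hτ
      have hkodd : Odd k := hk.odd_of_ne_two (by omega)
      exact Cfsg.Agent.Lib.helper4.SubfieldConj.sq_mul_subfield hF2 F₀ q₀ k hF₀ (by rw [hq, hqk]) hkodd τ hτ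

end Cfsg.Agent.S5966
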