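import Cfsg.Statements.S5967
import Mathlib
import Cfsg.Agent.Lib.helper13.SympInv

set_option autoImplicit false
open scoped MatrixGroups
open Cfsg

open Cfsg.Agent.Lib.helper13

namespace Cfsg.Agent.S5967

/-- Involutions of PSL_n(q) and the symplectic-type subgroups. Here `T = PSL_n(F)` for a field `F` with `q` elements, `n ≥ 4` even, `f` is a nondegenerate alternating form on `F^n`, and `H` is the subgroup of matrices of determinant 1 preserving `f` up to a scalar — a maximal subgroup of type Sp_n(q); Ω is the set of `T`-conjugates of `H` (cosets of `H`), so an element of `T` of prime order `r` (a matrix `x` of determinant 1 with `x^r` scalar, `x` not scalar) fixes a point of Ω when some conjugate of `x` by a matrix of determinant 1 preserves `f` up to a scalar. Suppose the index of `H` is even. Then every involution of `T` is conjugate in `T` into `H` if and only if `(q − 1)_2 ≤ (n)_2`. -/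
theorem result {F : Type*} [Field F] [Fintype F] {p : ℕ} [Fact p.Prime] [CharP F p] {q : ℕ} (hq : Fintype.card F = q)
    (n : ℕ) (hn : 4 ≤ n) (he : Even n) (f : (Fin n → F) → (Fin n → F) → F) (hf : Cfsg.Geo.IsSymplecticForm f)
    (hΩ : 2 ∣ ((Cfsg.Geo.similarityGroup f).comap (Matrix.SpecialLinearGroup.toGL : Matrix.SpecialLinearGroup (Fin n) F →* GL (Fin n) F)).index) :
    (∀ x : Matrix.SpecialLinearGroup (Fin n) F,
      (∃ z : F, ((x ^ 2 : Matrix.SpecialLinearGroup (Fin n) F) : Matrix (Fin n) (Fin n) F) = z • (1 : Matrix (Fin n) (Fin n) F)) →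
      (∀ z : F, (x : Matrix (Fin n) (Fin n) F) ≠ z • (1 : Matrix (Fin n) (Fin n) F)) →
      ∃ P : Matrix.SpecialLinearGroup (Fin n) F, P⁻¹ * x * P ∈ ((Cfsg.Geo.similarityGroup f).comap (Matrix.SpecialLinearGroup.toGL : Matrix.SpecialLinearGroup (Fin n) F →* GL (Fin n) F))) ↔
    padicValNat 2 (q - 1) ≤ padicValNat 2 n := by
  classical
  obtain ⟨m, hm⟩ := he
  have hnm : n = 2 * m := by omega
  have hm1 : 1 ≤ m := by omega
  constructor
  · intro hall
    by_contra hcon
    push Not at hcon
    obtain ⟨w, hw0, hwn, h2⟩ := SI.exists_root (F := F) hq (by omega : n ≠ 0) hcon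
    obtain ⟨i0, hi0⟩ : ∃ i0 : Fin n, i0 = ⟨0, by omega⟩ := ⟨_, rfl⟩
    obtain ⟨d, hd⟩ : ∃ d : Fin n → F, d = fun i => if i = i0 then -w else w := ⟨_, rfl⟩
    have hd0 : d i0 = -w := by rw [hd]; simp
    have hd1 : ∀ i, i ≠ i0 → d i = w := by
      intro i hi; rw [hd]; simp [hi]
    have hdet : (Matrix.diagonal d).det = 1 := by
      rw [Matrix.det_diagonal]
      have h1 : ∏ i, d i = d i0 * ∏ i ∈ Finset.univ.erase i0, d i := by
        rw [Finset.mul_prod_erase _ _ (Finset.mem_univ i0)]
      rw [h1]
      have h3 : ∏ i ∈ Finset.univ.erase i0, d i = ∏ i ∈ Finset.univ.erase i0, w := by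
        apply Finset.prod_congr rfl
        intro i hi
        exact hd1 i (Finset.ne_of_mem_erase hi)
      rw [h3, Finset.prod_const, Finset.card_erase_of_mem (Finset.mem_univ _), Finset.card_univ,
        Fintype.card_fin, hd0]
      have h5 : w ^ n = w * w ^ (n - 1) := by
        rw [← pow_succ']; congr 1; omega
      linear_combination (-1 : F) * hwn + h5
    obtain ⟨x, hxd⟩ : ∃ x : Matrix.SpecialLinearGroup (Fin n) F,
        (x : Matrix (Fin n) (Fin n) F) = Matrix.diagonal d := ⟨⟨Matrix.diagonal d, hdet⟩, rfl⟩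
    have hx2 : ((x ^ 2 : Matrix.SpecialLinearGroup (Fin n) F) : Matrix (Fin n) (Fin n) F) =
        (w * w) • (1 : Matrix (Fin n) (Fin n) F) := by
      rw [Matrix.SpecialLinearGroup.coe_pow, pow_two, hxd, Matrix.diagonal_mul_diagonal]
      ext i j
      by_cases hij : i = j
      · subst hij
        simp only [Matrix.diagonal_apply_eq, Matrix.smul_apply, Matrix.one_apply_eq, smul_eq_mul,
          mul_one]
        by_cases hi : i = i0
        · subst hi; rw [hd0]; ring
        · rw [hd1 i hi]
      · simp [Matrix.diagonal_apply_ne _ hij, Matrix.one_apply_ne hij]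
    have hns : ∀ z : F, (x : Matrix (Fin n) (Fin n) F) ≠ z • (1 : Matrix (Fin n) (Fin n) F) := by
      intro z hz
      rw [hxd] at hz
      have h0 := congrFun (congrFun hz i0) i0
      have h1 := congrFun (congrFun hz ⟨1, by omega⟩) ⟨1, by omega⟩
      rw [Matrix.diagonal_apply_eq, Matrix.smul_apply, Matrix.one_apply_eq, smul_eq_mul,
        mul_one] at h0 h1
      rw [hd0] at h0
      rw [hd1 _ (by rw [hi0]; simp [Fin.ext_iff])] at h1
      have h3 : (2 : F) * w = 0 := by linear_combination h1 - h0
      exact (mul_ne_zero h2 hw0) h3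
    obtain ⟨P, hP⟩ := hall x ⟨w * w, hx2⟩ hns
    refine SI.not_conj h2 (by omega) f hf w hw0 x (fun y => ?_) P hP
    funext i
    rw [hxd, Matrix.mulVec_diagonal, hd, hi0]
  · intro hcond x ⟨z, hz⟩ _
    obtain ⟨X, hXdef⟩ : ∃ X : (Fin n → F) →ₗ[F] (Fin n → F),
        X = Matrix.toLin' (x : Matrix (Fin n) (Fin n) F) := ⟨_, rfl⟩
    have hX : ∀ u, X (X u) = z • u := by
      intro u
      rw [hXdef, Matrix.toLin'_apply, Matrix.toLin'_apply, Matrix.mulVec_mulVec]
      have h1 : (x : Matrix (Fin n) (Fin n) F) * (x : Matrix (Fin n) (Fin n) F) = z • 1 := by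
        rw [← hz, Matrix.SpecialLinearGroup.coe_pow, pow_two]
      rw [h1, Matrix.smul_mulVec, Matrix.one_mulVec]
    have hz0 : z ≠ 0 := by
      rintro rfl
      have h1 : ((x ^ 2 : Matrix.SpecialLinearGroup (Fin n) F) :
          Matrix (Fin n) (Fin n) F).det = 1 := (x ^ 2).2
      have : Nonempty (Fin n) := ⟨⟨0, by omega⟩⟩
      rw [hz, zero_smul, Matrix.det_zero] at h1
      exact zero_ne_one h1
    have hV : Module.finrank F (Fin n → F) = 2 * m := by
      rw [Module.finrank_fintype_fun_eq_card, Fintype.card_fin, hnm]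
    by_cases h2 : (2 : F) = 0
    · have hG := SI.good_main z (Or.inl h2) m (Fin n → F) hV X hX
      rw [hXdef] at hG
      exact SI.conj_of_good hnm hm1 f hf x (-z) (neg_ne_zero.2 hz0) hG
    by_cases hsq : ∃ w : F, w * w = z
    · obtain ⟨w, rfl⟩ := hsq
      have hw0 : w ≠ 0 := fun h => hz0 (by rw [h, mul_zero])
      obtain ⟨a, b, hab, hdet, hgood⟩ := SI.good_split h2 X w hw0 hX
      rw [hV] at hab
      have hdet1 : LinearMap.det X = 1 := by
        rw [hXdef, LinearMap.det_toLin']; exact x.2
      rw [hdet1] at hdet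
      rcases Nat.even_or_odd b with hb | hb
      · obtain ⟨b', hb'⟩ := hb
        have hG := hgood (m - b') b' (by omega) (by omega)
        rw [hXdef] at hG
        exact SI.conj_of_good hnm hm1 f hf x (w * w) (mul_ne_zero hw0 hw0) hG
      · exfalso
        rw [Odd.neg_pow hb, mul_neg, ← pow_add, hab, ← hnm] at hdet
        exact SI.no_root hq h2 (by omega) hcond w (by linear_combination hdet)
    · push Not at hsq
      have hG := SI.good_main z (Or.inr hsq) m (Fin n → F) hV X hX
      rw [hXdef] at hG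
      exact SI.conj_of_good hnm hm1 f hf x (-z) (neg_ne_zero.2 hz0) hG

end Cfsg.Agent.S5967
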