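import Cfsg.Statements.S5968
import Mathlib
import Cfsg.Agent.Lib.helper13.SympDerA
import Cfsg.Agent.Lib.helper13.SympDerB
import Cfsg.Agent.Lib.helper13.SympDerC

set_option autoImplicit false
open scoped MatrixGroups
open Cfsg

open Cfsg.Agent.Lib.helper13

namespace Cfsg.Agent.S5968

/-- Derangements of odd prime order of PSL_n(q) on the cosets of a symplectic-type subgroup. Here `T = PSL_n(F)` for a field `F` with `q` elements, `n ≥ 4` even, `f` is a nondegenerate alternating form on `F^n`, and `H` is the subgroup of matrices of determinant 1 preserving `f` up to a scalar — a maximal subgroup of type Sp_n(q); Ω is the set of `T`-conjugates of `H` (cosets of `H`), so an element of `T` of prime order `r` (a matrix `x` of determinant 1 with `x^r` scalar, `x` not scalar) fixes a point of Ω when some conjugate of `x` by a matrix of determinant 1 preserves `f` up to a scalar. For every odd prime `r` dividing the index of `H`, with `(n, r) ≠ (6, 3)`, there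 is an element of `T` of order `r` with no conjugate in `H`. (For `n = 6`, `r = 3` this can fail: when `(q − 1)_3 = 3` every element of order 3 is conjugate into `H`.) -/
theorem result {F : Type*} [Field F] [Fintype F] {p : ℕ} [Fact p.Prime] [CharP F p] {q : ℕ} (hq : Fintype.card F = q)
    (n : ℕ) (hn : 4 ≤ n) (he : Even n) (f : (Fin n → F) → (Fin n → F) → F) (hf : Cfsg.Geo.IsSymplecticForm f)
    (r : ℕ) [Fact r.Prime] (hr2 : r ≠ 2) (hgap : ¬ (n = 6 ∧ r = 3)) (hΩ : r ∣ ((Cfsg.Geo.similarityGroup f).comap (Matrix.SpecialLinearGroup.toGL : Matrix.SpecialLinearGroup (Fin n) F →* GL (Fin n) F)).index) :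
    ∃ x : Matrix.SpecialLinearGroup (Fin n) F,
      (∃ z : F, ((x ^ r : Matrix.SpecialLinearGroup (Fin n) F) : Matrix (Fin n) (Fin n) F) = z • (1 : Matrix (Fin n) (Fin n) F)) ∧
      (∀ z : F, (x : Matrix (Fin n) (Fin n) F) ≠ z • (1 : Matrix (Fin n) (Fin n) F)) ∧
      ∀ P : Matrix.SpecialLinearGroup (Fin n) F, P⁻¹ * x * P ∉ ((Cfsg.Geo.similarityGroup f).comap (Matrix.SpecialLinearGroup.toGL : Matrix.SpecialLinearGroup (Fin n) F →* GL (Fin n) F)) := by
  classical
  obtain ⟨m, hm⟩ := he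
  have hnm : n = 2 * m := by omega
  have hm1 : 1 ≤ m := by omega
  have hr : r.Prime := Fact.out
  have hp : p.Prime := Fact.out
  by_cases hrp : r = p
  · have hp2 : p ≠ 2 := by rw [← hrp]; exact hr2
    obtain ⟨x, hx1, hx2, hx3⟩ := SD.blk_sl (n := n) (k := 3) (by omega) (SD.J3 F) SD.J3_det p
      (SD.J3_pow_char p hp2) SD.J3_ne_one f hf
    refine ⟨x, ⟨1, by rw [hrp, hx1, one_smul]⟩, hx2, ?_⟩
    intro P hP
    obtain ⟨c, g', hcr, hg', hgx⟩ := hx3 P hP
    have hc1 : c = 1 := by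
      have h1 : (c - 1) ^ p = 0 := by rw [sub_pow_char c 1, hcr, one_pow, sub_self]
      exact sub_eq_zero.1 ((pow_eq_zero_iff hp.ne_zero).1 h1)
    rw [hc1] at hgx
    exact SD.no_form_J3 g' hg' (fun u v => by rw [hgx, one_mul])
  by_cases hr1 : r ∣ q - 1
  · have hcard : r ∣ Fintype.card Fˣ := by rw [Fintype.card_units, hq]; exact hr1
    obtain ⟨u, hu⟩ := exists_prime_orderOf_dvd_card r hcard
    have hl : (u : F) ^ r = 1 := by
      have h1 : u ^ r = 1 := by rw [← hu]; exact pow_orderOf_eq_one u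
      rw [← Units.val_pow_eq_pow_val, h1, Units.val_one]
    have hl1 : (u : F) ≠ 1 := by
      intro h
      have h1 : u = 1 := Units.ext h
      rw [h1, orderOf_one] at hu
      exact hr.one_lt.ne hu
    obtain ⟨x, hx1, hx2, hx3⟩ := SD.diag_not_conj hn r hr hr2 hgap (u : F) hl hl1 f hf
    exact ⟨x, ⟨1, by rw [hx1, one_smul]⟩, hx2, hx3⟩
  obtain ⟨i, hi1, him, hdvd⟩ : ∃ i, 1 ≤ i ∧ i < m ∧ r ∣ q ^ (2 * i + 1) - 1 := by
    rcases SD.index_cases hq hnm hm1 f hf r hr hΩ with h | h | h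
    · exact absurd h hrp
    · exact absurd h hr1
    · exact h
  obtain ⟨e, he⟩ : ∃ e : ℕ, e = orderOf (q : ZMod r) := ⟨_, rfl⟩
  obtain ⟨he0, A, hAdet, hAr, hA1, hAfix⟩ := SD.exists_block hq r hr hrp hr1 e he
  have hq1 : 1 ≤ q ^ (2 * i + 1) := Nat.one_le_pow _ _ (by rw [← hq]; exact Fintype.card_pos)
  have hqi : (q : ZMod r) ^ (2 * i + 1) = 1 := by
    have h1 := (CharP.cast_eq_zero_iff (ZMod r) r (q ^ (2 * i + 1) - 1)).2 hdvd
    rw [Nat.cast_sub hq1, Nat.cast_pow, Nat.cast_one, sub_eq_zero] at h1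
    exact h1
  have hediv : e ∣ 2 * i + 1 := by
    have h6 := orderOf_dvd_of_pow_eq_one hqi
    rw [← he] at h6
    exact h6
  have heodd : Odd e := Odd.of_dvd_nat ⟨i, rfl⟩ hediv
  have hele : e ≤ 2 * i + 1 := Nat.le_of_dvd (by omega) hediv
  have hodd : Odd (n - e) := by
    obtain ⟨t, ht⟩ := heodd
    exact ⟨m - t - 1, by omega⟩
  obtain ⟨x, hx1, hx2, hx3⟩ := SD.blk_sl (n := n) (k := e) (by omega) A hAdet r hAr hA1 f hf
  refine ⟨x, ⟨1, by rw [hx1, one_smul]⟩, hx2, ?_⟩
  intro P hP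
  obtain ⟨c, g', hcr, hg', hgx⟩ := hx3 P hP
  have hc1 : c = 1 := by
    have hc0 : c ≠ 0 := by
      rintro rfl
      rw [zero_pow hr.ne_zero] at hcr
      exact zero_ne_one hcr
    have h2 : c ^ (q - 1) = 1 := by
      rw [← hq]; exact FiniteField.pow_card_sub_one_eq_one _ hc0
    have hc : Nat.gcd r (q - 1) = 1 := (Nat.Prime.coprime_iff_not_dvd hr).2 hr1
    have h3 := (pow_gcd_eq_one (a := c)).2 ⟨hcr, h2⟩
    rw [hc, pow_one] at h3
    exact h3
  rw [hc1] at hgx
  exact SD.no_form_of_fixfree hodd A hAfix g' hg' (fun u v => by rw [hgx, one_mul])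

end Cfsg.Agent.S5968
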