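import Cfsg.Statements.S5969
-- import your own Cfsg.Agent.* helpers here
import Cfsg.Agent.Lib.helper4.Quad5
import Cfsg.Agent.Lib.helper4.Quad7

set_option autoImplicit false
open scoped MatrixGroups
open Cfsg

namespace Cfsg.Agent.S5969

/-- Involutions of PSL_n(q) and extension-field subgroups of degree 2. Here `T = PSL_n(F)` for a field `F` with `q = p^f` elements (`n ≥ 2`, `(n, q) ≠ (2, 2), (2, 3)`), `k` is a prime dividing `n`, `K` is a subalgebra of the `n × n` matrices that is a field of degree `k` over `F` (an extension-field structure F_{q^k} on `F^n`), and `H` is the subgroup of matrices of determinant 1 normalizing `K` — a subgroup of type GL_{n/k}(q^k) (maximal except in some small cases; maximality is not assumed); Ω is the set of cosets of `H` in `T`, so an element of `T` of prime order `r` (a matrix `x` of determinant 1 with `x^r` scalar, `x` not scalar) fixes a point of Ω when some conjugate of `x` by a matrix of determinant 1 normalizes `K`. Take `k = 2` and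 suppose the index of `H` is even. Then every involution of `T` is conjugate in `T` into `H` if and only if `n = 2`, or `q` is odd and `(q − 1)_2 ≤ (n)_2`. -/
theorem result {F : Type*} [Field F] [Fintype F] {p : ℕ} [Fact p.Prime] [CharP F p] {q : ℕ} (hq : Fintype.card F = q)
    (n : ℕ) (hn : 2 ≤ n) (hT : (n, q) ≠ (2, 2) ∧ (n, q) ≠ (2, 3))
    (k : ℕ) (hk : k.Prime) (hkn : k ∣ n) (K : Subalgebra F (Matrix (Fin n) (Fin n) F)) (hK : Cfsg.Geo.IsFieldSubalgebra k K) (hk2 : k = 2) (hΩ : 2 ∣ ((Cfsg.Geo.subalgebraNormalizer K).comap (Matrix.SpecialLinearGroup.toGL : Matrix.SpecialLinearGroup (Fin n) F →* GL (Fin n) F)).index) :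
    (∀ x : Matrix.SpecialLinearGroup (Fin n) F,
      (∃ z : F, ((x ^ 2 : Matrix.SpecialLinearGroup (Fin n) F) : Matrix (Fin n) (Fin n) F) = z • (1 : Matrix (Fin n) (Fin n) F)) →
      (∀ z : F, (x : Matrix (Fin n) (Fin n) F) ≠ z • (1 : Matrix (Fin n) (Fin n) F)) →
      ∃ P : Matrix.SpecialLinearGroup (Fin n) F, P⁻¹ * x * P ∈ ((Cfsg.Geo.subalgebraNormalizer K).comap (Matrix.SpecialLinearGroup.toGL : Matrix.SpecialLinearGroup (Fin n) F →* GL (Fin n) F))) ↔
    (n = 2 ∨ (Odd q ∧ padicValNat 2 (q - 1) ≤ padicValNat 2 n)) := by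
  classical
  haveI : Fact (Nat.Prime 2) := ⟨Nat.prime_two⟩
  subst hk2
  have hn0 : 0 < n := by omega
  have hne : Even n := even_iff_two_dvd.mpr hkn
  by_cases hp2 : p = 2
  · subst hp2
    have h2 : (2 : F) = 0 := by exact_mod_cast CharP.cast_eq_zero F 2
    have hqe : ¬ Odd q := by
      rw [← hq]
      obtain ⟨m, -, hm⟩ := FiniteField.card F 2
      rw [hm, Nat.not_odd_iff_even]
      exact Nat.even_pow.mpr ⟨even_two, m.pos.ne'⟩
    obtain ⟨κ, b, hκκ, hb, hκK, hκns⟩ := Cfsg.Agent.Lib.helper4.Quad.exists_kappa hn0 K hK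
    have hKκ := Cfsg.Agent.Lib.helper4.Quad.mem_iff_of_nonscalar hn0 K hK.finrank_eq κ hκK hκns
    constructor
    · intro h
      left
      by_contra hn2
      have hn3 : 3 ≤ n := by omega
      obtain ⟨x, hx2, hxns, hxbad⟩ := Cfsg.Agent.Lib.helper4.Quad.bad_even h2 hn3 K κ b hκκ hb
        (fun g hg => Cfsg.Agent.Lib.helper4.Quad.norm_even h2 hn0 K κ b hκκ hb hκns hKκ g hg)
      obtain ⟨P, hP⟩ := h x ⟨1, hx2⟩ hxns
      exact hxbad P hP
    · intro h x hx hxns
      have hn2 : n = 2 := by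
        rcases h with h | h
        · exact h
        · exact absurd h.1 hqe
      subst hn2
      obtain ⟨z, hz⟩ := hx
      have hxx : (x : Matrix (Fin 2) (Fin 2) F) * (x : Matrix (Fin 2) (Fin 2) F)
          = z • (1 : Matrix (Fin 2) (Fin 2) F) := by
        have e0 : (x : Matrix (Fin 2) (Fin 2) F) ^ 2 = z • (1 : Matrix (Fin 2) (Fin 2) F) := by
          rw [← hz]; rfl
        rw [← pow_two]
        exact e0
      exact Cfsg.Agent.Lib.helper4.Quad.good_even_two K κ b hκκ hb hKκ x z hxx hxns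
  · have hF2 : ringChar F ≠ 2 := by rw [ringChar.eq F p]; exact hp2
    have h2 : (2 : F) ≠ 0 := Ring.two_ne_zero hF2
    have hqodd : Odd q := by
      rw [← hq, Nat.odd_iff]; exact FiniteField.odd_card_of_char_ne_two hF2
    obtain ⟨θ, c, hc, hθθ, hθK, hθns⟩ := Cfsg.Agent.Lib.helper4.Quad.exists_theta h2 hn0 K hK
    have hKθ := Cfsg.Agent.Lib.helper4.Quad.mem_iff_of_nonscalar hn0 K hK.finrank_eq θ hθK hθns
    have hc0 : c ≠ 0 := fun h => hc (h ▸ IsSquare.zero)
    constructor
    · intro h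
      by_contra hcon
      push Not at hcon
      obtain ⟨hn2, hval⟩ := hcon
      have hn3 : 3 ≤ n := by omega
      obtain ⟨w, hw0, hw⟩ := Cfsg.Agent.Lib.helper4.Quad.exists_neg_root hq (by omega : n ≠ 0)
        (hval hqodd)
      obtain ⟨x, hx2, hxns, hxbad⟩ := Cfsg.Agent.Lib.helper4.Quad.bad_odd h2 hn3 hne K θ c hc hθθ
        (fun g hg => Cfsg.Agent.Lib.helper4.Quad.norm_odd h2 hn0 K θ c hc hθθ hθns hKθ g hg) w hw
      obtain ⟨P, hP⟩ := h x ⟨w * w, hx2⟩ hxns
      exact hxbad P hP
    · intro h x hx hxns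
      obtain ⟨z, hz⟩ := hx
      have hxx : (x : Matrix (Fin n) (Fin n) F) * (x : Matrix (Fin n) (Fin n) F)
          = z • (1 : Matrix (Fin n) (Fin n) F) := by
        have e0 : (x : Matrix (Fin n) (Fin n) F) ^ 2 = z • (1 : Matrix (Fin n) (Fin n) F) := by
          rw [← hz]; rfl
        rw [← pow_two]
        exact e0
      have hg : ∃ g : GL (Fin n) F, g⁻¹ * Matrix.SpecialLinearGroup.toGL x * g
          ∈ Cfsg.Geo.subalgebraNormalizer K := by
        by_cases hzs : IsSquare z
        · obtain ⟨w, hw⟩ := hzs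
          rw [hw] at hxx
          apply Cfsg.Agent.Lib.helper4.Quad.good_split h2 hn0 hne K θ c hc hθθ hKθ x w hxx hxns
          rcases h with h | h
          · exact Or.inl h
          · right
            intro w' hw'
            exact Cfsg.Agent.Lib.helper4.Quad.no_neg_root hq h2 (by omega) h.2 w' hw'
        · exact Cfsg.Agent.Lib.helper4.Quad.good_nonsq hF2 K θ c hc hθθ hKθ x z hzs hxx
      obtain ⟨g, hg⟩ := hg
      exact Cfsg.Agent.Lib.helper4.Quad.sl_fix_odd h2 hn0 K θ c hc0 hθθ hKθ x g hg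

end Cfsg.Agent.S5969
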