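import Cfsg.Statements.S5971
import Mathlib
import Cfsg.Agent.Lib.helper13.Frob3
import Cfsg.Agent.Lib.helper2.SLCard

set_option autoImplicit false
open scoped MatrixGroups
open Cfsg

open Cfsg.Agent.Lib.helper13

namespace Cfsg.Agent.S5971

/-- Elements of order 3 of PSL_3(q) and the normalizer of a Singer cycle. Here `T = PSL_n(F)` for a field `F` with `q = p^f` elements (`n ≥ 2`, `(n, q) ≠ (2, 2), (2, 3)`), `k` is a prime dividing `n`, `K` is a subalgebra of the `n × n` matrices that is a field of degree `k` over `F` (an extension-field structure F_{q^k} on `F^n`), and `H` is the subgroup of matrices of determinant 1 normalizing `K` — a subgroup of type GL_{n/k}(q^k) (maximal except in some small cases; maximality is not assumed); Ω is the set of cosets of `H` in `T`, so an element of `T` of prime order `r` (a matrix `x` of determinant 1 with `x^r` scalar, `x` not scalar) fixes a point of Ω when some conjugate of `x` by a matrix of determinant 1 normalizes `K`. Take `n = k = 3` and suppose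 3 divides the index of `H`. Then every element of `T` of order 3 is conjugate in `T` into `H` if and only if `q ≡ 4, 7` or `8 (mod 9)`. -/
theorem result {F : Type*} [Field F] [Fintype F] {p : ℕ} [Fact p.Prime] [CharP F p] {q : ℕ} (hq : Fintype.card F = q)
    (n : ℕ) (hn : n = 3) (k : ℕ) (hk : k.Prime) (hkn : k ∣ n) (K : Subalgebra F (Matrix (Fin n) (Fin n) F)) (hK : Cfsg.Geo.IsFieldSubalgebra k K) (hk3 : k = 3) (hΩ : 3 ∣ ((Cfsg.Geo.subalgebraNormalizer K).comap (Matrix.SpecialLinearGroup.toGL : Matrix.SpecialLinearGroup (Fin n) F →* GL (Fin n) F)).index) :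
    (∀ x : Matrix.SpecialLinearGroup (Fin n) F,
      (∃ z : F, ((x ^ 3 : Matrix.SpecialLinearGroup (Fin n) F) : Matrix (Fin n) (Fin n) F) = z • (1 : Matrix (Fin n) (Fin n) F)) →
      (∀ z : F, (x : Matrix (Fin n) (Fin n) F) ≠ z • (1 : Matrix (Fin n) (Fin n) F)) →
      ∃ P : Matrix.SpecialLinearGroup (Fin n) F, P⁻¹ * x * P ∈ ((Cfsg.Geo.subalgebraNormalizer K).comap (Matrix.SpecialLinearGroup.toGL : Matrix.SpecialLinearGroup (Fin n) F →* GL (Fin n) F))) ↔
    (q % 9 = 4 ∨ q % 9 = 7 ∨ q % 9 = 8) := by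
  classical
  subst hn
  subst hk3
  obtain ⟨f, hpf, hf⟩ := FiniteField.card F p
  have hq1 : 1 < q := by rw [← hq]; exact Fintype.one_lt_card
  constructor
  · intro h
    by_contra hq9
    have hcases : q % 3 = 0 ∨ q % 9 = 1 ∨ (q % 9 = 2 ∨ q % 9 = 5) := by omega
    rcases hcases with h0 | h1 | h25
    · have hp3 : p = 3 := by
        have h3q : 3 ∣ p ^ (f : ℕ) := by rw [← hf, hq]; exact Nat.dvd_of_mod_eq_zero h0
        have h3p := Nat.prime_three.dvd_of_dvd_pow h3q
        exact ((Nat.prime_dvd_prime_iff_eq Nat.prime_three hpf).mp h3p).symm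
      have h3F : (3 : F) = 0 := by
        have h3 := CharP.cast_eq_zero F p
        rw [hp3] at h3
        exact_mod_cast h3
      obtain ⟨x, hx⟩ : ∃ x : Matrix.SpecialLinearGroup (Fin 3) F,
          (x : Matrix (Fin 3) (Fin 3) F) = !![1, 0, 1; 0, 1, 0; 0, 0, 1] :=
        ⟨⟨!![1, 0, 1; 0, 1, 0; 0, 0, 1], by rw [Matrix.det_fin_three]; simp⟩, rfl⟩
      have hx3 : ((x ^ 3 : Matrix.SpecialLinearGroup (Fin 3) F) : Matrix (Fin 3) (Fin 3) F)
          = (1 : F) • (1 : Matrix (Fin 3) (Fin 3) F) := by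
        rw [Matrix.SpecialLinearGroup.coe_pow, hx, one_smul]
        ext i j
        fin_cases i <;> fin_cases j <;>
          simp [pow_succ, Matrix.mul_apply, Fin.sum_univ_three, Matrix.one_apply] <;>
          linear_combination h3F
      have hns : ∀ z : F, (x : Matrix (Fin 3) (Fin 3) F) ≠ z • (1 : Matrix (Fin 3) (Fin 3) F) := by
        intro z hz
        rw [hx] at hz
        have h02 := congrFun (congrFun hz 0) 2
        simp at h02
      have e0 : Matrix.mulVec (x : Matrix (Fin 3) (Fin 3) F) (Pi.single 0 1) = (1 : F) • Pi.single 0 1 := by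
        rw [hx]
        ext i
        fin_cases i <;> simp [Matrix.mulVec, dotProduct, Fin.sum_univ_three, Pi.single_apply]
      have e1 : Matrix.mulVec (x : Matrix (Fin 3) (Fin 3) F) (Pi.single 1 1) = (1 : F) • Pi.single 1 1 := by
        rw [hx]
        ext i
        fin_cases i <;> simp [Matrix.mulVec, dotProduct, Fin.sum_univ_three, Pi.single_apply]
      obtain ⟨P, hP⟩ := h x ⟨1, hx3⟩ hns
      exact Cfsg.Agent.Lib.helper13.SF.derange K hK x 1 e0 e1 hns P hP
    · obtain ⟨ζ, hζ⟩ := IsCyclic.exists_generator (α := Fˣ)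
      have hord : orderOf ζ = q - 1 := by
        rw [orderOf_eq_card_of_forall_mem_zpowers hζ, Nat.card_eq_fintype_card,
          Fintype.card_units, hq]
      obtain ⟨t, ht⟩ : 9 ∣ q - 1 := by omega
      obtain ⟨l, hl⟩ : ∃ l : F, l = ((ζ ^ t : Fˣ) : F) := ⟨_, rfl⟩
      have hl9 : l ^ 9 = 1 := by
        rw [hl, ← Units.val_pow_eq_pow_val, ← pow_mul, mul_comm, ← ht, ← hord,
          pow_orderOf_eq_one, Units.val_one]
      have hl3 : l ^ 3 ≠ 1 := by
        rw [hl, ← Units.val_pow_eq_pow_val, ← pow_mul]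
        intro h'
        have h'' : ζ ^ (t * 3) = 1 := Units.ext h'
        exact pow_ne_one_of_lt_orderOf (by omega) (by rw [hord]; omega) h''
      have hl0 : l ≠ 0 := by
        rintro rfl
        simp at hl9
      obtain ⟨x, hx⟩ : ∃ x : Matrix.SpecialLinearGroup (Fin 3) F,
          (x : Matrix (Fin 3) (Fin 3) F) = Matrix.diagonal ![l, l, l ^ 7] :=
        ⟨⟨Matrix.diagonal ![l, l, l ^ 7], by
          rw [Matrix.det_diagonal, Fin.prod_univ_three]
          simp only [Matrix.cons_val_zero, Matrix.cons_val_one, Matrix.cons_val_two,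
            Matrix.head_cons, Matrix.tail_cons]
          linear_combination hl9⟩, rfl⟩
      have hx3 : ((x ^ 3 : Matrix.SpecialLinearGroup (Fin 3) F) : Matrix (Fin 3) (Fin 3) F)
          = (l ^ 3) • (1 : Matrix (Fin 3) (Fin 3) F) := by
        rw [Matrix.SpecialLinearGroup.coe_pow, hx, Matrix.diagonal_pow]
        ext i j
        fin_cases i <;> fin_cases j <;>
          simp [Matrix.diagonal_apply, Matrix.one_apply] <;>
          linear_combination (l ^ 12 + l ^ 3) * hl9
      have hns : ∀ z : F, (x : Matrix (Fin 3) (Fin 3) F) ≠ z • (1 : Matrix (Fin 3) (Fin 3) F) := by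
        intro z hz
        rw [hx] at hz
        have h00 := congrFun (congrFun hz 0) 0
        have h22 := congrFun (congrFun hz 2) 2
        simp at h00 h22
        have h6 : l * (l ^ 6 - 1) = 0 := by linear_combination h22 - h00
        rcases mul_eq_zero.mp h6 with h7 | h7
        · exact hl0 h7
        · apply hl3
          linear_combination hl9 - l ^ 3 * h7
      have e0 : Matrix.mulVec (x : Matrix (Fin 3) (Fin 3) F) (Pi.single 0 1) = l • Pi.single 0 1 := by
        rw [hx]
        ext i
        fin_cases i <;> simp [Matrix.mulVec, dotProduct, Fin.sum_univ_three, Pi.single_apply,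
          Matrix.diagonal_apply]
      have e1 : Matrix.mulVec (x : Matrix (Fin 3) (Fin 3) F) (Pi.single 1 1) = l • Pi.single 1 1 := by
        rw [hx]
        ext i
        fin_cases i <;> simp [Matrix.mulVec, dotProduct, Fin.sum_univ_three, Pi.single_apply,
          Matrix.diagonal_apply]
      obtain ⟨P, hP⟩ := h x ⟨l ^ 3, hx3⟩ hns
      exact Cfsg.Agent.Lib.helper13.SF.derange K hK x l e0 e1 hns P hP
    · obtain ⟨x, hx⟩ : ∃ x : Matrix.SpecialLinearGroup (Fin 3) F,
          (x : Matrix (Fin 3) (Fin 3) F) = !![0, 0, 1; 1, 0, 0; 0, 1, 0] :=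
        ⟨⟨!![0, 0, 1; 1, 0, 0; 0, 1, 0], by rw [Matrix.det_fin_three]; simp⟩, rfl⟩
      have hx3m : (x : Matrix (Fin 3) (Fin 3) F) ^ 3 = 1 := by
        rw [hx]
        ext i j
        fin_cases i <;> fin_cases j <;>
          simp [pow_succ, Matrix.mul_apply, Fin.sum_univ_three, Matrix.one_apply]
      have hx3 : x ^ 3 = 1 := by
        apply Subtype.ext
        rw [Matrix.SpecialLinearGroup.coe_pow, hx3m]
        rfl
      have hns : ∀ z : F, (x : Matrix (Fin 3) (Fin 3) F) ≠ z • (1 : Matrix (Fin 3) (Fin 3) F) := by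
        intro z hz
        rw [hx] at hz
        have h02 := congrFun (congrFun hz 0) 2
        simp at h02
      obtain ⟨P, hP⟩ := h x ⟨1, by rw [hx3, one_smul]; rfl⟩ hns
      obtain ⟨H, hH⟩ : ∃ H : Subgroup (Matrix.SpecialLinearGroup (Fin 3) F),
          H = (Cfsg.Geo.subalgebraNormalizer K).comap
            (Matrix.SpecialLinearGroup.toGL : Matrix.SpecialLinearGroup (Fin 3) F →* GL (Fin 3) F) :=
        ⟨_, rfl⟩
      rw [← hH] at hP hΩ
      have hy3 : (⟨P⁻¹ * x * P, hP⟩ : ↥H) ^ 3 = 1 := by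
        apply Subtype.ext
        show (P⁻¹ * x * P) ^ 3 = 1
        have hc := conj_pow (a := P⁻¹) (b := x) (i := 3)
        rw [inv_inv] at hc
        rw [hc, hx3, mul_one, inv_mul_cancel]
      have hy1 : (⟨P⁻¹ * x * P, hP⟩ : ↥H) ≠ 1 := by
        intro h1
        have h2 : P⁻¹ * x * P = 1 := congrArg Subtype.val h1
        have h3 : x = 1 := by
          have h4 := congrArg (fun t => P * t * P⁻¹) h2
          simpa [mul_assoc] using h4
        apply hns 1
        rw [h3, one_smul]
        rfl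
      have : Fact (Nat.Prime 3) := ⟨Nat.prime_three⟩
      have ho : orderOf (⟨P⁻¹ * x * P, hP⟩ : ↥H) = 3 := orderOf_eq_prime hy3 hy1
      have h3H : 3 ∣ Nat.card ↥H := by
        have hd := orderOf_dvd_natCard (⟨P⁻¹ * x * P, hP⟩ : ↥H)
        rw [ho] at hd
        exact hd
      have h9 : 9 ∣ Nat.card (Matrix.SpecialLinearGroup (Fin 3) F) := by
        rw [← Subgroup.index_mul_card H]
        exact Nat.mul_dvd_mul hΩ h3H
      have hc := Cfsg.Agent.Lib.helper2.SLCard.card_SL F 3 (by norm_num)
      rw [Fin.prod_univ_three, hq] at hc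
      simp only [Fin.val_zero, Fin.val_one, Fin.val_two, pow_zero, pow_one] at hc
      have h9' : 9 ∣ (q ^ 3 - 1) * (q ^ 3 - q) * (q ^ 3 - q ^ 2) := by
        rw [← hc]
        exact Dvd.dvd.mul_left h9 _
      have hz : (((q ^ 3 - 1) * (q ^ 3 - q) * (q ^ 3 - q ^ 2) : ℕ) : ZMod 9) = 0 :=
        (ZMod.natCast_eq_zero_iff _ 9).2 h9'
      have hle1 : 1 ≤ q ^ 3 := Nat.one_le_pow _ _ (by omega)
      have hle2 : q ≤ q ^ 3 := Nat.le_self_pow (by norm_num) q
      have hle3 : q ^ 2 ≤ q ^ 3 := Nat.pow_le_pow_right (by omega) (by norm_num)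
      rw [Nat.cast_mul, Nat.cast_mul, Nat.cast_sub hle1, Nat.cast_sub hle2, Nat.cast_sub hle3]
        at hz
      push_cast at hz
      have hqz : (q : ZMod 9) = 2 ∨ (q : ZMod 9) = 5 := by
        rcases h25 with h | h
        · left
          rw [← ZMod.natCast_mod q 9, h]
          rfl
        · right
          rw [← ZMod.natCast_mod q 9, h]
          rfl
      rcases hqz with h | h <;> rw [h] at hz <;> revert hz <;> decide
  · intro hq9 x hx hxns
    obtain ⟨z, hz⟩ := hx
    have h3F : (3 : F) ≠ 0 := by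
      intro h3
      have h3' : ((3 : ℕ) : F) = 0 := by exact_mod_cast h3
      rw [CharP.cast_eq_zero_iff F p 3] at h3'
      have hp3 : p = 3 := (Nat.prime_dvd_prime_iff_eq hpf Nat.prime_three).mp h3'
      have h3q : 3 ∣ q := by
        rw [← hq, hf, hp3]
        exact dvd_pow_self 3 (PNat.ne_zero f)
      omega
    have h9 : ¬ 9 ∣ Fintype.card F - 1 := by
      rw [hq]
      omega
    exact Cfsg.Agent.Lib.helper13.SF.good3 K hK h3F h9 x z (by rw [← hz]; rfl) hxns

end Cfsg.Agent.S5971
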