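import Cfsg.Statements.S5998
-- import your own Cfsg.Agent.* helpers here
import Cfsg.Agent.Lib.helper4.E27h
import Cfsg.Agent.Lib.helper13.E27b

set_option autoImplicit false
open scoped MatrixGroups
open Cfsg

namespace Cfsg.Agent.S5998

/-- Elements of prime order of PSL_3(p), p ≡ 1 (mod 3), and the normalizer of an extraspecial subgroup of order 27. Here `T = PSL_3(F)` for the field `F` with `p` elements, `p` a prime with `p ≡ 1 (mod 3)`; `R` is a non-abelian subgroup of GL_3(F) of order 27 and exponent 3 (an extraspecial group 3^{1+2}, acting absolutely irreducibly), and `H` is the subgroup of matrices of determinant 1 normalizing `R` — a subgroup of type 3^{1+2}.Sp₂(3) (maximality is not assumed). Ω is the set of cosets of `H` in `T`, so an element of `T` of prime order `r` (a matrix `x` of determinant 1 with `x^r` scalar, `x` not scalar) fixes a point of Ω exactly when some conjugate of `x` by a matrix of determinant 1 normalizes `R`. Let `r` be a prime dividing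 the index of `H`. Then every element of `T` of order `r` fixes a point of Ω if and only if `r = 2`, or `r = 3` and `p ≡ 1 (mod 9)`. -/
theorem result {F : Type*} [Field F] [Fintype F] {p : ℕ} [Fact p.Prime] [CharP F p] (hF : Fintype.card F = p) (hp3 : p % 3 = 1)
    (R : Subgroup (GL (Fin 3) F)) (hR : Nat.card R = 27) (hRe : Monoid.exponent R = 3) (hRna : ¬ IsMulCommutative R)
    (r : ℕ) [Fact r.Prime]
    (hΩ : r ∣ (Cfsg.Geo.subgroupNormalizer R).relIndex (Cfsg.Geo.specialLinear (Fin 3) F)) :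
    (∀ x ∈ Cfsg.Geo.specialLinear (Fin 3) F, (∃ z : F, ((x ^ r : GL (Fin 3) F) : Matrix (Fin 3) (Fin 3) F) = z • (1 : Matrix (Fin 3) (Fin 3) F)) →
      (∀ z : F, (x : Matrix (Fin 3) (Fin 3) F) ≠ z • (1 : Matrix (Fin 3) (Fin 3) F)) →
      ∃ g ∈ Cfsg.Geo.specialLinear (Fin 3) F, g⁻¹ * x * g ∈ Cfsg.Geo.subgroupNormalizer R) ↔ (r = 2 ∨ (r = 3 ∧ p % 9 = 1)) := by
  classical
  have hpprime : p.Prime := Fact.out
  have h3 : (3 : F) ≠ 0 := by
    intro h
    have h' : ((3 : ℕ) : F) = 0 := by exact_mod_cast h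
    rw [CharP.cast_eq_zero_iff F p 3] at h'
    rcases (Nat.dvd_prime Nat.prime_three).mp h' with h1 | h1
    · exact hpprime.one_lt.ne' h1
    · rw [h1] at hp3; omega
  have h2 : (2 : F) ≠ 0 := by
    intro h
    have h' : ((2 : ℕ) : F) = 0 := by exact_mod_cast h
    rw [CharP.cast_eq_zero_iff F p 2] at h'
    rcases (Nat.dvd_prime Nat.prime_two).mp h' with h1 | h1
    · exact hpprime.one_lt.ne' h1
    · rw [h1] at hp3; omega
  haveI : Fact (Nat.Prime 3) := ⟨Nat.prime_three⟩
  have h3dvd : 3 ∣ Fintype.card Fˣ := by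
    rw [Fintype.card_units, hF]
    have := hpprime.one_lt
    exact Nat.dvd_of_mod_eq_zero (by omega)
  obtain ⟨ζ, hζ⟩ := exists_prime_orderOf_dvd_card 3 h3dvd
  obtain ⟨ω, hω'⟩ : ∃ ω : F, ω = (ζ : F) := ⟨_, rfl⟩
  have hω3 : ω ^ 3 = 1 := by
    rw [hω', ← Units.val_pow_eq_pow_val, ← hζ, pow_orderOf_eq_one, Units.val_one]
  have hω1 : ω ≠ 1 := by
    intro h
    have : ζ = 1 := Units.ext (by rw [← hω', h, Units.val_one])
    rw [this, orderOf_one] at hζ
    omega
  have hω : ω ^ 2 + ω + 1 = 0 := by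
    have : (ω - 1) * (ω ^ 2 + ω + 1) = 0 := by linear_combination hω3
    rcases mul_eq_zero.mp this with h | h
    · exact (hω1 (sub_eq_zero.mp h)).elim
    · exact h
  haveI : Finite R := Nat.finite_of_card_ne_zero (by rw [hR]; norm_num)
  obtain ⟨e, M, Mi, a, b, z, he, hM1, hM2, ha, hb, hz, hze, haM, hbM, hcl⟩ :=
    Cfsg.Agent.Lib.helper4.E27.std_form h3 ω hω R hR hRe hRna
  obtain ⟨⟨t, htN, htt, htdet, htns⟩, ⟨y, hyN, hyq, hydet, hyns⟩, ⟨hbdet, hadet, hbns⟩, hcent⟩ :=
    Cfsg.Agent.Lib.helper4.E27.norm_elts h3 R e he M Mi hM1 hM2 a b ha hb haM hbM hcl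
  have he1 : e ≠ 1 := by
    rintro rfl
    apply h3
    linear_combination he
  have hcube : ∀ g ∈ R, (g : Matrix (Fin 3) (Fin 3) F) ^ 3 = 1 := by
    intro g hg
    have h1 := Monoid.pow_exponent_eq_one (⟨g, hg⟩ : R)
    rw [hRe] at h1
    have h2' := congrArg (fun t : R => ((t : GL (Fin 3) F) : Matrix (Fin 3) (Fin 3) F)) h1
    exact h2'
  have hRN : R ≤ Cfsg.Geo.subgroupNormalizer R := Subgroup.le_normalizer
  have hRS : R ≤ Cfsg.Geo.specialLinear (Fin 3) F := by
    rw [← hcl, Subgroup.closure_le]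
    intro g hg
    rcases hg with h | h
    · rw [h]; exact Cfsg.Agent.Lib.helper4.E27.mem_of_det a hadet
    · rw [Set.mem_singleton_iff] at h
      rw [h]; exact Cfsg.Agent.Lib.helper4.E27.mem_of_det b hbdet
  have hrp : r.Prime := Fact.out
  constructor
  · intro hall
    by_cases hr2 : r = 2
    · left; exact hr2
    by_cases hr3 : r = 3
    · right
      refine ⟨hr3, ?_⟩
      by_contra hp9
      have hp9' : p % 9 = 4 ∨ p % 9 = 7 := by omega
      rw [hr3] at hΩ
      exact Cfsg.Agent.Lib.helper13.E27.not_dvd_relIndex p hF hp9' _ R hR hRN hRS hΩ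
    · exfalso
      have hr5 : 5 ≤ r := by
        have := hrp.two_le
        by_contra hlt
        have h4 : r = 4 := by omega
        rw [h4] at hrp
        norm_num at hrp
      exact Cfsg.Agent.Lib.helper4.E27.bad5 R hR a b z ha hb hz e he1 hze hcent r hr5 hΩ hall
  · rintro (hr2 | ⟨hr3, hp9⟩)
    · intro x hx hx2 hxns
      obtain ⟨z', hz'⟩ := hx2
      rw [hr2] at hz'
      exact Cfsg.Agent.Lib.helper4.E27.good2 h2 h3 R t htN htt htdet htns x hx z' hz' hxns
    · intro x hx hx3 hxns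
      obtain ⟨z', hz'⟩ := hx3
      rw [hr3] at hz'
      exact Cfsg.Agent.Lib.helper4.E27.good3 h3 R e he b (hRN hb) (hcube b hb) hbdet hbns y hyN
        hyq hydet hyns x hx z' hz' hxns

end Cfsg.Agent.S5998
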