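import Cfsg.Statements.S5999
-- import your own Cfsg.Agent.* helpers here
import Cfsg.Agent.Lib.helper4.U27b
import Cfsg.Agent.Lib.helper13.E27u

set_option autoImplicit false
open scoped MatrixGroups
open Cfsg

namespace Cfsg.Agent.S5999

/-- Elements of prime order of PSU_3(p), p ≡ 2 (mod 3), and the normalizer of an extraspecial subgroup of order 27. Here `T = PSU_3(p)` for a prime `p ≥ 5` with `p ≡ 2 (mod 3)`, realised through `SU_3(p)`, the matrices of determinant 1 over the field `F` with `p²` elements preserving the hermitian form `Σ uᵢvᵢ^p`; `R` is a non-abelian subgroup of order 27 and exponent 3 of the full unitary group of that form (an extraspecial group 3^{1+2}, acting absolutely irreducibly), and `H` is the subgroup of `SU_3(p)` normalizing `R` — a subgroup of type 3^{1+2}.Sp₂(3) (maximality is not assumed). Ω is the set of cosets of `H`, so an element of `T` of prime order `r` (`x ∈ SU_3(p)` with `x^r` scalar, `x` not scalar) fixes a point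 of Ω exactly when some `SU_3(p)`-conjugate of `x` normalizes `R`. Let `r` be a prime dividing the index of `H`. Then every element of `T` of order `r` fixes a point of Ω if and only if `r = 2`, or `r = 3` and `p ≡ 8 (mod 9)`. -/
theorem result {F : Type*} [Field F] [Fintype F] {p : ℕ} [Fact p.Prime] [CharP F p] (hF : Fintype.card F = p ^ 2) (hp : 5 ≤ p) (hp3 : p % 3 = 2)
    (R : Subgroup (GL (Fin 3) F)) (hRU : R ≤ Cfsg.GU 3 F p) (hR : Nat.card R = 27) (hRe : Monoid.exponent R = 3) (hRna : ¬ IsMulCommutative R)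
    (r : ℕ) [Fact r.Prime]
    (hΩ : r ∣ (Cfsg.Geo.subgroupNormalizer R).relIndex (Cfsg.GU 3 F p ⊓ Cfsg.Geo.specialLinear (Fin 3) F)) :
    (∀ x ∈ Cfsg.GU 3 F p ⊓ Cfsg.Geo.specialLinear (Fin 3) F, (∃ z : F, ((x ^ r : GL (Fin 3) F) : Matrix (Fin 3) (Fin 3) F) = z • (1 : Matrix (Fin 3) (Fin 3) F)) →
      (∀ z : F, (x : Matrix (Fin 3) (Fin 3) F) ≠ z • (1 : Matrix (Fin 3) (Fin 3) F)) →
      ∃ g ∈ Cfsg.GU 3 F p ⊓ Cfsg.Geo.specialLinear (Fin 3) F, g⁻¹ * x * g ∈ Cfsg.Geo.subgroupNormalizer R) ↔ (r = 2 ∨ (r = 3 ∧ p % 9 = 8)) := by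
  classical
  have hpprime : p.Prime := Fact.out
  have h3 : (3 : F) ≠ 0 := by
    intro h
    have h' : ((3 : ℕ) : F) = 0 := by exact_mod_cast h
    rw [CharP.cast_eq_zero_iff F p 3] at h'
    rcases (Nat.dvd_prime Nat.prime_three).mp h' with h1 | h1
    · exact hpprime.one_lt.ne' h1
    · rw [h1] at hp3; omega
  have h2 : (2 : F) ≠ 0 := by
    intro h
    have h' : ((2 : ℕ) : F) = 0 := by exact_mod_cast h
    rw [CharP.cast_eq_zero_iff F p 2] at h'
    rcases (Nat.dvd_prime Nat.prime_two).mp h' with h1 | h1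
    · exact hpprime.one_lt.ne' h1
    · rw [h1] at hp3; omega
  have hp2 : p % 2 = 1 := by
    rcases Nat.Prime.eq_two_or_odd hpprime with h | h
    · omega
    · exact h
  haveI : Fact (Nat.Prime 3) := ⟨Nat.prime_three⟩
  have h3dvd : 3 ∣ Fintype.card Fˣ := by
    rw [Fintype.card_units, hF]
    have := hpprime.one_lt
    have h9 : p ^ 2 % 3 = 1 := by
      rw [Nat.pow_mod, hp3]
    have h1 : 1 ≤ p ^ 2 := Nat.one_le_pow _ _ (by omega)
    exact Nat.dvd_of_mod_eq_zero (by omega)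
  obtain ⟨ζ, hζ⟩ := exists_prime_orderOf_dvd_card 3 h3dvd
  obtain ⟨ω, hω'⟩ : ∃ ω : F, ω = (ζ : F) := ⟨_, rfl⟩
  have hω3 : ω ^ 3 = 1 := by
    rw [hω', ← Units.val_pow_eq_pow_val, ← hζ, pow_orderOf_eq_one, Units.val_one]
  have hω1 : ω ≠ 1 := by
    intro h
    have : ζ = 1 := Units.ext (by rw [← hω', h, Units.val_one])
    rw [this, orderOf_one] at hζ
    omega
  have hω : ω ^ 2 + ω + 1 = 0 := by
    have : (ω - 1) * (ω ^ 2 + ω + 1) = 0 := by linear_combination hω3
    rcases mul_eq_zero.mp this with h | h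
    · exact (hω1 (sub_eq_zero.mp h)).elim
    · exact h
  haveI : Finite R := Nat.finite_of_card_ne_zero (by rw [hR]; norm_num)
  obtain ⟨e, M, Mi, a, b, z, he, hM1, hM2, ha, hb, hz, hze, haM, hbM, hcl⟩ :=
    Cfsg.Agent.Lib.helper4.E27.std_form h3 ω hω R hR hRe hRna
  obtain ⟨-, -, ⟨hbdet, hadet, hbns⟩, hcent⟩ :=
    Cfsg.Agent.Lib.helper4.E27.norm_elts h3 R e he M Mi hM1 hM2 a b ha hb haM hbM hcl
  obtain ⟨t, y, yy, htN, hyN, hyyN, htM, hyM, hyyM⟩ :=
    Cfsg.Agent.Lib.helper4.E27.norm_expl R e he M Mi hM1 hM2 a b ha hb haM hbM hcl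
  have he3 : e ^ 3 = 1 := by linear_combination (e - 1) * he
  have he1 : e ≠ 1 := by
    rintro rfl
    apply h3
    linear_combination he
  have heq : e ^ p = e ^ 2 := by
    obtain ⟨k, hk⟩ : ∃ k, p = 3 * k + 2 := ⟨p / 3, by omega⟩
    rw [hk, pow_add, pow_mul, he3, one_pow, one_mul]
  obtain ⟨n, hn, hsim⟩ := Cfsg.Agent.Lib.helper4.E27.std_simil hF e he h3 heq M Mi hM2 hM1 a b
    (hRU ha) (hRU hb) haM hbM
  have hRN : R ≤ Cfsg.Geo.subgroupNormalizer R := Subgroup.le_normalizer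
  have hRS : R ≤ Cfsg.Geo.specialLinear (Fin 3) F := by
    rw [← hcl, Subgroup.closure_le]
    intro g hg
    rcases hg with h | h
    · rw [h]; exact Cfsg.Agent.Lib.helper4.E27.mem_of_det a hadet
    · rw [Set.mem_singleton_iff] at h
      rw [h]; exact Cfsg.Agent.Lib.helper4.E27.mem_of_det b hbdet
  have hrp : r.Prime := Fact.out
  constructor
  · intro hall
    by_cases hr2 : r = 2
    · left; exact hr2
    by_cases hr3 : r = 3
    · right
      refine ⟨hr3, ?_⟩
      by_contra hp9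
      have hp9' : p % 9 = 2 ∨ p % 9 = 5 := by omega
      rw [hr3] at hΩ
      exact Cfsg.Agent.Lib.helper13.E27.not_dvd_relIndex_U p hF hp9' _ R hR hRN
        (le_inf hRU hRS) hΩ
    · exfalso
      have hr5 : 5 ≤ r := by
        have := hrp.two_le
        by_contra hlt
        have h4 : r = 4 := by omega
        rw [h4] at hrp
        norm_num at hrp
      exact Cfsg.Agent.Lib.helper4.E27.bad5U _ inf_le_right R hR a b z ha hb hz e he1 hze hcent
        r hr5 hΩ hall
  · rintro (hr2 | ⟨hr3, hp9⟩)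
    · intro x hx hx2 hxns
      obtain ⟨z', hz'⟩ := hx2
      rw [hr2] at hz'
      exact Cfsg.Agent.Lib.helper4.E27.good2U hF hp3 hp2 h2 R M n hn hsim t htN htM x hx z' hz'
        hxns
    · intro x hx hx3 hxns
      obtain ⟨z', hz'⟩ := hx3
      rw [hr3] at hz'
      exact Cfsg.Agent.Lib.helper4.E27.good3U hF hp9 h3 R e he M n hn hsim a (hRN ha) haM y hyN
        hyM yy hyyN hyyM x hx z' hz' hxns

end Cfsg.Agent.S5999
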